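import Cfsg.Statements.S0393
import Mathlib
import Cfsg.Agent.Lib.Helper10.LeechCount

set_option autoImplicit false
open Cfsg

namespace Cfsg.Agent.S0393

open Cfsg.Agent.Lib.Helper28 Cfsg.Agent.Lib.Helper10

def Vbox : List ℤ := [0, 1, 2, 3, 4, 5, 6, 7]

theorem mem_Vbox (v : ℤ) : v ∈ Vbox ↔ 0 ≤ v ∧ v < 8 := by
  simp only [Vbox, List.mem_cons, List.not_mem_nil, or_false]
  omega

/-- reduction modulo 8 -/
def red : (Cfsg.GolayPt → ℤ) →+ (Cfsg.GolayPt → ZMod 8) :=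
  AddMonoidHom.compLeft (Int.castAddHom (ZMod 8)) Cfsg.GolayPt

theorem red_apply (x : Cfsg.GolayPt → ℤ) (i : Cfsg.GolayPt) : red x i = ((x i : ℤ) : ZMod 8) := rfl

theorem red_surj : Function.Surjective red := by
  intro y
  refine ⟨fun i => ((y i).val : ℤ), ?_⟩
  funext i
  rw [red_apply]
  simp

theorem mod_mem {x : Cfsg.GolayPt → ℤ} (hx : x ∈ Cfsg.leechLattice) :
    (fun i => x i % 8) ∈ Cfsg.leechLattice := by
  rw [mem_leech_iff_normal] at hx ⊢
  obtain ⟨m, hm, c, hc, h1, h2⟩ := hx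
  refine ⟨m, hm, c, hc, fun i => ?_, ?_⟩
  · rw [← h1 i]; omega
  · rw [← Finset.sum_int_mod]; exact h2

theorem ker_le : red.ker ≤ Cfsg.leechLattice := by
  intro x hx
  rw [AddMonoidHom.mem_ker] at hx
  have h8 : ∀ i, (8 : ℤ) ∣ x i := by
    intro i
    have := congrFun hx i
    rw [red_apply, Pi.zero_apply] at this
    exact (ZMod.intCast_zmod_eq_zero_iff_dvd (x i) 8).1 this
  rw [mem_leech_iff_normal]
  refine ⟨0, Or.inl rfl, ∅, isC_empty, fun i => ?_, ?_⟩
  · have := h8 i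
    simp only [chi, Finset.notMem_empty, if_false]
    omega
  · have : (8 : ℤ) ∣ ∑ i, x i := Finset.dvd_sum (fun i _ => h8 i)
    omega

set_option maxRecDepth 100000 in
theorem ncard_box : {x : Cfsg.GolayPt → ℤ | x ∈ Cfsg.leechLattice ∧ ∀ i, x i ∈ Vbox}.ncard = 2 ^ 36 := by
  have h := ncard_leech_uniform (2 ^ 100) Vbox (by decide) (by decide) (fun _ => 0) 0
  rw [show leechCnt (2 ^ 100) Vbox (fun _ => 0) 0 = 2 ^ 36 by decide +kernel] at h
  rw [← h]
  congr 1
  ext x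
  simp

theorem card_map : Nat.card (Cfsg.leechLattice.map red) = 2 ^ 36 := by
  rw [← ncard_box]
  have : ((Cfsg.leechLattice.map red : AddSubgroup (Cfsg.GolayPt → ZMod 8)) : Set (Cfsg.GolayPt → ZMod 8)) =
      red '' {x : Cfsg.GolayPt → ℤ | x ∈ Cfsg.leechLattice ∧ ∀ i, x i ∈ Vbox} := by
    ext y
    simp only [AddSubgroup.coe_map, Set.mem_image, SetLike.mem_coe, Set.mem_ofPred_eq]
    constructor
    · rintro ⟨x, hx, rfl⟩
      refine ⟨fun i => x i % 8, ⟨mod_mem hx, fun i => ?_⟩, ?_⟩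
      · rw [mem_Vbox]; show 0 ≤ x i % 8 ∧ x i % 8 < 8; omega
      · funext i
        rw [red_apply, red_apply]
        exact ZMod.intCast_mod (x i) 8
    · rintro ⟨x, ⟨hx, -⟩, rfl⟩
      exact ⟨x, hx, rfl⟩
  rw [← Set.InjOn.ncard_image (f := red), ← this]
  · rfl
  · rintro x ⟨-, hx⟩ y ⟨-, hy⟩ hxy
    funext i
    have h1 := congrFun hxy i
    rw [red_apply, red_apply, ZMod.intCast_eq_intCast_iff] at h1
    have h2 := (mem_Vbox _).1 (hx i)
    have h3 := (mem_Vbox _).1 (hy i)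
    unfold Int.ModEq at h1
    push_cast at h1
    omega


/-- The lattice has index 2^36 in ℤ^24 (unimodular at scale 1/8). -/
theorem result : Cfsg.leechLattice.index = 2 ^ 36 := by
  have h1 : Cfsg.leechLattice = (Cfsg.leechLattice.map red).comap red :=
    (AddSubgroup.comap_map_eq_self ker_le).symm
  rw [h1, AddSubgroup.index_comap_of_surjective _ red_surj]
  have h2 := (Cfsg.leechLattice.map red).card_mul_index
  rw [card_map] at h2
  have h3 : Nat.card (Cfsg.GolayPt → ZMod 8) = 2 ^ 72 := by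
    rw [Nat.card_eq_fintype_card, Fintype.card_fun, ZMod.card]
    rfl
  rw [h3] at h2
  have h4 : (2 : ℕ) ^ 72 = 2 ^ 36 * 2 ^ 36 := by norm_num
  rw [h4] at h2
  exact Nat.eq_of_mul_eq_mul_left (by norm_num) h2

end Cfsg.Agent.S0393
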