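import Cfsg.Statements.S5552
import Mathlib
import Cfsg.Agent.Lib.Helper10.LeechTri3

set_option autoImplicit false
open Cfsg

namespace Cfsg.Agent.S5552

open Cfsg.Agent.Lib.Helper10 Cfsg.Agent.Lib.Helper28

theorem nrm_vecOf {P : ℕ} (hP : memChk P = true) : sqNorm (vecOf P).1 = nrmP P := by
  rw [vecOf_val (memChk_spec hP), sqNorm_unpV']

theorem dot_dvd {y z : GolayPt → ℤ} (hy : y ∈ leechLattice) (hz : z ∈ leechLattice) : (8 : ℤ) ∣ dotInt y z := by
  have h1 := sqNorm_add y z
  obtain ⟨a, ha⟩ := sqNorm_dvd hy
  obtain ⟨b, hb⟩ := sqNorm_dvd hz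
  obtain ⟨c, hc⟩ := sqNorm_dvd (leechLattice.add_mem hy hz)
  exact ⟨c - a - b, by omega⟩

theorem zmod2_cancel (x y : ZMod 2) : x + y + y = x := by
  revert x y; decide


/-- On the Leech lattice of the definitions, let Q be a function to the field with two elements that is constant on cosets of twice the lattice, is a quadratic form there (Q(u+v+w) + Q(u) + Q(v) + Q(w) = Q(u+v) + Q(u+w) + Q(v+w) for all u, v, w), is invariant under every lattice automorphism, and is not identically zero. Then Q(v) is the squared length of v divided by 16, reduced modulo 2, for every lattice vector v (squared lengths of lattice vectors are multiples of 16). -/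
theorem result (Q : ↥Cfsg.leechLattice → ZMod 2) (hcoset : ∀ v w : ↥Cfsg.leechLattice, Q (v + (w + w)) = Q v) (hquad : ∀ u v w : ↥Cfsg.leechLattice, Q (u + v + w) + Q u + Q v + Q w = Q (u + v) + Q (u + w) + Q (v + w)) (hinv : ∀ (g : ↥Cfsg.Co0) (v : ↥Cfsg.leechLattice), Q (g • v) = Q v) (hne : ∃ v : ↥Cfsg.leechLattice, Q v ≠ 0) (v : ↥Cfsg.leechLattice) : Q v = ((Cfsg.sqNorm (v : Cfsg.GolayPt → ℤ) / 16 : ℤ) : ZMod 2) := by
  have hQ0 : Q 0 = 0 := by
    have := hquad 0 0 0
    simp only [add_zero] at this
    revert this
    generalize Q 0 = t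
    revert t
    decide
  have hA : ∀ x y : ↥Cfsg.leechLattice, sqNorm x.1 = 32 → sqNorm y.1 = 32 → Q x = Q y := by
    intro x y hx hy
    obtain ⟨g, rfl⟩ := Co0_trans32 x y hx hy
    exact (hinv g x).symm
  have hB : ∀ x y : ↥Cfsg.leechLattice, sqNorm x.1 = 48 → sqNorm y.1 = 48 → Q x = Q y := by
    intro x y hx hy
    obtain ⟨g, rfl⟩ := Co0_trans48 x y hx hy
    exact (hinv g x).symm
  have hC : ∀ x y : ↥Cfsg.leechLattice, sqNorm x.1 = 64 → sqNorm y.1 = 64 → Q x = Q y := by
    intro x y hx hy
    obtain ⟨g, rfl⟩ := Co0_trans64 x y hx hy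
    exact (hinv g x).symm
  -- the first relation
  have e1 : vecOf 686053159114795289240674611757601424 = vecOf 686053159114795289240674611757597332 +
      vecOf 686053159114795289240674611757601292 :=
    vecOf_add (by decide +kernel) (by decide +kernel) (by decide +kernel) (by decide +kernel)
  have e2 : vecOf 686053159114795289240674611757728276 = vecOf 686053159114795289240674611757597332 +
      vecOf 686053159114795289240674611757728144 :=
    vecOf_add (by decide +kernel) (by decide +kernel) (by decide +kernel) (by decide +kernel)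
  have e3 : vecOf 686053159114795289240674611757732236 = vecOf 686053159114795289240674611757601292 +
      vecOf 686053159114795289240674611757728144 :=
    vecOf_add (by decide +kernel) (by decide +kernel) (by decide +kernel) (by decide +kernel)
  have e4 : vecOf 686053159114795289240674611757732368 = vecOf 686053159114795289240674611757601424 +
      vecOf 686053159114795289240674611757728144 :=
    vecOf_add (by decide +kernel) (by decide +kernel) (by decide +kernel) (by decide +kernel)
  have n0 : sqNorm (vecOf 686053159114795289240674611757597332).1 = 32 := by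
    rw [nrm_vecOf (by decide +kernel)]; decide +kernel
  have n1 : sqNorm (vecOf 686053159114795289240674611757601292).1 = 32 := by
    rw [nrm_vecOf (by decide +kernel)]; decide +kernel
  have n2 : sqNorm (vecOf 686053159114795289240674611757728144).1 = 32 := by
    rw [nrm_vecOf (by decide +kernel)]; decide +kernel
  have n3 : sqNorm (vecOf 686053159114795289240674611757601424).1 = 32 := by
    rw [nrm_vecOf (by decide +kernel)]; decide +kernel
  have n4 : sqNorm (vecOf 686053159114795289240674611757728276).1 = 32 := by
    rw [nrm_vecOf (by decide +kernel)]; decide +kernel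
  have n5 : sqNorm (vecOf 686053159114795289240674611757732236).1 = 64 := by
    rw [nrm_vecOf (by decide +kernel)]; decide +kernel
  have n6 : sqNorm (vecOf 686053159114795289240674611757732368).1 = 32 := by
    rw [nrm_vecOf (by decide +kernel)]; decide +kernel
  set a := Q (vecOf 686053159114795289240674611757597332) with ha
  have r1 := hquad (vecOf 686053159114795289240674611757597332) (vecOf 686053159114795289240674611757601292)
    (vecOf 686053159114795289240674611757728144)
  rw [← e1, ← e2, ← e3, ← e4, hA _ _ n6 n0, hA _ _ n1 n0, hA _ _ n2 n0, hA _ _ n3 n0, hA _ _ n4 n0, ← ha] at r1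
  have hc0 : Q (vecOf 686053159114795289240674611757732236) = 0 := by
    revert r1
    generalize Q (vecOf 686053159114795289240674611757732236) = c
    generalize a = t
    revert c t
    decide
  -- the second relation
  have f1 : vecOf 686053159114717370121577100739099282 = vecOf 686053159114795289240674611757597332 +
      vecOf 686053159114717370121577100739099150 :=
    vecOf_add (by decide +kernel) (by decide +kernel) (by decide +kernel) (by decide +kernel)
  have f2 : vecOf 686053159114873208359772122776091282 = vecOf 686053159114795289240674611757597332 +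
      vecOf 686053159114873208359772122776091150 :=
    vecOf_add (by decide +kernel) (by decide +kernel) (by decide +kernel) (by decide +kernel)
  have f3 : vecOf 686053159114795289240674611757593100 = vecOf 686053159114717370121577100739099150 +
      vecOf 686053159114873208359772122776091150 :=
    vecOf_add (by decide +kernel) (by decide +kernel) (by decide +kernel) (by decide +kernel)
  have f4 : vecOf 686053159114795289240674611757593232 = vecOf 686053159114717370121577100739099282 +
      vecOf 686053159114873208359772122776091150 :=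
    vecOf_add (by decide +kernel) (by decide +kernel) (by decide +kernel) (by decide +kernel)
  have m1 : sqNorm (vecOf 686053159114717370121577100739099150).1 = 32 := by
    rw [nrm_vecOf (by decide +kernel)]; decide +kernel
  have m2 : sqNorm (vecOf 686053159114873208359772122776091150).1 = 32 := by
    rw [nrm_vecOf (by decide +kernel)]; decide +kernel
  have m3 : sqNorm (vecOf 686053159114717370121577100739099282).1 = 48 := by
    rw [nrm_vecOf (by decide +kernel)]; decide +kernel
  have m4 : sqNorm (vecOf 686053159114873208359772122776091282).1 = 48 := by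
    rw [nrm_vecOf (by decide +kernel)]; decide +kernel
  have m5 : sqNorm (vecOf 686053159114795289240674611757593100).1 = 32 := by
    rw [nrm_vecOf (by decide +kernel)]; decide +kernel
  have m6 : sqNorm (vecOf 686053159114795289240674611757593232).1 = 32 := by
    rw [nrm_vecOf (by decide +kernel)]; decide +kernel
  have r2 := hquad (vecOf 686053159114795289240674611757597332) (vecOf 686053159114717370121577100739099150)
    (vecOf 686053159114873208359772122776091150)
  rw [← f1, ← f2, ← f3, ← f4, hA _ _ m6 n0, hA _ _ m1 n0, hA _ _ m2 n0, hA _ _ m5 n0, hB _ _ m4 m3, ← ha] at r2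
  have ha0 : a = 0 := by
    revert r2
    generalize Q (vecOf 686053159114717370121577100739099282) = b
    generalize a = t
    revert b t
    decide
  -- reduction to short vectors
  have red : ∀ x : ↥Cfsg.leechLattice, ∃ y : ↥Cfsg.leechLattice, sqNorm y.1 ≤ 64 ∧ Q x = Q y ∧
      ∃ k : ℤ, sqNorm x.1 = sqNorm y.1 + 32 * k := by
    intro x
    obtain ⟨y, hy, hn, z, hz, hxy⟩ := exists_short_rep x.2
    refine ⟨⟨y, hy⟩, hn, ?_, ?_⟩
    · have : x = (⟨y, hy⟩ : ↥Cfsg.leechLattice) + ((⟨z, hz⟩ : ↥Cfsg.leechLattice) + ⟨z, hz⟩) := by
        apply Subtype.ext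
        show x.1 = y + (z + z)
        rw [← two_smul ℕ z, ← hxy]; abel
      rw [this, hcoset]
    · have e : x.1 = y + (z + z) := by rw [← two_smul ℕ z, ← hxy]; abel
      obtain ⟨d, hd⟩ := dot_dvd hy hz
      obtain ⟨n, hn'⟩ := sqNorm_dvd hz
      have h1 := sqNorm_add y (z + z)
      have h2 := sqNorm_add z z
      have h3 : dotInt y (z + z) = dotInt y z + dotInt y z := by
        rw [bform_dotInt.symm, bform_dotInt.add, bform_dotInt.symm z y]
      rw [dotInt_self] at h2
      refine ⟨d + 2 * n, ?_⟩
      show sqNorm x.1 = sqNorm y + _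
      rw [e, h1, h2, h3, hd, hn']
      ring
  have short : ∀ y : ↥Cfsg.leechLattice, sqNorm y.1 ≤ 64 →
      sqNorm y.1 = 0 ∧ y = 0 ∨ sqNorm y.1 = 32 ∨ sqNorm y.1 = 48 ∨ sqNorm y.1 = 64 := by
    intro y hy
    by_cases h0 : y = 0
    · left
      refine ⟨?_, h0⟩
      rw [h0]
      simp [sqNorm]
    · right
      have h1 : 32 ≤ sqNorm y.1 := min_norm y.2 (fun h => h0 (Subtype.ext h))
      obtain ⟨k, hk⟩ := sqNorm_dvd y.2
      omega
  have hb1 : Q (vecOf 686053159114717370121577100739099282) = 1 := by
    obtain ⟨x, hx⟩ := hne
    obtain ⟨y, hn, hq, -⟩ := red x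
    rw [hq] at hx
    rcases short y hn with ⟨-, h⟩ | h | h | h
    · rw [h, hQ0] at hx; exact absurd rfl hx
    · rw [hA _ _ h n0, ← ha, ha0] at hx; exact absurd rfl hx
    · rw [hB _ _ h m3] at hx
      revert hx
      generalize Q (vecOf 686053159114717370121577100739099282) = b
      revert b
      decide
    · rw [hC _ _ h n5, hc0] at hx; exact absurd rfl hx
  obtain ⟨y, hn, hq, k, hk⟩ := red v
  rw [hq, hk]
  rcases short y hn with ⟨h, h'⟩ | h | h | h
  · rw [h', hQ0, show sqNorm (0 : ↥Cfsg.leechLattice).1 = 0 by rw [← h']; exact h]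
    have : (0 + 32 * k) / 16 = 2 * k := by omega
    rw [this]
    push_cast
    rw [show (2 : ZMod 2) = 0 from rfl, zero_mul]
  · rw [hA _ _ h n0, ← ha, ha0, h]
    have : (32 + 32 * k) / 16 = 2 * (k + 1) := by omega
    rw [this]
    push_cast
    rw [show (2 : ZMod 2) = 0 from rfl, zero_mul]
  · rw [hB _ _ h m3, hb1, h]
    have : (48 + 32 * k) / 16 = 2 * (k + 1) + 1 := by omega
    rw [this]
    push_cast
    rw [show (2 : ZMod 2) = 0 from rfl, zero_mul, zero_add]
  · rw [hC _ _ h n5, hc0, h]
    have : (64 + 32 * k) / 16 = 2 * (k + 2) := by omega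
    rw [this]
    push_cast
    rw [show (2 : ZMod 2) = 0 from rfl, zero_mul]

end Cfsg.Agent.S5552
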