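import Cfsg.Statements.S0070
import Cfsg.Agent.Lib.Helper1.Cores
import Cfsg.Agent.Lib.Helper1.Fitting

set_option autoImplicit false
open Cfsg

namespace Cfsg.Agent.S0070

open Cfsg.Agent.Lib.Helper1 Subgroup

/-- **Gaschütz**: a normal subgroup `N ≥ Φ(G)` with `N/Φ(G)` nilpotent is nilpotent. -/
theorem nilpotent_of_map_nilpotent {G : Type*} [Group G] [Finite G] (N : Subgroup G) [hN : N.Normal]
    (hΦ : frattini G ≤ N) (hnil : Group.IsNilpotent (N.map (QuotientGroup.mk' (frattini G)))) :
    Group.IsNilpotent N := by
  have q := (Group.isNilpotent_of_finite_tfae (G := N)).out 0 3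
  rw [q]; clear q
  intro p p_prime P
  set π := QuotientGroup.mk' (frattini G) with hπ
  have hπs : Function.Surjective π := QuotientGroup.mk'_surjective _
  set Nb : Subgroup (G ⧸ frattini G) := N.map π with hNb
  have hNbn : Nb.Normal := hN.map π hπs
  have hf : Function.Surjective (π.subgroupMap N) := π.subgroupMap_surjective N
  set Qb : Sylow p Nb := P.mapSurjective hf with hQb
  have hQn : (Qb : Subgroup Nb).Normal := by
    have q2 := (Group.isNilpotent_of_finite_tfae (G := Nb)).out 0 3
    exact q2.mp hnil p p_prime Qb
  have hQc : (Qb : Subgroup Nb).Characteristic := Qb.characteristic_of_normal hQn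
  have hQG : ((Qb : Subgroup Nb).map Nb.subtype).Normal := normal_map_of_char _
  set P' : Subgroup G := (P : Subgroup N).map N.subtype with hP'
  have hQeq : (Qb : Subgroup Nb).map Nb.subtype = P'.map π := by
    rw [hQb, Sylow.coe_mapSurjective, hP', Subgroup.map_map, Subgroup.map_map]
    rfl
  set M : Subgroup G := (P'.map π).comap π with hM
  have hMn : M.Normal := by
    rw [hM, ← hQeq]
    exact hQG.comap π
  have hPM : P' ≤ M := Subgroup.le_comap_map _ _
  have hPN : P' ≤ N := Subgroup.map_subtype_le _
  have hMeq : M = P' ⊔ frattini G := by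
    rw [hM, Subgroup.comap_map_eq, hπ, QuotientGroup.ker_mk']
  have hMN : M ≤ N := by
    rw [hMeq]; exact sup_le hPN hΦ
  have hidx : ¬ p ∣ (P'.subgroupOf M).index := by
    intro h
    have h1 : P'.relIndex M ∣ P'.relIndex N := Dvd.intro _ (relIndex_mul_relIndex _ _ _ hPM hMN)
    have h2 : P'.relIndex N = (P : Subgroup N).index := by
      rw [Subgroup.relIndex, hP', Subgroup.subgroupOf, Subgroup.comap_map_eq_self_of_injective
        N.subtype_injective]
    rw [h2] at h1
    exact P.not_dvd_index (h.trans h1)
  have hpg : IsPGroup p (P'.subgroupOf M) := by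
    have h1 : IsPGroup p P' := P.2.map _
    exact h1.comap_of_injective M.subtype M.subtype_injective
  set R : Sylow p M := hpg.toSylow hidx with hR
  have hRmap : (R : Subgroup M).map M.subtype = P' := by
    rw [hR, IsPGroup.toSylow_coe, Subgroup.subgroupOf_map_subtype, inf_of_le_left hPM]
  have frat := Sylow.normalizer_sup_eq_top R
  rw [hRmap, hMeq, ← sup_assoc, sup_of_le_left (a := normalizer (P' : Set G)) le_normalizer] at frat
  have hnorm := frattini_nongenerating frat
  have P_normal_in_G : (map N.subtype (P : Subgroup N)).Normal := normalizer_eq_top_iff.mp hnorm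
  exact P_normal_in_G.of_map_subtype

/-- The Fitting subgroup commutes with passing to the Frattini quotient: the Fitting subgroup of G modulo its Frattini subgroup is the image of the Fitting subgroup of G. -/
theorem result {G : Type*} [Group G] [Finite G] :
    Cfsg.fittingSubgroup (G ⧸ frattini G) = (Cfsg.fittingSubgroup G).map (QuotientGroup.mk' (frattini G)) := by
  set π := QuotientGroup.mk' (frattini G) with hπ
  have hπs : Function.Surjective π := QuotientGroup.mk'_surjective _
  apply le_antisymm
  · set N : Subgroup G := (Cfsg.fittingSubgroup (G ⧸ frattini G)).comap π with hN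
    have hFn : (Cfsg.fittingSubgroup (G ⧸ frattini G)).Normal := fitting_normal
    have hNn : N.Normal := hFn.comap π
    have hmap : N.map π = Cfsg.fittingSubgroup (G ⧸ frattini G) :=
      Subgroup.map_comap_eq_self_of_surjective hπs _
    have hΦ : frattini G ≤ N := by
      intro x hx
      rw [hN, Subgroup.mem_comap]
      have : π x = 1 := by
        rw [hπ, QuotientGroup.mk'_apply, QuotientGroup.eq_one_iff]; exact hx
      rw [this]; exact Subgroup.one_mem _
    have hnil : Group.IsNilpotent N := by
      apply nilpotent_of_map_nilpotent N hΦ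
      rw [← hπ, hmap]
      exact fitting_nilpotent
    rw [← hmap]
    exact Subgroup.map_mono (le_fitting hNn hnil)
  · apply le_fitting
    · exact (fitting_normal (G := G)).map π hπs
    · have : Group.IsNilpotent (Cfsg.fittingSubgroup G) := fitting_nilpotent
      exact Group.nilpotent_of_surjective (π.subgroupMap _) (π.subgroupMap_surjective _)

end Cfsg.Agent.S0070
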