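import Cfsg.Statements.S4446
import Cfsg.Agent.Lib.Lead.GlaubQ

set_option autoImplicit false
open Cfsg

namespace Cfsg.Agent.S4446

open Cfsg.Agent.Lib.Lead.Glaub Cfsg.Agent.Lib.Helper2 Cfsg.Agent.Lib.Helper6 in
/-- Let the finite group Γ be generated by a normal subgroup G and a cyclic subgroup S of coprime orders, C = G ⊓ C(S), and let χ be an S-invariant irreducible character of G with canonical extension χ̂ to Γ (the extension whose determinantal order is coprime to the order of S). Then there are exactly one irreducible character β of C and one sign ε such that χ̂(c s) = ε β(c) for every c ∈ C and every generator s of S; this β is a constituent of the restriction of χ to C; distinct S-invariant χ give distinct β; and every irreducible character of C arises in this way. -/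
theorem result {Γ : Type*} [Group Γ] [Fintype Γ] (G S : Subgroup Γ) [Fintype G] (hnorm : ∀ s ∈ S, ∀ g ∈ G, s * g * s⁻¹ ∈ G) (hcop : (Nat.card G).Coprime (Nat.card S)) (htop : G ⊔ S = ⊤) (hcyc : IsCyclic S) (C : Subgroup Γ) [Fintype C] (hC : C = G ⊓ Subgroup.centralizer (S : Set Γ)) (hCG : C ≤ G) : (∀ (χ : Cfsg.IrrCharacter G) (χh : Cfsg.IrrCharacter Γ), (∀ s ∈ S, ∀ g g' : G, (g' : Γ) = s * g * s⁻¹ → (χ : G → ℂ) g' = (χ : G → ℂ) g) → (∀ g : G, (χh : Γ → ℂ) g = (χ : G → ℂ) g) → (Cfsg.detOrder (χh : Γ → ℂ)).Coprime (Nat.card S) → (∃! βε : Cfsg.IrrCharacter C × ℤ, (βε.2 = 1 ∨ βε.2 = -1) ∧ ∀ c : C, ∀ s : Γ, Subgroup.zpowers s = S → (χh : Γ → ℂ) ((c : Γ) * s) = (βε.2 : ℂ) * (βε.1 : C → ℂ) c) ∧ ∀ β : Cfsg.IrrCharacter C, ∀ ε : ℤ, (ε = 1 ∨ ε = -1) → (∀ c : C, ∀ s : Γ, Subgroup.zpowers s = S → (χh : Γ → ℂ) ((c : Γ) * s) = (ε : ℂ) * (β : C → ℂ) c) → Cfsg.classInner (fun c : C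 => (χ : G → ℂ) ⟨c, hCG c.2⟩) (β : C → ℂ) ≠ 0) ∧ (∀ (χ χ' : Cfsg.IrrCharacter G) (χh χh' : Cfsg.IrrCharacter Γ), (∀ s ∈ S, ∀ g g' : G, (g' : Γ) = s * g * s⁻¹ → (χ : G → ℂ) g' = (χ : G → ℂ) g) → (∀ s ∈ S, ∀ g g' : G, (g' : Γ) = s * g * s⁻¹ → (χ' : G → ℂ) g' = (χ' : G → ℂ) g) → (∀ g : G, (χh : Γ → ℂ) g = (χ : G → ℂ) g) → (∀ g : G, (χh' : Γ → ℂ) g = (χ' : G → ℂ) g) → (Cfsg.detOrder (χh : Γ → ℂ)).Coprime (Nat.card S) → (Cfsg.detOrder (χh' : Γ → ℂ)).Coprime (Nat.card S) → ∀ β : Cfsg.IrrCharacter C, ∀ ε ε' : ℤ, (ε = 1 ∨ ε = -1) → (ε' = 1 ∨ ε' = -1) → (∀ c : C, ∀ s : Γ, Subgroup.zpowers s = S → (χh : Γ → ℂ) ((c : Γ) * s) = (ε : ℂ) * (β : C → ℂ) c) → (∀ c : C, ∀ s : Γ, Subgroup.zpowers s = S → (χh' : Γ → ℂ) ((c : Γ) * s) = (ε' : ℂ) * (β : C → ℂ) c) → χ = χ') ∧ (∀ β : Cfsg.IrrCharacter C, ∃ (χ : Cfsg.IrrCharacter G) (χh : Cfsg.IrrCharacter Γ) (ε : ℤ), (∀ s ∈ S, ∀ g g' : G, (g'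 : Γ) = s * g * s⁻¹ → (χ : G → ℂ) g' = (χ : G → ℂ) g) ∧ (∀ g : G, (χh : Γ → ℂ) g = (χ : G → ℂ) g) ∧ (Cfsg.detOrder (χh : Γ → ℂ)).Coprime (Nat.card S) ∧ (ε = 1 ∨ ε = -1) ∧ ∀ c : C, ∀ s : Γ, Subgroup.zpowers s = S → (χh : Γ → ℂ) ((c : Γ) * s) = (ε : ℂ) * (β : C → ℂ) c) := by
  classical
  have hS := comm_of_cyclic S hcyc
  obtain ⟨s₀, hs₀⟩ := exists_gen S hcyc
  have hs₀S : s₀ ∈ S := hs₀ ▸ Subgroup.mem_zpowers s₀
  have hirr : ∀ (χ : Cfsg.IrrCharacter G) (χh : Cfsg.IrrCharacter Γ),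
      (∀ g : G, (χh : Γ → ℂ) g = (χ : G → ℂ) g) →
      IsIrrCharacter G (fun g : G => (χh : Γ → ℂ) g) := by
    intro χ χh h
    rw [show (fun g : G => (χh : Γ → ℂ) g) = (χ : G → ℂ) from funext h]
    exact χ.2
  have hε0 : ∀ ε : ℤ, (ε = 1 ∨ ε = -1) → (ε : ℂ) ≠ 0 := by
    rintro ε (rfl | rfl) <;> simp
  -- injectivity
  have hinj : (∀ (χ χ' : Cfsg.IrrCharacter G) (χh χh' : Cfsg.IrrCharacter Γ),
      (∀ g : G, (χh : Γ → ℂ) g = (χ : G → ℂ) g) → (∀ g : G, (χh' : Γ → ℂ) g = (χ' : G → ℂ) g) →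
      ∀ β : Cfsg.IrrCharacter C, ∀ ε ε' : ℤ, (ε = 1 ∨ ε = -1) → (ε' = 1 ∨ ε' = -1) →
      (∀ c : C, ∀ s : Γ, Subgroup.zpowers s = S →
        (χh : Γ → ℂ) ((c : Γ) * s) = (ε : ℂ) * (β : C → ℂ) c) →
      (∀ c : C, ∀ s : Γ, Subgroup.zpowers s = S →
        (χh' : Γ → ℂ) ((c : Γ) * s) = (ε' : ℂ) * (β : C → ℂ) c) → χ = χ') := by
    intro χ χ' χh χh' hext hext' β ε ε' hε hε' h h'
    by_contra hne
    have hne' : (fun g : G => (χh : Γ → ℂ) g) ≠ (fun g : G => (χh' : Γ → ℂ) g) := by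
      intro he
      apply hne
      apply Subtype.ext
      funext g
      rw [← hext g, ← hext' g]
      exact congrFun he g
    have h1 := psi_orth G S C hnorm hcop htop hS hC hs₀ χh.2 (hirr χ χh hext) χh'.2 hne'
    have e1 : (fun c : C => (χh : Γ → ℂ) (c * s₀)) = (ε : ℂ) • (β : C → ℂ) := by
      funext c
      rw [h c s₀ hs₀]
      rfl
    have e2 : (fun c : C => (χh' : Γ → ℂ) (c * s₀)) = (ε' : ℂ) • (β : C → ℂ) := by
      funext c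
      rw [h' c s₀ hs₀]
      rfl
    rw [e1, e2, classInner_smul_left, classInner_smul_right, classInner_irr β.2 β.2, if_pos rfl,
      mul_one] at h1
    rcases mul_eq_zero.mp h1 with h2 | h2
    · exact hε0 ε hε h2
    · rw [map_eq_zero] at h2
      exact hε0 ε' hε' h2
  refine ⟨?_, ?_, ?_⟩
  · intro χ χh _ hext hdet
    refine ⟨?_, ?_⟩
    · obtain ⟨β, ε, hε, h⟩ := exists_sign_all G S C hnorm hcop htop hcyc hC χh.2 (hirr χ χh hext) hdet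
      refine ⟨(β, ε), ⟨hε, h⟩, ?_⟩
      rintro ⟨β', ε'⟩ ⟨hε', h'⟩
      have h1 := sign_unique β'.2 β.2 hε' (fun c => by
        rw [← h' c s₀ hs₀, ← h c s₀ hs₀])
      exact Prod.ext (Subtype.ext h1.1) h1.2
    · intro β ε hε h
      have h1 := constituent G S C hnorm hcop htop hS hC hs₀S χh.2 β.2 (hε0 ε hε)
        (fun c => h c s₀ hs₀)
      have e : (fun c : C => (χ : G → ℂ) ⟨c, hCG c.2⟩) = (fun c : C => (χh : Γ → ℂ) c) := by
        funext c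
        exact (hext ⟨c, hCG c.2⟩).symm
      rw [e]
      exact h1
  · intro χ χ' χh χh' _ _ hext hext' _ _ β ε ε' hε hε' h h'
    exact hinj χ χ' χh χh' hext hext' β ε ε' hε hε' h h'
  · have hex : ∀ χ : {χ : IrrCharacter G // Inv (conjOn G S hnorm) (χ : G → ℂ)},
        ∃ (χh : Cfsg.IrrCharacter Γ) (β : IrrCharacter C) (ε : ℤ),
          (∀ g : G, (χh : Γ → ℂ) g = (χ.1 : G → ℂ) g) ∧
          (Cfsg.detOrder (χh : Γ → ℂ)).Coprime (Nat.card S) ∧ (ε = 1 ∨ ε = -1) ∧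
          ∀ c : C, ∀ s : Γ, Subgroup.zpowers s = S →
            (χh : Γ → ℂ) ((c : Γ) * s) = (ε : ℂ) * (β : C → ℂ) c := by
      intro χ
      obtain ⟨χh, hext, hdet⟩ := exists_canonical G S C hnorm hcop htop hcyc hC χ.1 χ.2
      obtain ⟨β, ε, hε, h⟩ := exists_sign_all G S C hnorm hcop htop hcyc hC χh.2
        (hirr χ.1 χh hext) hdet
      exact ⟨χh, β, ε, hext, hdet, hε, h⟩
    choose fh fβ fε h1 h2 h3 h4 using hex
    have hfinj : Function.Injective fβ := by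
      intro χ χ' he
      apply Subtype.ext
      refine hinj χ.1 χ'.1 (fh χ) (fh χ') (h1 χ) (h1 χ') (fβ χ) (fε χ) (fε χ') (h3 χ) (h3 χ')
        (h4 χ) ?_
      rw [he]
      exact h4 χ'
    haveI : Finite (IrrCharacter C) := finite_irr
    have hcard : Nat.card {χ : IrrCharacter G // Inv (conjOn G S hnorm) (χ : G → ℂ)} =
        Nat.card (IrrCharacter C) := by
      rw [card_irr_eq_card_conjClasses]
      exact card_inv_sub G S C hnorm hcop (Group.isSolvable_of_comm hS) hC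
    have hb := hfinj.bijective_of_nat_card_le hcard.ge
    intro β
    obtain ⟨χ, rfl⟩ := hb.2 β
    exact ⟨χ.1, fh χ, fε χ, (inv_conjOn_iff G S hnorm _).mp χ.2, h1 χ, h2 χ, h3 χ, h4 χ⟩

end Cfsg.Agent.S4446
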