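import Cfsg.Statements.S4451
import Cfsg.Agent.Lib.Lead.GlaubR

set_option autoImplicit false
open Cfsg

namespace Cfsg.Agent.S4451

open Cfsg.Agent.Lib.Lead.Glaub Cfsg.Agent.Lib.Helper2 Cfsg.Agent.Lib.Helper6 Cfsg.Agent.Lib.Helper24 in
/-- Let the finite group Γ be generated by a normal subgroup G and a cyclic subgroup S of coprime orders such that every non-identity element of S has the same centraliser C = G ⊓ C(S) in G. Let χ be an S-invariant irreducible character of G, χ̂ its canonical extension to Γ (determinantal order coprime to the order of S), and β the irreducible character of C with χ̂(c s) = ε₀ β(c) for c ∈ C and generators s of S (ε₀ = ±1). Then there are a sign ε = ±1, which may differ from ε₀, and a linear character μ of S with μ² = 1, such that: (a) χ̂(c x) = ε β(c) μ(x) for all c ∈ C and all x ∈ S other than 1; (b) the restriction of χ to C equals |S|·ϑ + ε β for some character ϑ of C or ϑ = 0; (c) |S| divides χ(1)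 − ε β(1). -/
theorem result {Γ : Type*} [Group Γ] [Fintype Γ] (G S : Subgroup Γ) [Fintype G] (hnorm : ∀ s ∈ S, ∀ g ∈ G, s * g * s⁻¹ ∈ G) (hcop : (Nat.card G).Coprime (Nat.card S)) (htop : G ⊔ S = ⊤) (hcyc : IsCyclic S) (C : Subgroup Γ) [Fintype C] (hC : C = G ⊓ Subgroup.centralizer (S : Set Γ)) (hCG : C ≤ G) (hfpf : ∀ x ∈ S, x ≠ 1 → G ⊓ Subgroup.centralizer ({x} : Set Γ) = C) (χ : Cfsg.IrrCharacter G) (hinv : (∀ s ∈ S, ∀ g g' : G, (g' : Γ) = s * g * s⁻¹ → (χ : G → ℂ) g' = (χ : G → ℂ) g)) (χh : Cfsg.IrrCharacter Γ) (hext : (∀ g : G, (χh : Γ → ℂ) g = (χ : G → ℂ) g)) (hdet : (Cfsg.detOrder (χh : Γ → ℂ)).Coprime (Nat.card S)) (β : Cfsg.IrrCharacter C) (ε₀ : ℤ) (hε₀ : ε₀ = 1 ∨ ε₀ = -1) (hβ : ∀ c : C, ∀ s : Γ, Subgroup.zpowers s = S → (χh : Γ → ℂ) ((c : Γ) * s) = (ε₀ : ℂ) * (β : C → ℂ) c) : ∃ ε : ℤ, (ε = 1 ∨ ε = -1) ∧ (∃ μ : S → ℂ, Cfsg.IsCharacter S μ ∧ μ 1 = 1 ∧ (∀ x : S, μ x * μ x = 1) ∧ ∀ c : C, ∀ x : S, x ≠ 1 → (χh : Γ → ℂ) ((c : Γ)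 * x) = (ε : ℂ) * (β : C → ℂ) c * μ x) ∧ (∃ ϑ : C → ℂ, Cfsg.IsCharacter C ϑ ∧ (fun c : C => (χ : G → ℂ) ⟨c, hCG c.2⟩) = fun c => (Nat.card S : ℂ) * ϑ c + (ε : ℂ) * (β : C → ℂ) c) ∧ (Nat.card S : ℤ) ∣ (Cfsg.charDegree (χ : G → ℂ) : ℤ) - ε * (Cfsg.charDegree (β : C → ℂ) : ℤ) := by
  classical
  letI := irrFintype C
  have hS := comm_of_cyclic S hcyc
  obtain ⟨s₀, hs₀⟩ := exists_gen S hcyc
  have hs₀S : s₀ ∈ S := hs₀ ▸ Subgroup.mem_zpowers s₀
  have hirr : IsIrrCharacter G (fun g : G => (χh : Γ → ℂ) g) := by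
    rw [show (fun g : G => (χh : Γ → ℂ) g) = (χ : G → ℂ) from funext hext]
    exact χ.2
  have hresC : (fun c : C => (χ : G → ℂ) ⟨c, hCG c.2⟩) = (fun c : C => (χh : Γ → ℂ) c) := by
    funext c
    exact (hext ⟨c, hCG c.2⟩).symm
  have hε0 : ∀ ε : ℤ, (ε = 1 ∨ ε = -1) → (ε : ℂ) ≠ 0 := by
    rintro ε (rfl | rfl) <;> simp
  have hεsq : ∀ ε : ℤ, (ε = 1 ∨ ε = -1) → (ε : ℂ) * (ε : ℂ) = 1 := by
    rintro ε (rfl | rfl) <;> simp
  -- common end of the argument
  have hfin : ∀ ε : ℤ, (∃ ϑ : C → ℂ, Cfsg.IsCharacter C ϑ ∧ (fun c : C => (χ : G → ℂ) ⟨c, hCG c.2⟩) =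
      fun c => (Nat.card S : ℂ) * ϑ c + (ε : ℂ) * (β : C → ℂ) c) →
      (Nat.card S : ℤ) ∣ (Cfsg.charDegree (χ : G → ℂ) : ℤ) - ε * (Cfsg.charDegree (β : C → ℂ) : ℤ) := by
    rintro ε ⟨ϑ, hϑ, h⟩
    obtain ⟨k, hk⟩ := IsCharacter.apply_one hϑ
    have h1 := congrFun h 1
    have h2 : (χ : G → ℂ) ⟨((1 : C) : Γ), hCG (1 : C).2⟩ = (χ : G → ℂ) 1 := rfl
    rw [h2, hk, ← charDegree_cast (IsIrrCharacter.isCharacter χ.2),
      ← charDegree_cast (IsIrrCharacter.isCharacter β.2)] at h1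
    refine ⟨k, ?_⟩
    have h3 : ((Cfsg.charDegree (χ : G → ℂ) : ℤ) : ℂ) =
        (((Nat.card S : ℤ) * k + ε * (Cfsg.charDegree (β : C → ℂ) : ℤ) : ℤ) : ℂ) := by
      push_cast
      exact h1
    have h4 := Int.cast_injective h3
    rw [h4]
    ring
  by_cases hs1 : s₀ = 1
  · -- trivial operator group
    have hSbot : S = ⊥ := by rw [← hs₀, hs1, Subgroup.zpowers_one_eq_bot]
    have hb : ∃ ϑ : C → ℂ, Cfsg.IsCharacter C ϑ ∧ (fun c : C => (χ : G → ℂ) ⟨c, hCG c.2⟩) =
        fun c => (Nat.card S : ℂ) * ϑ c + (ε₀ : ℂ) * (β : C → ℂ) c := by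
      refine ⟨0, isCharacter_zero, ?_⟩
      rw [hresC]
      funext c
      have := hβ c s₀ hs₀
      rw [hs1, mul_one] at this
      rw [this]
      simp
    refine ⟨ε₀, hε₀, ⟨fun _ => 1, IsIrrCharacter.isCharacter isIrrCharacter_one, rfl,
      fun _ => one_mul 1, ?_⟩, hb, hfin ε₀ hb⟩
    intro c x hx
    exfalso
    apply hx
    have : (x : Γ) ∈ (⊥ : Subgroup Γ) := hSbot ▸ x.2
    exact Subtype.ext (Subgroup.mem_bot.mp this)
  · have hCx : ∀ x : S, x ≠ 1 →
        C = G ⊓ Subgroup.centralizer ((Subgroup.zpowers (x : Γ) : Subgroup Γ) : Set Γ) := by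
      intro x hx
      rw [centralizer_zpowers_eq]
      exact (hfpf x x.2 (fun h => hx (Subtype.ext h))).symm
    have hsgn : ∀ x : S, x ≠ 1 → ∃ (β' : IrrCharacter C) (ε' : ℤ), (ε' = 1 ∨ ε' = -1) ∧
        ∀ c : C, (χh : Γ → ℂ) (c * x) = (ε' : ℂ) * (β' : C → ℂ) c := fun x hx =>
      exists_sign' G S C hnorm hcop htop hS hC x.2 (hCx x hx) χh.2 hirr hdet
    haveI : Nonempty (IrrCharacter C) := ⟨β⟩
    choose! fβ fε hfε hf using hsgn
    have hα : ∀ β' : IrrCharacter C, IsCharacter S (alpha S C (χh : Γ → ℂ) (β' : C → ℂ)) :=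
      fun β' => isCharacter_alpha G S C hC hS (IsIrrCharacter.isCharacter χh.2)
        (IsIrrCharacter.isCharacter β'.2)
    have hαval : ∀ (β' : IrrCharacter C) (x : S), x ≠ 1 →
        alpha S C (χh : Γ → ℂ) (β' : C → ℂ) x = if fβ x = β' then (fε x : ℂ) else 0 := by
      intro β' x hx
      unfold alpha
      have e : (fun c : C => (χh : Γ → ℂ) (c * x)) = (fε x : ℂ) • (fβ x : C → ℂ) := by
        funext c
        rw [hf x hx c]
        rfl
      rw [e, classInner_smul_left, classInner_irr (fβ x).2 β'.2]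
      by_cases h : fβ x = β'
      · rw [if_pos h, if_pos (congrArg Subtype.val h), mul_one]
      · rw [if_neg h, if_neg (fun h' => h (Subtype.ext h')), mul_zero]
    have hx₀ : (⟨s₀, hs₀S⟩ : S) ≠ 1 := fun h => hs1 (congrArg Subtype.val h)
    have hconj : ∀ ε : ℤ, (starRingEnd ℂ) (ε : ℂ) = (ε : ℂ) := fun ε => map_intCast (starRingEnd ℂ) ε
    obtain ⟨μ, ε, t, hε, hμ, hα1⟩ := abelian_structure hS (hα β)
      (by
        intro x hx
        rw [hαval β x hx]
        split_ifs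
        · right
          rw [hconj, hεsq _ (hfε x hx)]
        · left
          simp)
      ⟨s₀, hs₀S⟩ hx₀
      (by
        have e : alpha S C (χh : Γ → ℂ) (β : C → ℂ) ⟨s₀, hs₀S⟩ = (ε₀ : ℂ) := by
          unfold alpha
          have e : (fun c : C => (χh : Γ → ℂ) (c * s₀)) = (ε₀ : ℂ) • (β : C → ℂ) := by
            funext c
            rw [hβ c s₀ hs₀]
            rfl
          change classInner (fun c : C => (χh : Γ → ℂ) (c * s₀)) _ = _
          rw [e, classInner_smul_left, classInner_irr β.2 β.2, if_pos rfl, mul_one]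
        rw [e, hconj, hεsq _ hε₀])
    have hμ1 : (μ : S → ℂ) 1 = 1 := Cfsg.Agent.Lib.Helper25.Gagola.degree_one_of_comm hS μ.2
    obtain ⟨lam, hlam⟩ := exists_hom_of_degree_one (IsIrrCharacter.isCharacter μ.2) hμ1
    have hμne : ∀ x : S, (μ : S → ℂ) x ≠ 0 := by
      intro x
      rw [hlam]
      exact Units.ne_zero _
    have hkey : ∀ x : S, x ≠ 1 → fβ x = β ∧ (fε x : ℂ) = (ε : ℂ) * (μ : S → ℂ) x := by
      intro x hx
      have h1 := hαval β x hx
      rw [hμ x hx] at h1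
      by_cases h : fβ x = β
      · rw [if_pos h] at h1
        exact ⟨h, h1.symm⟩
      · rw [if_neg h] at h1
        exact absurd h1 (mul_ne_zero (hε0 ε hε) (hμne x))
    have hb : ∃ ϑ : C → ℂ, Cfsg.IsCharacter C ϑ ∧ (fun c : C => (χ : G → ℂ) ⟨c, hCG c.2⟩) =
        fun c => (Nat.card S : ℂ) * ϑ c + (ε : ℂ) * (β : C → ℂ) c := by
      haveI := Fintype.ofFinite S
      have hS0 : (Nat.card S : ℂ) ≠ 0 := Nat.cast_ne_zero.mpr Nat.card_pos.ne'
      have hT : ∀ β' : IrrCharacter C, ∃ T : ℕ, classInner (fun c : C => (χh : Γ → ℂ) c) β' =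
          (Nat.card S : ℂ) * T + (if β' = β then (ε : ℂ) else 0) := by
        intro β'
        have e1 : classInner (fun c : C => (χh : Γ → ℂ) c) β' =
            alpha S C (χh : Γ → ℂ) (β' : C → ℂ) 1 := by
          unfold alpha
          simp
        by_cases hb : β' = β
        · subst hb
          refine ⟨t, ?_⟩
          rw [e1, hα1, if_pos rfl]
          ring
        · obtain ⟨T, hT⟩ := IsCharacter.classInner_nat (hα β')
            (IsIrrCharacter.isCharacter (isIrrCharacter_one (G := S)))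
          refine ⟨T, ?_⟩
          rw [if_neg hb, add_zero, ← hT, e1]
          unfold classInner
          rw [mul_inv_cancel_left₀ hS0, Finset.sum_eq_single (1 : S)]
          · simp
          · intro x _ hx
            rw [hαval β' x hx, if_neg, zero_mul]
            rw [(hkey x hx).1]
            exact fun h => hb h.symm
          · intro h
            exact absurd (Finset.mem_univ _) h
      choose T hT using hT
      refine ⟨_, isCharacter_sum_nat T, ?_⟩
      rw [hresC]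
      have hcl : IsClassFunction C (fun c : C => (χh : Γ → ℂ) c) :=
        IsCharacter.isClassFunction (IsCharacter.restrict C (IsIrrCharacter.isCharacter χh.2))
      conv_lhs => rw [classFunction_eq_sum hcl]
      funext c
      rw [Finset.sum_apply, Finset.sum_apply, Finset.mul_sum]
      simp only [Pi.smul_apply, smul_eq_mul]
      have h1 : ∀ β' ∈ (Finset.univ : Finset (IrrCharacter C)),
          classInner (fun c : C => (χh : Γ → ℂ) c) β' * (β' : C → ℂ) c =
          (Nat.card S : ℂ) * ((T β' : ℂ) * (β' : C → ℂ) c) +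
            (if β' = β then (ε : ℂ) else 0) * (β' : C → ℂ) c := by
        intro β' _
        rw [hT β']
        ring
      rw [Finset.sum_congr rfl h1, Finset.sum_add_distrib]
      congr 1
      simp
    refine ⟨ε, hε, ⟨μ, IsIrrCharacter.isCharacter μ.2, hμ1, ?_, ?_⟩, hb, hfin ε hb⟩
    · intro x
      by_cases hx : x = 1
      · rw [hx, hμ1, one_mul]
      · have h1 := hεsq _ (hfε x hx)
        rw [(hkey x hx).2] at h1
        have h2 := hεsq ε hε
        calc (μ : S → ℂ) x * (μ : S → ℂ) x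
            = ((ε : ℂ) * (ε : ℂ)) * ((μ : S → ℂ) x * (μ : S → ℂ) x) := by rw [h2, one_mul]
          _ = (ε : ℂ) * (μ : S → ℂ) x * ((ε : ℂ) * (μ : S → ℂ) x) := by ring
          _ = 1 := h1
    · intro c x hx
      rw [hf x hx c, (hkey x hx).1, (hkey x hx).2]
      ring

end Cfsg.Agent.S4451
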