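import Cfsg.Statements.S0089
import Cfsg.Agent.Lib.Helper1.Transfer

set_option autoImplicit false
open Cfsg

namespace Cfsg.Agent.S0089

/-- When all Sylow subgroups are abelian, the derived subgroup meets the centre trivially. -/
theorem result {G : Type*} [Group G] [Finite G] (h : ∀ p : ℕ, p.Prime → ∀ P : Sylow p G, IsMulCommutative P) : commutator G ⊓ Subgroup.center G = ⊥ := by
  rw [eq_bot_iff]
  rintro z ⟨hzc, hz⟩
  rw [Subgroup.mem_bot]
  by_contra hne
  have h1 : orderOf z ≠ 1 := fun h1 => hne (orderOf_eq_one_iff.mp h1)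
  obtain ⟨p, hp, hdvd⟩ := Nat.exists_prime_and_dvd h1
  have := Fact.mk hp
  set w := z ^ (orderOf z / p) with hw
  have hword : orderOf w = p := orderOf_pow_orderOf_div (orderOf_pos z).ne' hdvd
  have hwc : w ∈ commutator G := (commutator G).pow_mem hzc _
  have hwz : w ∈ Subgroup.center G := (Subgroup.center G).pow_mem hz _
  obtain ⟨P⟩ : Nonempty (Sylow p G) := inferInstance
  have hn : (Subgroup.zpowers w).Normal := by
    constructor
    intro x hx g
    have : x ∈ Subgroup.center G := by
      obtain ⟨k, rfl⟩ := hx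
      exact (Subgroup.center G).zpow_mem hwz k
    rw [(Subgroup.mem_center_iff.mp this g), mul_inv_cancel_right]
    exact hx
  have hpg : IsPGroup p (Subgroup.zpowers w) :=
    IsPGroup.of_card (n := 1) (by rw [Nat.card_zpowers, hword, pow_one])
  have hwP : w ∈ (P : Subgroup G) := hpg.le_sylow_of_normal P (Subgroup.mem_zpowers _)
  have h2 := Cfsg.Agent.Lib.Helper1.abelian_hall_inf_commutator_inf_center (P : Subgroup G)
    (h p hp P) P.card_coprime_index
  have h3 : w ∈ (P : Subgroup G) ⊓ commutator G ⊓ Subgroup.center G := ⟨⟨hwP, hwc⟩, hwz⟩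
  rw [h2, Subgroup.mem_bot] at h3
  rw [h3, orderOf_one] at hword
  exact hp.one_lt.ne hword

end Cfsg.Agent.S0089
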