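import Cfsg.Statements.S0286
import Cfsg.Agent.Lib.Helper15.Count7

set_option autoImplicit false
open Cfsg Cfsg.Agent.Lib.Helper15

namespace Cfsg.Agent.S0286

/-- |GO_{2m+1}(q)| = 2 q^(m^2) prod_{i=1}^{m} (q^(2i) - 1) for q odd. -/
theorem result {F : Type*} [Field F] [Fintype F] {q : ℕ} (hF : Fintype.card F = q) (hodd : Odd q) (m : ℕ) : Nat.card (Cfsg.isometryGroup F (Cfsg.quadFormOdd m F)) = 2 * q ^ (m ^ 2) * ∏ i ∈ Finset.range m, (q ^ (2 * (i + 1)) - 1) := by
  subst hF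
  have hq : 1 ≤ Fintype.card F := Fintype.card_pos
  have h2 : (2 : F) ≠ 0 := by
    intro h
    have := CharTwo.of_one_ne_zero_of_two_eq_zero (one_ne_zero (α := F)) h
    have h3 := FiniteField.even_card_of_char_two (F := F) (ringChar.eq F 2)
    exact (Nat.not_even_iff_odd.2 hodd) (Nat.even_iff.2 h3)
  have h1 := (count_odd (F := F) h2 m).2
  rw [← coe_qOdd, h1, prod_odd _ _ hq]

end Cfsg.Agent.S0286
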