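import Cfsg.Statements.S0752
import Mathlib
import Cfsg.Agent.Lib.Helper5.DualFam

set_option autoImplicit false
open Cfsg

namespace Cfsg.Agent.S0752

open Cfsg.Agent.Lib.Helper5

section
variable {F V : Type*} [Field F] [AddCommGroup V] [Module F V]

def Hyp (B : LinearMap.BilinForm F V) (m : ℕ) (e f : Fin m → V) : Prop :=
  (∀ i j, B (e i) (f j) = if i = j then 1 else 0) ∧ (∀ i j, B (e i) (e j) = 0) ∧
    (∀ i j, B (f i) (f j) = 0)

noncomputable def dualφ (B : LinearMap.BilinForm F V) {m : ℕ} (e f : Fin m → V) :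
    Fin m ⊕ Fin m → V →ₗ[F] F :=
  Sum.elim (fun i => B.flip (f i)) (fun i => - B.flip (e i))

lemma dual_rel (B : LinearMap.BilinForm F V) (hA : B.IsAlt) {m : ℕ} (e f : Fin m → V)
    (h : Hyp B m e f) (s t : Fin m ⊕ Fin m) :
    dualφ B e f t (Sum.elim e f s) = if s = t then 1 else 0 := by
  rcases s with i | i <;> rcases t with j | j
  · simp [dualφ, h.1 i j]
  · simp [dualφ, h.2.1 i j]
  · simp [dualφ, h.2.2 i j]
  · have := hA.neg_eq (f i) (e j)
    simp only [dualφ, Sum.elim_inr, LinearMap.neg_apply, LinearMap.BilinForm.flip_apply, this,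
      h.1 j i, Sum.inr.injEq, eq_comm]

end

/-- Classification of alternating forms: for an alternating bilinear form B on a finite-dimensional space over any field there is a basis indexed by (Fin m ⊕ Fin m) ⊕ Fin k such that B (e_i, f_j) = δ_ij, the e's are pairwise orthogonal, the f's are pairwise orthogonal, and the last k basis vectors are orthogonal to everything (they span the radical). -/
theorem result {F V : Type*} [Field F] [AddCommGroup V] [Module F V] [FiniteDimensional F V] (B : LinearMap.BilinForm F V) (hA : B.IsAlt) : ∃ (m k : ℕ) (b : Module.Basis ((Fin m ⊕ Fin m) ⊕ Fin k) F V), (∀ i j : Fin m, B (b (Sum.inl (Sum.inl i))) (b (Sum.inl (Sum.inr j))) = if i = j then 1 else 0) ∧ (∀ i j : Fin m, B (b (Sum.inl (Sum.inl i))) (b (Sum.inl (Sum.inl j))) = 0) ∧ (∀ i j : Fin m, B (b (Sum.inl (Sum.inr i))) (b (Sum.inl (Sum.inr j))) = 0) ∧ (∀ (j : Fin k) (v : V), B (b (Sum.inr j)) v = 0) := by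
  classical
  have hbound : ∀ m (e f : Fin m → V), Hyp B m e f → 2 * m ≤ Module.finrank F V := by
    intro m e f h
    have hli := li_of_dual (Sum.elim e f) (dualφ B e f) (dual_rel B hA e f h)
    have := hli.fintype_card_le_finrank
    simpa [two_mul] using this
  obtain ⟨m, e, f, hH, hmax⟩ : ∃ m, ∃ e f : Fin m → V, Hyp B m e f ∧
      ¬ ∃ e' f' : Fin (m + 1) → V, Hyp B (m + 1) e' f' := by
    by_contra hcon
    push Not at hcon
    have : ∀ m, ∃ e f : Fin m → V, Hyp B m e f := by
      intro m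
      induction m with
      | zero => exact ⟨Fin.elim0, Fin.elim0, fun i => i.elim0, fun i => i.elim0, fun i => i.elim0⟩
      | succ m ih => obtain ⟨e, f, h⟩ := ih; exact hcon m e f h
    obtain ⟨e, f, h⟩ := this (Module.finrank F V + 1)
    have := hbound _ e f h
    omega
  have hd := dual_rel B hA e f hH
  obtain ⟨k, b, hb1, hb2⟩ := exists_basis_of_dual (Sum.elim e f) (dualφ B e f) hd
  have hWe : ∀ w ∈ (⨅ t, LinearMap.ker (dualφ B e f t)), ∀ i, B w (e i) = 0 := by
    intro w hw i
    have := (Submodule.mem_iInf _).mp hw (Sum.inr i)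
    simpa [dualφ] using this
  have hWf : ∀ w ∈ (⨅ t, LinearMap.ker (dualφ B e f t)), ∀ i, B w (f i) = 0 := by
    intro w hw i
    have := (Submodule.mem_iInf _).mp hw (Sum.inl i)
    simpa [dualφ] using this
  have hWW : ∀ x ∈ (⨅ t, LinearMap.ker (dualφ B e f t)),
      ∀ y ∈ (⨅ t, LinearMap.ker (dualφ B e f t)), B x y = 0 := by
    intro x hx y hy
    by_contra hxy
    apply hmax
    refine ⟨Fin.cons ((B x y)⁻¹ • x) e, Fin.cons y f, ?_, ?_, ?_⟩
    · intro i j
      refine Fin.cases ?_ (fun i => ?_) i <;> refine Fin.cases ?_ (fun j => ?_) j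
      · simp [hxy]
      · simp [hWf x hx, (Fin.succ_ne_zero j).symm]
      · have h1 : B (e i) y = 0 := by rw [← hA.neg_eq, hWe y hy, neg_zero]
        simp [h1, Fin.succ_ne_zero i]
      · simp [hH.1 i j]
    · intro i j
      refine Fin.cases ?_ (fun i => ?_) i <;> refine Fin.cases ?_ (fun j => ?_) j
      · simp [hA x]
      · simp [hWe x hx]
      · have h1 : B (e i) x = 0 := by rw [← hA.neg_eq, hWe x hx, neg_zero]
        simp [h1]
      · simp [hH.2.1 i j]
    · intro i j
      refine Fin.cases ?_ (fun i => ?_) i <;> refine Fin.cases ?_ (fun j => ?_) j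
      · simp [hA y]
      · simp [hWf y hy]
      · have h1 : B (f i) y = 0 := by rw [← hA.neg_eq, hWf y hy, neg_zero]
        simp [h1]
      · simp [hH.2.2 i j]
  refine ⟨m, k, b, ?_, ?_, ?_, ?_⟩
  · intro i j; rw [hb1, hb1]; exact hH.1 i j
  · intro i j; rw [hb1, hb1]; exact hH.2.1 i j
  · intro i j; rw [hb1, hb1]; exact hH.2.2 i j
  · intro j v
    have hw := hb2 j
    have hv : v ∈ Submodule.span F (Set.range (Sum.elim e f)) ⊔
        (⨅ t, LinearMap.ker (dualφ B e f t)) := by
      rw [sup_of_dual _ _ hd]; trivial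
    obtain ⟨h, hh, w', hw', rfl⟩ := Submodule.mem_sup.mp hv
    rw [map_add, hWW _ hw _ hw', add_zero]
    have hle : Submodule.span F (Set.range (Sum.elim e f)) ≤ LinearMap.ker (B (b (Sum.inr j))) := by
      rw [Submodule.span_le]
      rintro _ ⟨s, rfl⟩
      rcases s with i | i
      · simpa using hWe _ hw i
      · simpa using hWf _ hw i
    exact hle hh

end Cfsg.Agent.S0752
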