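import Cfsg.Statements.S0767
import Cfsg.Agent.Lib.Helper5.Symp

set_option autoImplicit false
open Cfsg

namespace Cfsg.Agent.S0767

open Cfsg.Agent.Lib.Helper5 Matrix

/-- The root group of a point: T_v(c) T_v(d) = T_v(c + d), and for A in the symplectic group with A v = a v, the conjugate A T_v(c) A⁻¹ is again some T_v(d). -/
theorem result {F : Type*} [Field F] (m : ℕ) (v : Fin m ⊕ Fin m → F) : (∀ c d : F, Cfsg.sympTransvection m v c * Cfsg.sympTransvection m v d = Cfsg.sympTransvection m v (c + d)) ∧ ∀ (A : Matrix (Fin m ⊕ Fin m) (Fin m ⊕ Fin m) F) (a : F), A ∈ Matrix.symplecticGroup (Fin m) F → A.mulVec v = a • v → ∀ c : F, ∃ d : F, A * Cfsg.sympTransvection m v c * A⁻¹ = Cfsg.sympTransvection m v d := by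
  constructor
  · intro c d
    apply ext_mulVec
    intro x
    rw [← Matrix.mulVec_mulVec]
    simp only [sympTransvection_mulVec, sympForm_add_left, sympForm_smul_left, sympForm_self]
    module
  · intro A a hA hAv c
    refine ⟨c * a ^ 2, ?_⟩
    have hdet := SymplecticGroup.symplectic_det hA
    apply ext_mulVec
    intro x
    rw [← Matrix.mulVec_mulVec, ← Matrix.mulVec_mulVec, sympTransvection_mulVec,
      sympTransvection_mulVec, Matrix.mulVec_add, Matrix.mulVec_smul, hAv, Matrix.mulVec_mulVec,
      Matrix.mul_nonsing_inv A hdet, Matrix.one_mulVec]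
    have h1 : sympForm m F (A⁻¹ *ᵥ x) v = a * sympForm m F x v := by
      rw [← (mem_symplecticGroup_iff_preserves A).mp hA (A⁻¹ *ᵥ x) v, Matrix.mulVec_mulVec,
        Matrix.mul_nonsing_inv A hdet, Matrix.one_mulVec, hAv, sympForm_smul_right]
    rw [h1, smul_smul]
    congr 2
    ring

end Cfsg.Agent.S0767
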