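import Cfsg.Statements.S0768
import Mathlib
import Cfsg.Agent.Lib.Helper5.SympGen

set_option autoImplicit false
open scoped LinearAlgebra.Projectivization
open Cfsg

namespace Cfsg.Agent.S0768

open Cfsg.Agent.Lib.Helper5 Matrix
open scoped Pointwise

noncomputable def toSp {F : Type*} [Field F] {m : ℕ} (A : Matrix.symplecticGroup (Fin m) F) :
    ↥(Cfsg.spGL m F) :=
  ⟨⟨A.1, (A⁻¹).1, by
      have : ((A * A⁻¹ : Matrix.symplecticGroup (Fin m) F) : Matrix (Fin m ⊕ Fin m) (Fin m ⊕ Fin m) F) = 1 := by
        rw [mul_inv_cancel]; rfl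
      exact this, by
      have : ((A⁻¹ * A : Matrix.symplecticGroup (Fin m) F) : Matrix (Fin m ⊕ Fin m) (Fin m ⊕ Fin m) F) = 1 := by
        rw [inv_mul_cancel]; rfl
      exact this⟩, fun u v => symp_preserves A u v⟩

theorem sp_key {F : Type*} [Field F] {m : ℕ} (H : Submodule F (Fin m ⊕ Fin m → F)) (u u' : Fin m ⊕ Fin m → F)
    (hu : u ∉ H) (hu' : u' ∉ H) (hperp : ∀ h ∈ H, Cfsg.sympForm m F h (u' - u) = 0) :
    ∃ g : ↥(Cfsg.spGL m F), (∀ h ∈ H, (g : Matrix.GeneralLinearGroup (Fin m ⊕ Fin m) F).1 *ᵥ h = h) ∧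
      (g : Matrix.GeneralLinearGroup (Fin m ⊕ Fin m) F).1 *ᵥ u = u' := by
  obtain ⟨A, -, h1, h2⟩ := tv_key H u u' hu hu' hperp
  exact ⟨toSp A, h1, h2⟩

theorem not_mem_span_of_ne {F : Type*} [Field F] {m : ℕ} (u v : Fin m ⊕ Fin m → F)
    (h : Cfsg.sympForm m F u v ≠ 0) : v ∉ Submodule.span F {u} := by
  intro hmem
  obtain ⟨c, rfl⟩ := Submodule.mem_span_singleton.mp hmem
  rw [sympForm_smul_right, sympForm_self, mul_zero] at h
  exact h rfl

/-- Primitivity: for m ≥ 1 and F finite, the symplectic group of the form sympForm (as a subgroup of the general linear group) acts primitively on the projective space of F^(2m). -/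
theorem result {F : Type*} [Field F] [Finite F] (m : ℕ) (hm : 1 ≤ m) : MulAction.IsPreprimitive ↥(Cfsg.spGL m F) (ℙ F (Fin m ⊕ Fin m → F)) := by
  classical
  have hbot : ∀ x : Fin m ⊕ Fin m → F, x ≠ 0 → x ∉ (⊥ : Submodule F (Fin m ⊕ Fin m → F)) :=
    fun x hx h => hx ((Submodule.mem_bot F).mp h)
  haveI : MulAction.IsPretransitive ↥(Cfsg.spGL m F) (ℙ F (Fin m ⊕ Fin m → F)) := by
    constructor
    intro p q
    induction p using Projectivization.ind with
    | _ u hu =>
    induction q using Projectivization.ind with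
    | _ v hv =>
    obtain ⟨g, -, hg⟩ := sp_key ⊥ u v (hbot u hu) (hbot v hv) (fun h hh => by
      rw [(Submodule.mem_bot F).mp hh, sympForm_zero_left])
    refine ⟨g, ?_⟩
    have hne : (g : Matrix.GeneralLinearGroup (Fin m ⊕ Fin m) F).1 *ᵥ u ≠ 0 := by rw [hg]; exact hv
    show Projectivization.mk F ((g : Matrix.GeneralLinearGroup (Fin m ⊕ Fin m) F).1 *ᵥ u) hne = _
    simp only [hg]
  refine ⟨fun {B} hB => ?_⟩
  by_cases hsub : B.Subsingleton
  · exact Or.inl hsub
  right
  rw [Set.not_subsingleton_iff] at hsub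
  obtain ⟨p, hp, q, hq, hpq⟩ := hsub
  -- invariance
  have hK : ∀ (g : ↥(Cfsg.spGL m F)) (x y z : Fin m ⊕ Fin m → F) (hx : x ≠ 0) (hy : y ≠ 0) (hz : z ≠ 0),
      Projectivization.mk F x hx ∈ B → Projectivization.mk F y hy ∈ B →
      (g : Matrix.GeneralLinearGroup (Fin m ⊕ Fin m) F).1 *ᵥ x = x →
      (g : Matrix.GeneralLinearGroup (Fin m ⊕ Fin m) F).1 *ᵥ y = z → Projectivization.mk F z hz ∈ B := by
    intro g x y z hx hy hz hxB hyB hgx hgy
    have h1 : g • Projectivization.mk F x hx = Projectivization.mk F x hx := by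
      have hne : (g : Matrix.GeneralLinearGroup (Fin m ⊕ Fin m) F).1 *ᵥ x ≠ 0 := by rw [hgx]; exact hx
      show Projectivization.mk F ((g : Matrix.GeneralLinearGroup (Fin m ⊕ Fin m) F).1 *ᵥ x) hne = _
      simp only [hgx]
    have h2 : g • Projectivization.mk F y hy = Projectivization.mk F z hz := by
      have hne : (g : Matrix.GeneralLinearGroup (Fin m ⊕ Fin m) F).1 *ᵥ y ≠ 0 := by rw [hgy]; exact hz
      show Projectivization.mk F ((g : Matrix.GeneralLinearGroup (Fin m ⊕ Fin m) F).1 *ᵥ y) hne = _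
      simp only [hgy]
    have h3 : g • B = B := MulAction.isBlock_iff_smul_eq_of_nonempty.mp hB
      ⟨Projectivization.mk F x hx, ⟨_, hxB, h1⟩, hxB⟩
    rw [← h3, ← h2]
    exact Set.smul_mem_smul_set hyB
  have hscale : ∀ (z : Fin m ⊕ Fin m → F) (c : F) (hz : z ≠ 0) (hcz : c • z ≠ 0),
      Projectivization.mk F (c • z) hcz = Projectivization.mk F z hz := by
    intro z c hz hcz
    rw [Projectivization.mk_eq_mk_iff']
    exact ⟨c, rfl⟩
  -- C1
  have C1 : ∀ (x y z : Fin m ⊕ Fin m → F) (hx : x ≠ 0) (hy : y ≠ 0) (hz : z ≠ 0),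
      Projectivization.mk F x hx ∈ B → Projectivization.mk F y hy ∈ B →
      Cfsg.sympForm m F x y ≠ 0 → Cfsg.sympForm m F x z ≠ 0 → Projectivization.mk F z hz ∈ B := by
    intro x y z hx hy hz hxB hyB hxy hxz
    set c := Cfsg.sympForm m F x y / Cfsg.sympForm m F x z with hc
    have hc0 : c ≠ 0 := div_ne_zero hxy hxz
    have hcz : c • z ≠ 0 := smul_ne_zero hc0 hz
    have hxcz : Cfsg.sympForm m F x (c • z) = Cfsg.sympForm m F x y := by
      rw [sympForm_smul_right, hc]; field_simp
    obtain ⟨g, hg1, hg2⟩ := sp_key (Submodule.span F {x}) y (c • z) (not_mem_span_of_ne x y hxy)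
      (not_mem_span_of_ne x _ (by rw [hxcz]; exact hxy)) (fun h hh => by
        obtain ⟨d, rfl⟩ := Submodule.mem_span_singleton.mp hh
        rw [sympForm_smul_left, sympForm_sub_right, hxcz, sub_self, mul_zero])
    rw [← hscale z c hz hcz]
    exact hK g x y (c • z) hx hy hcz hxB hyB (hg1 x (Submodule.mem_span_singleton_self x)) hg2
  have C2 : ∀ (x y z : Fin m ⊕ Fin m → F) (hx : x ≠ 0) (hy : y ≠ 0) (hz : z ≠ 0),
      Projectivization.mk F x hx ∈ B → Projectivization.mk F y hy ∈ B →
      y ∉ Submodule.span F {x} → z ∉ Submodule.span F {x} →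
      Cfsg.sympForm m F x y = 0 → Cfsg.sympForm m F x z = 0 → Projectivization.mk F z hz ∈ B := by
    intro x y z hx hy hz hxB hyB hyx hzx hxy hxz
    obtain ⟨g, hg1, hg2⟩ := sp_key (Submodule.span F {x}) y z hyx hzx (fun h hh => by
        obtain ⟨d, rfl⟩ := Submodule.mem_span_singleton.mp hh
        rw [sympForm_smul_left, sympForm_sub_right, hxy, hxz, sub_self, mul_zero])
    exact hK g x y z hx hy hz hxB hyB (hg1 x (Submodule.mem_span_singleton_self x)) hg2
  induction p using Projectivization.ind with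
  | _ u hu =>
  induction q using Projectivization.ind with
  | _ v hv =>
  have hvu : v ∉ Submodule.span F {u} := by
    intro h
    obtain ⟨c, rfl⟩ := Submodule.mem_span_singleton.mp h
    exact hpq (hscale u c hu hv).symm
  rw [Set.eq_univ_iff_forall]
  intro r
  induction r using Projectivization.ind with
  | _ w hw =>
  by_cases huv : Cfsg.sympForm m F u v = 0
  · by_cases hwu : w ∈ Submodule.span F {u}
    · obtain ⟨c, rfl⟩ := Submodule.mem_span_singleton.mp hwu
      rw [hscale u c hu hw]; exact hp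
    · by_cases huw : Cfsg.sympForm m F u w = 0
      · exact C2 u v w hu hv hw hp hq hvu hwu huv huw
      · have hwu' : Cfsg.sympForm m F w u ≠ 0 := by rw [sympForm_swap]; exact neg_ne_zero.mpr huw
        set z := v - (Cfsg.sympForm m F w v / Cfsg.sympForm m F w u) • u with hz
        have hz0 : z ≠ 0 := by
          intro h0
          apply hvu
          rw [sub_eq_zero.mp h0]
          exact Submodule.smul_mem _ _ (Submodule.mem_span_singleton_self u)
        have huz : Cfsg.sympForm m F u z = 0 := by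
          rw [hz, sympForm_sub_right, sympForm_smul_right, sympForm_self, huv]; ring
        have hwz : Cfsg.sympForm m F w z = 0 := by
          rw [hz, sympForm_sub_right, sympForm_smul_right]; field_simp; ring
        have hzu : z ∉ Submodule.span F {u} := by
          intro h
          apply hvu
          have : v = z + (Cfsg.sympForm m F w v / Cfsg.sympForm m F w u) • u := by rw [hz]; abel
          rw [this]
          exact Submodule.add_mem _ h (Submodule.smul_mem _ _ (Submodule.mem_span_singleton_self u))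
        have hzB := C2 u v z hu hv hz0 hp hq hvu hzu huv huz
        have huz' : u ∉ Submodule.span F {z} := by
          intro h
          obtain ⟨c, hc⟩ := Submodule.mem_span_singleton.mp h
          apply hwu'
          rw [← hc, sympForm_smul_right, hwz, mul_zero]
        have hwz' : w ∉ Submodule.span F {z} := by
          intro h
          obtain ⟨c, hc⟩ := Submodule.mem_span_singleton.mp h
          apply huw
          rw [← hc, sympForm_smul_right, huz, mul_zero]
        exact C2 z u w hz0 hu hw hzB hp huz' hwz' (by rw [sympForm_swap, huz, neg_zero])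
          (by rw [sympForm_swap, hwz, neg_zero])
  · by_cases huw : Cfsg.sympForm m F u w = 0
    · obtain ⟨z, -, hzu, hzw⟩ := exists_sep_two (σ := RingHom.id F) (fun _ => rfl) (sympB m F)
        sympB_sepRight ⊥ u w (hbot u hu) (hbot w hw)
      simp only [sympB_apply] at hzu hzw
      have hz0 : z ≠ 0 := by
        rintro rfl
        rw [sympForm_zero_left] at hzu
        exact zero_ne_one hzu
      have huz : Cfsg.sympForm m F u z ≠ 0 := by rw [sympForm_swap, hzu]; simp
      have hzB := C1 u v z hu hv hz0 hp hq huv huz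
      exact C1 z u w hz0 hu hw hzB hp (by rw [hzu]; exact one_ne_zero) hzw
    · exact C1 u v w hu hv hw hp hq huv huw

end Cfsg.Agent.S0768
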