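import Cfsg.Statements.S0187
import Cfsg.Agent.Lib.Helper2.PermChar

set_option autoImplicit false
open Cfsg

namespace Cfsg.Agent.S0187

/-- A finite group is commutative if and only if every irreducible complex character has degree 1. -/
theorem result {G : Type*} [Group G] [Finite G] : (∀ a b : G, a * b = b * a) ↔ ∀ χ : Cfsg.IrrCharacter G, (χ : G → ℂ) 1 = 1 := by
  classical
  open Cfsg.Agent.Lib.Helper2 in
  cases nonempty_fintype G
  haveI := finite_irr (G := G)
  cases nonempty_fintype (Cfsg.IrrCharacter G)
  constructor
  · intro h χ
    obtain ⟨n, ρ, hρ, hχ⟩ := χ.2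
    haveI : IsMulCommutative G := isMulCommutative_iff.mpr h
    have h1 := Representation.IsIrreducible.finrank_eq_one_of_isMulCommutative ρ
    rw [← hχ, Representation.char_one, h1]
    simp
  · intro h
    have h1 := sum_degree_sq (G := G)
    simp only [h, one_pow, Finset.sum_const, Finset.card_univ, nsmul_eq_mul, mul_one] at h1
    have h2 : Fintype.card (Cfsg.IrrCharacter G) = Nat.card G := by exact_mod_cast h1
    rw [← Nat.card_eq_fintype_card, card_irr_eq_card_conjClasses] at h2
    have h3 : commProb G = 1 := by
      rw [commProb_def', h2]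
      exact div_self (by exact_mod_cast (Nat.card_pos (α := G)).ne')
    exact isMulCommutative_iff.mp (commProb_eq_one_iff.mp h3)

end Cfsg.Agent.S0187
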