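import Cfsg.Statements.S0895
import Mathlib
import Cfsg.Agent.Lib.Helper23.FS

set_option autoImplicit false
open Cfsg

namespace Cfsg.Agent.S0895

open Cfsg.Agent.Lib.Helper23 Cfsg.Agent.Lib.Helper2 Matrix Representation

theorem injective_of_isInvForm {G : Type*} [Group G] {n : ℕ} (ρ : Representation ℂ G (Fin n → ℂ))
    [ρ.IsIrreducible] {M : Matrix (Fin n) (Fin n) ℂ} (hM : IsInvForm ρ M) (hM0 : M ≠ 0) :
    Function.Injective (Matrix.toLin' M) := by
  have hρ : ∀ g, ρ g = Matrix.toLin' (mat ρ g) := fun g => by simp [mat]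
  let f : IntertwiningMap ρ (contra ρ) := ⟨Matrix.toLin' M, fun g => by
    show Matrix.toLin' M ∘ₗ ρ g = Matrix.toLin' (mat ρ g⁻¹)ᵀ ∘ₗ Matrix.toLin' M
    rw [hρ g, ← Matrix.toLin'_mul, ← Matrix.toLin'_mul, hM.mul_mat]⟩
  rcases IsIrreducible.injective_or_eq_zero f with h | h
  · exact h
  · exfalso
    apply hM0
    have h1 : Matrix.toLin' M = 0 := congrArg IntertwiningMap.toLinearMap h
    exact (Matrix.toLin' (R := ℂ)).injective (by rw [h1, map_zero])

theorem det_ne_zero_of_isInvForm {G : Type*} [Group G] {n : ℕ}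
    (ρ : Representation ℂ G (Fin n → ℂ))
    [ρ.IsIrreducible] {M : Matrix (Fin n) (Fin n) ℂ} (hM : IsInvForm ρ M) (hM0 : M ≠ 0) :
    M.det ≠ 0 := by
  have h := injective_of_isInvForm ρ hM hM0
  have h2 : Function.Injective M.mulVec := h
  rw [Matrix.mulVec_injective_iff_isUnit, Matrix.isUnit_iff_isUnit_det] at h2
  exact h2.ne_zero

/-- Let χ be a real-valued irreducible character of a finite group G whose degree is an odd natural number. Then the average over s in G of χ (s * s) equals 1. -/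
theorem result {G : Type*} [Group G] [Fintype G] (χ : G → ℂ) (hχ : Cfsg.IsIrrCharacter G χ) (hreal : ∀ g : G, (χ g).im = 0) (d : ℕ) (hd : χ 1 = d) (hodd : Odd d) : (Nat.card G : ℂ)⁻¹ * ∑ s : G, χ (s * s) = 1 := by
  have hcases := fsInd_cases hχ
  obtain ⟨n, ρ, hρ, rfl⟩ := hχ
  haveI := hρ
  obtain ⟨M, hM0, hM⟩ := exists_isInvForm_of_real ρ hρ hreal
  have hnd : n = d := by
    have h1 : ρ.character 1 = (n : ℂ) := by simp
    rw [h1] at hd
    exact_mod_cast hd
  rcases hcases with ⟨_, g, hg⟩ | ⟨h | h, _⟩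
  · exact absurd (hreal g) hg
  · exact h
  · exfalso
    have hT := hM.transpose_eq ρ
    unfold fsInd at h
    rw [h] at hT
    have hdet := congrArg Matrix.det hT
    rw [Matrix.det_transpose, Matrix.det_smul, Fintype.card_fin, (hnd ▸ hodd : Odd n).neg_one_pow] at hdet
    have := det_ne_zero_of_isInvForm ρ hM hM0
    apply this
    linear_combination hdet / 2

end Cfsg.Agent.S0895
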