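import Mathlib
import Cfsg.Statements.S0923
import Cfsg.Agent.Lib.Helper6.BrauerHom
import Cfsg.Agent.Lib.Helper6.SecondMain
import Cfsg.Agent.Lib.Helper6.DefectOrder

set_option autoImplicit false
open Cfsg
open Cfsg.Agent.Lib.Helper6 Cfsg.Agent.Lib.Helper2
open scoped ComplexConjugate Classical

attribute [local instance] irrFintype

namespace Cfsg.Agent.S0923

theorem aux {G : Type*} [Group G] [Finite G] (p : ℕ) [Fact p.Prime] (M : Ideal Cfsg.AlgInt) (hM : Cfsg.IsPModular p M) (x : G) (hx : ∃ k : ℕ, orderOf x = p ^ k) (B : Set (Cfsg.IrrCharacter G)) (hB : Cfsg.IsPBlock M B) (χ : Cfsg.IrrCharacter G) (hχ : χ ∈ B) (C : Subgroup G) (hCdef : C = Subgroup.centralizer ({x} : Set G)) (b : Set (Cfsg.IrrCharacter C)) (hb : Cfsg.IsPBlock M b) (hnot : ¬ Cfsg.IsInducedBlock M C b B) (y : C) (hy : ¬ p ∣ orderOf y) : Cfsg.blockPart b (fun c : C => (χ : G → ℂ) (x * (c : G))) y = 0 := by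
  let _ := Fintype.ofFinite G
  have := IsPModular.isPrime hM
  let _ : Fintype C := Fintype.ofFinite C
  obtain ⟨k, hk⟩ := hx
  have hPp : IsPGroup p (Subgroup.zpowers x) := by
    apply IsPGroup.of_card (n := k)
    rw [Nat.card_zpowers, hk]
  have hxC : x ∈ C := by rw [hCdef]; exact Subgroup.mem_centralizer_singleton_iff.mpr rfl
  have hPH : Subgroup.zpowers x ≤ C := by
    rw [Subgroup.zpowers_le]; exact hxC
  have hCH : Subgroup.centralizer ((Subgroup.zpowers x : Subgroup G) : Set G) ≤ C := by
    intro c hc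
    rw [hCdef, Subgroup.mem_centralizer_singleton_iff]
    exact ((Subgroup.mem_centralizer_iff.mp hc) x (Subgroup.mem_zpowers x)).symm
  have hHN : C ≤ Subgroup.normalizer ((Subgroup.zpowers x : Subgroup G) : Set G) := by
    intro c hc
    have hcx : Commute c x := Subgroup.mem_centralizer_singleton_iff.mp (hCdef ▸ hc)
    rw [Subgroup.mem_normalizer_iff]
    intro u
    constructor
    · intro hu
      obtain ⟨n, rfl⟩ := Subgroup.mem_zpowers_iff.mp hu
      have : c * x ^ n * c⁻¹ = x ^ n := by
        rw [(hcx.zpow_right n).eq]; group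
      rw [this]; exact hu
    · intro hu
      obtain ⟨n, hn⟩ := Subgroup.mem_zpowers_iff.mp hu
      have : u = x ^ n := by
        have h1 : u = c⁻¹ * (c * u * c⁻¹) * c := by group
        rw [h1, ← hn, mul_assoc, ← (hcx.zpow_right n).eq]; group
      rw [this]; exact Subgroup.zpow_mem_zpowers x n
  obtain ⟨B', hind⟩ := inducedBlockDefined_of_le hM hPp hPH hCH hHN hb
  have hχB' : χ ∉ B' := by
    intro hc
    apply hnot
    have : B = B' := by
      rw [IsPBlock.eq_blockOf hB hχ, IsPBlock.eq_blockOf hind.2.1 hc]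
    rw [this]; exact hind
  let xh : C := ⟨x, hxC⟩
  have hxc : xh ∈ Subgroup.center C := by
    rw [Subgroup.mem_center_iff]
    intro c
    apply Subtype.ext
    exact (Subgroup.mem_centralizer_singleton_iff.mp (hCdef ▸ c.2))
  have hxy : Commute x (y : G) := (Subgroup.mem_centralizer_singleton_iff.mp (hCdef ▸ y.2)).symm
  have hpp : IsPPart p ((xh * y : C) : G) x :=
    ⟨y, rfl, hxy, ⟨k, hk⟩, by rwa [Subgroup.orderOf_coe]⟩
  have key := second_main_idem hM C hind (xh * y) (by
    intro z hz
    rw [IsPPart.unique hM.1 hz hpp, hCdef]) χ hχB'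
  -- rewrite `key`
  set θ : C → ℂ := fun c => (χ : G → ℂ) c with hθ
  have hθcl : IsClassFunction C θ := isClassFunction_res C (irr_isClassFunction χ.2)
  have key2 : ∑ u : C, coef (b.indicator 1) u * θ (u * (xh * y)) = 0 := key
  rw [sum_coef_mul_class _ hθcl] at key2
  have hϑ : (fun c : C => (χ : G → ℂ) (x * (c : G))) = ∑ ξ : IrrCharacter C,
      (classInner θ (ξ : C → ℂ) * centralChar (ξ : C → ℂ) xh) • (ξ : C → ℂ) := by
    ext c
    have h1 : (χ : G → ℂ) (x * (c : G)) = θ (xh * c) := rfl
    rw [h1]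
    conv_lhs => rw [classFunction_eq_sum hθcl]
    simp only [Finset.sum_apply, Pi.smul_apply, smul_eq_mul]
    refine Finset.sum_congr rfl fun ξ _ => ?_
    rw [irr_central_mul ξ.2 hxc]
    ring
  have h2 : blockPart b (fun c : C => (χ : G → ℂ) (x * (c : G))) y =
      ∑ᶠ ξ ∈ b, classInner (fun c : C => (χ : G → ℂ) (x * (c : G))) (ξ : C → ℂ) *
        (ξ : C → ℂ) y := rfl
  rw [h2, finsum_mem_eq_sum_indicator, ← key2]
  refine Finset.sum_congr rfl fun ξ _ => ?_
  rw [hϑ, classInner_sum_irr_left, irr_central_mul ξ.2 hxc]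
  ring


/-- Brauer's Second Main Theorem, in terms of ordinary characters. Let x be a p-element of the finite group G with centralizer C, let χ lie in the block B of G and let b be a block of C that does not induce B (relative to a maximal ideal M of the algebraic integers containing p). Form the class function ϑ(c) = χ(x c) on C and its b-part (the sum over ψ ∈ b of the inner product of ϑ with ψ, times ψ). Then the b-part of ϑ vanishes at every p-regular element of C. (Equivalently, the generalized decomposition numbers of χ with respect to b are zero.) -/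
theorem result {G : Type*} [Group G] [Finite G] (p : ℕ) [Fact p.Prime] (M : Ideal Cfsg.AlgInt) (hM : Cfsg.IsPModular p M) (x : G) (hx : ∃ k : ℕ, orderOf x = p ^ k) (B : Set (Cfsg.IrrCharacter G)) (hB : Cfsg.IsPBlock M B) (χ : Cfsg.IrrCharacter G) (hχ : χ ∈ B) (b : Set (Cfsg.IrrCharacter (Subgroup.centralizer ({x} : Set G)))) (hb : Cfsg.IsPBlock M b) (hnot : ¬ Cfsg.IsInducedBlock M (Subgroup.centralizer ({x} : Set G)) b B) (y : Subgroup.centralizer ({x} : Set G)) (hy : ¬ p ∣ orderOf y) : Cfsg.blockPart b (fun c : Subgroup.centralizer ({x} : Set G) => (χ : G → ℂ) (x * (c : G))) y = 0 :=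
  aux p M hM x hx B hB χ hχ _ rfl b hb hnot y hy

end Cfsg.Agent.S0923
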