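import Cfsg.Statements.S4670
import Cfsg.Agent.Lib.Helper24.BrauerCorr
-- import your own Cfsg.Agent.* helpers here

set_option autoImplicit false
open Cfsg

namespace Cfsg.Agent.S4670

open Cfsg.Agent.Lib.Helper24 Cfsg.Agent.Lib.Helper6

/-- Fix a prime p and a maximal ideal M of the algebraic integers containing p. Let P be a p-subgroup of the finite group G and H a subgroup containing N_G(P). For every p-block B of G with defect group P there is exactly one p-block c of H with defect group P whose idempotent agrees with that of B, modulo the local ideal at M, at every element of C_G(P) (their Brauer-map images at P coincide); and every p-block c of H with defect group P arises in this way from exactly one such B. This is the Brauer correspondence over H. -/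
theorem result {G : Type*} [Group G] [Fintype G] (p : ℕ) [Fact p.Prime] (M : Ideal Cfsg.AlgInt) (hM : Cfsg.IsPModular p M) (P H : Subgroup G) (hP : IsPGroup p P) (hH : Subgroup.normalizer (P : Set G) ≤ H) : (∀ B : Set (Cfsg.IrrCharacter G), Cfsg.IsPBlock M B → Cfsg.IsDefectGroup p M B P → ∃! c : Set (Cfsg.IrrCharacter H), Cfsg.IsPBlock M c ∧ Cfsg.IsDefectGroup p M c (P.subgroupOf H) ∧ ∀ x : G, x ∈ Subgroup.centralizer (P : Set G) → Cfsg.MemLocalIdeal M (Cfsg.blockCoeff B x - Cfsg.subgroupBlockCoeff H c x)) ∧ (∀ c : Set (Cfsg.IrrCharacter H), Cfsg.IsPBlock M c → Cfsg.IsDefectGroup p M c (P.subgroupOf H) → ∃! B : Set (Cfsg.IrrCharacter G), Cfsg.IsPBlock M B ∧ Cfsg.IsDefectGroup p M B P ∧ ∀ x : G, x ∈ Subgroup.centralizer (P : Set G) → Cfsg.MemLocalIdeal M (Cfsg.blockCoeff B x - Cfsg.subgroupBlockCoeff H c x)) := by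
  classical
  have hPH : P ≤ H := Subgroup.le_normalizer.trans hH
  have hCH : cz P ≤ H := (centralizer_le_nor P).trans hH
  constructor
  · intro B hB hD
    obtain ⟨e₀, he₀⟩ := exists_pair_of_defectGroup hM hB hD
    obtain ⟨a', ha'⟩ := exists_pairCopy_down (H := H) ⟨P, e₀⟩ hPH hCH
    obtain ⟨c, hc, hcu⟩ := existsUnique_block_of_pair hM (ha'.isBrauerPair_iff.mp he₀.1)
    have hmax := isMaximalBrauerPair_down hM ha'
      (isMaximalBrauerPair_of_isDefectGroup hM he₀ hD) hc
    have hDc := isDefectGroup_of_maximal hM hmax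
    have e1 : a'.1 = P.subgroupOf H := ha'.1.eq_subgroupOf
    refine ⟨c, ⟨hc.2.1, e1 ▸ hDc, ?_⟩, ?_⟩
    · exact (congr_iff_pairs hM hP hPH hCH hB hc.2.1).mpr
        (fun b' b hb hbP => pairs_agree hM ha' hH hD hDc he₀ hc hb hbP)
    · rintro c' ⟨hc', -, hcong⟩
      apply hcu
      exact ((congr_iff_pairs hM hP hPH hCH hB hc').mp hcong a' ⟨P, e₀⟩ ha' rfl).mp he₀
  · intro c hc hD
    obtain ⟨g₀, hg₀⟩ := exists_pair_of_defectGroup hM hc hD
    have ha := pairCopy_mk (isCopy_subgroupOf hPH) hCH g₀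
    obtain ⟨B, hB, hBu⟩ := existsUnique_block_of_pair hM (ha.isBrauerPair_iff.mpr hg₀.1)
    have hmax := isMaximalBrauerPair_up hM ha hH
      (isMaximalBrauerPair_of_isDefectGroup hM hg₀ hD) hB
    have hDB := isDefectGroup_of_maximal hM hmax
    refine ⟨B, ⟨hB.2.1, hDB, ?_⟩, ?_⟩
    · exact (congr_iff_pairs hM hP hPH hCH hB.2.1 hc).mpr
        (fun b' b hb hbP => pairs_agree hM ha hH hDB hD hB hg₀ hb hbP)
    · rintro B' ⟨hB', -, hcong⟩
      apply hBu
      exact ((congr_iff_pairs hM hP hPH hCH hB' hc).mp hcong _ _ ha rfl).mpr hg₀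

end Cfsg.Agent.S4670
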