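import Cfsg.Statements.S4687
import Cfsg.Agent.Lib.Helper24.SylowAxiom
-- import your own Cfsg.Agent.* helpers here

set_option autoImplicit false
open Cfsg

namespace Cfsg.Agent.S4687

/-- Fix a prime p and a maximal ideal M of the algebraic integers containing p, and a p-block B of the finite group G with maximal Brauer pair (P, e), P abelian. Then B is nilpotent if and only if its inertial quotient is trivial: every element of N_G(P) stabilizing e centralizes P. -/
theorem result {G : Type*} [Group G] [Fintype G] (p : ℕ) [Fact p.Prime] (M : Ideal Cfsg.AlgInt) (hM : Cfsg.IsPModular p M) (B : Set (Cfsg.IrrCharacter G)) (P : Subgroup G) (e : Set (Cfsg.IrrCharacter (Subgroup.centralizer (P : Set G)))) (hmax : Cfsg.IsMaximalBrauerPair p M B P e) (hab : ∀ x ∈ P, ∀ y ∈ P, x * y = y * x) : Cfsg.IsNilpotentBlock p M B ↔ ∀ x : G, x ∈ Subgroup.normalizer (P : Set G) → Cfsg.StabilizesBlock (Subgroup.centralizer (P : Set G)) e x → x ∈ Subgroup.centralizer (P : Set G) := by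
  have hPC : P ≤ Subgroup.centralizer (P : Set G) := by
    intro x hx
    rw [Subgroup.mem_centralizer_iff]
    intro h hh
    exact hab h hh x hx
  constructor
  · intro hnil
    have key : Subgroup.normalizer (P : Set G) ⊓
        Cfsg.Agent.Lib.Helper24.stabSub (Subgroup.centralizer (P : Set G)) e ≤
        Subgroup.centralizer (P : Set G) := by
      apply Cfsg.Agent.Lib.Helper24.le_of_pParts hM.1
      · rintro y hy ⟨k, hk⟩
        have := Cfsg.Agent.Lib.Helper24.mem_sup_of_orderOf_pow hM hmax hy.1 hy.2 hk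
        rwa [sup_eq_right.mpr hPC] at this
      · intro y hy hreg
        exact hnil.2 P e hmax.1 y hy.1 hy.2 hreg
    exact fun x hx1 hx2 => key ⟨hx1, hx2⟩
  · intro h
    refine ⟨hmax.1.2.1, fun Q f hQf x hxQ hxf _ => ?_⟩
    obtain ⟨y, hy⟩ := Cfsg.Agent.Lib.Helper24.exists_conj_le_maximal hM hmax hQf
    have h1 := Cfsg.Agent.Lib.Helper24.cjIdx_conj_eq_self
      (Cfsg.Agent.Lib.Helper24.cjIdx_eq_self_iff.mpr ⟨hxQ, hxf⟩) y
    obtain ⟨h2, h3⟩ := Cfsg.Agent.Lib.Helper24.cjIdx_eq_self_iff.mp h1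
    have hQP : Q.map (MulAut.conj y).toMonoidHom ≤ P := Cfsg.Agent.Lib.Helper24.PLE.le hy
    have hPQ : P ≤ Subgroup.centralizer
        ((Q.map (MulAut.conj y).toMonoidHom : Subgroup G) : Set G) :=
      hPC.trans (Cfsg.Agent.Lib.Helper24.cz_anti hQP)
    obtain ⟨t, c, ht1, ht2, hc, htc⟩ :=
      Cfsg.Agent.Lib.Helper24.exists_factorization_of_le hM hmax hy hPQ h2 h3
    have h4 : y * x * y⁻¹ ∈ Subgroup.centralizer
        ((Q.map (MulAut.conj y).toMonoidHom : Subgroup G) : Set G) := by
      rw [htc]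
      exact Subgroup.mul_mem _ (Cfsg.Agent.Lib.Helper24.cz_anti hQP (h t ht1 ht2)) hc
    have h5 := (Cfsg.Agent.Lib.Helper24.isConjSub_cz_map Q y _).mp h4
    have h6 : y⁻¹ * (y * x * y⁻¹) * y = x := by group
    rwa [h6] at h5

end Cfsg.Agent.S4687
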