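import Cfsg.Statements.S1003
import Cfsg.Agent.Lib.Helper24.Ord168
-- import your own Cfsg.Agent.* helpers here

set_option autoImplicit false
open Cfsg

namespace Cfsg.Agent.S1003

open Cfsg.Agent.Lib.Helper24.Ord168
open scoped Pointwise

/-- A simple group of order 168 has exactly 21 Sylow 2-subgroups, 28 Sylow 3-subgroups and 8 Sylow 7-subgroups. -/
theorem result {G : Type*} [Group G] [Finite G] [IsSimpleGroup G] (h : Nat.card G = 168) : Nat.card (Sylow 2 G) = 21 ∧ Nat.card (Sylow 3 G) = 28 ∧ Nat.card (Sylow 7 G) = 8 := by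
  classical
  have : Fact (Nat.Prime 2) := ⟨Nat.prime_two⟩
  have : Fact (Nat.Prime 3) := ⟨Nat.prime_three⟩
  have : Fact (Nat.Prime 7) := ⟨by norm_num⟩
  obtain ⟨P2⟩ : Nonempty (Sylow 2 G) := inferInstance
  obtain ⟨P3⟩ : Nonempty (Sylow 3 G) := inferInstance
  obtain ⟨P7⟩ : Nonempty (Sylow 7 G) := inferInstance
  have c2 : ∀ P : Sylow 2 G, Nat.card (P : Subgroup G) = 8 := fun P =>
    card_sylow_of 2 3 21 (by rw [h]; norm_num) (by norm_num) P
  have c3 : ∀ P : Sylow 3 G, Nat.card (P : Subgroup G) = 3 := fun P => by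
    have := card_sylow_of 3 1 56 (by rw [h]; norm_num) (by norm_num) P
    simpa using this
  have c7 : ∀ P : Sylow 7 G, Nat.card (P : Subgroup G) = 7 := fun P => by
    have := card_sylow_of 7 1 24 (by rw [h]; norm_num) (by norm_num) P
    simpa using this
  have i2 : (P2 : Subgroup G).index = 21 := index_sylow_of 2 3 21 (by rw [h]; norm_num) (by norm_num) P2
  have i3 : (P3 : Subgroup G).index = 56 := index_sylow_of 3 1 56 (by rw [h]; norm_num) (by norm_num) P3
  have i7 : (P7 : Subgroup G).index = 24 := index_sylow_of 7 1 24 (by rw [h]; norm_num) (by norm_num) P7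
  have nb : ∀ (H : Subgroup G) (n : ℕ), Nat.card H = n → 1 < n → H ≠ ⊥ := by
    intro H n hH hn h0
    rw [h0, Subgroup.card_bot] at hH
    omega
  have nt : ∀ (H : Subgroup G) (n : ℕ), Nat.card H = n → n < 168 → H ≠ ⊤ := by
    intro H n hH hn h0
    rw [h0, Subgroup.card_top, h] at hH
    omega
  -- the number of Sylow 7-subgroups
  have n7 : Nat.card (Sylow 7 G) = 8 := by
    have hd := Sylow.card_dvd_index P7
    rw [i7] at hd
    have hm := card_sylow_modEq_one 7 G
    have h1 := card_sylow_ne_one 7 P7 (nb _ 7 (c7 P7) (by norm_num)) (nt _ 7 (c7 P7) (by norm_num))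
    obtain ⟨n, hn⟩ : ∃ n, n = Nat.card (Sylow 7 G) := ⟨_, rfl⟩
    rw [← hn] at hd hm h1 ⊢
    have hle : n ≤ 24 := Nat.le_of_dvd (by norm_num) hd
    unfold Nat.ModEq at hm
    interval_cases n <;> omega
  have N7 : Nat.card (Subgroup.normalizer ((P7 : Subgroup G) : Set G)) = 21 := by
    have := card_normalizer_mul 7 P7
    rw [n7, h] at this
    omega
  -- elements of order 3 generate Sylow 3-subgroups
  have syl3 : ∀ y : G, orderOf y = 3 → ∃ Q : Sylow 3 G, (Q : Subgroup G) = Subgroup.zpowers y := by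
    intro y hy
    have hp3 : IsPGroup 3 (Subgroup.zpowers y) := by
      apply IsPGroup.of_card (n := 1)
      rw [Nat.card_zpowers, hy, pow_one]
    obtain ⟨Q, hQ⟩ := hp3.exists_le_sylow
    refine ⟨Q, (Subgroup.eq_of_le_of_card_ge hQ ?_).symm⟩
    rw [c3 Q, Nat.card_zpowers, hy]
  -- the number of Sylow 3-subgroups
  have n3 : Nat.card (Sylow 3 G) = 28 := by
    have hd := Sylow.card_dvd_index P3
    rw [i3] at hd
    have hm := card_sylow_modEq_one 3 G
    have h1 := card_sylow_ne_one 3 P3 (nb _ 3 (c3 P3) (by norm_num)) (nt _ 3 (c3 P3) (by norm_num))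
    have h4 : Nat.card (Sylow 3 G) ≠ 4 := by
      intro h4
      have hi : (Subgroup.normalizer ((P3 : Subgroup G) : Set G)).index = 4 :=
        (Sylow.card_eq_index_normalizer P3).symm.trans h4
      have hne : Subgroup.normalizer ((P3 : Subgroup G) : Set G) ≠ ⊤ := by
        intro h0
        rw [h0, Subgroup.index_top] at hi
        omega
      have := card_dvd_factorial_index _ hne
      rw [hi, h] at this
      revert this
      decide
    have h7 : Nat.card (Sylow 3 G) ≠ 7 := by
      intro h7
      obtain ⟨X, hX⟩ : ∃ X : Subgroup G, X = Subgroup.normalizer ((P7 : Subgroup G) : Set G) :=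
        ⟨_, rfl⟩
      rw [← hX] at N7
      obtain ⟨y', hy'⟩ := exists_prime_orderOf_dvd_card' (G := X) 3 (by rw [N7]; norm_num)
      obtain ⟨y, hyX⟩ := y'
      have hy : orderOf y = 3 := by
        rw [← hy']
        exact (Subgroup.orderOf_mk y hyX).symm
      obtain ⟨Q, hQ⟩ := syl3 y hy
      have hyQ : y ∈ (Q : Subgroup G) := hQ ▸ Subgroup.mem_zpowers y
      have hdisj : ∀ x : G, x ∈ (P7 : Subgroup G) → x ∈ (Q : Subgroup G) → x = 1 := by
        intro x h1 h2
        have hcop : Nat.Coprime (Nat.card (P7 : Subgroup G)) (Nat.card (Q : Subgroup G)) := by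
          rw [c7, c3]
          norm_num
        have := (Subgroup.disjoint_of_coprime_natCard hcop).eq_bot
        have h3 : x ∈ (P7 : Subgroup G) ⊓ (Q : Subgroup G) := ⟨h1, h2⟩
        rw [this] at h3
        exact h3
      have hcomm : ∀ x : G, x ∈ (P7 : Subgroup G) → x * y = y * x → x = 1 := by
        intro x hx hxy
        by_contra hx1
        apply prime_sylow_false 7 3 Nat.prime_three (by norm_num) P7 (c7 P7)
          (nt _ 7 (c7 P7) (by norm_num)) (by rw [← hX, N7]) y ?_ (by rw [hy])
        intro a ha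
        have hmem : (⟨a, ha⟩ : (P7 : Subgroup G)) ∈ Subgroup.zpowers (⟨x, hx⟩ : (P7 : Subgroup G)) :=
          mem_zpowers_of_prime_card (c7 P7) (fun h0 => hx1 (congrArg Subtype.val h0))
        obtain ⟨k, hk⟩ := hmem
        have hk' : x ^ k = a := by
          have := congrArg Subtype.val hk
          simpa using this
        rw [← hk']
        exact ((Commute.zpow_left (show Commute x y from hxy) k)).eq
      have hstab : ∀ x : G, x ∈ (P7 : Subgroup G) → x • Q = Q → x = 1 := by
        intro x hx hxQ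
        apply hcomm x hx
        have hxN : x ∈ Subgroup.normalizer ((Q : Subgroup G) : Set G) :=
          Sylow.smul_eq_iff_mem_normalizer.mp hxQ
        have h1 : x * y * x⁻¹ ∈ (Q : Subgroup G) :=
          (Subgroup.mem_normalizer_iff.mp hxN y).mp hyQ
        have h2 : y * x⁻¹ * y⁻¹ ∈ (P7 : Subgroup G) := by
          have hyN : y ∈ Subgroup.normalizer ((P7 : Subgroup G) : Set G) := hX ▸ hyX
          exact (Subgroup.mem_normalizer_iff.mp hyN x⁻¹).mp ((P7 : Subgroup G).inv_mem hx)
        have h3 : x * y * x⁻¹ * y⁻¹ = 1 := by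
          apply hdisj
          · have : x * y * x⁻¹ * y⁻¹ = x * (y * x⁻¹ * y⁻¹) := by group
            rw [this]
            exact (P7 : Subgroup G).mul_mem hx h2
          · exact (Q : Subgroup G).mul_mem h1 ((Q : Subgroup G).inv_mem hyQ)
        have h4 : x * y = (x * y * x⁻¹ * y⁻¹) * (y * x) := by group
        rw [h4, h3, one_mul]
      have hinj : Function.Injective (fun x : (P7 : Subgroup G) => (x : G) • Q) := by
        intro a b hab
        have h1 : ((b : G)⁻¹ * (a : G)) • Q = Q := by
          have hab' : (a : G) • Q = (b : G) • Q := hab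
          rw [mul_smul, hab', inv_smul_smul]
        have h2 := hstab _ ((P7 : Subgroup G).mul_mem ((P7 : Subgroup G).inv_mem b.2) a.2) h1
        apply Subtype.ext
        exact (inv_mul_eq_one.mp h2).symm
      have hbij : Function.Bijective (fun x : (P7 : Subgroup G) => (x : G) • Q) := by
        rw [Nat.bijective_iff_injective_and_card]
        exact ⟨hinj, by rw [c7, h7]⟩
      have hall : ∀ S : Sylow 3 G, (S : Subgroup G) ≤ X := by
        intro S
        obtain ⟨x, hx⟩ := hbij.2 S
        have hx' : (x : G) • Q = S := hx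
        rw [← hx', Sylow.coe_subgroup_smul]
        intro s hs
        obtain ⟨q, hq, rfl⟩ := (Subgroup.mem_smul_pointwise_iff_exists _ _ _).mp hs
        have hxX : (x : G) ∈ X := hX ▸ Subgroup.le_normalizer x.2
        have hqX : q ∈ X := by
          rw [hQ] at hq
          obtain ⟨k, rfl⟩ := hq
          exact X.zpow_mem hyX k
        show (x : G) * q * (x : G)⁻¹ ∈ X
        exact X.mul_mem (X.mul_mem hxX hqX) (X.inv_mem hxX)
      have hcl : Subgroup.normalClosure ((Q : Subgroup G) : Set G) ≤ X := by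
        unfold Subgroup.normalClosure
        rw [Subgroup.closure_le]
        intro s hs
        obtain ⟨q, hq, hc⟩ := Group.mem_conjugatesOfSet_iff.mp hs
        obtain ⟨g, hg⟩ := isConj_iff.mp hc
        apply hall (g • Q)
        rw [Sylow.coe_subgroup_smul, ← hg]
        exact (Subgroup.mem_smul_pointwise_iff_exists _ _ _).mpr ⟨q, hq, rfl⟩
      rcases (Subgroup.normalClosure_normal (s := ((Q : Subgroup G) : Set G))).eq_bot_or_eq_top
        with h0 | h0
      · have : (Q : Subgroup G) ≤ ⊥ := h0 ▸ Subgroup.le_normalClosure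
        exact nb _ 3 (c3 Q) (by norm_num) (le_bot_iff.mp this)
      · rw [h0] at hcl
        exact nt X 21 N7 (by norm_num) (top_le_iff.mp hcl)
    obtain ⟨n, hn⟩ : ∃ n, n = Nat.card (Sylow 3 G) := ⟨_, rfl⟩
    rw [← hn] at hd hm h1 h4 h7 ⊢
    have hle : n ≤ 56 := Nat.le_of_dvd (by norm_num) hd
    unfold Nat.ModEq at hm
    interval_cases n <;> omega
  refine ⟨?_, n3, n7⟩
  have hd := Sylow.card_dvd_index P2
  rw [i2] at hd
  have h1 := card_sylow_ne_one 2 P2 (nb _ 8 (c2 P2) (by norm_num)) (nt _ 8 (c2 P2) (by norm_num))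
  have h3 : Nat.card (Sylow 2 G) ≠ 3 := by
    intro h3
    have hi : (Subgroup.normalizer ((P2 : Subgroup G) : Set G)).index = 3 :=
      (Sylow.card_eq_index_normalizer P2).symm.trans h3
    have hne : Subgroup.normalizer ((P2 : Subgroup G) : Set G) ≠ ⊤ := by
      intro h0
      rw [h0, Subgroup.index_top] at hi
      omega
    have := card_dvd_factorial_index _ hne
    rw [hi, h] at this
    revert this
    decide
  have h7 : Nat.card (Sylow 2 G) ≠ 7 := by
    intro h7
    have N2 : Nat.card (Subgroup.normalizer ((P2 : Subgroup G) : Set G)) = 24 := by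
      have := card_normalizer_mul 2 P2
      rw [h7, h] at this
      omega
    obtain ⟨y', hy'⟩ := exists_prime_orderOf_dvd_card'
      (G := Subgroup.normalizer ((P2 : Subgroup G) : Set G)) 3 (by rw [N2]; norm_num)
    obtain ⟨y, hyX⟩ := y'
    have hy : orderOf y = 3 := by
      rw [← hy']
      exact (Subgroup.orderOf_mk y hyX).symm
    obtain ⟨Q, hQ⟩ := syl3 y hy
    have NQ : Nat.card (Subgroup.normalizer ((Q : Subgroup G) : Set G)) = 3 * 2 := by
      have := card_normalizer_mul 3 Q
      rw [n3, h] at this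
      omega
    cases nonempty_fintype (P2 : Subgroup G)
    let f : Function.End (P2 : Subgroup G) := fun z =>
      ⟨y * z * y⁻¹, (Subgroup.mem_normalizer_iff.mp hyX z).mp z.2⟩
    have hf : f ^ 3 ^ 1 = 1 := by
      funext z
      apply Subtype.ext
      show y * (y * (y * z * y⁻¹) * y⁻¹) * y⁻¹ = z
      have hy3 : y ^ 3 = 1 := hy ▸ pow_orderOf_eq_one y
      have e1 : y * (y * (y * (z : G) * y⁻¹) * y⁻¹) * y⁻¹ = y ^ 3 * z * (y ^ 3)⁻¹ := by
        simp only [pow_succ, pow_zero, one_mul, mul_inv_rev, mul_assoc]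
      rw [e1, hy3]
      simp
    have hmod := Equiv.Perm.card_fixedPoints_modEq (p := 3) (n := 1) hf
    have hc8 : Fintype.card (P2 : Subgroup G) = 8 := by
      rw [← Nat.card_eq_fintype_card]
      exact c2 P2
    rw [hc8] at hmod
    obtain ⟨z, hz, hz1⟩ : ∃ z : (P2 : Subgroup G), f z = z ∧ z ≠ 1 := by
      by_contra hcon
      push Not at hcon
      have hone : Fintype.card (Function.fixedPoints f) = 1 := by
        rw [Fintype.card_eq_one_iff]
        refine ⟨⟨1, ?_⟩, ?_⟩
        · apply Subtype.ext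
          show y * 1 * y⁻¹ = 1
          simp
        · rintro ⟨z, hz⟩
          exact Subtype.ext (hcon z hz)
      rw [hone] at hmod
      unfold Nat.ModEq at hmod
      omega
    have hzy : y * (z : G) * y⁻¹ = z := congrArg Subtype.val hz
    have hzy' : y * (z : G) = z * y := by
      have : y * (z : G) = (y * z * y⁻¹) * y := by group
      rw [this, hzy]
    apply prime_sylow_false 3 2 Nat.prime_two (by norm_num) Q (c3 Q)
      (nt _ 3 (c3 Q) (by norm_num)) NQ (z : G)
    · intro a ha
      rw [hQ] at ha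
      obtain ⟨k, rfl⟩ := ha
      exact (Commute.zpow_left (show Commute y (z : G) from hzy') k).eq
    · obtain ⟨k, hk⟩ := (IsPGroup.iff_orderOf.mp P2.2) z
      have hk' : orderOf (z : G) = 2 ^ k := by
        rw [← hk]
        exact Subgroup.orderOf_coe z
      rw [hk']
      have hk0 : k ≠ 0 := by
        rintro rfl
        rw [pow_zero, orderOf_eq_one_iff] at hk
        exact hz1 hk
      exact dvd_pow_self 2 hk0
  obtain ⟨n, hn⟩ : ∃ n, n = Nat.card (Sylow 2 G) := ⟨_, rfl⟩
  rw [← hn] at hd h1 h3 h7 ⊢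
  have hle : n ≤ 21 := Nat.le_of_dvd (by norm_num) hd
  interval_cases n <;> omega

end Cfsg.Agent.S1003
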