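import Cfsg.Statements.S0169
import Cfsg.Agent.Lib.Helper13.CentralExt2
import Cfsg.Agent.Lib.Helper13.Clifford4
import Cfsg.Agent.Lib.Helper6.Cover

set_option autoImplicit false
open Cfsg

namespace Cfsg.Agent.S0169

open Cfsg.Agent.Lib.Helper13 Cfsg.Agent.Lib.Helper2 in
/-- Itô's Theorem on character degrees: the degree of an irreducible complex representation of a finite group divides the index of any abelian normal subgroup. -/
theorem result {G : Type*} [Group G] [Finite G] {V : Type*} [AddCommGroup V] [Module ℂ V] [FiniteDimensional ℂ V] (ρ : Representation ℂ G V) [ρ.IsIrreducible] (H : Subgroup G) [H.Normal] (hH : ∀ a ∈ H, ∀ b ∈ H, a * b = b * a) : Module.finrank ℂ V ∣ H.index := by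
  classical
  cases nonempty_fintype G
  have hχ : Cfsg.IsIrrCharacter G ρ.character := isIrrCharacter_of_rep ρ inferInstance
  obtain ⟨θ, hθ⟩ := Cfsg.Agent.Lib.Helper6.exists_constituent H hχ
  obtain ⟨e, he1, he2⟩ := ratio_dvd_index H hχ θ.2 hθ
  have hθ1 : (θ : H → ℂ) 1 = 1 := by
    apply degree_one_of_abelian_quotient (⊥ : Subgroup H) _ θ.2
    · intro n hn
      rw [Subgroup.mem_bot.mp hn]
    · intro x y
      rw [Subgroup.mem_bot]
      have h1 : x * y = y * x := Subtype.ext (hH x x.2 y y.2)
      rw [h1]
      group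
  rw [hθ1, mul_one, Representation.char_one] at he1
  have : Module.finrank ℂ V = e := by exact_mod_cast he1
  rw [this]
  exact he2

end Cfsg.Agent.S0169
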