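import Cfsg.Statements.S4448
import Cfsg.Agent.Lib.Helper13.Clifford4
import Cfsg.Agent.Lib.Helper24.BlockTransport
import Cfsg.Agent.Lib.Helper24.Constituent
import Cfsg.Agent.Lib.Helper1.Coprime

set_option autoImplicit false
open Cfsg

namespace Cfsg.Agent.S4448

open Cfsg.Agent.Lib.Helper2 Cfsg.Agent.Lib.Helper13 Cfsg.Agent.Lib.Helper1
open scoped ComplexConjugate

/-- If `G/N` is abelian, two irreducible characters whose restrictions to `N` are not orthogonal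
differ by a linear character of `G/N`. -/
theorem exists_linear' {G : Type*} [Group G] [Fintype G] (N : Subgroup G) [Fintype N] [hN : N.Normal]
    (hab : ∀ x y : G, x * y * x⁻¹ * y⁻¹ ∈ N)
    {ψ ψ' : G → ℂ} (hψ : Cfsg.IsIrrCharacter G ψ) (hψ' : Cfsg.IsIrrCharacter G ψ')
    (h : Cfsg.classInner (fun n : N => ψ n) (fun n : N => ψ' n) ≠ 0) :
    ∃ β : G → ℂ, Cfsg.IsCharacter G β ∧ β 1 = 1 ∧ (∀ n ∈ N, β n = 1) ∧ ψ' = β * ψ := by
  classical
  have := finite_irr (G := G)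
  cases nonempty_fintype (Cfsg.IrrCharacter G)
  have hψcl := IsCharacter.isClassFunction (IsIrrCharacter.isCharacter hψ)
  have hψ'cl := IsCharacter.isClassFunction (IsIrrCharacter.isCharacter hψ')
  have h1 : Cfsg.indFun N (fun _ => 1) * ψ = Cfsg.indFun N (fun n : N => ψ n) := by
    rw [← indFun_mul_restrict N (fun _ => 1) hψcl]
    congr 1
    funext n
    simp
  obtain ⟨r, hr⟩ := IsCharacter.exists_eq_sum
    (IsCharacter.indFun N (IsIrrCharacter.isCharacter (isIrrCharacter_one (G := N))))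
  have hrin : ∀ β : Cfsg.IrrCharacter G,
      Cfsg.classInner (Cfsg.indFun N (fun _ => 1)) (β : G → ℂ) = r β := by
    intro β
    conv_lhs => rw [hr]
    rw [classInner_sum_irr_left]
  have h2 : Cfsg.classInner (Cfsg.indFun N (fun _ => 1) * ψ) ψ' ≠ 0 := by
    rw [h1, frobenius_reciprocity N _ ψ' hψ'cl]
    exact h
  rw [hr, Finset.sum_mul, classInner_sum_left] at h2
  obtain ⟨β, -, hβ⟩ := Finset.exists_ne_zero_of_sum_ne_zero h2
  rw [smul_mul_assoc, classInner_smul_left] at hβ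
  have hrβ : Cfsg.classInner (Cfsg.indFun N (fun _ => 1)) (β : G → ℂ) ≠ 0 := by
    rw [hrin]; exact left_ne_zero_of_mul hβ
  have hk := (classInner_indFun_one_ne_zero_iff N β.2).mp hrβ
  have hβ1 := degree_one_of_abelian_quotient N hab β.2 hk
  have hirr := IsIrrCharacter.linear_mul (IsIrrCharacter.isCharacter β.2) hβ1 hψ
  refine ⟨β, IsIrrCharacter.isCharacter β.2, hβ1, fun n hn => by rw [hk n hn, hβ1], ?_⟩
  by_contra hcontra
  apply right_ne_zero_of_mul hβ
  rw [classInner_irr hirr hψ', if_neg (fun h => hcontra h.symm)]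

theorem abelian_step {G : Type*} [Group G] [Fintype G] (N : Subgroup G) [Fintype N] [hN : N.Normal]
    (hab : ∀ x y : G, x * y * x⁻¹ * y⁻¹ ∈ N)
    {A : Type*} [Group A] [Fintype A] (σ : A → G ≃* G) (hσ : ∀ a b g, σ (a * b) g = σ a (σ b g))
    (hσN : ∀ a, ∀ n ∈ N, σ a n ∈ N)
    (hcop : (N.index).Coprime (Nat.card A))
    {θ : N → ℂ} (hθ : Cfsg.IsIrrCharacter N θ)
    (hinv : ∀ a (n : N), θ ⟨σ a n, hσN a n n.2⟩ = θ n) :
    ∃ χ : G → ℂ, Cfsg.IsIrrCharacter G χ ∧ Cfsg.classInner (fun n : N => χ n) θ ≠ 0 ∧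
      ∀ a g, χ (σ a g) = χ g := by
  classical
  have hθc := IsIrrCharacter.isCharacter hθ
  -- a constituent
  have hind1 : Cfsg.indFun N θ 1 ≠ 0 := by
    rw [Cfsg.Agent.Lib.Helper24.indFun_one]
    apply mul_ne_zero
    · exact_mod_cast (Subgroup.index_ne_zero_of_finite (H := N))
    · exact Cfsg.Agent.Lib.Helper6.irr_one_ne_zero hθ
  obtain ⟨⟨χ₀, hχ₀⟩, hne0⟩ := Cfsg.Agent.Lib.Helper24.exists_constituent (IsCharacter.indFun N hθc) hind1
  simp only at hne0
  have hχ₀c := IsIrrCharacter.isCharacter hχ₀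
  have hχ₀cl := IsCharacter.isClassFunction hχ₀c
  have hne : Cfsg.classInner (fun n : N => χ₀ n) θ ≠ 0 := by
    rw [frobenius_reciprocity N θ χ₀ hχ₀cl, ← classInner_conj_symm] at hne0
    exact (map_ne_zero _).mp hne0
  -- twisted characters
  have htw : ∀ a, Cfsg.classInner (fun n : N => χ₀ (σ a n)) θ ≠ 0 := by
    intro a
    have hbij : Function.Bijective (fun n : N => (⟨σ a n, hσN a n n.2⟩ : N)) := by
      rw [← Finite.injective_iff_bijective]
      intro x y hxy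
      exact Subtype.ext ((σ a).injective (congrArg Subtype.val hxy))
    have : Cfsg.classInner (fun n : N => χ₀ (σ a n)) θ = Cfsg.classInner (fun n : N => χ₀ n) θ := by
      simp only [Cfsg.classInner]
      congr 1
      refine Fintype.sum_bijective _ hbij _ _ fun n => ?_
      rw [hinv a n]
    rw [this]; exact hne
  have hlin : ∀ a, ∃ lam : G →* ℂˣ, (∀ n ∈ N, lam n = 1) ∧ ∀ g, χ₀ (σ a g) = (lam g : ℂ) * χ₀ g := by
    intro a
    have hirr : Cfsg.IsIrrCharacter G (χ₀ ∘ σ a) :=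
      Cfsg.Agent.Lib.Helper24.isIrrCharacter_comp_equiv hχ₀ (σ a)
    have hno : Cfsg.classInner (fun n : N => χ₀ n) (fun n : N => (χ₀ ∘ σ a) n) ≠ 0 := by
      intro h0
      rcases IsCharacter.constituent_eq_zero_of_orthogonal (IsCharacter.restrict N hχ₀c)
        (IsCharacter.restrict N (IsIrrCharacter.isCharacter hirr)) h0 hθ with h | h
      · exact hne h
      · exact htw a h
    obtain ⟨β, hβ, hβ1, hβN, hβe⟩ := exists_linear' N hab hχ₀ hirr hno
    obtain ⟨lam, rfl⟩ := exists_hom_of_degree_one hβ hβ1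
    refine ⟨lam, fun n hn => ?_, fun g => ?_⟩
    · exact Units.ext (hβN n hn)
    · exact congrFun hβe g
  choose lam hlamN hlam using hlin
  set n := N.index with hn
  have hpow : ∀ a g, (lam a g) ^ n = 1 := by
    intro a g
    rw [← map_pow]
    apply hlamN
    exact Subgroup.pow_index_mem N g
  obtain ⟨k, hk⟩ : ∃ k : ℕ, ∀ z : ℂˣ, z ^ n = 1 → z ^ (Nat.card A * k) = z := by
    by_cases hn1 : n = 1
    · exact ⟨0, fun z hz => by rw [hn1, pow_one] at hz; simp [hz]⟩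
    · have hn2 : 1 < n := by
        have : n ≠ 0 := Subgroup.index_ne_zero_of_finite
        omega
      obtain ⟨m, -, hm⟩ := Nat.exists_mul_mod_eq_one_of_coprime hcop.symm hn2
      refine ⟨m, fun z hz => ?_⟩
      rw [← Nat.mod_add_div (Nat.card A * m) n, hm, pow_add, pow_one, pow_mul, hz, one_pow, mul_one]
  set m : G →* ℂˣ := ∏ a, lam a with hm
  refine ⟨fun g => (((m ^ k) g : ℂˣ) : ℂ) * χ₀ g, ?_, ?_, ?_⟩
  · have := IsIrrCharacter.linear_mul (β := fun g => (((m ^ k) g : ℂˣ) : ℂ))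
      (IsIrrCharacter.isCharacter (isIrrCharacter_of_hom (m ^ k))) (by simp) hχ₀
    exact this
  · have : (fun n : N => (((m ^ k) (n : G) : ℂˣ) : ℂ) * χ₀ n) = fun n : N => χ₀ n := by
      funext x
      have : (m ^ k) (x : G) = 1 := by
        rw [MonoidHom.pow_apply, hm, MonoidHom.finsetProd_apply]
        rw [Finset.prod_eq_one (fun a _ => hlamN a x x.2), one_pow]
      rw [this]; simp
    rw [this]; exact hne
  · intro t g
    show (((m ^ k) (σ t g) : ℂˣ) : ℂ) * χ₀ (σ t g) = (((m ^ k) g : ℂˣ) : ℂ) * χ₀ g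
    by_cases hg : χ₀ g = 0
    · rw [hlam t g, hg]; simp
    · have hcoc : ∀ a, lam (a * t) g = lam a (σ t g) * lam t g := by
        intro a
        apply Units.ext
        have h1 := hlam (a * t) g
        rw [hσ, hlam a (σ t g), hlam t g] at h1
        have h2 : ((lam (a * t) g : ℂˣ) : ℂ) * χ₀ g
            = (((lam a (σ t g) : ℂˣ) : ℂ) * ((lam t g : ℂˣ) : ℂ)) * χ₀ g := by
          rw [← h1]; ring
        have := mul_right_cancel₀ hg h2
        rw [this]; simp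
      have hprod : m (σ t g) * (lam t g) ^ (Nat.card A) = m g := by
        rw [hm, MonoidHom.finsetProd_apply, MonoidHom.finsetProd_apply]
        rw [Nat.card_eq_fintype_card, ← Finset.card_univ, ← Finset.prod_const,
          ← Finset.prod_mul_distrib]
        rw [← Fintype.prod_equiv (Equiv.mulRight t) (fun a => lam (a * t) g) (fun a => lam a g)
          (fun a => rfl)]
        exact Finset.prod_congr rfl fun a _ => (hcoc a).symm
      have hfin : (m ^ k) (σ t g) * lam t g = (m ^ k) g := by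
        rw [MonoidHom.pow_apply, MonoidHom.pow_apply, ← hprod, mul_pow, ← pow_mul,
          hk _ (hpow t g)]
      rw [hlam t g, ← hfin]
      push_cast
      ring

theorem abelian_step' {Γ : Type*} [Group Γ] [Fintype Γ] (G S N : Subgroup Γ) [Fintype G] [Fintype N]
    (hnorm : ∀ s ∈ S, ∀ g ∈ G, s * g * s⁻¹ ∈ G) (hNG : N ≤ G) [hNn : (N.subgroupOf G).Normal]
    (hNS : ∀ s ∈ S, ∀ n ∈ N, s * n * s⁻¹ ∈ N) (hcop : (N.relIndex G).Coprime (Nat.card S))
    (hab : ∀ x ∈ G, ∀ y ∈ G, x * y * x⁻¹ * y⁻¹ ∈ N)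
    {θ : N → ℂ} (hθ : Cfsg.IsIrrCharacter N θ)
    (hinv : ∀ s ∈ S, ∀ g g' : N, (g' : Γ) = s * g * s⁻¹ → θ g' = θ g) :
    ∃ χ : G → ℂ, Cfsg.IsIrrCharacter G χ ∧ Cfsg.classInner (fun n : N => χ ⟨n, hNG n.2⟩) θ ≠ 0 ∧
      ∀ s ∈ S, ∀ g g' : G, (g' : Γ) = s * g * s⁻¹ → χ g' = χ g := by
  classical
  haveI : Fintype (N.subgroupOf G) := Fintype.ofFinite _
  haveI : Fintype S := Fintype.ofFinite _
  have hSG : S ≤ Subgroup.normalizer (G : Set Γ) := le_normalizer_of_forall_conj_mem hnorm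
  obtain ⟨χ, hχ, hne, hχinv⟩ := abelian_step (N.subgroupOf G)
    (fun x y => Subgroup.mem_subgroupOf.mpr (hab x x.2 y y.2))
    (fun s : S => conjNormalizer (s : Γ) (hSG s.2))
    (fun a b g => Subtype.ext (by
      show ((a * b : S) : Γ) * g * ((a * b : S) : Γ)⁻¹ = a * (b * g * (b : Γ)⁻¹) * (a : Γ)⁻¹
      push_cast
      group))
    (fun a n hn => Subgroup.mem_subgroupOf.mpr (hNS a a.2 n (Subgroup.mem_subgroupOf.mp hn)))
    hcop (IsIrrCharacter.toSubgroupOf hNG hθ)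
    (fun a n => hinv a a.2 _ _ rfl)
  refine ⟨χ, hχ, ?_, ?_⟩
  · have : (fun n : N.subgroupOf G => χ n) = toSubgroupOf N G (fun n : N => χ ⟨n, hNG n.2⟩) := rfl
    rw [this, classInner_toSubgroupOf hNG] at hne
    exact hne
  · intro s hs g g' h
    have : g' = conjNormalizer s (hSG hs) g := Subtype.ext h
    rw [this]; exact hχinv ⟨s, hs⟩ g

theorem over_trans {Γ : Type*} [Group Γ] (G M N : Subgroup Γ) [Fintype G] [Fintype M] [Fintype N]
    (hNM : N ≤ M) (hMG : M ≤ G)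
    {χ : G → ℂ} (hχ : Cfsg.IsCharacter G χ) {η : M → ℂ} (hη : Cfsg.IsIrrCharacter M η) {θ : N → ℂ}
    (hθ : Cfsg.IsIrrCharacter N θ)
    (h1 : Cfsg.classInner (fun m : M => χ ⟨m, hMG m.2⟩) η ≠ 0)
    (h2 : Cfsg.classInner (fun n : N => η ⟨n, hNM n.2⟩) θ ≠ 0) :
    Cfsg.classInner (fun n : N => χ ⟨n, hMG (hNM n.2)⟩) θ ≠ 0 := by
  classical
  haveI := finite_irr (G := M)
  cases nonempty_fintype (Cfsg.IrrCharacter M)
  have hρ : Cfsg.IsCharacter M (fun m : M => χ ⟨m, hMG m.2⟩) :=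
    IsCharacter.comp_hom (Subgroup.inclusion hMG) hχ
  obtain ⟨a, ha⟩ := IsCharacter.exists_eq_sum hρ
  have haη : (a ⟨η, hη⟩ : ℂ) ≠ 0 := by
    have := classInner_sum_irr_left (fun ψ => (a ψ : ℂ)) (⟨η, hη⟩ : Cfsg.IrrCharacter M)
    rw [← ha] at this
    rw [← this]; exact h1
  have hb : ∀ φ : Cfsg.IrrCharacter M, ∃ b : ℕ,
      Cfsg.classInner (fun n : N => (φ : M → ℂ) ⟨n, hNM n.2⟩) θ = b := fun φ =>
    IsCharacter.classInner_nat
      (IsCharacter.comp_hom (Subgroup.inclusion hNM) (IsIrrCharacter.isCharacter φ.2))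
      (IsIrrCharacter.isCharacter hθ)
  choose b hb using hb
  have hres : (fun n : N => χ ⟨n, hMG (hNM n.2)⟩) =
      ∑ φ : Cfsg.IrrCharacter M, (a φ : ℂ) • (fun n : N => (φ : M → ℂ) ⟨n, hNM n.2⟩) := by
    funext n
    have := congrFun ha ⟨n, hNM n.2⟩
    simp only [Finset.sum_apply, Pi.smul_apply] at this ⊢
    exact this
  rw [hres, classInner_sum_left]
  simp only [classInner_smul_left, hb]
  have hcast : (∑ φ : Cfsg.IrrCharacter M, (a φ : ℂ) * (b φ : ℂ)) =
      ((∑ φ : Cfsg.IrrCharacter M, a φ * b φ : ℕ) : ℂ) := by push_cast; rfl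
  rw [hcast]
  have hpos : 0 < ∑ φ : Cfsg.IrrCharacter M, a φ * b φ := by
    apply Finset.sum_pos'
    · intro φ _; exact Nat.zero_le _
    · refine ⟨⟨η, hη⟩, Finset.mem_univ _, ?_⟩
      apply Nat.mul_pos
      · apply Nat.pos_of_ne_zero
        intro h0; apply haη; rw [h0]; simp
      · apply Nat.pos_of_ne_zero
        intro h0
        apply h2
        have := hb ⟨η, hη⟩
        rw [h0] at this
        simpa using this
  exact_mod_cast hpos.ne'

theorem main {Γ : Type*} [Group Γ] [Fintype Γ] (G S : Subgroup Γ) [Fintype G]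
    (hnorm : ∀ s ∈ S, ∀ g ∈ G, s * g * s⁻¹ ∈ G) (d : ℕ) :
    ∀ (N : Subgroup Γ) [Fintype N] (hNG : N ≤ G) (_ : (N.subgroupOf G).Normal)
      (_ : ∀ s ∈ S, ∀ n ∈ N, s * n * s⁻¹ ∈ N) (_ : (N.relIndex G).Coprime (Nat.card S))
      (_ : (derivedSeries G d).map G.subtype ≤ N) (θ : N → ℂ) (_ : Cfsg.IsIrrCharacter N θ)
      (_ : ∀ s ∈ S, ∀ g g' : N, (g' : Γ) = s * g * s⁻¹ → θ g' = θ g),
      ∃ χ : G → ℂ, Cfsg.IsIrrCharacter G χ ∧ Cfsg.classInner (fun n : N => χ ⟨n, hNG n.2⟩) θ ≠ 0 ∧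
        ∀ s ∈ S, ∀ g g' : G, (g' : Γ) = s * g * s⁻¹ → χ g' = χ g := by
  classical
  induction d with
  | zero =>
    intro N _ hNG hNn hNS hcop hd θ hθ hinv
    have hGN : G ≤ N := by
      intro g hg
      exact hd ⟨⟨g, hg⟩, by rw [derivedSeries_zero]; trivial, rfl⟩
    refine ⟨fun g => θ ⟨g, hGN g.2⟩, ?_, ?_, ?_⟩
    · exact Cfsg.Agent.Lib.Helper24.isIrrCharacter_comp_equiv hθ
        (MulEquiv.subgroupCongr (le_antisymm hGN hNG))
    · have : (fun n : N => θ ⟨((⟨n, hNG n.2⟩ : G) : Γ), hGN (hNG n.2)⟩) = θ := by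
        funext n; rfl
      rw [this, classInner_irr hθ hθ, if_pos rfl]
      exact one_ne_zero
    · intro s hs g g' h
      exact hinv s hs _ _ h
  | succ d ih =>
    intro N _ hNG hNn hNS hcop hd θ hθ hinv
    have hSG : S ≤ Subgroup.normalizer (G : Set Γ) := le_normalizer_of_forall_conj_mem hnorm
    set M' : Subgroup G := N.subgroupOf G ⊔ derivedSeries G d with hM'
    haveI hM'n : M'.Normal := by rw [hM']; infer_instance
    set M : Subgroup Γ := M'.map G.subtype with hM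
    have hMG : M ≤ G := Subgroup.map_subtype_le M'
    have hNM : N ≤ M := by
      intro n hn
      exact ⟨⟨n, hNG hn⟩, (le_sup_left : N.subgroupOf G ≤ M') (Subgroup.mem_subgroupOf.mpr hn), rfl⟩
    have hMsub : M.subgroupOf G = M' := by
      rw [hM]
      exact Subgroup.comap_map_eq_self_of_injective G.subtype_injective M'
    have hMn : (M.subgroupOf G).Normal := by rw [hMsub]; exact hM'n
    have hmem : ∀ x ∈ M', ∃ n ∈ N.subgroupOf G, ∃ k ∈ derivedSeries G d, x = n * k := by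
      intro x hx
      rw [hM', ← SetLike.mem_coe, Subgroup.normal_mul] at hx
      obtain ⟨n, hn, k, hk, rfl⟩ := hx
      exact ⟨n, hn, k, hk, rfl⟩
    have hMS : ∀ s ∈ S, ∀ m ∈ M, s * m * s⁻¹ ∈ M := by
      rintro s hs _ ⟨x, hx, rfl⟩
      obtain ⟨n, hn, k, hk, rfl⟩ := hmem x hx
      refine ⟨conjNormalizer s (hSG hs) (n * k), ?_, rfl⟩
      rw [map_mul]
      apply mul_mem
      · exact (le_sup_left : N.subgroupOf G ≤ M')
          (Subgroup.mem_subgroupOf.mpr (hNS s hs n (Subgroup.mem_subgroupOf.mp hn)))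
      · apply (le_sup_right : derivedSeries G d ≤ M')
        exact (Subgroup.characteristic_iff_le_comap.mp inferInstance (conjNormalizer s (hSG hs))) hk
    have hNMn : (N.subgroupOf M).Normal := by
      refine ⟨fun n hn g => ?_⟩
      exact hNn.conj_mem ⟨n, hMG n.2⟩ hn ⟨g, hMG g.2⟩
    have hsucc : derivedSeries G (d + 1) ≤ N.subgroupOf G := by
      intro x hx
      exact hd ⟨x, hx, rfl⟩
    have habM : ∀ x ∈ M, ∀ y ∈ M, x * y * x⁻¹ * y⁻¹ ∈ N := by
      rintro _ ⟨x, hx, rfl⟩ _ ⟨y, hy, rfl⟩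
      obtain ⟨n₁, hn₁, k₁, hk₁, rfl⟩ := hmem x hx
      obtain ⟨n₂, hn₂, k₂, hk₂, rfl⟩ := hmem y hy
      have hq : ((n₁ * k₁ * (n₂ * k₂) * (n₁ * k₁)⁻¹ * (n₂ * k₂)⁻¹ : G) : G ⧸ N.subgroupOf G) = 1 := by
        have e₁ : ((n₁ : G) : G ⧸ N.subgroupOf G) = 1 := (QuotientGroup.eq_one_iff _).2 hn₁
        have e₂ : ((n₂ : G) : G ⧸ N.subgroupOf G) = 1 := (QuotientGroup.eq_one_iff _).2 hn₂
        have e₃ : ((k₁ * k₂ * k₁⁻¹ * k₂⁻¹ : G) : G ⧸ N.subgroupOf G) = 1 := by
          rw [QuotientGroup.eq_one_iff]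
          apply hsucc
          rw [derivedSeries_succ]
          exact Subgroup.commutator_mem_commutator hk₁ hk₂
        simp only [QuotientGroup.mk_mul, QuotientGroup.mk_inv, e₁, e₂, one_mul] at e₃ ⊢
        exact e₃
      have hq' := (QuotientGroup.eq_one_iff _).1 hq
      exact Subgroup.mem_subgroupOf.mp hq'
    have hrel := Subgroup.relIndex_mul_relIndex N M G hNM hMG
    have hcop1 : (N.relIndex M).Coprime (Nat.card S) :=
      Nat.Coprime.coprime_dvd_left (Dvd.intro _ hrel) hcop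
    have hcop2 : (M.relIndex G).Coprime (Nat.card S) :=
      Nat.Coprime.coprime_dvd_left (Dvd.intro_left _ hrel) hcop
    letI : Fintype M := Fintype.ofFinite _
    obtain ⟨η, hη, hηθ, hηinv⟩ := abelian_step' M S N hMS hNM hNS hcop1 habM hθ hinv
    obtain ⟨χ, hχ, hχη, hχinv⟩ := ih M hMG hMn hMS hcop2
      (Subgroup.map_mono (le_sup_right : derivedSeries G d ≤ M')) η hη hηinv
    exact ⟨χ, hχ, over_trans G M N hNM hMG (IsIrrCharacter.isCharacter hχ) hη hθ hχη hηθ, hχinv⟩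

/-- Inside a finite group Γ let S normalise G and also normalise a normal subgroup N of G, with the order of S coprime to the index of N in G and G/N solvable. Then for every S-invariant irreducible character ϑ of N, the induced character ϑ^G has an S-invariant irreducible constituent. -/
theorem result {Γ : Type*} [Group Γ] [Fintype Γ] (G S N : Subgroup Γ) [Fintype G] [Fintype N] (hnorm : ∀ s ∈ S, ∀ g ∈ G, s * g * s⁻¹ ∈ G) (hNG : N ≤ G) [hNn : (N.subgroupOf G).Normal] (hNS : ∀ s ∈ S, ∀ n ∈ N, s * n * s⁻¹ ∈ N) (hcop : (N.relIndex G).Coprime (Nat.card S)) (hsolv : Group.IsSolvable (G ⧸ N.subgroupOf G)) (θ : Cfsg.IrrCharacter N) (hinv : (∀ s ∈ S, ∀ g g' : N, (g' : Γ) = s * g * s⁻¹ → (θ : N → ℂ) g' = (θ : N → ℂ) g)) : ∃ χ : Cfsg.IrrCharacter G, Cfsg.classInner (fun n : N => (χ : G → ℂ) ⟨n, hNG n.2⟩) (θ : N → ℂ) ≠ 0 ∧ (∀ s ∈ S, ∀ g g' : G, (g' : Γ) = s * g * s⁻¹ → (χ : G → ℂ) g' = (χ : G → ℂ) g) := by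
  classical
  obtain ⟨d, hd⟩ := hsolv.solvable
  have hd' : (derivedSeries G d).map G.subtype ≤ N := by
    have h1 := map_derivedSeries_eq (QuotientGroup.mk'_surjective (N.subgroupOf G)) d
    rw [hd, Subgroup.map_eq_bot_iff, QuotientGroup.ker_mk'] at h1
    rintro _ ⟨x, hx, rfl⟩
    exact Subgroup.mem_subgroupOf.mp (h1 hx)
  obtain ⟨χ, hχ, h1, h2⟩ := main G S hnorm d N hNG hNn hNS hcop hd' θ θ.2 hinv
  exact ⟨⟨χ, hχ⟩, h1, h2⟩

end Cfsg.Agent.S4448
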