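import Cfsg.Statements.S4449
import Cfsg.Agent.Lib.Lead.GlaubJ

set_option autoImplicit false
open Cfsg

namespace Cfsg.Agent.S4449

/-- Inside a finite group Γ let the solvable subgroup S normalise G with the orders of G and S coprime, and let N be a normal subgroup of G normalised by S. Then for every S-invariant irreducible character ϑ of N, the induced character ϑ^G has an S-invariant irreducible constituent. -/
theorem result {Γ : Type*} [Group Γ] [Fintype Γ] (G S N : Subgroup Γ) [Fintype G] [Fintype N] (hnorm : ∀ s ∈ S, ∀ g ∈ G, s * g * s⁻¹ ∈ G) (hNG : N ≤ G) (hNnormal : ∀ g ∈ G, ∀ n ∈ N, g * n * g⁻¹ ∈ N) (hNS : ∀ s ∈ S, ∀ n ∈ N, s * n * s⁻¹ ∈ N) (hcop : (Nat.card G).Coprime (Nat.card S)) (hsolv : Group.IsSolvable S) (θ : Cfsg.IrrCharacter N) (hinv : (∀ s ∈ S, ∀ g g' : N, (g' : Γ) = s * g * s⁻¹ → (θ : N → ℂ) g' = (θ : N → ℂ) g)) : ∃ χ : Cfsg.IrrCharacter G, Cfsg.classInner (fun n : N => (χ : G → ℂ) ⟨n, hNG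 n.2⟩) (θ : N → ℂ) ≠ 0 ∧ (∀ s ∈ S, ∀ g g' : G, (g' : Γ) = s * g * s⁻¹ → (χ : G → ℂ) g' = (χ : G → ℂ) g) := by
  classical
  open Cfsg.Agent.Lib.Lead.Glaub in
  have hfin : Finite Γ := Finite.of_fintype Γ
  -- the normal subgroup inside `G`
  set N' : Subgroup G := N.subgroupOf G with hN'
  have hnor : N'.Normal := by
    constructor
    intro n hn g
    exact hNnormal g g.2 n hn
  have hinvN : ∀ s, ∀ n ∈ N', conjOn G S hnorm s n ∈ N' := by
    intro s n hn
    exact hNS s s.2 n hn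
  let e : N' ≃* N := Subgroup.subgroupOfEquivOfLe hNG
  let θ' : Cfsg.IrrCharacter N' :=
    ⟨(θ : N → ℂ) ∘ e, Cfsg.Agent.Lib.Helper24.isIrrCharacter_comp_equiv θ.2 e⟩
  have hθ' : Inv (resAct (conjOn G S hnorm) N' hinvN) (θ' : N' → ℂ) := by
    intro s n
    exact hinv s s.2 (e n) (e (resAct (conjOn G S hnorm) N' hinvN s n)) rfl
  obtain ⟨χ, hχ1, hχ2⟩ := exists_inv_over _ G S (conjOn G S hnorm) rfl hsolv hcop N' hinvN θ' hθ'
  refine ⟨χ, ?_, (inv_conjOn_iff G S hnorm _).mp hχ2⟩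
  intro h0
  apply hχ1
  rw [← h0, Cfsg.classInner, Cfsg.classInner, Nat.card_congr e.toEquiv]
  congr 1
  exact Fintype.sum_equiv e.toEquiv _ _ fun n => rfl

end Cfsg.Agent.S4449
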