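import Cfsg.Statements.S5025
import Cfsg.Agent.Lib.Helper25.RootSub

set_option autoImplicit false
open Cfsg

namespace Cfsg.Agent.S5025

open Cfsg.Agent.Lib.Helper25

/-- Let S be a set of abstract root subgroups of G, A ∈ S and B a rank one partner of A in S. If z ≠ 1 centralizes ⟨A, B⟩, then no product z a with a a non-identity element of A is a non-identity element of a member of S. -/
theorem result {G : Type*} [Group G] {S : Set (Subgroup G)} (hS : Cfsg.IsRootSubgroupSet S)
    {A B : Subgroup G} (hA : A ∈ S) (hB : B ∈ Cfsg.rankOnePartners S A) {z : G}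
    (hz : z ∈ Subgroup.centralizer ((A ⊔ B : Subgroup G) : Set G)) (hz1 : z ≠ 1) :
    ∀ a ∈ A, a ≠ 1 → z * a ∉ Cfsg.rootElements S := by
  obtain ⟨hBS, hAB⟩ := hB
  have hzc : ∀ x ∈ A ⊔ B, z * x = x * z := fun x hx => (Subgroup.mem_centralizer_iff.mp hz x hx).symm
  have hzn : ∀ E : Subgroup G, E ≤ A ⊔ B → conjBy E z = E := fun E hE =>
    conjBy_of_centralizes (fun c hc => hzc c (hE hc))
  rintro a ha ha1 ⟨_, C, hC, hc⟩
  have hBa : conjBy B a ∈ unipotentSubgroups A B :=
    RankOne.conj_mem_unipotent (RankOne.right_mem_unipotent hAB) (Subgroup.mem_sup_left ha)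
  have hconj : conjBy B (z * a) = conjBy B a := by
    rw [← conjBy_conjBy]
    exact hzn _ (RankOne.le_sup_of_mem hBa)
  have hne : conjBy B a ≠ B := fun he => ha1 (RankOne.eq_one_of_normalizes hAB ha he)
  have hp : IsRankOnePair (conjBy B (z * a)) B := by
    rw [hconj]
    exact RankOne.pair_of_mem hAB hBa (RankOne.right_mem_unipotent hAB) hne
  have hCB := RootSub.rankOne_of_moves hS hC hBS hc hp
  have hc1 : z * a ≠ 1 := by
    intro h
    rw [h, conjBy_one] at hconj
    exact hne hconj.symm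
  obtain ⟨b', hb', _, h1⟩ := RankOne.cond_left' hCB hc hc1
  obtain ⟨b, hb, _, h2⟩ := RankOne.cond_left' hAB ha ha1
  -- conjBy C b' = conjBy B a = conjBy A b
  have hCeq : C = conjBy A (b'⁻¹ * b) := by
    rw [← conjBy_conjBy, h2, ← hconj, ← h1, conjBy_inv_conjBy]
  rcases RankOne.conj_left_by_right hAB (B.mul_mem (B.inv_mem hb') hb) with h3 | ⟨a₁, ha₁, h3⟩
  · -- C = A
    rw [h3] at hCeq
    rw [hCeq] at hc
    have hzA : z ∈ A := by
      have := A.mul_mem hc (A.inv_mem ha)
      simpa using this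
    exact hz1 (RankOne.eq_one_of_normalizes hAB hzA (hzn B le_sup_right))
  · -- C = conjBy B a₁
    rw [h3] at hCeq
    have hCm : C ∈ unipotentSubgroups A B := by
      rw [hCeq]
      exact RankOne.conj_mem_unipotent (RankOne.right_mem_unipotent hAB) (Subgroup.mem_sup_left ha₁)
    have hCA : C ≠ A := by rw [hCeq]; exact RankOne.conj_right_ne_left hAB ha₁
    have hpAC := RankOne.pair_of_mem hAB (RankOne.left_mem_unipotent A B) hCm hCA.symm
    apply ha1
    apply RankOne.eq_one_of_normalizes hpAC ha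
    have h4 : conjBy C (z * a) = C := conjBy_of_mem hc
    rw [← conjBy_conjBy] at h4
    have h5 : conjBy C a ≤ A ⊔ B :=
      RankOne.le_sup_of_mem (RankOne.conj_mem_unipotent hCm (Subgroup.mem_sup_left ha))
    rwa [hzn _ h5] at h4

end Cfsg.Agent.S5025
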