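import Cfsg.Statements.S5029
import Cfsg.Agent.Lib.Helper25.RootSub2
import Cfsg.Agent.S5025

set_option autoImplicit false
open Cfsg
open scoped commutatorElement

namespace Cfsg.Agent.S5029

open Cfsg.Agent.Lib.Helper25

variable {G : Type*} [Group G] {S : Set (Subgroup G)}

theorem conj_le {A B : Subgroup G} {b : G} (hb : b ∈ B) : conjBy A b ≤ A ⊔ ⁅A, B⁆ := by
  rintro _ ⟨a, ha, rfl⟩
  have h1 : ⁅b, a⁆ ∈ ⁅A, B⁆ := by
    rw [Subgroup.commutator_comm]; exact Subgroup.commutator_mem_commutator hb ha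
  have e : (MulAut.conj b).toMonoidHom a = ⁅b, a⁆ * a := by
    simp [MulAut.conj_apply, commutatorElement_def]
  rw [e]
  exact Subgroup.mul_mem _ (Subgroup.mem_sup_right h1) (Subgroup.mem_sup_left ha)

theorem comm_left {A B : Subgroup G} (h : RootCommutatorCase S A B) : ∀ a ∈ A, ∀ c ∈ ⁅A, B⁆, a * c = c * a :=
  fun a ha c hc => (h.2.1 c hc a (Subgroup.mem_sup_left ha)).symm

theorem mul_eq_conj {A B : Subgroup G} (h : RootCommutatorCase S A B) {a c : G} (ha : a ∈ A) (ha1 : a ≠ 1)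
    (hc : c ∈ ⁅A, B⁆) : ∃ b ∈ B, a * c = b * a * b⁻¹ := by
  obtain ⟨b, hb, hbc⟩ := RootSub.surj_right h (A.inv_mem ha) (by simpa using ha1) c hc
  exact ⟨b, hb, by rw [← hbc]; group⟩

theorem cover {A B : Subgroup G} (h : RootCommutatorCase S A B) {x : G} (hx : x ∈ A ⊔ ⁅A, B⁆) :
    x ∈ ⁅A, B⁆ ∨ ∃ b ∈ B, x ∈ conjBy A b := by
  obtain ⟨a, ha, c, hc, rfl⟩ := (mem_sup_of_commute (comm_left h)).mp hx
  by_cases ha1 : a = 1
  · left; rw [ha1, one_mul]; exact hc
  · right
    obtain ⟨b, hb, hbc⟩ := mul_eq_conj h ha ha1 hc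
    exact ⟨b, hb, by rw [hbc]; exact conj_mem_conjBy ha b⟩

theorem eq_of_le_commutator (hS : IsRootSubgroupSet S) {A B D E : Subgroup G} (hA : A ∈ S) (hD : D ∈ S)
    (hAD : IsRankOnePair A D) (h : RootCommutatorCase S A B) (hE : E ∈ S) (hle : E ≤ ⁅A, B⁆) : E = ⁅A, B⁆ := by
  obtain ⟨e, he, he1⟩ := exists_ne_one_of_ne_bot (hS.ne_bot E hE)
  obtain ⟨a, ha, ha1⟩ := RankOne.exists_ne_one_left hAD
  obtain ⟨d, hd, hd1⟩ := RankOne.exists_ne_one_right hAD
  have hC := h.1
  have hED : ⁅E, D⁆ ≠ ⊥ := by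
    intro hbot
    have hz : e ∈ Subgroup.centralizer ((A ⊔ D : Subgroup G) : Set G) := by
      have hle2 : A ⊔ D ≤ Subgroup.centralizer {e} := by
        rw [sup_le_iff]
        constructor
        · intro a' ha'
          rw [Subgroup.mem_centralizer_iff]
          intro y hy
          rw [Set.mem_singleton_iff.mp hy]
          exact (comm_left h a' ha' e (hle he)).symm
        · intro d' hd'
          rw [Subgroup.mem_centralizer_iff]
          intro y hy
          rw [Set.mem_singleton_iff.mp hy]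
          exact RootSub.commute_of_commutator_eq_bot hbot he hd'
      rw [Subgroup.mem_centralizer_iff]
      intro x hx
      exact (Subgroup.mem_centralizer_iff.mp (hle2 hx) e rfl).symm
    apply Cfsg.Agent.S5025.result hS hA ⟨hD, hAD⟩ hz he1 a ha ha1
    obtain ⟨b, hb, hbc⟩ := mul_eq_conj h ha ha1 (hle he)
    rw [← comm_left h a ha e (hle he), hbc]
    refine ⟨?_, conjBy A b, hS.conj_mem A hA b, conj_mem_conjBy ha b⟩
    intro h1
    apply ha1
    have : a = b⁻¹ * (b * a * b⁻¹) * b := by group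
    rw [this, h1]; group
  rcases hS.pair E hE D hD with h1 | h1 | h1
  · exact absurd h1 hED
  · rcases RootSub.ti hS hD h1 hC with h2 | h2
    · rw [inf_eq_left.mpr hle] at h2
      exact absurd h2 (hS.ne_bot E hE)
    · exact h2
  · rcases hS.pair _ hC D hD with h2 | h2 | h2
    · exfalso
      apply hED
      rw [eq_bot_iff, ← h2]
      exact Subgroup.commutator_mono hle le_rfl
    · rcases RootSub.ti hS hD h2 hE with h3 | h3
      · rw [inf_eq_right.mpr hle] at h3
        exact absurd h3 (hS.ne_bot E hE)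
      · exact h3.symm
    · have hF : ⁅E, D⁆ = ⁅⁅A, B⁆, D⁆ := by
        rw [← h1.2.2.1 e he he1, ← h2.2.2.1 e (hle he) he1]
      apply le_antisymm hle
      intro c hc
      have hf : c * d * c⁻¹ * d⁻¹ ∈ ⁅E, D⁆ := by
        rw [hF]; exact Subgroup.commutator_mem_commutator hc hd
      obtain ⟨e', he', hee⟩ := RootSub.surj_left h1 hd hd1 _ hf
      have hcomm : d * (e'⁻¹ * c) = (e'⁻¹ * c) * d := by
        have h3 : e' * d * e'⁻¹ = c * d * c⁻¹ := mul_right_cancel hee
        calc d * (e'⁻¹ * c) = e'⁻¹ * (e' * d * e'⁻¹) * c := by group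
          _ = e'⁻¹ * (c * d * c⁻¹) * c := by rw [h3]
          _ = (e'⁻¹ * c) * d := by group
      have h4 := RootSub.centralizer_trivial hS hD hA (RankOne.symm hAD) (RootSub.commCase_symm h2) hd hd1
        (Subgroup.mul_mem _ (Subgroup.inv_mem _ (hle he')) hc) hcomm
      have : c = e' := (inv_mul_eq_one.mp h4).symm
      rw [this]; exact he'

theorem members (hS : IsRootSubgroupSet S) {A B D : Subgroup G} (hA : A ∈ S) (hD : D ∈ S)
    (hAD : IsRankOnePair A D) (h : RootCommutatorCase S A B) :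
    membersIn S (A ⊔ ⁅A, B⁆) = (fun b : G => conjBy A b) '' (B : Set G) ∪ {⁅A, B⁆} := by
  ext E
  constructor
  · rintro ⟨hE, hle⟩
    by_cases hex : ∃ e ∈ E, e ≠ 1 ∧ ∃ b ∈ B, e ∈ conjBy A b
    · obtain ⟨e, he, he1, b, hb, heb⟩ := hex
      left
      refine ⟨b, hb, ?_⟩
      rcases RootSub.ti hS (hS.conj_mem D hD b) (RankOne.conj hAD b) hE with h1 | h1
      · exfalso
        have : e ∈ conjBy A b ⊓ E := Subgroup.mem_inf.mpr ⟨heb, he⟩
        rw [h1, Subgroup.mem_bot] at this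
        exact he1 this
      · exact h1
    · right
      push Not at hex
      apply eq_of_le_commutator hS hA hD hAD h hE
      intro e he
      by_cases he1 : e = 1
      · rw [he1]; exact Subgroup.one_mem _
      rcases cover h (hle he) with h1 | ⟨b, hb, h1⟩
      · exact h1
      · exact absurd h1 (hex e he he1 b hb)
  · rintro (⟨b, hb, rfl⟩ | rfl)
    · exact ⟨hS.conj_mem A hA b, conj_le hb⟩
    · exact ⟨h.1, le_sup_right⟩

theorem partition (hS : IsRootSubgroupSet S) {A B D : Subgroup G} (hA : A ∈ S) (hD : D ∈ S)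
    (hAD : IsRankOnePair A D) (h : RootCommutatorCase S A B) :
    IsSubgroupPartition (A ⊔ ⁅A, B⁆) (membersIn S (A ⊔ ⁅A, B⁆)) := by
  refine ⟨fun C hC => hC.2, ?_, ?_⟩
  · intro x hx _
    rw [members hS hA hD hAD h]
    rcases cover h hx with h1 | ⟨b, hb, h1⟩
    · exact ⟨_, Or.inr rfl, h1⟩
    · exact ⟨_, Or.inl ⟨b, hb, rfl⟩, h1⟩
  · intro E hE F hF hne
    have hES := hE.1
    have hFS := hF.1
    rw [members hS hA hD hAD h] at hE hF
    rcases hE with ⟨b, hb, rfl⟩ | rfl
    · rcases RootSub.ti hS (hS.conj_mem D hD b) (RankOne.conj hAD b) hFS with h1 | h1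
      · exact h1
      · exact absurd h1 hne
    · rcases hF with ⟨b, hb, rfl⟩ | rfl
      · rcases RootSub.ti hS (hS.conj_mem D hD b) (RankOne.conj hAD b) hES with h1 | h1
        · rw [inf_comm]; exact h1
        · exact absurd h1.symm hne
      · exact absurd rfl hne

/-- Let S be a set of abstract root subgroups of G, A ∈ S having a rank one partner in S, and B ∈ S with C = ⁅A, B⁆ ∈ S. Then the members of S contained in AC are the conjugates of A by elements of B together with C, they partition AC, the members of S inside AC partition AC so that A is a line partner of C, and for every non-identity a ∈ A the map b ↦ a⁻¹ b⁻¹ a b is an isomorphism from B onto C. -/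
theorem result {G : Type*} [Group G] {S : Set (Subgroup G)} (hS : Cfsg.IsRootSubgroupSet S)
    {A B : Subgroup G} (hA : ¬ Cfsg.IsIsolatedIn (Cfsg.FAdj S) S A) (hAS : A ∈ S) (hB : B ∈ S) (hC : ⁅A, B⁆ ∈ S) :
    Cfsg.membersIn S (A ⊔ ⁅A, B⁆) = (fun b : G => Cfsg.conjBy A b) '' (B : Set G) ∪ {⁅A, B⁆} ∧
    Cfsg.IsSubgroupPartition (A ⊔ ⁅A, B⁆) (Cfsg.membersIn S (A ⊔ ⁅A, B⁆)) ∧
    A ∈ Cfsg.linePartners S ⁅A, B⁆ ∧
    ∀ a ∈ A, a ≠ 1 → ∃ φ : ↥B ≃* ↥⁅A, B⁆, ∀ b : ↥B, (φ b : G) = a⁻¹ * (b : G)⁻¹ * a * b := by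
  obtain ⟨D, hD, hAD⟩ := RootSub.exists_partner hA hAS
  have h := RootSub.commCase_of_mem hS hAS hB hC
  refine ⟨members hS hAS hD hAD h, partition hS hAS hD hAD h, ⟨⟨hAS, RootSub.ne_commutator hS h, ?_⟩, ?_⟩, ?_⟩
  · exact RootSub.commutator_eq_bot_of_commute (fun c hc a ha => (comm_left h a ha c hc).symm)
  · rw [sup_comm]; exact partition hS hAS hD hAD h
  · intro a ha ha1
    have hmem : ∀ b : ↥B, a⁻¹ * (b : G)⁻¹ * a * b ∈ ⁅A, B⁆ := by
      intro b
      have := Subgroup.commutator_mem_commutator (A.inv_mem ha) (B.inv_mem b.2)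
      rw [commutatorElement_def] at this
      simpa using this
    let ψ : ↥B →* ↥⁅A, B⁆ :=
      { toFun := fun b => ⟨a⁻¹ * (b : G)⁻¹ * a * b, hmem b⟩
        map_one' := by apply Subtype.ext; simp
        map_mul' := by
          intro b b'
          apply Subtype.ext
          have h1 := h.2.1 _ (hmem b) (a⁻¹ * (b' : G)⁻¹ * a)
            (Subgroup.mul_mem _ (Subgroup.mul_mem _ (Subgroup.mem_sup_left (A.inv_mem ha))
              (Subgroup.mem_sup_right (B.inv_mem b'.2))) (Subgroup.mem_sup_left ha))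
          change a⁻¹ * ((b : G) * b')⁻¹ * a * ((b : G) * b') = (a⁻¹ * (b : G)⁻¹ * a * b) * (a⁻¹ * (b' : G)⁻¹ * a * b')
          calc a⁻¹ * ((b : G) * b')⁻¹ * a * ((b : G) * b')
              = (a⁻¹ * (b' : G)⁻¹ * a) * (a⁻¹ * (b : G)⁻¹ * a * b) * b' := by group
            _ = (a⁻¹ * (b : G)⁻¹ * a * b) * (a⁻¹ * (b' : G)⁻¹ * a) * b' := by rw [h1]
            _ = (a⁻¹ * (b : G)⁻¹ * a * b) * (a⁻¹ * (b' : G)⁻¹ * a * b') := by group }
    have hinj : Function.Injective ψ := by
      rw [injective_iff_map_eq_one]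
      intro b hb1
      have h1 : a⁻¹ * (b : G)⁻¹ * a * b = 1 := congrArg Subtype.val hb1
      have hcomm : a * (b : G) = b * a := by
        calc a * (b : G) = b * a * (a⁻¹ * (b : G)⁻¹ * a * b) := by group
          _ = b * a := by rw [h1, mul_one]
      apply Subtype.ext
      exact RootSub.centralizer_trivial hS hAS hD hAD h ha ha1 b.2 hcomm
    have hsurj : Function.Surjective ψ := by
      rintro ⟨c, hc⟩
      obtain ⟨b, hb, hbc⟩ := RootSub.surj_right h (A.inv_mem ha) (by simpa using ha1) c hc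
      refine ⟨⟨b⁻¹, B.inv_mem hb⟩, ?_⟩
      apply Subtype.ext
      change a⁻¹ * (b⁻¹)⁻¹ * a * b⁻¹ = c
      rw [← hbc]; group
    exact ⟨MulEquiv.ofBijective ψ ⟨hinj, hsurj⟩, fun b => rfl⟩

end Cfsg.Agent.S5029
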