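import Cfsg.Statements.S5019
import Cfsg.Agent.Lib.Helper25.Quadratic

set_option autoImplicit false
open Cfsg

namespace Cfsg.Agent.S5019

open Cfsg.Agent.Lib.Helper25

theorem braid_diff {X : Type*} [Group X] {N : Type*} [AddCommGroup N] [DistribMulAction X N] {a b : X}
    (ha : ∀ n : N, a • (a • n - n) = a • n - n) (hb : ∀ n : N, b • (b • n - n) = b • n - n)
    (hbinv : ∀ n : N, b⁻¹ • n = n - (b • n - n)) (n : N) :
    (a * b⁻¹ * a) • n - (b⁻¹ * a * b⁻¹) • n =
      ((a • n - n) - (a • (b • (a • n - n) - (a • n - n)) - (b • (a • n - n) - (a • n - n)))) +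
      ((b • n - n) - (b • (a • (b • n - n) - (b • n - n)) - (a • (b • n - n) - (b • n - n)))) := by
  let φ := DistribMulAction.toAddMonoidEnd X N
  have hφ : ∀ (x : X) (m : N), φ x m = x • m := fun x m => rfl
  set α : AddMonoid.End N := φ a - 1 with hα
  set β : AddMonoid.End N := φ b - 1 with hβ
  have hαv : ∀ m : N, α m = a • m - m := fun m => rfl
  have hβv : ∀ m : N, β m = b • m - m := fun m => rfl
  have hαα : α * α = 0 := by
    ext m
    change α (α m) = 0
    rw [hαv, hαv, ha, sub_self]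
  have hββ : β * β = 0 := by
    ext m
    change β (β m) = 0
    rw [hβv, hβv, hb, sub_self]
  have e1 : φ a = 1 + α := by rw [hα]; abel
  have e2 : φ b⁻¹ = 1 - β := by
    ext m
    change b⁻¹ • m = m - β m
    rw [hβv, hbinv]
  have key := Quad.ring_identity α β hαα hββ
  rw [← e1, ← e2, ← map_mul, ← map_mul, ← map_mul, ← map_mul] at key
  have key2 := congrArg (fun f : AddMonoid.End N => f n) key
  exact key2

/-- Let X be a rank one group with abelian unipotent subgroups A and B, and suppose X acts on an abelian group N (written additively) in such a way that A acts quadratically, meaning a' • (a • n − n) = a • n − n for all a, a' in A and n in N, while X as a whole does not: y • (x • n − n) ≠ x • n − n for some x, y in X and n in N. Then X is a special rank one group. -/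
theorem result {X : Type*} [Group X] {A B : Subgroup X} (h : Cfsg.IsRankOneGroup X A B)
    (hab : Cfsg.HasAbelianUnipotents A B) {N : Type*} [AddCommGroup N] [DistribMulAction X N]
    (hq : ∀ a ∈ A, ∀ a' ∈ A, ∀ n : N, a' • (a • n - n) = a • n - n)
    (hX : ∃ x y : X, ∃ n : N, y • (x • n - n) ≠ x • n - n) : Cfsg.IsSpecialRankOnePair A B := by
  refine ⟨h.2, fun a ha ha1 b hb hb1 hc => ?_⟩
  have hqA : Quad.QuadOn N A := hq
  obtain ⟨g, hg, hBg⟩ := RankOne.right_mem_unipotent h.2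
  have hqB : Quad.QuadOn N B := by rw [hBg]; exact hqA.conj g
  have htop : ∀ x : X, x ∈ A ⊔ B := fun x => by rw [h.1]; trivial
  have hc'A : b * a⁻¹ * b * a * b⁻¹ * a ∈ A := by
    have h1 : b⁻¹ * a * b ∈ conjBy A b⁻¹ := by
      have := conj_mem_conjBy ha b⁻¹
      simpa using this
    have h2 : a⁻¹ * b * a ∈ conjBy A b⁻¹ := by
      rw [hc]
      have := conj_mem_conjBy hb a⁻¹
      simpa using this
    have h3 := (conjBy A b⁻¹).mul_mem h1 h2
    rw [mem_conjBy] at h3
    have h4 := A.mul_mem (A.mul_mem (A.inv_mem ha) h3) ha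
    have e : a⁻¹ * (b⁻¹⁻¹ * (b⁻¹ * a * b * (a⁻¹ * b * a)) * b⁻¹) * a = b * a⁻¹ * b * a * b⁻¹ * a := by group
    rwa [e] at h4
  have hfix : ∀ n : N, ∀ x ∈ A ⊔ B, x • ((b * a⁻¹ * b * a * b⁻¹ * a) • n - n) = (b * a⁻¹ * b * a * b⁻¹ * a) • n - n := by
    intro n
    have hD := braid_diff (N := N) (a := a) (b := b) (fun n => hq a ha a ha n) (fun n => hqB b hb b hb n)
      (fun n => Quad.inv_smul_of_quad hqB hb n) n
    have hfixD : ∀ x ∈ A ⊔ B, x • ((a * b⁻¹ * a) • n - (b⁻¹ * a * b⁻¹) • n) = (a * b⁻¹ * a) • n - (b⁻¹ * a * b⁻¹) • n := by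
      intro x hx
      rw [hD, smul_add, Quad.fact1 hqA hqB ha hb hc ha n x hx,
        Quad.fact1 hqB hqA hb ha hc.symm hb n x (by rw [sup_comm]; exact hx)]
    have e : (b * a⁻¹ * b * a * b⁻¹ * a) • n - n = (b⁻¹ * a * b⁻¹)⁻¹ • ((a * b⁻¹ * a) • n - (b⁻¹ * a * b⁻¹) • n) := by
      rw [smul_sub, inv_smul_smul, ← mul_smul]
      congr 2
      group
    rw [e, hfixD _ (htop _)]
    exact hfixD
  by_cases hc1 : b * a⁻¹ * b * a * b⁻¹ * a = 1
  · have e : b⁻¹ * a * b = (a⁻¹ * b⁻¹ * a) * (b⁻¹ * (b * a⁻¹ * b * a * b⁻¹ * a) * b) := by group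
    rw [e, hc1]; group
  · exfalso
    obtain ⟨x, y, n, hne⟩ := hX
    exact hne (Quad.fact2 h.2 hqA hc'A hc1 hfix x (htop x) n y (htop y))

end Cfsg.Agent.S5019
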