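import Mathlib
import Cfsg.Statements.S0738
import Cfsg.Agent.Lib.Helper27.ZassEl
import Cfsg.Agent.S0144

namespace Cfsg.Agent.S0738

open MulAction Subgroup Cfsg Cfsg.Agent.Lib.Helper3 Cfsg.Agent.Lib.Helper27.ZassEl

theorem free_dvd {E X : Type*} [Group E] [MulAction E X] (S : Set X)
    (hinv : ∀ e : E, ∀ x ∈ S, e • x ∈ S) (hfree : ∀ e : E, ∀ x ∈ S, e • x = x → e = 1) :
    Nat.card E ∣ S.ncard := by
  let S' : SubMulAction E X := ⟨S, fun e x hx => hinv e x hx⟩
  have h : ∀ b : S', stabilizer E b = ⊥ := by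
    intro b
    rw [eq_bot_iff]
    intro e he
    rw [mem_stabilizer_iff] at he
    exact hfree e b b.2 (congrArg Subtype.val he)
  have e := MulAction.selfEquivOrbitsQuotientProd h
  have h2 := Nat.card_congr e
  rw [Nat.card_prod] at h2
  change Nat.card S = _ at h2
  rw [Nat.card_coe_set_eq] at h2
  exact ⟨_, by rw [mul_comm]; exact h2⟩

theorem free_dvd_conj {G : Type*} [Group G] (E : Subgroup G) (S : Set G)
    (hinv : ∀ e ∈ E, ∀ x ∈ S, e * x * e⁻¹ ∈ S)
    (hfree : ∀ e ∈ E, ∀ x ∈ S, e * x * e⁻¹ = x → e = 1) :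
    Nat.card E ∣ S.ncard := by
  let inst : MulAction E G := MulAction.compHom G ((MulAut.conj (G := G)).comp E.subtype)
  refine @free_dvd E G _ inst S ?_ ?_
  · intro e x hx
    exact hinv e e.2 x hx
  · intro e x hx h
    exact Subtype.ext (hfree e e.2 x hx h)

theorem arith (d m n : ℕ) (hd : 0 < d) (hm : 1 < m) (h1 : d ∣ m - 1) (h2 : d ∣ n - 1)
    (h3 : n - 1 ≤ 2 * d) (h4 : m ∣ n) (hn : 0 < n) : n ≤ m := by
  obtain ⟨k, hk⟩ := h1
  obtain ⟨j, hj⟩ := h2
  have hmn : m ≤ n := Nat.le_of_dvd hn h4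
  have hj2 : j ≤ 2 := by
    rw [hj] at h3
    have : d * j ≤ d * 2 := by rw [mul_comm d 2]; exact h3
    exact Nat.le_of_mul_le_mul_left this hd
  have hk1 : 1 ≤ k := by
    rcases Nat.eq_zero_or_pos k with h | h
    · rw [h] at hk; omega
    · exact h
  have hkj : k ≤ j := by
    have : d * k ≤ d * j := by omega
    exact Nat.le_of_mul_le_mul_left this hd
  by_cases hkj' : k = j
  · rw [hkj'] at hk; omega
  · have hk' : k = 1 := by omega
    have hj' : j = 2 := by omega
    subst hk' hj'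
    have hm' : m = d + 1 := by omega
    have hn' : n = 2 * d + 1 := by omega
    rw [hm', hn'] at h4
    have h5 : d + 1 ∣ 2 * (d + 1) := Dvd.intro_left _ rfl
    have h6 : d + 1 ∣ 2 * (d + 1) - (2 * d + 1) := Nat.dvd_sub h5 h4
    have h7 : 2 * (d + 1) - (2 * d + 1) = 1 := by omega
    rw [h7] at h6
    have := Nat.le_of_dvd one_pos h6
    omega


theorem two_primes (n : ℕ) (hn : 1 < n)
    (h3 : ∀ p q r : ℕ, p.Prime → q.Prime → r.Prime → p ∣ n → q ∣ n → r ∣ n → p ≠ q → p ≠ r →
      q ≠ r → False) :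
    ∃ p q a b : ℕ, p.Prime ∧ q.Prime ∧ n = p ^ a * q ^ b := by
  have hp : n.minFac.Prime := Nat.minFac_prime (by omega)
  set p := n.minFac with hpdef
  have hpn : p ∣ n := Nat.minFac_dvd n
  have e1 := Nat.ordProj_mul_ordCompl_eq_self n p
  have hm0 : ¬ p ∣ n / p ^ n.factorization p := Nat.not_dvd_ordCompl hp (by omega)
  have hmn : n / p ^ n.factorization p ∣ n := Nat.ordCompl_dvd n p
  set m := n / p ^ n.factorization p with hm
  by_cases hm1 : m = 1
  · refine ⟨p, p, n.factorization p, 0, hp, hp, ?_⟩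
    rw [hm1, mul_one] at e1
    rw [pow_zero, mul_one, e1]
  have hmpos : m ≠ 0 := by
    intro h
    rw [h] at e1
    omega
  have hq : m.minFac.Prime := Nat.minFac_prime hm1
  set q := m.minFac with hqdef
  have hqm : q ∣ m := Nat.minFac_dvd m
  have e2 := Nat.ordProj_mul_ordCompl_eq_self m q
  have hm0' : ¬ q ∣ m / q ^ m.factorization q := Nat.not_dvd_ordCompl hq hmpos
  have hmn' : m / q ^ m.factorization q ∣ m := Nat.ordCompl_dvd m q
  set m' := m / q ^ m.factorization q with hm'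
  by_cases hm1' : m' = 1
  · refine ⟨p, q, n.factorization p, m.factorization q, hp, hq, ?_⟩
    rw [hm1', mul_one] at e2
    rw [e2, e1]
  exfalso
  have hr : m'.minFac.Prime := Nat.minFac_prime hm1'
  have hrm : m'.minFac ∣ m' := Nat.minFac_dvd m'
  refine h3 p q m'.minFac hp hq hr hpn (hqm.trans hmn) (hrm.trans (hmn'.trans hmn)) ?_ ?_ ?_
  · intro h
    exact hm0 (h ▸ hqm)
  · intro h
    exact hm0 (h ▸ (hrm.trans hmn'))
  · intro h
    exact hm0' (h ▸ hrm)

section

variable {G Ω : Type*} [Group G] [MulAction G Ω]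

theorem fpf (hZ : IsZassenhausGroup G Ω) {a b : Ω} (hab : a ≠ b) (F : Subgroup G)
    (hFle : F ≤ stabilizer G a)
    (hreg : ∀ y z : Ω, y ≠ a → z ≠ a → ∃! u : F, (u : G) • y = z) :
    ∀ e ∈ (stabilizer G a ⊓ stabilizer G b : Subgroup G), ∀ x ∈ F, x ≠ 1 →
      e * x * e⁻¹ = x → e = 1 := by
  intro e he x hx hx1 hc
  rw [Subgroup.mem_inf, mem_stabilizer_iff, mem_stabilizer_iff] at he
  have hxa : x • a = a := hFle hx
  have h1 : x • b ≠ b := by
    intro h
    obtain ⟨u, _, hu⟩ := hreg b b (Ne.symm hab) (Ne.symm hab)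
    have e1 := hu ⟨x, hx⟩ h
    have e2 := hu 1 (one_smul _ _)
    apply hx1
    have := e1.trans e2.symm
    exact congrArg Subtype.val this
  have h2 : x • b ≠ a := by
    intro h
    exact hab (smul_left_cancel x (hxa.trans h.symm))
  have h3 : e • x • b = x • b := by
    have : e * x = x * e := by
      calc e * x = e * x * e⁻¹ * e := by group
        _ = x * e := by rw [hc]
    rw [← mul_smul, this, mul_smul, he.2]
  exact zass_three hZ hab (Ne.symm h1) (Ne.symm h2) he.1 he.2 h3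

theorem card_F [Fintype Ω] {a b : Ω} (hab : a ≠ b) (F : Subgroup G)
    (hFle : F ≤ stabilizer G a)
    (hreg : ∀ y z : Ω, y ≠ a → z ≠ a → ∃! u : F, (u : G) • y = z) :
    Nat.card F + 1 = Fintype.card Ω := by
  classical
  have hne : ∀ u : F, (u : G) • b ≠ a := by
    intro u h
    have hua : (u : G) • a = a := hFle u.2
    exact hab (smul_left_cancel (u : G) (hua.trans h.symm))
  have hbij : Function.Bijective (fun u : F => (⟨(u : G) • b, hne u⟩ : {c : Ω // c ≠ a})) := by
    constructor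
    · intro u v huv
      have huv' : (u : G) • b = (v : G) • b := congrArg Subtype.val huv
      obtain ⟨w, _, hw⟩ := hreg b ((v : G) • b) (Ne.symm hab) (hne v)
      exact (hw u huv').trans (hw v rfl).symm
    · rintro ⟨z, hz⟩
      obtain ⟨w, hw, _⟩ := hreg b z (Ne.symm hab) hz
      exact ⟨w, Subtype.ext hw⟩
  rw [Nat.card_congr (Equiv.ofBijective _ hbij), Nat.card_eq_fintype_card, Fintype.card_subtype,
    Finset.filter_ne', Finset.card_erase_of_mem (Finset.mem_univ _), Finset.card_univ]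
  have : 0 < Fintype.card Ω := Fintype.card_pos_iff.2 ⟨a⟩
  omega

theorem dvd_sub_one [Finite G] (hZ : IsZassenhausGroup G Ω) {a b : Ω} (hab : a ≠ b) (F : Subgroup G)
    (hFle : F ≤ stabilizer G a)
    (hreg : ∀ y z : Ω, y ≠ a → z ≠ a → ∃! u : F, (u : G) • y = z) (M : Subgroup G) (hMF : M ≤ F)
    (hinv : ∀ e ∈ (stabilizer G a ⊓ stabilizer G b : Subgroup G), ∀ m ∈ M, e * m * e⁻¹ ∈ M) :
    Nat.card ↥(stabilizer G a ⊓ stabilizer G b) ∣ Nat.card M - 1 := by
  have h := free_dvd_conj (stabilizer G a ⊓ stabilizer G b) ((M : Set G) \ {1}) ?_ ?_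
  · rw [Set.ncard_sdiff_singleton_of_mem (by exact M.one_mem)] at h
    exact h
  · intro e he x hx
    refine ⟨hinv e he x hx.1, ?_⟩
    intro h
    apply hx.2
    rw [Set.mem_singleton_iff] at h ⊢
    calc x = e⁻¹ * (e * x * e⁻¹) * e := by group
      _ = 1 := by rw [h]; group
  · intro e he x hx hc
    exact fpf hZ hab F hFle hreg e he x (hMF hx.1) hx.2 hc

theorem L [Finite G] [Fintype Ω] (hZ : IsZassenhausGroup G Ω) {a b : Ω} (hab : a ≠ b)
    (hd : Fintype.card Ω - 2 ≤ 2 * Nat.card ↥(stabilizer G a ⊓ stabilizer G b))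
    (F : Subgroup G) (hFle : F ≤ stabilizer G a)
    (hFinv : ∀ e ∈ (stabilizer G a ⊓ stabilizer G b : Subgroup G), ∀ m ∈ F, e * m * e⁻¹ ∈ F)
    (hreg : ∀ y z : Ω, y ≠ a → z ≠ a → ∃! u : F, (u : G) • y = z) (M : Subgroup G) (hMF : M ≤ F)
    (hM : M ≠ ⊥)
    (hinv : ∀ e ∈ (stabilizer G a ⊓ stabilizer G b : Subgroup G), ∀ m ∈ M, e * m * e⁻¹ ∈ M) :
    M = F := by
  apply Subgroup.eq_of_le_of_card_ge hMF
  have hc := card_F hab F hFle hreg
  refine arith _ _ _ Nat.card_pos ((Subgroup.one_lt_card_iff_ne_bot M).2 hM)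
    (dvd_sub_one hZ hab F hFle hreg M hMF hinv) (dvd_sub_one hZ hab F hFle hreg F le_rfl hFinv)
    (by omega) (Subgroup.card_dvd_of_le hMF) Nat.card_pos

theorem ord_set [Finite G] (hZ : IsZassenhausGroup G Ω) {a b : Ω} (hab : a ≠ b) (F : Subgroup G)
    (hFle : F ≤ stabilizer G a)
    (hFinv : ∀ e ∈ (stabilizer G a ⊓ stabilizer G b : Subgroup G), ∀ m ∈ F, e * m * e⁻¹ ∈ F)
    (hreg : ∀ y z : Ω, y ≠ a → z ≠ a → ∃! u : F, (u : G) • y = z) (p : ℕ) (hp : p.Prime)
    (hpd : p ∣ Nat.card F) :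
    Nat.card ↥(stabilizer G a ⊓ stabilizer G b) ≤ {x : G | x ∈ F ∧ orderOf x = p}.ncard := by
  have h := free_dvd_conj (stabilizer G a ⊓ stabilizer G b) {x : G | x ∈ F ∧ orderOf x = p} ?_ ?_
  · apply Nat.le_of_dvd _ h
    rw [Set.ncard_pos]
    have := Fact.mk hp
    obtain ⟨x, hx⟩ := exists_prime_orderOf_dvd_card' (G := F) p hpd
    exact ⟨x, x.2, by rw [Subgroup.orderOf_coe]; exact hx⟩
  · intro e he x hx
    refine ⟨hFinv e he x hx.1, ?_⟩
    have : e * x * e⁻¹ = MulAut.conj e x := rfl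
    rw [this, MulEquiv.orderOf_eq]
    exact hx.2
  · intro e he x hx hc
    refine fpf hZ hab F hFle hreg e he x hx.1 ?_ hc
    rintro rfl
    have := hx.2
    rw [orderOf_one] at this
    exact hp.one_lt.ne this

end

/-- Let a finite Zassenhaus group of degree `n + 1` have two-point stabilisers of order `d` with `2d ≥ n - 1`. Then a normal subgroup of a point stabiliser acting regularly on the remaining points is elementary abelian, and the degree is a prime power plus one. -/
theorem result {G Ω : Type*} [Group G] [Finite G] [MulAction G Ω] [Fintype Ω] (hZ : Cfsg.IsZassenhausGroup G Ω) {a b : Ω} (hab : a ≠ b) (hd : Fintype.card Ω - 2 ≤ 2 * Nat.card ↥(MulAction.stabilizer G a ⊓ MulAction.stabilizer G b)) (F : Subgroup G) (hFle : F ≤ MulAction.stabilizer G a) (hFn : (F.subgroupOf (MulAction.stabilizer G a)).Normal) (hreg : ∀ y z : Ω, y ≠ a → z ≠ a → ∃! u : F, (u : G) • y = z) : IsMulCommutative F ∧ ∃ p f : ℕ, p.Prime ∧ (∀ u ∈ F, u ^ p = 1) ∧ Fintype.card Ω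 = p ^ f + 1 := by
  have hFinv : ∀ e ∈ (stabilizer G a ⊓ stabilizer G b : Subgroup G), ∀ m ∈ F, e * m * e⁻¹ ∈ F := by
    intro e he m hm
    have := hFn.conj_mem ⟨m, hFle hm⟩ (by rw [Subgroup.mem_subgroupOf]; exact hm) ⟨e, he.1⟩
    rw [Subgroup.mem_subgroupOf] at this
    exact this
  have hc := card_F hab F hFle hreg
  have hdpos : 0 < Nat.card ↥(stabilizer G a ⊓ stabilizer G b) := Nat.card_pos
  obtain ⟨c, hca, hcb⟩ := zass_exists_third hZ hab
  have hcard3 : 2 < Fintype.card Ω := by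
    rw [Fintype.two_lt_card_iff]
    exact ⟨a, b, c, hab, Ne.symm hca, Ne.symm hcb⟩
  have hF1 : 1 < Nat.card F := by omega
  have hLL := L hZ hab hd F hFle hFinv hreg
  -- at most two primes
  have h3 : ∀ p q r : ℕ, p.Prime → q.Prime → r.Prime → p ∣ Nat.card F → q ∣ Nat.card F →
      r ∣ Nat.card F → p ≠ q → p ≠ r → q ≠ r → False := by
    intro p q r hp hq hr hpd hqd hrd hpq hpr hqr
    have h1 := ord_set hZ hab F hFle hFinv hreg p hp hpd
    have h2 := ord_set hZ hab F hFle hFinv hreg q hq hqd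
    have h3 := ord_set hZ hab F hFle hFinv hreg r hr hrd
    have hsub : ({x : G | x ∈ F ∧ orderOf x = p} ∪ {x : G | x ∈ F ∧ orderOf x = q}) ∪
        {x : G | x ∈ F ∧ orderOf x = r} ⊆ (F : Set G) \ {1} := by
      rintro x ((hx | hx) | hx)
      · refine ⟨hx.1, ?_⟩
        rintro rfl
        exact hp.one_lt.ne (orderOf_one.symm.trans hx.2)
      · refine ⟨hx.1, ?_⟩
        rintro rfl
        exact hq.one_lt.ne (orderOf_one.symm.trans hx.2)
      · refine ⟨hx.1, ?_⟩
        rintro rfl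
        exact hr.one_lt.ne (orderOf_one.symm.trans hx.2)
    have h4 := Set.ncard_le_ncard hsub (Set.toFinite _)
    rw [Set.ncard_sdiff_singleton_of_mem (by exact F.one_mem), Set.ncard_union_eq,
      Set.ncard_union_eq] at h4
    · have h5 : (F : Set G).ncard = Nat.card F := rfl
      omega
    · rw [Set.disjoint_left]
      intro x hx hx'
      exact hpq (hx.2.symm.trans hx'.2)
    · rw [Set.disjoint_left]
      rintro x (hx | hx) hx'
      · exact hpr (hx.2.symm.trans hx'.2)
      · exact hqr (hx.2.symm.trans hx'.2)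
  obtain ⟨p, q, α, β, hp, hq, hcard⟩ := two_primes _ hF1 h3
  have hsolv : Group.IsSolvable F := Cfsg.Agent.S0144.result p q α β hp hq hcard
  have hnt : Nontrivial F := Finite.one_lt_card_iff_nontrivial.1 hF1
  have hcomm : ⁅F, F⁆ = ⊥ := by
    by_contra hne
    have h1 : ⁅F, F⁆ = F := by
      apply hLL _ (Subgroup.commutator_le_self F) hne
      intro e he m hm
      have hmap : F.map (MulAut.conj e).toMonoidHom = F := by
        apply le_antisymm
        · rintro _ ⟨x, hx, rfl⟩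
          exact hFinv e he x hx
        · intro x hx
          refine ⟨e⁻¹ * x * e, ?_, ?_⟩
          · have := hFinv e⁻¹ (Subgroup.inv_mem _ he) x hx
            rwa [inv_inv] at this
          · simp only [MulEquiv.coe_toMonoidHom, MulAut.conj_apply]
            group
      have h2 : (MulAut.conj e).toMonoidHom m ∈ (⁅F, F⁆).map (MulAut.conj e).toMonoidHom :=
        Subgroup.mem_map_of_mem _ hm
      rw [Subgroup.map_commutator, hmap] at h2
      exact h2
    have h2 := Group.IsSolvable.commutator_lt_top_of_nontrivial F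
    apply h2.ne
    apply Subgroup.map_injective F.subtype_injective
    rw [Subgroup.map_subtype_commutator, h1, ← MonoidHom.range_eq_map, Subgroup.range_subtype]
  have hab' : ∀ x ∈ F, ∀ y ∈ F, x * y = y * x := by
    intro x hx y hy
    have := Subgroup.commutator_mem_commutator hx hy
    rw [hcomm, Subgroup.mem_bot, commutatorElement_eq_one_iff_mul_comm] at this
    exact this
  refine ⟨⟨⟨fun x y => Subtype.ext (hab' x x.2 y y.2)⟩⟩, ?_⟩
  -- exponent
  have hr : (Nat.card F).minFac.Prime := Nat.minFac_prime (by omega)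
  set r := (Nat.card F).minFac with hrdef
  have hrd : r ∣ Nat.card F := Nat.minFac_dvd _
  let M : Subgroup G :=
    { carrier := {x | x ∈ F ∧ x ^ r = 1}
      one_mem' := ⟨F.one_mem, one_pow _⟩
      mul_mem' := by
        rintro x y ⟨hx, hx'⟩ ⟨hy, hy'⟩
        refine ⟨F.mul_mem hx hy, ?_⟩
        rw [(show Commute x y from hab' x hx y hy).mul_pow, hx', hy', one_mul]
      inv_mem' := by
        rintro x ⟨hx, hx'⟩
        exact ⟨F.inv_mem hx, by rw [inv_pow, hx', inv_one]⟩ }
  have hMF : M = F := by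
    apply hLL M (fun x hx => hx.1)
    · have := Fact.mk hr
      obtain ⟨x, hx⟩ := exists_prime_orderOf_dvd_card' (G := F) r hrd
      intro hbot
      have hxM : (x : G) ∈ M := by
        refine ⟨x.2, ?_⟩
        rw [← hx, ← Subgroup.orderOf_coe, pow_orderOf_eq_one]
      rw [hbot, Subgroup.mem_bot] at hxM
      have : x = 1 := Subtype.ext hxM
      rw [this, orderOf_one] at hx
      exact hr.one_lt.ne hx
    · rintro e he m ⟨hm, hm'⟩
      exact ⟨hFinv e he m hm, by rw [conj_pow, hm']; group⟩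
  have hexp : ∀ u ∈ F, u ^ r = 1 := by
    intro u hu
    rw [← hMF] at hu
    exact hu.2
  have hpg : IsPGroup r F := by
    intro u
    refine ⟨1, ?_⟩
    rw [pow_one]
    exact Subtype.ext (hexp u u.2)
  have := Fact.mk hr
  obtain ⟨f, hf⟩ := IsPGroup.iff_card.1 hpg
  exact ⟨r, f, hr, hexp, by rw [← hc, hf]⟩

end Cfsg.Agent.S0738
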