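import Mathlib
import Cfsg.Statements.S0879
import Cfsg.Agent.Lib.Helper27.ZassEl

namespace Cfsg.Agent.S0879

open MulAction Subgroup Cfsg Cfsg.Agent.Lib.Helper3 Cfsg.Agent.Lib.Helper27.ZassEl

variable {G Ω : Type*} [Group G] [MulAction G Ω]

theorem mem_E {a b : Ω} {x : G} :
    x ∈ (stabilizer G a ⊓ stabilizer G b : Subgroup G) ↔ x • a = a ∧ x • b = b := by
  rw [Subgroup.mem_inf, mem_stabilizer_iff, mem_stabilizer_iff]

theorem conj_mem_of_pres {a b : Ω} {g : G}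
    (hg : (g • a = a ∧ g • b = b) ∨ (g • a = b ∧ g • b = a)) {x : G}
    (hx : x ∈ (stabilizer G a ⊓ stabilizer G b : Subgroup G)) :
    g * x * g⁻¹ ∈ (stabilizer G a ⊓ stabilizer G b : Subgroup G) := by
  rw [mem_E] at hx ⊢
  rcases hg with ⟨h1, h2⟩ | ⟨h1, h2⟩
  · have h3 : g⁻¹ • a = a := by rw [inv_smul_eq_iff, h1]
    have h4 : g⁻¹ • b = b := by rw [inv_smul_eq_iff, h2]
    simp only [mul_smul, h3, h4, hx.1, hx.2, h1, h2, and_self]
  · have h3 : g⁻¹ • a = b := by rw [inv_smul_eq_iff, h2]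
    have h4 : g⁻¹ • b = a := by rw [inv_smul_eq_iff, h1]
    simp only [mul_smul, h3, h4, hx.1, hx.2, h1, h2, and_self]

theorem pres_inv {a b : Ω} {g : G}
    (hg : (g • a = a ∧ g • b = b) ∨ (g • a = b ∧ g • b = a)) :
    (g⁻¹ • a = a ∧ g⁻¹ • b = b) ∨ (g⁻¹ • a = b ∧ g⁻¹ • b = a) := by
  rcases hg with ⟨h1, h2⟩ | ⟨h1, h2⟩
  · exact Or.inl ⟨by rw [inv_smul_eq_iff, h1], by rw [inv_smul_eq_iff, h2]⟩
  · exact Or.inr ⟨by rw [inv_smul_eq_iff, h2], by rw [inv_smul_eq_iff, h1]⟩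

theorem mem_normalizer_of_pres {a b : Ω} {g : G}
    (hg : (g • a = a ∧ g • b = b) ∨ (g • a = b ∧ g • b = a)) :
    g ∈ Subgroup.normalizer ((stabilizer G a ⊓ stabilizer G b : Subgroup G) : Set G) := by
  rw [Subgroup.mem_normalizer_iff]
  intro x
  refine ⟨conj_mem_of_pres hg, fun h => ?_⟩
  have := conj_mem_of_pres (pres_inv hg) h
  have h2 : g⁻¹ * (g * x * g⁻¹) * g⁻¹⁻¹ = x := by group
  rwa [h2] at this

theorem pres_of_conj (hZ : IsZassenhausGroup G Ω) {a b : Ω} (hab : a ≠ b) {g x : G} (hx1 : x ≠ 1)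
    (hx : x ∈ (stabilizer G a ⊓ stabilizer G b : Subgroup G))
    (hgx : g * x * g⁻¹ ∈ (stabilizer G a ⊓ stabilizer G b : Subgroup G)) :
    (g • a = a ∧ g • b = b) ∨ (g • a = b ∧ g • b = a) := by
  rw [mem_E] at hx hgx
  have h1 : x • g⁻¹ • a = g⁻¹ • a := by
    have := hgx.1
    rw [mul_smul, mul_smul, smul_eq_iff_eq_inv_smul] at this
    exact this
  have h2 : x • g⁻¹ • b = g⁻¹ • b := by
    have := hgx.2
    rw [mul_smul, mul_smul, smul_eq_iff_eq_inv_smul] at this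
    exact this
  have hne : g⁻¹ • a ≠ g⁻¹ • b := fun h' => hab (smul_left_cancel _ h')
  have hfix := fix_sub hZ hab hx1 hx.1 hx.2
  have key : (g⁻¹ • a = a ∧ g⁻¹ • b = b) ∨ (g⁻¹ • a = b ∧ g⁻¹ • b = a) := by
    rcases hfix _ h1 with h3 | h3 <;> rcases hfix _ h2 with h4 | h4
    · exact absurd (h3.trans h4.symm) hne
    · exact Or.inl ⟨h3, h4⟩
    · exact Or.inr ⟨h3, h4⟩
    · exact absurd (h3.trans h4.symm) hne
  have := pres_inv key
  rwa [inv_inv] at this

/-- Let G be a Zassenhaus group on the finite set Ω and E the stabilizer of two distinct points a, b. Then an element outside the normalizer of E conjugates no non-identity element of E into E, and E has index 2 in its normalizer. -/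
theorem result {G Ω : Type*} [Group G] [Finite G] [MulAction G Ω] [Fintype Ω] (hZ : Cfsg.IsZassenhausGroup G Ω) {a b : Ω} (hab : a ≠ b) : (∀ g : G, g ∉ Subgroup.normalizer ((MulAction.stabilizer G a ⊓ MulAction.stabilizer G b : Subgroup G) : Set G) → ∀ x ∈ (MulAction.stabilizer G a ⊓ MulAction.stabilizer G b : Subgroup G), g * x * g⁻¹ ∈ (MulAction.stabilizer G a ⊓ MulAction.stabilizer G b : Subgroup G) → x = 1) ∧ ((MulAction.stabilizer G a ⊓ MulAction.stabilizer G b : Subgroup G).subgroupOf (Subgroup.normalizer ((MulAction.stabilizer G a ⊓ MulAction.stabilizer G b : Subgroup G) : Set G))).index = 2 := by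
  constructor
  · intro g hg x hx hgx
    by_contra hx1
    exact hg (mem_normalizer_of_pres (pres_of_conj hZ hab hx1 hx hgx))
  · rw [Subgroup.index_eq_two_iff]
    obtain ⟨s, hsa, hsb⟩ := zass_two_trans hZ hab (Ne.symm hab)
    obtain ⟨x, hx1, hxa, hxb⟩ := zass_exists_fix_two hZ hab
    have hxE : x ∈ (stabilizer G a ⊓ stabilizer G b : Subgroup G) := mem_E.2 ⟨hxa, hxb⟩
    refine ⟨⟨s, mem_normalizer_of_pres (Or.inr ⟨hsa, hsb⟩)⟩, ?_⟩
    rintro ⟨g, hg⟩
    have hP := pres_of_conj hZ hab hx1 hxE ((Subgroup.mem_normalizer_iff.1 hg x).1 hxE)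
    simp only [Subgroup.mem_subgroupOf, Subgroup.coe_mul, mem_E, mul_smul, hsa, hsb]
    rcases hP with ⟨h1, h2⟩ | ⟨h1, h2⟩
    · right
      refine ⟨⟨h1, h2⟩, ?_⟩
      rintro ⟨h3, _⟩
      exact hab (h3.symm.trans h2).symm.symm
    · left
      refine ⟨⟨h2, h1⟩, ?_⟩
      rintro ⟨h3, _⟩
      exact hab (h3.symm.trans h1)

end Cfsg.Agent.S0879
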