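import Mathlib
import Cfsg.Statements.S0740
import Cfsg.Agent.Lib.Helper27.ZassEl

namespace Cfsg.Agent.S0740

open MulAction Subgroup Cfsg Cfsg.Agent.Lib.Helper3 Cfsg.Agent.Lib.Helper27.ZassEl

variable {G Ω : Type*} [Group G] [MulAction G Ω]

theorem parity [Fintype Ω] {s : G} (hs : s * s = 1) :
    Fintype.card Ω ≡ Nat.card (fixedBy Ω s) [MOD 2] := by
  classical
  have h := Equiv.Perm.card_fixedPoints_modEq (α := Ω) (f := MulAction.toEndHom s)
    (p := 2) (n := 1) (by
      rw [pow_one, ← map_pow, sq, hs, map_one])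
  have hset : (fixedBy Ω s : Set Ω) = Function.fixedPoints (MulAction.toEndHom s : Function.End Ω) := by
    ext x
    rfl
  rw [hset, Nat.card_eq_fintype_card]
  convert h using 2

theorem le_two [Finite Ω] (hZ : IsZassenhausGroup G Ω) {s : G} (hs : s ≠ 1) :
    Nat.card (fixedBy Ω s) ≤ 2 := by
  classical
  by_contra hcon
  push Not at hcon
  have := Fintype.ofFinite (fixedBy Ω s)
  rw [Nat.card_eq_fintype_card, Fintype.two_lt_card_iff] at hcon
  obtain ⟨x, y, z, hxy, hxz, hyz⟩ := hcon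
  apply hs
  exact zass_three hZ (a := (x : Ω)) (b := y) (c := z) (fun h => hxy (Subtype.ext h))
    (fun h => hyz (Subtype.ext h)) (fun h => hxz (Subtype.ext h)) x.2 y.2 z.2

theorem even_case [Finite G] (hZ : IsZassenhausGroup G Ω) {a b : Ω} (hab : a ≠ b)
    (heven : Even (Nat.card ↥(stabilizer G a ⊓ stabilizer G b))) :
    ∃ s : G, orderOf s = 2 ∧ s • a = b ∧ s • b = a ∧ Nat.card (fixedBy Ω s) = 2 := by
  obtain ⟨t', ht'⟩ := exists_prime_orderOf_dvd_card' (G := ↥(stabilizer G a ⊓ stabilizer G b)) 2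
    heven.two_dvd
  obtain ⟨t, htE⟩ := t'
  rw [← Subgroup.orderOf_coe] at ht'
  simp only at ht'
  rw [Subgroup.mem_inf, mem_stabilizer_iff, mem_stabilizer_iff] at htE
  obtain ⟨hta, htb⟩ := htE
  have ht1 : t ≠ 1 := by
    rintro rfl
    simp at ht'
  have htsq : t * t = 1 := by
    rw [← sq, ← ht', pow_orderOf_eq_one]
  have htt : ∀ c : Ω, t • t • c = c := fun c => by rw [← mul_smul, htsq, one_smul]
  have hfix := fix_sub hZ hab ht1 hta htb
  obtain ⟨c, hca, hcb⟩ := zass_exists_third hZ hab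
  have hne : c ≠ t • c := by
    intro h
    rcases hfix c h.symm with h | h
    · exact hca h
    · exact hcb h
  obtain ⟨y, hya, hyb⟩ := zass_two_trans hZ hab hne
  have hsa : (y⁻¹ * t * y) • a = b := by
    rw [mul_smul, mul_smul, hya, ← hyb, inv_smul_smul]
  have hsb : (y⁻¹ * t * y) • b = a := by
    rw [mul_smul, mul_smul, hyb, htt, ← hya, inv_smul_smul]
  refine ⟨y⁻¹ * t * y, ?_, hsa, hsb, ?_⟩
  · apply orderOf_eq_prime
    · rw [sq]
      calc y⁻¹ * t * y * (y⁻¹ * t * y) = y⁻¹ * (t * t) * y := by group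
        _ = 1 := by rw [htsq]; group
    · intro h
      rw [h, one_smul] at hsa
      exact hab hsa
  · have hset : fixedBy Ω (y⁻¹ * t * y) = {y⁻¹ • a, y⁻¹ • b} := by
      ext x
      rw [mem_fixedBy, mul_smul, mul_smul, inv_smul_eq_iff, Set.mem_insert_iff,
        Set.mem_singleton_iff, eq_inv_smul_iff, eq_inv_smul_iff]
      constructor
      · intro h
        exact hfix _ h
      · rintro (h | h)
        · rw [h, hta]
        · rw [h, htb]
    rw [hset, Nat.card_coe_set_eq, Set.ncard_pair]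
    exact fun h' => hab (smul_left_cancel _ h')

theorem odd_case [Finite G] (hZ : IsZassenhausGroup G Ω) {a b : Ω} (hab : a ≠ b)
    (hodd : ¬ Even (Nat.card ↥(stabilizer G a ⊓ stabilizer G b))) :
    ∃ s : G, orderOf s = 2 ∧ s • a = b ∧ s • b = a := by
  obtain ⟨g, hga, hgb⟩ := zass_two_trans hZ hab (Ne.symm hab)
  have hg2 : g ^ 2 ∈ (stabilizer G a ⊓ stabilizer G b : Subgroup G) := by
    rw [Subgroup.mem_inf, mem_stabilizer_iff, mem_stabilizer_iff, sq, mul_smul, mul_smul, hga, hgb,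
      hga]
    exact ⟨rfl, rfl⟩
  have hm : ¬ Even (orderOf (g ^ 2)) := by
    intro h
    apply hodd
    have h1 : orderOf (g ^ 2) ∣ Nat.card ↥(stabilizer G a ⊓ stabilizer G b) := by
      have := orderOf_dvd_natCard (⟨g ^ 2, hg2⟩ : ↥(stabilizer G a ⊓ stabilizer G b))
      rwa [← Subgroup.orderOf_coe] at this
    exact (even_iff_two_dvd.2 (dvd_trans h.two_dvd h1))
  rw [Nat.not_even_iff_odd] at hm
  obtain ⟨k, hk⟩ := hm
  have hpk : (g ^ 2) ^ k ∈ (stabilizer G a ⊓ stabilizer G b : Subgroup G) := Subgroup.pow_mem _ hg2 k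
  rw [Subgroup.mem_inf, mem_stabilizer_iff, mem_stabilizer_iff] at hpk
  have hs : g ^ (2 * k + 1) = (g ^ 2) ^ k * g := by rw [pow_succ, pow_mul]
  have hsa : g ^ (2 * k + 1) • a = b := by rw [hs, mul_smul, hga, hpk.2]
  have hsb : g ^ (2 * k + 1) • b = a := by rw [hs, mul_smul, hgb, hpk.1]
  refine ⟨g ^ (2 * k + 1), ?_, hsa, hsb⟩
  apply orderOf_eq_prime
  · rw [← pow_mul, mul_comm, pow_mul, ← hk, pow_orderOf_eq_one]
  · intro h
    rw [h, one_smul] at hsa
    exact hab hsa

/-- In a finite Zassenhaus group any two points `a ≠ b` are swapped by an involution; every such involution has exactly one fixed point when the degree is odd and 0 or 2 fixed points when the degree is even; and if the two-point stabiliser has even order, some such involution has exactly 2 fixed points. -/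
theorem result {G Ω : Type*} [Group G] [Finite G] [MulAction G Ω] [Fintype Ω] (hZ : Cfsg.IsZassenhausGroup G Ω) {a b : Ω} (hab : a ≠ b) : (∃ s : G, orderOf s = 2 ∧ s • a = b ∧ s • b = a) ∧ (∀ s : G, orderOf s = 2 → s • a = b → s • b = a → (Odd (Fintype.card Ω) → Nat.card (MulAction.fixedBy Ω s) = 1) ∧ (Even (Fintype.card Ω) → Nat.card (MulAction.fixedBy Ω s) = 0 ∨ Nat.card (MulAction.fixedBy Ω s) = 2)) ∧ (Even (Fintype.card Ω) → Even (Nat.card ↥(MulAction.stabilizer G a ⊓ MulAction.stabilizer G b)) → ∃ s : G, orderOf s = 2 ∧ s • a = b ∧ s • b = a ∧ Nat.card (MulAction.fixedBy Ω s) = 2) := by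
  refine ⟨?_, ?_, fun _ h => even_case hZ hab h⟩
  · by_cases h : Even (Nat.card ↥(stabilizer G a ⊓ stabilizer G b))
    · obtain ⟨s, h1, h2, h3, -⟩ := even_case hZ hab h
      exact ⟨s, h1, h2, h3⟩
    · exact odd_case hZ hab h
  · intro s hs hsa hsb
    have hs1 : s ≠ 1 := by
      rintro rfl
      simp at hs
    have hsq : s * s = 1 := by rw [← sq, ← hs, pow_orderOf_eq_one]
    have h1 := parity (Ω := Ω) hsq
    have h2 := le_two hZ hs1
    unfold Nat.ModEq at h1
    constructor
    · intro h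
      rw [Nat.odd_iff] at h
      omega
    · intro h
      rw [Nat.even_iff] at h
      omega

end Cfsg.Agent.S0740
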