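import Cfsg.Statements.S0383
import Cfsg.Agent.Lib.Helper3.M12a
import Cfsg.Agent.S0384

set_option autoImplicit false
open scoped Pointwise
open Cfsg

namespace Cfsg.Agent.S0383

/-- A dodecad stabiliser in the group of the length-24 code is simple. -/
theorem result (d : Finset Cfsg.GolayPt) (hd : d ∈ Cfsg.dodecads) : IsSimpleGroup (MulAction.stabilizer Cfsg.M24 d) := by
  have hc : d.card = 12 := hd.2
  exact (Cfsg.Agent.Lib.Helper3.simple_sharp_finset (G := Cfsg.M24) d hc
    (fun x y hx hy => Cfsg.Agent.S0384.result d hd x y hx hy)).1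

end Cfsg.Agent.S0383
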