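import Cfsg.Statements.S0680
import Mathlib

set_option autoImplicit false
open Cfsg

namespace Cfsg.Agent.S0680

/-- A finite sharply doubly transitive permutation group has degree a prime power `p ^ j`; a Sylow `p`-subgroup is normal, elementary abelian and regular, and consists of the identity together with the elements without fixed points. (Frobenius' Theorem is not needed.) -/
theorem result {α : Type*} [Fintype α] [DecidableEq α] (G : Subgroup (Equiv.Perm α)) [MulAction.IsMultiplyPretransitive G α 2] (hsharp : ∀ x : Fin 2 ↪ α, MulAction.stabilizer G x = ⊥) (h2 : 2 ≤ Fintype.card α) : ∃ p j : ℕ, p.Prime ∧ 1 ≤ j ∧ Fintype.card α = p ^ j ∧ ∀ (hp : Fact p.Prime) (P : Sylow p G), (P : Subgroup G).Normal ∧ IsMulCommutative (P : Subgroup G) ∧ (∀ x ∈ (P : Subgroup G), x ^ p = 1) ∧ MulAction.IsPretransitive (P : Subgroup G) α ∧ (∀ a : α, MulAction.stabilizer (P : Subgroup G) a = ⊥) ∧ ∀ g : G, g ∈ (P : Subgroup G) ↔ g = 1 ∨ ∀ a : α, g • a ≠ a := by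
  classical
  set n := Fintype.card α with hn
  haveI : MulAction.IsPretransitive G α :=
    MulAction.isPretransitive_of_is_two_pretransitive
  haveI hne : Nonempty α := Fintype.card_pos_iff.mp (by omega)
  have F1 : ∀ g : G, ∀ a b : α, a ≠ b → g • a = a → g • b = b → g = 1 := by
    intro g a b hab ha hb
    have : g ∈ MulAction.stabilizer G (Function.Embedding.embFinTwo hab) := by
      rw [MulAction.mem_stabilizer_iff]
      ext i
      fin_cases i
      · show g • (Function.Embedding.embFinTwo hab 0) = Function.Embedding.embFinTwo hab 0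
        rw [Function.Embedding.embFinTwo_apply_zero]; exact ha
      · show g • (Function.Embedding.embFinTwo hab 1) = Function.Embedding.embFinTwo hab 1
        rw [Function.Embedding.embFinTwo_apply_one]; exact hb
    rw [hsharp] at this
    exact Subgroup.mem_bot.mp this
  have hG : Nat.card G = n * (n - 1) := by
    obtain ⟨x⟩ : Nonempty (Fin 2 ↪ α) := by
      rw [Function.Embedding.nonempty_iff_card_le]; simpa using h2
    have := @MulAction.index_stabilizer_of_transitive G _ _ _ x ⟨fun x y => by
      obtain ⟨g, hg⟩ := (‹MulAction.IsMultiplyPretransitive G α 2›).exists_smul_eq x y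
      exact ⟨g, hg⟩⟩
    rw [hsharp x, Subgroup.index_bot] at this
    rw [this, Nat.card_eq_fintype_card, Fintype.card_embedding_eq]
    simp [Nat.descFactorial, ← hn, mul_comm]
  have hstab : ∀ a : α, Nat.card (MulAction.stabilizer G a) = n - 1 := by
    intro a
    have h1 := MulAction.index_stabilizer_of_transitive G a
    have h2 := Subgroup.card_mul_index (MulAction.stabilizer G a)
    rw [h1, hG, Nat.card_eq_fintype_card (α := α), ← hn, mul_comm] at h2
    exact Nat.eq_of_mul_eq_mul_left (by omega) h2
  set K0 : Set G := {g | ∀ a : α, g • a ≠ a} with hK0def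
  have hK0 : K0.ncard = n - 1 := by
    have hB := MulAction.sum_card_fixedBy_eq_card_orbits_mul_card_group G α
    have horb : Fintype.card (Quotient (MulAction.orbitRel G α)) = 1 := by
      rw [Fintype.card_eq_one_iff_nonempty_unique]
      exact (MulAction.pretransitive_iff_unique_quotient_of_nonempty G α).mp inferInstance
    rw [horb, one_mul] at hB
    have hpt : ∀ g : G, Fintype.card (MulAction.fixedBy α g) + (if g ∈ K0 then 1 else 0) +
        (if g = 1 then 1 else 0) = 1 + (if g = 1 then n else 0) := by
      intro g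
      by_cases hg1 : g = 1
      · subst hg1
        have h1 : (1 : G) ∉ K0 := by
          intro h; obtain ⟨a⟩ := hne; exact h a (one_smul _ a)
        have h2 : Fintype.card (MulAction.fixedBy α (1 : G)) = n := by
          rw [hn]
          apply Fintype.card_of_subtype
          intro x; simp
        simp only [h1, h2, if_true, if_false]
        omega
      · by_cases hf : g ∈ K0
        · have : Fintype.card (MulAction.fixedBy α g) = 0 := by
            rw [Fintype.card_eq_zero_iff]; exact ⟨fun ⟨a, ha⟩ => hf a ha⟩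
          simp [hg1, hf, this]
        · have hf' := hf
          simp only [hK0def, Set.mem_ofPred_eq, not_forall, not_not] at hf'
          obtain ⟨a, ha⟩ := hf'
          have : Fintype.card (MulAction.fixedBy α g) = 1 := by
            rw [Fintype.card_eq_one_iff]
            refine ⟨⟨a, ha⟩, fun ⟨b, hb⟩ => ?_⟩
            by_contra hne'
            exact hg1 (F1 g a b (fun h => hne' (Subtype.ext h.symm)) ha hb)
          simp [hg1, hf, this]
    have hsum : ∑ g : G, (Fintype.card (MulAction.fixedBy α g) + (if g ∈ K0 then 1 else 0) +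
        (if g = 1 then 1 else 0)) = ∑ g : G, (1 + (if g = 1 then n else 0)) :=
      Finset.sum_congr rfl (fun g _ => hpt g)
    simp only [Finset.sum_add_distrib, Finset.sum_ite_eq', Finset.mem_univ, if_true,
      Finset.sum_const, Finset.card_univ, smul_eq_mul, mul_one] at hsum
    rw [hB, Finset.sum_boole] at hsum
    have hc : K0.ncard = (Finset.univ.filter (fun g => g ∈ K0)).card := by
      rw [← Set.ncard_coe_finset]; congr 1; ext; simp
    rw [hc]
    simp only [Nat.cast_id] at hsum
    omega
  have hK0conj : ∀ g ∈ K0, ∀ k : G, k * g * k⁻¹ ∈ K0 := by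
    intro g hg k a ha
    apply hg (k⁻¹ • a)
    rw [mul_smul, mul_smul] at ha
    exact eq_inv_smul_iff.mpr ha
  have key : ∀ y ∈ K0, Nat.card (Subgroup.centralizer {y}) = n ∧
      (∀ g : G, g ∈ Subgroup.centralizer {y} ↔ g = 1 ∨ g ∈ K0) ∧
      MulAction.orbit (ConjAct G) y = K0 := by
    intro y hy
    have hsemi : ∀ c ∈ Subgroup.centralizer {y}, ∀ a : α, c • a = a → c = 1 := by
      intro c hc a ha
      apply F1 c a (y • a) (hy a).symm ha
      rw [Subgroup.mem_centralizer_singleton_iff] at hc
      rw [← mul_smul, hc, mul_smul, ha]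
    have hle : Nat.card (Subgroup.centralizer {y}) ≤ n := by
      obtain ⟨a⟩ := hne
      rw [hn, ← Nat.card_eq_fintype_card]
      apply Nat.card_le_card_of_injective (fun c : Subgroup.centralizer {y} => (c : G) • a)
      intro c c' hcc
      have hcc' : (c : G) • a = (c' : G) • a := hcc
      have : ((c⁻¹ * c' : Subgroup.centralizer {y}) : G) = 1 := hsemi _ (c⁻¹ * c').2 a (by
        show ((c : G)⁻¹ * (c' : G)) • a = a
        rw [mul_smul, ← hcc', inv_smul_smul])
      exact inv_mul_eq_one.mp (Subtype.ext this)
    have hsub : MulAction.orbit (ConjAct G) y ⊆ K0 := by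
      rintro _ ⟨k, rfl⟩
      exact hK0conj y hy (ConjAct.ofConjAct k)
    have h1 := Subgroup.card_mul_index (MulAction.stabilizer (ConjAct G) y)
    rw [MulAction.index_stabilizer, ← Subgroup.nat_card_centralizer_nat_card_stabilizer] at h1
    have h2 : Nat.card (ConjAct G) = n * (n - 1) := hG
    rw [h2] at h1
    have h3 : (MulAction.orbit (ConjAct G) y).ncard ≤ n - 1 := by
      rw [← hK0]; exact Set.ncard_le_ncard hsub (Set.toFinite _)
    have e1 := Nat.mul_le_mul_right (MulAction.orbit (ConjAct G) y).ncard hle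
    have e2 := Nat.mul_le_mul_left n h3
    have ho : (MulAction.orbit (ConjAct G) y).ncard = n - 1 :=
      Nat.eq_of_mul_eq_mul_left (show 0 < n by omega) (le_antisymm e2 (h1 ▸ e1))
    have hc' : Nat.card (Subgroup.centralizer {y}) = n := by
      rw [ho] at h1
      exact Nat.eq_of_mul_eq_mul_right (show 0 < n - 1 by omega) h1
    refine ⟨hc', ?_, Set.eq_of_subset_of_ncard_le hsub (by rw [hK0, ho]) (Set.toFinite _)⟩
    have hsub2 : ((Subgroup.centralizer {y} : Subgroup G) : Set G) \ {1} ⊆ K0 := by
      rintro g ⟨hg, hg1⟩ a ha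
      exact hg1 (hsemi g hg a ha)
    have hcard : (((Subgroup.centralizer {y} : Subgroup G) : Set G) \ {1}).ncard = n - 1 := by
      rw [Set.ncard_diff_singleton_of_mem (one_mem (Subgroup.centralizer {y}))]
      rw [← hc']; rfl
    have heq := Set.eq_of_subset_of_ncard_le hsub2 (by rw [hK0, hcard]) (Set.toFinite _)
    intro g
    constructor
    · intro hg
      by_cases h1 : g = 1
      · left; exact h1
      · right; rw [← heq]; exact ⟨hg, h1⟩
    · rintro (rfl | hg)
      · exact one_mem _
      · rw [← heq] at hg; exact hg.1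
  obtain ⟨p, hp, hpn⟩ := Nat.exists_prime_and_dvd (show n ≠ 1 by omega)
  haveI := Fact.mk hp
  have hpn1 : ¬ p ∣ n - 1 := by
    intro h
    have h1 : p ∣ n - (n - 1) := Nat.dvd_sub hpn h
    have h2 : n - (n - 1) = 1 := by omega
    rw [h2] at h1
    exact hp.one_lt.ne' (Nat.dvd_one.mp h1)
  obtain ⟨x, hx⟩ := exists_prime_orderOf_dvd_card' (G := G) p (by rw [hG]; exact Dvd.dvd.mul_right hpn _)
  have hxK : x ∈ K0 := by
    intro a ha
    have h1 : orderOf (⟨x, ha⟩ : MulAction.stabilizer G a) ∣ n - 1 := by
      rw [← hstab a]; exact orderOf_dvd_natCard _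
    rw [← Subgroup.orderOf_coe, hx] at h1
    exact hpn1 h1
  obtain ⟨hCn, hCK, hCorb⟩ := key x hxK
  set C := Subgroup.centralizer {x} with hCdef
  have hCnormal : C.Normal := ⟨fun g hg k => by
    rw [hCK] at hg ⊢
    rcases hg with rfl | hg
    · left; simp
    · right; exact hK0conj g hg k⟩
  have hCexp : ∀ g ∈ C, g ^ p = 1 := by
    intro g hg
    rcases (hCK g).mp hg with rfl | hg
    · simp
    · rw [← hCorb] at hg
      obtain ⟨k, rfl⟩ := hg
      show (k • x) ^ p = 1
      rw [ConjAct.smul_def, conj_pow, ← hx, pow_orderOf_eq_one]; simp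
  have hCcomm : IsMulCommutative C := by
    apply IsMulCommutative.of_setLike_mul_comm
    intro a ha b hb
    rcases (hCK a).mp ha with rfl | haK
    · simp
    · obtain ⟨-, h', -⟩ := key a haK
      have hb' : b ∈ Subgroup.centralizer {a} := (h' b).mpr ((hCK b).mp hb)
      exact (Subgroup.mem_centralizer_singleton_iff.mp hb').symm
  have hCp : IsPGroup p C := fun g => ⟨1, by
    rw [pow_one]; exact Subtype.ext (hCexp g g.2)⟩
  obtain ⟨j, hj⟩ := IsPGroup.iff_card.mp hCp
  have hnj : n = p ^ j := by rw [← hCn, hj]
  have hj1 : 1 ≤ j := by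
    rcases Nat.eq_zero_or_pos j with h | h
    · rw [h, pow_zero] at hnj; omega
    · exact h
  refine ⟨p, j, hp, hj1, hnj, ?_⟩
  intro hp' P
  have hsemiC : ∀ c ∈ C, ∀ a : α, c • a = a → c = 1 := by
    intro c hc a ha
    rcases (hCK c).mp hc with h | h
    · exact h
    · exact absurd ha (h a)
  have hPC : (P : Subgroup G) = C := by
    have hidx : ¬ p ∣ C.index := by
      have h1 := Subgroup.card_mul_index C
      rw [hCn, hG] at h1
      have : C.index = n - 1 := Nat.eq_of_mul_eq_mul_left (by omega) h1
      rw [this]; exact hpn1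
    let Q : Sylow p G := hCp.toSylow hidx
    have hQ : (Q : Subgroup G) = C := rfl
    have hQn : (Q : Subgroup G).Normal := hQ ▸ hCnormal
    have := Sylow.unique_of_normal Q hQn
    rw [Subsingleton.elim P Q, hQ]
  rw [hPC]
  refine ⟨hCnormal, hCcomm, hCexp, ?_, ?_, hCK⟩
  · constructor
    intro a b
    have hinj : Function.Injective (fun c : C => (c : G) • a) := by
      intro c c' hcc
      have hcc' : (c : G) • a = (c' : G) • a := hcc
      have : ((c⁻¹ * c' : C) : G) = 1 := hsemiC _ (c⁻¹ * c').2 a (by
        show ((c : G)⁻¹ * (c' : G)) • a = a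
        rw [mul_smul, ← hcc', inv_smul_smul])
      exact inv_mul_eq_one.mp (Subtype.ext this)
    have hbij := hinj.bijective_of_nat_card_le (by rw [hCn, Nat.card_eq_fintype_card])
    obtain ⟨c, hc⟩ := hbij.2 b
    exact ⟨c, hc⟩
  · intro a
    rw [eq_bot_iff]
    intro c hc
    rw [Subgroup.mem_bot]
    exact Subtype.ext (hsemiC c c.2 a hc)

end Cfsg.Agent.S0680
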