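import Cfsg.Statements.S0414
import Cfsg.Agent.Lib.Helper28.AutD4
import Cfsg.Agent.Lib.Helper28.SteinD22

set_option autoImplicit false
open Cfsg

namespace Cfsg.Agent.S0414

/-- Aut of an S(3, 6, 22) has order 887040, is 3-transitive, and contains a simple subgroup of index 2. -/
theorem result {α : Type*} [Fintype α] [DecidableEq α] (hα : Fintype.card α = 22) {B : Set (Finset α)} (hB : Cfsg.IsSteinerSystem 3 6 B) : Nat.card (Cfsg.setSystemAut B) = 887040 ∧ MulAction.IsMultiplyPretransitive (Cfsg.setSystemAut B) α 3 ∧ ∃ H : Subgroup (Cfsg.setSystemAut B), H.index = 2 ∧ Cfsg.IsM22 H := by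
  obtain ⟨e, he⟩ := Cfsg.Agent.Lib.Helper28.Stein.iso22 hα Cfsg.Agent.Lib.Helper28.AutD.card_S22 hB
    Cfsg.Agent.Lib.Helper28.AutD.D22_steiner
  refine ⟨?_, Cfsg.Agent.Lib.Helper28.Stein.mpt_transport e he Cfsg.Agent.Lib.Helper28.AutD.mpt_aut_D22, ?_⟩
  · rw [Nat.card_congr (Cfsg.Agent.Lib.Helper28.Stein.autCongr e he).toEquiv]
    exact Cfsg.Agent.Lib.Helper28.AutD.card_aut_D22
  · refine ⟨Cfsg.Agent.Lib.Helper28.AutD.H22.map
      ((Cfsg.Agent.Lib.Helper28.Stein.autCongr e he).symm : _ →* _), ?_, ?_, ?_⟩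
    · rw [Subgroup.index_map_equiv]
      exact Cfsg.Agent.Lib.Helper28.AutD.index_H22
    · have := Cfsg.Agent.Lib.Helper28.AutD.isM22_H22.1
      exact ((Cfsg.Agent.Lib.Helper28.Stein.autCongr e he).symm.subgroupMap
        Cfsg.Agent.Lib.Helper28.AutD.H22).symm.isSimpleGroup
    · rw [← Nat.card_congr ((Cfsg.Agent.Lib.Helper28.Stein.autCongr e he).symm.subgroupMap
        Cfsg.Agent.Lib.Helper28.AutD.H22).toEquiv]
      exact Cfsg.Agent.Lib.Helper28.AutD.isM22_H22.2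

end Cfsg.Agent.S0414
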