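import Cfsg.Statements.S1393
import Cfsg.Agent.Lib.Helper29.TransBG
-- import your own Cfsg.Agent.* helpers here

set_option autoImplicit false
open Cfsg

namespace Cfsg.Agent.S1393

/-- Let G be a minimal simple group of odd order, A a subgroup satisfying the transitivity hypothesis whose centre has rank at least 3, K = O_{π(A)'}(C_G(A)), and q a prime not dividing the order of A. Then any two maximal A-invariant q-subgroups of G are conjugate by an element of K. -/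
theorem result {G : Type*} [Group G] [Finite G] (hG : Cfsg.IsMinSimpleOddOrder G)
    (A : Subgroup G) (hA : Cfsg.TransitivityHypothesis A) (hZ : ¬ Cfsg.RankLE 2 ↥(A ⊓ Subgroup.centralizer (A : Set G)))
    (q : ℕ) (hq : q.Prime) (hqA : ¬ q ∣ Nat.card A) :
    ∀ Q₁ ∈ Cfsg.maxInvSubgroups ⊤ A {q}, ∀ Q₂ ∈ Cfsg.maxInvSubgroups ⊤ A {q}, ∃ k ∈ Cfsg.piCoreOf (Cfsg.primesNotDvd (Nat.card A)) (Subgroup.centralizer (A : Set G)), Q₂ = Q₁.map (MulAut.conj k).toMonoidHom := by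
  haveI : Fact q.Prime := ⟨hq⟩
  intro Q₁ h₁ Q₂ h₂
  obtain ⟨r, hr, E, hEZ, hE, hcard⟩ := Cfsg.Agent.Lib.Helper29.exists_elemAb_of_not_rankLE hZ
  haveI : Fact r.Prime := ⟨hr⟩
  have hi₁ := Cfsg.Agent.Lib.Helper29.mem_inv_iff.mp h₁.1
  have hi₂ := Cfsg.Agent.Lib.Helper29.mem_inv_iff.mp h₂.1
  by_cases hb₁ : Q₁ = ⊥
  · have : Q₂ = Q₁ := h₁.2 Q₂ h₂.1 (hb₁ ▸ bot_le)
    exact ⟨1, one_mem _, by rw [this]; exact (Cfsg.Agent.Lib.Helper12.cj_one Q₁).symm⟩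
  by_cases hb₂ : Q₂ = ⊥
  · have : Q₁ = Q₂ := h₂.2 Q₁ h₁.1 (hb₂ ▸ bot_le)
    exact ⟨1, one_mem _, by rw [this]; exact (Cfsg.Agent.Lib.Helper12.cj_one Q₂).symm⟩
  have hEA : E ≤ A := hEZ.trans inf_le_left
  have hrA : r ∣ Nat.card A := by
    have h1 : Nat.card E ∣ Nat.card A := Subgroup.card_dvd_of_le hEA
    obtain ⟨n, hn⟩ := IsPGroup.iff_card.mp (Cfsg.Agent.Lib.Helper4.elemAb_isPGroup hE)
    rcases n with _ | n
    · rw [hn, pow_zero] at hcard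
      have := Nat.pos_of_ne_zero (pow_ne_zero 2 hr.pos.ne')
      omega
    · exact (Dvd.intro_left (r ^ n) (by rw [hn, pow_succ])).trans h1
  have hrq : ∀ Q : Subgroup G, IsPGroup q Q → ¬ r ∣ Nat.card Q := by
    intro Q hQ hd
    have := Cfsg.Agent.Lib.Helper29.primes_of_isPGroup hQ r hr hd
    rw [Set.mem_singleton_iff] at this
    exact hqA (this ▸ hrA)
  obtain ⟨b, hbE, hb1, hf₁, hf₂⟩ := Cfsg.Agent.Lib.Helper29.exists_fix_of_rank_three r E Q₁ Q₂ hE hcard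
    (hrq _ hi₁.1) (hEA.trans hi₁.2) hb₁ (hrq _ hi₂.1) (hEA.trans hi₂.2) hb₂
  refine Cfsg.Agent.Lib.Helper29.TH.conj_of_common hG hA q hqA Q₁ Q₂ h₁ h₂
    (Subgroup.centralizer ({b} : Set G)) (Cfsg.Agent.Lib.Helper29.centralizer_singleton_ne_top hG hb1) ?_
    (by rwa [inf_comm]) (by rwa [inf_comm])
  intro a ha
  rw [Subgroup.mem_centralizer_singleton_iff]
  exact ((Subgroup.mem_centralizer_iff.mp (Subgroup.mem_inf.mp (hEZ hbE)).2) a ha)

end Cfsg.Agent.S1393
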