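import Cfsg.Statements.S0661
import Cfsg.Agent.S0028
import Cfsg.Agent.Lib.Helper16.Syl
import Cfsg.Agent.Lib.Helper23.Basic
import Cfsg.Agent.Lib.Helper8.Cores

set_option autoImplicit false
open Cfsg

namespace Cfsg.Agent.S0661

open Cfsg.Agent.Lib.Helper16 Cfsg.Agent.Lib.Helper23 Cfsg.Agent.Lib.Helper8

theorem eq_one_of_mem {X : Type*} [Group X] {p : ℕ} {A B : Subgroup X} (hA : IsPGroup p A)
    (hB : (Nat.card B).Coprime p) {x : X} (h1 : x ∈ A) (h2 : x ∈ B) : x = 1 := by
  obtain ⟨k, hk⟩ := hA ⟨x, h1⟩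
  have hk' : x ^ p ^ k = 1 := by simpa using congrArg Subtype.val hk
  have h3 : orderOf x ∣ Nat.card B := by
    have := orderOf_dvd_natCard (⟨x, h2⟩ : B)
    rwa [Subgroup.orderOf_mk] at this
  exact orderOf_eq_one_iff.mp (Nat.eq_one_of_dvd_coprimes (Nat.Coprime.pow_right k hB) h3
    (orderOf_dvd_of_pow_eq_one hk'))

/-- If, modulo the largest normal subgroup of order prime to p, the largest normal p-subgroup contains its centralizer, then for every p-subgroup P the p'-core of N_G(P) is just O_p'(G) ∩ N_G(P). -/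
theorem result {G : Type*} [Group G] [Finite G] {p : ℕ} [Fact p.Prime] (hc : Subgroup.centralizer (Cfsg.pCore p (G ⧸ Cfsg.pPrimeCore p G) : Set (G ⧸ Cfsg.pPrimeCore p G)) ≤ Cfsg.pCore p (G ⧸ Cfsg.pPrimeCore p G)) (P : Subgroup G) (hP : IsPGroup p P) : (Cfsg.pPrimeCore p ↥(Subgroup.normalizer (P : Set G))).map (Subgroup.normalizer (P : Set G)).subtype = Cfsg.pPrimeCore p G ⊓ Subgroup.normalizer (P : Set G) := by
  set K := Cfsg.pPrimeCore p G with hK
  set N := Subgroup.normalizer (P : Set G) with hN
  have hKc : (Nat.card K).Coprime p := coprime_card_pPrimeCore p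
  apply le_antisymm
  · refine le_inf ?_ (Subgroup.map_subtype_le _)
    set X : Subgroup G := (Cfsg.pPrimeCore p ↥N).map N.subtype with hX
    have hXN : X ≤ N := Subgroup.map_subtype_le _
    have hXc : (Nat.card X).Coprime p := by
      rw [hX, Subgroup.card_map_of_injective N.subtype_injective]
      exact coprime_card_pPrimeCore p
    have hXsub : X.subgroupOf N = Cfsg.pPrimeCore p ↥N :=
      Subgroup.comap_map_eq_self_of_injective N.subtype_injective _
    have hXnorm : N ≤ Subgroup.normalizer (X : Set G) := by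
      rw [← Subgroup.normal_subgroupOf_iff_le_normalizer hXN, hXsub]; infer_instance
    let π := QuotientGroup.mk' K
    set Q := Cfsg.pCore p (G ⧸ K) with hQ
    have hQp : IsPGroup p Q := isPGroup_pCore p
    have hQn : Q.Normal := inferInstance
    have hXbc : (Nat.card (X.map π)).Coprime p := Nat.Coprime.of_dvd_left (Subgroup.card_map_dvd X π) hXc
    have hcomm : ∀ x ∈ X, ∀ y ∈ P, x * y = y * x := by
      intro x hx y hy
      have h1 : x * y * x⁻¹ * y⁻¹ ∈ P :=
        P.mul_mem ((Subgroup.mem_normalizer_iff.mp (hXN hx) y).mp hy) (P.inv_mem hy)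
      have h2 : x * y * x⁻¹ * y⁻¹ ∈ X := by
        have := X.mul_mem hx ((Subgroup.mem_normalizer_iff.mp (hXnorm (Subgroup.le_normalizer hy)) x⁻¹).mp
          (X.inv_mem hx))
        simpa [mul_assoc] using this
      have h3 := eq_one_of_mem hP hXc h1 h2
      calc x * y = (x * y * x⁻¹ * y⁻¹) * (y * x) := by group
        _ = y * x := by rw [h3, one_mul]
    have hsyl : SylIn p P (P ⊔ K) := by
      refine ⟨le_sup_left, hP, ?_⟩
      rw [relIndex_sup_of_normal]
      intro hd
      exact (Fact.out : p.Prime).one_lt.ne' (Nat.eq_one_of_dvd_coprimes hKc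
        (hd.trans (Subgroup.relIndex_dvd_card _ _)) dvd_rfl)
    have key : X.map π ≤ Subgroup.centralizer (Q : Set (G ⧸ K)) := by
      apply Cfsg.Agent.S0028.result p (P.map π) (X.map π) Q (hP.map π) hXbc hQp
      · rintro _ ⟨y, hy, rfl⟩
        rw [Subgroup.mem_centralizer_iff]
        rintro _ ⟨x, hx, rfl⟩
        rw [← map_mul, ← map_mul, hcomm x hx y hy]
      · rw [Subgroup.normalizer_eq_top]; exact le_top
      · rw [Subgroup.normalizer_eq_top]; exact le_top
      · intro d hd
        obtain ⟨hdQ, hdC⟩ := Subgroup.mem_inf.mp hd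
        obtain ⟨d0, rfl⟩ := QuotientGroup.mk'_surjective K d
        have hcomap : (P.map π).comap π = P ⊔ K := by
          rw [Subgroup.comap_map_eq, QuotientGroup.ker_mk']
        have hd0 : d0 ∈ Subgroup.normalizer ((P ⊔ K : Subgroup G) : Set G) := by
          apply Cfsg.Agent.Lib.Helper1.mem_normalizer_of_conj_mem
          intro u hu
          rw [← hcomap, Subgroup.mem_comap] at hu ⊢
          have := Subgroup.mem_centralizer_iff.mp hdC _ hu
          have e : π (d0 * u * d0⁻¹) = π u := by
            rw [map_mul, map_mul, map_inv]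
            show QuotientGroup.mk' K d0 * π u * (QuotientGroup.mk' K d0)⁻¹ = π u
            rw [← this]; group
          rw [e]; exact hu
        obtain ⟨n, hn, m, hm, rfl⟩ := hsyl.frattini le_rfl hd0
        obtain ⟨y, hy, k, hk, rfl⟩ := Subgroup.mem_sup_of_normal_right.mp hn
        have hk1 : π k = 1 := (QuotientGroup.eq_one_iff k).mpr hk
        set d := y * m with hd'
        have hdN : d ∈ N := N.mul_mem (Subgroup.le_normalizer hy) hm
        have hπd : QuotientGroup.mk' K (y * k * m) = π d := by
          show π (y * k * m) = π d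
          rw [hd', map_mul, map_mul, hk1, mul_one, map_mul]
        rw [hπd] at hdQ ⊢
        rw [Subgroup.mem_centralizer_iff]
        rintro _ ⟨x, hx, rfl⟩
        have h1 : π (x * d * x⁻¹ * d⁻¹) ∈ Q := by
          rw [map_mul, map_mul, map_mul, map_inv, map_inv]
          exact Q.mul_mem (hQn.conj_mem _ hdQ _) (Q.inv_mem hdQ)
        have h2 : π (x * d * x⁻¹ * d⁻¹) ∈ X.map π := by
          refine ⟨_, ?_, rfl⟩
          have := X.mul_mem hx ((Subgroup.mem_normalizer_iff.mp (hXnorm hdN) x⁻¹).mp (X.inv_mem hx))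
          simpa [mul_assoc] using this
        have h3 := eq_one_of_mem hQp hXbc h1 h2
        have h4 : π x * π d = π (x * d * x⁻¹ * d⁻¹) * (π d * π x) := by
          rw [← map_mul, ← map_mul, ← map_mul]
          congr 1
          group
        rw [h4, h3, one_mul]
    intro x hx
    have h1 : π x ∈ X.map π := ⟨x, hx, rfl⟩
    have h2 := eq_one_of_mem hQp hXbc (hc (key h1)) h1
    exact (QuotientGroup.eq_one_iff x).mp h2
  · have h1 : ((K ⊓ N).subgroupOf N).Normal := by
      rw [Subgroup.normal_subgroupOf_iff_le_normalizer inf_le_right]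
      apply Cfsg.Agent.Lib.Helper1.le_normalizer_of_forall_conj_mem
      intro x hx y hy
      obtain ⟨hy1, hy2⟩ := Subgroup.mem_inf.mp hy
      have hKn : K.Normal := inferInstance
      exact Subgroup.mem_inf.mpr ⟨hKn.conj_mem y hy1 x, N.mul_mem (N.mul_mem hx hy2) (N.inv_mem hx)⟩
    have h2 : (Nat.card ((K ⊓ N).subgroupOf N)).Coprime p := by
      have e : Nat.card ((K ⊓ N).subgroupOf N) = Nat.card (K ⊓ N : Subgroup G) :=
        Nat.card_congr (Subgroup.subgroupOfEquivOfLe inf_le_right).toEquiv
      rw [e]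
      exact Nat.Coprime.of_dvd_left (Subgroup.card_dvd_of_le inf_le_left) hKc
    have h3 := le_pPrimeCore_of_normal h1 h2
    have h4 := Subgroup.map_mono (f := N.subtype) h3
    rwa [Subgroup.map_subgroupOf_eq_of_le inf_le_right] at h4

end Cfsg.Agent.S0661
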