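import Cfsg.Agent.Lib.Helper11.Suz1782.Model
-- Template for statement S1680 (row 1680; see /opt/grader/pristine/manifest.json for weights).
-- Copy to Cfsg/Agent/S1680.lean and replace the sorry. The statement below is byte-identical to the frozen
-- statement Cfsg.CfsgFrozen.S1680 (Cfsg/Statements/S1680.lean; the theorem Cfsg.suz_presented_g2_4_words_index_and_rank_three);
-- the grader kernel-checks Cfsg.Agent.S1680.result against that frozen type. Keep the theorem IN THIS FILE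
-- (a `result` declared elsewhere and merely imported here is not credited); helpers may live anywhere
-- under Cfsg/Agent/.
import Cfsg.Statements.S1680
-- import your own Cfsg.Agent.* helpers here

set_option autoImplicit false
open Cfsg

namespace Cfsg.Agent.S1680

/-- In the presented sporadic Suzuki group, let H be the subgroup generated by the images of a, …, f. Then H has index 1782, H has orbits of sizes 416 and 1365 on the cosets of H other than H itself (with the index 1782 this makes the action rank 3). -/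
theorem result : (((Subgroup.closure ({Cfsg.Spor.Suz.a, Cfsg.Spor.Suz.b, Cfsg.Spor.Suz.c, Cfsg.Spor.Suz.d, Cfsg.Spor.Suz.e, Cfsg.Spor.Suz.f} : Set (FreeGroup Cfsg.Spor.Suz.Gen))).map (PresentedGroup.mk (Cfsg.Spor.coxRelators Cfsg.Spor.Suz.edges ∪ {r | r ∈ Cfsg.Spor.Suz.extra})))).index = 1782 ∧ ∃ q₁ q₂ : Cfsg.Spor.Suz ⧸ (((Subgroup.closure ({Cfsg.Spor.Suz.a, Cfsg.Spor.Suz.b, Cfsg.Spor.Suz.c, Cfsg.Spor.Suz.d, Cfsg.Spor.Suz.e, Cfsg.Spor.Suz.f} : Set (FreeGroup Cfsg.Spor.Suz.Gen))).map (PresentedGroup.mk (Cfsg.Spor.coxRelators Cfsg.Spor.Suz.edges ∪ {r | r ∈ Cfsg.Spor.Suz.extra})))), (MulAction.orbit (((Subgroup.closure ({Cfsg.Spor.Suz.a, Cfsg.Spor.Suz.b, Cfsg.Spor.Suz.c, Cfsg.Spor.Suz.d, Cfsg.Spor.Suz.e, Cfsg.Spor.Suz.f} : Set (FreeGroup Cfsg.Spor.Suz.Gen))).map (PresentedGroup.mk (Cfsg.Spor.coxRelators Cfsg.Spor.Suz.edges ∪ {r | r ∈ Cfsg.Spor.Suz.extra})))) q₁).ncard = 416 ∧ (MulAction.orbit (((Subgroup.closure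 ({Cfsg.Spor.Suz.a, Cfsg.Spor.Suz.b, Cfsg.Spor.Suz.c, Cfsg.Spor.Suz.d, Cfsg.Spor.Suz.e, Cfsg.Spor.Suz.f} : Set (FreeGroup Cfsg.Spor.Suz.Gen))).map (PresentedGroup.mk (Cfsg.Spor.coxRelators Cfsg.Spor.Suz.edges ∪ {r | r ∈ Cfsg.Spor.Suz.extra})))) q₂).ncard = 1365 := by
  open Cfsg.Agent.Lib.Helper11 Cfsg.Agent.Lib.Helper11.Suz1782 in
  obtain ⟨hidx, fq, hinj, horb⟩ := model_main (PresentedGroup.mk (Cfsg.Spor.coxRelators Cfsg.Spor.Suz.edges ∪ {r | r ∈ Cfsg.Spor.Suz.extra}))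
    _ psi (fun l => LTFm.getD l 1) INVm (ntOf ntl) _
    (ntOf_ok ntl _ netsOK) psi_eval hExps hS1 hS2 gExps 1782 6 upper hfix0 htr
  refine ⟨hidx, ?_⟩
  obtain ⟨q0, hq0, hc0⟩ := horb 1 416 5 (by norm_num) Cfsg.Agent.Lib.Helper11.Suz1782.og0 Cfsg.Agent.Lib.Helper11.Suz1782.oi0 (by norm_num)
  obtain ⟨q1, hq1, hc1⟩ := horb 417 1365 5 (by norm_num) Cfsg.Agent.Lib.Helper11.Suz1782.og1 Cfsg.Agent.Lib.Helper11.Suz1782.oi1 (by norm_num)
  exact ⟨q0, q1, hc0, hc1⟩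

end Cfsg.Agent.S1680
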