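import Cfsg.Statements.S1694
import Cfsg.Agent.Lib.Helper11.Suzo.Chain
import Cfsg.Agent.Lib.Helper11.Suzo.Prim
import Cfsg.Agent.Lib.Helper11.Suz1782.Upper
import Cfsg.Agent.Lib.Helper11.Suzc0.Upper
import Cfsg.Agent.Lib.Helper11.Suzc1.Upper
import Cfsg.Agent.Lib.Helper11.Suzc2.Upper
import Cfsg.Agent.Lib.Helper11.CoxSimple

set_option autoImplicit false
open Cfsg

namespace Cfsg.Agent.S1694

open Cfsg.Agent.Lib.Helper11 Cfsg.Spor Cfsg.Spor.Suz

theorem mono {S T : Set (FreeGroup Gen)} (h : S ⊆ T) :
    (Subgroup.closure S).map (PresentedGroup.mk (coxRelators edges ∪ {r | r ∈ extra})) ≤ (Subgroup.closure T).map (PresentedGroup.mk (coxRelators edges ∪ {r | r ∈ extra})) :=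
  Subgroup.map_mono (Subgroup.closure_mono h)

theorem card_le : Nat.card Cfsg.Spor.Suz ≠ 0 ∧ Nat.card Cfsg.Spor.Suz ≤ 448345497600 := by
  have h3 : Nat.card ((Subgroup.closure (∅ : Set (FreeGroup Gen))).map (PresentedGroup.mk (coxRelators edges ∪ {r | r ∈ extra}))) ≠ 0 ∧
      Nat.card ((Subgroup.closure (∅ : Set (FreeGroup Gen))).map (PresentedGroup.mk (coxRelators edges ∪ {r | r ∈ extra}))) ≤ 1 := by simp
  have h2 := card_le_step (mono (by simp)) _ _ Suzc2.upper h3
  have h1 := card_le_step (mono (by intro x hx; simp only [Set.mem_insert_iff, Set.mem_singleton_iff] at hx ⊢; tauto)) _ _ Suzc1.upper h2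
  have h0 := card_le_step (mono (by intro x hx; simp only [Set.mem_insert_iff, Set.mem_singleton_iff] at hx ⊢; tauto)) _ _ Suzc0.upper h1
  have h := card_le_top _ _ Suz1782.upper h0
  exact h

theorem genTop : Subgroup.closure (Set.range (fun x : Gen => (PresentedGroup.mk (coxRelators edges ∪ {r | r ∈ extra})) (FreeGroup.of x))) = ⊤ :=
  PresentedGroup.closure_range_of _

theorem perfect : commutator Cfsg.Spor.Suz = ⊤ := by
  apply perfect_of_ab_trivial _ genTop
  have eb := (cox_ab_step edges extra (Abelianization.of) .a .b 2 (by decide) (by decide) (by decide)).symm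
  have ec := (cox_ab_step edges extra (Abelianization.of) .b .c 1 (by decide) (by decide) (by decide)).symm.trans eb
  have ef := (cox_ab_step edges extra (Abelianization.of) .b .f 1 (by decide) (by decide) (by decide)).symm.trans eb
  have eg := (cox_ab_step edges extra (Abelianization.of) .b .g 1 (by decide) (by decide) (by decide)).symm.trans eb
  have ee := (cox_ab_step edges extra (Abelianization.of) .d .e 1 (by decide) (by decide) (by decide)).symm
  have sa := cox_ab_sq edges extra (Abelianization.of) .a (by decide)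
  have sd := cox_ab_sq edges extra (Abelianization.of) .d (by decide)
  have hr := congrArg Abelianization.of (extra_rel edges extra (a * ((c * d) ^ 4)⁻¹) (by simp [extra]))
  have hs := congrArg Abelianization.of (extra_rel edges extra (((b * c * d * c * d) ^ 5 * e) ^ 3) (by simp [extra]))
  simp only [map_pow, map_mul, map_inv, map_one] at hr hs
  rw [ec] at hr
  rw [eb, ec, ee] at hs
  have hu : Abelianization.of ((PresentedGroup.mk (coxRelators edges ∪ {r | r ∈ extra})) (FreeGroup.of Gen.a)) = 1 := by
    generalize Abelianization.of ((PresentedGroup.mk (coxRelators edges ∪ {r | r ∈ extra})) (FreeGroup.of Gen.a)) = u at hr sa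
    generalize Abelianization.of ((PresentedGroup.mk (coxRelators edges ∪ {r | r ∈ extra})) (FreeGroup.of Gen.d)) = v at hr sd
    have h4 : (u * v) ^ 4 = 1 := by
      rw [mul_pow, show 4 = 2 * 2 from rfl, pow_mul, pow_mul, sa, sd]; simp
    rw [h4] at hr
    simpa using hr
  rw [hu] at hs
  have hv : Abelianization.of ((PresentedGroup.mk (coxRelators edges ∪ {r | r ∈ extra})) (FreeGroup.of Gen.d)) = 1 := by
    generalize Abelianization.of ((PresentedGroup.mk (coxRelators edges ∪ {r | r ∈ extra})) (FreeGroup.of Gen.d)) = v at hs sd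
    have h1 : 1 * 1 * v * 1 * v = 1 := by simp [← pow_two, sd]
    rw [h1] at hs
    simp only [one_pow, one_mul] at hs
    exact one_of_sq_of_odd v 1 sd hs
  rintro _ ⟨x, rfl⟩
  cases x
  · exact hu
  · exact eb.trans hu
  · exact ec.trans hu
  · exact hv
  · exact ee.trans hv
  · exact ef.trans hu
  · exact eg.trans hu

theorem ncl : Subgroup.normalClosure {(PresentedGroup.mk (coxRelators edges ∪ {r | r ∈ extra})) (Suzo.tE.eval (fun l => Suzo.LTFm.getD l 1))} = ⊤ := by
  rw [eq_top_iff, ← genTop, Subgroup.closure_le]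
  set N := Subgroup.normalClosure {(PresentedGroup.mk (coxRelators edges ∪ {r | r ∈ extra})) (Suzo.tE.eval (fun l => Suzo.LTFm.getD l 1))} with hN
  haveI : N.Normal := Subgroup.normalClosure_normal
  have q1 : ∀ x, x ∈ N → QuotientGroup.mk' N x = 1 := fun x hx => (QuotientGroup.eq_one_iff x).2 hx
  have ht : (PresentedGroup.mk (coxRelators edges ∪ {r | r ∈ extra})) ((b * c * d * c * d) ^ 5) ∈ N := Subgroup.subset_normalClosure (Set.mem_singleton _)
  have hs := extra_rel edges extra (((b * c * d * c * d) ^ 5 * e) ^ 3) (by simp [extra])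
  have he : (PresentedGroup.mk (coxRelators edges ∪ {r | r ∈ extra})) (FreeGroup.of Gen.e) ∈ N := by
    have h1 := congrArg (QuotientGroup.mk' N) hs
    rw [map_pow, map_mul, map_pow (QuotientGroup.mk' N), map_mul (QuotientGroup.mk' N),
      q1 _ ht, one_mul, map_one] at h1
    have h2 : (QuotientGroup.mk' N ((PresentedGroup.mk (coxRelators edges ∪ {r | r ∈ extra})) e)) ^ 2 = 1 := by
      rw [pow_two, ← map_mul]
      have := cox_sq edges extra .e (by decide)
      rw [this, map_one]
    exact (QuotientGroup.eq_one_iff _).1 (one_of_sq_of_odd _ 1 h2 h1)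
  have hd := cox_mem_step edges extra N .e .d 1 (by decide) (by decide) (by decide) he
  have hr := extra_rel edges extra (a * ((c * d) ^ 4)⁻¹) (by simp [extra])
  have ha : (PresentedGroup.mk (coxRelators edges ∪ {r | r ∈ extra})) (FreeGroup.of Gen.a) ∈ N := by
    have h1 := congrArg (QuotientGroup.mk' N) hr
    simp only [map_mul, map_inv, map_pow, map_one] at h1
    rw [q1 ((PresentedGroup.mk (coxRelators edges ∪ {r | r ∈ extra})) d) hd, mul_one] at h1
    have h2 : (QuotientGroup.mk' N ((PresentedGroup.mk (coxRelators edges ∪ {r | r ∈ extra})) c)) ^ 4 = 1 := by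
      have h3 : (QuotientGroup.mk' N ((PresentedGroup.mk (coxRelators edges ∪ {r | r ∈ extra})) c)) ^ 2 = 1 := by
        rw [pow_two, ← map_mul]
        have := cox_sq edges extra .c (by decide)
        rw [this, map_one]
      rw [show 4 = 2 * 2 from rfl, pow_mul, h3, one_pow]
    rw [h2, inv_one, mul_one] at h1
    exact (QuotientGroup.eq_one_iff _).1 h1
  have hb := cox_mem_step edges extra N .a .b 2 (by decide) (by decide) (by decide) ha
  have hc := cox_mem_step edges extra N .b .c 1 (by decide) (by decide) (by decide) hb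
  have hf := cox_mem_step edges extra N .b .f 1 (by decide) (by decide) (by decide) hb
  have hg := cox_mem_step edges extra N .b .g 1 (by decide) (by decide) (by decide) hb
  rintro _ ⟨x, rfl⟩
  cases x <;> assumption

/-- The presented sporadic Suzuki group is simple of the expected order (that is, it is a simple group of the order of the sporadic Suzuki group). -/
theorem result : Cfsg.IsSuz Cfsg.Spor.Suz := by
  obtain ⟨hcard, hbot⟩ := Suzo.order card_le
  refine ⟨?_, hcard⟩
  exact model_simple (PresentedGroup.mk (coxRelators edges ∪ {r | r ∈ extra})) _ Suzo.psi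
    (fun l => Suzo.LTFm.getD l 1) Suzo.INVm (ntOf Suzo.ntl) 15 (ntOf_ok Suzo.ntl _ Suzo.netsOK)
    Suzo.psi_eval Suzo.hExps Suzo.hS1 Suzo.hS2 Suzo.gExps Suzo.hgen 22880 _ (by norm_num)
    Suz22880.upper Suzo.hfix0 Suzo.htr Suzo.invnOK _ hbot Suzo.hbn Suzo.primL Suzo.primOK perfect
    Suzo.tE Suzo.normOK ncl

end Cfsg.Agent.S1694
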