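import Cfsg.Statements.S1699
import Cfsg.Agent.Lib.Helper11.ONo.Chain
import Cfsg.Agent.Lib.Helper11.ONo.Prim
import Cfsg.Agent.Lib.Helper11.ONa.Upper
import Cfsg.Agent.Lib.Helper11.P6Main
import Cfsg.Agent.Lib.Helper11.Tower

set_option autoImplicit false
open Cfsg

namespace Cfsg.Agent.S1699

open Cfsg.Agent.Lib.Helper11 Cfsg.Spor Cfsg.Spor.ON

/-- the inclusion of the generators of the auxiliary group -/
def gmap : P6.Gen → Gen
  | .a => .a
  | .b => .b
  | .c => .c
  | .d => .d
  | .e => .e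
  | .f => .f

theorem f_rels : ∀ r ∈ coxRelators P6.edges ∪ {r | r ∈ P6.extra},
    FreeGroup.lift (fun x => (PresentedGroup.mk (coxRelators edges ∪ {r | r ∈ extra})) (FreeGroup.of (gmap x))) r = 1 := by
  apply lift_rels
  · intro x _ y _
    have h := cox_rel edges extra (gmap x) (gmap y) (by cases x <;> decide) (by cases y <;> decide)
    have hl : coxLabel edges (gmap x) (gmap y) = coxLabel P6.edges x y := by
      cases x <;> cases y <;> decide
    rw [hl] at h
    exact h
  · intro r hr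
    simp only [P6.extra, List.mem_cons, List.mem_nil_iff, or_false] at hr
    subst hr
    have h := extra_rel edges extra ((a * f) * (((c * d) ^ 4)⁻¹)) (by simp [extra])
    simp only [map_mul, map_inv, map_pow, FreeGroup.lift_apply_of] at h ⊢
    exact h

/-- the homomorphism from the auxiliary group -/
noncomputable def fhom : Cfsg.Agent.Lib.Helper11.P6 →* Cfsg.Spor.ON := PresentedGroup.toGroup f_rels

theorem frange : fhom.range = (Subgroup.closure ({a, b, c, d, e, f} : Set (FreeGroup Gen))).map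
      (PresentedGroup.mk (coxRelators edges ∪ {r | r ∈ extra})) := by
  rw [MonoidHom.range_eq_map, ← P6M.genTop, MonoidHom.map_closure, MonoidHom.map_closure]
  congr 1
  ext y
  constructor
  · rintro ⟨_, ⟨x, rfl⟩, rfl⟩
    refine ⟨FreeGroup.of (gmap x), ?_, (PresentedGroup.toGroup.of f_rels).symm⟩
    cases x <;> simp [gmap]
  · rintro ⟨s, hs, rfl⟩
    simp only [Set.mem_insert_iff, Set.mem_singleton_iff] at hs
    rcases hs with rfl | rfl | rfl | rfl | rfl | rfl
    · exact ⟨_, ⟨.a, rfl⟩, PresentedGroup.toGroup.of f_rels⟩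
    · exact ⟨_, ⟨.b, rfl⟩, PresentedGroup.toGroup.of f_rels⟩
    · exact ⟨_, ⟨.c, rfl⟩, PresentedGroup.toGroup.of f_rels⟩
    · exact ⟨_, ⟨.d, rfl⟩, PresentedGroup.toGroup.of f_rels⟩
    · exact ⟨_, ⟨.e, rfl⟩, PresentedGroup.toGroup.of f_rels⟩
    · exact ⟨_, ⟨.f, rfl⟩, PresentedGroup.toGroup.of f_rels⟩

theorem card_le : Nat.card Cfsg.Spor.ON ≠ 0 ∧ Nat.card Cfsg.Spor.ON ≤ 460815505920 := by
  haveI : Finite Cfsg.Agent.Lib.Helper11.P6 := Nat.finite_of_card_ne_zero P6M.card_le.1
  have h1 : Nat.card fhom.range ≤ 3753792 :=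
    le_trans (Nat.card_le_card_of_surjective fhom.rangeRestrict fhom.rangeRestrict_surjective)
      P6M.card_le.2
  haveI : Finite fhom.range := Finite.of_surjective fhom.rangeRestrict fhom.rangeRestrict_surjective
  have h0 : Nat.card fhom.range ≠ 0 := Nat.card_pos.ne'
  rw [frange] at h0 h1
  exact card_le_top _ _ ONa.upper ⟨h0, h1⟩

theorem genTop : Subgroup.closure (Set.range (fun x : Gen => (PresentedGroup.mk (coxRelators edges ∪ {r | r ∈ extra})) (FreeGroup.of x))) = ⊤ :=
  PresentedGroup.closure_range_of _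

theorem alg {A : Type*} [CommGroup A] (u v w : A) (su : u ^ 2 = 1) (sv : v ^ 2 = 1)
    (r1 : u * v * (w ^ 2)⁻¹ = 1) (r2 : u * v * ((u * v) ^ 4)⁻¹ = 1)
    (r5 : (u * u * v * w) ^ 5 = 1)
    (r6 : w * u * (u⁻¹ * w * u) * (u⁻¹ * w * u) * (u⁻¹ * w * u) = 1) : u = 1 ∧ v = 1 ∧ w = 1 := by
  have h4 : (u * v) ^ 4 = 1 := by
    rw [mul_pow, show 4 = 2 * 2 from rfl, pow_mul, pow_mul, su, sv]; simp
  rw [h4, inv_one, mul_one] at r2
  rw [r2, one_mul, inv_eq_one] at r1
  have hc : u⁻¹ * w * u = w := by rw [mul_comm u⁻¹ w, mul_assoc, inv_mul_cancel, mul_one]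
  rw [hc] at r6
  have hu : u = 1 := by
    have e : w * u * w * w * w = u * (w ^ 2) ^ 2 := by
      rw [← pow_mul, pow_succ, pow_succ, pow_succ, pow_one, mul_comm w u]
      simp only [mul_assoc]
    rw [e, r1, one_pow, mul_one] at r6
    exact r6
  have hv : v = 1 := by rw [hu, one_mul] at r2; exact r2
  refine ⟨hu, hv, ?_⟩
  rw [hu, hv] at r5
  simp only [one_mul] at r5
  exact one_of_sq_of_odd w 2 r1 r5

theorem perfect : commutator Cfsg.Spor.ON = ⊤ := by
  apply perfect_of_ab_trivial _ genTop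
  have eb := (cox_ab_step edges extra (Abelianization.of) .a .b 1 (by decide) (by decide) (by decide)).symm
  have ec := (cox_ab_step edges extra (Abelianization.of) .b .c 1 (by decide) (by decide) (by decide)).symm.trans eb
  have ee := (cox_ab_step edges extra (Abelianization.of) .d .e 1 (by decide) (by decide) (by decide)).symm
  have ef := (cox_ab_step edges extra (Abelianization.of) .e .f 1 (by decide) (by decide) (by decide)).symm.trans ee
  have sa := cox_ab_sq edges extra (Abelianization.of) .a (by decide)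
  have sd := cox_ab_sq edges extra (Abelianization.of) .d (by decide)
  have r1 := congrArg Abelianization.of (extra_rel edges extra ((a * f) * ((g ^ 2)⁻¹)) (by simp [extra]))
  have r2 := congrArg Abelianization.of (extra_rel edges extra ((a * f) * (((c * d) ^ 4)⁻¹)) (by simp [extra]))
  have r5 := congrArg Abelianization.of (extra_rel edges extra ((b * c * d * g) ^ 5) (by simp [extra]))
  have r6 := congrArg Abelianization.of (extra_rel edges extra (g * b * (c⁻¹ * g * c) * (b⁻¹ * g * b) * (c⁻¹ * g * c)) (by simp [extra]))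
  simp only [map_pow, map_mul, map_inv, map_one] at r1 r2 r5 r6
  rw [ef] at r1
  rw [ef, ec] at r2
  rw [eb, ec] at r5
  rw [eb, ec] at r6
  obtain ⟨hu, hv, hw⟩ := alg _ _ _ sa sd r1 r2 r5 r6
  rintro _ ⟨x, rfl⟩
  cases x
  · exact hw
  · exact hu
  · exact eb.trans hu
  · exact ec.trans hu
  · exact hv
  · exact ee.trans hv
  · exact ef.trans hv

/-- The presented O'Nan group is simple of the expected order (that is, it is a simple group of the order of the O'Nan group). -/
theorem result : Cfsg.IsON Cfsg.Spor.ON := by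
  obtain ⟨hcard, hbot⟩ := ONo.order card_le
  refine ⟨?_, hcard⟩
  exact model_tower (PresentedGroup.mk (coxRelators edges ∪ {r | r ∈ extra})) _ ONo.psi
    (fun l => ONo.LTFm.getD l 1) ONo.INVm (ntOf ONo.ntl) 17 (ntOf_ok ONo.ntl _ ONo.netsOK)
    ONo.psi_eval ONo.hExps ONo.hS1 ONo.hS2 ONo.gExps ONo.hgen 122760 _ (by norm_num)
    ONa.upper ONo.hfix0 ONo.htr ONo.invnOK _ hbot ONo.hbn ONo.primL ONo.primOK perfect
    fhom frange P6M.hmin P6M.comm_ne_top

end Cfsg.Agent.S1699
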