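import Cfsg.Agent.Lib.Helper11.Fi22b.Model
-- Template for statement S1685 (row 1685; see /opt/grader/pristine/manifest.json for weights).
-- Copy to Cfsg/Agent/S1685.lean and replace the sorry. The statement below is byte-identical to the frozen
-- statement Cfsg.CfsgFrozen.S1685 (Cfsg/Statements/S1685.lean; the theorem Cfsg.fi22_presented_o7_3_words_index);
-- the grader kernel-checks Cfsg.Agent.S1685.result against that frozen type. Keep the theorem IN THIS FILE
-- (a `result` declared elsewhere and merely imported here is not credited); helpers may live anywhere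
-- under Cfsg/Agent/.
import Cfsg.Statements.S1685
-- import your own Cfsg.Agent.* helpers here

set_option autoImplicit false
open Cfsg

namespace Cfsg.Agent.S1685

/-- In the presented Fischer group Fi₂₂ (generators a, …, i), the subgroup generated by the images of b, c, d, e, f, g, h, i has index 14080. -/
theorem result : (((Subgroup.closure ({Cfsg.Spor.Fi22.b, Cfsg.Spor.Fi22.c, Cfsg.Spor.Fi22.d, Cfsg.Spor.Fi22.e, Cfsg.Spor.Fi22.f, Cfsg.Spor.Fi22.g, Cfsg.Spor.Fi22.h, Cfsg.Spor.Fi22.i} : Set (FreeGroup Cfsg.Spor.Fi22.Gen))).map (PresentedGroup.mk (Cfsg.Spor.coxRelators Cfsg.Spor.Fi22.edges ∪ {r | r ∈ Cfsg.Spor.Fi22.extra})))).index = 14080 := by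
  open Cfsg.Agent.Lib.Helper11 Cfsg.Agent.Lib.Helper11.Fi22b in
  obtain ⟨hidx, fq, hinj, horb⟩ := model_main (PresentedGroup.mk (Cfsg.Spor.coxRelators Cfsg.Spor.Fi22.edges ∪ {r | r ∈ Cfsg.Spor.Fi22.extra}))
    _ psi (fun l => LTFm.getD l 1) INVm (ntOf ntl) _
    (ntOf_ok ntl _ netsOK) psi_eval hExps hS1 hS2 gExps 14080 8 upper hfix0 htr
  exact hidx

end Cfsg.Agent.S1685
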