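import Cfsg.Statements.S0292
import Cfsg.Agent.S0286
import Cfsg.Agent.Lib.Helper15.Central2
import Cfsg.Agent.Lib.Helper15.Count7

set_option autoImplicit false
open Cfsg Cfsg.Agent.Lib.Helper15

namespace Cfsg.Agent.S0292

/-- 2 |PΩ_{2m+1}(q)| = q^(m^2) prod_{i=1}^{m} (q^(2i) - 1), for q odd and m at least 3 (type B_m). -/
theorem result {F : Type*} [Field F] [Fintype F] {q : ℕ} (hF : Fintype.card F = q) (hodd : Odd q) (m : ℕ) (hm : 3 ≤ m) : 2 * Nat.card (Cfsg.POmega F (Cfsg.quadFormOdd m F)) = q ^ (m ^ 2) * ∏ i ∈ Finset.range m, (q ^ (2 * (i + 1)) - 1) := by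
  have hO := Cfsg.Agent.S0286.result hF hodd m
  have h2 : (2 : F) ≠ 0 := by
    intro h
    have := CharTwo.of_one_ne_zero_of_two_eq_zero (one_ne_zero (α := F)) h
    have h3 := FiniteField.even_card_of_char_two (F := F) (ringChar.eq F 2)
    rw [hF] at h3
    exact (Nat.not_even_iff_odd.2 hodd) (Nat.even_iff.2 h3)
  rw [← coe_qOdd] at hO ⊢
  have hcard : Fintype.card (Unit ⊕ (Fin m ⊕ Fin m)) = 2 * m + 1 := by simp; ring
  have hnd := qOdd_nondegenerate h2 m
  have h1 := card_POmega_mul (F := F) (qOdd m F)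
  rw [index_Omega_odd h2 _ hnd (by omega), card_center_of_not_mem _ hnd (by omega)
    (Or.inl (negI_notMem_of_odd h2 _ (by rw [hcard]; exact ⟨m, rfl⟩))), hO] at h1
  rw [mul_assoc 2] at h1
  generalize Nat.card (POmega F (qOdd m F)) = N at *
  generalize q ^ (m ^ 2) * ∏ i ∈ Finset.range m, (q ^ (2 * (i + 1)) - 1) = X at *
  omega

end Cfsg.Agent.S0292
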