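import Cfsg.Statements.S1695
import Cfsg.Agent.Lib.Helper11.Heo.Chain
import Cfsg.Agent.Lib.Helper11.Heo.Prim
import Cfsg.Agent.Lib.Helper11.HeK.Upper
import Cfsg.Agent.Lib.Helper11.HeM.Upper
import Cfsg.Agent.Lib.Helper11.Hec0.Upper
import Cfsg.Agent.Lib.Helper11.Hec1.Upper
import Cfsg.Agent.Lib.Helper11.CoxSimple
import Cfsg.Agent.Lib.Helper11.SimpleModel2

set_option autoImplicit false
open Cfsg

namespace Cfsg.Agent.S1695

open Cfsg.Agent.Lib.Helper11 Cfsg.Spor Cfsg.Spor.He

theorem mono {S T : Set (FreeGroup Gen)} (h : S ⊆ T) :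
    (Subgroup.closure S).map (PresentedGroup.mk (coxRelators edges ∪ {r | r ∈ extra})) ≤ (Subgroup.closure T).map (PresentedGroup.mk (coxRelators edges ∪ {r | r ∈ extra})) :=
  Subgroup.map_mono (Subgroup.closure_mono h)

theorem card_le : Nat.card Cfsg.Spor.He ≠ 0 ∧ Nat.card Cfsg.Spor.He ≤ 4030387200 := by
  have h2 : Nat.card ((Subgroup.closure (∅ : Set (FreeGroup Gen))).map (PresentedGroup.mk (coxRelators edges ∪ {r | r ∈ extra}))) ≠ 0 ∧
      Nat.card ((Subgroup.closure (∅ : Set (FreeGroup Gen))).map (PresentedGroup.mk (coxRelators edges ∪ {r | r ∈ extra}))) ≤ 1 := by simp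
  have h1 := card_le_step (mono (by simp)) _ _ Hec1.upper h2
  have h0 := card_le_step (mono (by intro x hx; simp only [Set.mem_insert_iff, Set.mem_singleton_iff] at hx ⊢; tauto)) _ _ Hec0.upper h1
  have h := card_le_top _ _ HeK.upper h0
  exact h

theorem genTop : Subgroup.closure (Set.range (fun x : Gen => (PresentedGroup.mk (coxRelators edges ∪ {r | r ∈ extra})) (FreeGroup.of x))) = ⊤ :=
  PresentedGroup.closure_range_of _

theorem alg {A : Type*} [CommGroup A] (ua ub ud : A) (sa : ua ^ 2 = 1) (sb : ub ^ 2 = 1)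
    (sd : ud ^ 2 = 1) (r1 : ud * ((ud * ud) ^ 2)⁻¹ = 1) (r2 : ud * ((ua * ub * ub) ^ 3)⁻¹ = 1)
    (r3 : ua * ((ub * ud) ^ 5)⁻¹ = 1) : ua = 1 ∧ ub = 1 ∧ ud = 1 := by
  have hd : ud = 1 := by
    have h4 : (ud * ud) ^ 2 = 1 := by rw [← pow_two, sd, one_pow]
    rw [h4] at r1
    simpa using r1
  rw [hd] at r2 r3
  have ha : ua = 1 := by
    have h3 : (ua * ub * ub) ^ 3 = ua := by
      rw [mul_assoc, ← pow_two, sb, mul_one, pow_succ, sa, one_mul]
    rw [h3] at r2
    simpa using r2.symm
  have hb : ub = 1 := by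
    rw [ha, mul_one] at r3
    have h5 : ub ^ 5 = ub := by
      rw [show 5 = 2 * 2 + 1 from rfl, pow_succ, pow_mul, sb, one_pow, one_mul]
    rw [h5] at r3
    simpa using r3
  exact ⟨ha, hb, hd⟩

theorem perfect : commutator Cfsg.Spor.He = ⊤ := by
  apply perfect_of_ab_trivial _ genTop
  have ec := (cox_ab_step edges extra (Abelianization.of) .b .c 1 (by decide) (by decide) (by decide)).symm
  have ee := (cox_ab_step edges extra (Abelianization.of) .d .e 1 (by decide) (by decide) (by decide)).symm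
  have ef := (cox_ab_step edges extra (Abelianization.of) .d .f 1 (by decide) (by decide) (by decide)).symm
  have eg := (cox_ab_step edges extra (Abelianization.of) .d .g 1 (by decide) (by decide) (by decide)).symm
  have sa := cox_ab_sq edges extra (Abelianization.of) .a (by decide)
  have sb := cox_ab_sq edges extra (Abelianization.of) .b (by decide)
  have sd := cox_ab_sq edges extra (Abelianization.of) .d (by decide)
  have r1 := congrArg Abelianization.of (extra_rel edges extra (e * ((f * g) ^ 2)⁻¹) (by simp [extra]))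
  have r2 := congrArg Abelianization.of (extra_rel edges extra (e * ((a * b * c) ^ 3)⁻¹) (by simp [extra]))
  have r3 := congrArg Abelianization.of (extra_rel edges extra (a * ((c * d) ^ 5)⁻¹) (by simp [extra]))
  simp only [map_pow, map_mul, map_inv, map_one] at r1 r2 r3
  rw [ee, ef, eg] at r1
  rw [ee, ec] at r2
  rw [ec] at r3
  obtain ⟨ha, hb, hd⟩ := alg _ _ _ sa sb sd r1 r2 r3
  rintro _ ⟨x, rfl⟩
  cases x
  · exact ha
  · exact hb
  · exact ec.trans hb
  · exact hd
  · exact ee.trans hd
  · exact ef.trans hd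
  · exact eg.trans hd

/-- the generators of the four-group -/
noncomputable def ZZ : Set Cfsg.Spor.He :=
  {(PresentedGroup.mk (coxRelators edges ∪ {r | r ∈ extra})) (Heo.z1E.eval (fun l => Heo.LTFm.getD l 1)), (PresentedGroup.mk (coxRelators edges ∪ {r | r ∈ extra})) (Heo.z2E.eval (fun l => Heo.LTFm.getD l 1))}

theorem ncl : Subgroup.normalClosure ((Subgroup.closure ZZ : Subgroup Cfsg.Spor.He) : Set Cfsg.Spor.He) = ⊤ := by
  rw [eq_top_iff, ← genTop, Subgroup.closure_le]
  set N := Subgroup.normalClosure ((Subgroup.closure ZZ : Subgroup Cfsg.Spor.He) : Set Cfsg.Spor.He) with hN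
  haveI : N.Normal := Subgroup.normalClosure_normal
  have q1 : ∀ x, x ∈ N → QuotientGroup.mk' N x = 1 := fun x hx => (QuotientGroup.eq_one_iff x).2 hx
  have q2 : ∀ x, QuotientGroup.mk' N x = 1 → x ∈ N := fun x hx => (QuotientGroup.eq_one_iff x).1 hx
  have sq : ∀ x : Gen, (QuotientGroup.mk' N ((PresentedGroup.mk (coxRelators edges ∪ {r | r ∈ extra})) (FreeGroup.of x))) ^ 2 = 1 := by
    intro x
    rw [pow_two, ← map_mul]
    have := cox_sq edges extra x (by cases x <;> decide)
    rw [this, map_one]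
  have ha : (PresentedGroup.mk (coxRelators edges ∪ {r | r ∈ extra})) (FreeGroup.of Gen.a) ∈ N :=
    Subgroup.subset_normalClosure (Subgroup.subset_closure (by left; rfl))
  have r2 := congrArg (QuotientGroup.mk' N) (extra_rel edges extra (e * ((a * b * c) ^ 3)⁻¹) (by simp [extra]))
  have r3 := congrArg (QuotientGroup.mk' N) (extra_rel edges extra (a * ((c * d) ^ 5)⁻¹) (by simp [extra]))
  have bc := congrArg (QuotientGroup.mk' N) (cox_rel edges extra .b .c (by decide) (by decide))
  have hl : coxLabel edges .b .c = 3 := by decide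
  rw [hl] at bc
  simp only [map_pow, map_mul, map_inv, map_one] at r2 r3 bc
  rw [q1 _ ha, one_mul] at r2
  have he : (PresentedGroup.mk (coxRelators edges ∪ {r | r ∈ extra})) (FreeGroup.of Gen.e) ∈ N := by
    apply q2
    have h3 : ((QuotientGroup.mk' N) ((PresentedGroup.mk (coxRelators edges ∪ {r | r ∈ extra})) b) * (QuotientGroup.mk' N) ((PresentedGroup.mk (coxRelators edges ∪ {r | r ∈ extra})) c)) ^ 3 = 1 := bc
    rw [h3] at r2
    simpa using r2
  have hd := cox_mem_step edges extra N .e .d 1 (by decide) (by decide) (by decide) he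
  have hf := cox_mem_step edges extra N .d .f 1 (by decide) (by decide) (by decide) hd
  have hg := cox_mem_step edges extra N .d .g 1 (by decide) (by decide) (by decide) hd
  have hc : (PresentedGroup.mk (coxRelators edges ∪ {r | r ∈ extra})) (FreeGroup.of Gen.c) ∈ N := by
    apply q2
    rw [q1 _ ha, q1 ((PresentedGroup.mk (coxRelators edges ∪ {r | r ∈ extra})) d) hd, mul_one, one_mul] at r3
    have h5 : (QuotientGroup.mk' N ((PresentedGroup.mk (coxRelators edges ∪ {r | r ∈ extra})) c)) ^ 5 = QuotientGroup.mk' N ((PresentedGroup.mk (coxRelators edges ∪ {r | r ∈ extra})) c) := by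
      rw [show 5 = 2 * 2 + 1 from rfl, pow_succ, pow_mul, sq .c, one_pow, one_mul]
    rw [h5] at r3
    simpa using r3
  have hb := cox_mem_step edges extra N .c .b 1 (by decide) (by decide) (by decide) hc
  rintro _ ⟨x, rfl⟩
  cases x <;> assumption

/-- The presented Held group is simple of the expected order (that is, it is a simple group of the order of the Held group). -/
theorem result : Cfsg.IsHe Cfsg.Spor.He := by
  obtain ⟨hcard, hbot⟩ := Heo.order card_le
  have hinj := inj_of_stabL_bot Heo.psi _ hbot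
  have hNT := ntOf_ok Heo.ntl _ Heo.netsOK
  refine ⟨?_, hcard⟩
  have hc12 := comm_of_normChk (PresentedGroup.mk (coxRelators edges ∪ {r | r ∈ extra})) Heo.psi (fun l => Heo.LTFm.getD l 1) Heo.INVm (ntOf Heo.ntl) 14 hNT Heo.psi_eval hinj
    [Heo.z1E] Heo.z2E Heo.commOK Heo.z1E (by simp)
  have hconj := conj_of_normChkL (PresentedGroup.mk (coxRelators edges ∪ {r | r ∈ extra})) Heo.psi (fun l => Heo.LTFm.getD l 1) Heo.INVm (ntOf Heo.ntl) 14 hNT Heo.psi_eval hinj
    Heo.hExps [Heo.z1E, Heo.z2E] [Heo.z1E, Heo.z2E, .mul Heo.z1E Heo.z2E] Heo.normOK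
    (Subgroup.closure ZZ) (by
      intro c hc
      simp only [List.mem_cons, List.mem_nil_iff, or_false] at hc
      rcases hc with rfl | rfl | rfl
      · exact Subgroup.subset_closure (by left; rfl)
      · exact Subgroup.subset_closure (by right; rfl)
      · show (PresentedGroup.mk (coxRelators edges ∪ {r | r ∈ extra})) (Heo.z1E.eval (fun l => Heo.LTFm.getD l 1) * Heo.z2E.eval (fun l => Heo.LTFm.getD l 1)) ∈ _
        rw [map_mul]
        exact Subgroup.mul_mem _ (Subgroup.subset_closure (by left; rfl))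
          (Subgroup.subset_closure (by right; rfl)))
  apply model_simple' (PresentedGroup.mk (coxRelators edges ∪ {r | r ∈ extra})) _ Heo.psi
    (fun l => Heo.LTFm.getD l 1) Heo.INVm (ntOf Heo.ntl) 14 hNT
    Heo.psi_eval Heo.hExps Heo.hS1 Heo.hS2 Heo.gExps Heo.hgen 8330 _ (by norm_num)
    HeM.upper Heo.hfix0 Heo.htr Heo.invnOK _ hbot Heo.hbn Heo.primL Heo.primOK perfect
    (Subgroup.closure ZZ) _ _ ncl
  · apply comm_closure
    intro x hx y hy
    rcases hx with rfl | rfl <;> rcases hy with rfl | rfl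
    · rfl
    · exact hc12
    · exact hc12.symm
    · rfl
  · rw [MonoidHom.map_closure]
    apply conj_closure_of_closure
    rintro _ ⟨s, hs, rfl⟩ z hz
    obtain ⟨ex, hex, rfl⟩ := Heo.hS1 s hs
    rcases hz with rfl | rfl
    · exact hconj ex hex Heo.z1E (by simp)
    · exact hconj ex hex Heo.z2E (by simp)

end Cfsg.Agent.S1695
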