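import Mathlib
import Cfsg.Statements.S0532
import Cfsg.Agent.Lib.Helper4.Supersolvable2


set_option autoImplicit false
open Cfsg

namespace Cfsg.Agent.S0532

open Cfsg.Agent.Lib.Helper4

universe u

theorem hasSub_of_mulEquiv {G G' : Type*} [Group G] [Group G'] (e : G ≃* G')
    (h : Cfsg.HasSubgroupOfEveryOrder G) : Cfsg.HasSubgroupOfEveryOrder G' := by
  intro d hd
  rw [← Nat.card_congr e.toEquiv] at hd
  obtain ⟨H, hH⟩ := h d hd
  exact ⟨H.map e.toMonoidHom, by rw [Subgroup.card_map_of_injective e.injective, hH]⟩

theorem aux (m : ℕ) : ∀ {G : Type u} [Group G] [Finite G], Nat.card G = m →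
    (∀ H : Subgroup G, Cfsg.HasSubgroupOfEveryOrder H) → ∀ (p : ℕ) [Fact p.Prime],
    p ∣ Nat.card G → (∀ q : ℕ, q.Prime → q ∣ Nat.card G → q ≤ p) →
    ∀ P : Sylow p G, (P : Subgroup G).Normal := by
  induction m using Nat.strong_induction_on with
  | _ m ih =>
    intro G _ _ hm h p _ hdvd hmax P
    have hp : p.Prime := Fact.out
    have hG1 : Nat.card G ≠ 1 := by
      intro h1
      rw [h1] at hdvd
      exact hp.one_lt.ne' (Nat.dvd_one.mp hdvd)
    set q := (Nat.card G).minFac with hq
    have hqp : q.Prime := Nat.minFac_prime hG1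
    have hqd : q ∣ Nat.card G := Nat.minFac_dvd _
    by_cases hqe : q = p
    · have hpg : IsPGroup p G := by
        rw [IsPGroup.iff_card]
        refine ⟨_, Nat.eq_prime_pow_of_unique_prime_dvd Nat.card_pos.ne' ?_⟩
        intro d hd hdG
        apply le_antisymm (hmax d hd hdG)
        rw [← hqe]
        exact Nat.minFac_le_of_dvd hd.two_le hdG
      have : (P : Subgroup G) = ⊤ := (P.3 (hpg.to_subgroup ⊤) le_top).symm
      rw [this]
      infer_instance
    · obtain ⟨c, hc⟩ := hqd
      have hc0 : 0 < c := by
        rcases Nat.eq_zero_or_pos c with h0 | h0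
        · rw [h0, mul_zero] at hc
          exact absurd hc Nat.card_pos.ne'
        · exact h0
      obtain ⟨K, hK⟩ := h ⊤ c (by rw [Subgroup.card_top]; exact ⟨q, by rw [hc, mul_comm]⟩)
      set M : Subgroup G := K.map (⊤ : Subgroup G).subtype with hM
      have hMc : Nat.card M = c := by rw [hM, card_map_subtype, hK]
      have hMi : M.index = q := by
        have := M.card_mul_index
        rw [hMc, hc, mul_comm] at this
        exact Nat.eq_of_mul_eq_mul_right hc0 this
      have hMn : M.Normal := Subgroup.normal_of_index_eq_minFac_card hMi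
      have hpq : ¬ p ∣ q := fun h => hqe ((Nat.prime_dvd_prime_iff_eq hp hqp).mp h).symm
      have hpM : p ∣ Nat.card M := by
        rw [hMc]
        exact (hp.dvd_mul.mp (hc ▸ hdvd)).resolve_left hpq
      have hM' : ∀ H : Subgroup M, Cfsg.HasSubgroupOfEveryOrder H := fun H =>
        hasSub_of_mulEquiv (Subgroup.equivMapOfInjective H M.subtype M.subtype_injective).symm
          (h (H.map M.subtype))
      obtain ⟨P'⟩ : Nonempty (Sylow p M) := inferInstance
      have hlt : Nat.card M < m := by
        rw [← hm, hMc, hc]
        have := hqp.two_le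
        nlinarith
      have hP'n := ih _ hlt rfl hM' p hpM
        (fun r hr hrd => hmax r hr (hrd.trans (Subgroup.card_subgroup_dvd_card M))) P'
      have hchar : (P' : Subgroup M).Characteristic := P'.characteristic_of_normal hP'n
      set Q := (P' : Subgroup M).map M.subtype with hQ
      have hQn : Q.Normal := ConjAct.normal_of_characteristic_of_normal
      have hQp : IsPGroup p Q := P'.2.map _
      have hQi : ¬ p ∣ Q.index := by
        rw [hQ, Subgroup.index_map_subtype]
        intro hd
        rcases hp.dvd_mul.mp hd with h1 | h1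
        · exact P'.not_dvd_index h1
        · rw [hMi] at h1
          exact hpq h1
      rw [sylow_eq_of_normal Q hQn hQp hQi P]
      exact hQn


/-- If each subgroup of a finite group satisfies the converse of Lagrange's theorem, then a Sylow subgroup for the largest prime dividing the group order is normal. -/
theorem result {G : Type*} [Group G] [Finite G] (h : ∀ H : Subgroup G, Cfsg.HasSubgroupOfEveryOrder H) (p : ℕ) [Fact p.Prime] (hdvd : p ∣ Nat.card G) (hmax : ∀ q : ℕ, q.Prime → q ∣ Nat.card G → q ≤ p) (P : Sylow p G) : (P : Subgroup G).Normal := by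
  exact aux _ rfl h p hdvd hmax P

end Cfsg.Agent.S0532
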