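import Cfsg.Statements.S5347
import Cfsg.Agent.Lib.Helper27.ThreeTransp

set_option autoImplicit false
open Cfsg
open Cfsg.Agent.Lib.Helper27

namespace Cfsg.Agent.S5347

/-- Let D be a conjugation-invariant generating set of 3-transpositions of a finite group G, p a prime bigger than 3, and P a p-subgroup of G. If a member d of D normalizes P then d centralizes P. -/
theorem result {G : Type*} [Group G] [Finite G] {D : Set G} (hD : Cfsg.IsThreeTranspositionGroup D) {p : ℕ} (hp : p.Prime) (hp3 : 3 < p) (P : Subgroup G) (hP : IsPGroup p P) {d : G} (hd : d ∈ D) (hnorm : d ∈ Subgroup.normalizer (P : Set G)) : ∀ x ∈ P, Commute d x := by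
  intro x hx
  obtain ⟨hT, hconj, -⟩ := hD
  have he : x * d * x⁻¹ ∈ D := hconj x d hd
  have hdi := TT.inv hT hd
  have hmem : d * (x * d * x⁻¹) ∈ P := by
    have h1 : d * x * d⁻¹ ∈ P := (Subgroup.mem_normalizer_iff.1 hnorm x).1 hx
    have : d * (x * d * x⁻¹) = (d * x * d⁻¹) * x⁻¹ := by rw [hdi]; group
    rw [this]
    exact P.mul_mem h1 (P.inv_mem hx)
  obtain ⟨k, hk⟩ := hP ⟨_, hmem⟩
  have hk' : (d * (x * d * x⁻¹)) ^ (p ^ k) = 1 := by
    have := congrArg Subtype.val hk
    simpa using this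
  have hc2 : Nat.Coprime (p ^ k) 2 := by
    apply Nat.Coprime.pow_left
    rw [Nat.coprime_primes hp Nat.prime_two]; omega
  have hc3 : Nat.Coprime (p ^ k) 3 := by
    apply Nat.Coprime.pow_left
    rw [Nat.coprime_primes hp Nat.prime_three]; omega
  have h1 : d * (x * d * x⁻¹) = 1 := by
    rcases hT.2 d hd _ he with h | h
    · exact eq_one_of_pow_coprime hk' h hc2
    · exact eq_one_of_pow_coprime hk' h hc3
  have h2 : x * d * x⁻¹ = d := by
    calc x * d * x⁻¹ = d⁻¹ := (inv_eq_of_mul_eq_one_right h1).symm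
      _ = d := hdi
  show d * x = x * d
  calc d * x = (x * d * x⁻¹) * x := by rw [h2]
    _ = x * d := by group

end Cfsg.Agent.S5347
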