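import Cfsg.Statements.S5348

set_option autoImplicit false
open Cfsg

namespace Cfsg.Agent.S5348

/-- Let D be a conjugation-invariant generating set of 3-transpositions of a finite group G and d a member of D. Let V be the set of members of D commuting with exactly the same members of D as d, and W the set of members w of D such that the members of D other than w commuting with w are precisely the members of D other than d commuting with d. Then V = {d} or W = {d}. -/
theorem result {G : Type*} [Group G] [Finite G] {D : Set G} (hD : Cfsg.IsThreeTranspositionGroup D) {d : G} (hd : d ∈ D) : {v : G | v ∈ D ∧ ∀ e ∈ D, Commute v e ↔ Commute d e} = {d} ∨ {w : G | w ∈ D ∧ {y : G | y ∈ D ∧ y ≠ d ∧ Commute d y} = {y : G | y ∈ D ∧ y ≠ w ∧ Commute w y}} = {d} := by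
  by_contra hcon
  push Not at hcon
  obtain ⟨h1, h2⟩ := hcon
  have hV : ∃ v, v ≠ d ∧ v ∈ D ∧ ∀ e ∈ D, Commute v e ↔ Commute d e := by
    by_contra hno
    push Not at hno
    apply h1
    ext v
    constructor
    · rintro ⟨hv, hve⟩
      by_contra hvd
      obtain ⟨e, he, hne⟩ := hno v hvd hv
      exact hne.elim (fun h => h.2 ((hve e he).1 h.1)) (fun h => h.1 ((hve e he).2 h.2)) 
    · rintro rfl
      exact ⟨hd, fun e _ => Iff.rfl⟩
  have hW : ∃ w, w ≠ d ∧ w ∈ D ∧ {y : G | y ∈ D ∧ y ≠ d ∧ Commute d y} = {y : G | y ∈ D ∧ y ≠ w ∧ Commute w y} := by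
    by_contra hno
    push Not at hno
    apply h2
    ext w
    constructor
    · rintro ⟨hw, hwe⟩
      by_contra hwd
      exact hno w hwd hw hwe
    · rintro rfl
      exact ⟨hd, rfl⟩
  obtain ⟨v, hvd, hv, hve⟩ := hV
  obtain ⟨w, hwd, hw, hwe⟩ := hW
  have hvcd : Commute v d := (hve d hd).2 (Commute.refl d)
  have hwnd : ¬ Commute w d := by
    intro hc
    have : d ∈ {y : G | y ∈ D ∧ y ≠ w ∧ Commute w y} := ⟨hd, hwd.symm, hc⟩
    rw [← hwe] at this
    exact this.2.1 rfl
  have hvw : v ∈ {y : G | y ∈ D ∧ y ≠ w ∧ Commute w y} := by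
    rw [← hwe]; exact ⟨hv, hvd, hvcd.symm⟩
  exact hwnd ((hve w hw).1 hvw.2.2.symm).symm

end Cfsg.Agent.S5348
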