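import Mathlib
import Cfsg.Statements.S5350
import Cfsg.Agent.Lib.Helper27.TT2
import Cfsg.Agent.Lib.Helper27.ZCor
import Cfsg.Agent.S0199
import Cfsg.Agent.S0215


set_option autoImplicit false
open Cfsg Cfsg.Agent.Lib.Helper27

namespace Cfsg.Agent.S5350


variable {G : Type*} [Group G] {D : Set G}

def Dp (D : Set G) (a : G) : Set G := {y | y ∈ D ∧ y ≠ a ∧ Commute a y}

theorem not_commute_of_rel {a b : G} (hb : b ∈ D) (hR : Dp D a = Dp D b) (hab : a ≠ b) :
    ¬ Commute a b := by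
  intro h
  have h1 : b ∈ Dp D a := ⟨hb, Ne.symm hab, h⟩
  rw [hR] at h1
  exact h1.2.1 rfl

theorem mem_Dp_conj (hconj : ∀ g : G, ∀ d ∈ D, g * d * g⁻¹ ∈ D) (g a y : G) :
    y ∈ Dp D (g * a * g⁻¹) ↔ g⁻¹ * y * g ∈ Dp D a := by
  have hy : y = g * (g⁻¹ * y * g) * g⁻¹ := by group
  constructor
  · rintro ⟨h1, h2, h3⟩
    refine ⟨?_, ?_, ?_⟩
    · have := hconj g⁻¹ y h1
      rwa [inv_inv] at this
    · intro h
      apply h2
      rw [hy, h]
    · rw [hy] at h3
      exact (commute_conj_iff g).mp h3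
  · rintro ⟨h1, h2, h3⟩
    refine ⟨?_, ?_, ?_⟩
    · rw [hy]; exact hconj g _ h1
    · intro h
      apply h2
      rw [h]; group
    · rw [hy]
      exact (commute_conj_iff g).mpr h3

theorem rel_conj (hconj : ∀ g : G, ∀ d ∈ D, g * d * g⁻¹ ∈ D) (g : G) {a b : G} (hR : Dp D a = Dp D b) :
    Dp D (g * a * g⁻¹) = Dp D (g * b * g⁻¹) := by
  ext y
  rw [mem_Dp_conj hconj, mem_Dp_conj hconj, hR]

theorem transfer {e f s t : G} (hf : f ∈ D) (hs : s ∈ D) (hes : Dp D e = Dp D s)
    (hft : Dp D f = Dp D t) (hef : e ≠ f) (hc : Commute e f) : s ≠ t ∧ Commute s t := by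
  have h1 : f ∈ Dp D e := ⟨hf, Ne.symm hef, hc⟩
  rw [hes] at h1
  have h2 : s ∈ Dp D f := ⟨hs, Ne.symm h1.2.1, h1.2.2.symm⟩
  rw [hft] at h2
  exact ⟨h2.2.1, h2.2.2.symm⟩

/-- the union of the classes of the members of `T` -/
def EE (D T : Set G) : Set G := {e | e ∈ D ∧ ∃ s ∈ T, Dp D e = Dp D s}

theorem EE_not_commute {T : Set G} (hTD : T ⊆ D)
    (hT1 : ∀ s ∈ T, ∀ t ∈ T, s ≠ t → ¬ Commute s t) {e f : G} (he : e ∈ EE D T) (hf : f ∈ EE D T)
    (hef : e ≠ f) : ¬ Commute e f := by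
  intro hc
  obtain ⟨_, s, hs, hes⟩ := he
  obtain ⟨hfD, t, ht, hft⟩ := hf
  obtain ⟨h1, h2⟩ := transfer hfD (hTD hs) hes hft hef hc
  exact hT1 s hs t ht h1 h2

theorem EE_conj (hT : Cfsg.IsThreeTranspositionSet D) (hconj : ∀ g : G, ∀ d ∈ D, g * d * g⁻¹ ∈ D)
    {T : Set G} (hTD : T ⊆ D)
    (hT1 : ∀ s ∈ T, ∀ t ∈ T, s ≠ t → ¬ Commute s t) (hT2 : ∀ s ∈ T, ∀ t ∈ T, s * t * s⁻¹ ∈ T)
    {e f : G} (he : e ∈ EE D T) (hf : f ∈ EE D T) : f * e * f⁻¹ ∈ EE D T := by
  obtain ⟨heD, s, hs, hes⟩ := he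
  have hf' := hf
  obtain ⟨hfD, t, ht, hft⟩ := hf
  refine ⟨hconj f e heD, ?_⟩
  have h1 := rel_conj hconj f hes
  have hsE : s ∈ EE D T := ⟨hTD hs, s, hs, rfl⟩
  by_cases hfs : f = s
  · refine ⟨s, hs, ?_⟩
    rw [h1, hfs]
    congr 1
    group
  · have h2 := EE_not_commute hTD hT1 hf' hsE hfs
    have h3 := TT.braid hT hfD (hTD hs) h2
    refine ⟨s * t * s⁻¹, hT2 s hs t ht, ?_⟩
    rw [h1, ← rel_conj hconj s hft, TT.inv hT hfD, TT.inv hT (hTD hs), h3]

theorem exists_three_group [Finite G] (hT : Cfsg.IsThreeTranspositionSet D) (E : Set G) (hED : E ⊆ D)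
    (hE1 : ∀ e ∈ E, ∀ f ∈ E, e ≠ f → ¬ Commute e f) (hE2 : ∀ e ∈ E, ∀ f ∈ E, f * e * f⁻¹ ∈ E) :
    ∃ Y : Subgroup G, IsPGroup 3 Y ∧ ∀ e ∈ E, ∀ f ∈ E, e * f ∈ Y := by
  classical
  haveI : Fact (Nat.Prime 3) := ⟨Nat.prime_three⟩
  by_cases hne : E.Nonempty
  swap
  · refine ⟨⊥, IsPGroup.of_bot, fun e he => absurd ⟨e, he⟩ hne⟩
  obtain ⟨a, ha⟩ := hne
  set H := Subgroup.closure E with hH
  have hnorm : H ≤ Subgroup.normalizer E := by
    rw [hH, Subgroup.closure_le]
    intro f hf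
    rw [SetLike.mem_coe, Subgroup.mem_set_normalizer_iff]
    intro n
    refine ⟨fun hn => hE2 n hn f hf, fun hn => ?_⟩
    have h1 := hE2 _ hn f hf
    have h2 : f * (f * n * f⁻¹) * f⁻¹ = n := by
      rw [TT.inv hT (hED hf)]
      have := TT.sq hT (hED hf)
      calc f * (f * n * f) * f = (f * f) * n * (f * f) := by group
        _ = n := by rw [this]; group
    rwa [h2] at h1
  have hcube : ∀ e ∈ E, ∀ f ∈ E, (e * f) ^ 3 = 1 := by
    intro e he f hf
    by_cases hef : e = f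
    · rw [hef, TT.sq hT (hED hf), one_pow]
    · exact (TT.commute_or_cube hT (hED he) (hED hf)).resolve_left (hE1 e he f hf hef)
  have haH : a ∈ H := Subgroup.subset_closure ha
  have hord : orderOf (⟨a, haH⟩ : H) = 2 := by
    rw [← Subgroup.orderOf_coe]
    exact hT.1 a (hED ha)
  have hprod : ∀ g : H, ∃ k : ℕ, orderOf ((⟨a, haH⟩ : H) * (g * ⟨a, haH⟩ * g⁻¹)) = 3 ^ k := by
    intro g
    have h1 : (g : G) * a * (g : G)⁻¹ ∈ E := (Subgroup.mem_set_normalizer_iff.mp (hnorm g.2) a).mp ha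
    have h2 := hcube a ha _ h1
    have h3 : ((⟨a, haH⟩ : H) * (g * ⟨a, haH⟩ * g⁻¹)) ^ 3 = 1 := by
      apply Subtype.ext
      simpa using h2
    have h4 := orderOf_dvd_of_pow_eq_one h3
    rcases (Nat.dvd_prime Nat.prime_three).mp h4 with h5 | h5
    · exact ⟨0, by rw [h5, pow_zero]⟩
    · exact ⟨1, by rw [h5, pow_one]⟩
  have hZ : ZCor.ZStarHyp H := fun P u hu huP hiso => Cfsg.Agent.S0215.result P u hu huP hiso
  have hmain := ZCor.prod_mem_pCore hZ Nat.prime_three (by norm_num) (⟨a, haH⟩ : H) hord hprod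
  refine ⟨(Cfsg.pCore 3 H).map H.subtype, pCore_isPGroup.map _, ?_⟩
  have hrep : ∀ e ∈ E, (a * e) * a * (a * e)⁻¹ = e := by
    intro e he
    have haa := TT.sq hT (hED ha)
    have hee := TT.sq hT (hED he)
    have hbr := TT.braid_of_cube haa hee (hcube a ha e he)
    rw [mul_inv_rev, TT.inv hT (hED ha), TT.inv hT (hED he)]
    calc a * e * a * (e * a) = a * (e * a * e) * a := by group
      _ = a * (a * e * a) * a := by rw [hbr]
      _ = (a * a) * e * (a * a) := by group
      _ = e := by rw [haa]; group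
  intro e he f hf
  have heH : a * e ∈ H := H.mul_mem haH (Subgroup.subset_closure he)
  have hfH : a * f ∈ H := H.mul_mem haH (Subgroup.subset_closure hf)
  refine ⟨_, hmain ⟨a * e, heH⟩ ⟨a * f, hfH⟩, ?_⟩
  simp only [Subgroup.coe_subtype, Subgroup.coe_mul, Subgroup.coe_inv]
  rw [hrep e he, hrep f hf]



theorem tbl_conj {a b : G} (haa : a * a = 1) (hbb : b * b = 1) (hbr : b * a * b = a * b * a) :
    ∀ s ∈ ({a, b, b * a * b} : Set G), ∀ t ∈ ({a, b, b * a * b} : Set G),
      s * t * s⁻¹ ∈ ({a, b, b * a * b} : Set G) := by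
  have hai : a⁻¹ = a := inv_eq_of_mul_eq_one_left haa
  have hbi : b⁻¹ = b := inv_eq_of_mul_eq_one_left hbb
  have hci : (b * a * b)⁻¹ = b * a * b := by
    rw [mul_inv_rev, mul_inv_rev, hai, hbi, mul_assoc]
  have e1 : a * a * a = a := by rw [haa, one_mul]
  have e2 : a * b * a = b * a * b := hbr.symm
  have e3 : a * (b * a * b) * a = b := by
    rw [hbr]
    calc a * (a * b * a) * a = (a * a) * b * (a * a) := by group
      _ = b := by rw [haa]; group
  have e5 : b * b * b = b := by rw [hbb, one_mul]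
  have e6 : b * (b * a * b) * b = a := by
    calc b * (b * a * b) * b = (b * b) * a * (b * b) := by group
      _ = a := by rw [hbb]; group
  have e7 : (b * a * b) * a * (b * a * b) = b := by
    calc (b * a * b) * a * (b * a * b) = b * a * (b * a * b) * a * b := by group
      _ = b * a * (a * b * a) * a * b := by rw [hbr]
      _ = b * (a * a) * b * (a * a) * b := by group
      _ = b := by rw [haa, mul_one, mul_one, hbb, one_mul]
  have e8 : (b * a * b) * b * (b * a * b) = a := by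
    calc (b * a * b) * b * (b * a * b) = b * a * (b * b) * b * a * b := by group
      _ = (b * a * b) * a * b := by rw [hbb]; group
      _ = (a * b * a) * a * b := by rw [hbr]
      _ = a * b * (a * a) * b := by group
      _ = a := by rw [haa, mul_one, mul_assoc, hbb, mul_one]
  have e9 : (b * a * b) * (b * a * b) * (b * a * b) = b * a * b := by
    have : (b * a * b) * (b * a * b) = 1 := by
      calc (b * a * b) * (b * a * b) = b * a * (b * b) * a * b := by group
        _ = b * (a * a) * b := by rw [hbb]; group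
        _ = 1 := by rw [haa, mul_one, hbb]
    rw [this, one_mul]
  rintro s (rfl | rfl | rfl) t (rfl | rfl | rfl)
  · rw [hai, e1]; simp
  · rw [hai, e2]; simp
  · rw [hai, e3]; simp
  · rw [hbi]; simp
  · rw [hbi, e5]; simp
  · rw [hbi, e6]; simp
  · rw [hci, e7]; simp
  · rw [hci, e8]; simp
  · rw [hci, e9]; simp

theorem tbl_nc {a b : G} (haa : a * a = 1) (hbb : b * b = 1) (hbr : b * a * b = a * b * a)
    (hne : a = b ∨ ¬ Commute a b) :
    ∀ s ∈ ({a, b, b * a * b} : Set G), ∀ t ∈ ({a, b, b * a * b} : Set G), s ≠ t → ¬ Commute s t := by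
  have h1 : a ≠ b → ¬ Commute a b := fun h => hne.resolve_left h
  have h2 : a ≠ b * a * b → ¬ Commute a (b * a * b) := by
    intro hn hc
    rw [hbr] at hc hn
    have h3 : a * (a * b * a) = (a * b * a) * a := hc
    have h4 : Commute a b := by
      show a * b = b * a
      calc a * b = a * b * (a * a) := by rw [haa, mul_one]
        _ = (a * b * a) * a := by group
        _ = a * (a * b * a) := h3.symm
        _ = (a * a) * b * a := by group
        _ = b * a := by rw [haa, one_mul]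
    rcases hne with h | h
    · apply hn; rw [← h, haa, one_mul]
    · exact h h4
  have h3 : b ≠ b * a * b → ¬ Commute b (b * a * b) := by
    intro hn hc
    have h3 : b * (b * a * b) = (b * a * b) * b := hc
    have h4 : Commute a b := by
      show a * b = b * a
      calc a * b = (b * b) * a * b := by rw [hbb, one_mul]
        _ = b * (b * a * b) := by group
        _ = (b * a * b) * b := h3
        _ = b * a * (b * b) := by group
        _ = b * a := by rw [hbb, mul_one]
    rcases hne with h | h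
    · apply hn; rw [h, hbb, one_mul]
    · exact h h4
  rintro s (rfl | rfl | rfl) t (rfl | rfl | rfl) hst
  · exact absurd rfl hst
  · exact h1 hst
  · exact h2 hst
  · exact fun hc => h1 hst.symm hc.symm
  · exact absurd rfl hst
  · exact h3 hst
  · exact fun hc => h2 hst.symm hc.symm
  · exact fun hc => h3 hst.symm hc.symm
  · exact absurd rfl hst

theorem cube_of_rel (hT : Cfsg.IsThreeTranspositionSet D) {a b : G} (ha : a ∈ D) (hb : b ∈ D)
    (hR : Dp D a = Dp D b) : (a * b) ^ 3 = 1 := by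
  by_cases hab : a = b
  · rw [hab, TT.sq hT hb, one_pow]
  · exact (TT.commute_or_cube hT ha hb).resolve_left (not_commute_of_rel hb hR hab)

theorem isPGroup_zpowers_cube {x : G} (h : x ^ 3 = 1) : IsPGroup 3 (Subgroup.zpowers x) := by
  have h4 := orderOf_dvd_of_pow_eq_one h
  rcases (Nat.dvd_prime Nat.prime_three).mp h4 with h5 | h5
  · exact isPGroup_zpowers x 0 (by rw [h5, pow_zero])
  · exact isPGroup_zpowers x 1 (by rw [h5, pow_one])

theorem key [Finite G] (hT : Cfsg.IsThreeTranspositionSet D) (hconj : ∀ g : G, ∀ d ∈ D, g * d * g⁻¹ ∈ D)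
    {a b a' b' : G} (ha : a ∈ D) (hb : b ∈ D) (ha' : a' ∈ D) (hb' : b' ∈ D)
    (hR : Dp D a = Dp D b) (hR' : Dp D a' = Dp D b') :
    IsPGroup 3 ↥(Subgroup.zpowers (a * b) ⊔ Subgroup.zpowers (a' * b')) := by
  by_cases hcase : a ≠ a' ∧ Commute a a'
  · obtain ⟨hne, hc⟩ := hcase
    have h1 : a' ∈ Dp D a := ⟨ha', hne.symm, hc⟩
    have h1b := h1
    rw [hR] at h1b
    have h2 : a ∈ Dp D a' := ⟨ha, hne, hc.symm⟩
    rw [hR'] at h2
    have h3 : b ∈ Dp D a' := ⟨hb, h1b.2.1.symm, h1b.2.2.symm⟩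
    rw [hR'] at h3
    have hcc : Commute (a * b) (a' * b') :=
      (Commute.mul_left hc h1b.2.2).mul_right (Commute.mul_left h2.2.2.symm h3.2.2.symm)
    apply IsPGroup.to_sup_of_normal_right' (isPGroup_zpowers_cube (cube_of_rel hT ha hb hR))
      (isPGroup_zpowers_cube (cube_of_rel hT ha' hb' hR'))
    rw [Subgroup.zpowers_le]
    apply Subgroup.centralizer_le_normalizer
    rw [Subgroup.mem_centralizer_iff]
    rintro h ⟨k, rfl⟩
    exact (hcc.zpow_right k).eq.symm
  · have hne : a = a' ∨ ¬ Commute a a' := by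
      by_contra hcon
      push Not at hcon
      exact hcase hcon
    have haa := TT.sq hT ha
    have hbb := TT.sq hT ha'
    have hbr : a' * a * a' = a * a' * a := by
      rcases hne with h | h
      · rw [h]
      · exact TT.braid hT ha ha' h
    set T : Set G := {a, a', a' * a * a'} with hTdef
    have hTD : T ⊆ D := by
      rintro s (rfl | rfl | rfl)
      · exact ha
      · exact ha'
      · have := hconj a' a ha
        rwa [TT.inv hT ha'] at this
    have hT1 := tbl_nc haa hbb hbr hne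
    have hT2 := tbl_conj haa hbb hbr
    obtain ⟨Y, hY, hYm⟩ := exists_three_group hT (EE D T) (fun e he => he.1)
      (fun e he f hf hef => EE_not_commute hTD hT1 he hf hef)
      (fun e he f hf => EE_conj hT hconj hTD hT1 hT2 he hf)
    have m1 : a ∈ EE D T := ⟨ha, a, by simp [hTdef], rfl⟩
    have m2 : b ∈ EE D T := ⟨hb, a, by simp [hTdef], hR.symm⟩
    have m3 : a' ∈ EE D T := ⟨ha', a', by simp [hTdef], rfl⟩
    have m4 : b' ∈ EE D T := ⟨hb', a', by simp [hTdef], hR'.symm⟩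
    apply hY.to_le
    rw [sup_le_iff, Subgroup.zpowers_le, Subgroup.zpowers_le]
    exact ⟨hYm a m1 b m2, hYm a' m3 b' m4⟩



theorem eq_one_of_sq_of_mem [Finite G] {u : G} (hu : u ∈ Cfsg.pCore 3 G) (h2 : u ^ 2 = 1) : u = 1 := by
  haveI : Fact (Nat.Prime 3) := ⟨Nat.prime_three⟩
  obtain ⟨k, hk⟩ := (pCore_isPGroup (G := G) (p := 3)) ⟨u, hu⟩
  have hk' : u ^ (3 ^ k) = 1 := by
    have := congrArg Subtype.val hk
    simpa using this
  exact eq_one_of_pow_coprime h2 hk' (by
    apply Nat.Coprime.pow_right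
    norm_num)

theorem Dp_sub [Finite G] (hT : Cfsg.IsThreeTranspositionSet D) {d w : G} (hd : d ∈ D) (hw : w ∈ D)
    (hu : d⁻¹ * w ∈ Cfsg.pCore 3 G) : Dp D d ⊆ Dp D w := by
  haveI hO := pCore_normal (G := G) 3
  rintro e ⟨he, hed, hc⟩
  have hdd := TT.sq hT hd
  have hee := TT.sq hT he
  have hww := TT.sq hT hw
  have hdi := TT.inv hT hd
  rw [hdi] at hu
  have hew : e ≠ w := by
    rintro rfl
    have h1 : (d * e) ^ 2 = 1 := sq_of_commute hdd hee hc
    have h2 := eq_one_of_sq_of_mem hu h1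
    apply hed
    calc e = (d * d) * e := by rw [hdd, one_mul]
      _ = d * (d * e) := by group
      _ = d := by rw [h2, mul_one]
  refine ⟨he, hew, ?_⟩
  rcases TT.commute_or_cube hT hw he with h | h
  · exact h
  · exfalso
    -- the image of `w * e` in the quotient equals the image of `d * e`
    have h1 : (QuotientGroup.mk' (Cfsg.pCore 3 G)) (w * e) = (QuotientGroup.mk' (Cfsg.pCore 3 G)) (d * e) := by
      rw [map_mul, map_mul]
      congr 1
      rw [QuotientGroup.mk'_apply, QuotientGroup.mk'_apply, QuotientGroup.eq]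
      have : w⁻¹ * d = (d * w)⁻¹ := by rw [mul_inv_rev, hdi]
      rw [this]
      exact inv_mem hu
    have h2 : ((QuotientGroup.mk' (Cfsg.pCore 3 G)) (d * e)) ^ 3 = 1 := by
      rw [← h1, ← map_pow, h, map_one]
    have h3 : ((QuotientGroup.mk' (Cfsg.pCore 3 G)) (d * e)) ^ 2 = 1 := by
      rw [← map_pow, sq_of_commute hdd hee hc, map_one]
    have h4 := eq_one_of_pow_coprime h3 h2 (by norm_num)
    rw [QuotientGroup.mk'_apply, QuotientGroup.eq_one_iff] at h4
    have h5 := eq_one_of_sq_of_mem h4 (sq_of_commute hdd hee hc)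
    apply hed
    calc e = (d * d) * e := by rw [hdd, one_mul]
      _ = d * (d * e) := by group
      _ = d := by rw [h5, mul_one]



/-- Let D be a conjugacy class of 3-transpositions generating the finite group G, with at least two members, and d a member of D. Then the set of members w of D whose commuting partners in D (other than w) are exactly those of d (other than d) coincides with the set of members of D lying in the coset of d modulo the largest normal 3-subgroup of G, and also with the orbit of d under conjugation by that normal 3-subgroup. -/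
theorem result {G : Type*} [Group G] [Finite G] {D : Set G} (hD : Cfsg.IsThreeTranspositionClass D) (hD2 : ∃ a ∈ D, ∃ b ∈ D, a ≠ b) {d : G} (hd : d ∈ D) : {w : G | w ∈ D ∧ {y : G | y ∈ D ∧ y ≠ d ∧ Commute d y} = {y : G | y ∈ D ∧ y ≠ w ∧ Commute w y}} = {w : G | w ∈ D ∧ d⁻¹ * w ∈ Cfsg.pCore 3 G} ∧ {w : G | w ∈ D ∧ {y : G | y ∈ D ∧ y ≠ d ∧ Commute d y} = {y : G | y ∈ D ∧ y ≠ w ∧ Commute w y}} = {w : G | ∃ g ∈ Cfsg.pCore 3 G, w = g * d * g⁻¹} := by
  haveI : Fact (Nat.Prime 3) := ⟨Nat.prime_three⟩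
  have hT := hD.1
  have hconj : ∀ g : G, ∀ d ∈ D, g * d * g⁻¹ ∈ D := fun g d hd => TTC.conj_mem hD g hd
  haveI hO := pCore_normal (G := G) 3
  have hdi := TT.inv hT hd
  have hdd := TT.sq hT hd
  have hAB : ∀ w : G, w ∈ D → Dp D d = Dp D w → d⁻¹ * w ∈ Cfsg.pCore 3 G := by
    intro w hw hR
    rw [hdi]
    obtain ⟨N, hN, hN3, hXN⟩ := Cfsg.Agent.S0199.result (p := 3) (Subgroup.zpowers (d * w))
      (isPGroup_zpowers_cube (cube_of_rel hT hd hw hR)) (by
        intro g
        have h1 : (Subgroup.zpowers (d * w)).map (MulAut.conj g).toMonoidHom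
            = Subgroup.zpowers ((g * d * g⁻¹) * (g * w * g⁻¹)) := by
          rw [MonoidHom.map_zpowers]
          congr 1
          simp
        rw [h1]
        exact key hT hconj hd hw (hconj g d hd) (hconj g w hw) hR (rel_conj hconj g hR))
    exact le_pCore hN hN3 (hXN (Subgroup.mem_zpowers _))
  have hBA : ∀ w : G, w ∈ D → d⁻¹ * w ∈ Cfsg.pCore 3 G → Dp D d = Dp D w := by
    intro w hw hu
    apply Set.Subset.antisymm (Dp_sub hT hd hw hu)
    apply Dp_sub hT hw hd
    have : w⁻¹ * d = (d⁻¹ * w)⁻¹ := by group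
    rw [this]
    exact inv_mem hu
  have hE1 : {w : G | w ∈ D ∧ {y : G | y ∈ D ∧ y ≠ d ∧ Commute d y} = {y : G | y ∈ D ∧ y ≠ w ∧ Commute w y}} = {w : G | w ∈ D ∧ d⁻¹ * w ∈ Cfsg.pCore 3 G} := by
    ext w
    exact ⟨fun h => ⟨h.1, hAB w h.1 h.2⟩, fun h => ⟨h.1, hBA w h.1 h.2⟩⟩
  refine ⟨hE1, ?_⟩
  rw [hE1]
  ext w
  constructor
  · rintro ⟨hw, hu⟩
    refine ⟨d⁻¹ * w, hu, ?_⟩
    have hww := TT.sq hT hw
    have hwi := TT.inv hT hw
    have hcube := cube_of_rel hT hd hw (hBA w hw hu)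
    have hbr := TT.braid_of_cube hdd hww hcube
    rw [mul_inv_rev, inv_inv, hdi, hwi]
    calc w = (d * d) * w * (d * d) := by rw [hdd]; group
      _ = d * (d * w * d) * d := by group
      _ = d * (w * d * w) * d := by rw [hbr]
      _ = d * w * d * (w * d) := by group
  · rintro ⟨g, hg, rfl⟩
    refine ⟨hconj g d hd, ?_⟩
    have h1 : d⁻¹ * (g * d * g⁻¹) = (d⁻¹ * g * d⁻¹⁻¹) * g⁻¹ := by group
    rw [h1]
    exact mul_mem (hO.conj_mem g hg d⁻¹) (inv_mem hg)


end Cfsg.Agent.S5350
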