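import Mathlib
import Cfsg.Statements.S5351
import Cfsg.Agent.Lib.Helper27.TT2
import Cfsg.Agent.Lib.Helper8.FStar
import Cfsg.Agent.Lib.Helper1.Fitting
import Cfsg.Agent.S5347
import Cfsg.Agent.S5348
import Cfsg.Agent.S5349
import Cfsg.Agent.S5350


set_option autoImplicit false
open Cfsg Cfsg.Agent.Lib.Helper27 Cfsg.Agent.Lib.Helper8

namespace Cfsg.Agent.S5351


variable {G : Type*} [Group G] {D : Set G}

theorem toGroup (hD : Cfsg.IsThreeTranspositionClass D) : Cfsg.IsThreeTranspositionGroup D :=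
  ⟨hD.1, fun g _ hd => TTC.conj_mem hD g hd, hD.2.2⟩

theorem le_center_of_commute (hD : Cfsg.IsThreeTranspositionClass D) (R : Subgroup G)
    (h : ∀ x ∈ R, ∀ e ∈ D, Commute x e) : R ≤ Subgroup.center G := by
  intro x hx
  rw [Subgroup.mem_center_iff]
  exact TTC.eq_of_forall_commute hD (h x hx)

theorem exists_moved (hD : Cfsg.IsThreeTranspositionClass D) (R : Subgroup G) [hRn : R.Normal]
    (hR : ¬ R ≤ Subgroup.center G) {d : G} (hd : d ∈ D) : ∃ u ∈ R, u * d * u⁻¹ ≠ d := by
  by_contra hcon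
  push Not at hcon
  apply hR
  apply le_center_of_commute hD
  intro x hx e he
  obtain ⟨g, rfl⟩ := TTC.exists_conj hD hd he
  have h1 := hcon (g⁻¹ * x * g⁻¹⁻¹) (hRn.conj_mem x hx g⁻¹)
  show x * (g * d * g⁻¹) = g * d * g⁻¹ * x
  calc x * (g * d * g⁻¹) = g * ((g⁻¹ * x * g⁻¹⁻¹) * d * (g⁻¹ * x * g⁻¹⁻¹)⁻¹) * g⁻¹ * x := by group
    _ = g * d * g⁻¹ * x := by rw [h1]

theorem commute_conj_two (hT : Cfsg.IsThreeTranspositionSet D) (R : Subgroup G) [hRn : R.Normal]
    (hR : IsPGroup 2 R) {d u c : G} (hd : d ∈ D) (he : u * d * u⁻¹ ∈ D) (hb : c * d * c⁻¹ ∈ D)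
    (hu : u ∈ R) (hne : u * d * u⁻¹ ≠ d) (hc : ∀ r ∈ R, c * r = r * c) : Commute d (c * d * c⁻¹) := by
  set e := u * d * u⁻¹ with he'
  set b := c * d * c⁻¹ with hb'
  set t := d * e with ht
  have hdd := TT.sq hT hd
  have htR : t ∈ R := by
    have : t = (d * u * d⁻¹) * u⁻¹ := by rw [ht, he', TT.inv hT hd]; group
    rw [this]
    exact R.mul_mem (hRn.conj_mem u hu d) (R.inv_mem hu)
  have het : e = d * t := by rw [ht, ← mul_assoc, hdd, one_mul]
  have ht1 : t ≠ 1 := by
    intro h
    apply hne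
    rw [het, h, mul_one]
  obtain ⟨k, hk⟩ := hR ⟨t, htR⟩
  have hk' : t ^ 2 ^ k = 1 := by simpa [Subtype.ext_iff] using hk
  have hde : Commute d e := TT.commute_of_pow hT hd he hk' (by
    apply Nat.Coprime.pow_left; decide)
  have htt : t ^ 2 = 1 := sq_of_commute hdd (TT.sq hT he) hde
  have htd : Commute t d := (Commute.mul_left (Commute.refl d) hde.symm)
  have htb : Commute t b := by
    have h1 : c * t = t * c := hc t htR
    have h1' : c⁻¹ * t = t * c⁻¹ := by
      calc c⁻¹ * t = c⁻¹ * (t * c) * c⁻¹ := by group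
        _ = c⁻¹ * (c * t) * c⁻¹ := by rw [h1]
        _ = t * c⁻¹ := by group
    have h2 : t * d = d * t := htd
    show t * b = b * t
    calc t * b = (t * c) * d * c⁻¹ := by rw [hb']; group
      _ = c * (t * d) * c⁻¹ := by rw [← h1]; group
      _ = c * d * (t * c⁻¹) := by rw [h2]; group
      _ = b * t := by rw [← h1', hb']; group
  by_contra hdb
  have hdb3 : (d * b) ^ 3 = 1 := by
    rcases TT.commute_or_cube hT hd hb with h | h
    · exact absurd h hdb
    · exact h
  have heb : e * b = t * (d * b) := by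
    rw [het, ← htd.eq]; group
  have htdb : Commute t (d * b) := htd.mul_right htb
  rcases TT.commute_or_cube hT he hb with h | h
  · have h2 := sq_of_commute (TT.sq hT he) (TT.sq hT hb) h
    rw [heb, htdb.mul_pow, htt, one_mul] at h2
    have h3 : d * b = 1 := eq_one_of_pow_coprime h2 hdb3 (by decide)
    apply hdb
    have : b = d := by
      calc b = (d * d) * b := by rw [hdd, one_mul]
        _ = d * (d * b) := by rw [mul_assoc]
        _ = d := by rw [h3, mul_one]
    rw [this]
  · rw [heb, htdb.mul_pow, hdb3, mul_one] at h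
    exact ht1 (eq_one_of_pow_coprime htt h (by decide))

theorem eq_of_commute_conj_three (hT : Cfsg.IsThreeTranspositionSet D) (R : Subgroup G) [hRn : R.Normal]
    (hR : IsPGroup 3 R) {d u c : G} (hd : d ∈ D) (he : u * d * u⁻¹ ∈ D) (hb : c * d * c⁻¹ ∈ D)
    (hu : u ∈ R) (hne : u * d * u⁻¹ ≠ d) (hc : ∀ r ∈ R, c * r = r * c)
    (hcomm : Commute d (c * d * c⁻¹)) : c * d * c⁻¹ = d := by
  set e := u * d * u⁻¹ with he'
  set b := c * d * c⁻¹ with hb'
  set t := d * e with ht
  have hdd := TT.sq hT hd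
  have hbb := TT.sq hT hb
  have htR : t ∈ R := by
    have : t = (d * u * d⁻¹) * u⁻¹ := by rw [ht, he', TT.inv hT hd]; group
    rw [this]
    exact R.mul_mem (hRn.conj_mem u hu d) (R.inv_mem hu)
  have het : e = d * t := by rw [ht, ← mul_assoc, hdd, one_mul]
  have ht1 : t ≠ 1 := by
    intro h
    apply hne
    rw [het, h, mul_one]
  obtain ⟨k, hk⟩ := hR ⟨t, htR⟩
  have hk' : t ^ 3 ^ k = 1 := by simpa [Subtype.ext_iff] using hk
  have ht3 : t ^ 3 = 1 := by
    rcases TT.commute_or_cube hT hd he with h | h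
    · exfalso
      have h2 := sq_of_commute hdd (TT.sq hT he) h
      exact ht1 (eq_one_of_pow_coprime h2 hk' (by apply Nat.Coprime.pow_right; decide))
    · exact h
  -- d inverts t
  have hdt : d * t = t⁻¹ * d := by
    have : t⁻¹ = e * d := by
      rw [ht, mul_inv_rev, TT.inv hT hd, TT.inv hT he]
    rw [this, ht, mul_assoc e, hdd, mul_one, ← mul_assoc, hdd, one_mul]
  have hct : c * t = t * c := hc t htR
  have hct' : c⁻¹ * t = t * c⁻¹ := by
    calc c⁻¹ * t = c⁻¹ * (t * c) * c⁻¹ := by group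
      _ = c⁻¹ * (c * t) * c⁻¹ := by rw [hct]
      _ = t * c⁻¹ := by group
  have hcti : c * t⁻¹ = t⁻¹ * c := by
    calc c * t⁻¹ = t⁻¹ * (t * c) * t⁻¹ := by group
      _ = t⁻¹ * (c * t) * t⁻¹ := by rw [hct]
      _ = t⁻¹ * c := by group
  have hbt : b * t = t⁻¹ * b := by
    calc b * t = c * d * (c⁻¹ * t) := by rw [hb']; group
      _ = c * (d * t) * c⁻¹ := by rw [hct']; group
      _ = (c * t⁻¹) * d * c⁻¹ := by rw [hdt]; group
      _ = t⁻¹ * b := by rw [hcti, hb']; group
  by_contra hbd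
  set s := d * b with hs
  have hs2 : s ^ 2 = 1 := sq_of_commute hdd hbb hcomm
  have hs1 : s ≠ 1 := by
    intro h
    apply hbd
    calc b = (d * d) * b := by rw [hdd, one_mul]
      _ = d * (d * b) := by rw [mul_assoc]
      _ = d := by rw [← hs, h, mul_one]
  have hst : Commute s t := by
    show s * t = t * s
    calc s * t = d * (b * t) := by rw [hs]; group
      _ = (d * t⁻¹) * b := by rw [hbt]; group
      _ = t * s := by
        have : d * t⁻¹ = t * d := by
          calc d * t⁻¹ = t * (t⁻¹ * d) * t⁻¹ := by group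
            _ = t * (d * t) * t⁻¹ := by rw [hdt]
            _ = t * d := by group
        rw [this, hs]; group
  have htb : t * b = b * t⁻¹ := by
    calc t * b = t * (b * t) * t⁻¹ := by group
      _ = t * (t⁻¹ * b) * t⁻¹ := by rw [hbt]
      _ = b * t⁻¹ := by group
  have heb : e * b = s * t⁻¹ := by
    calc e * b = d * (t * b) := by rw [het]; group
      _ = s * t⁻¹ := by rw [htb, hs]; group
  have hst' : Commute s t⁻¹ := hst.inv_right
  rcases TT.commute_or_cube hT he hb with h | h
  · have h2 := sq_of_commute (TT.sq hT he) hbb h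
    rw [heb, hst'.mul_pow, hs2, one_mul, inv_pow, inv_eq_one] at h2
    exact ht1 (eq_one_of_pow_coprime h2 ht3 (by decide))
  · rw [heb, hst'.mul_pow, inv_pow, ht3, inv_one, mul_one] at h
    exact hs1 (eq_one_of_pow_coprime hs2 h (by decide))


variable {G : Type*} [Group G] {D : Set G}

theorem conj_mem_closure (S : Set G) (k : G) (h : ∀ s ∈ S, k * s * k⁻¹ ∈ S) :
    ∀ x ∈ Subgroup.closure S, k * x * k⁻¹ ∈ Subgroup.closure S := by
  intro x hx
  induction hx using Subgroup.closure_induction with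
  | mem s hs => exact Subgroup.subset_closure (h s hs)
  | one => simp
  | mul a b _ _ ha hb =>
    have : k * (a * b) * k⁻¹ = (k * a * k⁻¹) * (k * b * k⁻¹) := by group
    rw [this]; exact mul_mem ha hb
  | inv a _ ha =>
    have : k * a⁻¹ * k⁻¹ = (k * a * k⁻¹)⁻¹ := by group
    rw [this]; exact inv_mem ha

theorem mem_normalizer_closure (S : Set G) (k : G) (h : ∀ s ∈ S, k * s * k⁻¹ ∈ S)
    (h' : ∀ s ∈ S, k⁻¹ * s * k⁻¹⁻¹ ∈ S) : k ∈ Subgroup.normalizer (Subgroup.closure S : Set G) := by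
  rw [Subgroup.mem_normalizer_iff]
  intro x
  constructor
  · exact conj_mem_closure S k h x
  · intro hx
    have := conj_mem_closure S k⁻¹ h' _ hx
    have e : k⁻¹ * (k * x * k⁻¹) * k⁻¹⁻¹ = x := by group
    rwa [e] at this

/-- a component centralizes an involution `d` when all `[k, d]` lie in a solvable subgroup it normalizes -/
theorem component_commute [Finite G] {K Y : Subgroup G} (hK : Cfsg.IsComponent K) {d : G} (hdd : d * d = 1)
    (hY : Group.IsSolvable Y) (hn : K ≤ Subgroup.normalizer (Y : Set G))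
    (h : ∀ k ∈ K, k * d * k⁻¹ * d⁻¹ ∈ Y) : ∀ k ∈ K, Commute k d := by
  obtain ⟨hsub, hQS⟩ := (isComponent_iff K).mp hK
  have hKY : ⁅K, Y⁆ = ⊥ := hQS.commutator_eq_bot_of_isSolvable hsub le_top hY hn
  have h0 : ⁅K, Subgroup.zpowers d⁆ ≤ Y := by
    rw [Subgroup.commutator_le]
    intro k hk z hz
    obtain ⟨n, rfl⟩ := Subgroup.mem_zpowers_iff.mp hz
    have h2 : d ^ (2 : ℤ) = 1 := by rw [zpow_two, hdd]
    rcases Int.even_or_odd' n with ⟨m, rfl | rfl⟩
    · rw [zpow_mul, h2, one_zpow]
      simp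
    · rw [zpow_add, zpow_mul, h2, one_zpow, one_mul, zpow_one, commutatorElement_def]
      exact h k hk
  have h1 : ⁅⁅K, Subgroup.zpowers d⁆, K⁆ = ⊥ := by
    rw [eq_bot_iff, ← hKY, Subgroup.commutator_comm K Y]
    exact Subgroup.commutator_mono h0 le_rfl
  have h2 : ⁅⁅Subgroup.zpowers d, K⁆, K⁆ = ⊥ := by
    rw [Subgroup.commutator_comm (Subgroup.zpowers d) K]; exact h1
  have h3 : ⁅⁅K, K⁆, Subgroup.zpowers d⁆ = ⊥ := Subgroup.commutator_commutator_eq_bot_of_rotate h1 h2
  rw [hQS.1, Subgroup.commutator_eq_bot_iff_le_centralizer] at h3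
  intro k hk
  have := h3 hk
  rw [Subgroup.mem_centralizer_iff] at this
  exact (this d (Subgroup.mem_zpowers d)).symm

theorem no_component [Finite G] (hD : Cfsg.IsThreeTranspositionClass D) {p : ℕ} (hp : p = 2 ∨ p = 3)
    (hR : ¬ Cfsg.pCore p G ≤ Subgroup.center G) (K : Subgroup G) (hK : Cfsg.IsComponent K) : False := by
  haveI : Fact p.Prime := by
    rcases hp with rfl | rfl
    · exact ⟨Nat.prime_two⟩
    · exact ⟨Nat.prime_three⟩
  have hT := hD.1
  set R := Cfsg.pCore p G with hRdef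
  haveI hRn : R.Normal := Cfsg.Agent.Lib.Helper27.pCore_normal p
  have hRp : IsPGroup p R := pCore_isPGroup
  obtain ⟨hsub, hQS⟩ := (isComponent_iff K).mp hK
  have hRsol : Group.IsSolvable R := by
    haveI := hRp.isNilpotent
    infer_instance
  have hKR : ⁅K, R⁆ = ⊥ := hQS.commutator_eq_bot_of_isSolvable hsub le_top hRsol
    (by rw [Subgroup.normalizer_eq_top]; exact le_top)
  set C := Subgroup.centralizer (R : Set G) with hC
  haveI hCn : C.Normal := inferInstance
  have hKC : K ≤ C := (Subgroup.commutator_eq_bot_iff_le_centralizer).mp hKR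
  have hCc : ∀ c ∈ C, ∀ r ∈ R, c * r = r * c := by
    intro c hc r hr
    exact (Subgroup.mem_centralizer_iff.mp hc r hr).symm
  have main : ∀ d ∈ D, ∀ k ∈ K, Commute k d := by
    intro d hd
    obtain ⟨u, hu, hne⟩ := exists_moved hD R hR hd
    set E : Set G := {x | ∃ c ∈ C, x = c * d * c⁻¹} with hE
    have hED : E ⊆ D := by
      rintro _ ⟨c, _, rfl⟩
      exact TTC.conj_mem hD c hd
    set S : Set G := {y | ∃ e ∈ E, ∃ f ∈ E, y = e * f} with hS
    have hEconj : ∀ k ∈ C, ∀ e ∈ E, k * e * k⁻¹ ∈ E := by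
      rintro k hk _ ⟨c, hc, rfl⟩
      exact ⟨k * c, mul_mem hk hc, by group⟩
    have hSconj : ∀ k ∈ C, ∀ s ∈ S, k * s * k⁻¹ ∈ S := by
      rintro k hk _ ⟨e, he, f, hf, rfl⟩
      exact ⟨_, hEconj k hk e he, _, hEconj k hk f hf, by group⟩
    have hn : K ≤ Subgroup.normalizer (Subgroup.closure S : Set G) := by
      intro k hk
      exact mem_normalizer_closure S k (hSconj k (hKC hk)) (hSconj k⁻¹ (inv_mem (hKC hk)))
    have hdE : d ∈ E := ⟨1, one_mem _, by simp⟩
    have hmem : ∀ k ∈ K, k * d * k⁻¹ * d⁻¹ ∈ Subgroup.closure S := by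
      intro k hk
      apply Subgroup.subset_closure
      refine ⟨k * d * k⁻¹, ⟨k, hKC hk, rfl⟩, d, hdE, ?_⟩
      rw [TT.inv hT hd]
    have hsol : Group.IsSolvable (Subgroup.closure S) := by
      rcases hp with rfl | rfl
      · -- pairwise commuting
        have hcomm : ∀ e ∈ E, ∀ f ∈ E, Commute e f := by
          rintro _ ⟨c, hc, rfl⟩ _ ⟨c', hc', rfl⟩
          have h1 : c' * d * c'⁻¹ = c * ((c⁻¹ * c') * d * (c⁻¹ * c')⁻¹) * c⁻¹ := by group
          rw [h1, commute_conj_iff]
          exact commute_conj_two hT R hRp hd (TTC.conj_mem hD u hd) (TTC.conj_mem hD _ hd) hu hne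
            (hCc _ (mul_mem (inv_mem hc) hc'))
        have hmc : IsMulCommutative (Subgroup.closure S) := by
          apply Subgroup.isMulCommutative_closure
          rintro _ ⟨e, he, f, hf, rfl⟩ _ ⟨e', he', f', hf', rfl⟩
          exact ((hcomm e he e' he').mul_right (hcomm e he f' hf')).mul_left
            ((hcomm f hf e' he').mul_right (hcomm f hf f' hf'))
        exact Group.isSolvable_of_comm (fun a b => hmc.is_comm.comm a b)
      · have hE1 : ∀ e ∈ E, ∀ f ∈ E, e ≠ f → ¬ Commute e f := by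
          rintro _ ⟨c, hc, rfl⟩ _ ⟨c', hc', rfl⟩ hne' hcm
          apply hne'
          have h1 : c' * d * c'⁻¹ = c * ((c⁻¹ * c') * d * (c⁻¹ * c')⁻¹) * c⁻¹ := by group
          rw [h1, commute_conj_iff] at hcm
          have := eq_of_commute_conj_three hT R hRp hd (TTC.conj_mem hD u hd) (TTC.conj_mem hD _ hd) hu hne
            (hCc _ (mul_mem (inv_mem hc) hc')) hcm
          rw [h1, this]
        have hE2 : ∀ e ∈ E, ∀ f ∈ E, f * e * f⁻¹ ∈ E := by
          rintro _ ⟨c, hc, rfl⟩ _ ⟨c', hc', rfl⟩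
          refine ⟨c' * (d * (c'⁻¹ * c) * d⁻¹), mul_mem hc' (hCn.conj_mem _ (mul_mem (inv_mem hc') hc) d), ?_⟩
          group
        obtain ⟨Y, hY, hYmem⟩ := Cfsg.Agent.S5350.exists_three_group hT E hED hE1 hE2
        have hle : Subgroup.closure S ≤ Y := by
          rw [Subgroup.closure_le]
          rintro _ ⟨e, he, f, hf, rfl⟩
          exact hYmem e he f hf
        haveI := (hY.to_le hle).isNilpotent
        infer_instance
    exact component_commute hK (TT.sq hT hd) hsol hn hmem
  apply hQS.not_commutative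
  rw [Subgroup.commutator_eq_bot_iff_le_centralizer]
  intro k hk
  have h1 : k ∈ Subgroup.center G := by
    rw [Subgroup.mem_center_iff]
    exact TTC.eq_of_forall_commute hD (fun e he => main e he k hk)
  rw [Subgroup.mem_centralizer_iff]
  intro x _
  exact (Subgroup.mem_center_iff.mp h1 x)




/-- Let D be a conjugacy class of 3-transpositions generating the finite group G, with at least two members. Then for every prime p > 3 the largest normal p-subgroup of G is central, and exactly one of the following holds: the largest normal 2-subgroup of G is not central; the largest normal 3-subgroup of G is not central; the layer of G (the product of its components) is non-trivial. -/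
theorem result {G : Type*} [Group G] [Finite G] {D : Set G} (hD : Cfsg.IsThreeTranspositionClass D) (hD2 : ∃ a ∈ D, ∃ b ∈ D, a ≠ b) : (∀ p : ℕ, p.Prime → 3 < p → Cfsg.pCore p G ≤ Subgroup.center G) ∧ ((¬ Cfsg.pCore 2 G ≤ Subgroup.center G ∧ Cfsg.pCore 3 G ≤ Subgroup.center G ∧ Cfsg.layer G = ⊥) ∨ (Cfsg.pCore 2 G ≤ Subgroup.center G ∧ ¬ Cfsg.pCore 3 G ≤ Subgroup.center G ∧ Cfsg.layer G = ⊥) ∨ (Cfsg.pCore 2 G ≤ Subgroup.center G ∧ Cfsg.pCore 3 G ≤ Subgroup.center G ∧ Cfsg.layer G ≠ ⊥)) := by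
  have hP : ∀ p : ℕ, p.Prime → 3 < p → Cfsg.pCore p G ≤ Subgroup.center G := by
    intro p hp h3
    haveI : Fact p.Prime := ⟨hp⟩
    apply le_center_of_commute hD
    intro x hx e he
    haveI hn : (Cfsg.pCore p G).Normal := Cfsg.Agent.Lib.Helper27.pCore_normal p
    exact (Cfsg.Agent.S5347.result (toGroup hD) hp h3 (Cfsg.pCore p G) Cfsg.Agent.Lib.Helper27.pCore_isPGroup he
      (by rw [Subgroup.normalizer_eq_top]; exact Subgroup.mem_top _) x hx).symm
  refine ⟨hP, ?_⟩
  obtain ⟨d, hd, -⟩ := id hD2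
  have hlayer : ∀ p : ℕ, (p = 2 ∨ p = 3) → ¬ Cfsg.pCore p G ≤ Subgroup.center G → Cfsg.layer G = ⊥ := by
    intro p hp hR
    unfold Cfsg.layer
    rw [sSup_eq_bot]
    intro K hK
    exact (no_component hD hp hR K hK).elim
  by_cases h2 : Cfsg.pCore 2 G ≤ Subgroup.center G
  · by_cases h3 : Cfsg.pCore 3 G ≤ Subgroup.center G
    · right; right
      refine ⟨h2, h3, ?_⟩
      intro hl
      have hF : Cfsg.generalizedFittingSubgroup G ≤ Subgroup.center G := by
        unfold Cfsg.generalizedFittingSubgroup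
        rw [hl, bot_sup_eq, Cfsg.Agent.Lib.Helper1.fitting_eq_iSup_pCore]
        apply iSup_le
        intro p
        have hp2 := p.2.two_le
        by_cases e2 : (p : ℕ) = 2
        · rw [e2]; exact h2
        by_cases e3 : (p : ℕ) = 3
        · rw [e3]; exact h3
        exact hP p p.2 (by omega)
      have hcen : Subgroup.centralizer (Cfsg.generalizedFittingSubgroup G : Set G) = ⊤ := by
        rw [Subgroup.centralizer_eq_top_iff_subset]
        exact hF
      have h4 := centralizer_generalizedFitting_le (G := G)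
      rw [hcen] at h4
      obtain ⟨e, he, hne⟩ := TTC.exists_not_commute hD hD2 hd
      apply hne
      have h5 : d ∈ Subgroup.center G := hF (h4 (Subgroup.mem_top d))
      exact (Subgroup.mem_center_iff.mp h5 e).symm
    · right; left
      exact ⟨h2, h3, hlayer 3 (Or.inr rfl) h3⟩
  · by_cases h3 : Cfsg.pCore 3 G ≤ Subgroup.center G
    · left
      exact ⟨h2, h3, hlayer 2 (Or.inl rfl) h2⟩
    · exfalso
      haveI hn2 : (Cfsg.pCore 2 G).Normal := Cfsg.Agent.Lib.Helper27.pCore_normal 2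
      haveI hn3 : (Cfsg.pCore 3 G).Normal := Cfsg.Agent.Lib.Helper27.pCore_normal 3
      obtain ⟨u, hu, hne⟩ := exists_moved hD _ h2 hd
      obtain ⟨w, hw, hne'⟩ := exists_moved hD _ h3 hd
      rcases Cfsg.Agent.S5348.result (toGroup hD) hd with h | h
      · rw [(Cfsg.Agent.S5349.result hD hD2 hd).2] at h
        have : u * d * u⁻¹ ∈ ({d} : Set G) := by
          rw [← h]; exact ⟨u, hu, rfl⟩
        exact hne this
      · rw [(Cfsg.Agent.S5350.result hD hD2 hd).2] at h
        have : w * d * w⁻¹ ∈ ({d} : Set G) := by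
          rw [← h]; exact ⟨w, hw, rfl⟩
        exact hne' this

end Cfsg.Agent.S5351
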