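import Mathlib
import Cfsg.Statements.S5352
import Cfsg.Agent.S5351
import Cfsg.Agent.Lib.Helper17.ExpSix1


set_option autoImplicit false
open Cfsg Cfsg.Agent.Lib.Helper27 Cfsg.Agent.Lib.Helper8 Cfsg.Agent.S5351

namespace Cfsg.Agent.S5352


variable {G : Type*} [Group G] {D : Set G}

theorem not_central (hD : Cfsg.IsThreeTranspositionClass D) {K : Subgroup G} (hK : Cfsg.IsComponent K) :
    ¬ (∀ d ∈ D, ∀ k ∈ K, Commute k d) := by
  intro main
  obtain ⟨hsub, hQS⟩ := (isComponent_iff K).mp hK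
  apply hQS.not_commutative
  rw [Subgroup.commutator_eq_bot_iff_le_centralizer]
  intro k hk
  have h1 : k ∈ Subgroup.center G := by
    rw [Subgroup.mem_center_iff]
    exact TTC.eq_of_forall_commute hD (fun e he => main e he k hk)
  rw [Subgroup.mem_centralizer_iff]
  intro x _
  exact (Subgroup.mem_center_iff.mp h1 x)

theorem conj_component_eq [Finite G] (hD : Cfsg.IsThreeTranspositionClass D) {K : Subgroup G}
    (hK : Cfsg.IsComponent K) {d : G} (hd : d ∈ D) : K.map (MulAut.conj d).toMonoidHom = K := by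
  by_contra hne
  have hT := hD.1
  obtain ⟨hsub, hQS⟩ := (isComponent_iff K).mp hK
  have hK' := isComponent_conj hK d
  obtain ⟨hsub', hQS'⟩ := (isComponent_iff _).mp hK'
  have hcomm : ⁅K, K.map (MulAut.conj d).toMonoidHom⁆ = ⊥ :=
    hQS.commutator_eq_bot_of_ne hQS' hsub hsub' (Ne.symm hne)
  have hcen := (Subgroup.commutator_eq_bot_iff_le_centralizer).mp hcomm
  have hel : ∀ k ∈ K, ∀ k' ∈ K, Commute (d * k' * d⁻¹) k := by
    intro k hk k' hk'
    have := Subgroup.mem_centralizer_iff.mp (hcen hk) (d * k' * d⁻¹) ⟨k', hk', rfl⟩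
    exact this
  have key : ∀ k ∈ K, ∀ n : ℕ, (d * (k * d * k⁻¹)) ^ n = 1 → ∀ x ∈ K, Commute (k ^ n) x := by
    intro k hk n hn x hx
    have h1 : d * (k * d * k⁻¹) = (d * k * d⁻¹) * k⁻¹ := by rw [TT.inv hT hd]; group
    have h2 : Commute (d * k * d⁻¹) k⁻¹ := hel k⁻¹ (inv_mem hk) k hk
    rw [h1, h2.mul_pow, inv_pow, mul_inv_eq_one, conj_pow] at hn
    rw [← hn]
    exact hel x hx _ (pow_mem hk n)
  have h6 : ∀ k : K, k ^ 6 ∈ Subgroup.center K := by
    intro k
    rw [Subgroup.mem_center_iff]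
    intro x
    apply Subtype.ext
    have hc : Commute ((k : G) ^ 6) (x : G) := by
      rcases hT.2 d hd _ (TTC.conj_mem hD (k : G) hd) with h | h
      · have := key k k.2 2 h x x.2
        have e : (k : G) ^ 6 = ((k : G) ^ 2) ^ 3 := by rw [← pow_mul]
        rw [e]; exact this.pow_left 3
      · have := key k k.2 3 h x x.2
        have e : (k : G) ^ 6 = ((k : G) ^ 3) ^ 2 := by rw [← pow_mul]
        rw [e]; exact this.pow_left 2
    simpa using hc.eq.symm
  haveI hs1 : Group.IsSolvable (K ⧸ Subgroup.center K) := by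
    apply Cfsg.Agent.Lib.Helper17.exp6_solvable
    intro x
    obtain ⟨k, rfl⟩ := QuotientGroup.mk_surjective x
    rw [← QuotientGroup.mk_pow, QuotientGroup.eq_one_iff]
    exact h6 k
  haveI hs0 : Group.IsSolvable (Subgroup.center K) := Group.isSolvable_of_comm (fun a b => Subtype.ext (Subgroup.mem_center_iff.mp b.2 a.1))
  have hs : Group.IsSolvable K :=
    Group.isSolvable_of_ker_le_range (Subgroup.center K).subtype (QuotientGroup.mk' (Subgroup.center K))
      (by rw [QuotientGroup.ker_mk', Subgroup.range_subtype])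
  exact hQS.not_isSolvable hs

theorem component_normal [Finite G] (hD : Cfsg.IsThreeTranspositionClass D) {K : Subgroup G}
    (hK : Cfsg.IsComponent K) : K.Normal := by
  rw [← Subgroup.normalizer_eq_top_iff, eq_top_iff, ← hD.2.2, Subgroup.closure_le]
  intro d hd
  have h := conj_component_eq hD hK hd
  show d ∈ Subgroup.normalizer (K : Set G)
  rw [Subgroup.mem_normalizer_iff]
  intro x
  constructor
  · intro hx
    rw [← h]
    exact ⟨x, hx, rfl⟩
  · intro hx
    rw [← h] at hx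
    obtain ⟨y, hy, hxy⟩ := hx
    have : y = x := by
      have h1 : d * y * d⁻¹ = d * x * d⁻¹ := hxy
      simpa using h1
    rwa [← this]

theorem not_centralize [Finite G] (hD : Cfsg.IsThreeTranspositionClass D) {K : Subgroup G}
    (hK : Cfsg.IsComponent K) {d : G} (hd : d ∈ D) : ¬ (∀ k ∈ K, Commute k d) := by
  intro h
  have hKn := component_normal hD hK
  apply not_central hD hK
  intro e he k hk
  obtain ⟨g, rfl⟩ := TTC.exists_conj hD hd he
  have h1 := h (g⁻¹ * k * g⁻¹⁻¹) (hKn.conj_mem k hk g⁻¹)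
  have h2 : k = g * (g⁻¹ * k * g⁻¹⁻¹) * g⁻¹ := by group
  rw [h2, commute_conj_iff]
  exact h1

theorem commute_of_cases [Finite G] (hD : Cfsg.IsThreeTranspositionClass D) {K : Subgroup G}
    (hK : Cfsg.IsComponent K) {d : G} (hd : d ∈ D)
    (h : (∀ c ∈ K, Commute d (c * d * c⁻¹)) ∨ (∀ c ∈ K, Commute d (c * d * c⁻¹) → c * d * c⁻¹ = d)) :
    ∀ k ∈ K, Commute k d := by
  have hT := hD.1
  have hCn := component_normal hD hK
  set E : Set G := {x | ∃ c ∈ K, x = c * d * c⁻¹} with hE
  have hED : E ⊆ D := by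
    rintro _ ⟨c, _, rfl⟩
    exact TTC.conj_mem hD c hd
  set S : Set G := {y | ∃ e ∈ E, ∃ f ∈ E, y = e * f} with hS
  have hEconj : ∀ k ∈ K, ∀ e ∈ E, k * e * k⁻¹ ∈ E := by
    rintro k hk _ ⟨c, hc, rfl⟩
    exact ⟨k * c, mul_mem hk hc, by group⟩
  have hSconj : ∀ k ∈ K, ∀ s ∈ S, k * s * k⁻¹ ∈ S := by
    rintro k hk _ ⟨e, he, f, hf, rfl⟩
    exact ⟨_, hEconj k hk e he, _, hEconj k hk f hf, by group⟩
  have hn : K ≤ Subgroup.normalizer (Subgroup.closure S : Set G) := by
    intro k hk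
    exact mem_normalizer_closure S k (hSconj k hk) (hSconj k⁻¹ (inv_mem hk))
  have hdE : d ∈ E := ⟨1, one_mem _, by simp⟩
  have hmem : ∀ k ∈ K, k * d * k⁻¹ * d⁻¹ ∈ Subgroup.closure S := by
    intro k hk
    apply Subgroup.subset_closure
    refine ⟨k * d * k⁻¹, ⟨k, hk, rfl⟩, d, hdE, ?_⟩
    rw [TT.inv hT hd]
  have hsol : Group.IsSolvable (Subgroup.closure S) := by
    rcases h with h | h
    · have hcomm : ∀ e ∈ E, ∀ f ∈ E, Commute e f := by
        rintro _ ⟨c, hc, rfl⟩ _ ⟨c', hc', rfl⟩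
        have h1 : c' * d * c'⁻¹ = c * ((c⁻¹ * c') * d * (c⁻¹ * c')⁻¹) * c⁻¹ := by group
        rw [h1, commute_conj_iff]
        exact h _ (mul_mem (inv_mem hc) hc')
      have hmc : IsMulCommutative (Subgroup.closure S) := by
        apply Subgroup.isMulCommutative_closure
        rintro _ ⟨e, he, f, hf, rfl⟩ _ ⟨e', he', f', hf', rfl⟩
        exact ((hcomm e he e' he').mul_right (hcomm e he f' hf')).mul_left
          ((hcomm f hf e' he').mul_right (hcomm f hf f' hf'))
      exact Group.isSolvable_of_comm (fun a b => hmc.is_comm.comm a b)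
    · have hE1 : ∀ e ∈ E, ∀ f ∈ E, e ≠ f → ¬ Commute e f := by
        rintro _ ⟨c, hc, rfl⟩ _ ⟨c', hc', rfl⟩ hne' hcm
        apply hne'
        have h1 : c' * d * c'⁻¹ = c * ((c⁻¹ * c') * d * (c⁻¹ * c')⁻¹) * c⁻¹ := by group
        rw [h1, commute_conj_iff] at hcm
        have := h _ (mul_mem (inv_mem hc) hc') hcm
        rw [h1, this]
      have hE2 : ∀ e ∈ E, ∀ f ∈ E, f * e * f⁻¹ ∈ E := by
        rintro _ ⟨c, hc, rfl⟩ _ ⟨c', hc', rfl⟩
        refine ⟨c' * (d * (c'⁻¹ * c) * d⁻¹), mul_mem hc' (hCn.conj_mem _ (mul_mem (inv_mem hc') hc) d), ?_⟩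
        group
      obtain ⟨Y, hY, hYmem⟩ := Cfsg.Agent.S5350.exists_three_group hT E hED hE1 hE2
      have hle : Subgroup.closure S ≤ Y := by
        rw [Subgroup.closure_le]
        rintro _ ⟨e, he, f, hf, rfl⟩
        exact hYmem e he f hf
      haveI : Fact (Nat.Prime 3) := ⟨Nat.prime_three⟩
      haveI := (hY.to_le hle).isNilpotent
      infer_instance
  exact component_commute hK (TT.sq hT hd) hsol hn hmem

theorem exists_commuting [Finite G] (hD : Cfsg.IsThreeTranspositionClass D) {K : Subgroup G}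
    (hK : Cfsg.IsComponent K) {d : G} (hd : d ∈ D) :
    ∃ k ∈ K, k * d * k⁻¹ ≠ d ∧ Commute d (k * d * k⁻¹) := by
  by_contra hcon
  push Not at hcon
  apply not_centralize hD hK hd
  apply commute_of_cases hD hK hd
  right
  intro c hc hcm
  by_contra hne
  exact hcon c hc hne hcm

theorem exists_noncommuting [Finite G] (hD : Cfsg.IsThreeTranspositionClass D) {K : Subgroup G}
    (hK : Cfsg.IsComponent K) {d : G} (hd : d ∈ D) :
    ∃ k ∈ K, ¬ Commute d (k * d * k⁻¹) := by
  by_contra hcon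
  push Not at hcon
  apply not_centralize hD hK hd
  apply commute_of_cases hD hK hd
  left
  exact hcon

theorem component_unique [Finite G] (hD : Cfsg.IsThreeTranspositionClass D) {K₁ K₂ : Subgroup G}
    (hK₁ : Cfsg.IsComponent K₁) (hK₂ : Cfsg.IsComponent K₂) {d : G} (hd : d ∈ D) : K₁ = K₂ := by
  by_contra hne
  have hT := hD.1
  have hdd := TT.sq hT hd
  obtain ⟨hsub₁, hQS₁⟩ := (isComponent_iff K₁).mp hK₁
  obtain ⟨hsub₂, hQS₂⟩ := (isComponent_iff K₂).mp hK₂
  have hn₁ := component_normal hD hK₁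
  have hn₂ := component_normal hD hK₂
  have hcomm : ⁅K₁, K₂⁆ = ⊥ := hQS₁.commutator_eq_bot_of_ne hQS₂ hsub₁ hsub₂ hne
  have hcen := (Subgroup.commutator_eq_bot_iff_le_centralizer).mp hcomm
  obtain ⟨k₁, hk₁, hne₁, hc₁⟩ := exists_commuting hD hK₁ hd
  obtain ⟨k₂, hk₂, hc₂⟩ := exists_noncommuting hD hK₂ hd
  set a := k₁ * d * k₁⁻¹ with ha
  set b := k₂ * d * k₂⁻¹ with hb
  have haD : a ∈ D := TTC.conj_mem hD k₁ hd
  have hbD : b ∈ D := TTC.conj_mem hD k₂ hd
  set x₁ := a * d with hx₁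
  set x₂ := b * d with hx₂
  have hx₁K : x₁ ∈ K₁ := by
    have : x₁ = k₁ * (d * k₁⁻¹ * d⁻¹) := by rw [hx₁, ha, TT.inv hT hd]; group
    rw [this]
    exact mul_mem hk₁ (hn₁.conj_mem _ (inv_mem hk₁) d)
  have hx₂K : x₂ ∈ K₂ := by
    have : x₂ = k₂ * (d * k₂⁻¹ * d⁻¹) := by rw [hx₂, hb, TT.inv hT hd]; group
    rw [this]
    exact mul_mem hk₂ (hn₂.conj_mem _ (inv_mem hk₂) d)
  have hx₁2 : x₁ ^ 2 = 1 := sq_of_commute (TT.sq hT haD) hdd hc₁.symm
  have hx₁1 : x₁ ≠ 1 := by
    intro h
    apply hne₁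
    calc a = (a * d) * d := by rw [mul_assoc, hdd, mul_one]
      _ = d := by rw [← hx₁, h, one_mul]
  have hx₂3 : x₂ ^ 3 = 1 := by
    rcases TT.commute_or_cube hT hbD hd with h | h
    · exact absurd h.symm hc₂
    · exact h
  have hx₂1 : x₂ ≠ 1 := by
    intro h
    apply hc₂
    have : b = d := by
      calc b = (b * d) * d := by rw [mul_assoc, hdd, mul_one]
        _ = d := by rw [← hx₂, h, one_mul]
    rw [this]
  have hab : a * b = x₁ * x₂⁻¹ := by
    rw [hx₁, hx₂, mul_inv_rev, TT.inv hT hd, TT.inv hT hbD, mul_assoc a, ← mul_assoc d, hdd, one_mul]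
  have hcx : Commute x₁ x₂⁻¹ := by
    have := Subgroup.mem_centralizer_iff.mp (hcen hx₁K) x₂ hx₂K
    exact (Commute.inv_right (show Commute x₁ x₂ from this.symm))
  rcases hT.2 a haD b hbD with h | h
  · rw [hab, hcx.mul_pow, hx₁2, one_mul, inv_pow, inv_eq_one] at h
    exact hx₂1 (eq_one_of_pow_coprime h hx₂3 (by decide))
  · rw [hab, hcx.mul_pow, inv_pow, hx₂3, inv_one, mul_one] at h
    exact hx₁1 (eq_one_of_pow_coprime hx₁2 h (by decide))




/-- Let D be a conjugacy class of 3-transpositions generating the finite group G, with at least two members, and suppose the largest normal 2-subgroup and the largest normal 3-subgroup of G are both central. Then G has a quasisimple normal subgroup L such that the generalized Fitting subgroup of G is the product of L and the centre; and either L = G or the image of D in G/L has width 1, in the sense that two members of D whose commutator lies in L have the same image modulo L. -/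
theorem result {G : Type*} [Group G] [Finite G] {D : Set G} (hD : Cfsg.IsThreeTranspositionClass D) (hD2 : ∃ a ∈ D, ∃ b ∈ D, a ≠ b) (h2 : Cfsg.pCore 2 G ≤ Subgroup.center G) (h3 : Cfsg.pCore 3 G ≤ Subgroup.center G) : ∃ L : Subgroup G, L.Normal ∧ Cfsg.IsQuasisimple L ∧ Cfsg.generalizedFittingSubgroup G = L ⊔ Subgroup.center G ∧ (L = ⊤ ∨ ∀ a ∈ D, ∀ b ∈ D, a * b * a⁻¹ * b⁻¹ ∈ L → a⁻¹ * b ∈ L) := by
  have hT := hD.1
  obtain ⟨hP, htri⟩ := Cfsg.Agent.S5351.result hD hD2
  have hl : Cfsg.layer G ≠ ⊥ := by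
    rcases htri with h | h | h
    · exact absurd h2 h.1
    · exact absurd h3 h.2.1
    · exact h.2.2
  obtain ⟨d, hd, -⟩ := id hD2
  have hex : ∃ K : Subgroup G, Cfsg.IsComponent K := by
    by_contra hcon
    push Not at hcon
    apply hl
    unfold Cfsg.layer
    rw [sSup_eq_bot]
    intro K hK
    exact (hcon K hK).elim
  obtain ⟨K, hK⟩ := hex
  obtain ⟨hsub, hQS⟩ := (isComponent_iff K).mp hK
  have hKn := component_normal hD hK
  have hlayer : Cfsg.layer G = K := by
    apply le_antisymm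
    · apply sSup_le
      intro K' hK'
      exact (component_unique hD hK' hK hd).le
    · exact le_sSup hK
  have hF : Cfsg.fittingSubgroup G = Subgroup.center G := by
    apply le_antisymm
    · rw [Cfsg.Agent.Lib.Helper1.fitting_eq_iSup_pCore]
      apply iSup_le
      intro p
      have hp2 := p.2.two_le
      by_cases e2 : (p : ℕ) = 2
      · rw [e2]; exact h2
      by_cases e3 : (p : ℕ) = 3
      · rw [e3]; exact h3
      exact hP p p.2 (by omega)
    · apply le_sSup
      refine ⟨inferInstance, ?_⟩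
      use 1
      exact Subgroup.upperCentralSeries_one_eq_top_iff.mpr inferInstance
  refine ⟨K, hKn, hK.2, ?_, Or.inr ?_⟩
  · unfold Cfsg.generalizedFittingSubgroup
    rw [hlayer, hF]
  intro a ha b hb hab
  have haa := TT.sq hT ha
  have hbb := TT.sq hT hb
  rw [TT.inv hT ha]
  rw [TT.inv hT ha, TT.inv hT hb] at hab
  by_cases hc : Commute a b
  swap
  · have h3' : (a * b) ^ 3 = 1 := by
      rcases TT.commute_or_cube hT ha hb with h | h
      · exact absurd h hc
      · exact h
    have h4 : a * b = (a * b * a * b)⁻¹ := by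
      rw [eq_inv_iff_mul_eq_one, ← h3', pow_succ, pow_two]; group
    rw [h4]
    exact inv_mem hab
  -- commuting case
  have hex : ∃ k ∈ K, ¬ Commute b (k * a * k⁻¹) := by
    by_contra hcon
    push Not at hcon
    set E : Set G := {x | ∃ c ∈ K, x = c * a * c⁻¹} with hE
    set S : Set G := {y | ∃ e ∈ E, ∃ f ∈ E, y = e * f} with hS
    have hEconj : ∀ k ∈ K, ∀ e ∈ E, k * e * k⁻¹ ∈ E := by
      rintro k hk _ ⟨c, hc, rfl⟩
      exact ⟨k * c, mul_mem hk hc, by group⟩
    have hSconj : ∀ k ∈ K, ∀ s ∈ S, k * s * k⁻¹ ∈ S := by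
      rintro k hk _ ⟨e, he, f, hf, rfl⟩
      exact ⟨_, hEconj k hk e he, _, hEconj k hk f hf, by group⟩
    have hn : K ≤ Subgroup.normalizer (Subgroup.closure S : Set G) := by
      intro k hk
      exact mem_normalizer_closure S k (hSconj k hk) (hSconj k⁻¹ (inv_mem hk))
    have haE : a ∈ E := ⟨1, one_mem _, by simp⟩
    have hmem : ∀ k ∈ K, k * a * k⁻¹ * a⁻¹ ∈ Subgroup.closure S := by
      intro k hk
      apply Subgroup.subset_closure
      refine ⟨k * a * k⁻¹, ⟨k, hk, rfl⟩, a, haE, ?_⟩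
      rw [TT.inv hT ha]
    have hSK : Subgroup.closure S ≤ K := by
      rw [Subgroup.closure_le]
      rintro _ ⟨_, ⟨c, hc, rfl⟩, _, ⟨c', hc', rfl⟩, rfl⟩
      have : c * a * c⁻¹ * (c' * a * c'⁻¹) = c * (a * (c⁻¹ * c') * a⁻¹) * c'⁻¹ := by
        rw [TT.inv hT ha]; group
      rw [this]
      exact mul_mem (mul_mem hc (hKn.conj_mem _ (mul_mem (inv_mem hc) hc') a)) (inv_mem hc')
    have hbS : Subgroup.closure S ≤ Subgroup.centralizer {b} := by
      rw [Subgroup.closure_le]
      rintro _ ⟨_, ⟨c, hc, rfl⟩, _, ⟨c', hc', rfl⟩, rfl⟩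
      exact Subgroup.mem_centralizer_singleton_iff.mpr ((hcon c hc).mul_right (hcon c' hc')).symm.eq
    rcases hQS.2.2 _ hSK hn with h | h
    · apply not_centralize hD hK hb
      intro k hk
      rw [← h] at hk
      exact (Subgroup.mem_centralizer_singleton_iff.mp (hbS hk))
    · apply not_centralize hD hK ha
      have hsol : Group.IsSolvable (Subgroup.closure S) := by
        apply Group.isSolvable_of_comm
        intro x y
        apply Subtype.ext
        have h5 := (Subgroup.commutator_eq_bot_iff_le_centralizer).mp h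
        exact (Subgroup.mem_centralizer_iff.mp (h5 x.2) y (hSK y.2)).symm
      exact component_commute hK haa hsol hn hmem
  obtain ⟨k, hk, hnc⟩ := hex
  have hcD : k * a * k⁻¹ ∈ D := TTC.conj_mem hD k ha
  have h3' : (b * (k * a * k⁻¹)) ^ 3 = 1 := by
    rcases TT.commute_or_cube hT hb hcD with h | h
    · exact absurd h hnc
    · exact h
  have h2' : (b * a) ^ 2 = 1 := sq_of_commute hbb haa hc.symm
  have hφ : QuotientGroup.mk' K (b * (k * a * k⁻¹)) = QuotientGroup.mk' K (b * a) := by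
    have hk1 : QuotientGroup.mk' K k = 1 := by
      rw [← MonoidHom.mem_ker, QuotientGroup.ker_mk']; exact hk
    simp only [map_mul, map_inv, hk1, one_mul, inv_one, mul_one]
  have h6 : QuotientGroup.mk' K (b * a) = 1 := by
    apply eq_one_of_pow_coprime (m := 2) (n := 3)
    · rw [← map_pow, h2', map_one]
    · rw [← hφ, ← map_pow, h3', map_one]
    · decide
  rw [← MonoidHom.mem_ker, QuotientGroup.ker_mk'] at h6
  rw [hc.eq]
  exact h6

end Cfsg.Agent.S5352
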