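import Mathlib
import Cfsg.Statements.S1282
import Cfsg.Agent.Lib.Helper8.CharIn
import Cfsg.Agent.Lib.Helper9.Generation

set_option autoImplicit false
open Cfsg
open Cfsg.Agent.Lib.Helper8

namespace Cfsg.Agent.S1282

/-- Let A be an elementary abelian p-subgroup of rank at least 3 of the finite group G, q ≠ p a prime, and Q₁, Q₂ q-subgroups normalized by A with D = Q₁ ∩ Q₂ different from both. Then there is a non-identity a ∈ A such that, for i = 1 and i = 2, N_{Q_i}(D) ∩ C_G(a) is not contained in D. -/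
theorem result {G : Type*} [Group G] [Finite G] (p : ℕ) [Fact p.Prime] (A : Subgroup G) (hA : Cfsg.IsElementaryAbelian p A) (hA3 : p ^ 3 ≤ Nat.card ↥A) (q : ℕ) [Fact q.Prime] (hqp : q ≠ p) (Q₁ Q₂ : Subgroup G) (h₁ : IsPGroup q ↥Q₁) (h₂ : IsPGroup q ↥Q₂) (hA₁ : A ≤ Subgroup.normalizer (Q₁ : Set G)) (hA₂ : A ≤ Subgroup.normalizer (Q₂ : Set G)) (hD₁ : Q₁ ⊓ Q₂ ≠ Q₁) (hD₂ : Q₁ ⊓ Q₂ ≠ Q₂) : ∃ a ∈ A, a ≠ 1 ∧ ¬ (Subgroup.normalizer ((Q₁ ⊓ Q₂ : Subgroup G) : Set G) ⊓ Q₁ ⊓ Subgroup.centralizer {a} ≤ Q₁ ⊓ Q₂) ∧ ¬ (Subgroup.normalizer ((Q₁ ⊓ Q₂ : Subgroup G) : Set G) ⊓ Q₂ ⊓ Subgroup.centralizer {a} ≤ Q₁ ⊓ Q₂) := by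
  have hp : p.Prime := Fact.out
  obtain ⟨D, hD⟩ : ∃ D, D = Q₁ ⊓ Q₂ := ⟨_, rfl⟩
  rw [← hD] at hD₁ hD₂ ⊢
  have hAD : A ≤ Subgroup.normalizer (D : Set G) := hD ▸ le_normalizer_inf hA₁ hA₂
  have hAND : A ≤ Subgroup.normalizer ((Subgroup.normalizer (D : Set G) : Subgroup G) : Set G) :=
    hAD.trans Subgroup.le_normalizer
  have key : ∀ Q : Subgroup G, IsPGroup q Q → A ≤ Subgroup.normalizer (Q : Set G) → D ≤ Q → D ≠ Q →
      ∃ B : Subgroup G, B ≤ A ∧ B.relIndex A = p ∧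
        ¬ (Subgroup.normalizer (D : Set G) ⊓ Q ⊓ Subgroup.centralizer (B : Set G) ≤ D) := by
    intro Q hQ hAQ hDQ hne
    have hlt := exists_lt_le_normalizer hQ (lt_of_le_of_ne hDQ hne)
    rw [inf_comm] at hlt
    have hN : IsPGroup q (Subgroup.normalizer (D : Set G) ⊓ Q : Subgroup G) := hQ.to_le inf_le_right
    have hNp : ¬ p ∣ Nat.card (Subgroup.normalizer (D : Set G) ⊓ Q : Subgroup G) := by
      obtain ⟨n, hn⟩ := IsPGroup.iff_card.mp hN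
      rw [hn]
      intro h
      exact hqp ((Nat.prime_dvd_prime_iff_eq hp Fact.out).mp (hp.dvd_of_dvd_pow h)).symm
    have hgen := Cfsg.Agent.Lib.Helper9.gen_hyperplanes p A _ hA
      (le_trans (Nat.le_self_pow (by norm_num) p) hA3) hNp (le_normalizer_inf hAND hAQ)
    by_contra hcon
    push Not at hcon
    apply hlt.not_ge
    rw [hgen]
    apply iSup_le
    rintro ⟨B, hB1, hB2⟩
    exact hcon B hB1 hB2
  obtain ⟨B₁, hB₁A, hB₁i, hB₁⟩ := key Q₁ h₁ hA₁ (hD ▸ inf_le_left) hD₁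
  obtain ⟨B₂, hB₂A, hB₂i, hB₂⟩ := key Q₂ h₂ hA₂ (hD ▸ inf_le_right) hD₂
  have hidx : (B₁ ⊓ B₂).relIndex A ≤ p * p := by
    have := Subgroup.relIndex_inf_le (H := B₁) (K := B₂) (L := A)
    rwa [hB₁i, hB₂i] at this
  have hcard : Nat.card (B₁ ⊓ B₂ : Subgroup G) * (B₁ ⊓ B₂).relIndex A = Nat.card A := by
    have := Subgroup.relIndex_mul_relIndex ⊥ (B₁ ⊓ B₂) A bot_le (inf_le_left.trans hB₁A)
    rwa [Subgroup.relIndex_bot_left, Subgroup.relIndex_bot_left] at this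
  have hne : (B₁ ⊓ B₂ : Subgroup G) ≠ ⊥ := by
    intro h
    rw [h, Subgroup.card_bot, one_mul] at hcard
    rw [h] at hidx
    rw [← hcard] at hA3
    have : p ^ 3 ≤ p * p := hA3.trans hidx
    have h2 : p * p < p ^ 3 := by
      have := hp.two_le
      calc p * p = p * p * 1 := by ring
        _ < p * p * p := by
          apply Nat.mul_lt_mul_of_pos_left (by omega) (by positivity)
        _ = p ^ 3 := by ring
    omega
  obtain ⟨⟨a, haB⟩, ha1⟩ := Subgroup.ne_bot_iff_exists_ne_one.mp hne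
  have ha1' : a ≠ 1 := fun h => ha1 (Subtype.ext h)
  obtain ⟨haB₁, haB₂⟩ := Subgroup.mem_inf.mp haB
  refine ⟨a, hB₁A haB₁, ha1', ?_, ?_⟩
  · intro h
    apply hB₁
    refine le_trans (inf_le_inf_left _ (Subgroup.centralizer_le ?_)) h
    simpa using haB₁
  · intro h
    apply hB₂
    refine le_trans (inf_le_inf_left _ (Subgroup.centralizer_le ?_)) h
    simpa using haB₂

end Cfsg.Agent.S1282
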