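import Cfsg.Statements.S1782
import Mathlib
import Cfsg.Agent.Lib.Helper16.SPE
import Cfsg.Agent.Lib.Helper16.Frat

set_option autoImplicit false
open Cfsg Subgroup

namespace Cfsg.Agent.S1782


abbrev cj {S : Type*} [Group S] (s : S) (R : Subgroup S) : Subgroup S :=
  R.map (MulAut.conj s).toMonoidHom

theorem mem_cj {S : Type*} [Group S] {s x : S} {R : Subgroup S} :
    x ∈ cj s R ↔ s⁻¹ * x * s ∈ R := by
  constructor
  · rintro ⟨r, hr, rfl⟩
    simpa [mul_assoc] using hr
  · intro h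
    exact ⟨s⁻¹ * x * s, h, by simp [mul_assoc]⟩

theorem conj_mem_cj {S : Type*} [Group S] {s r : S} {R : Subgroup S} (hr : r ∈ R) :
    s * r * s⁻¹ ∈ cj s R := ⟨r, hr, by simp⟩

theorem card_cj {S : Type*} [Group S] (s : S) (R : Subgroup S) :
    Nat.card (cj s R) = Nat.card R :=
  Subgroup.card_map_of_injective (MulAut.conj s).injective

theorem cj_mul {S : Type*} [Group S] (s t : S) (R : Subgroup S) :
    cj (s * t) R = cj s (cj t R) := by
  ext x
  simp only [mem_cj]
  have : (s * t)⁻¹ * x * (s * t) = t⁻¹ * (s⁻¹ * x * s) * t := by group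
  rw [this]

theorem card_lt_of_lt' {S : Type*} [Group S] [Finite S] {M H : Subgroup S} (h : M < H) :
    Nat.card M < Nat.card H := by
  by_contra hc
  push Not at hc
  exact h.ne (Subgroup.eq_of_le_of_card_ge h.le hc)

theorem exists_fixed {S : Type*} [Group S] [Finite S] {p : ℕ} [Fact p.Prime] (hS : IsPGroup p S)
    (P Z : Subgroup S) (hPZ : ∀ x ∈ P, ∀ z ∈ Z, x * z * x⁻¹ ∈ Z) (hZ : Z ≠ ⊥) :
    ∃ z ∈ Z, z ≠ 1 ∧ ∀ x ∈ P, x * z * x⁻¹ = z := by
  classical
  letI : MulAction P Z :=
    { smul := fun x z => ⟨x * z * (x : S)⁻¹, hPZ x x.2 z z.2⟩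
      one_smul := by
        intro z
        apply Subtype.ext
        show ((1 : P) : S) * z * ((1 : P) : S)⁻¹ = z
        simp
      mul_smul := by
        intro x y z
        apply Subtype.ext
        show ((x * y : P) : S) * z * ((x * y : P) : S)⁻¹ = x * (y * z * (y : S)⁻¹) * (x : S)⁻¹
        simp [mul_assoc] }
  have hnt : Nontrivial Z := (Subgroup.nontrivial_iff_ne_bot Z).mpr hZ
  have hdvd : p ∣ Nat.card Z := by
    obtain ⟨n, hn⟩ := IsPGroup.iff_card.mp (hS.to_subgroup Z)
    have hn0 : n ≠ 0 := by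
      rintro rfl
      have := Finite.one_lt_card (α := Z)
      rw [pow_zero] at hn
      omega
    rw [hn]
    exact dvd_pow_self p hn0
  have h1 : (1 : Z) ∈ MulAction.fixedPoints P Z := by
    intro x
    apply Subtype.ext
    show (x : S) * ((1 : Z) : S) * (x : S)⁻¹ = ((1 : Z) : S)
    simp
  obtain ⟨b, hb, hne⟩ := (hS.to_subgroup P).exists_fixed_point_of_prime_dvd_card_of_fixed_point Z hdvd h1
  refine ⟨b, b.2, ?_, ?_⟩
  · intro h
    exact hne (Subtype.ext h.symm)
  · intro x hx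
    exact congrArg Subtype.val (hb ⟨x, hx⟩)

theorem main_aux {S : Type*} [Group S] [Finite S] (hS : IsPGroup 2 S)
    (Δ : Set (Subgroup S)) (hinv : ∀ s : S, ∀ R ∈ Δ, cj s R ∈ Δ)
    (hsq : ∀ R ∈ Δ, ∃ b ∈ R, b ^ 2 ≠ 1) (hord : ∀ R ∈ Δ, ∀ T ∈ Δ, Nat.card ↥R = Nat.card ↥T)
    (hti : ∀ R ∈ Δ, ∀ T ∈ Δ, R = T ∨ R ⊓ T = ⊥) :
    ∀ n : ℕ, ∀ H : Subgroup S, Nat.card H ≤ n → ∀ A ∈ Δ, ∀ B ∈ Δ, A ≤ H → B ≤ H → A ≠ B →
      ∀ a ∈ A, ∀ b ∈ B, a * b = b * a := by
  haveI : Fact (Nat.Prime 2) := ⟨Nat.prime_two⟩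
  have tic : ∀ R ∈ Δ, ∀ s r : S, r ∈ R → r ≠ 1 → s * r = r * s → cj s R = R := by
    intro R hR s r hr hr1 hsr
    rcases hti _ (hinv s R hR) R hR with h | h
    · exact h
    · exfalso
      have h2 : s⁻¹ * r * s = r := by rw [mul_assoc, ← hsr]; group
      have : r ∈ cj s R ⊓ R := Subgroup.mem_inf.mpr ⟨mem_cj.mpr (by rw [h2]; exact hr), hr⟩
      rw [h, Subgroup.mem_bot] at this
      exact hr1 this
  have hbot : ∀ R ∈ Δ, R ≠ ⊥ := by
    rintro R hR rfl
    obtain ⟨b, hb, hb2⟩ := hsq _ hR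
    rw [Subgroup.mem_bot] at hb
    apply hb2; rw [hb]; simp
  intro n
  induction n with
  | zero =>
    intro H hH
    have : 0 < Nat.card H := Nat.card_pos
    omega
  | succ n ih =>
    intro H hH
    have h0 : ∀ X ∈ Δ, X ≤ H → X ≠ H → ∀ h ∈ H,
        cj h X = X ∨ ∀ x ∈ X, ∀ y ∈ cj h X, x * y = y * x := by
      intro X hX hXH hne h hh
      have hfin : {M : Subgroup S | X ≤ M ∧ M < H}.Finite := Set.toFinite _
      obtain ⟨M, hM⟩ := hfin.exists_maximal ⟨X, le_refl X, lt_of_le_of_ne hXH hne⟩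
      obtain ⟨x, hxH, hxM, hxN⟩ :=
        Cfsg.Agent.Lib.Helper16.exists_mem_normalizer_of_lt (hS.to_subgroup H) hM.1.2
      have hN : normalizer (M : Set S) ⊓ H = H := by
        by_contra hne2
        have hlt : normalizer (M : Set S) ⊓ H < H := lt_of_le_of_ne inf_le_right hne2
        have hle : M ≤ normalizer (M : Set S) ⊓ H := le_inf le_normalizer hM.1.2.le
        have := hM.2 (show normalizer (M : Set S) ⊓ H ∈ {M : Subgroup S | X ≤ M ∧ M < H} from
          ⟨hM.1.1.trans hle, hlt⟩) hle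
        exact hxM (this (Subgroup.mem_inf.mpr ⟨hxN, hxH⟩))
      by_cases heq : cj h X = X
      · left; exact heq
      · right
        have hcard : Nat.card M ≤ n := by
          have := card_lt_of_lt' hM.1.2
          omega
        have hhN : h ∈ normalizer (M : Set S) := by
          have : h ∈ normalizer (M : Set S) ⊓ H := by rw [hN]; exact hh
          exact this.1
        have hle : cj h X ≤ M := by
          rintro _ ⟨x, hx, rfl⟩
          have := (Subgroup.mem_normalizer_iff.mp hhN x).mp (hM.1.1 hx)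
          simpa using this
        exact ih M hcard X hX (cj h X) (hinv h X hX) hM.1.1 hle (Ne.symm heq)
    have hneH : ∀ A ∈ Δ, ∀ B ∈ Δ, A ≤ H → B ≤ H → A ≠ B → B ≠ H := by
      rintro A hA B hB hAH hBH hAB rfl
      exact hAB (Subgroup.eq_of_le_of_card_ge hAH (hord _ hB _ hA).le)
    have L1 : ∀ A ∈ Δ, ∀ B ∈ Δ, A ≤ H → B ≤ H → A ≠ B → (∀ b ∈ B, cj b A = A) →
        ∀ a ∈ A, cj a B = B := by
      intro A hA B hB hAH hBH hAB hBA a ha
      by_contra hne
      have hcomm := (h0 B hB hBH (hneH A hA B hB hAH hBH hAB) a (hAH ha)).resolve_left hne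
      have hBA' : ∀ b ∈ B, ∀ x ∈ A, b * x * b⁻¹ ∈ A := by
        intro b hb x hx
        have := conj_mem_cj (s := b) hx
        rwa [hBA b hb] at this
      have hint : cj a B ⊓ B = ⊥ := (hti _ (hinv a B hB) B hB).resolve_left hne
      let φ : B → A := fun b => ⟨(b : S)⁻¹ * (a * b * a⁻¹), by
        have h1 := hBA' (b : S)⁻¹ (inv_mem b.2) a ha
        rw [inv_inv] at h1
        have h2 := mul_mem h1 (inv_mem ha)
        have h3 : (b : S)⁻¹ * a * b * a⁻¹ = (b : S)⁻¹ * (a * b * a⁻¹) := by group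
        rwa [h3] at h2⟩
      have hφ : Function.Injective φ := by
        intro b c hbc
        have h1 : (b : S)⁻¹ * (a * b * a⁻¹) = (c : S)⁻¹ * (a * c * a⁻¹) := congrArg Subtype.val hbc
        have h2 : (c : S) * (b : S)⁻¹ = a * ((c : S) * (b : S)⁻¹) * a⁻¹ := by
          calc (c : S) * (b : S)⁻¹ = c * ((b : S)⁻¹ * (a * b * a⁻¹)) * (a * b * a⁻¹)⁻¹ := by group
            _ = c * ((c : S)⁻¹ * (a * c * a⁻¹)) * (a * b * a⁻¹)⁻¹ := by rw [h1]
            _ = _ := by group
        have h3 : (c : S) * (b : S)⁻¹ ∈ cj a B ⊓ B := by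
          refine Subgroup.mem_inf.mpr ⟨?_, mul_mem c.2 (inv_mem b.2)⟩
          rw [h2]
          exact conj_mem_cj (mul_mem c.2 (inv_mem b.2))
        rw [hint, Subgroup.mem_bot] at h3
        apply Subtype.ext
        exact (mul_inv_eq_one.mp h3).symm
      have hbij := hφ.bijective_of_nat_card_le (hord _ hA _ hB).le
      obtain ⟨b, hb⟩ := hbij.2 ⟨a, ha⟩
      obtain ⟨c, hc⟩ : ∃ c, c = a * (b : S) * a⁻¹ := ⟨_, rfl⟩
      have hcB : c ∈ cj a B := by rw [hc]; exact conj_mem_cj b.2
      have key : (b : S)⁻¹ * c = a := by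
        rw [hc]; exact congrArg Subtype.val hb
      apply hne
      apply Subgroup.eq_of_le_of_card_ge _ (card_cj a B).ge
      rintro _ ⟨w, hw, rfl⟩
      have hcw : w * c = c * w := hcomm w hw c hcB
      have : (MulAut.conj a).toMonoidHom w = (b : S)⁻¹ * w * b := by
        calc (MulAut.conj a).toMonoidHom w = a * w * a⁻¹ := by simp
          _ = ((b : S)⁻¹ * c) * w * ((b : S)⁻¹ * c)⁻¹ := by rw [key]
          _ = (b : S)⁻¹ * (c * w) * c⁻¹ * b := by group
          _ = (b : S)⁻¹ * (w * c) * c⁻¹ * b := by rw [hcw]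
          _ = _ := by group
      rw [this]
      exact mul_mem (mul_mem (inv_mem b.2) hw) b.2
    have L2 : ∀ A ∈ Δ, ∀ B ∈ Δ, A ≤ H → B ≤ H → A ≠ B → (∃ a0 ∈ A, a0 ≠ 1 ∧ cj a0 B = B) →
        ∀ a ∈ A, cj a B = B := by
      rintro A hA B hB hAH hBH hAB ⟨a0, ha0, ha01, ha0B⟩ a ha
      by_contra hne
      have hcomm := (h0 B hB hBH (hneH A hA B hB hAH hBH hAB) a (hAH ha)).resolve_left hne
      have hint : cj a B ⊓ B = ⊥ := (hti _ (hinv a B hB) B hB).resolve_left hne
      have hPn : B ⊔ zpowers a0 ≤ normalizer (B : Set S) := by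
        refine sup_le le_normalizer ?_
        rw [Subgroup.zpowers_le, Subgroup.mem_normalizer_iff]
        intro h
        constructor
        · intro hh
          have := conj_mem_cj (s := a0) hh
          rwa [ha0B] at this
        · intro hh
          rw [← ha0B, mem_cj] at hh
          have h2 : a0⁻¹ * (a0 * h * a0⁻¹) * a0 = h := by group
          rwa [h2] at hh
      obtain ⟨z, hzB, hz1, hzfix⟩ := exists_fixed hS (B ⊔ zpowers a0) B (by
        intro x hx z hz
        exact (Subgroup.mem_normalizer_iff.mp (hPn hx) z).mp hz) (hbot B hB)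
      have hz_a0 : z * a0 = a0 * z := by
        have := hzfix a0 (Subgroup.mem_sup_right (mem_zpowers a0))
        calc z * a0 = (a0 * z * a0⁻¹) * a0 := by rw [this]
          _ = _ := by group
      have hzA : cj z⁻¹ A = A := by
        apply tic A hA z⁻¹ a0 ha0 ha01
        calc z⁻¹ * a0 = z⁻¹ * (a0 * z) * z⁻¹ := by group
          _ = z⁻¹ * (z * a0) * z⁻¹ := by rw [hz_a0]
          _ = _ := by group
      obtain ⟨c, hc⟩ : ∃ c, c = a * z * a⁻¹ := ⟨_, rfl⟩
      have hcB : c ∈ cj a B := by rw [hc]; exact conj_mem_cj hzB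
      have ha1A : z⁻¹ * c ∈ A := by
        have h1 := conj_mem_cj (s := z⁻¹) ha
        rw [hzA, inv_inv] at h1
        have h2 := mul_mem h1 (inv_mem ha)
        have h3 : z⁻¹ * a * z * a⁻¹ = z⁻¹ * c := by rw [hc]; group
        rwa [h3] at h2
      have ha11 : z⁻¹ * c ≠ 1 := by
        intro h
        have h1 : c = z := by
          have := inv_mul_eq_one.mp h
          exact this.symm
        have h2 : z ∈ cj a B ⊓ B := Subgroup.mem_inf.mpr ⟨h1 ▸ hcB, hzB⟩
        rw [hint, Subgroup.mem_bot] at h2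
        exact hz1 h2
      have hBA : ∀ y ∈ B, cj y A = A := by
        intro y hy
        apply tic A hA y _ ha1A ha11
        have h1 : y * c = c * y := hcomm y hy c hcB
        have h2 : y * z = z * y := by
          have := hzfix y (Subgroup.mem_sup_left hy)
          calc y * z = (y * z * y⁻¹) * y := by group
            _ = _ := by rw [this]
        calc y * (z⁻¹ * c) = z⁻¹ * (z * y) * z⁻¹ * c := by group
          _ = z⁻¹ * (y * z) * z⁻¹ * c := by rw [h2]
          _ = z⁻¹ * (y * c) := by group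
          _ = z⁻¹ * (c * y) := by rw [h1]
          _ = _ := by group
      exact hne (L1 A hA B hB hAH hBH hAB hBA a ha)
    have L3 : ∀ A ∈ Δ, ∀ B ∈ Δ, A ≤ H → B ≤ H → A ≠ B → (∀ a ∈ A, cj a B = B) →
        ∀ a ∈ A, ∀ b ∈ B, a * b = b * a := by
      intro A hA B hB hAH hBH hAB hAB' a ha b hb
      have hBA' := L1 B hB A hA hBH hAH (Ne.symm hAB) hAB'
      have hint : A ⊓ B = ⊥ := (hti A hA B hB).resolve_left hAB
      have h1 : a * b * a⁻¹ * b⁻¹ ∈ A ⊓ B := by
        refine Subgroup.mem_inf.mpr ⟨?_, ?_⟩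
        · have := conj_mem_cj (s := b) (inv_mem ha)
          rw [hBA' b hb] at this
          have h2 := mul_mem ha this
          have h3 : a * (b * a⁻¹ * b⁻¹) = a * b * a⁻¹ * b⁻¹ := by group
          rwa [h3] at h2
        · have := conj_mem_cj (s := a) hb
          rw [hAB' a ha] at this
          exact mul_mem this (inv_mem hb)
      rw [hint, Subgroup.mem_bot] at h1
      calc a * b = (a * b * a⁻¹ * b⁻¹) * (b * a) := by group
        _ = _ := by rw [h1, one_mul]
    intro A hA B hB hAH hBH hAB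
    -- an involution of A
    obtain ⟨a, haA, ha2⟩ : ∃ a ∈ A, orderOf a = 2 := by
      have hnt : Nontrivial A := (Subgroup.nontrivial_iff_ne_bot A).mpr (hbot A hA)
      have hdvd : 2 ∣ Nat.card A := by
        obtain ⟨k, hk⟩ := IsPGroup.iff_card.mp (hS.to_subgroup A)
        have hk0 : k ≠ 0 := by
          rintro rfl
          have := Finite.one_lt_card (α := A)
          omega
        rw [hk]
        exact dvd_pow_self 2 hk0
      obtain ⟨x, hx⟩ := exists_prime_orderOf_dvd_card' 2 hdvd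
      exact ⟨x, x.2, by rw [← hx, Subgroup.orderOf_coe]⟩
    have ha1 : a ≠ 1 := by
      rintro rfl
      simp at ha2
    have haa : a * a = 1 := by
      have := pow_orderOf_eq_one a
      rwa [ha2, pow_two] at this
    by_cases haB : cj a B = B
    · exact L3 A hA B hB hAH hBH hAB (L2 A hA B hB hAH hBH hAB ⟨a, haA, ha1, haB⟩)
    · obtain ⟨b, hbB, hb2⟩ := hsq B hB
      have hb2A : cj (b ^ 2) A = A := by
        by_cases hbA : cj b A = A
        · rw [pow_two, cj_mul, hbA, hbA]
        · have hc1 := (h0 A hA hAH (hneH B hB A hA hBH hAH (Ne.symm hAB)) b (hBH hbB)).resolve_left hbA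
          have hc2 := (h0 B hB hBH (hneH A hA B hB hAH hBH hAB) a (hAH haA)).resolve_left haB
          apply tic A hA _ a haA ha1
          obtain ⟨a', ha'⟩ : ∃ a', a' = b * a * b⁻¹ := ⟨_, rfl⟩
          obtain ⟨b', hb'⟩ : ∃ b', b' = a * b * a⁻¹ := ⟨_, rfl⟩
          have e1 : a * a' = a' * a := hc1 a haA a' (by rw [ha']; exact conj_mem_cj haA)
          have e2 : b * b' = b' * b := hc2 b hbB b' (by rw [hb']; exact conj_mem_cj hbB)
          have ainv : a⁻¹ = a := inv_eq_of_mul_eq_one_left haa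
          have e3 : a' * a' = 1 := by
            rw [ha']
            calc b * a * b⁻¹ * (b * a * b⁻¹) = b * (a * a) * b⁻¹ := by group
              _ = 1 := by rw [haa]; group
          -- x = b' b⁻¹ = a a'⁻¹ commutes with b
          have e4 : b' * b⁻¹ = a * a' := by
            rw [hb', ha']
            calc a * b * a⁻¹ * b⁻¹ = a * (b * a⁻¹ * b⁻¹) := by group
              _ = a * (b * a * b⁻¹) := by rw [ainv]
          have e5 : b * (a * a') * b⁻¹ = a * a' := by
            rw [← e4]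
            calc b * (b' * b⁻¹) * b⁻¹ = (b * b') * b⁻¹ * b⁻¹ := by group
              _ = (b' * b) * b⁻¹ * b⁻¹ := by rw [e2]
              _ = _ := by group
          have e6 : b * (a * a') * b⁻¹ = a' * (b * a' * b⁻¹) := by
            calc b * (a * a') * b⁻¹ = (b * a * b⁻¹) * (b * a' * b⁻¹) := by group
              _ = _ := by rw [← ha']
          have e7 : b * a' * b⁻¹ = a :=
            mul_left_cancel (a := a') (e6.symm.trans (e5.trans e1))
          calc b ^ 2 * a = (b * (b * a * b⁻¹) * b⁻¹) * b ^ 2 := by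
                rw [pow_two]; group
            _ = (b * a' * b⁻¹) * b ^ 2 := by rw [ha']
            _ = a * b ^ 2 := by rw [e7]
      have hb21 : b ^ 2 ≠ 1 := hb2
      have := L3 B hB A hA hBH hAH (Ne.symm hAB)
        (L2 B hB A hA hBH hAH (Ne.symm hAB) ⟨b ^ 2, Subgroup.pow_mem _ hbB 2, hb21, hb2A⟩)
      intro x hx y hy
      exact (this y hy x hx).symm


/-- Let S be a finite 2-group and Δ a set of subgroups of S closed under conjugation by S, all of the same order, each with nontrivial Frattini subgroup, and such that two distinct members of Δ meet trivially. Then any two distinct members of Δ commute elementwise. -/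
theorem result {S : Type*} [Group S] [Finite S] (hS : IsPGroup 2 S)
    (Δ : Set (Subgroup S)) (hinv : ∀ s : S, ∀ R ∈ Δ, R.map (MulAut.conj s).toMonoidHom ∈ Δ)
    (hΦ : ∀ R ∈ Δ, frattini ↥R ≠ ⊥) (hord : ∀ R ∈ Δ, ∀ T ∈ Δ, Nat.card ↥R = Nat.card ↥T)
    (hti : ∀ R ∈ Δ, ∀ T ∈ Δ, R = T ∨ R ⊓ T = ⊥) :
    ∀ R ∈ Δ, ∀ T ∈ Δ, R ≠ T → ⁅R, T⁆ = ⊥ := by
  haveI : Fact (Nat.Prime 2) := ⟨Nat.prime_two⟩
  have hsq : ∀ R ∈ Δ, ∃ b ∈ R, b ^ 2 ≠ 1 := by
    intro R hR
    by_contra hcon
    push Not at hcon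
    apply hΦ R hR
    rw [eq_bot_iff]
    have hsq' : ∀ x : R, x * x = 1 := by
      intro x
      apply Subtype.ext
      have := hcon x x.2
      rw [pow_two] at this
      exact this
    apply Cfsg.Agent.Lib.Helper16.frattini_le_of_elemAb (p := 2)
    · rw [commutator_def, Subgroup.commutator_le]
      intro x _ y _
      rw [Subgroup.mem_bot, commutatorElement_def]
      have hx : x⁻¹ = x := inv_eq_of_mul_eq_one_left (hsq' x)
      have hy : y⁻¹ = y := inv_eq_of_mul_eq_one_left (hsq' y)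
      rw [hx, hy]
      have := hsq' (x * y)
      calc x * y * x * y = (x * y) * (x * y) := by group
        _ = 1 := this
    · intro x
      rw [Subgroup.mem_bot, pow_two]
      exact hsq' x
  intro R hR T hT hRT
  rw [Subgroup.commutator_eq_bot_iff_le_centralizer]
  intro r hr
  rw [Subgroup.mem_centralizer_iff]
  intro t ht
  exact (main_aux hS Δ hinv hsq hord hti (Nat.card (⊤ : Subgroup S)) ⊤ le_rfl R hR T hT le_top le_top
    hRT r hr t ht).symm

end Cfsg.Agent.S1782
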