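import Mathlib
import Cfsg.Statements.S1467

set_option autoImplicit false
open Cfsg

namespace Cfsg.Agent.S1467

theorem puigStep_anti {G : Type*} [Group G] {X Y : Subgroup G} (h : X ≤ Y) :
    puigStep Y ≤ puigStep X := by
  apply sSup_le_sSup
  rintro A ⟨hA, hY⟩
  exact ⟨hA, h.trans hY⟩

theorem puigSeq_zero (G : Type*) [Group G] : puigSeq G 0 = ⊥ := rfl

theorem puigSeq_succ (G : Type*) [Group G] (n : ℕ) :
    puigSeq G (n + 1) = puigStep (puigSeq G n) := rfl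

theorem puigStep_bot (G : Type*) [Group G] : puigStep (⊥ : Subgroup G) = ⊤ := by
  rw [eq_top_iff]
  intro g _
  have h : Subgroup.zpowers g ≤ puigStep (⊥ : Subgroup G) := by
    apply le_sSup
    exact ⟨inferInstance, bot_le⟩
  exact h (Subgroup.mem_zpowers g)

theorem key (G : Type*) [Group G] (n : ℕ) :
    (∀ k, 2 * n ≤ k → puigSeq G (2 * n) ≤ puigSeq G k) ∧
    (∀ k, 2 * n + 1 ≤ k → puigSeq G k ≤ puigSeq G (2 * n + 1)) := by
  have step1 : ∀ n, (∀ k, 2 * n ≤ k → puigSeq G (2 * n) ≤ puigSeq G k) →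
      (∀ k, 2 * n + 1 ≤ k → puigSeq G k ≤ puigSeq G (2 * n + 1)) := by
    intro n h k hk
    obtain ⟨k', rfl⟩ : ∃ k', k = k' + 1 := ⟨k - 1, by omega⟩
    rw [puigSeq_succ, puigSeq_succ]
    exact puigStep_anti (h k' (by omega))
  induction n with
  | zero =>
    have h0 : ∀ k, 2 * 0 ≤ k → puigSeq G (2 * 0) ≤ puigSeq G k := by
      intro k _
      show puigSeq G 0 ≤ _
      rw [puigSeq_zero]; exact bot_le
    exact ⟨h0, step1 0 h0⟩
  | succ n ih =>
    have h1 : ∀ k, 2 * (n + 1) ≤ k → puigSeq G (2 * (n + 1)) ≤ puigSeq G k := by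
      intro k hk
      obtain ⟨k', rfl⟩ : ∃ k', k = k' + 1 := ⟨k - 1, by omega⟩
      show puigSeq G ((2 * n + 1) + 1) ≤ _
      rw [puigSeq_succ, puigSeq_succ]
      exact puigStep_anti (ih.2 k' (by omega))
    exact ⟨h1, step1 (n + 1) h1⟩

/-- Let G be a finite group with Puig series L_n(G). Then L_0 = 1, L_1 = G; L_{2n} ≤ L_{2n+2} ≤ L_{2m+3} ≤ L_{2m+1} for all n, m; there is k with L_{2n}(G) = L_*(G) and L_{2n+1}(G) = L(G) for all n ≥ k; L_*(G) ≤ L(G); and applying one Puig step to L_*(G) gives L(G) and to L(G) gives L_*(G). -/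
theorem result {G : Type*} [Group G] [Finite G] :
    Cfsg.puigSeq G 0 = ⊥ ∧ Cfsg.puigSeq G 1 = ⊤ ∧
      (∀ n m : ℕ, Cfsg.puigSeq G (2 * n) ≤ Cfsg.puigSeq G (2 * n + 2) ∧ Cfsg.puigSeq G (2 * n) ≤ Cfsg.puigSeq G (2 * m + 1) ∧
        Cfsg.puigSeq G (2 * m + 3) ≤ Cfsg.puigSeq G (2 * m + 1)) ∧
      (∃ k : ℕ, ∀ n : ℕ, k ≤ n → Cfsg.puigSeq G (2 * n) = Cfsg.puigLower G ∧ Cfsg.puigSeq G (2 * n + 1) = Cfsg.puigSubgroup G) ∧
      Cfsg.puigLower G ≤ Cfsg.puigSubgroup G ∧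
      Cfsg.puigStep (Cfsg.puigLower G) = Cfsg.puigSubgroup G ∧ Cfsg.puigStep (Cfsg.puigSubgroup G) = Cfsg.puigLower G := by
  have hEO : ∀ n m : ℕ, puigSeq G (2 * n) ≤ puigSeq G (2 * m + 1) := by
    intro n m
    rcases le_or_gt (2 * n) (2 * m + 1) with h | h
    · exact (key G n).1 _ h
    · exact (key G m).2 _ h.le
  have hmono : Monotone (fun n => puigSeq G (2 * n)) := by
    apply monotone_nat_of_le_succ
    intro n
    exact (key G n).1 _ (by omega)
  obtain ⟨k, hk⟩ := WellFoundedGT.monotone_chain_condition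
    (⟨fun n => puigSeq G (2 * n), hmono⟩ : ℕ →o Subgroup G)
  have hk' : ∀ n, k ≤ n → puigSeq G (2 * n) = puigSeq G (2 * k) := fun n hn => (hk n hn).symm
  have hLow : puigLower G = puigSeq G (2 * k) := by
    apply le_antisymm
    · apply iSup_le
      intro n
      rw [← hk' (max n k) (le_max_right _ _)]
      exact hmono (le_max_left _ _)
    · exact le_iSup (fun n => puigSeq G (2 * n)) k
  have hodd : ∀ n, k ≤ n → puigSeq G (2 * n + 1) = puigSeq G (2 * k + 1) := by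
    intro n hn
    rw [puigSeq_succ, puigSeq_succ, hk' n hn]
  have hUp : puigSubgroup G = puigSeq G (2 * k + 1) := by
    apply le_antisymm
    · exact iInf_le (fun n => puigSeq G (2 * n + 1)) k
    · apply le_iInf
      intro n
      rcases le_or_gt k n with h | h
      · rw [hodd n h]
      · exact (key G n).2 _ (by omega)
  refine ⟨rfl, ?_, ?_, ⟨k, ?_⟩, ?_, ?_, ?_⟩
  · show puigSeq G (0 + 1) = ⊤
    rw [puigSeq_succ, puigSeq_zero, puigStep_bot]
  · intro n m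
    exact ⟨(key G n).1 _ (by omega), hEO n m, (key G m).2 _ (by omega)⟩
  · intro n hn
    rw [hLow, hUp]
    exact ⟨hk' n hn, hodd n hn⟩
  · rw [hLow, hUp]; exact hEO k k
  · rw [hLow, hUp, puigSeq_succ]
  · rw [hLow, hUp, ← puigSeq_succ]
    exact hk' (k + 1) (by omega)

end Cfsg.Agent.S1467
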