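import Cfsg.Statements.S1466
import Mathlib
import Cfsg.Agent.S1467
import Cfsg.Agent.Lib.Helper20.MaxAbelian

set_option autoImplicit false
open Cfsg

namespace Cfsg.Agent.S1466

theorem normal_abelian_le_puigStep {R : Type*} [Group R] (A : Subgroup R) [hA : A.Normal]
    (hc : IsMulCommutative A) (X : Subgroup R) : A ≤ Cfsg.puigStep X := by
  apply le_sSup
  refine ⟨hc, ?_⟩
  rw [Subgroup.normalizer_eq_top]
  exact le_top

theorem normal_abelian_le_puigSeq {R : Type*} [Group R] (A : Subgroup R) [hA : A.Normal]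
    (hc : IsMulCommutative A) (i : ℕ) (hi : 0 < i) : A ≤ Cfsg.puigSeq R i := by
  obtain ⟨j, rfl⟩ : ∃ j, i = j + 1 := ⟨i - 1, by omega⟩
  exact normal_abelian_le_puigStep A hc _


/-- Let p be a prime and R a nontrivial finite p-group. Then for every i > 0, Z(R) ≤ C_R(L_i(R)) ≤ L_i(R); likewise Z(R) ≤ C_R(L_*(R)) ≤ L_*(R) and Z(R) ≤ C_R(L(R)) ≤ L(R); and L(R) ≠ 1, L_*(R) ≠ 1. -/
theorem result {R : Type*} [Group R] [Finite R] (p : ℕ) [Fact p.Prime] (hR : IsPGroup p R) [Nontrivial R] :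
    (∀ i : ℕ, 0 < i → Subgroup.center R ≤ Subgroup.centralizer ((Cfsg.puigSeq R i : Subgroup R) : Set R) ∧
        Subgroup.centralizer ((Cfsg.puigSeq R i : Subgroup R) : Set R) ≤ Cfsg.puigSeq R i) ∧
      (Subgroup.center R ≤ Subgroup.centralizer ((Cfsg.puigLower R : Subgroup R) : Set R) ∧ Subgroup.centralizer ((Cfsg.puigLower R : Subgroup R) : Set R) ≤ Cfsg.puigLower R) ∧
      (Subgroup.center R ≤ Subgroup.centralizer ((Cfsg.puigSubgroup R : Subgroup R) : Set R) ∧ Subgroup.centralizer ((Cfsg.puigSubgroup R : Subgroup R) : Set R) ≤ Cfsg.puigSubgroup R) ∧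
      Cfsg.puigSubgroup R ≠ ⊥ ∧ Cfsg.puigLower R ≠ ⊥ := by
  have hnil : Group.IsNilpotent R := hR.isNilpotent
  obtain ⟨A, hAn, hAc, -, hCA⟩ := Cfsg.Agent.Lib.Helper20.exists_normal_abelian_self_centralizing
    (⊥ : Subgroup R) inferInstance inferInstance
  have hZ : ∀ X : Subgroup R, Subgroup.center R ≤ Subgroup.centralizer (X : Set R) := fun X =>
    Subgroup.center_le_centralizer _
  have hkey : ∀ X : Subgroup R, A ≤ X → Subgroup.centralizer (X : Set R) ≤ X := by
    intro X hX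
    refine le_trans ?_ hX
    conv_rhs => rw [← hCA]
    exact Subgroup.centralizer_le (by exact_mod_cast hX)
  have hA1 : A ≠ ⊥ := by
    intro h
    rw [h] at hCA
    have h1 : Subgroup.centralizer (((⊥ : Subgroup R) : Subgroup R) : Set R) = ⊤ := by
      rw [Subgroup.coe_bot, Subgroup.centralizer_eq_top_iff_subset]
      intro x hx
      rw [Set.mem_singleton_iff.mp hx]
      exact Subgroup.one_mem _
    rw [h1] at hCA
    exact top_ne_bot hCA
  have hseq : ∀ i, 0 < i → A ≤ Cfsg.puigSeq R i := fun i hi => normal_abelian_le_puigSeq A hAc i hi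
  have hlow : A ≤ Cfsg.puigLower R :=
    (hseq 2 (by norm_num)).trans (le_iSup (fun n => Cfsg.puigSeq R (2 * n)) 1)
  have hup : A ≤ Cfsg.puigSubgroup R := le_iInf (fun n => hseq _ (by omega))
  refine ⟨fun i hi => ⟨hZ _, hkey _ (hseq i hi)⟩, ⟨hZ _, hkey _ hlow⟩, ⟨hZ _, hkey _ hup⟩, ?_, ?_⟩
  · intro h
    exact hA1 (le_bot_iff.mp (h ▸ hup))
  · intro h
    exact hA1 (le_bot_iff.mp (h ▸ hlow))

end Cfsg.Agent.S1466
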