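import Cfsg.Statements.S1465
import Cfsg.Agent.Lib.Helper9.PStable
import Cfsg.Agent.S0027

set_option autoImplicit false
open Cfsg

namespace Cfsg.Agent.S1465
open Cfsg.Agent.Lib.Helper9

/-- Let p be an odd prime, G a solvable group of odd order, P a normal p-subgroup of G, and X the subgroup generated by a family of abelian p-subgroups of G each normalized by P. Then the image of X in G/C_G(P) lies in O_p(G/C_G(P)); and if O_{p'}(G) = 1 and O_p(G) ∩ C_G(P) ≤ P then X ≤ O_p(G). -/
theorem result {G : Type*} [Group G] [Finite G] [Group.IsSolvable G] (hodd : Odd (Nat.card G)) (p : ℕ) [Fact p.Prime] (hp : p ≠ 2) (P : Subgroup G) [P.Normal] (hP : IsPGroup p P)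
    (S : Set (Subgroup G)) (hS : ∀ B ∈ S, IsMulCommutative B ∧ IsPGroup p B ∧ P ≤ Subgroup.normalizer (B : Set G)) :
    (sSup S).map (QuotientGroup.mk' (Subgroup.centralizer (P : Set G))) ≤ Cfsg.pCore p (G ⧸ Subgroup.centralizer (P : Set G)) ∧
      (Cfsg.pPrimeCore p G = ⊥ → Cfsg.pCore p G ⊓ Subgroup.centralizer (P : Set G) ≤ P → sSup S ≤ Cfsg.pCore p G) := by
  have hpp : p.Prime := Fact.out
  have part1 : (sSup S).map (QuotientGroup.mk' (Subgroup.centralizer (P : Set G))) ≤
      Cfsg.pCore p (G ⧸ Subgroup.centralizer (P : Set G)) := by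
    rw [Subgroup.map_le_iff_le_comap]
    apply sSup_le
    intro B hB b hb
    obtain ⟨hB1, hB2, hB3⟩ := hS B hB
    rw [Subgroup.mem_comap]
    apply mk_mem_pCore_of_odd hodd p hp P hP _ le_rfl
    intro u hu
    have h1 : u⁻¹ * (b⁻¹ * u * b) ∈ B := by
      have h2 : u⁻¹ * b⁻¹ * u⁻¹⁻¹ ∈ B :=
        (Subgroup.mem_normalizer_iff.mp (hB3 (P.inv_mem hu)) b⁻¹).mp (B.inv_mem hb)
      have h3 := B.mul_mem h2 hb
      simpa [mul_assoc] using h3
    have h4 : (u⁻¹ * (b⁻¹ * u * b)) * b = b * (u⁻¹ * (b⁻¹ * u * b)) := by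
      have := hB1.is_comm.comm (⟨_, h1⟩ : B) ⟨b, hb⟩
      exact congrArg Subtype.val this
    rw [mul_assoc, h4]
    group
  refine ⟨part1, fun h1 h2 => ?_⟩
  have hQn : (Cfsg.pCore p G).Normal := Cfsg.Agent.Lib.Helper1.pCore_normal p
  have hQp : IsPGroup p (Cfsg.pCore p G) := Cfsg.Agent.Lib.Helper1.pCore_isPGroup p
  have hCQ := Cfsg.Agent.Lib.Helper1.centralizer_pCore_le p h1
  have hCp : IsPGroup p (Subgroup.centralizer (P : Set G)) := by
    rintro ⟨c, hc⟩
    obtain ⟨k, hk⟩ := exists_pow_mem_of_key p (Subgroup.centralizer (P : Set G)) ⊥ (by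
      intro h hh hcop
      have hAC : Subgroup.zpowers h ≤ Subgroup.centralizer (P : Set G) := Subgroup.zpowers_le.mpr hh
      have h3 := Cfsg.Agent.S0027.result (Subgroup.zpowers h) (Cfsg.pCore p G)
        (by rw [Subgroup.normalizer_eq_top]; exact le_top)
        (by
          rw [Nat.card_zpowers]
          obtain ⟨k, hk⟩ := hQp.exists_card_eq
          rw [hk]
          exact Nat.Coprime.pow_right _ hcop)
        (Or.inl inferInstance)
      have h4 : ⁅Cfsg.pCore p G, Subgroup.zpowers h⁆ ≤ P := by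
        refine le_trans (le_inf (Subgroup.commutator_le_left _ _) ?_) h2
        exact (Subgroup.commutator_mono le_rfl hAC).trans (Subgroup.commutator_le_right _ _)
      have h5 : ⁅P, Subgroup.zpowers h⁆ = ⊥ := by
        rw [Subgroup.commutator_eq_bot_iff_le_centralizer]
        exact Subgroup.le_centralizer_iff.mp hAC
      have h6 : ⁅Cfsg.pCore p G, Subgroup.zpowers h⁆ = ⊥ := by
        rw [← h3, eq_bot_iff, ← h5]
        exact Subgroup.commutator_mono h4 le_rfl
      rw [Subgroup.commutator_eq_bot_iff_le_centralizer] at h6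
      have h7 : h ∈ Cfsg.pCore p G := hCQ (Subgroup.le_centralizer_iff.mp h6 (Subgroup.mem_zpowers h))
      obtain ⟨k, hk⟩ := (IsPGroup.iff_orderOf.mp hQp) ⟨h, h7⟩
      rw [Subgroup.orderOf_mk] at hk
      rw [hk] at hcop
      rw [Subgroup.mem_bot, ← orderOf_eq_one_iff, hk]
      rcases Nat.eq_zero_or_pos k with rfl | hkpos
      · simp
      · exact absurd ((Nat.coprime_pow_left_iff hkpos _ _).mp hcop) (by
          rw [Nat.coprime_self]; exact hpp.ne_one)) c hc
    exact ⟨k, Subtype.ext (Subgroup.mem_bot.mp hk)⟩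
  have hDn : ((Cfsg.pCore p (G ⧸ Subgroup.centralizer (P : Set G))).comap
      (QuotientGroup.mk' (Subgroup.centralizer (P : Set G)))).Normal :=
    (Cfsg.Agent.Lib.Helper1.pCore_normal p).comap _
  have hDp : IsPGroup p ((Cfsg.pCore p (G ⧸ Subgroup.centralizer (P : Set G))).comap
      (QuotientGroup.mk' (Subgroup.centralizer (P : Set G)))) := by
    apply IsPGroup.comap_of_ker_isPGroup (Cfsg.Agent.Lib.Helper1.pCore_isPGroup p)
    rw [QuotientGroup.ker_mk']
    exact hCp
  exact (Subgroup.map_le_iff_le_comap.mp part1).trans (Cfsg.Agent.Lib.Helper1.le_pCore hDn hDp)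

end Cfsg.Agent.S1465
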