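import Cfsg.Statements.S1536
import Cfsg.Agent.Lib.Lead.GlaubL

set_option autoImplicit false
open Cfsg

namespace Cfsg.Agent.S1536

open Cfsg.Agent.Lib.Lead.Glaub Cfsg.Agent.Lib.Helper2 Cfsg.Agent.Lib.Helper6

/-- the stabiliser of a class function of a normal subgroup -/
def stab {M : Type*} [Group M] (H : Subgroup M) [hN : H.Normal] (θ : H → ℂ) : Subgroup M where
  carrier := {t | ∀ h : H, θ ⟨t * h * t⁻¹, hN.conj_mem h h.2 t⟩ = θ h}
  one_mem' := by
    intro h
    refine congrArg θ (Subtype.ext ?_)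
    simp
  mul_mem' := by
    intro a b ha hb h
    rw [← hb h, ← ha ⟨b * h * b⁻¹, hN.conj_mem h h.2 b⟩]
    refine congrArg θ (Subtype.ext ?_)
    simp [mul_assoc]
  inv_mem' := by
    intro a ha h
    rw [← ha ⟨a⁻¹ * h * a⁻¹⁻¹, hN.conj_mem h h.2 a⁻¹⟩]
    refine congrArg θ (Subtype.ext ?_)
    simp [mul_assoc]

/-- Let H be a normal subgroup of the finite group M whose order is coprime to its index. For x ∈ M: some non-principal irreducible character of H is unchanged under h ↦ θ(x h x⁻¹) if and only if some non-identity element of H commutes with x. -/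
theorem result {M : Type*} [Group M] [Finite M] (H : Subgroup M) [hN : H.Normal] (hHall : Nat.Coprime (Nat.card H) H.index) (x : M) : (∃ θ : H → ℂ, Cfsg.IsIrrCharacter H θ ∧ θ ≠ (fun _ => 1) ∧ (fun h : H => θ ⟨x * h * x⁻¹, hN.conj_mem h h.2 x⟩) = θ) ↔ ∃ h ∈ H, h ≠ 1 ∧ x * h = h * x := by
  classical
  have hbez : ((Nat.card H : ℤ) * Nat.gcdA (Nat.card H) H.index + (H.index : ℤ) * Nat.gcdB (Nat.card H) H.index) = 1 := by
    rw [← Nat.gcd_eq_gcd_ab, hHall.gcd_eq_one]
    rfl
  set a := Nat.gcdA (Nat.card H) H.index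
  set b := Nat.gcdB (Nat.card H) H.index
  set y : M := x ^ ((Nat.card H : ℤ) * a) with hy
  set z : M := x ^ ((H.index : ℤ) * b) with hz
  have hxyz : x = y * z := by
    rw [hy, hz, ← zpow_add, hbez, zpow_one]
  have hzH : z ∈ H := by
    rw [hz, zpow_mul, zpow_natCast]
    exact H.zpow_mem (H.pow_index_mem x) b
  have hym : y ^ H.index = 1 := by
    rw [hy, ← zpow_natCast, ← zpow_mul]
    have : (Nat.card H : ℤ) * a * (H.index : ℤ) = ((Nat.card H * H.index : ℕ) : ℤ) * a := by
      push_cast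
      ring
    rw [this, H.card_mul_index, zpow_mul, zpow_natCast, pow_card_eq_one', one_zpow]
  set S : Subgroup M := Subgroup.zpowers y with hS
  have hcop : (Nat.card H).Coprime (Nat.card S) := by
    rw [hS, Nat.card_zpowers]
    exact Nat.Coprime.coprime_dvd_right (orderOf_dvd_of_pow_eq_one hym) hHall
  have hnorm : ∀ s ∈ S, ∀ g ∈ H, s * g * s⁻¹ ∈ H := fun s _ g hg => hN.conj_mem g hg s
  set C : Subgroup M := H ⊓ Subgroup.centralizer (S : Set M) with hC
  have hCH : C ≤ H := inf_le_left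
  have hsolv : Group.IsSolvable S := Group.isSolvable_of_comm (fun a b => by
      obtain ⟨a, ha⟩ := a
      obtain ⟨b, hb⟩ := b
      obtain ⟨i, rfl⟩ := Subgroup.mem_zpowers_iff.mp ha
      obtain ⟨j, rfl⟩ := Subgroup.mem_zpowers_iff.mp hb
      apply Subtype.ext
      exact (Commute.zpow_zpow_self y i j))
  have l2 := card_inv_eq _ H S (conjOn H S hnorm) rfl hsolv hcop
  have l3 := card_invC_eq _ H S (conjOn H S hnorm) C (Subgroup.inclusion hCH) rfl hsolv hcop
    (Subgroup.inclusion_injective hCH) (fun g => (conjOn_fix H S C hnorm hC hCH g).symm)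
  rw [l3] at l2
  -- invariance
  have hinv : ∀ θ : H → ℂ, IsIrrCharacter H θ → (Inv (conjOn H S hnorm) θ ↔ x ∈ stab H θ) := by
    intro θ hθ
    have hHs : H ≤ stab H θ := by
      intro k hk h
      exact irr_isClassFunction hθ h ⟨k, hk⟩
    constructor
    · intro h
      rw [hxyz]
      refine (stab H θ).mul_mem ?_ (hHs hzH)
      intro k
      exact h ⟨y, Subgroup.mem_zpowers y⟩ k
    · intro h s k
      have : (s : M) ∈ stab H θ := by
        have h1 : S ≤ stab H θ := by
          rw [hS, Subgroup.zpowers_le, hy]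
          exact (stab H θ).zpow_mem h _
        exact h1 s.2
      exact this k
  have hCnt : (∃ c ∈ C, c ≠ 1) ↔ 1 < Nat.card (ConjClasses C) := by
    rw [Finite.one_lt_card_iff_nontrivial]
    constructor
    · rintro ⟨c, hc, hc1⟩
      refine ⟨⟨ConjClasses.mk ⟨c, hc⟩, ConjClasses.mk 1, ?_⟩⟩
      intro h
      rw [ConjClasses.mk_eq_mk_iff_isConj, isConj_one_left] at h
      exact hc1 (congrArg Subtype.val h)
    · rintro ⟨K, K', hne⟩
      by_contra hcon
      push Not at hcon
      obtain ⟨c, rfl⟩ := ConjClasses.exists_rep K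
      obtain ⟨c', rfl⟩ := ConjClasses.exists_rep K'
      apply hne
      rw [Subtype.ext (hcon c c.2) (a2 := (1 : C)), Subtype.ext (hcon c' c'.2) (a2 := (1 : C))]
  have hone : IsIrrCharacter H (fun _ => 1) := one_irr H
  constructor
  · rintro ⟨θ, hθ, hθ1, hfix⟩
    by_cases hz1 : z = 1
    · have hxy : x = y := by rw [hxyz, hz1, mul_one]
      have h1 : Inv (conjOn H S hnorm) θ := (hinv θ hθ).mpr (fun h => congrFun hfix h)
      have h2 : Inv (conjOn H S hnorm) (fun _ : H => (1 : ℂ)) := fun _ _ => rfl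
      have h3 : 1 < Nat.card (ConjClasses C) := by
        rw [← l2]
        haveI : Finite {χ : IrrCharacter H // Inv (conjOn H S hnorm) (χ : H → ℂ)} := by
          apply Nat.finite_of_card_ne_zero
          rw [l2]
          exact Nat.card_pos.ne'
        rw [Finite.one_lt_card_iff_nontrivial]
        refine ⟨⟨⟨⟨θ, hθ⟩, h1⟩, ⟨⟨_, hone⟩, h2⟩, ?_⟩⟩
        intro h
        exact hθ1 (congrArg (fun t => (t.1 : H → ℂ)) h)
      obtain ⟨c, hc, hc1⟩ := hCnt.mpr h3
      refine ⟨c, hCH hc, hc1, ?_⟩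
      have h4 := Subgroup.mem_centralizer_iff.mp hc.2 y (Subgroup.mem_zpowers y)
      rw [hxy]
      exact h4
    · refine ⟨z, hzH, hz1, ?_⟩
      rw [hz]
      exact ((Commute.refl x).zpow_right _)
  · rintro ⟨h, hhH, hh1, hcomm⟩
    have hhC : h ∈ C := by
      refine ⟨hhH, ?_⟩
      change h ∈ Subgroup.centralizer (S : Set M)
      rw [Subgroup.mem_centralizer_iff]
      intro s hs
      obtain ⟨i, rfl⟩ := Subgroup.mem_zpowers_iff.mp hs
      have h1 : Commute x h := hcomm
      exact ((h1.zpow_left _).zpow_left i)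
    have h3 := hCnt.mp ⟨h, hhC, hh1⟩
    rw [← l2] at h3
    haveI : Finite {χ : IrrCharacter H // Inv (conjOn H S hnorm) (χ : H → ℂ)} := by
      apply Nat.finite_of_card_ne_zero
      omega
    rw [Finite.one_lt_card_iff_nontrivial] at h3
    have h2 : Inv (conjOn H S hnorm) (fun _ : H => (1 : ℂ)) := fun _ _ => rfl
    obtain ⟨θ, hθ⟩ := exists_ne (⟨⟨_, hone⟩, h2⟩ : {χ : IrrCharacter H // Inv (conjOn H S hnorm) (χ : H → ℂ)})
    refine ⟨θ.1, θ.1.2, ?_, ?_⟩
    · intro h
      exact hθ (Subtype.ext (Subtype.ext h))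
    · funext k
      exact (hinv θ.1 θ.1.2).mp θ.2 k

end Cfsg.Agent.S1536
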