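import Cfsg.Statements.S0011
import Mathlib

set_option autoImplicit false
open Cfsg

namespace Cfsg.Agent.S0011

/-- If the Frattini quotient of a finite group is nilpotent then the group is nilpotent. -/
theorem result {G : Type*} [Group G] [Finite G]
    (h : Group.IsNilpotent (G ⧸ frattini G)) : Group.IsNilpotent G := by
  have htfae := (Group.isNilpotent_of_finite_tfae (G := G)).out 0 3
  rw [htfae]
  intro p hp P
  have hnQ : ((P.mapSurjective (QuotientGroup.mk'_surjective (frattini G)) :
      Sylow p (G ⧸ frattini G)) : Subgroup (G ⧸ frattini G)).Normal := inferInstance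
  have hK : ((P : Subgroup G) ⊔ frattini G).Normal := by
    have := hnQ.comap (QuotientGroup.mk' (frattini G))
    rwa [Sylow.coe_mapSurjective, Subgroup.comap_map_eq, QuotientGroup.ker_mk'] at this
  set K := (P : Subgroup G) ⊔ frattini G with hKdef
  have hPK : (P : Subgroup G) ≤ K := le_sup_left
  have h1 := Sylow.normalizer_sup_eq_top (P.subtype hPK)
  rw [Sylow.coe_subtype, Subgroup.map_subgroupOf_eq_of_le hPK] at h1
  have h2 : Subgroup.normalizer ((P : Subgroup G) : Set G) ⊔ frattini G = ⊤ := by
    rw [eq_top_iff, ← h1]
    exact sup_le le_sup_left (sup_le (Subgroup.le_normalizer.trans le_sup_left) le_sup_right)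
  exact Subgroup.normalizer_eq_top_iff.mp (frattini_nongenerating h2)

end Cfsg.Agent.S0011
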