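import Cfsg.Statements.S0013
import Cfsg.Agent.Lib.Helper1.Basic

set_option autoImplicit false
open Cfsg

namespace Cfsg.Agent.S0013

/-- In a finite p-group the Frattini subgroup is the smallest normal subgroup with elementary abelian quotient: it lies below any normal subgroup containing all commutators and all p-th powers. -/
theorem result {G : Type*} [Group G] [Finite G] (p : ℕ) [Fact p.Prime]
    (hG : IsPGroup p G) (N : Subgroup G) [N.Normal] (hcomm : commutator G ≤ N) (hpow : ∀ x : G, x ^ p ∈ N) :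
    frattini G ≤ N := by
  intro x hx
  by_contra hxN
  have hp : p.Prime := Fact.out
  obtain ⟨M, ⟨hNM, hxM⟩, hmax⟩ := (Set.toFinite {M : Subgroup G | N ≤ M ∧ x ∉ M}).exists_maximal
    ⟨N, le_rfl, hxN⟩
  have hMn : M.Normal := Cfsg.Agent.Lib.Helper1.normal_of_commutator_le (hcomm.trans hNM)
  have hco : IsCoatom M := by
    refine ⟨fun h => hxM (h ▸ Subgroup.mem_top x), fun L hL => ?_⟩
    have hbig : ∀ L' : Subgroup G, M < L' → x ∈ L' := by
      intro L' hL'
      by_contra hx'
      exact hL'.not_ge (hmax ⟨hNM.trans hL'.le, hx'⟩ hL'.le)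
    have hxL := hbig L hL
    rw [eq_top_iff]
    intro g _
    by_cases hgM : g ∈ M
    · exact hL.le hgM
    have h1 : M < M ⊔ Subgroup.zpowers g :=
      lt_of_le_of_ne le_sup_left fun h => hgM (h ▸ Subgroup.mem_sup_right (Subgroup.mem_zpowers g))
    obtain ⟨m, hm, y, ⟨k, rfl⟩, hmy⟩ := Subgroup.mem_sup_of_normal_left.mp (hbig _ h1)
    simp only at hmy
    have hgk : g ^ k ∈ L := by
      have : g ^ k = m⁻¹ * x := by rw [← hmy]; group
      rw [this]; exact L.mul_mem (L.inv_mem (hL.le hm)) hxL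
    have hpk : ¬ (p : ℤ) ∣ k := by
      rintro ⟨j, rfl⟩
      apply hxM
      rw [← hmy]
      refine M.mul_mem hm (hNM ?_)
      rw [zpow_mul, zpow_natCast]
      exact N.zpow_mem (hpow g) j
    have hcop : IsCoprime k (p : ℤ) :=
      ((Nat.prime_iff_prime_int.mp hp).coprime_iff_not_dvd.mpr hpk).symm
    obtain ⟨a, b, hab⟩ := hcop
    have : g = (g ^ k) ^ a * (g ^ p) ^ b := by
      rw [← zpow_mul, ← zpow_natCast g p, ← zpow_mul, ← zpow_add, mul_comm k a, mul_comm (p : ℤ) b,
        hab, zpow_one]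
    rw [this]
    exact L.mul_mem (L.zpow_mem hgk a) (L.zpow_mem (hL.le (hNM (hpow g))) b)
  exact hxM (frattini_le_coatom hco hx)

end Cfsg.Agent.S0013
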