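import Cfsg.Statements.S0014
import Mathlib
import Cfsg.Agent.Lib.Helper22.Frat
import Cfsg.Agent.Lib.Helper1.Hall

set_option autoImplicit false
open Cfsg

namespace Cfsg.Agent.S0014

open scoped commutatorElement
section
variable {G : Type*} [Group G] [Finite G] {p : ℕ} [hp : Fact p.Prime]

theorem normal_of_frattini_le (hG : IsPGroup p G) (H : Subgroup G) (hH : frattini G ≤ H) : H.Normal := by
  constructor
  intro h hh g
  have h1 : ⁅g, h⁆ ∈ commutator G :=
    Subgroup.commutator_mem_commutator (Subgroup.mem_top g) (Subgroup.mem_top h)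
  have h2 := hH (Cfsg.Agent.Lib.Helper22.commutator_le_frattini hG h1)
  have h3 : g * h * g⁻¹ = ⁅g, h⁆ * h := by rw [commutatorElement_def]; group
  rw [h3]
  exact H.mul_mem h2 hh

theorem card_sup_zpowers_le (hG : IsPGroup p G) (H : Subgroup G) (hH : frattini G ≤ H) (t : G) :
    Nat.card ↥(H ⊔ Subgroup.zpowers t) ≤ Nat.card H * p := by
  haveI := normal_of_frattini_le hG H hH
  have e : H ⊔ Subgroup.zpowers t
      = (Subgroup.zpowers (QuotientGroup.mk' H t)).comap (QuotientGroup.mk' H) := by
    rw [← MonoidHom.map_zpowers, Subgroup.comap_map_eq, QuotientGroup.ker_mk', sup_comm]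
  rw [e, Cfsg.Agent.Lib.Helper1.card_comap_mk', Nat.card_zpowers]
  apply Nat.mul_le_mul_left
  apply Nat.le_of_dvd hp.out.pos
  apply orderOf_dvd_of_pow_eq_one
  rw [← map_pow]
  exact (QuotientGroup.eq_one_iff _).mpr (hH (Cfsg.Agent.Lib.Helper22.pow_mem_frattini hG t))

theorem closure_insert' (t : G) (T : Finset G) [DecidableEq G] :
    frattini G ⊔ Subgroup.closure ((insert t T : Finset G) : Set G)
      = (frattini G ⊔ Subgroup.closure (T : Set G)) ⊔ Subgroup.zpowers t := by
  rw [Finset.coe_insert, Set.insert_eq, Subgroup.closure_union, ← Subgroup.zpowers_eq_closure,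
    sup_comm (Subgroup.zpowers t), sup_assoc]

theorem claimA (hG : IsPGroup p G) [DecidableEq G] (T : Finset G) :
    Nat.card ↥(frattini G ⊔ Subgroup.closure (T : Set G)) ≤ Nat.card ↥(frattini G) * p ^ T.card := by
  induction T using Finset.induction_on with
  | empty => simp
  | insert t T ht ih =>
    rw [closure_insert', Finset.card_insert_of_notMem ht, pow_succ, ← mul_assoc]
    exact (card_sup_zpowers_le hG _ le_sup_left t).trans (Nat.mul_le_mul_right p ih)

theorem claimB (hG : IsPGroup p G) [DecidableEq G] (T : Finset G)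
    (hgen : Subgroup.closure (T : Set G) = ⊤)
    (hirr : ∀ t ∈ T, Subgroup.closure ((T.erase t : Finset G) : Set G) ≠ ⊤) (U : Finset G) :
    U ⊆ T → Nat.card ↥(frattini G) * p ^ U.card ≤ Nat.card ↥(frattini G ⊔ Subgroup.closure (U : Set G)) := by
  induction U using Finset.induction_on with
  | empty => intro _; simp
  | insert t U ht ih =>
    intro hsub
    have hU : U ⊆ T := (Finset.subset_insert t U).trans hsub
    have htT : t ∈ T := hsub (Finset.mem_insert_self t U)
    have ih' := ih hU
    rw [closure_insert', Finset.card_insert_of_notMem ht, pow_succ, ← mul_assoc]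
    set H := frattini G ⊔ Subgroup.closure (U : Set G) with hH
    have htH : t ∉ H := by
      intro hmem
      apply hirr t htT
      apply frattini_nongenerating
      rw [eq_top_iff]
      have hUe : U ⊆ T.erase t := by
        intro u hu
        exact Finset.mem_erase.mpr ⟨fun h => ht (h ▸ hu), hU hu⟩
      have h1 : H ≤ Subgroup.closure ((T.erase t : Finset G) : Set G) ⊔ frattini G := by
        rw [hH, sup_comm]
        exact sup_le_sup_right (Subgroup.closure_mono (by exact_mod_cast hUe)) _
      rw [← hgen, Subgroup.closure_le]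
      intro u hu
      by_cases hut : u = t
      · rw [hut]; exact h1 hmem
      · apply (le_sup_left : Subgroup.closure ((T.erase t : Finset G) : Set G) ≤ _)
        apply Subgroup.subset_closure
        exact_mod_cast Finset.mem_erase.mpr ⟨hut, by exact_mod_cast hu⟩
    have hlt : H < H ⊔ Subgroup.zpowers t := by
      refine lt_of_le_of_ne le_sup_left ?_
      intro h
      apply htH
      rw [h]
      exact (le_sup_right : Subgroup.zpowers t ≤ _) (Subgroup.mem_zpowers t)
    obtain ⟨a, ha⟩ := IsPGroup.iff_card.mp (hG.to_subgroup H)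
    obtain ⟨b, hb⟩ := IsPGroup.iff_card.mp (hG.to_subgroup (H ⊔ Subgroup.zpowers t))
    have h2 : Nat.card H < Nat.card ↥(H ⊔ Subgroup.zpowers t) := by
      by_contra hcon
      push Not at hcon
      exact hlt.ne (Subgroup.eq_of_le_of_card_ge hlt.le hcon)
    rw [ha, hb] at h2
    have h3 : a < b := (Nat.pow_lt_pow_iff_right hp.out.one_lt).mp h2
    calc Nat.card ↥(frattini G) * p ^ U.card * p ≤ Nat.card H * p := Nat.mul_le_mul_right p ih'
      _ = p ^ (a + 1) := by rw [ha, pow_succ]
      _ ≤ p ^ b := Nat.pow_le_pow_right hp.out.pos h3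
      _ = _ := hb.symm
end

/-- Burnside's basis Theorem: in a finite p-group whose Frattini quotient has order p ^ n, every generating set contains n elements that already generate, and no set with fewer than n elements generates. -/
theorem result {G : Type*} [Group G] [Finite G] (p n : ℕ) [Fact p.Prime]
    (hG : IsPGroup p G) (hn : (frattini G).index = p ^ n) :
    (∀ S : Finset G, Subgroup.closure (S : Set G) = ⊤ → ∃ T : Finset G, T ⊆ S ∧ T.card = n ∧ Subgroup.closure (T : Set G) = ⊤) ∧
    (∀ T : Finset G, Subgroup.closure (T : Set G) = ⊤ → n ≤ T.card) := by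
  classical
  have hp : p.Prime := Fact.out
  have hcard : Nat.card ↥(frattini G) * p ^ n = Nat.card G := by
    rw [← hn]; exact (frattini G).card_mul_index
  have hpos : 0 < Nat.card ↥(frattini G) := Nat.card_pos
  have hA : ∀ T : Finset G, Subgroup.closure (T : Set G) = ⊤ → n ≤ T.card := by
    intro T hT
    have h1 := claimA hG T
    rw [hT, sup_top_eq, Subgroup.card_top, ← hcard] at h1
    have h2 := Nat.le_of_mul_le_mul_left h1 hpos
    exact (Nat.pow_le_pow_iff_right hp.one_lt).mp h2
  refine ⟨?_, hA⟩
  intro S hS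
  have hne : (S.powerset.filter (fun T : Finset G => Subgroup.closure (T : Set G) = ⊤)).Nonempty :=
    ⟨S, Finset.mem_filter.mpr ⟨Finset.mem_powerset.mpr (Finset.Subset.refl S), hS⟩⟩
  obtain ⟨T, hT, hmin⟩ := Finset.exists_min_image _ Finset.card hne
  obtain ⟨hTS, hTgen⟩ := Finset.mem_filter.mp hT
  rw [Finset.mem_powerset] at hTS
  refine ⟨T, hTS, ?_, hTgen⟩
  apply le_antisymm _ (hA T hTgen)
  have hirr : ∀ t ∈ T, Subgroup.closure ((T.erase t : Finset G) : Set G) ≠ ⊤ := by
    intro t ht hcon
    have h1 := hmin (T.erase t) (Finset.mem_filter.mpr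
      ⟨Finset.mem_powerset.mpr ((Finset.erase_subset t T).trans hTS), hcon⟩)
    rw [Finset.card_erase_of_mem ht] at h1
    have : 0 < T.card := Finset.card_pos.mpr ⟨t, ht⟩
    omega
  have h2 := claimB hG T hTgen hirr T (Finset.Subset.refl T)
  rw [hTgen, sup_top_eq, Subgroup.card_top, ← hcard] at h2
  have h3 := Nat.le_of_mul_le_mul_left h2 hpos
  exact (Nat.pow_le_pow_iff_right hp.one_lt).mp h3

end Cfsg.Agent.S0014
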