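import Cfsg.Statements.S0019
import Cfsg.Agent.Lib.Helper1.Hall
import Cfsg.Agent.Lib.Helper4.Schmidt

set_option autoImplicit false
open Cfsg

namespace Cfsg.Agent.S0019

open Cfsg.Agent.Lib.Helper1 Cfsg.Agent.Lib.Helper4
open scoped Pointwise

universe u

/-- If `G = H₁H₂`, `N` is a `p`-subgroup normalised by `H₁` and `p ∤ |G:H₂|`, then the normal closure
of `N` lies in `H₂`. -/
theorem normalClosure_le {G : Type u} [Group G] [Finite G] (H₁ H₂ : Subgroup G) (p : ℕ) [Fact p.Prime]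
    (N : Subgroup G) (hN : IsPGroup p N)
    (hnorm : ∀ x ∈ H₁, ∀ n ∈ N, x⁻¹ * n * x ∈ N)
    (h12 : ∀ g : G, ∃ x ∈ H₁, ∃ y ∈ H₂, g = x * y) (hp : ¬ p ∣ H₂.index) :
    Subgroup.normalClosure (N : Set G) ≤ H₂ := by
  have hNH : N ≤ H₂ := by
    obtain ⟨P₀⟩ : Nonempty (Sylow p H₂) := inferInstance
    have hidx : ¬ p ∣ ((P₀ : Subgroup H₂).map H₂.subtype).index := by
      rw [Subgroup.index_map_subtype]
      exact fun h => ((Fact.out : p.Prime).dvd_mul.mp h).elim P₀.not_dvd_index hp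
    set P : Sylow p G := (P₀.2.map H₂.subtype).toSylow hidx with hP
    have hPH : (P : Subgroup G) ≤ H₂ := by
      intro x hx
      obtain ⟨y, -, rfl⟩ := hx
      exact y.2
    obtain ⟨Q, hQ⟩ := hN.exists_le_sylow
    obtain ⟨g, hg⟩ := MulAction.exists_smul_eq G P Q
    obtain ⟨x, hx, y, hy, rfl⟩ := h12 g
    intro n hn
    have hn' : x * n * x⁻¹ ∈ N := by
      have := hnorm x⁻¹ (H₁.inv_mem hx) n hn
      simpa using this
    have h1 : x * n * x⁻¹ ∈ (Q : Subgroup G) := hQ hn'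
    rw [← hg, Sylow.coe_subgroup_smul, Subgroup.mem_pointwise_smul_iff_inv_smul_mem] at h1
    have h2 := hPH h1
    simp only [MulAut.smul_def, MulAut.conj_inv_apply, mul_inv_rev] at h2
    have h3 : y * (y⁻¹ * x⁻¹ * (x * n * x⁻¹) * (x * y)) * y⁻¹ ∈ H₂ :=
      H₂.mul_mem (H₂.mul_mem hy h2) (H₂.inv_mem hy)
    have h4 : y * (y⁻¹ * x⁻¹ * (x * n * x⁻¹) * (x * y)) * y⁻¹ = n := by group
    rwa [h4] at h3
  rw [Subgroup.normalClosure, Subgroup.closure_le]
  intro c hc
  rw [Group.mem_conjugatesOfSet_iff] at hc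
  obtain ⟨n, hn, hc⟩ := hc
  rw [isConj_iff] at hc
  obtain ⟨g, rfl⟩ := hc
  obtain ⟨x, hx, y, hy, hg⟩ := h12 g⁻¹
  have hg' : g = y⁻¹ * x⁻¹ := by
    rw [← inv_inv g, hg]; group
  have h1 : x⁻¹ * n * x ∈ H₂ := hNH (hnorm x hx n hn)
  have h2 : g * n * g⁻¹ = y⁻¹ * (x⁻¹ * n * x) * y := by rw [hg']; group
  rw [SetLike.mem_coe, h2]
  exact H₂.mul_mem (H₂.mul_mem (H₂.inv_mem hy) h1) hy

theorem aux (n : ℕ) : ∀ {G : Type u} [Group G] [Finite G], Nat.card G = n →
    ∀ (H₁ H₂ H₃ : Subgroup G), Group.IsSolvable H₁ → Group.IsSolvable H₂ → Group.IsSolvable H₃ →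
    (∀ g : G, ∃ x ∈ H₁, ∃ y ∈ H₂, g = x * y) → (∀ g : G, ∃ x ∈ H₁, ∃ y ∈ H₃, g = x * y) →
    H₂.index.Coprime H₃.index → Group.IsSolvable G := by
  induction n using Nat.strong_induction_on with
  | _ n ih =>
    intro G _ _ hn H₁ H₂ H₃ h₁ h₂ h₃ h12 h13 hcop
    by_cases hbot : H₁ = ⊥
    · have htop : H₂ = ⊤ := by
        rw [eq_top_iff]
        intro g _
        obtain ⟨x, hx, y, hy, rfl⟩ := h12 g
        rw [hbot, Subgroup.mem_bot] at hx
        rw [hx, one_mul]; exact hy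
      rw [htop] at h₂
      exact Group.isSolvable_of_surjective (f := (Subgroup.topEquiv (G := G)).toMonoidHom)
        (Subgroup.topEquiv (G := G)).surjective
    have hnt : Nontrivial H₁ := (Subgroup.nontrivial_iff_ne_bot H₁).mpr hbot
    obtain ⟨p, M, hp, hMn, hMne, -, hexp⟩ := exists_normal_elementary_abelian (G := H₁)
    have := Fact.mk hp
    set N : Subgroup G := M.map H₁.subtype with hN
    have hNp : IsPGroup p N := by
      rintro ⟨x, hx⟩
      obtain ⟨y, hy, rfl⟩ := hx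
      refine ⟨1, ?_⟩
      have := hexp y hy
      ext
      simp only [pow_one, Subgroup.coe_pow, Subgroup.coe_one]
      have h2 := congrArg (Subtype.val) this
      simpa using h2
    have hNne : N ≠ ⊥ := by
      intro h
      apply hMne
      rw [hN, Subgroup.map_eq_bot_iff_of_injective _ H₁.subtype_injective] at h
      exact h
    have hnorm : ∀ x ∈ H₁, ∀ n ∈ N, x⁻¹ * n * x ∈ N := by
      rintro x hx _ ⟨y, hy, rfl⟩
      refine ⟨(⟨x, hx⟩ : H₁)⁻¹ * y * ⟨x, hx⟩, ?_, by simp⟩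
      have := hMn.conj_mem y hy (⟨x, hx⟩ : H₁)⁻¹
      simpa using this
    -- the normal closure is solvable
    set K : Subgroup G := Subgroup.normalClosure (N : Set G) with hK
    have hKs : Group.IsSolvable K := by
      by_cases hp2 : p ∣ H₂.index
      · have hp3 : ¬ p ∣ H₃.index := by
          intro h
          have := Nat.dvd_gcd hp2 h
          rw [hcop] at this
          exact hp.one_lt.ne' (Nat.dvd_one.mp this)
        exact solvable_of_le (normalClosure_le H₁ H₃ p N hNp hnorm h13 hp3) h₃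
      · exact solvable_of_le (normalClosure_le H₁ H₂ p N hNp hnorm h12 hp2) h₂
    have hKne : K ≠ ⊥ := by
      intro h
      apply hNne
      rw [eq_bot_iff, ← h]
      exact Subgroup.le_normalClosure
    have hKn : K.Normal := Subgroup.normalClosure_normal
    have hK1 : 1 < Nat.card K := by rwa [Subgroup.one_lt_card_iff_ne_bot]
    have hq : Group.IsSolvable (G ⧸ K) := by
      refine ih _ (hn ▸ card_quotient_lt K hK1) rfl (H₁.map (QuotientGroup.mk' K))
        (H₂.map (QuotientGroup.mk' K)) (H₃.map (QuotientGroup.mk' K)) (solvable_map _ h₁)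
        (solvable_map _ h₂) (solvable_map _ h₃) ?_ ?_ ?_
      · intro q
        obtain ⟨g, rfl⟩ := QuotientGroup.mk'_surjective K q
        obtain ⟨x, hx, y, hy, rfl⟩ := h12 g
        exact ⟨_, Subgroup.mem_map_of_mem _ hx, _, Subgroup.mem_map_of_mem _ hy, map_mul _ _ _⟩
      · intro q
        obtain ⟨g, rfl⟩ := QuotientGroup.mk'_surjective K q
        obtain ⟨x, hx, y, hy, rfl⟩ := h13 g
        exact ⟨_, Subgroup.mem_map_of_mem _ hx, _, Subgroup.mem_map_of_mem _ hy, map_mul _ _ _⟩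
      · exact Nat.Coprime.of_dvd (Subgroup.index_map_dvd _ (QuotientGroup.mk'_surjective K))
          (Subgroup.index_map_dvd _ (QuotientGroup.mk'_surjective K)) hcop
    exact isSolvable_of_normal K

/-- A finite group that factorises as H₁H₂ and as H₁H₃ with all three subgroups solvable and the indices of H₂ and H₃ coprime is solvable. -/
theorem result {G : Type*} [Group G] [Finite G] (H₁ H₂ H₃ : Subgroup G)
    (h₁ : Group.IsSolvable H₁) (h₂ : Group.IsSolvable H₂) (h₃ : Group.IsSolvable H₃)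
    (h12 : ∀ g : G, ∃ x ∈ H₁, ∃ y ∈ H₂, g = x * y) (h13 : ∀ g : G, ∃ x ∈ H₁, ∃ y ∈ H₃, g = x * y)
    (hcop : H₂.index.Coprime H₃.index) : Group.IsSolvable G := by
  exact aux _ rfl H₁ H₂ H₃ h₁ h₂ h₃ h12 h13 hcop

end Cfsg.Agent.S0019
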