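import Cfsg.Statements.S0030
import Cfsg.Agent.Lib.Helper1.Coprime

set_option autoImplicit false
open Cfsg

namespace Cfsg.Agent.S0030

/-- Under coprime action fixed points of a product of two invariant subgroups factor: if K = X Y with X and Y normalised by A then every A-fixed element of K is a product of an A-fixed element of X and an A-fixed element of Y. -/
theorem result {G : Type*} [Group G] [Finite G] (A K : Subgroup G) (hAK : A ≤ Subgroup.normalizer (K : Set G))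
    (hcop : (Nat.card A).Coprime (Nat.card K)) (hsolv : Group.IsSolvable A ∨ Group.IsSolvable K)
    (X Y : Subgroup G) (hX : X ≤ K) (hY : Y ≤ K) (hXA : A ≤ Subgroup.normalizer (X : Set G)) (hYA : A ≤ Subgroup.normalizer (Y : Set G))
    (hXY : ∀ k ∈ K, ∃ x ∈ X, ∃ y ∈ Y, k = x * y) (k : G) (hk : k ∈ K ⊓ Subgroup.centralizer (A : Set G)) :
    ∃ x ∈ X ⊓ Subgroup.centralizer (A : Set G), ∃ y ∈ Y ⊓ Subgroup.centralizer (A : Set G), k = x * y := by
  open Cfsg.Agent.Lib.Helper1 in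
  obtain ⟨x, hx, y, hy, rfl⟩ := hXY k hk.1
  have hcomm : ∀ a ∈ A, a * (x * y) = x * y * a := fun a ha => (Subgroup.mem_centralizer_iff.mp hk.2) a ha
  have hDK : X ⊓ Y ≤ K := inf_le_left.trans hX
  obtain ⟨d, hd, hc⟩ := Cfsg.Agent.Lib.Helper1.coprime_key (X ⊓ Y) A
    (Cfsg.Agent.Lib.Helper1.le_normalizer_inf hXA hYA)
    (Nat.Coprime.of_dvd_left (Subgroup.card_dvd_of_le hDK) hcop.symm)
    (hsolv.symm.imp (Cfsg.Agent.Lib.Helper1.solvable_of_le hDK) id) x (fun a ha => by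
      constructor
      · have : x⁻¹ * a * x * a⁻¹ = x⁻¹ * (a * x * a⁻¹) := by group
        rw [this]
        exact X.mul_mem (X.inv_mem hx) (Cfsg.Agent.Lib.Helper1.conj_mem_of_mem_normalizer (hXA ha) hx)
      · have : x⁻¹ * a * x * a⁻¹ = y * (a * y⁻¹ * a⁻¹) := by
          calc x⁻¹ * a * x * a⁻¹ = x⁻¹ * (a * (x * y)) * y⁻¹ * a⁻¹ := by group
            _ = x⁻¹ * (x * y * a) * y⁻¹ * a⁻¹ := by rw [hcomm a ha]
            _ = y * (a * y⁻¹ * a⁻¹) := by group
        rw [this]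
        exact Y.mul_mem hy (Cfsg.Agent.Lib.Helper1.conj_mem_of_mem_normalizer (hYA ha) (Y.inv_mem hy)))
  refine ⟨x * d, ⟨X.mul_mem hx hd.1, hc⟩, d⁻¹ * y, ⟨Y.mul_mem (Y.inv_mem hd.2) hy, ?_⟩, by group⟩
  have : d⁻¹ * y = (x * d)⁻¹ * (x * y) := by group
  rw [this]
  exact (Subgroup.centralizer (A : Set G)).mul_mem ((Subgroup.centralizer (A : Set G)).inv_mem hc) hk.2

end Cfsg.Agent.S0030
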