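import Mathlib
import Cfsg.Statements.S0049

set_option autoImplicit false
open Cfsg

namespace Cfsg.Agent.S0049

/-- A prime divisor of the order of a finite group also divides the index of the Frattini subgroup. -/
theorem result {G : Type*} [Group G] [Finite G] (p : ℕ) (hp : p.Prime) (hdvd : p ∣ Nat.card G) :
    p ∣ (frattini G).index := by
  by_contra hnd
  haveI : Fact p.Prime := ⟨hp⟩
  obtain ⟨P⟩ : Nonempty (Sylow p G) := inferInstance
  have hPle : (P : Subgroup G) ≤ frattini G := by
    rw [← Subgroup.relIndex_eq_one]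
    obtain ⟨k, hk⟩ := P.2.exists_card_eq
    have h4 : ((frattini G).index).Coprime (Nat.card P) := by
      rw [hk]
      exact (hp.coprime_pow_of_not_dvd hnd)
    exact Nat.eq_one_of_dvd_coprimes h4 ((frattini G).relIndex_dvd_index_of_normal P)
      (Subgroup.relIndex_dvd_card (frattini G) P)
  have h1 : Subgroup.normalizer ((P : Subgroup G) : Set G) ⊔ frattini G = ⊤ :=
    Sylow.normalizer_sup_eq_top' P hPle
  have h2 : Subgroup.normalizer ((P : Subgroup G) : Set G) = ⊤ := frattini_nongenerating h1
  haveI hPn : (P : Subgroup G).Normal := Subgroup.normalizer_eq_top_iff.mp h2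
  obtain ⟨H, hH⟩ := Subgroup.exists_right_complement'_of_coprime (N := (P : Subgroup G))
    P.card_coprime_index
  have h3 : H ⊔ frattini G = ⊤ := by
    have : (P : Subgroup G) ⊔ H = ⊤ := hH.sup_eq_top
    rw [eq_top_iff, ← this]
    exact sup_le (hPle.trans le_sup_right) le_sup_left
  have h4 : H = ⊤ := frattini_nongenerating h3
  have h5 : (P : Subgroup G) = ⊥ := by
    have := hH.disjoint.eq_bot
    rwa [h4, inf_top_eq] at this
  have h6 : p ∣ Nat.card (P : Subgroup G) := by
    have := P.dvd_card_of_dvd_card hdvd
    exact this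
  rw [h5] at h6
  simp at h6
  exact hp.one_lt.ne' h6

end Cfsg.Agent.S0049
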