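import Mathlib
import Cfsg.Statements.S0050
import Cfsg.Agent.Lib.Helper1.Hall

set_option autoImplicit false
open Cfsg
open scoped Pointwise

namespace Cfsg.Agent.S0050

open Cfsg.Agent.Lib.Helper1

/-- Frattini argument for Hall subgroups: if L is a solvable normal subgroup and H a subgroup of L of order coprime to its index in L, then L together with the normaliser of H generates the whole group. -/
theorem result {G : Type*} [Group G] [Finite G] (L : Subgroup G) [L.Normal] (hL : Group.IsSolvable L)
    (H : Subgroup G) (hHL : H ≤ L) (hHall : (Nat.card H).Coprime (H.relIndex L)) :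
    L ⊔ Subgroup.normalizer (H : Set G) = ⊤ := by
  rw [eq_top_iff]
  intro g _
  -- the conjugate of H by g lies in L and has the same order
  set K : Subgroup G := MulAut.conj g • H with hK
  have hKL : K ≤ L := by
    intro x hx
    rw [hK, mem_conj_smul] at hx
    have := ‹L.Normal›.conj_mem _ (hHL hx) g
    simpa [mul_assoc] using this
  have hcardL : Nat.card L = Nat.card H * H.relIndex L := by
    rw [← card_subgroupOf_of_le hHL]
    exact ((H.subgroupOf L).card_mul_index).symm
  obtain ⟨l, hl⟩ := hall_conj (G := L) (Nat.card H) (H.relIndex L) hcardL hHall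
    (K.subgroupOf L) (H.subgroupOf L)
    (by rw [card_subgroupOf_of_le hKL, hK, card_conj_smul]) (card_subgroupOf_of_le hHL)
  have h1 : MulAut.conj (l : G) • K = H := conj_smul_of_subgroupOf hKL hHL l hl
  have h2 : MulAut.conj ((l : G) * g) • H = H := by
    rw [map_mul, mul_smul, ← hK, h1]
  have h3 : (l : G) * g ∈ Subgroup.normalizer (H : Set G) :=
    conj_smul_eq_self_iff_mem_normalizer.mp h2
  have : g = (l : G)⁻¹ * ((l : G) * g) := by group
  rw [this]
  exact Subgroup.mul_mem_sup (L.inv_mem l.2) h3

end Cfsg.Agent.S0050
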