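import Mathlib
import Cfsg.Statements.S0053

set_option autoImplicit false
open Cfsg

namespace Cfsg.Agent.S0053

/-- An abelian minimal normal subgroup N of a finite group is complemented exactly when N is not inside the Frattini subgroup. -/
theorem result {G : Type*} [Group G] [Finite G]
    (N : Subgroup G) [N.Normal] [IsMulCommutative N] (hN : N ≠ ⊥)
    (hmin : ∀ M : Subgroup G, M.Normal → M ≤ N → M = ⊥ ∨ M = N) :
    (∃ H : Subgroup G, Subgroup.IsComplement' N H) ↔ ¬ N ≤ frattini G := by
  constructor
  · rintro ⟨H, hH⟩ hle
    have h3 : H ⊔ frattini G = ⊤ := by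
      have : N ⊔ H = ⊤ := hH.sup_eq_top
      rw [eq_top_iff, ← this]
      exact sup_le (hle.trans le_sup_right) le_sup_left
    have h4 : H = ⊤ := frattini_nongenerating h3
    have := hH.disjoint.eq_bot
    rw [h4, inf_top_eq] at this
    exact hN this
  · intro hle
    -- some maximal subgroup does not contain N
    have : ∃ M : Subgroup G, IsCoatom M ∧ ¬ N ≤ M := by
      by_contra hcon
      push Not at hcon
      apply hle
      rw [frattini, Order.radical]
      exact le_iInf₂ (fun M hM => hcon M hM)
    obtain ⟨M, hM, hNM⟩ := this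
    have hsup : N ⊔ M = ⊤ := by
      apply hM.2
      exact lt_of_le_of_ne le_sup_right (fun h => hNM (h ▸ le_sup_left))
    have hc : ∀ a ∈ N, ∀ b ∈ N, a * b = b * a := by
      intro a ha b hb
      have := mul_comm' (⟨a, ha⟩ : N) ⟨b, hb⟩
      exact congrArg Subtype.val this
    have hnor : (N ⊓ M).Normal := by
      rw [← Subgroup.normalizer_eq_top_iff, eq_top_iff, ← hsup]
      apply sup_le
      · intro n hn
        rw [Subgroup.mem_normalizer_iff]
        intro x
        constructor
        · rintro ⟨hx1, hx2⟩
          have : n * x * n⁻¹ = x := by rw [hc n hn x hx1]; group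
          rw [this]; exact ⟨hx1, hx2⟩
        · rintro ⟨hx1, hx2⟩
          have hxN : x ∈ N := by
            have := ‹N.Normal›.conj_mem _ hx1 n⁻¹
            simpa [mul_assoc] using this
          have : n * x * n⁻¹ = x := by rw [hc n hn x hxN]; group
          rw [this] at hx2
          exact ⟨hxN, hx2⟩
      · intro m hm
        rw [Subgroup.mem_normalizer_iff]
        intro x
        constructor
        · rintro ⟨hx1, hx2⟩
          exact ⟨‹N.Normal›.conj_mem _ hx1 m, M.mul_mem (M.mul_mem hm hx2) (M.inv_mem hm)⟩
        · rintro ⟨hx1, hx2⟩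
          constructor
          · have := ‹N.Normal›.conj_mem _ hx1 m⁻¹
            simpa [mul_assoc] using this
          · have := M.mul_mem (M.mul_mem (M.inv_mem hm) hx2) hm
            simpa [mul_assoc] using this
    refine ⟨M, ?_⟩
    rcases hmin _ hnor inf_le_left with h | h
    · exact Subgroup.isComplement'_of_disjoint_and_mul_eq_univ (disjoint_iff.mpr h) (by
        rw [← Subgroup.normal_mul, hsup]; rfl)
    · exact absurd (h ▸ inf_le_right) hNM

end Cfsg.Agent.S0053
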