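import Mathlib
import Cfsg.Statements.S0054

set_option autoImplicit false
open Cfsg

namespace Cfsg.Agent.S0054

/-- A regular normal subgroup of a finite 2-transitive group is elementary abelian: it is commutative and all its elements have order dividing one prime. -/
theorem result {G : Type*} [Group G] [Finite G]
    {X : Type*} [Nonempty X] [MulAction G X] (h2 : MulAction.IsMultiplyPretransitive G X 2)
    (N : Subgroup G) [N.Normal] (htrans : MulAction.IsPretransitive N X) (hreg : ∀ x : X, MulAction.stabilizer N x = ⊥) :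
    IsMulCommutative N ∧ ∃ p : ℕ, p.Prime ∧ ∀ n ∈ N, n ^ p = 1 := by
  obtain ⟨x₀⟩ := ‹Nonempty X›
  rw [MulAction.is_two_pretransitive_iff] at h2
  have hfree : ∀ n ∈ N, n • x₀ = x₀ → n = 1 := by
    intro n hn h
    have : (⟨n, hn⟩ : N) ∈ MulAction.stabilizer N x₀ := h
    rw [hreg, Subgroup.mem_bot] at this
    exact congrArg Subtype.val this
  have hconj : ∀ n ∈ N, n ≠ 1 → ∀ m ∈ N, m ≠ 1 → ∃ g : G, g * n * g⁻¹ = m := by
    intro n hn hn1 m hm hm1
    have h1 : x₀ ≠ n • x₀ := fun h => hn1 (hfree n hn h.symm)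
    have h3 : x₀ ≠ m • x₀ := fun h => hm1 (hfree m hm h.symm)
    obtain ⟨g, hg1, hg2⟩ := h2 h1 h3
    refine ⟨g, ?_⟩
    have h4 : (m⁻¹ * (g * n * g⁻¹)) • x₀ = x₀ := by
      have hg1' : g⁻¹ • x₀ = x₀ := by rw [inv_smul_eq_iff, hg1]
      rw [mul_smul, mul_smul, mul_smul, hg1', hg2, inv_smul_smul]
    have h5 := hfree _ (N.mul_mem (N.inv_mem hm) (‹N.Normal›.conj_mem n hn g)) h4
    calc g * n * g⁻¹ = m * (m⁻¹ * (g * n * g⁻¹)) := by group
      _ = m := by rw [h5, mul_one]
  by_cases hN : N = ⊥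
  · subst hN
    refine ⟨⟨⟨fun a b => ?_⟩⟩, 2, Nat.prime_two, ?_⟩
    · exact Subsingleton.elim _ _
    · intro n hn
      rw [Subgroup.mem_bot] at hn
      rw [hn, one_pow]
  have hcard : Nat.card N ≠ 1 := fun h => hN (Subgroup.card_eq_one.mp h)
  obtain ⟨p, hp, hpd⟩ := Nat.exists_prime_and_dvd hcard
  have : Fact p.Prime := ⟨hp⟩
  obtain ⟨x, hx⟩ := exists_prime_orderOf_dvd_card' (G := N) p hpd
  have hx1 : (x : G) ≠ 1 := by
    intro h
    have : x = 1 := Subtype.ext h
    rw [this, orderOf_one] at hx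
    exact hp.one_lt.ne hx
  have hxp : (x : G) ^ p = 1 := by
    have : x ^ p = 1 := by rw [← hx]; exact pow_orderOf_eq_one x
    exact_mod_cast congrArg Subtype.val this
  have hexp : ∀ n ∈ N, n ^ p = 1 := by
    intro n hn
    by_cases hn1 : n = 1
    · rw [hn1, one_pow]
    · obtain ⟨g, hg⟩ := hconj x x.2 hx1 n hn hn1
      rw [← hg, conj_pow, hxp]; group
  refine ⟨?_, p, hp, hexp⟩
  have hpg : IsPGroup p N := by
    intro y
    refine ⟨1, ?_⟩
    apply Subtype.ext
    simpa using hexp y y.2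
  have hnt : Nontrivial N := (Subgroup.nontrivial_iff_ne_bot N).mpr hN
  have hcen : Nontrivial (Subgroup.center N) := hpg.center_nontrivial
  obtain ⟨z, hz⟩ := exists_ne (1 : Subgroup.center N)
  have hz1 : ((z : N) : G) ≠ 1 := by
    intro h
    apply hz
    apply Subtype.ext
    apply Subtype.ext
    exact h
  have hzc : ∀ n ∈ N, n * ((z : N) : G) = ((z : N) : G) * n := by
    intro n hn
    have := Subgroup.mem_center_iff.mp z.2 ⟨n, hn⟩
    exact congrArg Subtype.val this
  have hall : ∀ m ∈ N, ∀ n ∈ N, n * m = m * n := by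
    intro m hm n hn
    by_cases hm1 : m = 1
    · rw [hm1]; simp
    · obtain ⟨g, hg⟩ := hconj _ (z : N).2 hz1 m hm hm1
      have h6 : g⁻¹ * n * g ∈ N := by
        have := ‹N.Normal›.conj_mem n hn g⁻¹
        simpa using this
      have h7 := hzc _ h6
      rw [← hg]
      calc n * (g * ((z : N) : G) * g⁻¹) = g * ((g⁻¹ * n * g) * ((z : N) : G)) * g⁻¹ := by group
        _ = g * (((z : N) : G) * (g⁻¹ * n * g)) * g⁻¹ := by rw [h7]
        _ = g * ((z : N) : G) * g⁻¹ * n := by group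
  exact ⟨⟨fun a b => Subtype.ext (hall b b.2 a a.2)⟩⟩

end Cfsg.Agent.S0054
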