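import Cfsg.Statements.S0057
import Cfsg.Agent.Lib.Helper1.CoprimeSylow
import Cfsg.Agent.Lib.Helper1.PGrp
import Cfsg.Agent.Lib.Helper4.Basic
import Cfsg.Agent.Lib.Helper20.PGroup
import Cfsg.Agent.S0055

set_option autoImplicit false
open Cfsg

namespace Cfsg.Agent.S0057

open Cfsg.Agent.Lib.Helper1
open Subgroup
open scoped commutatorElement

/-- The `p`-group case. -/
theorem pgroup_case {G : Type*} [Group G] [Finite G] (A P : Subgroup G)
    (hAP : A ≤ normalizer (P : Set G))
    (hcop : (Nat.card A).Coprime (Nat.card P)) (p : ℕ) [hpF : Fact p.Prime] (hP : IsPGroup p P)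
    (hidx : (P ⊓ centralizer (A : Set G)).relIndex P = p) :
    Nat.card (⁅P, A⁆ : Subgroup G) = p ∧ ⁅P, A⁆ ⊓ centralizer (A : Set G) = ⊥ := by
  have hsolv : Group.IsSolvable A ∨ Group.IsSolvable P := Or.inr (solvable_of_isPGroup hP)
  have hRP : ⁅P, A⁆ ≤ P := commutator_le_of_le_normalizer hAP
  have hDn : P ≤ normalizer ((P ⊓ centralizer (A : Set G) : Subgroup G) : Set G) := by
    have : ((P ⊓ centralizer (A : Set G)).subgroupOf P).Normal :=
      Cfsg.Agent.Lib.Helper20.normal_of_index_eq_p hP _ hidx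
    exact (normal_subgroupOf_iff_le_normalizer inf_le_left).mp this
  have hDA : ⁅P ⊓ centralizer (A : Set G), A⁆ = ⊥ := by
    rw [commutator_eq_bot_iff_le_centralizer]
    exact inf_le_right
  have hRD : ⁅⁅P, A⁆, P ⊓ centralizer (A : Set G)⁆ = ⊥ := by
    apply commutator_commutator_eq_bot_of_rotate
    · rw [commutator_comm A, hDA]; simp
    · have h1 : ⁅P ⊓ centralizer (A : Set G), P⁆ ≤ P ⊓ centralizer (A : Set G) :=
        commutator_le_of_le_normalizer hDn
      exact le_bot_iff.mp ((commutator_mono h1 le_rfl).trans hDA.le)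
  have hsup := coprime_commutator_sup_centralizer A P hAP hcop hsolv
  have hcard := Cfsg.Agent.Lib.Helper4.card_mul_card_eq_of_le_normalizer ⁅P, A⁆
    (P ⊓ centralizer (A : Set G)) (hRP.trans hDn)
  rw [hsup] at hcard
  have hPc := Cfsg.Agent.Lib.Helper4.card_eq_mul_relIndex
    (inf_le_left : P ⊓ centralizer (A : Set G) ≤ P)
  rw [hidx] at hPc
  have hinf : ⁅P, A⁆ ⊓ (P ⊓ centralizer (A : Set G)) = ⁅P, A⁆ ⊓ centralizer (A : Set G) := by
    rw [← inf_assoc, inf_eq_left.mpr hRP]
  rw [hinf] at hcard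
  have hDpos : 0 < Nat.card (P ⊓ centralizer (A : Set G) : Subgroup G) := Nat.card_pos
  have hRc : Nat.card (⁅P, A⁆ : Subgroup G) =
      Nat.card (⁅P, A⁆ ⊓ centralizer (A : Set G) : Subgroup G) * p := by
    rw [hPc] at hcard
    have : Nat.card (P ⊓ centralizer (A : Set G) : Subgroup G) * Nat.card (⁅P, A⁆ : Subgroup G) =
      Nat.card (P ⊓ centralizer (A : Set G) : Subgroup G) *
        (Nat.card (⁅P, A⁆ ⊓ centralizer (A : Set G) : Subgroup G) * p) := by
      rw [mul_comm, hcard]; ring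
    exact Nat.eq_of_mul_eq_mul_left hDpos this
  -- `R` is abelian
  have hcen : (⁅P, A⁆ ⊓ centralizer (A : Set G)).subgroupOf ⁅P, A⁆ ≤ center ↥⁅P, A⁆ := by
    intro x hx
    rw [mem_subgroupOf] at hx
    rw [mem_center_iff]
    intro y
    have h2 : (x : G) ∈ P ⊓ centralizer (A : Set G) := ⟨hRP hx.1, hx.2⟩
    have h3 := (commutator_eq_bot_iff_le_centralizer.mp hRD) y.2
    rw [mem_centralizer_iff] at h3
    exact Subtype.ext (h3 x h2).symm
  have hRcomm : IsMulCommutative ↥⁅P, A⁆ := by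
    have hn : ((⁅P, A⁆ ⊓ centralizer (A : Set G)).subgroupOf ⁅P, A⁆).Normal := by
      constructor
      intro n hn g
      have := mem_center_iff.mp (hcen hn) g
      rw [this, mul_inv_cancel_right]; exact hn
    have hidx2 : ((⁅P, A⁆ ⊓ centralizer (A : Set G)).subgroupOf ⁅P, A⁆).index = p := by
      have h4 := Cfsg.Agent.Lib.Helper4.card_eq_mul_relIndex
        (inf_le_left : ⁅P, A⁆ ⊓ centralizer (A : Set G) ≤ ⁅P, A⁆)
      rw [hRc] at h4
      exact (Nat.eq_of_mul_eq_mul_left Nat.card_pos h4).symm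
    have : IsCyclic (↥⁅P, A⁆ ⧸ (⁅P, A⁆ ⊓ centralizer (A : Set G)).subgroupOf ⁅P, A⁆) :=
      isCyclic_of_prime_card (p := p) hidx2
    exact (QuotientGroup.mk' ((⁅P, A⁆ ⊓ centralizer (A : Set G)).subgroupOf
      ⁅P, A⁆)).isMulCommutative_of_isCyclic_of_ker_le_center (by rwa [QuotientGroup.ker_mk'])
  have h55 := (Cfsg.Agent.S0055.result A ⁅P, A⁆ (le_normalizer_commutator_right hAP)
    (Nat.Coprime.of_dvd_right (card_dvd_of_le hRP) hcop)).1
  rw [coprime_commutator_stable A P hAP hcop hsolv, inf_comm, ← inf_assoc, inf_idem] at h55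
  refine ⟨?_, h55⟩
  rw [hRc, h55]; simp

/-- Under coprime action, if the centraliser of A in K has prime index p in K then the commutator subgroup [K, A] has order exactly p. -/
theorem result {G : Type*} [Group G] [Finite G] (A K : Subgroup G) (hAK : A ≤ Subgroup.normalizer (K : Set G))
    (hcop : (Nat.card A).Coprime (Nat.card K)) (hsolv : Group.IsSolvable A ∨ Group.IsSolvable K)
    (p : ℕ) (hp : p.Prime) (hidx : (K ⊓ Subgroup.centralizer (A : Set G)).relIndex K = p) :
    Nat.card (⁅K, A⁆ : Subgroup G) = p := by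
  have : Fact p.Prime := ⟨hp⟩
  obtain ⟨P₀, hAP⟩ := coprime_exists_invariant_sylow A K hAK hcop hsolv p
  obtain ⟨P, hPdef⟩ : ∃ P, P = sylImg P₀ := ⟨_, rfl⟩
  rw [← hPdef] at hAP
  have hPK : P ≤ K := hPdef ▸ sylImg_le P₀
  have hP : IsPGroup p P := by
    rw [hPdef]; exact P₀.2.map _
  have hPidx : ¬ p ∣ P.relIndex K := by
    have : P.subgroupOf K = P₀ := by
      rw [hPdef]; exact comap_map_eq_self_of_injective K.subtype_injective _
    rw [relIndex, this]
    exact P₀.not_dvd_index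
  have hcop' : (Nat.card A).Coprime (Nat.card P) := Nat.Coprime.of_dvd_right (card_dvd_of_le hPK) hcop
  have h1 : (P ⊓ centralizer (A : Set G)).relIndex P = p := by
    rw [inf_relIndex_left] at hidx ⊢
    have hle : (centralizer (A : Set G)).relIndex P ≤ p := by
      rw [← hidx]
      exact relIndex_le_of_le_right hPK (by rw [hidx]; exact hp.ne_zero)
    obtain ⟨n, hn⟩ := IsPGroup.iff_card.mp hP
    have hdvd : (centralizer (A : Set G)).relIndex P ∣ p ^ n := hn ▸ relIndex_dvd_card _ _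
    obtain ⟨k, -, hk⟩ := (Nat.dvd_prime_pow hp).mp hdvd
    rcases k with _ | _ | k
    · exfalso
      rw [pow_zero, relIndex_eq_one] at hk
      apply hPidx
      have h2 : P ≤ K ⊓ centralizer (A : Set G) := le_inf hPK hk
      rw [← relIndex_mul_relIndex P _ K h2 inf_le_left, inf_relIndex_left, hidx]
      exact dvd_mul_left _ _
    · simpa using hk
    · exfalso
      rw [hk] at hle
      have : p ^ 1 < p ^ (k + 1 + 1) := Nat.pow_lt_pow_right hp.one_lt (by omega)
      rw [pow_one] at this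
      omega
  obtain ⟨hRc, hRC⟩ := pgroup_case A P hAP hcop' p hP h1
  have hRK : ⁅P, A⁆ ≤ K := (commutator_le_of_le_normalizer hAP).trans hPK
  have hcompl : IsComplement' (⁅P, A⁆.subgroupOf K)
      ((K ⊓ centralizer (A : Set G)).subgroupOf K) := by
    apply isComplement'_of_card_mul_and_disjoint
    · rw [card_subgroupOf_of_le hRK, card_subgroupOf_of_le inf_le_left, hRc,
        Cfsg.Agent.Lib.Helper4.card_eq_mul_relIndex
          (inf_le_left : K ⊓ centralizer (A : Set G) ≤ K), hidx, mul_comm]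
    · rw [disjoint_iff, eq_bot_iff]
      intro x hx
      rw [mem_inf, mem_subgroupOf, mem_subgroupOf] at hx
      have : (x : G) ∈ ⁅P, A⁆ ⊓ centralizer (A : Set G) := ⟨hx.1, hx.2.2⟩
      rw [hRC, mem_bot] at this
      rw [mem_bot]; exact Subtype.ext this
  have hle : ⁅K, A⁆ ≤ ⁅P, A⁆ := by
    rw [commutator_le]
    intro g hg a ha
    obtain ⟨r, hr, c, hc, hgrc⟩ := IsComplement'.exists_mul hcompl ⟨g, hg⟩
    rw [mem_subgroupOf] at hr hc
    have hg' : g = (r : G) * (c : G) := congrArg Subtype.val hgrc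
    have hca : a * (c : G) = (c : G) * a := (mem_centralizer_iff.mp hc.2) a ha
    have : ⁅g, a⁆ = ⁅(r : G), a⁆ := by
      rw [hg', commutatorElement_def, commutatorElement_def, mul_inv_rev]
      have : (r : G) * (c : G) * a * ((c : G)⁻¹ * (r : G)⁻¹) * a⁻¹ =
          (r : G) * ((c : G) * a) * (c : G)⁻¹ * (r : G)⁻¹ * a⁻¹ := by group
      rw [this, ← hca]; group
    rw [this]
    exact commutator_mem_commutator ((commutator_le_of_le_normalizer hAP) hr) ha
  rw [le_antisymm hle (commutator_mono hPK le_rfl), hRc]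

end Cfsg.Agent.S0057
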