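import Mathlib
import Cfsg.Statements.S0059
import Cfsg.Agent.Lib.Helper1.Coprime

set_option autoImplicit false
open Cfsg
open scoped Pointwise

namespace Cfsg.Agent.S0059

open Cfsg.Agent.Lib.Helper1

/-- Let a finite group act on a set on which a normal subgroup K of coprime order and index is transitive, with K or the quotient solvable. Then any complement H of K has a fixed point, and any two H-fixed points are interchanged by an element of K centralising H. -/
theorem result {G : Type*} [Group G] [Finite G] {X : Type*} [Nonempty X] [MulAction G X]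
    (K H : Subgroup G) [K.Normal] (hc : Subgroup.IsComplement' K H) (hcop : (Nat.card K).Coprime K.index)
    (hsolv : Group.IsSolvable K ∨ Group.IsSolvable (G ⧸ K)) (htrans : MulAction.IsPretransitive K X) :
    (∃ x : X, ∀ h ∈ H, h • x = x) ∧
    ∀ x y : X, (∀ h ∈ H, h • x = x) → (∀ h ∈ H, h • y = y) → ∃ k ∈ K ⊓ Subgroup.centralizer (H : Set G), k • x = y := by
  have hHK : H ≤ Subgroup.normalizer (K : Set G) := by
    rw [Subgroup.normalizer_eq_top_iff.mpr inferInstance]; exact le_top
  have hcardH : K.index = Nat.card H := hc.symm.index_eq_card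
  have hcop' : (Nat.card K).Coprime (Nat.card H) := hcardH ▸ hcop
  have hsolv' : Group.IsSolvable K ∨ Group.IsSolvable H := by
    rcases hsolv with h | h
    · exact Or.inl h
    · right
      exact Group.isSolvable_of_surjective (f := (hc.symm.QuotientMulEquiv).toMonoidHom)
        (hc.symm.QuotientMulEquiv).surjective
  have htr : ∀ x y : X, ∃ k ∈ K, k • x = y := by
    intro x y
    obtain ⟨k, hk⟩ := MulAction.exists_smul_eq K x y
    exact ⟨k, k.2, hk⟩
  constructor
  · obtain ⟨x₀⟩ := ‹Nonempty X›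
    obtain ⟨k, hk, hle⟩ := coprime_exists_conj_le K H (MulAction.stabilizer G x₀) hHK hcop' hsolv' (by
      intro a ha
      obtain ⟨k', hk', h⟩ := htr x₀ (a • x₀)
      refine ⟨k'⁻¹, K.inv_mem hk', ?_⟩
      rw [MulAction.mem_stabilizer_iff, mul_smul, ← h, inv_smul_smul])
    refine ⟨k⁻¹ • x₀, ?_⟩
    intro h hh
    have : k * h * k⁻¹ ∈ MulAction.stabilizer G x₀ := hle (conj_mem_conj_smul hh)
    rw [MulAction.mem_stabilizer_iff, mul_smul, mul_smul] at this
    calc h • k⁻¹ • x₀ = k⁻¹ • (k • h • k⁻¹ • x₀) := by rw [inv_smul_smul]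
      _ = k⁻¹ • x₀ := by rw [this]
  · intro x y hx hy
    obtain ⟨k, hk, hkxy⟩ := htr x y
    set N : Subgroup G := K ⊓ MulAction.stabilizer G x with hN
    have hHN : H ≤ Subgroup.normalizer (N : Set G) := by
      apply le_normalizer_of_forall_conj_mem
      intro a ha n hn
      obtain ⟨hn1, hn2⟩ := Subgroup.mem_inf.mp hn
      refine Subgroup.mem_inf.mpr ⟨‹K.Normal›.conj_mem n hn1 a, ?_⟩
      rw [MulAction.mem_stabilizer_iff] at hn2 ⊢
      have ha' : a⁻¹ • x = x := by rw [inv_smul_eq_iff, hx a ha]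
      rw [mul_smul, mul_smul, ha', hn2, hx a ha]
    have hcopN : (Nat.card N).Coprime (Nat.card H) :=
      Nat.Coprime.of_dvd_left (Subgroup.card_dvd_of_le inf_le_left) hcop'
    have hsolvN : Group.IsSolvable N ∨ Group.IsSolvable H := by
      rcases hsolv' with h | h
      · exact Or.inl (solvable_of_le inf_le_left h)
      · exact Or.inr h
    obtain ⟨n, hn, hkn⟩ := coprime_key N H hHN hcopN hsolvN k (by
      intro a ha
      have ha' : a⁻¹ • x = x := by rw [inv_smul_eq_iff, hx a ha]
      refine Subgroup.mem_inf.mpr ⟨?_, ?_⟩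
      · have h1 : a * k * a⁻¹ ∈ K := ‹K.Normal›.conj_mem k hk a
        have := K.mul_mem (K.inv_mem hk) h1
        simpa [mul_assoc] using this
      · rw [MulAction.mem_stabilizer_iff, mul_smul, mul_smul, mul_smul, ha', hkxy, hy a ha, ← hkxy,
          inv_smul_smul])
    obtain ⟨hn1, hn2⟩ := Subgroup.mem_inf.mp hn
    refine ⟨k * n, Subgroup.mem_inf.mpr ⟨K.mul_mem hk hn1, hkn⟩, ?_⟩
    rw [MulAction.mem_stabilizer_iff] at hn2
    rw [mul_smul, hn2, hkxy]

end Cfsg.Agent.S0059
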