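import Mathlib
import Cfsg.Statements.S0062
import Cfsg.Agent.Lib.Lead.Basic
import Cfsg.Agent.S0061

set_option autoImplicit false
open Cfsg

namespace Cfsg.Agent.S0062

open Cfsg.Agent.Lib.Lead

theorem aux {p q : ℕ} (hp : p.Prime) (hq : q.Prime) (hlt : q < p)
    (G : Type*) [Group G] [Finite G] (hG : Nat.card G = p ^ 2 * q ^ 2) : Group.IsSolvable G := by
  have : Fact p.Prime := ⟨hp⟩
  have : Fact q.Prime := ⟨hq⟩
  have hpq : p ≠ q := hlt.ne'
  have hfac : (p ^ 2 * q ^ 2).factorization p = 2 := by
    rw [Nat.factorization_mul (pow_ne_zero _ hp.ne_zero) (pow_ne_zero _ hq.ne_zero),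
      Nat.factorization_pow, Nat.factorization_pow]
    simp [hp.factorization_self, Nat.factorization_eq_zero_of_not_dvd
      (fun h => hpq ((Nat.prime_dvd_prime_iff_eq hp hq).mp h))]
  obtain ⟨P⟩ : Nonempty (Sylow p G) := inferInstance
  have hPc : Nat.card (P : Subgroup G) = p ^ 2 := by
    have := Sylow.card_eq_multiplicity P
    rw [hG, hfac] at this
    exact this
  have hPi : (P : Subgroup G).index = q ^ 2 := by
    have h1 := (P : Subgroup G).card_mul_index
    rw [hG, hPc] at h1
    exact Nat.eq_of_mul_eq_mul_left (pow_pos hp.pos 2) h1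
  have hnd := P.card_dvd_index
  rw [hPi] at hnd
  have hmod : Nat.card (Sylow p G) ≡ 1 [MOD p] := card_sylow_modEq_one p G
  obtain ⟨k, hk2, hk⟩ := (Nat.dvd_prime_pow hq).mp hnd
  have hk3 : k = 0 ∨ k = 1 ∨ k = 2 := by omega
  rcases hk3 with rfl | rfl | rfl
  · rw [pow_zero] at hk
    have : Subsingleton (Sylow p G) := (Nat.card_eq_one_iff_unique.mp hk).1
    have hPn : (P : Subgroup G).Normal := Sylow.normal_of_subsingleton P
    have h1 : Group.IsSolvable (P : Subgroup G) := isSolvable_of_isPGroup P.2
    have h2 : Group.IsSolvable (G ⧸ (P : Subgroup G)) :=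
      isSolvable_of_isPGroup (p := q) (IsPGroup.of_card (n := 2) (by rw [← Subgroup.index_eq_card, hPi]))
    exact isSolvable_of_normal _ h1 h2
  · exfalso
    rw [hk, pow_one] at hmod
    unfold Nat.ModEq at hmod
    rw [Nat.mod_eq_of_lt hlt, Nat.mod_eq_of_lt hp.one_lt] at hmod
    exact hq.one_lt.ne' hmod
  · rw [hk] at hmod
    have hdvd : p ∣ q ^ 2 - 1 := (Nat.modEq_iff_dvd' (Nat.one_le_pow _ _ hq.pos)).mp hmod.symm
    have hfact : q ^ 2 - 1 = (q - 1) * (q + 1) := by
      obtain ⟨r, rfl⟩ : ∃ r, q = r + 1 := ⟨q - 1, by have := hq.pos; omega⟩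
      simp only [Nat.add_sub_cancel]
      have : (r + 1) ^ 2 = r * (r + 1 + 1) + 1 := by ring
      omega
    rw [hfact] at hdvd
    have hq2 := hq.two_le
    rcases (Nat.Prime.dvd_mul hp).mp hdvd with h | h
    · exfalso
      have := Nat.le_of_dvd (by omega) h
      omega
    · have h1 := Nat.le_of_dvd (by omega) h
      have hpq1 : p = q + 1 := by omega
      have hq2' : q = 2 := by
        rcases hq.eq_two_or_odd with h2 | h2
        · exact h2
        · exfalso
          have h3 : p % 2 = 0 := by omega
          rcases hp.eq_two_or_odd with h4 | h4 <;> omega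
      subst hq2'
      have hp3 : p = 3 := hpq1
      subst hp3
      set K := (P : Subgroup G).normalCore with hK
      have hKn : K.Normal := Subgroup.normalCore_normal _
      have hKp : IsPGroup 3 K := P.2.to_le (Subgroup.normalCore_le _)
      have h1 : Group.IsSolvable K := isSolvable_of_isPGroup hKp
      have hd1 : K.index ∣ 24 := by
        have := index_normalCore_dvd_factorial (P : Subgroup G)
        rw [hPi] at this
        exact this
      have hd2 : K.index ∣ 36 := by
        have := K.index_dvd_card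
        rw [hG] at this
        exact this
      have hd3 : K.index ∣ 12 := Nat.dvd_gcd hd1 hd2
      have h2 : Group.IsSolvable (G ⧸ K) :=
        Cfsg.Agent.S0061.main Nat.prime_two Nat.prime_three _ (G ⧸ K) rfl
          ⟨2, by rw [← Subgroup.index_eq_card]; exact hd3⟩
      exact isSolvable_of_normal K h1 h2

/-- A finite group of order p^2 * q^2 with p and q prime is solvable. -/
theorem result {G : Type*} [Group G] [Finite G] (p q : ℕ) (hp : p.Prime) (hq : q.Prime)
    (hG : Nat.card G = p ^ 2 * q ^ 2) : Group.IsSolvable G := by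
  rcases lt_trichotomy p q with h | h | h
  · exact aux hq hp h G (by rw [hG, mul_comm])
  · subst h
    have : Fact p.Prime := ⟨hp⟩
    exact isSolvable_of_isPGroup (IsPGroup.of_card (n := 4) (by rw [hG]; ring))
  · exact aux hp hq h G hG

end Cfsg.Agent.S0062
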