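import Mathlib
import Cfsg.Statements.S0063

set_option autoImplicit false
open Cfsg

namespace Cfsg.Agent.S0063

universe u

theorem class_le_one_of_comm {G : Type*} [Group G] [Group.IsNilpotent G]
    (h : ∀ a b : G, a * b = b * a) : Group.nilpotencyClass G ≤ 1 := by
  rw [← Subgroup.upperCentralSeries_eq_top_iff_nilpotencyClass_le, Subgroup.upperCentralSeries_one,
    eq_top_iff]
  intro x _
  rw [Subgroup.mem_center_iff]
  intro g
  exact h g x

theorem aux (p : ℕ) [Fact p.Prime] : ∀ m : ℕ, ∀ (G : Type u) [Group G] [Finite G],
    Nat.card G = p ^ m → 1 < m → Group.nilpotencyClass G ≤ m - 1 := by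
  intro m
  induction m using Nat.strong_induction_on with
  | _ m ih =>
    intro G _ _ hG hm
    have hp : p.Prime := Fact.out
    have hpG : IsPGroup p G := IsPGroup.of_card hG
    have hnil : Group.IsNilpotent G := hpG.isNilpotent
    by_cases hm2 : m = 2
    · subst hm2
      exact class_le_one_of_comm (IsPGroup.commutative_of_card_eq_prime_sq hG)
    · obtain ⟨k, hk0, hk⟩ := IsPGroup.card_center_eq_prime_pow hG (by omega)
      have hkm : k ≤ m := by
        have h1 : Nat.card (Subgroup.center G) ∣ Nat.card G := Subgroup.card_subgroup_dvd_card _
        rw [hk, hG] at h1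
        exact (Nat.pow_dvd_pow_iff_le_right hp.one_lt).mp h1
      have hq : Nat.card (G ⧸ Subgroup.center G) = p ^ (m - k) := by
        have h1 := (Subgroup.center G).card_mul_index
        rw [hk, hG, Subgroup.index_eq_card] at h1
        have h2 : p ^ m = p ^ k * p ^ (m - k) := by rw [← pow_add]; congr 1; omega
        rw [h2] at h1
        exact Nat.eq_of_mul_eq_mul_left (pow_pos hp.pos k) h1
      by_cases hmk : 1 < m - k
      · have h1 := ih (m - k) (by omega) (G ⧸ Subgroup.center G) hq hmk
        rw [Group.nilpotencyClass_quotient_center] at h1
        omega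
      · have hcyc : IsCyclic (G ⧸ Subgroup.center G) := by
          have : m - k = 0 ∨ m - k = 1 := by omega
          rcases this with h | h
          · rw [h, pow_zero] at hq
            have : Subsingleton (G ⧸ Subgroup.center G) := (Nat.card_eq_one_iff_unique.mp hq).1
            infer_instance
          · rw [h, pow_one] at hq
            exact isCyclic_of_prime_card hq
        have hc : ∀ a b : G, a * b = b * a :=
          commutative_of_cyclic_center_quotient (QuotientGroup.mk' (Subgroup.center G))
            (by rw [QuotientGroup.ker_mk'])
        have := class_le_one_of_comm hc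
        omega

/-- A finite group of prime-power order p ^ m with m > 1 is nilpotent of class at most m - 1. -/
theorem result {G : Type*} [Group G] [Finite G] (p m : ℕ) [Fact p.Prime]
    (hG : Nat.card G = p ^ m) (hm : 1 < m) : Group.nilpotencyClass G ≤ m - 1 := by
  exact aux p m G hG hm

end Cfsg.Agent.S0063
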