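import Mathlib
import Cfsg.Statements.S0065

set_option autoImplicit false
open Cfsg

namespace Cfsg.Agent.S0065

/-- A nontrivial normal subgroup of a nilpotent group intersects the centre nontrivially. -/
theorem result {G : Type*} [Group G] [Finite G] [Group.IsNilpotent G]
    (N : Subgroup G) [N.Normal] (hN : N ≠ ⊥) : N ⊓ Subgroup.center G ≠ ⊥ := by
  classical
  obtain ⟨n, hn⟩ := (inferInstance : Group.IsNilpotent G).nilpotent'
  have hex : ∃ k, N ⊓ Subgroup.upperCentralSeries G k ≠ ⊥ := ⟨n, by rw [hn, inf_top_eq]; exact hN⟩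
  set k := Nat.find hex with hk
  have hk1 : N ⊓ Subgroup.upperCentralSeries G k ≠ ⊥ := Nat.find_spec hex
  have hk0 : k ≠ 0 := by
    intro h0
    rw [h0] at hk1
    simp at hk1
  obtain ⟨j, hj⟩ := Nat.exists_eq_succ_of_ne_zero hk0
  have hjbot : N ⊓ Subgroup.upperCentralSeries G j = ⊥ := by
    by_contra hcon
    have := Nat.find_min' hex hcon
    omega
  obtain ⟨x, hx, hx1⟩ : ∃ x : G, x ∈ N ⊓ Subgroup.upperCentralSeries G k ∧ x ≠ 1 := by
    obtain ⟨x, hx⟩ := Subgroup.ne_bot_iff_exists_ne_one.mp hk1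
    exact ⟨x.1, x.2, fun h => hx (Subtype.ext h)⟩
  intro hbot
  apply hx1
  have hxc : x ∈ Subgroup.center G := by
    rw [Subgroup.mem_center_iff]
    intro g
    have h1 : x * g * x⁻¹ * g⁻¹ ∈ Subgroup.upperCentralSeries G j := by
      have : x ∈ Subgroup.upperCentralSeries G k := (Subgroup.mem_inf.mp hx).2
      rw [hj, Nat.succ_eq_add_one, Subgroup.mem_upperCentralSeries_succ_iff] at this
      exact this g
    have h2 : x * g * x⁻¹ * g⁻¹ ∈ N := by
      have : x * (g * x⁻¹ * g⁻¹) ∈ N := N.mul_mem (Subgroup.mem_inf.mp hx).1 (‹N.Normal›.conj_mem _ (N.inv_mem (Subgroup.mem_inf.mp hx).1) g)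
      simpa [mul_assoc] using this
    have h3 : x * g * x⁻¹ * g⁻¹ ∈ N ⊓ Subgroup.upperCentralSeries G j := ⟨h2, h1⟩
    rw [hjbot, Subgroup.mem_bot] at h3
    have : x * g = g * x := by
      calc x * g = (x * g * x⁻¹ * g⁻¹) * (g * x) := by group
        _ = g * x := by rw [h3, one_mul]
    exact this.symm
  have : x ∈ N ⊓ Subgroup.center G := ⟨(Subgroup.mem_inf.mp hx).1, hxc⟩
  rw [hbot, Subgroup.mem_bot] at this
  exact this

end Cfsg.Agent.S0065
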