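import Cfsg.Statements.S0069
import Cfsg.Agent.Lib.Lead.ZCenter
import Cfsg.Agent.S0040
import Cfsg.Agent.S0068

set_option autoImplicit false
open Cfsg

namespace Cfsg.Agent.S0069

/-- subgroups of order `pq` of a Frobenius complement are cyclic -/
theorem pq_cyclic {G : Type*} [Group G] [Finite G] (H : Subgroup G)
    (hH : Cfsg.IsFrobeniusComplement H) (B : Subgroup G) (hBH : B ≤ H) (p q : ℕ) (hp : p.Prime)
    (hq : q.Prime) (hB : Nat.card B = p * q) :
    IsCyclic B := by
  open Cfsg.Agent.Lib.Lead in
  obtain ⟨N, hN, hNn, -⟩ := Cfsg.Agent.S0035.result H hH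
  obtain ⟨W, hW1, hWN, hWc, hHW⟩ := frob_exists_invariant_abelian hH hN hNn
  apply Cfsg.Agent.S0041.result B W hW1 (hBH.trans hHW) ?_ (Or.inr ⟨p, q, hp, hq, hB⟩)
  intro a ha ha1
  rw [eq_bot_iff]
  intro w hw
  have h1 : a * w * a⁻¹ = w := by
    have := Subgroup.mem_centralizer_iff.1 hw.2 a rfl
    rw [this]; group
  exact frob_fpf hH hN (hBH ha) ha1 (hWN hw.1) h1

/-- A Frobenius complement has nontrivial centre: if H ≠ 1 complements a nontrivial normal subgroup K and every nonidentity element of H has trivial centraliser in K, then the centre of H is nontrivial. -/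
theorem result {G : Type*} [Group G] [Finite G] (K H : Subgroup G) [K.Normal]
    (hc : Subgroup.IsComplement' K H) (hK : K ≠ ⊥) (hH : H ≠ ⊥) (hfpf : ∀ h ∈ H, h ≠ 1 → K ⊓ Subgroup.centralizer {h} = ⊥) :
    Subgroup.center H ≠ ⊥ := by
  by_cases heven : 2 ∣ Nat.card H
  · obtain ⟨⟨s, hs, hs2, huniq, -⟩, -⟩ := Cfsg.Agent.S0068.result K H hc hK hfpf heven
    intro hbot
    have hmem : (⟨s, hs⟩ : H) ∈ Subgroup.center H := by
      rw [Subgroup.mem_center_iff]
      intro g
      have h1 : (g : G) * s * (g : G)⁻¹ = s := by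
        apply huniq _ (H.mul_mem (H.mul_mem g.2 hs) (H.inv_mem g.2))
        rw [← hs2]
        exact ((MulAut.conj (g : G)).orderOf_eq s)
      ext
      simp only [Subgroup.coe_mul]
      calc (g : G) * s = ((g : G) * s * (g : G)⁻¹) * g := by group
        _ = s * g := by rw [h1]
    rw [hbot, Subgroup.mem_bot] at hmem
    have h2 : s = 1 := congrArg Subtype.val hmem
    rw [h2, orderOf_one] at hs2
    omega
  · have hF : Cfsg.IsFrobeniusComplement H := (Cfsg.Agent.S0039.result K H hc hK hH).2 hfpf
    have hnt : Nontrivial H := (Subgroup.nontrivial_iff_ne_bot H).mpr hH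
    apply Cfsg.Agent.Lib.Lead.center_ne_bot_of_cyclic_sylow
    · intro p _ P
      rcases Cfsg.Agent.S0040.result K H hc hK hfpf p P with h | ⟨n, ⟨e⟩⟩
      · exact h
      · exfalso
        apply heven
        have h1 : Nat.card P = Nat.card (QuaternionGroup (2 ^ n)) := Nat.card_congr e.toEquiv
        have : NeZero (2 ^ n) := ⟨by positivity⟩
        rw [Nat.card_eq_fintype_card (α := QuaternionGroup (2 ^ n)), QuaternionGroup.card] at h1
        have h2 : Nat.card P ∣ Nat.card H := Subgroup.card_subgroup_dvd_card _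
        rw [h1] at h2
        exact (Dvd.intro (2 * 2 ^ n) (by ring)).trans h2
    · intro A p q hp hq hA
      have hinj : Function.Injective H.subtype := H.subtype_injective
      have h2 := pq_cyclic H hF (A.map H.subtype) (Subgroup.map_subtype_le _) p q hp hq (by
        rw [Subgroup.card_map_of_injective hinj, hA])
      exact isCyclic_of_surjective (A.equivMapOfInjective _ hinj).symm
        (A.equivMapOfInjective _ hinj).symm.surjective

end Cfsg.Agent.S0069
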