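import Cfsg.Statements.S0075
import Cfsg.Agent.Lib.Helper1.Transfer

set_option autoImplicit false
open Cfsg

namespace Cfsg.Agent.S0075

open Cfsg.Agent.Lib.Helper1
open scoped Pointwise commutatorElement

/-- For an abelian Sylow p-subgroup T, its intersection with the subgroup generated by the elements of order prime to p is the commutator of T with its normalizer. -/
theorem result {G : Type*} [Group G] [Finite G] {p : ℕ} [Fact p.Prime] (T : Sylow p G) (hT : IsMulCommutative T) : (T : Subgroup G) ⊓ Cfsg.pResidual p G = ⁅(T : Subgroup G), Subgroup.normalizer (T : Set G)⁆ := by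
  have := hT
  have hp : p.Prime := Fact.out
  apply le_antisymm
  · have h1 : Cfsg.pResidual p G ≤ (T : Subgroup G).transferFocal.ker := by
      unfold Cfsg.pResidual
      rw [Subgroup.closure_le]
      intro g hg
      have hg' : (orderOf g).Coprime p := hg
      rw [SetLike.mem_coe, MonoidHom.mem_ker]
      obtain ⟨k, hk⟩ := (T.2.to_quotient (T : Subgroup G).focalSubgroupOf)
        ((T : Subgroup G).transferFocal g)
      have d1 : orderOf ((T : Subgroup G).transferFocal g) ∣ p ^ k := orderOf_dvd_of_pow_eq_one hk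
      have d2 : orderOf ((T : Subgroup G).transferFocal g) ∣ orderOf g := orderOf_map_dvd _ g
      have := Nat.eq_one_of_dvd_coprimes (hg'.pow_right k) d2 d1
      rwa [orderOf_eq_one_iff] at this
    have h2 : (T : Subgroup G) ⊓ Cfsg.pResidual p G ≤ (T : Subgroup G).focalSubgroup := by
      rw [← Subgroup.ker_transferFocal_inf_eq_focalSubgroup, inf_comm]
      exact inf_le_inf_right _ h1
    refine h2.trans ?_
    rw [Subgroup.focalSubgroup_def, Subgroup.closure_le]
    rintro g ⟨hgP, x, hx, u, rfl⟩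
    have hy : (u⁻¹)⁻¹ * x⁻¹ * u⁻¹ ∈ T := by
      have : (u⁻¹)⁻¹ * x⁻¹ * u⁻¹ = x⁻¹ * ⁅x, u⁆ := by rw [commutatorElement_def]; group
      rw [this]; exact mul_mem (inv_mem hx) hgP
    obtain ⟨n, hn, hnx⟩ := T.conj_eq_normalizer_conj_of_mem x⁻¹ u⁻¹ (inv_mem hx) hy
    have : ⁅x, u⁆ = ⁅x, n⁻¹⁆ := by
      rw [commutatorElement_def, commutatorElement_def]
      calc x * u * x⁻¹ * u⁻¹ = x * ((u⁻¹)⁻¹ * x⁻¹ * u⁻¹) := by group
        _ = x * (n⁻¹ * x⁻¹ * n) := by rw [hnx]
        _ = x * n⁻¹ * x⁻¹ * n⁻¹⁻¹ := by group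
    rw [SetLike.mem_coe, this]
    exact Subgroup.commutator_mem_commutator hx (inv_mem hn)
  · apply le_inf (commutator_le_of_le_normalizer le_rfl)
    have hn := pResidual_normal (G := G) p
    have hq := isPGroup_quotient_pResidual (G := G) p
    have hsup := sylow_sup_eq_top_of_isPGroup_quotient T hq
    -- the quotient is commutative
    have hcomm : commutator G ≤ Cfsg.pResidual p G := by
      rw [← Subgroup.Normal.quotient_commutative_iff_commutator_le]
      refine ⟨⟨fun a b => ?_⟩⟩
      obtain ⟨a, rfl⟩ := QuotientGroup.mk_surjective a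
      obtain ⟨b, rfl⟩ := QuotientGroup.mk_surjective b
      have ha : a ∈ (T : Subgroup G) ⊔ Cfsg.pResidual p G := by rw [hsup]; trivial
      have hb : b ∈ (T : Subgroup G) ⊔ Cfsg.pResidual p G := by rw [hsup]; trivial
      rw [← SetLike.mem_coe, Subgroup.mul_normal] at ha hb
      obtain ⟨t, ht, r, hr, rfl⟩ := ha
      obtain ⟨t', ht', r', hr', rfl⟩ := hb
      have e1 : ((t * r : G) : G ⧸ Cfsg.pResidual p G) = (t : G ⧸ Cfsg.pResidual p G) := by
        rw [QuotientGroup.mk_mul, (QuotientGroup.eq_one_iff r).2 hr, mul_one]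
      have e2 : ((t' * r' : G) : G ⧸ Cfsg.pResidual p G) = (t' : G ⧸ Cfsg.pResidual p G) := by
        rw [QuotientGroup.mk_mul, (QuotientGroup.eq_one_iff r').2 hr', mul_one]
      rw [e1, e2, ← QuotientGroup.mk_mul, ← QuotientGroup.mk_mul]
      have : t * t' = t' * t := congrArg Subtype.val (hT.is_comm.comm ⟨t, ht⟩ ⟨t', ht'⟩)
      rw [this]
    exact (Subgroup.commutator_mono le_top le_top).trans hcomm

end Cfsg.Agent.S0075
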