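import Cfsg.Statements.S0076
import Cfsg.Agent.Lib.Helper1.Basic

set_option autoImplicit false
open Cfsg

namespace Cfsg.Agent.S0076

open scoped Pointwise

/-- Two P-invariant subsets of a Sylow p-subgroup P that are conjugate in G are conjugate under the normalizer of P. -/
theorem result {G : Type*} [Group G] [Finite G] {p : ℕ} [Fact p.Prime] (P : Sylow p G) (X Y : Set G) (hXP : X ⊆ P) (hYP : Y ⊆ P) (hX : ∀ x ∈ P, (fun y => x * y * x⁻¹) '' X = X) (hY : ∀ x ∈ P, (fun y => x * y * x⁻¹) '' Y = Y) (g : G) (hg : (fun y => g * y * g⁻¹) '' X = Y) : ∃ n ∈ Subgroup.normalizer (P : Set G), (fun y => n * y * n⁻¹) '' X = Y := by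
  have conjimg : ∀ (a : G) (S : Set G), (fun y => a * y * a⁻¹) '' S = MulAut.conj a '' S := by
    intro a S; rfl
  have h1 : (P : Subgroup G) ≤ Subgroup.normalizer Y := by
    intro x hx
    rw [Subgroup.mem_normalizer_iff_conj_image_eq, ← conjimg]
    exact hY x hx
  have h2 : ((g • P : Sylow p G) : Subgroup G) ≤ Subgroup.normalizer Y := by
    intro x hx
    rw [Sylow.smul_def, Sylow.pointwise_smul_def, Cfsg.Agent.Lib.Helper1.mem_conj_smul] at hx
    rw [Subgroup.mem_normalizer_iff_conj_image_eq, ← conjimg, ← hg, Set.image_image]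
    have h3 := hX _ hx
    conv_rhs => rw [← h3, Set.image_image]
    apply Set.image_congr
    intro y _
    group
  obtain ⟨l, hl⟩ := MulAction.exists_smul_eq (Subgroup.normalizer Y) ((g • P).subtype h2)
    (P.subtype h1)
  simp_rw [Sylow.smul_subtype, Subgroup.smul_def, smul_smul] at hl
  refine ⟨l * g, Sylow.smul_eq_iff_mem_normalizer.mp (Sylow.subtype_injective hl), ?_⟩
  have h4 := (Subgroup.mem_normalizer_iff_conj_image_eq.mp l.2)
  rw [← conjimg] at h4
  generalize (l : G) = l' at h4 ⊢
  rw [← hg, Set.image_image] at h4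
  rw [← hg, ← h4]
  apply Set.image_congr
  intro y _
  group

end Cfsg.Agent.S0076
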