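import Cfsg.Statements.S0130
import Cfsg.Agent.Lib.Helper1.Class2Loc
import Cfsg.Agent.Lib.Helper1.Nilp
import Cfsg.Agent.Lib.Helper20.MaxAbelian

set_option autoImplicit false
open Cfsg

namespace Cfsg.Agent.S0130

open Cfsg.Agent.Lib.Helper1
open scoped Pointwise commutatorElement

theorem le_of_le_commutator_sup {G : Type*} [Group G] [Group.IsNilpotent G] (T A : Subgroup G)
    [A.Normal] (h : T ≤ ⁅T, (⊤ : Subgroup G)⁆ ⊔ A) : T ≤ A := by
  have h1 : T.map (QuotientGroup.mk' A) ≤
      ⁅T.map (QuotientGroup.mk' A), (⊤ : Subgroup (G ⧸ A))⁆ := by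
    calc T.map (QuotientGroup.mk' A) ≤ (⁅T, (⊤ : Subgroup G)⁆ ⊔ A).map (QuotientGroup.mk' A) :=
          Subgroup.map_mono h
      _ = ⁅T.map (QuotientGroup.mk' A), (⊤ : Subgroup (G ⧸ A))⁆ := by
        rw [Subgroup.map_sup, Subgroup.map_commutator, ← MonoidHom.range_eq_map,
          MonoidHom.range_eq_top.2 (QuotientGroup.mk'_surjective A), QuotientGroup.map_mk'_self,
          sup_bot_eq]
  have h2 := eq_bot_of_le_commutator (T := (⊤ : Subgroup (G ⧸ A))) inferInstance le_top h1
  rw [Subgroup.map_eq_bot_iff, QuotientGroup.ker_mk'] at h2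
  exact h2

/-- If A is maximal among the normal abelian subgroups of exponent dividing p^n of a p-group (p^n ≠ 2), then A contains every element of order dividing p^n in its centralizer. -/
theorem result {G : Type*} [Group G] [Finite G] {p : ℕ} [Fact p.Prime] (hG : IsPGroup p G) (n : ℕ) (hn : p ^ n ≠ 2) (A : Subgroup G) [A.Normal] (hA : IsMulCommutative A) (hAe : ∀ a ∈ A, a ^ p ^ n = 1) (hmax : ∀ B : Subgroup G, B.Normal → IsMulCommutative B → (∀ b ∈ B, b ^ p ^ n = 1) → A ≤ B → B = A) (x : G) (hx : x ∈ Subgroup.centralizer (A : Set G)) (hxn : x ^ p ^ n = 1) : x ∈ A := by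
  classical
  have hp : p.Prime := Fact.out
  have hnil : Group.IsNilpotent G := hG.isNilpotent
  have hCn : (Subgroup.centralizer (A : Set G)).Normal := inferInstance
  by_contra hxA
  have main : ∀ k : ℕ, ∀ x : G, x ∈ Subgroup.centralizer (A : Set G) → x ^ p ^ n = 1 → x ∉ A →
      Nat.card (Subgroup.normalClosure {x} ⊔ A : Subgroup G) = k → False := by
    intro k
    induction k using Nat.strong_induction_on with
    | _ k ih =>
    intro x hxC hxn hxA hk
    -- `n ≥ 1`
    have hn1 : 1 ≤ n := by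
      rcases Nat.eq_zero_or_pos n with rfl | h
      · rw [pow_zero, pow_one] at hxn
        exact absurd (hxn ▸ A.one_mem) hxA
      · exact h
    -- Step 1: replace `x` by a power `x'` with `x' ^ p ∈ A`
    have hex : ∃ j, x ^ p ^ j ∈ A := ⟨n, hxn ▸ A.one_mem⟩
    have hj0 : Nat.find hex ≠ 0 := by
      intro h0
      have := Nat.find_spec hex
      rw [h0, pow_zero, pow_one] at this
      exact hxA this
    obtain ⟨j, hj⟩ := Nat.exists_eq_succ_of_ne_zero hj0
    have hx'A : x ^ p ^ j ∉ A := Nat.find_min hex (by omega)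
    have hx'p : (x ^ p ^ j) ^ p ∈ A := by
      have := Nat.find_spec hex
      rwa [hj, Nat.succ_eq_add_one, pow_succ, pow_mul] at this
    have hx'C : x ^ p ^ j ∈ Subgroup.centralizer (A : Set G) := Subgroup.pow_mem _ hxC _
    have hx'n : (x ^ p ^ j) ^ p ^ n = 1 := by rw [← pow_mul, mul_comm, pow_mul, hxn, one_pow]
    have hTle : Subgroup.normalClosure {x ^ p ^ j} ⊔ A ≤ Subgroup.normalClosure {x} ⊔ A := by
      apply sup_le_sup_right
      apply Subgroup.normalClosure_le_normal
      rw [Set.singleton_subset_iff]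
      exact Subgroup.pow_mem _ (Subgroup.subset_normalClosure (Set.mem_singleton x)) _
    generalize x ^ p ^ j = x' at *
    -- Step 2
    have hHc : IsMulCommutative (A ⊔ Subgroup.zpowers x' : Subgroup G) :=
      Cfsg.Agent.Lib.Helper20.isMulCommutative_sup_zpowers A hA x' hx'C
    have hcomm : ∀ u ∈ A ⊔ Subgroup.zpowers x', ∀ v ∈ A ⊔ Subgroup.zpowers x', u * v = v * u :=
      fun u hu v hv => congrArg Subtype.val (hHc.is_comm.comm ⟨u, hu⟩ ⟨v, hv⟩)
    have hx'H : x' ∈ A ⊔ Subgroup.zpowers x' := Subgroup.mem_sup_right (Subgroup.mem_zpowers x')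
    have hHe : ∀ b ∈ A ⊔ Subgroup.zpowers x', b ^ p ^ n = 1 := by
      intro b hb
      rw [Subgroup.sup_eq_closure] at hb
      induction hb using Subgroup.closure_induction with
      | mem y hy =>
        rcases hy with hy | hy
        · exact hAe y hy
        · obtain ⟨i, rfl⟩ := Subgroup.mem_zpowers_iff.1 hy
          rw [← zpow_natCast, ← zpow_mul, mul_comm, zpow_mul, zpow_natCast, hx'n, one_zpow]
      | one => exact one_pow _
      | mul y z hy hz hy' hz' =>
        rw [← Subgroup.sup_eq_closure] at hy hz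
        have : Commute y z := hcomm y hy z hz
        rw [this.mul_pow, hy', hz', one_mul]
      | inv y _ hy' => rw [inv_pow, hy', inv_one]
    have hHnn : ¬ (A ⊔ Subgroup.zpowers x' : Subgroup G).Normal := by
      intro hN
      have := hmax _ hN hHc hHe le_sup_left
      exact hx'A (this ▸ hx'H)
    have hN1 : Subgroup.normalizer ((A ⊔ Subgroup.zpowers x' : Subgroup G) : Set G) < ⊤ := by
      rw [lt_top_iff_ne_top]
      intro h
      exact hHnn (Subgroup.normalizer_eq_top_iff.mp h)
    have hN2 := Group.normalizerCondition_of_isNilpotent _ hN1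
    obtain ⟨g, hgN, hgn⟩ := SetLike.exists_of_lt hN2
    set H := A ⊔ Subgroup.zpowers x' with hH
    have hxgH : g * x' * g⁻¹ ∉ H := by
      intro hmem
      apply hgn
      apply mem_normalizer_of_conj_mem
      intro u hu
      have hle : H ≤ MulAut.conj g⁻¹ • H := by
        rw [hH]
        apply sup_le
        · intro a ha
          rw [mem_conj_smul]
          simpa using Subgroup.mem_sup_left (‹A.Normal›.conj_mem a ha g)
        · rw [Subgroup.zpowers_le, mem_conj_smul]
          simpa using hmem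
      have := hle hu
      rw [mem_conj_smul] at this
      simpa using this
    have hxgN : g * x' * g⁻¹ ∈ Subgroup.normalizer (H : Set G) :=
      conj_mem_of_mem_normalizer hgN (Subgroup.le_normalizer hx'H)
    have hxgN' : g⁻¹ * x' * g ∈ Subgroup.normalizer (H : Set G) :=
      conj_mem_of_mem_normalizer' hgN (Subgroup.le_normalizer hx'H)
    have hxgC : g * x' * g⁻¹ ∈ Subgroup.centralizer (A : Set G) := hCn.conj_mem _ hx'C g
    -- the commutator `c = [x^g, x⁻¹]`
    obtain ⟨c, hcdef⟩ : ∃ c, c = (g * x' * g⁻¹) * x'⁻¹ * (g * x' * g⁻¹)⁻¹ * x' := ⟨_, rfl⟩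
    have hcH : c ∈ H := by
      rw [hcdef]
      exact H.mul_mem (conj_mem_of_mem_normalizer hxgN (H.inv_mem hx'H)) hx'H
    have hc1 : Commute c x'⁻¹ := hcomm c hcH _ (H.inv_mem hx'H)
    have hc2 : Commute c (g * x' * g⁻¹) := by
      have h1 : g⁻¹ * c * g ∈ H := by
        have : g⁻¹ * c * g = x' * ((g⁻¹ * x' * g)⁻¹ * x'⁻¹ * (g⁻¹ * x' * g)) := by
          rw [hcdef]; group
        rw [this]
        exact H.mul_mem hx'H (conj_mem_of_mem_normalizer' hxgN' (H.inv_mem hx'H))
      have h2 := hcomm _ h1 x' hx'H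
      change c * (g * x' * g⁻¹) = (g * x' * g⁻¹) * c
      calc c * (g * x' * g⁻¹) = g * (g⁻¹ * c * g * x') * g⁻¹ := by group
        _ = g * (x' * (g⁻¹ * c * g)) * g⁻¹ := by rw [h2]
        _ = (g * x' * g⁻¹) * c := by group
    have hswap : (g * x' * g⁻¹) * x'⁻¹ = c * (x'⁻¹ * (g * x' * g⁻¹)) := by
      rw [hcdef]; group
    have hcp : c ^ p = 1 := by
      have h1 := loc_swap_pow_right hswap hc1 p
      have h2 : (x'⁻¹) ^ p ∈ A := by rw [inv_pow]; exact A.inv_mem hx'p
      have h3 := Subgroup.mem_centralizer_iff.mp hxgC _ h2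
      rw [← h3] at h1
      exact right_eq_mul.mp h1
    have hy : (x'⁻¹ * (g * x' * g⁻¹)) ^ p ^ n = 1 := by
      rw [loc_mul_pow hswap hc1 hc2, inv_pow, hx'n, conj_pow, hx'n]
      obtain ⟨t, ht⟩ := prime_dvd_choose_two_pow hp hn1 hn
      rw [ht, pow_mul, hcp]
      simp
    have hyC : x'⁻¹ * (g * x' * g⁻¹) ∈ Subgroup.centralizer (A : Set G) :=
      Subgroup.mul_mem _ (Subgroup.inv_mem _ hx'C) hxgC
    have hyA : x'⁻¹ * (g * x' * g⁻¹) ∉ A := by
      intro h
      apply hxgH
      have : g * x' * g⁻¹ = x' * (x'⁻¹ * (g * x' * g⁻¹)) := by group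
      rw [this]
      exact H.mul_mem hx'H (Subgroup.mem_sup_left h)
    -- the normal closure of `y` is smaller
    have hTn : (Subgroup.normalClosure {x'} ⊔ A : Subgroup G).Normal := inferInstance
    have hlt : Subgroup.normalClosure {x'⁻¹ * (g * x' * g⁻¹)} ⊔ A <
        Subgroup.normalClosure {x'} ⊔ A := by
      have hle : Subgroup.normalClosure {x'⁻¹ * (g * x' * g⁻¹)} ⊔ A ≤
          ⁅Subgroup.normalClosure {x'} ⊔ A, (⊤ : Subgroup G)⁆ ⊔ A := by
        apply sup_le_sup_right
        apply Subgroup.normalClosure_le_normal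
        rw [Set.singleton_subset_iff]
        have hm : x'⁻¹ ∈ Subgroup.normalClosure {x'} ⊔ A :=
          Subgroup.mem_sup_left (Subgroup.inv_mem _
            (Subgroup.subset_normalClosure (Set.mem_singleton x')))
        have := Subgroup.commutator_mem_commutator hm (Subgroup.mem_top g)
        rw [commutatorElement_def, inv_inv] at this
        rw [SetLike.mem_coe]
        have e : x'⁻¹ * (g * x' * g⁻¹) = x'⁻¹ * g * x' * g⁻¹ := by group
        rw [e]
        exact this
      have hle2 : ⁅Subgroup.normalClosure {x'} ⊔ A, (⊤ : Subgroup G)⁆ ⊔ A ≤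
          Subgroup.normalClosure {x'} ⊔ A :=
        sup_le (Subgroup.commutator_le_left _ _) le_sup_right
      refine lt_of_le_of_ne (hle.trans hle2) ?_
      intro heq
      have h3 : Subgroup.normalClosure {x'} ⊔ A ≤
          ⁅Subgroup.normalClosure {x'} ⊔ A, (⊤ : Subgroup G)⁆ ⊔ A := heq ▸ hle
      have h4 := le_of_le_commutator_sup _ A h3
      exact hx'A (h4 (Subgroup.mem_sup_left (Subgroup.subset_normalClosure (Set.mem_singleton x'))))
    exact ih _ (lt_of_lt_of_le (card_lt_of_lt hlt) (hk ▸ Subgroup.card_le_of_le hTle)) _ hyC hy hyA rfl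
  exact main _ x hx hxn hxA rfl

end Cfsg.Agent.S0130
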