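import Cfsg.Statements.S0078
import Cfsg.Agent.Lib.Helper1.Tate2
import Cfsg.Agent.Lib.Helper1.PGrp
import Cfsg.Agent.Lib.Helper1.Fusion
import Cfsg.Agent.S0077
import Cfsg.Agent.S0080
import Cfsg.Agent.S0130

set_option autoImplicit false
open Cfsg

namespace Cfsg.Agent.S0078

open Cfsg.Agent.Lib.Helper1
open Subgroup
open scoped commutatorElement Pointwise

theorem isPGroup_quotient_of_sup_sylow {G : Type*} [Group G] {p : ℕ} (P : Sylow p G)
    (N : Subgroup G) [N.Normal] (h : N ⊔ (P : Subgroup G) = ⊤) : IsPGroup p (G ⧸ N) := by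
  intro x
  obtain ⟨g, rfl⟩ := QuotientGroup.mk'_surjective _ x
  have hg : g ∈ N ⊔ (P : Subgroup G) := h ▸ mem_top g
  rw [← SetLike.mem_coe, normal_mul] at hg
  obtain ⟨n, hn, u, hu, rfl⟩ := hg
  obtain ⟨k, hk⟩ := P.2 ⟨u, hu⟩
  refine ⟨k, ?_⟩
  have h2 : QuotientGroup.mk' N n = 1 := (QuotientGroup.eq_one_iff _).mpr hn
  have h3 : u ^ p ^ k = 1 := by simpa using congrArg Subtype.val hk
  rw [map_mul, h2, one_mul, ← map_pow, h3, map_one]

theorem pResidual_inf_sylow_le_commutator {G : Type*} [Group G] [Finite G] {p : ℕ} [Fact p.Prime]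
    (P : Sylow p G) : Cfsg.pResidual p G ⊓ (P : Subgroup G) ≤ commutator G := by
  have hp : p.Prime := Fact.out
  obtain ⟨n, hn⟩ := IsPGroup.iff_card.mp P.2
  have hcop : Nat.Coprime (P : Subgroup G).index
      ((⁅(P : Subgroup G), (P : Subgroup G)⁆).relIndex (P : Subgroup G)) := by
    obtain ⟨k, -, hk⟩ := (Nat.dvd_prime_pow hp).mp (hn ▸ relIndex_dvd_card
      ⁅(P : Subgroup G), (P : Subgroup G)⁆ (P : Subgroup G))
    rw [hk]
    exact (((Nat.Prime.coprime_iff_not_dvd hp).mpr P.not_dvd_index).pow_left k).symm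
  obtain ⟨-, N, hNn, hN1, hN2⟩ := Cfsg.Agent.S0080.result (P : Subgroup G) hcop
  have h1 : Cfsg.pResidual p G ≤ N := pResidual_le (isPGroup_quotient_of_sup_sylow P N hN2)
  exact ((inf_le_inf_right _ h1).trans hN1.le).trans inf_le_left

theorem commutator_le_sup {G : Type*} [Group G] [Finite G] {p : ℕ} [Fact p.Prime]
    (P : Sylow p G) :
    commutator G ≤ ⁅(P : Subgroup G), (P : Subgroup G)⁆ ⊔ Cfsg.pResidual p G := by
  have hKn : (Cfsg.pResidual p G).Normal := pResidual_normal p
  have hsup : (P : Subgroup G) ⊔ Cfsg.pResidual p G = ⊤ :=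
    sylow_sup_eq_top_of_isPGroup_quotient P (isPGroup_quotient_pResidual p)
  have h1 : (commutator G).map (QuotientGroup.mk' (Cfsg.pResidual p G)) =
      (⁅(P : Subgroup G), (P : Subgroup G)⁆).map (QuotientGroup.mk' (Cfsg.pResidual p G)) := by
    rw [commutator_def, map_commutator, map_commutator, ← hsup, Subgroup.map_sup,
      QuotientGroup.map_mk'_self, sup_bot_eq]
  have h2 := congrArg (Subgroup.comap (QuotientGroup.mk' (Cfsg.pResidual p G))) h1
  rw [comap_map_eq, comap_map_eq, QuotientGroup.ker_mk'] at h2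
  exact le_sup_left.trans h2.le

theorem commutator_inf_sylow_le {G : Type*} [Group G] [Finite G] {p : ℕ} [Fact p.Prime]
    (P : Sylow p G) :
    commutator G ⊓ (P : Subgroup G) ≤
      ⁅(P : Subgroup G), (P : Subgroup G)⁆ ⊔ (Cfsg.pResidual p G ⊓ (P : Subgroup G)) := by
  have hKn : (Cfsg.pResidual p G).Normal := pResidual_normal p
  intro x hx
  obtain ⟨hx1, hx2⟩ := mem_inf.mp hx
  have h1 := commutator_le_sup P hx1
  rw [← SetLike.mem_coe, mul_normal] at h1
  obtain ⟨c, hc, k, hk, rfl⟩ := h1
  have hcP : c ∈ (P : Subgroup G) := commutator_le_self _ hc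
  refine mul_mem (mem_sup_left hc) (mem_sup_right (mem_inf.mpr ⟨hk, ?_⟩))
  have : k = c⁻¹ * (c * k) := by group
  rw [this]; exact mul_mem (inv_mem hcP) hx2

theorem conj_smul_inf_centralizer {G : Type*} [Group G] (g : G) (P : Subgroup G) :
    (MulAut.conj g • P) ⊓ centralizer ((MulAut.conj g • P : Subgroup G) : Set G) =
      MulAut.conj g • (P ⊓ centralizer (P : Set G)) := by
  ext x
  rw [mem_inf, mem_conj_smul, mem_conj_smul, mem_inf, mem_centralizer_iff, mem_centralizer_iff]
  refine and_congr_right fun _ => ⟨fun h y hy => ?_, fun h y hy => ?_⟩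
  · have h1 := h (g * y * g⁻¹) (conj_mem_conj_smul hy)
    have e1 : y * (g⁻¹ * x * g) = g⁻¹ * (g * y * g⁻¹ * x) * g := by group
    rw [e1, h1]; group
  · rw [SetLike.mem_coe, mem_conj_smul] at hy
    have h1 := h _ hy
    have e1 : y * x = g * (g⁻¹ * y * g * (g⁻¹ * x * g)) * g⁻¹ := by group
    rw [e1, h1]; group

/-- In a p-normal group, a Sylow p-subgroup P meets O^p(G) exactly where it meets O^p(V), for any subgroup V containing the normalizer of the centre of P. -/
theorem result {G : Type*} [Group G] [Finite G] {p : ℕ} [Fact p.Prime] (P : Sylow p G) (hn : ∀ Q : Sylow p G, (P : Subgroup G) ⊓ Subgroup.centralizer (P : Set G) ≤ (Q : Subgroup G) → (Q : Subgroup G) ⊓ Subgroup.centralizer (Q : Set G) = (P : Subgroup G) ⊓ Subgroup.centralizer (P : Set G)) (V : Subgroup G) (hV : Subgroup.normalizer (((P : Subgroup G) ⊓ Subgroup.centralizer (P : Set G) : Subgroup G) : Set G) ≤ V) : (P : Subgroup G) ⊓ Cfsg.pResidual p G = (P : Subgroup G) ⊓ (Cfsg.pResidual p V).map V.subtype := by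
  have hKn : (Cfsg.pResidual p G).Normal := pResidual_normal p
  have hKVn : (Cfsg.pResidual p V).Normal := pResidual_normal p
  have hKVK : (Cfsg.pResidual p V).map V.subtype ≤ Cfsg.pResidual p G := by
    rw [map_le_iff_le_comap]
    conv_lhs => unfold Cfsg.pResidual
    rw [closure_le]
    intro g hg
    apply Subgroup.subset_closure
    change (orderOf ((g : V) : G)).Coprime p
    rw [Subgroup.orderOf_coe]; exact hg
  apply le_antisymm _ (inf_le_inf_left _ hKVK)
  -- `Z(P)` is weakly closed
  have hW : Cfsg.IsWeaklyClosed ((P : Subgroup G) ⊓ centralizer (P : Set G)) (P : Subgroup G) := by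
    rw [isWeaklyClosed_iff]
    refine ⟨inf_le_left, fun g hg => ?_⟩
    have h1 : (P : Subgroup G) ⊓ centralizer (P : Set G) ≤ ((g⁻¹ • P : Sylow p G) : Subgroup G) := by
      rw [Sylow.smul_def, Sylow.pointwise_smul_def, le_conj_smul_iff, inv_inv]
      exact hg
    have h2 := hn _ h1
    have h3 : ((g⁻¹ • P : Sylow p G) : Subgroup G) = MulAut.conj g⁻¹ • (P : Subgroup G) := rfl
    have h4 : MulAut.conj g⁻¹ • ((P : Subgroup G) ⊓ centralizer (P : Set G)) =
        (P : Subgroup G) ⊓ centralizer (P : Set G) :=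
      (conj_smul_inf_centralizer g⁻¹ (P : Subgroup G)).symm.trans h2
    conv_lhs => rw [← h4]
    rw [← conj_mul_smul]; simp
  have h77 := Cfsg.Agent.S0077.result P _ inf_le_right hW
  have hPV : (P : Subgroup G) ≤ V := by
    refine le_trans ?_ hV
    apply le_normalizer_of_forall_conj_mem
    intro x hx y hy
    have h1 : x * y = y * x := mem_centralizer_iff.mp (mem_inf.mp hy).2 x hx
    rw [h1, mul_inv_cancel_right]; exact hy
  -- `P ∩ V' ≤ P' (P ∩ O^p(V))`
  have hstar : Cfsg.pResidual p G ⊓ (P : Subgroup G) ≤ ⁅(P : Subgroup G), (P : Subgroup G)⁆ ⊔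
      ((Cfsg.pResidual p V).map V.subtype ⊓ (P : Subgroup G)) := by
    have h1 : Cfsg.pResidual p G ⊓ (P : Subgroup G) ≤ ⁅V, V⁆ ⊓ (P : Subgroup G) := by
      refine le_inf ?_ inf_le_right
      have h2 : Cfsg.pResidual p G ⊓ (P : Subgroup G) ≤ commutator G ⊓ (P : Subgroup G) :=
        le_inf (pResidual_inf_sylow_le_commutator P) inf_le_right
      rw [h77] at h2
      exact (h2.trans inf_le_left).trans (commutator_mono hV hV)
    refine h1.trans ?_
    have h3 := Subgroup.map_mono (f := V.subtype) (commutator_inf_sylow_le (P.subtype hPV))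
    rw [map_inf _ _ _ V.subtype_injective, Subgroup.map_sup, map_inf _ _ _ V.subtype_injective,
      map_commutator, commutator_def, map_commutator, ← MonoidHom.range_eq_map, range_subtype,
      Sylow.coe_subtype, map_subgroupOf_eq_of_le hPV] at h3
    exact h3
  obtain ⟨KV, hKVdef⟩ : ∃ KV, KV = (Cfsg.pResidual p V).map V.subtype := ⟨_, rfl⟩
  rw [← hKVdef] at hstar hKVK ⊢
  have hKVV : KV ≤ V := hKVdef ▸ map_subtype_le _
  have hVn : V ≤ normalizer (KV : Set G) := by
    rw [← normal_subgroupOf_iff_le_normalizer hKVV, hKVdef,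
      show ((Cfsg.pResidual p V).map V.subtype).subgroupOf V = Cfsg.pResidual p V from
        comap_map_eq_self_of_injective V.subtype_injective _]
    exact hKVn
  have hDVn : (KV.subgroupOf (P : Subgroup G)).Normal :=
    normal_subgroupOf_of_le_normalizer (hPV.trans hVn)
  have hPnil : Group.IsNilpotent (P : Subgroup G) := P.2.isNilpotent
  have hcommP : (⁅(P : Subgroup G), (P : Subgroup G)⁆).subgroupOf (P : Subgroup G) =
      commutator (P : Subgroup G) := by
    have : ⁅(P : Subgroup G), (P : Subgroup G)⁆ =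
        (commutator (P : Subgroup G)).map (P : Subgroup G).subtype := by
      rw [commutator_def, map_commutator, ← MonoidHom.range_eq_map, range_subtype]
    rw [this]
    exact comap_map_eq_self_of_injective (P : Subgroup G).subtype_injective _
  have hstar' : (Cfsg.pResidual p G).subgroupOf (P : Subgroup G) ≤
      commutator (P : Subgroup G) ⊔ KV.subgroupOf (P : Subgroup G) := by
    have h1 := comap_mono (f := (P : Subgroup G).subtype) hstar
    change (Cfsg.pResidual p G ⊓ (P : Subgroup G)).subgroupOf (P : Subgroup G) ≤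
      (⁅(P : Subgroup G), (P : Subgroup G)⁆ ⊔ (KV ⊓ (P : Subgroup G))).subgroupOf
        (P : Subgroup G) at h1
    rwa [subgroupOf_sup (commutator_le_self _) inf_le_right, inf_subgroupOf_right,
      inf_subgroupOf_right, hcommP] at h1
  have hmain := tate_aux' P (Cfsg.pResidual p G) (isPGroup_quotient_pResidual p)
    (by
      intro M hM
      unfold Cfsg.pResidual
      rw [closure_le]
      exact fun g hg => hM g hg)
    (KV.subgroupOf (P : Subgroup G) ⊔
      ⁅(Cfsg.pResidual p G).subgroupOf (P : Subgroup G), (⊤ : Subgroup (P : Subgroup G))⁆)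
    le_sup_right
    (sup_le (comap_mono hKVK) (commutator_le_left _ _))
    (by
      intro X hX hXK
      apply frattini_nongenerating
      rw [eq_top_iff, ← hXK]
      refine sup_le le_sup_left (hstar'.trans (sup_le ?_ ?_))
      · exact (pgroup_frattini P.2).1.trans le_sup_right
      · exact (le_sup_left.trans hX).trans le_sup_left)
  have hfin := Cfsg.Agent.S0130.le_of_le_commutator_sup _ _ (hmain.trans (sup_comm _ _).le)
  intro x hx
  obtain ⟨hx1, hx2⟩ := mem_inf.mp hx
  exact mem_inf.mpr ⟨hx1, hfin (show (⟨x, hx1⟩ : (P : Subgroup G)) ∈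
    (Cfsg.pResidual p G).subgroupOf (P : Subgroup G) from hx2)⟩

end Cfsg.Agent.S0078
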