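import Cfsg.Statements.S0082
import Cfsg.Agent.Lib.Helper1.Transfer

set_option autoImplicit false
open Cfsg

namespace Cfsg.Agent.S0082

/-- With a cyclic Sylow p-subgroup, either there is a normal p-complement or the elements of order prime to p generate the whole group. -/
theorem result {G : Type*} [Group G] [Finite G] {p : ℕ} [Fact p.Prime] (P : Sylow p G) (hP : IsCyclic P) : Cfsg.HasNormalPComplement p G ∨ Cfsg.pResidual p G = ⊤ := by
  have := hP
  rcases Sylow.normalizer_le_centralizer_or_le_commutator P with h | h
  · exact Or.inl (Cfsg.Agent.Lib.Helper1.hasNormalPComplement_of_normalizer_le_centralizer P h)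
  · right
    have hn : (Cfsg.pResidual p G).Normal := Cfsg.Agent.Lib.Helper1.pResidual_normal p
    have hQ := Cfsg.Agent.Lib.Helper1.isPGroup_quotient_pResidual (G := G) p
    by_contra hne
    have hnt : Nontrivial (G ⧸ Cfsg.pResidual p G) := by
      rw [← Finite.one_lt_card_iff_nontrivial, ← Subgroup.index_eq_card]
      exact Subgroup.one_lt_index_of_ne_top hne
    have hnil := hQ.isNilpotent
    have h1 := Group.IsSolvable.commutator_lt_top_of_nontrivial (G ⧸ Cfsg.pResidual p G)
    have h2 := Cfsg.Agent.Lib.Helper1.sylow_eq_top_of_isPGroup hQ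
      (P.mapSurjective (QuotientGroup.mk'_surjective _))
    rw [Sylow.coe_mapSurjective] at h2
    have h3 : (commutator G).map (QuotientGroup.mk' (Cfsg.pResidual p G)) =
        commutator (G ⧸ Cfsg.pResidual p G) := by
      rw [commutator_def, Subgroup.map_commutator,
        Subgroup.map_top_of_surjective _ (QuotientGroup.mk'_surjective _), commutator_def]
    have h4 := Subgroup.map_mono (f := QuotientGroup.mk' (Cfsg.pResidual p G)) h
    rw [h2, h3] at h4
    exact h1.not_ge h4

end Cfsg.Agent.S0082
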