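import Cfsg.Statements.S0083
import Cfsg.Agent.Lib.Helper1.Transfer

set_option autoImplicit false
open Cfsg

namespace Cfsg.Agent.S0083

/-- For an abelian Sylow p-subgroup P, a normal p-complement exists exactly when the normalizer of P is an internal direct product of P with some subgroup. -/
theorem result {G : Type*} [Group G] [Finite G] {p : ℕ} [Fact p.Prime] (P : Sylow p G) (hP : IsMulCommutative P) : Cfsg.HasNormalPComplement p G ↔ ∃ Q : Subgroup G, Q ≤ Subgroup.centralizer (P : Set G) ∧ Q ⊓ (P : Subgroup G) = ⊥ ∧ Q ⊔ (P : Subgroup G) = Subgroup.normalizer (P : Set G) := by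
  have := hP
  constructor
  · intro h
    obtain ⟨N, hN, hc⟩ := Cfsg.Agent.Lib.Helper1.HasNormalPComplement.exists_for h P
    refine ⟨N ⊓ Subgroup.normalizer (P : Set G), ?_, ?_, ?_⟩
    · rintro q ⟨hqN, hqn⟩
      rw [Subgroup.mem_centralizer_iff]
      intro x hx
      have h1 : q * x * q⁻¹ * x⁻¹ ∈ N ⊓ (P : Subgroup G) := by
        constructor
        · have : q * x * q⁻¹ * x⁻¹ = q * (x * q⁻¹ * x⁻¹) := by group
          rw [this]; exact N.mul_mem hqN (hN.conj_mem _ (N.inv_mem hqN) x)
        · exact (P : Subgroup G).mul_mem ((Subgroup.mem_normalizer_iff.mp hqn x).mp hx)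
            ((P : Subgroup G).inv_mem hx)
      rw [hc.disjoint.eq_bot, Subgroup.mem_bot] at h1
      calc x * q = (q * x * q⁻¹ * x⁻¹)⁻¹ * (q * x) := by group
        _ = q * x := by rw [h1]; group
    · rw [eq_bot_iff, ← hc.disjoint.eq_bot]
      exact inf_le_inf_right _ inf_le_left
    · apply le_antisymm (sup_le inf_le_right Subgroup.le_normalizer)
      intro g hg
      obtain ⟨n, hn, x, hx, rfl⟩ := Cfsg.Agent.Lib.Helper1.IsComplement'.exists_mul hc g
      refine mul_mem (Subgroup.mem_sup_left ⟨hn, ?_⟩) (Subgroup.mem_sup_right hx)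
      have : n = n * x * x⁻¹ := by group
      change n ∈ Subgroup.normalizer (P : Set G)
      rw [this]
      exact mul_mem hg (inv_mem (Subgroup.le_normalizer hx))
  · rintro ⟨Q, hQ, -, hQP⟩
    apply Cfsg.Agent.Lib.Helper1.hasNormalPComplement_of_normalizer_le_centralizer P
    rw [← hQP]
    exact sup_le hQ P.le_centralizer

end Cfsg.Agent.S0083
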