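import Cfsg.Statements.S0084
import Cfsg.Agent.Lib.Helper1.Transfer

set_option autoImplicit false
open Cfsg

namespace Cfsg.Agent.S0084

/-- A group whose Sylow 2-subgroups are Klein four-groups and whose order is prime to 3 has a normal 2-complement. -/
theorem result {G : Type*} [Group G] [Finite G] (T : Sylow 2 G) (hT : IsKleinFour T) (h3 : ¬ 3 ∣ Nat.card G) : Cfsg.HasNormalPComplement 2 G := by
  have hcomm : IsMulCommutative T := IsKleinFour.isMulCommutative
  apply Cfsg.Agent.Lib.Helper1.hasNormalPComplement_of_normalizer_le_centralizer T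
  obtain ⟨h1, h2, h3'⟩ := Cfsg.Agent.Lib.Helper1.relIndex_centralizer_normalizer T
  have h4 := h1.trans (Cfsg.Agent.Lib.Helper1.card_mulAut_dvd_factorial T)
  rw [IsKleinFour.card_four] at h4
  rw [← Subgroup.relIndex_eq_one]
  set r := (Subgroup.centralizer (T : Set G)).relIndex (Subgroup.normalizer (T : Set G)) with hr
  have h5 : r.Coprime 3 := by
    rw [Nat.coprime_comm, Nat.Prime.coprime_iff_not_dvd Nat.prime_three]
    exact fun h => h3 (h.trans h3')
  have h6 : r.Coprime (Nat.factorial 4) := by
    have : Nat.factorial 4 = 2 ^ 3 * 3 := by decide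
    rw [this]
    exact Nat.Coprime.mul_right (Nat.Coprime.pow_right 3 h2) h5
  exact Nat.eq_one_of_dvd_coprimes h6 dvd_rfl h4

end Cfsg.Agent.S0084
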