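import Cfsg.Statements.S0085
import Cfsg.Agent.Lib.Helper1.Transfer

set_option autoImplicit false
open Cfsg

namespace Cfsg.Agent.S0085

open Cfsg.Agent.Lib.Helper1
open scoped Pointwise commutatorElement

/-- A group whose Sylow 2-subgroups are elementary abelian of order 8 and whose order is prime to 3 and to 7 has a normal 2-complement. -/
theorem result {G : Type*} [Group G] [Finite G] (T : Sylow 2 G) (h8 : Nat.card T = 8) (he : ∀ x : T, x * x = 1) (h3 : ¬ 3 ∣ Nat.card G) (h7 : ¬ 7 ∣ Nat.card G) : Cfsg.HasNormalPComplement 2 G := by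
  have hcomm : IsMulCommutative T := by
    refine ⟨⟨fun a b => ?_⟩⟩
    have h1 := he (a * b)
    have ha := he a
    have hb := he b
    calc a * b = a * (a * b * (a * b)) * b := by rw [h1, mul_one]
      _ = (a * a) * b * a * (b * b) := by group
      _ = b * a := by rw [ha, hb, one_mul, mul_one]
  apply hasNormalPComplement_of_normalizer_le_centralizer T
  obtain ⟨h1, h2, h3'⟩ := relIndex_centralizer_normalizer T
  have h4 := h1.trans (card_mulAut_dvd_factorial T)
  rw [h8] at h4
  rw [← Subgroup.relIndex_eq_one]
  have hcardΦ : Nat.card (T : Subgroup G).normalizerMonoidHom.range =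
      (Subgroup.centralizer (T : Set G)).relIndex (Subgroup.normalizer (T : Set G)) := by
    rw [← Subgroup.index_ker, Subgroup.normalizerMonoidHom_ker]; rfl
  set r := (Subgroup.centralizer (T : Set G)).relIndex (Subgroup.normalizer (T : Set G)) with hr
  have h5 : r.Coprime 3 := by
    rw [Nat.coprime_comm, Nat.Prime.coprime_iff_not_dvd Nat.prime_three]
    exact fun h => h3 (h.trans h3')
  have h7' : r.Coprime 7 := by
    rw [Nat.coprime_comm, Nat.Prime.coprime_iff_not_dvd (by norm_num)]
    exact fun h => h7 (h.trans h3')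
  have h6 : r ∣ 5 := by
    have e : Nat.factorial 8 = (2 ^ 7 * 3 ^ 2 * 7) * 5 := by decide
    rw [e] at h4
    exact Nat.Coprime.dvd_of_dvd_mul_left
      (Nat.Coprime.mul_right (Nat.Coprime.mul_right (h2.pow_right 7) (h5.pow_right 2)) h7') h4
  rcases (Nat.dvd_prime Nat.prime_five).1 h6 with h | h
  · exact h
  · exfalso
    have : Fact (Nat.Prime 5) := ⟨Nat.prime_five⟩
    have hΦ : IsPGroup 5 (T : Subgroup G).normalizerMonoidHom.range :=
      IsPGroup.of_card (n := 1) (by rw [hcardΦ, h]; rfl)
    have hmod := hΦ.card_modEq_card_fixedPoints (T : Subgroup G)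
    have h8' : Nat.card (T : Subgroup G) = 8 := h8
    have hF := Subgroup.card_subgroup_dvd_card
        (FixedPoints.subgroup (T : Subgroup G).normalizerMonoidHom.range (T : Subgroup G))
    have hmod' : Nat.card (T : Subgroup G) ≡ Nat.card (FixedPoints.subgroup
        (T : Subgroup G).normalizerMonoidHom.range (T : Subgroup G)) [MOD 5] := hmod
    rw [h8'] at hF hmod'
    have key : ∀ m : ℕ, m ∣ 8 → 8 ≡ m [MOD 5] → m = 8 := by
      intro m hm hmod
      have hle := Nat.le_of_dvd (by norm_num) hm
      interval_cases m <;> revert hm hmod <;> decide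
    have hF8 := key _ hF hmod'
    have htop : FixedPoints.subgroup (T : Subgroup G).normalizerMonoidHom.range (T : Subgroup G)
        = ⊤ := Subgroup.eq_top_of_card_eq _ (by rw [hF8, h8'])
    have hbot : (T : Subgroup G).normalizerMonoidHom.range = ⊥ := by
      rw [eq_bot_iff]
      intro φ hφ
      rw [Subgroup.mem_bot]
      ext x
      have hx : x ∈ FixedPoints.subgroup (T : Subgroup G).normalizerMonoidHom.range
          (T : Subgroup G) := by rw [htop]; trivial
      rw [FixedPoints.mem_subgroup] at hx
      have := hx ⟨φ, hφ⟩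
      exact congrArg Subtype.val this
    rw [hbot, Subgroup.card_bot] at hcardΦ
    omega

end Cfsg.Agent.S0085
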