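import Cfsg.Statements.S0086
import Mathlib

set_option autoImplicit false
open Cfsg

namespace Cfsg.Agent.S0086

/-- A normal complement to a Sylow p-subgroup is exactly the set of elements of order prime to p. -/
theorem result {G : Type*} [Group G] [Finite G] {p : ℕ} [Fact p.Prime] (P : Sylow p G) (N : Subgroup G) [N.Normal] (hN : N.IsComplement' (P : Subgroup G)) (x : G) : x ∈ N ↔ Nat.Coprime (orderOf x) p := by
  have hp : p.Prime := Fact.out
  have hcardN : ¬ p ∣ Nat.card N := by
    rw [← hN.index_eq_card]; exact P.not_dvd_index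
  constructor
  · intro hx
    have h1 : orderOf x ∣ Nat.card N := by
      have := orderOf_dvd_natCard (⟨x, hx⟩ : N)
      rwa [Subgroup.orderOf_mk] at this
    exact (Nat.Coprime.of_dvd_right h1 ((Nat.Prime.coprime_iff_not_dvd hp).mpr hcardN)).symm
  · intro hx
    have hQ : IsPGroup p (G ⧸ N) :=
      (P.2).of_equiv (hN.symm.QuotientMulEquiv).symm
    obtain ⟨k, hk⟩ := hQ (x : G ⧸ N)
    have h1 : orderOf (x : G ⧸ N) ∣ p ^ k := orderOf_dvd_of_pow_eq_one hk
    have h2 : orderOf (x : G ⧸ N) ∣ orderOf x := orderOf_map_dvd (QuotientGroup.mk' N) x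
    have h3 : orderOf (x : G ⧸ N) = 1 :=
      Nat.eq_one_of_dvd_coprimes (Nat.Coprime.pow_right k hx) h2 h1
    rw [orderOf_eq_one_iff] at h3
    exact (QuotientGroup.eq_one_iff x).mp h3

end Cfsg.Agent.S0086
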