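import Cfsg.Statements.S0090
import Cfsg.Agent.Lib.Helper1.Transfer

set_option autoImplicit false
open Cfsg

namespace Cfsg.Agent.S0090

open Cfsg.Agent.Lib.Helper1
open scoped Pointwise commutatorElement

/-- An abelian normal Hall subgroup A splits as the internal direct product of G' ∩ A and Z(G) ∩ A, and [A, G] = G' ∩ A. -/
theorem result {G : Type*} [Group G] [Finite G] (A : Subgroup G) [A.Normal] (hc : IsMulCommutative A) (hHall : Nat.Coprime (Nat.card A) A.index) : ⁅A, (⊤ : Subgroup G)⁆ = commutator G ⊓ A ∧ (commutator G ⊓ A) ⊓ (Subgroup.center G ⊓ A) = ⊥ ∧ (commutator G ⊓ A) ⊔ (Subgroup.center G ⊓ A) = A := by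
  have := hc
  obtain ⟨L, hL⟩ := Subgroup.exists_right_complement'_of_coprime hHall
  have hLcard : Nat.card L = A.index := hL.symm.index_eq_card.symm
  have hcop : (Nat.card L).Coprime (Nat.card A) := by rw [hLcard]; exact hHall.symm
  have hLN : L ≤ Subgroup.normalizer (A : Set G) := by
    rw [Subgroup.normalizer_eq_top]; exact le_top
  have hTN : (⊤ : Subgroup G) ≤ Subgroup.normalizer (A : Set G) := by
    rw [Subgroup.normalizer_eq_top]
  have hsolv : Group.IsSolvable A := by
    let _ : CommGroup A := { (inferInstance : Group A) with mul_comm := hc.is_comm.comm }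
    infer_instance
  have hdec := coprime_commutator_sup_centralizer L A hLN hcop (Or.inr hsolv)
  have hCZ : A ⊓ Subgroup.centralizer (L : Set G) ≤ Subgroup.center G ⊓ A := by
    rintro x ⟨hxA, hxL⟩
    refine ⟨?_, hxA⟩
    change x ∈ Subgroup.center G
    rw [Subgroup.mem_center_iff]
    intro g
    obtain ⟨a, ha, l, hl, rfl⟩ := IsComplement'.exists_mul hL g
    have h1 : l * x = x * l := (Subgroup.mem_centralizer_iff.mp hxL l hl)
    have h2 : a * x = x * a := congrArg Subtype.val (hc.is_comm.comm ⟨a, ha⟩ ⟨x, hxA⟩)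
    calc a * l * x = a * (l * x) := by group
      _ = a * x * l := by rw [h1]; group
      _ = x * (a * l) := by rw [h2]; group
  have h2 := abelian_hall_inf_commutator_inf_center A hc hHall
  have hAG : ⁅A, (⊤ : Subgroup G)⁆ ≤ commutator G ⊓ A :=
    le_inf (Subgroup.commutator_mono le_top le_rfl) (commutator_le_of_le_normalizer hTN)
  have hsup : A ≤ ⁅A, (⊤ : Subgroup G)⁆ ⊔ (Subgroup.center G ⊓ A) := by
    conv_lhs => rw [← hdec]
    exact sup_le_sup (Subgroup.commutator_mono le_rfl le_top) hCZ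
  have hbot : (commutator G ⊓ A) ⊓ (Subgroup.center G ⊓ A) = ⊥ := by
    rw [eq_bot_iff, ← h2]
    rintro x ⟨⟨h3, h4⟩, h5, -⟩
    exact ⟨⟨h4, h3⟩, h5⟩
  refine ⟨le_antisymm hAG ?_, hbot, ?_⟩
  · rintro x ⟨hxc, hxA⟩
    have hx := hsup hxA
    have hnorm : (Subgroup.center G ⊓ A) ≤
        Subgroup.normalizer ((⁅A, (⊤ : Subgroup G)⁆ : Subgroup G) : Set G) :=
      le_top.trans (le_normalizer_commutator_right hTN)
    obtain ⟨b, hb, z, hz, rfl⟩ := (mem_sup_of_le_normalizer hnorm).1 hx
    have hz1 : z ∈ (commutator G ⊓ A) ⊓ (Subgroup.center G ⊓ A) := by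
      refine ⟨⟨?_, hz.2⟩, hz⟩
      have : z = b⁻¹ * (b * z) := by group
      change z ∈ commutator G
      rw [this]
      exact (commutator G).mul_mem ((commutator G).inv_mem (hAG hb).1) hxc
    rw [hbot, Subgroup.mem_bot] at hz1
    rw [hz1, mul_one]; exact hb
  · apply le_antisymm (sup_le inf_le_right inf_le_right)
    exact hsup.trans (sup_le_sup hAG le_rfl)

end Cfsg.Agent.S0090
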