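import Cfsg.Statements.S0091
import Cfsg.Agent.Lib.Helper1.Transfer

set_option autoImplicit false
open Cfsg

namespace Cfsg.Agent.S0091

open scoped commutatorElement

/-- If a nontrivial Sylow p-subgroup controls its own fusion then it is not contained in the derived subgroup. -/
theorem result {G : Type*} [Group G] [Finite G] {p : ℕ} [Fact p.Prime] (P : Sylow p G) (hp : p ∣ Nat.card G) (h : ∀ x ∈ P, ∀ y ∈ P, (∃ g : G, g * x * g⁻¹ = y) → ∃ z ∈ P, z * x * z⁻¹ = y) : ¬ (P : Subgroup G) ≤ commutator G := by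
  intro hle
  have h1 : (P : Subgroup G) ≤ ⁅(P : Subgroup G), (P : Subgroup G)⁆ := by
    have h2 : (P : Subgroup G) = Subgroup.focalSubgroup (P : Subgroup G) := by
      rw [← Subgroup.commutator_inf_eq_focalSubgroup, inf_eq_right.mpr hle]
    conv_lhs => rw [h2, Subgroup.focalSubgroup_def]
    rw [Subgroup.closure_le]
    rintro g ⟨hgP, x, hx, u, rfl⟩
    have hy : u * x⁻¹ * u⁻¹ ∈ P := by
      have : u * x⁻¹ * u⁻¹ = x⁻¹ * ⁅x, u⁆ := by rw [commutatorElement_def]; group
      rw [this]; exact mul_mem (inv_mem hx) hgP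
    obtain ⟨z, hz, hzx⟩ := h x⁻¹ (inv_mem hx) _ hy ⟨u, rfl⟩
    have : ⁅x, u⁆ = ⁅x, z⁆ := by
      rw [commutatorElement_def, commutatorElement_def]
      calc x * u * x⁻¹ * u⁻¹ = x * (u * x⁻¹ * u⁻¹) := by group
        _ = x * (z * x⁻¹ * z⁻¹) := by rw [hzx]
        _ = x * z * x⁻¹ * z⁻¹ := by group
    rw [SetLike.mem_coe, this]
    exact Subgroup.commutator_mem_commutator hx hz
  exact P.ne_bot_of_dvd_card hp
    (Cfsg.Agent.Lib.Helper1.eq_bot_of_le_commutator P.2.isNilpotent le_rfl h1)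

end Cfsg.Agent.S0091
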