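import Cfsg.Statements.S0092
import Cfsg.Agent.Lib.Helper1.CoprimeSylow
import Cfsg.Agent.Lib.Helper1.Transfer
import Cfsg.Agent.Lib.Helper1.Nilp
import Cfsg.Agent.Lib.Helper4.Basic
import Cfsg.Agent.S0055
import Cfsg.Agent.S0075

set_option autoImplicit false
open Cfsg

namespace Cfsg.Agent.S0092

open Cfsg.Agent.Lib.Helper1
open Subgroup
open scoped commutatorElement Pointwise

/-- internal Schur–Zassenhaus (existence) -/
theorem sz_exists_internal {G : Type*} [Group G] [Finite G] {Q M : Subgroup G} (hQM : Q ≤ M)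
    (hn : M ≤ normalizer (Q : Set G)) (hcop : (Nat.card Q).Coprime (Q.relIndex M)) :
    ∃ L : Subgroup G, L ≤ M ∧ Q ⊓ L = ⊥ ∧ Q ⊔ L = M ∧ Nat.card L = Q.relIndex M := by
  have : (Q.subgroupOf M).Normal := (normal_subgroupOf_iff_le_normalizer hQM).mpr hn
  obtain ⟨H, hH⟩ := exists_right_complement'_of_coprime (N := Q.subgroupOf M)
    (by rwa [card_subgroupOf_of_le hQM])
  refine ⟨H.map M.subtype, map_subtype_le H, ?_, ?_, ?_⟩
  · have h1 := congrArg (Subgroup.map M.subtype) hH.disjoint.eq_bot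
    rw [map_inf _ _ _ M.subtype_injective, map_subgroupOf_eq_of_le hQM, Subgroup.map_bot] at h1
    exact h1
  · have h1 := congrArg (Subgroup.map M.subtype) hH.sup_eq_top
    rwa [Subgroup.map_sup, map_subgroupOf_eq_of_le hQM, ← MonoidHom.range_eq_map,
      range_subtype] at h1
  · rw [card_map_of_injective M.subtype_injective, ← hH.symm.index_eq_card]; rfl

theorem pResidual_pResidual {G : Type*} [Group G] (p : ℕ) :
    Cfsg.pResidual p ↥(Cfsg.pResidual p G) = ⊤ := by
  rw [eq_top_iff]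
  have h1 : Cfsg.pResidual p G ≤ (Cfsg.pResidual p ↥(Cfsg.pResidual p G)).map
      (Cfsg.pResidual p G).subtype := by
    conv_lhs => unfold Cfsg.pResidual
    rw [closure_le]
    intro g hg
    have hgK : g ∈ Cfsg.pResidual p G := subset_closure hg
    refine ⟨⟨g, hgK⟩, subset_closure ?_, rfl⟩
    change (orderOf (⟨g, hgK⟩ : ↥(Cfsg.pResidual p G))).Coprime p
    rw [Subgroup.orderOf_mk]; exact hg
  intro x _
  obtain ⟨y, hy, hyx⟩ := h1 x.2
  rwa [← Subtype.ext hyx]

theorem core {G : Type*} [Group G] [Finite G] {p : ℕ} [Fact p.Prime] (K : Subgroup G) [K.Normal]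
    (hKq : IsPGroup p (G ⧸ K)) (hres : Cfsg.pResidual p ↥K = ⊤)
    (h : ∀ Q : Sylow p K, IsMulCommutative Q) : ∃ S : Subgroup G, S.IsComplement' K := by
  have hp : p.Prime := Fact.out
  obtain ⟨Q'⟩ : Nonempty (Sylow p K) := inferInstance
  have hQ'comm := h Q'
  obtain ⟨Q, hQdef⟩ : ∃ Q, Q = sylImg Q' := ⟨_, rfl⟩
  have hQK : Q ≤ K := hQdef ▸ sylImg_le Q'
  have hQp : IsPGroup p Q := by rw [hQdef]; exact Q'.2.map _
  have hQsub : Q.subgroupOf K = Q' := by
    rw [hQdef]; exact comap_map_eq_self_of_injective K.subtype_injective _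
  have hQcomm : IsMulCommutative Q := by
    rw [hQdef]
    refine ⟨⟨?_⟩⟩
    rintro ⟨_, a, ha, rfl⟩ ⟨_, b, hb, rfl⟩
    apply Subtype.ext
    have := congrArg (fun z : ↥(Q' : Subgroup K) => ((z : K) : G))
      (hQ'comm.is_comm.comm ⟨a, ha⟩ ⟨b, hb⟩)
    exact this
  obtain ⟨P, hQP⟩ := hQp.exists_le_sylow
  have hPK : (P : Subgroup G) ⊓ K = Q := by
    have h1 : ((P : Subgroup G) ⊓ K).subgroupOf K = Q' := by
      apply Q'.is_maximal'
      · exact (P.2.to_le inf_le_left).comap_subtype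
      · rw [← hQsub]
        exact comap_mono (le_inf hQP hQK)
    rw [← hQsub] at h1
    have h2 := congrArg (Subgroup.map K.subtype) h1
    rwa [map_subgroupOf_eq_of_le inf_le_right, map_subgroupOf_eq_of_le hQK] at h2
  -- `Q = [Q, M]` with `M = N_K(Q)`
  have hQM : Q = ⁅Q, normalizer (Q : Set G) ⊓ K⁆ := by
    have h75 := Cfsg.Agent.S0075.result Q' hQ'comm
    rw [hres, inf_top_eq] at h75
    have hnorm : normalizer (Q' : Set K) = (normalizer (Q : Set G)).subgroupOf K := by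
      rw [subgroupOf_normalizer_eq hQK, hQsub]; rfl
    have h1 := congrArg (Subgroup.map K.subtype) h75
    rw [map_commutator, hnorm, ← hQsub, map_subgroupOf_eq_of_le hQK,
      subgroupOf_map_subtype] at h1
    exact h1
  have hQleM : Q ≤ normalizer (Q : Set G) ⊓ K := le_inf le_normalizer hQK
  have hnotdvd : ¬ p ∣ Q.relIndex K := by
    rw [relIndex, hQsub]; exact Q'.not_dvd_index
  obtain ⟨n, hn⟩ := IsPGroup.iff_card.mp hQp
  have hcopM : (Nat.card Q).Coprime (Q.relIndex (normalizer (Q : Set G) ⊓ K)) := by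
    rw [hn]
    apply Nat.Coprime.pow_left
    rw [Nat.Prime.coprime_iff_not_dvd hp]
    intro hd
    apply hnotdvd
    rw [← relIndex_mul_relIndex Q _ K hQleM inf_le_right]
    exact hd.mul_right _
  obtain ⟨L, hLM, hQL, hQLsup, hLcard⟩ := sz_exists_internal hQleM inf_le_left hcopM
  have hLN : L ≤ normalizer (Q : Set G) := hLM.trans inf_le_left
  have hcopL : (Nat.card L).Coprime (Nat.card Q) := by rw [hLcard]; exact hcopM.symm
  have hQL' : Q = ⁅Q, L⁆ := by
    apply le_antisymm _ (commutator_le_of_le_normalizer hLN)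
    conv_lhs => rw [hQM]
    rw [commutator_le]
    intro q hq m hm
    rw [← hQLsup, mem_sup_of_le_normalizer hLN] at hm
    obtain ⟨q', hq', l, hl, rfl⟩ := hm
    have h1 : ⁅q, l⁆ ∈ Q := commutator_le_of_le_normalizer hLN (commutator_mem_commutator hq hl)
    have hc : ∀ a ∈ Q, ∀ b ∈ Q, a * b = b * a := fun a ha b hb =>
      congrArg Subtype.val (hQcomm.is_comm.comm ⟨a, ha⟩ ⟨b, hb⟩)
    have h2 : ⁅q, q' * l⁆ = ⁅q, l⁆ := by
      have e1 : ⁅q, q' * l⁆ = (q * q') * (l * q⁻¹ * l⁻¹) * q'⁻¹ := by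
        rw [commutatorElement_def]; group
      have hx : l * q⁻¹ * l⁻¹ ∈ Q := conj_mem_of_mem_normalizer (hLN hl) (inv_mem hq)
      rw [e1, mul_assoc (q * q'), hc _ hx _ (inv_mem hq'), commutatorElement_def]
      group
    rw [h2]
    exact commutator_mem_commutator hq hl
  have hCQL : Q ⊓ centralizer (L : Set G) = ⊥ := by
    have h55 := (Cfsg.Agent.S0055.result L Q hLN hcopL).1
    rwa [← hQL', inf_comm, ← inf_assoc, inf_idem] at h55
  -- Frattini argument
  have hfrat : ∀ x ∈ normalizer (Q : Set G), ∃ q ∈ Q, q⁻¹ * x ∈ normalizer (L : Set G) := by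
    intro x hx
    have h1 : MulAut.conj x • L ≤ Q ⊔ L := by
      rw [hQLsup]
      intro y hy
      rw [mem_conj_smul] at hy
      have h2 := hLM hy
      have e : y = x * (x⁻¹ * y * x) * x⁻¹ := by group
      rw [e]
      exact mem_inf.mpr ⟨mul_mem (mul_mem hx h2.1) (inv_mem hx), ‹K.Normal›.conj_mem _ h2.2 x⟩
    obtain ⟨q, hq, hqL⟩ := szi_card Q L (MulAut.conj x • L) hLN h1 (card_conj_smul x L)
      hcopL.symm (Or.inl (solvable_of_isPGroup hQp))
    refine ⟨q, hq, ?_⟩
    rw [← conj_smul_eq_self_iff, conj_mul_smul, ← hqL, ← conj_mul_smul]; simp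
  have hQT : Q ⊓ normalizer (L : Set G) = ⊥ := by
    rw [eq_bot_iff, ← hCQL]
    intro y hy
    obtain ⟨hyQ, hyL⟩ := mem_inf.mp hy
    refine mem_inf.mpr ⟨hyQ, ?_⟩
    rw [mem_centralizer_iff]
    intro l hl
    have h1 : ⁅y, l⁆ ∈ Q ⊓ L := by
      refine mem_inf.mpr ⟨?_, ?_⟩
      · exact commutator_le_of_le_normalizer hLN (commutator_mem_commutator hyQ hl)
      · rw [commutatorElement_def]
        exact mul_mem (conj_mem_of_mem_normalizer hyL hl) (inv_mem hl)
    rw [hQL, mem_bot, commutatorElement_eq_one_iff_mul_comm] at h1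
    exact h1.symm
  have hPN : (P : Subgroup G) ≤ normalizer (Q : Set G) := by
    rw [← hPK]
    exact le_normalizer_inf le_normalizer (by rw [normalizer_eq_top]; exact le_top)
  have hsup : (P : Subgroup G) ⊔ K = ⊤ := sylow_sup_eq_top_of_isPGroup_quotient P hKq
  refine ⟨(P : Subgroup G) ⊓ normalizer (L : Set G), ?_⟩
  apply isComplement'_of_disjoint_and_mul_eq_univ
  · rw [disjoint_iff, eq_bot_iff, ← hQT, ← hPK]
    rintro y ⟨⟨h1, h2⟩, h3⟩
    exact ⟨⟨h1, h3⟩, h2⟩
  · rw [Set.eq_univ_iff_forall]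
    intro g
    have hg : g ∈ (P : Subgroup G) ⊔ K := hsup ▸ mem_top g
    rw [← SetLike.mem_coe, mul_normal] at hg
    obtain ⟨u, hu, k, hk, rfl⟩ := hg
    obtain ⟨q, hq, hqu⟩ := hfrat u (hPN hu)
    refine ⟨q⁻¹ * u, mem_inf.mpr ⟨mul_mem (inv_mem (hQP hq)) hu, hqu⟩,
      (q⁻¹ * u)⁻¹ * q * (q⁻¹ * u) * k, ?_, ?_⟩
    · refine mul_mem ?_ hk
      have := ‹K.Normal›.conj_mem _ (hQK hq) (q⁻¹ * u)⁻¹
      simpa using this
    · simp only []; group

/-- If the Sylow p-subgroups of O^p(G) are abelian then G splits over O^p(G). -/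
theorem result {G : Type*} [Group G] [Finite G] {p : ℕ} [Fact p.Prime] (h : ∀ Q : Sylow p (Cfsg.pResidual p G), IsMulCommutative Q) : ∃ K : Subgroup G, K.IsComplement' (Cfsg.pResidual p G) := by
  have hKn : (Cfsg.pResidual p G).Normal := pResidual_normal p
  exact core _ (isPGroup_quotient_pResidual p) (pResidual_pResidual p) h

end Cfsg.Agent.S0092
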