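import Cfsg.Statements.S0094
import Cfsg.Agent.Lib.Helper1.Class2

set_option autoImplicit false
open Cfsg

namespace Cfsg.Agent.S0094

open Cfsg.Agent.Lib.Helper1
open scoped Pointwise commutatorElement

/-- In a special p-group every central element has order dividing p. -/
theorem result {P : Type*} [Group P] [Finite P] {p : ℕ} [Fact p.Prime] (h : Cfsg.IsSpecial p P) (z : P) (hz : z ∈ Subgroup.center P) : z ^ p = 1 := by
  obtain ⟨hP, hfr, hcm⟩ := h
  have hc2 : Class2 P := class2_of_commutator_le_center hcm.le
  rw [← hcm, commutator_eq_closure] at hz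
  induction hz using Subgroup.closure_induction with
  | mem x hx =>
    obtain ⟨a, b, rfl⟩ := hx
    rw [← hc2.pow_left]
    have h1 : a ^ p ∈ Subgroup.center P := hfr ▸ (pgroup_frattini hP).2 a
    rw [commutatorElement_eq_one_iff_mul_comm]
    exact (Subgroup.mem_center_iff.mp h1 b).symm
  | one => exact one_pow _
  | mul x y hx _ hx' hy' =>
    have hxc : x ∈ Subgroup.center P := by rw [← hcm, commutator_eq_closure]; exact hx
    have : Commute x y := (Subgroup.mem_center_iff.mp hxc y).symm
    rw [this.mul_pow, hx', hy', one_mul]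
  | inv x _ hx => rw [inv_pow, hx, inv_one]

end Cfsg.Agent.S0094
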