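import Cfsg.Statements.S0097
import Cfsg.Agent.Lib.Helper1.Class2
import Cfsg.Agent.S0094

set_option autoImplicit false
open Cfsg

namespace Cfsg.Agent.S0097

open Cfsg.Agent.Lib.Helper1
open scoped Pointwise commutatorElement

/-- For odd p and E extraspecial, the subgroup generated by the elements of order dividing p has exponent dividing p and index at most p. -/
theorem result {E : Type*} [Group E] [Finite E] {p : ℕ} [Fact p.Prime] (hp : p ≠ 2) (h : Cfsg.IsExtraspecial p E) : (Subgroup.closure {x : E | x ^ p = 1}).index ≤ p ∧ ∀ g ∈ Subgroup.closure {x : E | x ^ p = 1}, g ^ p = 1 := by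
  have hpp : p.Prime := Fact.out
  obtain ⟨hs, hcard⟩ := h
  have hs' := hs
  obtain ⟨hP, hfr, hcm⟩ := hs
  have hc2 : Class2 E := class2_of_commutator_le_center hcm.le
  refine ⟨?_, fun g hg => hc2.pow_eq_one_of_mem_closure hpp hp hg⟩
  let φ : E →* Subgroup.center E :=
    { toFun := fun x => ⟨x ^ p, hfr ▸ (pgroup_frattini hP).2 x⟩
      map_one' := Subtype.ext (one_pow _)
      map_mul' := fun x y => Subtype.ext (hc2.mul_pow_prime hpp hp x y
        (Cfsg.Agent.S0094.result hs' _ (hc2 y x))) }
  have hker : φ.ker ≤ Subgroup.closure {x : E | x ^ p = 1} := by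
    intro x hx
    apply Subgroup.subset_closure
    exact congrArg Subtype.val (MonoidHom.mem_ker.mp hx)
  have h1 : (Subgroup.closure {x : E | x ^ p = 1}).index ∣ φ.ker.index :=
    Subgroup.index_dvd_of_le hker
  have h2 : φ.ker.index ≤ p := by
    rw [Subgroup.index_ker, ← hcard]
    exact Subgroup.card_le_card_group _
  exact (Nat.le_of_dvd (Nat.pos_of_ne_zero Subgroup.index_ne_zero_of_finite) h1).trans h2

end Cfsg.Agent.S0097
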