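import Cfsg.Statements.S0099
import Cfsg.Agent.Lib.Helper19.ESE

set_option autoImplicit false
open Cfsg

namespace Cfsg.Agent.S0099

open Cfsg.Agent.Lib.Helper19.ES

/-- Among three extraspecial 2-groups of equal order, some two are isomorphic. -/
theorem result {E₁ : Type*} {E₂ : Type*} {E₃ : Type*} [Group E₁] [Group E₂] [Group E₃] [Finite E₁] [Finite E₂] [Finite E₃] (h₁ : Cfsg.IsExtraspecial 2 E₁) (h₂ : Cfsg.IsExtraspecial 2 E₂) (h₃ : Cfsg.IsExtraspecial 2 E₃) (h12 : Nat.card E₁ = Nat.card E₂) (h23 : Nat.card E₂ = Nat.card E₃) : Nonempty (E₁ ≃* E₂) ∨ Nonempty (E₂ ≃* E₃) ∨ Nonempty (E₁ ≃* E₃) := by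
  obtain ⟨m, hm, hcard⟩ := card_form h₁
  have c1 := SS_cases h₁ m hcard
  have c2 := SS_cases h₂ m (by rw [← h12, hcard])
  have c3 := SS_cases h₃ m (by rw [← h23, ← h12, hcard])
  rcases c1 with c1 | c1 <;> rcases c2 with c2 | c2 <;> rcases c3 with c3 | c3
  · exact Or.inl (iso_of_SS h₁ h₂ h12 (by rw [c1, c2]))
  · exact Or.inl (iso_of_SS h₁ h₂ h12 (by rw [c1, c2]))
  · exact Or.inr (Or.inr (iso_of_SS h₁ h₃ (h12.trans h23) (by rw [c1, c3])))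
  · exact Or.inr (Or.inl (iso_of_SS h₂ h₃ h23 (by rw [c2, c3])))
  · exact Or.inr (Or.inl (iso_of_SS h₂ h₃ h23 (by rw [c2, c3])))
  · exact Or.inr (Or.inr (iso_of_SS h₁ h₃ (h12.trans h23) (by rw [c1, c3])))
  · exact Or.inl (iso_of_SS h₁ h₂ h12 (by rw [c1, c2]))
  · exact Or.inl (iso_of_SS h₁ h₂ h12 (by rw [c1, c2]))

end Cfsg.Agent.S0099
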