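import Cfsg.Statements.S0100
import Cfsg.Agent.Lib.Helper1.NormalChain
import Cfsg.Agent.Lib.Helper1.Nilp
import Cfsg.Agent.Lib.Helper4.Basic
import Cfsg.Agent.S0130
import Cfsg.Agent.S3741

set_option autoImplicit false
open Cfsg

namespace Cfsg.Agent.S0100

open Cfsg.Agent.Lib.Helper1
open Subgroup
open scoped commutatorElement

/-- For odd p, a p-group without normal elementary abelian subgroups of order p^3 has p-rank at most 2. -/
theorem result {P : Type*} [Group P] [Finite P] {p : ℕ} [Fact p.Prime] (hp : p ≠ 2) (hP : IsPGroup p P) (h : ∀ A : Subgroup P, A.Normal → IsMulCommutative A → (∀ a ∈ A, a ^ p = 1) → Nat.card A ≠ p ^ 3) (E : Subgroup P) (hE : IsMulCommutative E) (hEe : ∀ e ∈ E, e ^ p = 1) : Nat.card E ≤ p ^ 2 := by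
  have hpp : p.Prime := Fact.out
  have hnil : Group.IsNilpotent P := hP.isNilpotent
  -- a maximal normal elementary abelian subgroup
  have hne : Nonempty {B : Subgroup P // B.Normal ∧ IsMulCommutative B ∧ ∀ b ∈ B, b ^ p = 1} :=
    ⟨⟨⊥, inferInstance, inferInstance, fun b hb => by rw [mem_bot.mp hb, one_pow]⟩⟩
  obtain ⟨⟨A, hAn, hAc, hAe⟩, hAmax⟩ := Finite.exists_max
    (fun B : {B : Subgroup P // B.Normal ∧ IsMulCommutative B ∧ ∀ b ∈ B, b ^ p = 1} =>
      Nat.card B.1)
  have hmax : ∀ B : Subgroup P, B.Normal → IsMulCommutative B → (∀ b ∈ B, b ^ p ^ 1 = 1) →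
      A ≤ B → B = A := by
    intro B h1 h2 h3 h4
    exact (eq_of_le_of_card_ge h4 (hAmax ⟨B, h1, h2, fun b hb => by simpa using h3 b hb⟩)).symm
  obtain ⟨a, ha⟩ := IsPGroup.iff_card.mp (hP.to_subgroup A)
  have ha2 : a ≤ 2 := by
    by_contra hcon
    obtain ⟨M, hMA, hMn, hMc⟩ := exists_normal_le_card_pow hP A ha 3 (by omega)
    refine h M hMn ?_ (fun x hx => hAe x (hMA hx)) hMc
    exact ⟨⟨fun x y => Subtype.ext (congrArg (Subtype.val : ↥A → P)
      (hAc.is_comm.comm ⟨x, hMA x.2⟩ ⟨y, hMA y.2⟩))⟩⟩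
  have h130 : ∀ x ∈ centralizer (A : Set P), x ^ p = 1 → x ∈ A := by
    intro x hx hxp
    exact Cfsg.Agent.S0130.result hP 1 (by simpa using hp) A hAc (fun b hb => by simpa using hAe b hb)
      hmax x hx (by simpa using hxp)
  have hE₀ : E ⊓ centralizer (A : Set P) ≤ A := fun x hx => h130 x hx.2 (hEe x hx.1)
  -- index of the centraliser
  have hidx : (centralizer (A : Set P)).index ≤ p := by
    by_cases hAbot : A = ⊥
    · have htop : centralizer (A : Set P) = ⊤ := by
        rw [eq_top_iff]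
        intro y _
        rw [mem_centralizer_iff]
        intro x hx
        rw [hAbot] at hx
        rw [mem_bot.mp hx]; simp
      rw [htop, index_top]; exact hpp.pos
    have hcle : ⁅A, (⊤ : Subgroup P)⁆ ≤ A := commutator_le_left _ _
    have hclt : Nat.card ↥⁅A, (⊤ : Subgroup P)⁆ ≤ p := by
      obtain ⟨i, hi, hic⟩ := (Nat.dvd_prime_pow hpp).mp (ha ▸ card_dvd_of_le hcle)
      have hia : i ≠ a := by
        rintro rfl
        apply hAbot
        have h1 : ⁅A, (⊤ : Subgroup P)⁆ = A := eq_of_le_of_card_ge hcle (by rw [ha, hic])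
        exact eq_bot_of_le_commutator (T := ⊤) inferInstance le_top h1.ge
      rw [hic]
      calc p ^ i ≤ p ^ 1 := Nat.pow_le_pow_right hpp.pos (by omega)
        _ = p := pow_one p
    have h41 := Cfsg.Agent.S3741.result hP A ⊤ (le_inf hcle le_top) hclt
    rw [top_inf_eq, relIndex_top_right] at h41
    rw [← h41]
    have hc1 := Cfsg.Agent.Lib.Helper4.card_eq_mul_relIndex
      (inf_le_left : A ⊓ centralizer ((⊤ : Subgroup P) : Set P) ≤ A)
    obtain ⟨x, hxA, hxc, hx1⟩ := Cfsg.Agent.Lib.Helper20.normal_inf_center_ne_bot A hAbot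
    obtain ⟨j, hj, hjc⟩ := (Nat.dvd_prime_pow hpp).mp (ha ▸ card_dvd_of_le
      (inf_le_left : A ⊓ centralizer ((⊤ : Subgroup P) : Set P) ≤ A))
    have hj0 : j ≠ 0 := by
      rintro rfl
      rw [pow_zero, card_eq_one] at hjc
      have : x ∈ A ⊓ centralizer ((⊤ : Subgroup P) : Set P) := by
        refine mem_inf.mpr ⟨hxA, ?_⟩
        rw [mem_centralizer_iff]
        intro y _
        exact mem_center_iff.mp hxc y
      rw [hjc, mem_bot] at this
      exact hx1 this
    rw [ha, hjc] at hc1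
    have h5 : (A ⊓ centralizer ((⊤ : Subgroup P) : Set P)).relIndex A = p ^ (a - j) := by
      apply Nat.eq_of_mul_eq_mul_left (pow_pos hpp.pos j)
      rw [← hc1, ← pow_add]; congr 1; omega
    rw [h5]
    calc p ^ (a - j) ≤ p ^ 1 := Nat.pow_le_pow_right hpp.pos (by omega)
      _ = p := pow_one p
  have hrel : (centralizer (A : Set P)).relIndex E ≤ p := by
    refine le_trans ?_ hidx
    rw [← relIndex_top_right]
    exact relIndex_le_of_le_right le_top (by rw [relIndex_top_right]; exact index_ne_zero_of_finite)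
  have hcardE := Cfsg.Agent.Lib.Helper4.card_eq_inf_mul_relIndex E (centralizer (A : Set P))
  by_cases hsmall : Nat.card (E ⊓ centralizer (A : Set P) : Subgroup P) ≤ p
  · rw [hcardE, pow_two]
    exact Nat.mul_le_mul hsmall hrel
  · -- then `E₀ = A`
    have hdvd : Nat.card (E ⊓ centralizer (A : Set P) : Subgroup P) ∣ p ^ a :=
      ha ▸ card_dvd_of_le hE₀
    obtain ⟨j, hj, hjc⟩ := (Nat.dvd_prime_pow hpp).mp hdvd
    have hj2 : 2 ≤ j := by
      by_contra hcon
      apply hsmall
      rw [hjc]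
      calc p ^ j ≤ p ^ 1 := Nat.pow_le_pow_right hpp.pos (by omega)
        _ = p := pow_one p
    have hja : j = a := by omega
    have hEA : E ⊓ centralizer (A : Set P) = A :=
      eq_of_le_of_card_ge hE₀ (by rw [ha, hjc, hja])
    have hAE : A ≤ E := hEA ▸ inf_le_left
    have hEC : E ≤ centralizer (A : Set P) := by
      intro e he
      rw [mem_centralizer_iff]
      intro x hx
      exact congrArg Subtype.val (hE.is_comm.comm ⟨x, hAE hx⟩ ⟨e, he⟩)
    rw [inf_eq_left.mpr hEC] at hEA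
    rw [hEA, ha]
    exact Nat.pow_le_pow_right hpp.pos ha2

end Cfsg.Agent.S0100
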