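import Cfsg.Statements.S0102
import Cfsg.Agent.Lib.Helper1.PGrp

set_option autoImplicit false
open Cfsg

namespace Cfsg.Agent.S0102

/-- A finite perfect group with cyclic Sylow p-subgroups has no perfect central extension whose kernel has order divisible by p. -/
theorem result {G : Type*} {H : Type*} [Group G] [Group H] [Finite G] [Finite H] (hG : commutator G = ⊤) {p : ℕ} [Fact p.Prime] (hcyc : ∀ P : Sylow p G, IsCyclic P) (σ : H →* G) (hσ : Function.Surjective σ) (hz : σ.ker ≤ Subgroup.center H) (hH : commutator H = ⊤) : ¬ p ∣ Nat.card σ.ker := by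
  intro hdvd
  have hz0 := hz
  obtain ⟨z, hz⟩ := exists_prime_orderOf_dvd_card' p hdvd
  obtain ⟨P⟩ : Nonempty (Sylow p H) := inferInstance
  have hzc : (z : H) ∈ Subgroup.center H := hz0 z.2
  have hzord : orderOf (z : H) = p := by rw [Subgroup.orderOf_coe]; exact hz
  have hn : (Subgroup.zpowers (z : H)).Normal := by
    constructor
    intro x hx g
    have : x ∈ Subgroup.center H := by
      obtain ⟨k, rfl⟩ := hx
      exact (Subgroup.center H).zpow_mem hzc k
    rw [(Subgroup.mem_center_iff.mp this g), mul_inv_cancel_right]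
    exact hx
  have hpg : IsPGroup p (Subgroup.zpowers (z : H)) :=
    IsPGroup.of_card (n := 1) (by rw [Nat.card_zpowers, hzord, pow_one])
  have hzP : (z : H) ∈ P := hpg.le_sylow_of_normal P (Subgroup.mem_zpowers _)
  have h1 := Cfsg.Agent.Lib.Helper1.center_inf_commutator_inf_sylow_le P hzc
    (hH ▸ Subgroup.mem_top _) hzP
  have hcycP : IsCyclic ((P : Subgroup H).map σ) := hcyc (P.mapSurjective hσ)
  have hcomm : ∀ a b : P, a * b = b * a := by
    refine commutative_of_cyclic_center_quotient (σ.subgroupMap (P : Subgroup H)) ?_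
    intro x hx
    rw [Subgroup.mem_center_iff]
    intro y
    have hx' : (x : H) ∈ σ.ker := by
      have := congrArg Subtype.val (MonoidHom.mem_ker.mp hx)
      exact this
    exact Subtype.ext (Subgroup.mem_center_iff.mp (hz0 hx') y)
  have h2 : commutator P = ⊥ := by
    rw [commutator_def, Subgroup.commutator_eq_bot_iff_le_centralizer]
    intro a _
    rw [Subgroup.mem_centralizer_iff]
    intro b _
    exact hcomm b a
  rw [h2, Subgroup.mem_bot] at h1
  have h3 : (z : H) = 1 := congrArg Subtype.val h1
  rw [h3, orderOf_one] at hzord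
  exact (Fact.out : p.Prime).one_lt.ne hzord

end Cfsg.Agent.S0102
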