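import Cfsg.Statements.S0105
import Cfsg.Agent.Lib.Helper1.Transfer
import Cfsg.Agent.S0090

set_option autoImplicit false
open Cfsg

namespace Cfsg.Agent.S0105

open Cfsg.Agent.Lib.Helper1
open scoped Pointwise commutatorElement

/-- With an abelian Sylow p-subgroup P, some quotient of G is isomorphic to the part of P central in N_G(P). -/
theorem result {G : Type*} [Group G] [Finite G] {p : ℕ} [Fact p.Prime] (P : Sylow p G) (hP : IsMulCommutative P) : ∃ (N : Subgroup G) (hN : N.Normal), Nonempty (G ⧸ N ≃* ((P : Subgroup G) ⊓ Subgroup.centralizer (Subgroup.normalizer (P : Set G) : Set G) : Subgroup G)) := by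
  have := hP
  have hp : p.Prime := Fact.out
  have hPN : (P : Subgroup G) ≤ Subgroup.normalizer (P : Set G) := Subgroup.le_normalizer
  have hHall : (Nat.card ((P : Subgroup G).subgroupOf (Subgroup.normalizer (P : Set G)))).Coprime
      ((P : Subgroup G).subgroupOf (Subgroup.normalizer (P : Set G))).index := by
    rw [card_subgroupOf_of_le hPN]
    obtain ⟨k, hk⟩ := IsPGroup.iff_card.1 P.2
    rw [hk]
    apply Nat.Coprime.pow_left
    rw [hp.coprime_iff_not_dvd]
    intro hd
    exact P.not_dvd_index (hd.trans (Subgroup.relIndex_dvd_index_of_le hPN))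
  have hnorm : ((P : Subgroup G).subgroupOf (Subgroup.normalizer (P : Set G))).Normal :=
    Subgroup.normal_in_normalizer (H := (P : Subgroup G))
  obtain ⟨h1, h2, h3⟩ := Cfsg.Agent.S0090.result
    ((P : Subgroup G).subgroupOf (Subgroup.normalizer (P : Set G))) inferInstance hHall
  -- the focal subgroup is `[P, N(P)]`
  have hfoc : (P : Subgroup G).focalSubgroup = ⁅(P : Subgroup G), Subgroup.normalizer (P : Set G)⁆ := by
    apply le_antisymm
    · rw [Subgroup.focalSubgroup_def, Subgroup.closure_le]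
      rintro g ⟨hgP, x, hx, u, rfl⟩
      have hy : (u⁻¹)⁻¹ * x⁻¹ * u⁻¹ ∈ P := by
        have : (u⁻¹)⁻¹ * x⁻¹ * u⁻¹ = x⁻¹ * ⁅x, u⁆ := by rw [commutatorElement_def]; group
        rw [this]; exact mul_mem (inv_mem hx) hgP
      obtain ⟨n, hn, hnx⟩ := P.conj_eq_normalizer_conj_of_mem x⁻¹ u⁻¹ (inv_mem hx) hy
      have : ⁅x, u⁆ = ⁅x, n⁻¹⁆ := by
        rw [commutatorElement_def, commutatorElement_def]
        calc x * u * x⁻¹ * u⁻¹ = x * ((u⁻¹)⁻¹ * x⁻¹ * u⁻¹) := by group
          _ = x * (n⁻¹ * x⁻¹ * n) := by rw [hnx]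
          _ = x * n⁻¹ * x⁻¹ * n⁻¹⁻¹ := by group
      rw [SetLike.mem_coe, this]
      exact Subgroup.commutator_mem_commutator hx (inv_mem hn)
    · rw [Subgroup.commutator_le]
      intro x hx n hn
      apply Subgroup.subset_closure
      exact ⟨commutator_le_of_le_normalizer le_rfl (Subgroup.commutator_mem_commutator hx hn),
        x, hx, n, rfl⟩
  have hmap : (⁅(P : Subgroup G).subgroupOf (Subgroup.normalizer (P : Set G)),
      (⊤ : Subgroup (Subgroup.normalizer (P : Set G)))⁆).map
      (Subgroup.normalizer (P : Set G)).subtype = (P : Subgroup G).focalSubgroup := by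
    rw [Subgroup.map_commutator, Subgroup.map_subgroupOf_eq_of_le hPN, hfoc,
      ← MonoidHom.range_eq_map, Subgroup.range_subtype]
  have F1 : ∀ x ∈ (P : Subgroup G).focalSubgroup,
      x ∈ (P : Subgroup G) ⊓ Subgroup.centralizer (Subgroup.normalizer (P : Set G) : Set G) →
      x = 1 := by
    intro x hx hz
    rw [← hmap] at hx
    obtain ⟨y, hy, rfl⟩ := hx
    rw [h1] at hy
    have hy2 : y ∈ Subgroup.center (Subgroup.normalizer (P : Set G)) ⊓
        (P : Subgroup G).subgroupOf (Subgroup.normalizer (P : Set G)) := by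
      refine ⟨?_, hy.2⟩
      change y ∈ Subgroup.center _
      rw [Subgroup.mem_center_iff]
      intro g
      apply Subtype.ext
      exact Subgroup.mem_centralizer_iff.mp hz.2 g g.2
    have : y ∈ (⊥ : Subgroup (Subgroup.normalizer (P : Set G))) := h2 ▸ ⟨hy, hy2⟩
    rw [Subgroup.mem_bot] at this
    rw [this]; rfl
  have F2 : ∀ u ∈ (P : Subgroup G), ∃ b ∈ (P : Subgroup G).focalSubgroup,
      ∃ z ∈ (P : Subgroup G) ⊓ Subgroup.centralizer (Subgroup.normalizer (P : Set G) : Set G),
      u = b * z := by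
    intro u hu
    have hu' : (⟨u, hPN hu⟩ : Subgroup.normalizer (P : Set G)) ∈
        (P : Subgroup G).subgroupOf (Subgroup.normalizer (P : Set G)) := hu
    rw [← h3, ← h1, ← SetLike.mem_coe, Subgroup.normal_mul] at hu'
    obtain ⟨b, hb, z, hz, e⟩ := hu'
    refine ⟨b, hmap ▸ ⟨b, hb, rfl⟩, z, ⟨hz.2, ?_⟩, (congrArg Subtype.val e).symm⟩
    change (z : G) ∈ Subgroup.centralizer _
    rw [Subgroup.mem_centralizer_iff]
    intro g hg
    have := Subgroup.mem_center_iff.mp hz.1 ⟨g, hg⟩
    exact congrArg Subtype.val this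
  let g : ((P : Subgroup G) ⊓ Subgroup.centralizer (Subgroup.normalizer (P : Set G) : Set G) :
      Subgroup G) →* (P : Subgroup G) ⧸ (P : Subgroup G).focalSubgroupOf :=
    (QuotientGroup.mk' _).comp (Subgroup.inclusion inf_le_left)
  have hg : Function.Bijective g := by
    constructor
    · rw [injective_iff_map_eq_one]
      intro z hz
      have hz' : (Subgroup.inclusion inf_le_left z : (P : Subgroup G)) ∈
          (P : Subgroup G).focalSubgroupOf := (QuotientGroup.eq_one_iff _).1 hz
      exact Subtype.ext (F1 z hz' z.2)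
    · intro y
      obtain ⟨u, rfl⟩ := QuotientGroup.mk_surjective y
      obtain ⟨b, hb, z, hz, e⟩ := F2 u u.2
      refine ⟨⟨z, hz⟩, ?_⟩
      change ((Subgroup.inclusion inf_le_left ⟨z, hz⟩ : (P : Subgroup G)) :
        (P : Subgroup G) ⧸ (P : Subgroup G).focalSubgroupOf) = _
      rw [eq_comm, QuotientGroup.eq]
      change (u⁻¹ * Subgroup.inclusion inf_le_left ⟨z, hz⟩ : (P : Subgroup G)) ∈
        (P : Subgroup G).focalSubgroupOf
      rw [Subgroup.focalSubgroupOf_def, Subgroup.mem_subgroupOf]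
      have h5 : ((u⁻¹ * Subgroup.inclusion inf_le_left ⟨z, hz⟩ : (P : Subgroup G)) : G)
          = z⁻¹ * b⁻¹ * z := by
        simp [e]
      rw [h5]
      -- `P` is commutative
      have hbP : b ∈ (P : Subgroup G) := Subgroup.focalSubgroup_le _ hb
      have hc : b⁻¹ * z = z * b⁻¹ :=
        congrArg Subtype.val (hP.is_comm.comm ⟨b⁻¹, inv_mem hbP⟩ ⟨z, hz.1⟩)
      rw [mul_assoc, hc, inv_mul_cancel_left]
      exact inv_mem hb
  exact ⟨(P : Subgroup G).transferFocal.ker, inferInstance,
    ⟨(Subgroup.transferFocal.quotientKerMulEquivQuotientFocalSubroupOf P).trans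
      (MulEquiv.ofBijective g hg).symm⟩⟩

end Cfsg.Agent.S0105
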