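import Cfsg.Statements.S0107
import Cfsg.Agent.Lib.Helper1.Transfer
import Cfsg.Agent.S0111

set_option autoImplicit false
open Cfsg

namespace Cfsg.Agent.S0107

open Cfsg.Agent.Lib.Helper1
open Subgroup
open scoped Pointwise

theorem zmod_unique_two_torsion {m : ℕ} [NeZero m] {i j : ZMod m} (hi : i + i = 0) (hj : j + j = 0)
    (hi0 : i ≠ 0) (hj0 : j ≠ 0) : i = j := by
  have key : ∀ k : ZMod m, k + k = 0 → k ≠ 0 → 2 * k.val = m := by
    intro k hk hk0
    have h1 : (k + k).val = 0 := by rw [hk, ZMod.val_zero]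
    rw [ZMod.val_add] at h1
    have h2 : m ∣ k.val + k.val := Nat.dvd_of_mod_eq_zero h1
    have h3 : k.val < m := ZMod.val_lt k
    have h4 : 0 < k.val := Nat.pos_of_ne_zero (fun h => hk0 ((ZMod.val_eq_zero k).mp h))
    obtain ⟨c, hc⟩ := h2
    have hc1 : c = 1 := by
      rcases c with _ | _ | c
      · omega
      · rfl
      · exfalso
        have : m * (c + 1 + 1) = m * c + m + m := by ring
        have h5 : 0 ≤ m * c := Nat.zero_le _
        omega
    subst hc1
    omega
  apply ZMod.val_injective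
  have := key i hi hi0
  have := key j hj hj0
  omega

/-- A finite group with no nontrivial 2-group quotient and dihedral Sylow 2-subgroups of order at least 8 has a single class of involutions. -/
theorem result {G : Type*} [Group G] [Finite G] (T : Sylow 2 G) (n : ℕ) (hn : 2 ≤ n) (hT : Nonempty ((T : Subgroup G) ≃* DihedralGroup (2 ^ n))) (hO : Cfsg.pResidual 2 G = ⊤) (x y : G) (hx : orderOf x = 2) (hy : orderOf y = 2) : ∃ g : G, g * x * g⁻¹ = y := by
  obtain ⟨e⟩ := hT
  have hm : NeZero (2 ^ n) := ⟨by positivity⟩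
  obtain ⟨Q', hQ'⟩ : ∃ Q' : Subgroup (T : Subgroup G),
      Q' = (zpowers (DihedralGroup.r (1 : ZMod (2 ^ n)))).comap (e : _ →* DihedralGroup (2 ^ n)) :=
    ⟨_, rfl⟩
  have hmemQ' : ∀ t : (T : Subgroup G), t ∈ Q' ↔ ∃ i, e t = DihedralGroup.r i := by
    intro t
    rw [hQ', mem_comap, mem_zpowers_iff]
    constructor
    · rintro ⟨k, hk⟩
      exact ⟨k, by rw [← DihedralGroup.r_one_zpow]; exact hk.symm⟩
    · rintro ⟨i, hi⟩
      refine ⟨(i.val : ℤ), ?_⟩
      rw [DihedralGroup.r_one_zpow]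
      simp [hi]
  have hidx : Q'.index = 2 := by
    rw [hQ', index_comap_of_surjective _ e.surjective]
    have h1 := (zpowers (DihedralGroup.r (1 : ZMod (2 ^ n)))).card_mul_index
    rw [Nat.card_zpowers, DihedralGroup.orderOf_r_one, DihedralGroup.nat_card, mul_comm] at h1
    exact Nat.eq_of_mul_eq_mul_right (by positivity) h1
  have hQT : Q'.map (T : Subgroup G).subtype ≤ (T : Subgroup G) := map_subtype_le _
  have hQi : (Q'.map (T : Subgroup G).subtype).relIndex (T : Subgroup G) = 2 := by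
    rw [relIndex, show (Q'.map (T : Subgroup G).subtype).subgroupOf (T : Subgroup G) = Q' from
      comap_map_eq_self_of_injective (T : Subgroup G).subtype_injective _, hidx]
  have huniq : ∀ a ∈ Q'.map (T : Subgroup G).subtype, ∀ b ∈ Q'.map (T : Subgroup G).subtype,
      orderOf a = 2 → orderOf b = 2 → a = b := by
    rintro _ ⟨a, ha, rfl⟩ _ ⟨b, hb, rfl⟩ hoa hob
    obtain ⟨i, hi⟩ := (hmemQ' a).mp ha
    obtain ⟨j, hj⟩ := (hmemQ' b).mp hb
    have key : ∀ (c : (T : Subgroup G)) (k : ZMod (2 ^ n)), e c = DihedralGroup.r k →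
        orderOf ((T : Subgroup G).subtype c) = 2 → k + k = 0 ∧ k ≠ 0 := by
      intro c k hk hc
      have hc' : orderOf c = 2 :=
        (orderOf_injective _ (T : Subgroup G).subtype_injective c).symm.trans hc
      constructor
      · have h1 : c ^ 2 = 1 := orderOf_dvd_iff_pow_eq_one.mp hc'.dvd
        have h2 := congrArg e h1
        rw [map_pow, hk, map_one, pow_two, DihedralGroup.r_mul_r, DihedralGroup.one_def] at h2
        exact DihedralGroup.r.inj h2
      · rintro rfl
        rw [DihedralGroup.r_zero] at hk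
        have : c = 1 := e.injective (by rw [hk, map_one])
        rw [this, orderOf_one] at hc'
        omega
    obtain ⟨hi1, hi2⟩ := key a i hi hoa
    obtain ⟨hj1, hj2⟩ := key b j hj hob
    have : a = b := e.injective (by rw [hi, hj, zmod_unique_two_torsion hi1 hj1 hi2 hj2])
    rw [this]
  have hconj : ∀ x : G, orderOf x = 2 → ∃ g : G, g * x * g⁻¹ ∈ Q'.map (T : Subgroup G).subtype := by
    intro x hx
    have hpx : IsPGroup 2 (zpowers x) := IsPGroup.of_card (n := 1) (by rw [Nat.card_zpowers, hx]; rfl)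
    obtain ⟨S, hS⟩ := hpx.exists_le_sylow
    obtain ⟨g, hg⟩ := MulAction.exists_smul_eq G S T
    have huT : g * x * g⁻¹ ∈ (T : Subgroup G) := by
      rw [← hg, Sylow.smul_def, Sylow.pointwise_smul_def]
      exact conj_mem_conj_smul (hS (mem_zpowers x))
    have hu : orderOf (g * x * g⁻¹) = 2 := by
      rw [← hx]; exact orderOf_injective (MulAut.conj g).toMonoidHom (MulAut.conj g).injective x
    by_cases huQ : g * x * g⁻¹ ∈ Q'.map (T : Subgroup G).subtype
    · exact ⟨g, huQ⟩
    rcases Cfsg.Agent.S0111.result T _ hQT hQi _ hu huT huQ with ⟨M, hMn, hMi, huM⟩ | ⟨g', hg'⟩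
    · exfalso
      apply huM
      have h1 : IsPGroup 2 (G ⧸ M) := IsPGroup.of_card (n := 1) (by rw [← index_eq_card, hMi]; rfl)
      have h2 : Cfsg.pResidual 2 G ≤ M := pResidual_le h1
      rw [hO] at h2
      exact h2 (mem_top _)
    · refine ⟨g' * g, ?_⟩
      have : g' * g * x * (g' * g)⁻¹ = g' * (g * x * g⁻¹) * g'⁻¹ := by group
      rw [this]; exact hg'
  obtain ⟨g₁, h₁⟩ := hconj x hx
  obtain ⟨g₂, h₂⟩ := hconj y hy
  have ho : ∀ (g z : G), orderOf (g * z * g⁻¹) = orderOf z := fun g z =>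
    orderOf_injective (MulAut.conj g).toMonoidHom (MulAut.conj g).injective z
  have h3 := huniq _ h₁ _ h₂ (by rw [ho, hx]) (by rw [ho, hy])
  refine ⟨g₂⁻¹ * g₁, ?_⟩
  have : g₂⁻¹ * g₁ * x * (g₂⁻¹ * g₁)⁻¹ = g₂⁻¹ * (g₁ * x * g₁⁻¹) * g₂ := by group
  rw [this, h3]; group

end Cfsg.Agent.S0107
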