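import Cfsg.Statements.S0110
import Cfsg.Agent.Lib.Helper20.Extraspecial2

set_option autoImplicit false
open Cfsg

namespace Cfsg.Agent.S0110

open Cfsg.Agent.Lib.Helper20
open scoped commutatorElement

/-- In a p-group G, an extraspecial subgroup E with [G, E] ≤ Z(E) satisfies G = E C_G(E). -/
theorem result {G : Type*} [Group G] [Finite G] {p : ℕ} [Fact p.Prime] (hG : IsPGroup p G) (E : Subgroup G) (hE : Cfsg.IsExtraspecial p E) (h : ⁅(⊤ : Subgroup G), E⁆ ≤ E ⊓ Subgroup.centralizer (E : Set G)) : E ⊔ Subgroup.centralizer (E : Set G) = ⊤ := by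
  have hp : p.Prime := Fact.out
  have hnil : Group.IsNilpotent G := hG.isNilpotent
  have hZ : E ⊓ Subgroup.centralizer (E : Set G) = zOf E := by
    ext x
    rw [mem_zOf, Subgroup.mem_inf, Subgroup.mem_centralizer_iff]
    rfl
  have hZcard : Nat.card (E ⊓ Subgroup.centralizer (E : Set G) : Subgroup G) = p := by
    rw [hZ, card_zOf, hE.2]
  have hEn : E.Normal := by
    refine ⟨fun x hx g => ?_⟩
    have h1 : ⁅g, x⁆ ∈ E := (h (Subgroup.commutator_mem_commutator (Subgroup.mem_top g) hx)).1
    have : g * x * g⁻¹ = ⁅g, x⁆ * x := by rw [commutatorElement_def]; group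
    rw [this]
    exact mul_mem h1 hx
  have hZn : (E ⊓ Subgroup.centralizer (E : Set G)).Normal := hZ ▸ zOf_normal E
  have hZne : E ⊓ Subgroup.centralizer (E : Set G) ≠ ⊥ := by
    intro hb
    rw [hb, Subgroup.card_bot] at hZcard
    exact hp.one_lt.ne hZcard
  obtain ⟨z, hz, hzc, hz1⟩ := normal_inf_center_ne_bot _ hZne
  have hZle : E ⊓ Subgroup.centralizer (E : Set G) ≤ Subgroup.center G := by
    have h2 : Subgroup.zpowers z = E ⊓ Subgroup.centralizer (E : Set G) := by
      apply Subgroup.eq_of_le_of_card_ge (by rwa [Subgroup.zpowers_le])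
      rw [hZcard, Nat.card_zpowers]
      have h3 : orderOf z ∣ p := by
        rw [← hZcard]
        have := orderOf_dvd_natCard (⟨z, hz⟩ : (E ⊓ Subgroup.centralizer (E : Set G) : Subgroup G))
        rwa [Subgroup.orderOf_mk] at this
      rcases (Nat.dvd_prime hp).1 h3 with h4 | h4
      · exact absurd (orderOf_eq_one_iff.1 h4) hz1
      · exact h4.ge
    rw [← h2, Subgroup.zpowers_le]
    exact hzc
  have h1 := Cfsg.Agent.S3741.result hG ⊤ E (le_inf le_top (h.trans inf_le_left))
    (by rw [← hZcard]; exact Subgroup.card_le_of_le h)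
  have hEc : E ⊓ Subgroup.centralizer ((⊤ : Subgroup G) : Set G) =
      E ⊓ Subgroup.centralizer (E : Set G) := by
    rw [Subgroup.coe_top, Subgroup.centralizer_univ]
    apply le_antisymm
    · exact inf_le_inf_left _ (Subgroup.center_le_centralizer _)
    · exact le_inf inf_le_left hZle
  have hCn : (Subgroup.centralizer (E : Set G)).Normal := inferInstance
  rw [top_inf_eq, Subgroup.relIndex_top_right, hEc, Subgroup.inf_relIndex_left,
    ← Subgroup.relIndex_sup_right] at h1
  have h5 := Subgroup.relIndex_mul_index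
    (le_sup_right : Subgroup.centralizer (E : Set G) ≤ E ⊔ Subgroup.centralizer (E : Set G))
  rw [← h1] at h5
  rw [← Subgroup.index_eq_one]
  have hpos : 0 < (Subgroup.centralizer (E : Set G)).index :=
    Nat.pos_of_ne_zero Subgroup.index_ne_zero_of_finite
  exact Nat.eq_of_mul_eq_mul_left hpos (by rw [h5, mul_one])

end Cfsg.Agent.S0110
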