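import Cfsg.Statements.S0114
import Mathlib
import Cfsg.Agent.Lib.Helper23.MaxClass

set_option autoImplicit false
open Cfsg

namespace Cfsg.Agent.S0114

open Cfsg.Agent.Lib.Helper23

/-- The central quotient of a 2-group of maximal class is dihedral. -/
theorem result {X : Type*} [Group X] [Finite X] (n : ℕ) (hn : 3 ≤ n) (hX : Nat.card X = 2 ^ n) (hc : Group.nilpotencyClass X = n - 1) : Nonempty (X ⧸ Subgroup.center X ≃* DihedralGroup (2 ^ (n - 2))) := by
  have h2 : IsPGroup 2 X := IsPGroup.of_card hX
  have h4 := index_commutator_of_nilpotencyClass n (by omega) X hX hc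
  have hna : commutator X ≠ ⊥ := by
    intro h
    have h1 := Subgroup.card_mul_index (commutator X)
    rw [h4, hX, h] at h1
    simp only [Subgroup.card_bot, one_mul] at h1
    have : 2 ^ 3 ≤ 2 ^ n := Nat.pow_le_pow_right (by norm_num) hn
    omega
  obtain ⟨hc2, -⟩ := card_center_eq_two h2 h4 hna
  obtain ⟨m, a, g, hm2, hm, hcard, hg, hidx, hfix, hgg, hconj⟩ := taussky h2 h4 hna
  have hnm : n = m + 1 := Nat.pow_right_injective (le_refl 2) (hX.symm.trans hcard)
  subst hnm
  have e0 : m + 1 - 2 = m - 1 := by omega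
  rw [e0]
  set z := a ^ 2 ^ (m - 1) with hz
  -- every central element lying in ⟨a⟩ is 1 or z
  have hcen : ∀ x ∈ Subgroup.center X, x ∈ Subgroup.zpowers a → x = 1 ∨ x = z := by
    intro x hx hxA
    exact hfix x hxA ((Subgroup.mem_center_iff.mp hx g).symm)
  have hcenA : Subgroup.center X ≤ Subgroup.zpowers a := by
    intro x hx
    have hxc := Subgroup.mem_center_iff.mp hx
    by_contra hxA
    have hc' : g⁻¹ * x ∈ Subgroup.zpowers a := by
      rw [Subgroup.mul_mem_iff_of_index_two hidx, inv_mem_iff]
      exact ⟨fun h => absurd h hg, fun h => absurd h hxA⟩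
    obtain ⟨k, hk⟩ := Subgroup.mem_zpowers_iff.mp hc'
    have hx' : x = g * a ^ k := by rw [hk]; group
    have h1 := hxc a
    rw [hx'] at h1
    have h3 : a * g = g * a := by
      have h5 : a * g * a ^ k = g * a * a ^ k := by
        calc a * g * a ^ k = a * (g * a ^ k) := by group
          _ = g * a ^ k * a := h1
          _ = g * (a ^ k * a) := by group
          _ = g * (a * a ^ k) := by rw [(Commute.refl a).zpow_left k |>.eq]
          _ = g * a * a ^ k := by group
      exact mul_right_cancel h5
    have ho4 : 4 ≤ orderOf a := by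
      rw [hm]
      calc 4 = 2 ^ 2 := by norm_num
        _ ≤ 2 ^ m := Nat.pow_le_pow_right (by norm_num) hm2
    have hzsq : z ^ 2 = 1 := by
      rw [hz, ← pow_mul, ← pow_succ, Nat.sub_add_cancel (by omega), ← hm, pow_orderOf_eq_one]
    rcases hfix a (Subgroup.mem_zpowers a) h3 with h | h
    · rw [h, orderOf_one] at ho4; omega
    · have : a ^ 2 = 1 := by
        conv_lhs => rw [h]
        exact hzsq
      have := orderOf_le_of_pow_eq_one (by norm_num) this
      omega
  have hzc : z ∈ Subgroup.center X := by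
    by_contra hcon
    have : Subgroup.center X = ⊥ := by
      rw [Subgroup.eq_bot_iff_forall]
      intro x hx
      rcases hcen x hx (hcenA hx) with h | h
      · exact h
      · exact absurd (h ▸ hx) hcon
    rw [this] at hc2
    simp at hc2
  have hmk1 : ∀ x : X, (QuotientGroup.mk x : X ⧸ Subgroup.center X) = 1 ↔ x ∈ Subgroup.center X :=
    fun x => QuotientGroup.eq_one_iff x
  have hord : orderOf (QuotientGroup.mk a : X ⧸ Subgroup.center X) = 2 ^ (m - 1) := by
    obtain ⟨j, hj⟩ : ∃ j, m - 1 = j + 1 := ⟨m - 2, by omega⟩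
    rw [hj]
    apply orderOf_eq_prime_pow
    · rw [← QuotientGroup.mk_pow, hmk1]
      intro hmem
      have hlt1 : 2 ^ j < orderOf a := by
        rw [hm]; exact Nat.pow_lt_pow_right (by norm_num) (by omega)
      have hlt2 : 2 ^ (m - 1) < orderOf a := by
        rw [hm]; exact Nat.pow_lt_pow_right (by norm_num) (by omega)
      rcases hcen _ hmem (Subgroup.pow_mem _ (Subgroup.mem_zpowers a) _) with h | h
      · have := orderOf_le_of_pow_eq_one (by positivity) h
        omega
      · have := pow_injOn_Iio_orderOf (x := a) (Set.mem_Iio.mpr hlt1) (Set.mem_Iio.mpr hlt2) h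
        rw [hj] at this
        have h9 := Nat.pow_right_injective (le_refl 2) this
        omega
    · rw [← hj, ← QuotientGroup.mk_pow, hmk1]
      exact hzc
  refine nonempty_mulEquiv_dihedralGroup (2 ^ (m - 1)) (QuotientGroup.mk a) (QuotientGroup.mk g)
    hord ?_ ?_ ?_ ?_
  · rw [← QuotientGroup.mk_mul, hmk1]
    rcases hgg with h | h
    · rw [h]; exact Subgroup.one_mem _
    · rw [h]; exact hzc
  · rw [← QuotientGroup.mk_inv, ← QuotientGroup.mk_mul, ← QuotientGroup.mk_mul,
      ← QuotientGroup.mk_inv]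
    rcases hconj with h | ⟨-, h⟩
    · rw [h]
    · rw [h, QuotientGroup.mk_mul, (hmk1 _).mpr hzc, one_mul]
  · intro hmem
    obtain ⟨k, hk⟩ := Subgroup.mem_zpowers_iff.mp hmem
    rw [← QuotientGroup.mk_zpow, QuotientGroup.eq] at hk
    apply hg
    have h1 := hcenA hk
    have h3 := Subgroup.mul_mem _ (Subgroup.zpow_mem_zpowers a k) h1
    simpa using h3
  · have h1 := Subgroup.card_mul_index (Subgroup.center X)
    rw [hc2, hX, Subgroup.index_eq_card] at h1
    have h3 : 2 ^ (m + 1) = 2 * (2 * 2 ^ (m - 1)) := by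
      rw [← pow_succ', ← pow_succ']; congr 1; omega
    omega

end Cfsg.Agent.S0114
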