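import Cfsg.Statements.S0119
import Cfsg.Agent.Lib.Helper1.Class2
import Cfsg.Agent.S0093

set_option autoImplicit false
open Cfsg

namespace Cfsg.Agent.S0119

open Cfsg.Agent.Lib.Helper1
open scoped Pointwise commutatorElement

/-- If a p'-group A of automorphisms of a p-group G satisfies G = [G, A] and acts trivially on every characteristic abelian subgroup, then G is special with centre equal to the fixed points of A. -/
theorem result {G : Type*} [Group G] [Finite G] {p : ℕ} [Fact p.Prime] (hG : IsPGroup p G) (A : Subgroup (MulAut G)) (hA : Nat.Coprime (Nat.card A) p) (hGA : Subgroup.closure {x : G | ∃ g : G, ∃ a ∈ A, x = g⁻¹ * a g} = ⊤) (hchar : ∀ H : Subgroup G, H.Characteristic → IsMulCommutative H → ∀ a ∈ A, ∀ h ∈ H, a h = h) : Cfsg.IsSpecial p G ∧ (∀ g : G, (g ∈ Subgroup.center G ↔ ∀ a ∈ A, a g = g)) := by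
  classical
  have hp : p.Prime := Fact.out
  -- (1) characteristic abelian subgroups are central
  have hcent : ∀ X : Subgroup G, X.Characteristic → IsMulCommutative X →
      X ≤ Subgroup.center G := by
    intro X hX hXc x hx
    have hle : (⊤ : Subgroup G) ≤ Subgroup.centralizer {x} := by
      rw [← hGA, Subgroup.closure_le]
      rintro _ ⟨g, a, ha, rfl⟩
      rw [SetLike.mem_coe, Subgroup.mem_centralizer_singleton_iff]
      have hn : X.Normal := inferInstance
      have h1 : g * x * g⁻¹ ∈ X := hn.conj_mem x hx g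
      have h2 := hchar X hX hXc a ha _ h1
      have h3 := hchar X hX hXc a ha _ hx
      rw [map_mul, map_mul, map_inv, h3] at h2
      calc g⁻¹ * a g * x = g⁻¹ * (a g * x * (a g)⁻¹) * a g := by group
        _ = g⁻¹ * (g * x * g⁻¹) * a g := by rw [h2]
        _ = x * (g⁻¹ * a g) := by group
    rw [Subgroup.mem_center_iff]
    intro g
    exact Subgroup.mem_centralizer_singleton_iff.mp (hle (Subgroup.mem_top g))
  -- (2) class at most two
  obtain ⟨C, hCc, c1, c2, c3⟩ := Cfsg.Agent.S0093.result hG
  have hZc_comm : IsMulCommutative (Subgroup.centralizer (C : Set G)) :=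
    ⟨⟨fun a b => Subtype.ext (Subgroup.mem_centralizer_iff.mp b.2 a (c3 a.2))⟩⟩
  have hZc : Subgroup.centralizer (C : Set G) ≤ Subgroup.center G :=
    hcent _ inferInstance hZc_comm
  have hconj : ∀ x ∈ C, ∀ u : G, ∃ z ∈ Subgroup.center G, u * x * u⁻¹ = z * x := by
    intro x hx u
    refine ⟨⁅u, x⁆, ?_, by rw [commutatorElement_def]; group⟩
    apply hZc
    have h1 := (c2 (Subgroup.commutator_mem_commutator hx (Subgroup.mem_top u))).2
    have h2 := (Subgroup.centralizer (C : Set G)).inv_mem h1
    rwa [commutatorElement_inv] at h2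
  have hc2 : Class2 G := by
    have key : ∀ g h : G, ⁅g⁻¹, h⁻¹⁆ ∈ Subgroup.center G := by
      intro g h
      apply hZc
      rw [Subgroup.mem_centralizer_iff]
      intro x hx
      obtain ⟨zg, hzg, eg⟩ := hconj x hx g
      obtain ⟨zh, hzh, eh⟩ := hconj x hx h
      have e1 : g * h * x * (g * h)⁻¹ = zh * zg * x := by
        calc g * h * x * (g * h)⁻¹ = g * (h * x * h⁻¹) * g⁻¹ := by group
          _ = g * (zh * x) * g⁻¹ := by rw [eh]
          _ = zh * (g * x * g⁻¹) := by
            rw [← mul_assoc, Subgroup.mem_center_iff.mp hzh g]; group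
          _ = zh * zg * x := by rw [eg]; group
      have e2 : h * g * x * (h * g)⁻¹ = zh * zg * x := by
        calc h * g * x * (h * g)⁻¹ = h * (g * x * g⁻¹) * h⁻¹ := by group
          _ = h * (zg * x) * h⁻¹ := by rw [eg]
          _ = zg * (h * x * h⁻¹) := by
            rw [← mul_assoc, Subgroup.mem_center_iff.mp hzg h]; group
          _ = zh * zg * x := by rw [eh, ← mul_assoc, Subgroup.mem_center_iff.mp hzh zg]
      have e3 : g * h * x * (g * h)⁻¹ = h * g * x * (h * g)⁻¹ := e1.trans e2.symm
      rw [commutatorElement_def]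
      calc x * (g⁻¹ * h⁻¹ * g⁻¹⁻¹ * h⁻¹⁻¹)
          = (h * g)⁻¹ * (h * g * x * (h * g)⁻¹) * (g * h) := by group
        _ = (h * g)⁻¹ * (g * h * x * (g * h)⁻¹) * (g * h) := by rw [e3]
        _ = g⁻¹ * h⁻¹ * g⁻¹⁻¹ * h⁻¹⁻¹ * x := by group
    intro g h
    have := key g⁻¹ h⁻¹
    simpa using this
  have hcomm_le : commutator G ≤ Subgroup.center G := by
    rw [commutator_eq_closure, Subgroup.closure_le]
    rintro _ ⟨g, h, rfl⟩
    exact hc2 g h
  -- (3) the centre is fixed
  have hZfix : ∀ g ∈ Subgroup.center G, ∀ a ∈ A, a g = g := fun g hg a ha =>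
    hchar (Subgroup.center G) inferInstance inferInstance a ha g hg
  -- (4) fixed points lie in the derived subgroup
  have hfix_le : ∀ g : G, (∀ a ∈ A, a g = g) → g ∈ commutator G := by
    intro g hg
    have := Fintype.ofFinite A
    let N : G →* Abelianization G :=
      ∏ a : A, (Abelianization.of.comp (a : MulAut G).toMonoidHom)
    have hN : ∀ x, N x = ∏ a : A, Abelianization.of ((a : MulAut G) x) := by
      intro x
      simp [N]
    have hNinv : ∀ (b : A) (x : G), N ((b : MulAut G) x) = N x := by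
      intro b x
      rw [hN, hN, ← Equiv.prod_comp (Equiv.mulRight b) (fun a : A => Abelianization.of ((a : MulAut G) x))]
      rfl
    have hker : N.ker = ⊤ := by
      rw [eq_top_iff, ← hGA, Subgroup.closure_le]
      rintro _ ⟨x, a, ha, rfl⟩
      rw [SetLike.mem_coe, MonoidHom.mem_ker, map_mul, map_inv, hNinv ⟨a, ha⟩ x, inv_mul_cancel]
    have h1 : N g = 1 := by
      have : g ∈ N.ker := by rw [hker]; trivial
      exact this
    have h2 : N g = Abelianization.of g ^ Nat.card A := by
      rw [hN, Finset.prod_congr rfl (fun a _ => by rw [hg a a.2]), Finset.prod_const,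
        Finset.card_univ, Nat.card_eq_fintype_card]
    rw [h1] at h2
    obtain ⟨k, hk⟩ := hG g
    have d1 : orderOf (Abelianization.of g) ∣ Nat.card A := orderOf_dvd_of_pow_eq_one h2.symm
    have d2 : orderOf (Abelianization.of g) ∣ p ^ k :=
      orderOf_dvd_of_pow_eq_one (by rw [← map_pow, hk, map_one])
    have d3 := Nat.eq_one_of_dvd_coprimes (hA.pow_right k) d1 d2
    rw [orderOf_eq_one_iff] at d3
    exact (QuotientGroup.eq_one_iff g).mp d3
  have hceq : commutator G = Subgroup.center G :=
    le_antisymm hcomm_le (fun g hg => hfix_le g (hZfix g hg))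
  -- (6) commutators have order dividing `p`
  have hstep : ∀ k : ℕ, 1 ≤ k → (∀ x y : G, ⁅x, y⁆ ^ p ^ (k + 1) = 1) →
      ∀ x y : G, ⁅x, y⁆ ^ p ^ k = 1 := by
    intro k hk hP x y
    have hU : Subgroup.closure {u : G | ∃ v : G, u = v ^ p ^ k} ≤ Subgroup.center G := by
      apply hcent
      · rw [Subgroup.characteristic_iff_map_le]
        intro φ
        rw [MonoidHom.map_closure, Subgroup.closure_le]
        rintro _ ⟨_, ⟨v, rfl⟩, rfl⟩
        apply Subgroup.subset_closure
        exact ⟨φ v, map_pow φ v _⟩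
      · apply Subgroup.isMulCommutative_closure
        rintro _ ⟨v, rfl⟩ _ ⟨w, rfl⟩
        rw [← commutatorElement_eq_one_iff_mul_comm, hc2.pow_left, hc2.pow_right, ← pow_mul,
          ← pow_add]
        obtain ⟨d, hd⟩ : ∃ d, k + k = (k + 1) + d := ⟨k - 1, by omega⟩
        rw [hd, pow_add, pow_mul, hP, one_pow]
    have h1 := hU (Subgroup.subset_closure ⟨x, rfl⟩)
    rw [← hc2.pow_left, commutatorElement_eq_one_iff_mul_comm]
    exact (Subgroup.mem_center_iff.mp h1 y).symm
  have hexp : ∀ x y : G, ⁅x, y⁆ ^ p = 1 := by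
    have hdown : ∀ d : ℕ, (∀ x y : G, ⁅x, y⁆ ^ p ^ (1 + d) = 1) →
        ∀ x y : G, ⁅x, y⁆ ^ p ^ 1 = 1 := by
      intro d
      induction d with
      | zero => intro h; exact h
      | succ d ih => intro h; exact ih (hstep (1 + d) (by omega) h)
    obtain ⟨K, hK⟩ := IsPGroup.iff_card.mp hG
    have := hdown K (fun x y => by
      rw [pow_add, pow_one, mul_comm, pow_mul, ← hK, pow_card_eq_one', one_pow])
    simpa using this
  have hpow : ∀ x : G, x ^ p ∈ Subgroup.center G := by
    intro x
    rw [Subgroup.mem_center_iff]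
    intro y
    have : ⁅x ^ p, y⁆ = 1 := by rw [hc2.pow_left, hexp]
    exact (commutatorElement_eq_one_iff_mul_comm.mp this).symm
  refine ⟨⟨hG, le_antisymm ?_ ?_, hceq⟩, fun g => ⟨fun hg a ha => hZfix g hg a ha, fun hg => ?_⟩⟩
  · exact Cfsg.Agent.Lib.Helper16.frattini_le_of_elemAb hcomm_le hpow
  · rw [← hceq]; exact (pgroup_frattini hG).1
  · rw [← hceq]; exact hfix_le g hg

end Cfsg.Agent.S0119
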