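import Cfsg.Statements.S0123
import Cfsg.Agent.Lib.Helper1.Class3Loc
import Cfsg.Agent.Lib.Helper1.Class2

set_option autoImplicit false
open Cfsg

namespace Cfsg.Agent.S0123

open Cfsg.Agent.Lib.Helper1

/-- For a p-group of small class relative to p (class ≤ 2 with p odd, or class ≤ 3 with p > 3) whose derived subgroup is generated by elements of order dividing p, the p-th power map is multiplicative. -/
theorem result {R : Type*} [Group R] [Finite R] {p : ℕ} [Fact p.Prime] (hR : IsPGroup p R) (hcl : (p ≠ 2 ∧ ⁅commutator R, (⊤ : Subgroup R)⁆ = ⊥) ∨ (3 < p ∧ ⁅⁅commutator R, (⊤ : Subgroup R)⁆, (⊤ : Subgroup R)⁆ = ⊥)) (hder : commutator R ≤ Subgroup.closure {x : R | x ^ p = 1}) (x y : R) : (x * y) ^ p = x ^ p * y ^ p := by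
  have hpp : p.Prime := Fact.out
  rcases hcl with ⟨hp2, hcl⟩ | ⟨hp3, hcl⟩
  · have h2 := class2_of_commutator_eq_bot hcl
    apply h2.mul_pow_prime hpp hp2
    exact h2.pow_eq_one_of_mem_closure hpp hp2
      (hder (Subgroup.commutator_mem_commutator (Subgroup.mem_top _) (Subgroup.mem_top _)))
  · obtain ⟨c, u, v, h1, h2, h3, hu, hv, hc, huc, hvc⟩ := class3_data hcl x y
    exact class3_mul_pow_prime hpp hp3 h1 h2 h3 hu hv
      (class3_pow_eq_one_of_mem_closure hpp hp3 hcl (hder hc))
      (class3_pow_eq_one_of_mem_closure hpp hp3 hcl (hder huc))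
      (class3_pow_eq_one_of_mem_closure hpp hp3 hcl (hder hvc))

end Cfsg.Agent.S0123
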