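import Cfsg.Statements.S0127
import Mathlib
import Cfsg.Agent.S0638

set_option autoImplicit false
open Cfsg

namespace Cfsg.Agent.S0127




/-- For odd p, in a non-cyclic p-group with a cyclic subgroup of index p, the elements of order dividing p generate an elementary abelian subgroup of order p^2. -/
theorem result {R : Type*} [Group R] [Finite R] {p : ℕ} [Fact p.Prime] (hp : p ≠ 2) (hR : IsPGroup p R) (hnc : ¬ IsCyclic R) (C : Subgroup R) (hC : IsCyclic C) (hCi : C.index = p) : Cfsg.IsElementaryAbelian p (Subgroup.closure {x : R | x ^ p = 1}) ∧ Nat.card (Subgroup.closure {x : R | x ^ p = 1}) = p ^ 2 := by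
  have hpp : p.Prime := Fact.out
  have hCn : C.Normal := by
    haveI := hR.isNilpotent
    have hco : IsCoatom C := by
      refine ⟨?_, ?_⟩
      · intro h
        rw [h, Subgroup.index_top] at hCi
        exact hpp.one_lt.ne hCi
      · intro D hD
        have h1 := Subgroup.relIndex_mul_index hD.le
        rw [hCi] at h1
        have h2 : D.index ∣ p := Dvd.intro_left _ h1
        rcases (Nat.dvd_prime hpp).mp h2 with h3 | h3
        · exact Subgroup.index_eq_one.mp h3
        · exfalso
          rw [h3] at h1
          have h4 : C.relIndex D = 1 := by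
            have := Nat.eq_of_mul_eq_mul_right hpp.pos (h1.trans (one_mul p).symm)
            exact this
          have h5 : D ≤ C := Subgroup.relIndex_eq_one.mp h4
          exact absurd (le_antisymm h5 hD.le) (ne_of_gt hD)
    have h := (Group.isNilpotent_of_finite_tfae (G := R)).out 0 2
    exact h.mp ‹_› C hco
  have hm : Cfsg.IsMetacyclic R := by
    refine ⟨C, hCn, hC, ?_⟩
    exact isCyclic_of_prime_card (p := p) hCi
  exact Cfsg.Agent.S0638.omega_aux hp hR hm hnc

end Cfsg.Agent.S0127
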