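import Cfsg.Statements.S0129
import Mathlib
import Cfsg.Agent.Lib.Helper1.NormalChain
import Cfsg.Agent.Lib.Lead.PGroupCyc
import Cfsg.Agent.Lib.Helper17.CD
import Cfsg.Agent.Lib.Helper12.Conj

set_option autoImplicit false
open Cfsg

namespace Cfsg.Agent.S0129

theorem card_subgroupOf {G : Type*} [Group G] (H K : Subgroup G) :
    Nat.card ↥(H.subgroupOf K) = Nat.card ↥(H ⊓ K) := by
  rw [← Subgroup.subgroupOf_map_subtype H K]
  exact (Subgroup.card_map_of_injective K.subtype_injective).symm

theorem key {G : Type*} [Group G] [Finite G] (σ : G) (N : Subgroup G) (T : Set G)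
    (hT : ∀ τ, τ ∈ T ↔ ∃ g ∈ N, g * σ * g⁻¹ = τ) :
    Nat.card N = Nat.card ↥(Subgroup.centralizer ({σ} : Set G) ⊓ N) * Nat.card T := by
  letI act : MulAction N G := MulAction.compHom G ((MulAut.conj : G →* MulAut G).comp N.subtype)
  have hsmul : ∀ (g : N) (h : G), g • h = (g : G) * h * (g : G)⁻¹ := fun g h => rfl
  have h1 : MulAction.stabilizer N σ = (Subgroup.centralizer ({σ} : Set G)).subgroupOf N := by
    ext g
    rw [MulAction.mem_stabilizer_iff, hsmul, Subgroup.mem_subgroupOf,
      Subgroup.mem_centralizer_singleton_iff, mul_inv_eq_iff_eq_mul]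
  have h2 : MulAction.orbit N σ = T := by
    ext τ
    rw [hT, MulAction.mem_orbit_iff]
    constructor
    · rintro ⟨g, hg⟩
      exact ⟨g, g.2, by rw [← hg, hsmul]⟩
    · rintro ⟨g, hg, h⟩
      exact ⟨⟨g, hg⟩, by rw [hsmul]; exact h⟩
  have h3 := (MulAction.stabilizer N σ).card_mul_index
  rw [MulAction.index_stabilizer, h1, card_subgroupOf, h2] at h3
  rw [← h3]
  rfl

theorem centralizer_zpowers' {G : Type*} [Group G] (x : G) :
    Subgroup.centralizer ((Subgroup.zpowers x : Subgroup G) : Set G) = Subgroup.centralizer ({x} : Set G) := by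
  apply le_antisymm
  · apply Subgroup.centralizer_le
    intro y hy
    rw [Set.mem_singleton_iff] at hy
    rw [hy]
    exact Subgroup.mem_zpowers x
  · intro g hg
    rw [Subgroup.mem_centralizer_singleton_iff] at hg
    rw [Subgroup.mem_centralizer_iff]
    rintro _ ⟨i, rfl⟩
    exact ((show Commute g x from hg).zpow_right i).eq.symm

theorem step {G : Type*} [Group G] [Finite G] {p : ℕ} [hp : Fact p.Prime] (hG : IsPGroup p G) (b : ℕ) :
    ∀ B : Subgroup G, B.Normal → Nat.card B = p ^ b →
      Nat.card G ≤ Nat.card ↥(Subgroup.centralizer (B : Set G)) * p ^ (∑ i ∈ Finset.range b, i) := by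
  induction b with
  | zero =>
    intro B _ hB
    rw [pow_zero, Subgroup.card_eq_one] at hB
    rw [hB]
    have : Subgroup.centralizer (((⊥ : Subgroup G) : Subgroup G) : Set G) = ⊤ := by
      rw [eq_top_iff]
      intro g _
      rw [Subgroup.mem_centralizer_iff]
      intro y hy
      have hy' : y = 1 := Subgroup.mem_bot.mp hy
      rw [hy']; simp
    rw [this]
    simp
  | succ b ih =>
    intro B hBn hB
    obtain ⟨B', hB'B, hB'n, hB'c⟩ := Cfsg.Agent.Lib.Helper1.exists_normal_le_card_pow hG B hB b (by omega)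
    have hlt : B' < B := by
      refine lt_of_le_of_ne hB'B ?_
      rintro rfl
      rw [hB] at hB'c
      exact absurd (Nat.pow_right_injective hp.out.two_le hB'c) (by omega)
    obtain ⟨x, hxB, hxB'⟩ := SetLike.exists_of_lt hlt
    have hx1 : x ≠ 1 := fun h => hxB' (h ▸ B'.one_mem)
    have hsup : B' ⊔ Subgroup.zpowers x = B := by
      have hle : B' ⊔ Subgroup.zpowers x ≤ B := sup_le hB'B (by rw [Subgroup.zpowers_le]; exact hxB)
      have hlt2 : B' < B' ⊔ Subgroup.zpowers x := by
        refine lt_of_le_of_ne le_sup_left ?_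
        intro h
        apply hxB'
        rw [h]
        exact (le_sup_right : Subgroup.zpowers x ≤ _) (Subgroup.mem_zpowers x)
      have hd := Subgroup.card_dvd_of_le hle
      rw [hB] at hd
      obtain ⟨j, hj, hjc⟩ := (Nat.dvd_prime_pow hp.out).mp hd
      have h1 : Nat.card B' < Nat.card ↥(B' ⊔ Subgroup.zpowers x) :=
        Cfsg.Agent.Lib.Helper12.card_lt_card_of_lt hlt2
      rw [hB'c, hjc] at h1
      have h2 : b < j := (Nat.pow_lt_pow_iff_right hp.out.one_lt).mp h1
      have h3 : j = b + 1 := by omega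
      apply Subgroup.eq_of_le_of_card_ge hle
      rw [hB, hjc, h3]
    have hcent : Subgroup.centralizer ({x} : Set G) ⊓ Subgroup.centralizer (B' : Set G)
        = Subgroup.centralizer (B : Set G) := by
      rw [← hsup, Cfsg.Agent.Lib.Helper17.centralizer_sup_eq, centralizer_zpowers', inf_comm]
    set T : Set G := {τ | ∃ g ∈ Subgroup.centralizer (B' : Set G), g * x * g⁻¹ = τ} with hT
    have hkey := key x (Subgroup.centralizer (B' : Set G)) T (fun τ => Iff.rfl)
    rw [hcent] at hkey
    have hTsub : T ⊆ (B : Set G) \ {1} := by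
      rintro _ ⟨g, _, rfl⟩
      refine ⟨hBn.conj_mem x hxB g, ?_⟩
      intro h
      apply hx1
      have h' : g * x * g⁻¹ = 1 := h
      have : g * x * g⁻¹ = g * 1 * g⁻¹ := by rw [h']; group
      exact mul_left_cancel (mul_right_cancel this)
    have hTle : Nat.card T < p ^ (b + 1) := by
      have h1 := Set.ncard_le_ncard hTsub (Set.toFinite _)
      rw [Set.ncard_diff_singleton_of_mem (Subgroup.one_mem B), ← Nat.card_coe_set_eq,
        ← Nat.card_coe_set_eq] at h1
      have h2 : Nat.card ↥(B : Set G) = p ^ (b + 1) := hB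
      rw [h2] at h1
      have : 0 < p ^ (b + 1) := pow_pos hp.out.pos _
      omega
    have hTpow : Nat.card T ≤ p ^ b := by
      obtain ⟨m, hm⟩ := IsPGroup.iff_card.mp (hG.to_subgroup (Subgroup.centralizer (B' : Set G)))
      have hd : Nat.card T ∣ p ^ m := by rw [← hm, hkey]; exact Dvd.intro_left _ rfl
      obtain ⟨j, _, hj⟩ := (Nat.dvd_prime_pow hp.out).mp hd
      rw [hj] at hTle ⊢
      have := (Nat.pow_lt_pow_iff_right hp.out.one_lt).mp hTle
      exact Nat.pow_le_pow_right hp.out.pos (by omega)
    have h5 := ih B' hB'n hB'c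
    rw [hkey] at h5
    rw [Finset.sum_range_succ, pow_add]
    calc Nat.card G ≤ Nat.card ↥(Subgroup.centralizer (B : Set G)) * Nat.card T * p ^ (∑ i ∈ Finset.range b, i) := h5
      _ ≤ Nat.card ↥(Subgroup.centralizer (B : Set G)) * p ^ b * p ^ (∑ i ∈ Finset.range b, i) := by
        apply Nat.mul_le_mul_right
        exact Nat.mul_le_mul_left _ hTpow
      _ = _ := by ring

/-- The order of a p-group is bounded by p^(a(a+1)/2) when it has a maximal normal abelian subgroup of order p^a. -/
theorem result {G : Type*} [Group G] [Finite G] {p : ℕ} [Fact p.Prime] (hG : IsPGroup p G) (A : Subgroup G) [A.Normal] (hA : IsMulCommutative A) (hmax : ∀ B : Subgroup G, B.Normal → IsMulCommutative B → A ≤ B → B = A) (a : ℕ) (ha : Nat.card A = p ^ a) : Nat.card G ≤ p ^ (a * (a + 1) / 2) := by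
  haveI : Group.IsNilpotent G := hG.isNilpotent
  have hp : p.Prime := Fact.out
  have hC : Subgroup.centralizer (A : Set G) = A := by
    apply le_antisymm
    · exact Cfsg.Agent.Lib.Lead.centralizer_le_of_max_normal_abelian A inferInstance hA hmax
    · rw [Subgroup.le_centralizer_iff_isMulCommutative]
      exact hA
  have h1 := step hG a A inferInstance ha
  rw [hC, ha, ← pow_add] at h1
  have h2 : a + ∑ i ∈ Finset.range a, i = a * (a + 1) / 2 := by
    have := Finset.sum_range_id (a + 1)
    rw [Finset.sum_range_succ] at this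
    rw [add_comm, this, Nat.add_sub_cancel, mul_comm]
  rw [h2] at h1
  exact h1

end Cfsg.Agent.S0129
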