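import Cfsg.Statements.S0131
import Cfsg.Agent.S0080

set_option autoImplicit false
open Cfsg

namespace Cfsg.Agent.S0131

open scoped commutatorElement

/-- P/P' has a normal complement in G exactly when the focal subgroup G' ∩ P is as small as possible, namely P'. -/
theorem result {G : Type*} [Group G] [Finite G] {p : ℕ} [Fact p.Prime] (P : Sylow p G) : (∃ N : Subgroup G, N.Normal ∧ N ⊓ (P : Subgroup G) = ⁅(P : Subgroup G), (P : Subgroup G)⁆ ∧ N ⊔ (P : Subgroup G) = ⊤) ↔ commutator G ⊓ (P : Subgroup G) = ⁅(P : Subgroup G), (P : Subgroup G)⁆ := by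
  constructor
  · rintro ⟨N, hN, hNP, hsup⟩
    have hPN : ⁅(P : Subgroup G), (P : Subgroup G)⁆ ≤ N := hNP ▸ inf_le_left
    have hcomm : IsMulCommutative (G ⧸ N) := by
      refine ⟨⟨fun a b => ?_⟩⟩
      obtain ⟨g, rfl⟩ := QuotientGroup.mk'_surjective N a
      obtain ⟨k, rfl⟩ := QuotientGroup.mk'_surjective N b
      obtain ⟨n, hn, x, hx, rfl⟩ := Subgroup.mem_sup_of_normal_left.mp (hsup ▸ Subgroup.mem_top g)
      obtain ⟨m, hm, y, hy, rfl⟩ := Subgroup.mem_sup_of_normal_left.mp (hsup ▸ Subgroup.mem_top k)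
      have e1 : QuotientGroup.mk' N (n * x) = QuotientGroup.mk' N x := by
        rw [map_mul, show QuotientGroup.mk' N n = 1 from (QuotientGroup.eq_one_iff n).mpr hn, one_mul]
      have e2 : QuotientGroup.mk' N (m * y) = QuotientGroup.mk' N y := by
        rw [map_mul, show QuotientGroup.mk' N m = 1 from (QuotientGroup.eq_one_iff m).mpr hm, one_mul]
      rw [e1, e2, ← map_mul, ← map_mul]
      apply QuotientGroup.eq.mpr
      have : (x * y)⁻¹ * (y * x) = ⁅y⁻¹, x⁻¹⁆ := by rw [commutatorElement_def]; group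
      rw [this]
      exact hPN (Subgroup.commutator_mem_commutator (inv_mem hy) (inv_mem hx))
    have hle : commutator G ≤ N := Subgroup.Normal.quotient_commutative_iff_commutator_le.mp hcomm
    apply le_antisymm
    · rw [← hNP]; exact inf_le_inf_right _ hle
    · exact le_inf (Subgroup.commutator_mono le_top le_top) (Subgroup.commutator_le_self _)
  · intro h
    have hp : p.Prime := Fact.out
    have hcop : Nat.Coprime (P : Subgroup G).index
        (⁅(P : Subgroup G), (P : Subgroup G)⁆.relIndex (P : Subgroup G)) := by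
      obtain ⟨k, hk⟩ := IsPGroup.iff_card.mp P.2
      refine Nat.Coprime.of_dvd_right (Subgroup.relIndex_dvd_card _ _) ?_
      rw [show Nat.card (P : Subgroup G) = p ^ k from hk]
      exact Nat.Coprime.pow_right k
        ((Nat.coprime_comm.mp ((Nat.Prime.coprime_iff_not_dvd hp).mpr P.not_dvd_index)))
    obtain ⟨-, N, hN, h1, h2⟩ := Cfsg.Agent.S0080.result (P : Subgroup G) hcop
    exact ⟨N, hN, h1.trans h, h2⟩

end Cfsg.Agent.S0131
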