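import Cfsg.Statements.S0136
import Mathlib
import Cfsg.Agent.Lib.Helper2.PermChar

set_option autoImplicit false
open Cfsg

namespace Cfsg.Agent.S0136

/-- Two elements of a finite group are conjugate if and only if no irreducible complex character separates them. -/
theorem result {G : Type*} [Group G] [Finite G] (g h : G) : IsConj g h ↔ ∀ χ : Cfsg.IrrCharacter G, (χ : G → ℂ) g = (χ : G → ℂ) h := by
  classical
  open Cfsg.Agent.Lib.Helper2 in
  cases nonempty_fintype G
  haveI := finite_irr (G := G)
  cases nonempty_fintype (Cfsg.IrrCharacter G)
  constructor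
  · intro hgh χ
    exact IsClassFunction.eq_of_isConj (IsCharacter.isClassFunction (IsIrrCharacter.isCharacter χ.2)) hgh
  · intro hall
    by_contra hne
    have h1 := column_orthogonality g h
    have h2 := column_orthogonality h h
    rw [if_neg hne] at h1
    rw [if_pos (IsConj.refl h)] at h2
    simp_rw [hall] at h1
    rw [h1] at h2
    have : (Nat.card (Subgroup.centralizer ({h} : Set G)) : ℂ) ≠ 0 := card_subgroup_ne_zero _
    exact this h2.symm

end Cfsg.Agent.S0136
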