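import Cfsg.Statements.S0140
import Mathlib
import Cfsg.Agent.Lib.Helper2.Kernel

set_option autoImplicit false
open Cfsg

namespace Cfsg.Agent.S0140

/-- Every value of the character of a complex representation of a finite group is an algebraic integer. -/
theorem result {G : Type*} [Group G] [Finite G] {V : Type*} [AddCommGroup V] [Module ℂ V] [FiniteDimensional ℂ V] (ρ : Representation ℂ G V) (g : G) : IsIntegral ℤ (ρ.character g) := by
  obtain ⟨b, ζ, hpow, hn, hb, hχ⟩ := Cfsg.Agent.Lib.Helper2.exists_eigenbasis_rep ρ g
  rw [hχ]
  apply IsIntegral.sum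
  intro i _
  apply IsIntegral.of_pow (orderOf_pos g)
  rw [hpow i]
  exact isIntegral_one

end Cfsg.Agent.S0140
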