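import Cfsg.Statements.S0142
import Mathlib
import Cfsg.Agent.Lib.Helper24.Galois
import Cfsg.Agent.Lib.Helper24.Codegree

set_option autoImplicit false
open Cfsg

namespace Cfsg.Agent.S0142

/-- If the degree of an irreducible complex representation of a finite group is coprime to the size of the conjugacy class of g, then the character at g is zero or has absolute value equal to the degree. -/
theorem result {G : Type*} [Group G] [Finite G] {V : Type*} [AddCommGroup V] [Module ℂ V] [FiniteDimensional ℂ V] (ρ : Representation ℂ G V) [ρ.IsIrreducible] (g : G) (hcop : Nat.Coprime (Module.finrank ℂ V) (Subgroup.centralizer ({g} : Set G)).index) : ρ.character g = 0 ∨ ‖ρ.character g‖ = (Module.finrank ℂ V : ℝ) := by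
  cases nonempty_fintype G
  have hχ : IsIrrCharacter G ρ.character := Lib.Helper2.isIrrCharacter_of_rep ρ inferInstance
  have hc := Lib.Helper2.IsIrrCharacter.isCharacter hχ
  have h10 := Lib.Helper6.irr_one_ne_zero hχ
  have hdeg : charDegree ρ.character = Module.finrank ℂ V := by
    have h1 := Lib.Helper24.charDegree_cast hc
    rw [Representation.char_one] at h1
    exact_mod_cast h1
  rw [← hdeg] at hcop ⊢
  have hcop' : IsCoprime (charDegree ρ.character : ℤ)
      (((Subgroup.centralizer ({g} : Set G)).index : ℕ) : ℤ) := by
    rw [Nat.isCoprime_iff_coprime]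
    exact hcop
  obtain ⟨a, b, hab⟩ := hcop'
  have hω := Lib.Helper6.centralChar_isIntegral hχ g
  have hint : IsIntegral ℤ (ρ.character g / ρ.character 1) := by
    have h1 : ρ.character g / ρ.character 1 = (a : ℂ) * ρ.character g +
        (b : ℂ) * centralChar ρ.character g := by
      have h2 : (a : ℂ) * ρ.character 1 +
          (b : ℂ) * (((Subgroup.centralizer ({g} : Set G)).index : ℕ) : ℂ) = 1 := by
        rw [← Lib.Helper24.charDegree_cast hc]
        exact_mod_cast hab
      unfold centralChar
      have h3 : (a : ℂ) * ρ.character g +
          (b : ℂ) * ((((Subgroup.centralizer ({g} : Set G)).index : ℕ) : ℂ) * ρ.character g /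
          ρ.character 1) = ((a : ℂ) * ρ.character 1 +
            (b : ℂ) * (((Subgroup.centralizer ({g} : Set G)).index : ℕ) : ℂ)) *
          (ρ.character g / ρ.character 1) := by
        field_simp
      rw [h3, h2, one_mul]
    rw [h1]
    exact ((isIntegral_intCast _).mul (Lib.Helper24.char_isIntegral hc g)).add
      ((isIntegral_intCast _).mul hω)
  exact Lib.Helper24.burnside_zero_or_norm hc g hint

end Cfsg.Agent.S0142
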