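import Cfsg.Statements.S0147
import Cfsg.Agent.Lib.Helper2.Induction

set_option autoImplicit false
open Cfsg

namespace Cfsg.Agent.S0147

/-- Transitivity of induction: inducing from H to K and then from K to G is the same as inducing from H to G. -/
theorem result {G : Type*} [Group G] [Fintype G] (H K : Subgroup G) [Fintype K] (hHK : H ≤ K) (θ : H → ℂ) : Cfsg.indFun K (Cfsg.indFun (H.subgroupOf K) (fun x => θ ⟨(x : K), Subgroup.mem_subgroupOf.mp x.2⟩)) = Cfsg.indFun H θ := by
  classical
  open Cfsg.Agent.Lib.Helper2 in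
  ext g
  set θ' : H.subgroupOf K → ℂ := fun x => θ ⟨(x : K), Subgroup.mem_subgroupOf.mp x.2⟩ with hθ'
  have hA : ∀ y : K, Cfsg.extendByZero (H.subgroupOf K) θ' y = Cfsg.extendByZero H θ (y : G) := by
    intro y
    by_cases hy : (y : G) ∈ H
    · rw [extendByZero_mem H θ hy, extendByZero_mem (H.subgroupOf K) θ' (Subgroup.mem_subgroupOf.mpr hy)]
    · rw [extendByZero_not_mem H θ hy, extendByZero_not_mem (H.subgroupOf K) θ'
        (fun h => hy (Subgroup.mem_subgroupOf.mp h))]
  have hcard : Nat.card (H.subgroupOf K) = Nat.card H :=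
    Nat.card_congr (Subgroup.subgroupOfEquivOfLe hHK).toEquiv
  have hB : ∀ z : G, Cfsg.extendByZero K (Cfsg.indFun (H.subgroupOf K) θ') z =
      (Nat.card H : ℂ)⁻¹ * ∑ k : K, Cfsg.extendByZero H θ ((k : G)⁻¹ * z * k) := by
    intro z
    by_cases hz : z ∈ K
    · rw [extendByZero_mem K _ hz, Cfsg.indFun, hcard]
      congr 1
      refine Finset.sum_congr rfl fun k _ => ?_
      rw [hA]
      rfl
    · rw [extendByZero_not_mem K _ hz]
      symm
      apply mul_eq_zero_of_right
      apply Finset.sum_eq_zero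
      intro k _
      apply extendByZero_not_mem
      intro hk
      apply hz
      have h1 := K.mul_mem (K.mul_mem k.2 (hHK hk)) (K.inv_mem k.2)
      simpa [mul_assoc] using h1
  simp only [Cfsg.indFun] at hB ⊢
  simp_rw [hB]
  rw [← Finset.mul_sum, Finset.sum_comm]
  have hC : ∀ k : K, ∑ x : G, Cfsg.extendByZero H θ ((k : G)⁻¹ * (x⁻¹ * g * x) * k) =
      ∑ x : G, Cfsg.extendByZero H θ (x⁻¹ * g * x) := by
    intro k
    refine Fintype.sum_equiv (Equiv.mulRight (k : G)) _ _ fun x => ?_
    congr 1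
    simp [mul_assoc]
  simp_rw [hC]
  rw [Finset.sum_const, Finset.card_univ, nsmul_eq_mul, ← Nat.card_eq_fintype_card]
  have hK : (Nat.card K : ℂ) ≠ 0 := card_subgroup_ne_zero K
  field_simp

end Cfsg.Agent.S0147
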