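import Cfsg.Statements.S0149
import Cfsg.Agent.Lib.Helper2.Induction

set_option autoImplicit false
open Cfsg

namespace Cfsg.Agent.S0149

open Cfsg.Agent.Lib.Helper2 in
theorem aux {G : Type*} [Group G] [Fintype G] (T : Set G) (hTI : ∀ g : G, g ∉ Subgroup.normalizer T → ∀ t ∈ T, g * t * g⁻¹ ∈ T → t = 1) (ψ : Subgroup.normalizer T → ℂ) (hψ : Cfsg.IsClassFunction (Subgroup.normalizer T) ψ) (hψT : ∀ x : Subgroup.normalizer T, (x : G) ∉ T → ψ x = 0) (t : Subgroup.normalizer T) (htT : (t : G) ∈ T) (ht1 : t ≠ 1) : Cfsg.indFun (Subgroup.normalizer T) ψ t = ψ t := by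
  classical
  have key : ∀ x : G, Cfsg.extendByZero (Subgroup.normalizer T) ψ (x⁻¹ * t * x) =
      if x ∈ Subgroup.normalizer T then ψ t else 0 := by
    intro x
    by_cases hx : x ∈ Subgroup.normalizer T
    · rw [if_pos hx]
      have hm : x⁻¹ * t * x ∈ Subgroup.normalizer T :=
        Subgroup.mul_mem _ (Subgroup.mul_mem _ (Subgroup.inv_mem _ hx) t.2) hx
      rw [extendByZero_mem _ _ hm]
      have h2 := hψ t (⟨x, hx⟩ : Subgroup.normalizer T)⁻¹
      rw [← h2]
      congr 1
      apply Subtype.ext
      simp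
    · rw [if_neg hx]
      by_cases hm : x⁻¹ * t * x ∈ Subgroup.normalizer T
      · rw [extendByZero_mem _ _ hm]
        apply hψT
        intro hT
        have := hTI x⁻¹ (fun h => hx (by simpa using Subgroup.inv_mem _ h)) t htT
          (by simpa using hT)
        exact ht1 (Subtype.ext this)
      · exact extendByZero_not_mem _ _ hm
  simp only [Cfsg.indFun, key]
  rw [sum_ite_mem_subgroup, ← mul_assoc, inv_mul_cancel₀ (card_subgroup_ne_zero _), one_mul]

/-- Let T be a subset of G meeting each of its conjugates by elements outside its normalizer N only in the identity, and let ψ be a class function of N vanishing on N away from T. Then the function induced from ψ agrees with ψ at every non-identity element of T. -/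
theorem result {G : Type*} [Group G] [Fintype G] (T : Set G) (hTI : ∀ g : G, g ∉ Subgroup.normalizer T → ∀ t ∈ T, g * t * g⁻¹ ∈ T → t = 1) (hTN : T ⊆ Subgroup.normalizer T) (ψ : Subgroup.normalizer T → ℂ) (hψ : Cfsg.IsClassFunction (Subgroup.normalizer T) ψ) (hψT : ∀ x : Subgroup.normalizer T, (x : G) ∉ T → ψ x = 0) (t : Subgroup.normalizer T) (htT : (t : G) ∈ T) (ht1 : t ≠ 1) : Cfsg.indFun (Subgroup.normalizer T) ψ t = ψ t := by
  exact aux T hTI ψ hψ hψT t htT ht1

end Cfsg.Agent.S0149
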