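import Cfsg.Statements.S0157
import Mathlib
import Cfsg.Agent.Lib.Helper2.CharMore

set_option autoImplicit false
open Cfsg

namespace Cfsg.Agent.S0157

theorem cast_mul_pred (n : ℕ) : ((n * (n - 1) : ℕ) : ℂ) = (n : ℂ) * ((n : ℂ) - 1) := by
  cases n with
  | zero => simp
  | succ n => simp

/-- Embeddings fixed by `g` are embeddings into the fixed points. -/
def fixedEmbEquiv {G X : Type*} [Group G] [MulAction G X] (g : G) :
    MulAction.fixedBy (Fin 2 ↪ X) g ≃ (Fin 2 ↪ MulAction.fixedBy X g) where
  toFun e := ⟨fun i => ⟨e.1 i, by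
      have := congrArg (fun f : Fin 2 ↪ X => f i) e.2
      exact this⟩, fun i j h => e.1.injective (congrArg Subtype.val h)⟩
  invFun f := ⟨f.trans (Function.Embedding.subtype _), by
      ext i
      exact (f i).2⟩
  left_inv e := by
    ext i
    rfl
  right_inv f := by
    ext i
    rfl

/-- For a transitive action of a finite group on a finite set with at least two points: the action is 2-transitive if and only if the function sending g to (number of fixed points of g) − 1 is an irreducible character. -/
theorem result {G : Type*} [Group G] [Finite G] (X : Type*) [MulAction G X] [Finite X] [MulAction.IsPretransitive G X] (hX : 2 ≤ Nat.card X) : Cfsg.IsIrrCharacter G (fun g => (Nat.card (MulAction.fixedBy X g) : ℂ) - 1) ↔ MulAction.IsMultiplyPretransitive G X 2 := by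
  classical
  open Cfsg.Agent.Lib.Helper2 Module in
  cases nonempty_fintype G
  cases nonempty_fintype X
  have hG : (Nat.card G : ℂ) ≠ 0 := card_ne_zero_complex
  -- Burnside for X
  have hB1 : ∑ g : G, Nat.card (MulAction.fixedBy X g) = Nat.card G := by
    have h := MulAction.sum_card_fixedBy_eq_card_orbits_mul_card_group G X
    have h1 : Fintype.card (Quotient (MulAction.orbitRel G X)) = 1 := by
      rw [Fintype.card_eq_one_iff_nonempty_unique]
      haveI : Nonempty X := by
        rw [← Fintype.card_pos_iff, ← Nat.card_eq_fintype_card]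
        omega
      haveI : Subsingleton (MulAction.orbitRel.Quotient G X) :=
        (MulAction.pretransitive_iff_subsingleton_quotient G X).mp inferInstance
      obtain ⟨x⟩ := ‹Nonempty X›
      exact ⟨⟨⟨⟦x⟧⟩, fun a => Subsingleton.elim (α := MulAction.orbitRel.Quotient G X) _ _⟩⟩
    rw [h1, one_mul] at h
    simp only [Nat.card_eq_fintype_card]
    exact h
  have hB2 : ∑ g : G, Nat.card (MulAction.fixedBy X g) * (Nat.card (MulAction.fixedBy X g) - 1) =
      Fintype.card (Quotient (MulAction.orbitRel G (Fin 2 ↪ X))) * Nat.card G := by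
    have h := MulAction.sum_card_fixedBy_eq_card_orbits_mul_card_group G (Fin 2 ↪ X)
    rw [Nat.card_eq_fintype_card, ← h]
    refine Finset.sum_congr rfl fun g _ => ?_
    rw [Fintype.card_congr (fixedEmbEquiv g), Fintype.card_embedding_eq, Nat.card_eq_fintype_card]
    simp [Nat.descFactorial]
    ring
  set π : G → ℂ := fun g => (Nat.card (MulAction.fixedBy X g) : ℂ) with hπ
  have hnorm : Cfsg.classInner (fun g => π g - 1) (fun g => π g - 1) =
      (Fintype.card (Quotient (MulAction.orbitRel G (Fin 2 ↪ X))) : ℂ) := by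
    rw [Cfsg.classInner]
    have h1 : ∀ g : G, (π g - 1) * (starRingEnd ℂ) (π g - 1) =
        ((Nat.card (MulAction.fixedBy X g) * (Nat.card (MulAction.fixedBy X g) - 1) : ℕ) : ℂ) -
        (Nat.card (MulAction.fixedBy X g) : ℂ) + 1 := by
      intro g
      rw [cast_mul_pred]
      simp only [hπ, map_sub, map_natCast, map_one]
      ring
    simp_rw [h1]
    rw [Finset.sum_add_distrib, Finset.sum_sub_distrib, ← Nat.cast_sum, ← Nat.cast_sum, hB1, hB2]
    simp only [Finset.sum_const, Finset.card_univ, nsmul_eq_mul, mul_one, ← Nat.card_eq_fintype_card (α := G)]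
    push_cast
    field_simp
    ring
  have hone : Cfsg.classInner π (fun _ => 1) = 1 := by
    rw [Cfsg.classInner]
    simp only [map_one, mul_one, hπ]
    rw [← Nat.cast_sum, hB1]
    exact inv_mul_cancel₀ hG
  have hchar : Cfsg.IsCharacter G (fun g => π g - 1) :=
    IsCharacter.sub_irr (isCharacter_permChar (X := X)) isIrrCharacter_one (by rw [hone]; exact one_ne_zero)
  constructor
  · intro hirr
    have h1 := classInner_irr hirr hirr
    rw [if_pos rfl, hnorm] at h1
    have h2 : Fintype.card (Quotient (MulAction.orbitRel G (Fin 2 ↪ X))) = 1 := by exact_mod_cast h1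
    have h3 : Subsingleton (MulAction.orbitRel.Quotient G (Fin 2 ↪ X)) :=
      Fintype.card_le_one_iff_subsingleton.mp h2.le
    exact (MulAction.pretransitive_iff_subsingleton_quotient G (Fin 2 ↪ X)).mpr h3
  · intro htrans
    apply isIrrCharacter_of_classInner_eq_one hchar
    rw [hnorm]
    have h3 : Subsingleton (MulAction.orbitRel.Quotient G (Fin 2 ↪ X)) :=
      (MulAction.pretransitive_iff_subsingleton_quotient G (Fin 2 ↪ X)).mp htrans
    have h4 : Nonempty (Fin 2 ↪ X) := by
      apply Function.Embedding.nonempty_of_card_le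
      rw [Fintype.card_fin, ← Nat.card_eq_fintype_card]
      exact hX
    obtain ⟨e⟩ := h4
    have h5 : Fintype.card (Quotient (MulAction.orbitRel G (Fin 2 ↪ X))) = 1 := by
      rw [Fintype.card_eq_one_iff_nonempty_unique]
      exact ⟨⟨⟨⟦e⟧⟩, fun a => Subsingleton.elim (α := MulAction.orbitRel.Quotient G (Fin 2 ↪ X)) _ _⟩⟩
    rw [h5]
    simp

end Cfsg.Agent.S0157
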