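import Cfsg.Statements.S0162
import Mathlib
import Cfsg.Agent.S0135
import Cfsg.Agent.S0161
import Cfsg.Agent.Lib.Helper2.Integral

set_option autoImplicit false
open Cfsg

namespace Cfsg.Agent.S0162

theorem aux16 : ∀ x : ZMod 16, x.val % 2 = 1 → (x ^ 2 - 1) + (x ^ 2 - 1) = 0 := by decide

/-- If a finite group has odd order, its order is congruent to its number of conjugacy classes modulo 16. -/
theorem result {G : Type*} [Group G] [Finite G] (hodd : Odd (Nat.card G)) : Nat.card G ≡ Nat.card (ConjClasses G) [MOD 16] := by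
  classical
  open Cfsg.Agent.Lib.Helper2 Module in
  cases nonempty_fintype G
  haveI := finite_irr (G := G)
  cases nonempty_fintype (Cfsg.IrrCharacter G)
  have hdeg : ∀ χ : Cfsg.IrrCharacter G, ∃ n : ℕ, (χ : G → ℂ) 1 = n ∧ n ∣ Nat.card G := by
    intro χ
    obtain ⟨n, ρ, hρ, hχ⟩ := χ.2
    haveI := hρ
    exact ⟨_, by rw [← hχ, Representation.char_one], Cfsg.Agent.S0135.result ρ⟩
  choose d hd hdvd using hdeg
  have hsum : ∑ χ : Cfsg.IrrCharacter G, (d χ) ^ 2 = Nat.card G := by
    have := sum_degree_sq (G := G)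
    simp_rw [hd] at this
    exact_mod_cast this
  have hk : Nat.card (ConjClasses G) = ∑ _χ : Cfsg.IrrCharacter G, 1 := by
    rw [← card_irr_eq_card_conjClasses, Nat.card_eq_fintype_card]
    simp
  let cj : Cfsg.IrrCharacter G → Cfsg.IrrCharacter G :=
    fun χ => ⟨fun g => (starRingEnd ℂ) ((χ : G → ℂ) g), IsIrrCharacter.conj χ.2⟩
  have hdcj : ∀ χ, d (cj χ) = d χ := by
    intro χ
    have h1 : ((cj χ : Cfsg.IrrCharacter G) : G → ℂ) 1 = (starRingEnd ℂ) ((χ : G → ℂ) 1) := rfl
    rw [hd, hd] at h1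
    simp only [map_natCast] at h1
    exact_mod_cast h1
  have hmain : ∑ χ : Cfsg.IrrCharacter G, (((d χ : ℕ) : ZMod 16) ^ 2 - 1) = 0 := by
    apply Finset.sum_involution (fun χ _ => cj χ)
    · intro χ _
      rw [hdcj]
      apply aux16
      have hoddd : Odd (d χ) := Odd.of_dvd_nat hodd (hdvd χ)
      rw [ZMod.val_natCast]
      have := Nat.odd_iff.mp hoddd
      omega
    · intro χ _ hne hfix
      apply hne
      have hreal : ∀ g : G, ((χ : G → ℂ) g).im = 0 := by
        intro g
        have := congrArg (fun ψ : Cfsg.IrrCharacter G => (ψ : G → ℂ) g) hfix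
        exact Complex.conj_eq_iff_im.mp this
      have h1 := Cfsg.Agent.S0161.result hodd χ hreal
      have h2 : (d χ : ℂ) = 1 := by rw [← hd, h1]
      have h3 : d χ = 1 := by exact_mod_cast h2
      rw [h3]
      simp
    · intro χ _
      exact Finset.mem_univ _
    · intro χ _
      apply Subtype.ext
      ext g
      simp [cj]
  rw [Finset.sum_sub_distrib, sub_eq_zero] at hmain
  rw [← ZMod.natCast_eq_natCast_iff, ← hsum, hk]
  push_cast
  exact hmain

end Cfsg.Agent.S0162
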