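import Cfsg.Statements.S0163
import Mathlib
import Cfsg.Agent.Lib.Helper23.Brauer

set_option autoImplicit false
open Cfsg

namespace Cfsg.Agent.S0163

/-- Brauer's induction Theorem: every character of a finite group is a ℤ-linear combination of functions induced from linear characters (homomorphisms to ℂˣ) of elementary subgroups. -/
theorem result {G : Type*} [Group G] [Fintype G] (χ : G → ℂ) (hχ : Cfsg.IsCharacter G χ) : ∃ l : List ((E : Subgroup G) × ((E →* ℂˣ) × ℤ)), (∀ t ∈ l, ∃ p : ℕ, p.Prime ∧ Cfsg.IsElementary p t.1) ∧ χ = (l.map fun t => (t.2.2 : ℂ) • Cfsg.indFun t.1 (fun e => (t.2.1 e : ℂ))).sum := by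
  have h := Cfsg.Agent.Lib.Helper23.Brauer.brauer hχ
  unfold Cfsg.Agent.Lib.Helper23.Brauer.elSpan at h
  clear hχ
  induction h using Submodule.span_induction with
  | mem f hf =>
    obtain ⟨E, lam, hel, rfl⟩ := hf
    refine ⟨[⟨E, (lam, 1)⟩], ?_, ?_⟩
    · intro t ht
      rw [List.mem_singleton] at ht
      rw [ht]; exact hel
    · simp
  | zero => exact ⟨[], by simp, by simp⟩
  | add a b _ _ ha hb =>
    obtain ⟨l₁, h₁, e₁⟩ := ha
    obtain ⟨l₂, h₂, e₂⟩ := hb
    refine ⟨l₁ ++ l₂, ?_, ?_⟩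
    · intro t ht
      rcases List.mem_append.1 ht with h | h
      · exact h₁ t h
      · exact h₂ t h
    · rw [List.map_append, List.sum_append, ← e₁, ← e₂]
  | smul c a _ ha =>
    obtain ⟨l, h₁, e₁⟩ := ha
    refine ⟨l.map (fun t => ⟨t.1, (t.2.1, c * t.2.2)⟩), ?_, ?_⟩
    · intro t ht
      obtain ⟨s, hs, rfl⟩ := List.mem_map.1 ht
      exact h₁ s hs
    · rw [e₁, List.map_map, List.smul_sum, List.map_map]
      congr 1
      apply List.map_congr_left
      intro t _
      simp only [Function.comp_apply]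
      rw [← Int.cast_smul_eq_zsmul ℂ, smul_smul]
      push_cast
      rfl

end Cfsg.Agent.S0163
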