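import Cfsg.Statements.S0165
import Cfsg.Agent.Lib.Helper24.DefectZero
-- import your own Cfsg.Agent.* helpers here

set_option autoImplicit false
open Cfsg

namespace Cfsg.Agent.S0165

open Cfsg.Agent.Lib.Helper24 Cfsg.Agent.Lib.Helper2 Cfsg.Agent.Lib.Helper6

/-- If p ^ n is the exact power of the prime p dividing the order of a finite group and p ^ n divides the degree of an irreducible complex representation, then its character vanishes at every element of order divisible by p. -/
theorem result {G : Type*} [Group G] [Finite G] {V : Type*} [AddCommGroup V] [Module ℂ V] [FiniteDimensional ℂ V] (ρ : Representation ℂ G V) [ρ.IsIrreducible] (p n : ℕ) (hp : p.Prime) (hn : p ^ n ∣ Nat.card G) (hn' : ¬ p ^ (n + 1) ∣ Nat.card G) (hdeg : p ^ n ∣ Module.finrank ℂ V) (x : G) (hx : p ∣ orderOf x) : ρ.character x = 0 := by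
  have hirr : IsIrrCharacter G ρ.character := isIrrCharacter_of_rep ρ inferInstance
  have hd : charDegree ρ.character = Module.finrank ℂ V := by
    have h1 := charDegree_cast (IsIrrCharacter.isCharacter hirr)
    rw [Representation.char_one] at h1
    exact_mod_cast h1
  have h2 : ¬ p ∣ Nat.card G / charDegree ρ.character :=
    not_dvd_card_div_degree hirr hn' (hd ▸ hdeg)
  exact vanish_of_defect_zero hp ⟨_, hirr⟩ h2 hx

end Cfsg.Agent.S0165
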