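import Cfsg.Statements.S0167
import Mathlib
import Cfsg.Agent.Lib.Helper2.Schur

set_option autoImplicit false
open Cfsg

namespace Cfsg.Agent.S0167

/-- An element g of a finite group is a commutator if and only if the sum over the irreducible characters χ of χ g / χ 1 is nonzero. -/
theorem result {G : Type*} [Group G] [Finite G] (g : G) : (∃ a b : G, g = a * b * a⁻¹ * b⁻¹) ↔ ∑ᶠ χ : Cfsg.IrrCharacter G, (χ : G → ℂ) g / (χ : G → ℂ) 1 ≠ 0 := by
  classical
  open Cfsg.Agent.Lib.Helper2 Module in
  cases nonempty_fintype G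
  haveI := finite_irr (G := G)
  cases nonempty_fintype (Cfsg.IrrCharacter G)
  rw [finsum_eq_sum_of_fintype]
  let N : G → ℂ := fun x => ∑ a : G, ∑ b : G, if a * b * a⁻¹ * b⁻¹ = x then (1 : ℂ) else 0
  have hNcl : Cfsg.IsClassFunction G N := by
    intro x h
    simp only [N]
    refine Fintype.sum_equiv (MulAut.conj h⁻¹).toEquiv _ _ fun a => ?_
    refine Fintype.sum_equiv (MulAut.conj h⁻¹).toEquiv _ _ fun b => ?_
    have : (a * b * a⁻¹ * b⁻¹ = h * x * h⁻¹) ↔
        ((MulAut.conj h⁻¹).toEquiv a * (MulAut.conj h⁻¹).toEquiv b * ((MulAut.conj h⁻¹).toEquiv a)⁻¹ *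
          ((MulAut.conj h⁻¹).toEquiv b)⁻¹ = x) := by
      simp only [MulEquiv.toEquiv_eq_coe, MulEquiv.coe_toEquiv, MulAut.conj_apply, inv_inv]
      constructor
      · intro hh
        have : h⁻¹ * (a * b * a⁻¹ * b⁻¹) * h = x := by rw [hh]; group
        rw [← this]; group
      · intro hh
        rw [← hh]; group
    simp only [this]
  have hsumF : ∀ F : G → ℂ, ∑ x : G, N x * F x = ∑ a : G, ∑ b : G, F (a * b * a⁻¹ * b⁻¹) := by
    intro F
    simp only [N, Finset.sum_mul]
    rw [Finset.sum_comm]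
    refine Finset.sum_congr rfl fun a _ => ?_
    rw [Finset.sum_comm]
    refine Finset.sum_congr rfl fun b _ => ?_
    simp
  have hinner : ∀ χ : Cfsg.IrrCharacter G, Cfsg.classInner N χ = (Nat.card G : ℂ) / (χ : G → ℂ) 1 := by
    intro χ
    obtain ⟨n, ρ, hρ, hχ⟩ := χ.2
    haveI := hρ
    rw [Cfsg.classInner, hsumF, ← hχ]
    have h1 := congrArg (starRingEnd ℂ) (sum_char_commutator ρ)
    rw [map_sum] at h1
    simp_rw [map_sum] at h1
    rw [h1, Representation.char_one]
    simp only [map_div₀, map_pow, map_natCast]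
    have hG : (Nat.card G : ℂ) ≠ 0 := card_ne_zero_complex
    field_simp
  have hN : N g = (Nat.card G : ℂ) * ∑ χ : Cfsg.IrrCharacter G, (χ : G → ℂ) g / (χ : G → ℂ) 1 := by
    have h1 := congrFun (classFunction_eq_sum hNcl) g
    rw [h1, Finset.sum_apply, Finset.mul_sum]
    refine Finset.sum_congr rfl fun χ _ => ?_
    rw [Pi.smul_apply, hinner, smul_eq_mul]
    ring
  have hG : (Nat.card G : ℂ) ≠ 0 := card_ne_zero_complex
  constructor
  · rintro ⟨a, b, hab⟩ h0
    rw [h0, mul_zero] at hN
    -- N g is a sum of nonnegative terms containing a 1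
    have hreal : N g = ((∑ a : G, ∑ b : G, if a * b * a⁻¹ * b⁻¹ = g then (1 : ℕ) else 0 : ℕ) : ℂ) := by
      simp only [N]
      push_cast
      rfl
    rw [hreal] at hN
    have hN' : (∑ a : G, ∑ b : G, if a * b * a⁻¹ * b⁻¹ = g then (1 : ℕ) else 0) = 0 := by
      exact_mod_cast hN
    have h2 := (Finset.sum_eq_zero_iff.mp hN') a (Finset.mem_univ _)
    have h3 := (Finset.sum_eq_zero_iff.mp h2) b (Finset.mem_univ _)
    rw [if_pos hab.symm] at h3
    exact one_ne_zero h3
  · intro hne
    by_contra hcon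
    push Not at hcon
    apply hne
    have : N g = 0 := by
      simp only [N]
      apply Finset.sum_eq_zero
      intro a _
      apply Finset.sum_eq_zero
      intro b _
      rw [if_neg (fun h => hcon a b h.symm)]
    rw [this] at hN
    exact (mul_eq_zero.mp hN.symm).resolve_left hG

end Cfsg.Agent.S0167
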