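import Cfsg.Statements.S0168
import Mathlib
import Cfsg.Agent.Lib.Helper2.Kernel
import Cfsg.Agent.Lib.Helper2.Clifford

set_option autoImplicit false
open Cfsg

namespace Cfsg.Agent.S0168

/-- The Burnside–Brauer Theorem. Let χ be the character of a faithful complex representation of a finite group, taking m distinct values. Then every irreducible character has nonzero inner product with χ ^ i for some i < m. -/
theorem result {G : Type*} [Group G] [Fintype G] {V : Type*} [AddCommGroup V] [Module ℂ V] [FiniteDimensional ℂ V] (ρ : Representation ℂ G V) (hfaithful : Function.Injective ρ) (ψ : G → ℂ) (hψ : Cfsg.IsIrrCharacter G ψ) : ∃ i : ℕ, i < Nat.card (Set.range ρ.character) ∧ Cfsg.classInner (fun g => ρ.character g ^ i) ψ ≠ 0 := by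
  classical
  open Cfsg.Agent.Lib.Helper2 in
  by_contra hcon
  push Not at hcon
  set m := Nat.card (Set.range ρ.character) with hm
  haveI : Finite (Set.range ρ.character) := Set.finite_range _
  let e : Set.range ρ.character ≃ Fin m := Finite.equivFin _
  let a : Fin m → ℂ := fun j => (e.symm j : ℂ)
  have ha : Function.Injective a := fun i j h => e.symm.injective (Subtype.ext h)
  let β : Fin m → ℂ := fun j => ∑ g ∈ Finset.univ.filter (fun g : G => ρ.character g = a j),
    (starRingEnd ℂ) (ψ g)
  have hzero : ∀ i : Fin m, ∑ j : Fin m, β j * a j ^ (i : ℕ) = 0 := by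
    intro i
    have h1 := hcon i i.2
    rw [Cfsg.classInner, mul_eq_zero] at h1
    rcases h1 with h1 | h1
    · exact absurd (inv_eq_zero.mp h1) card_ne_zero_complex
    · rw [← h1, ← Finset.sum_fiberwise (s := Finset.univ)
        (g := fun g : G => e ⟨ρ.character g, Set.mem_range_self g⟩)]
      refine Finset.sum_congr rfl fun j _ => ?_
      simp only [β]
      rw [Finset.sum_mul]
      have hfilter : Finset.univ.filter (fun g : G => e ⟨ρ.character g, Set.mem_range_self g⟩ = j) =
          Finset.univ.filter (fun g : G => ρ.character g = a j) := by
        ext g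
        simp only [Finset.mem_filter, Finset.mem_univ, true_and, a]
        constructor
        · intro h
          rw [← h]
          simp
        · intro h
          rw [← Equiv.eq_symm_apply]
          exact Subtype.ext h
      rw [hfilter]
      refine Finset.sum_congr rfl fun g hg => ?_
      simp only [Finset.mem_filter, Finset.mem_univ, true_and] at hg
      rw [hg]
      ring
  have hβ : β = 0 := by
    apply Matrix.eq_zero_of_vecMul_eq_zero (M := Matrix.vandermonde a)
      (Matrix.det_vandermonde_ne_zero_iff.mpr ha)
    ext i
    simp only [Matrix.vecMul, dotProduct, Matrix.vandermonde_apply, Pi.zero_apply]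
    exact hzero i
  let j0 : Fin m := e ⟨ρ.character 1, Set.mem_range_self 1⟩
  have hj0 : a j0 = ρ.character 1 := by simp [a, j0]
  have h2 : β j0 = (starRingEnd ℂ) (ψ 1) := by
    simp only [β]
    rw [hj0]
    have : Finset.univ.filter (fun g : G => ρ.character g = ρ.character 1) = {1} := by
      ext g
      simp only [Finset.mem_filter, Finset.mem_univ, true_and, Finset.mem_singleton]
      constructor
      · intro h
        rw [Representation.char_one, char_eq_finrank_iff] at h
        apply hfaithful
        rw [h, map_one]
        rfl
      · rintro rfl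
        rfl
    rw [this, Finset.sum_singleton]
  rw [hβ] at h2
  obtain ⟨n, σ, hσ, rfl⟩ := hψ
  haveI := hσ
  have hpos := finrank_pos_of_isIrreducible σ
  rw [Representation.char_one] at h2
  simp only [Pi.zero_apply, map_natCast] at h2
  have : (Module.finrank ℂ (Fin n → ℂ) : ℂ) ≠ 0 := by exact_mod_cast hpos.ne'
  exact this h2.symm

end Cfsg.Agent.S0168
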