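import Cfsg.Statements.S0198
import Mathlib
import Cfsg.Agent.Lib.Lead.GenChar
import Cfsg.Agent.Lib.Helper24.CharInt
import Cfsg.Agent.Lib.Helper6.CharCentral
import Cfsg.Agent.Lib.Helper23.IndTools

set_option autoImplicit false
open Cfsg

namespace Cfsg.Agent.S0198

open Cfsg.Agent.Lib.Helper2 Cfsg.Agent.Lib.Helper24 Cfsg.Agent.Lib.Lead Cfsg.Agent.Lib.Helper6
open Cfsg.Agent.Lib.Helper23.IndTools
open scoped ComplexConjugate

attribute [local instance] irrFintype

variable {G : Type*} [Group G] [Fintype G]

theorem add_one_ne_zero {a b : G → ℂ} (ha : IsIrrCharacter G a) (hb : IsIrrCharacter G b) :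
    a 1 + b 1 ≠ 0 := by
  rw [← charDegree_cast (IsIrrCharacter.isCharacter ha),
    ← charDegree_cast (IsIrrCharacter.isCharacter hb)]
  have := charDegree_pos ha
  intro h
  have h' : charDegree a + charDegree b = 0 := by exact_mod_cast h
  omega

/-- A generalized character of norm two vanishing at `1` is a difference of two distinct
irreducible characters. -/
theorem exists_sub_of_norm_two {θ : G → ℂ} (hθ : IsGeneralizedCharacter G θ)
    (h2 : classInner θ θ = 2) (h1 : θ 1 = 0) :
    ∃ a b : G → ℂ, IsIrrCharacter G a ∧ IsIrrCharacter G b ∧ a ≠ b ∧ θ = a - b := by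
  classical
  obtain ⟨c, hc⟩ := genChar_exists_eq_sum hθ
  have hsum : ∑ ψ : IrrCharacter G, c ψ * c ψ = 2 := by
    have h := h2
    rw [hc, classInner_sum_irr] at h
    have : ((∑ ψ : IrrCharacter G, c ψ * c ψ : ℤ) : ℂ) = 2 := by
      push_cast
      simpa using h
    exact_mod_cast this
  have hex : ∃ ψ, c ψ ≠ 0 := by
    by_contra hcon
    push Not at hcon
    simp [hcon] at hsum
  obtain ⟨ψ₁, hψ₁⟩ := hex
  have hle : c ψ₁ * c ψ₁ ≤ 2 := by
    rw [← hsum]
    exact Finset.single_le_sum (f := fun ψ => c ψ * c ψ) (fun ψ _ => mul_self_nonneg _)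
      (Finset.mem_univ ψ₁)
  have hc1 : c ψ₁ = 1 ∨ c ψ₁ = -1 := by
    have h3 : -1 ≤ c ψ₁ := by nlinarith
    have h4 : c ψ₁ ≤ 1 := by nlinarith
    omega
  have hin : classInner θ (ψ₁ : G → ℂ) = (c ψ₁ : ℂ) := by
    rw [hc]; exact classInner_sum_irr_left (fun ψ => (c ψ : ℂ)) ψ₁
  have hin' : classInner (ψ₁ : G → ℂ) θ = (c ψ₁ : ℂ) := by
    rw [← classInner_conj_symm, hin, map_intCast]
  have hself := classInner_irr ψ₁.2 ψ₁.2
  rw [if_pos rfl] at hself
  set θ' : G → ℂ := θ - (c ψ₁ : ℂ) • (ψ₁ : G → ℂ) with hθ'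
  have hgen' : IsGeneralizedCharacter G θ' :=
    genChar_sub hθ (genChar_zsmul (c ψ₁) (genChar_of_char (IsIrrCharacter.isCharacter ψ₁.2)))
  have hsq : ((c ψ₁ : ℂ)) * (c ψ₁ : ℂ) = 1 := by
    rcases hc1 with h | h <;> rw [h] <;> norm_num
  have hnorm' : classInner θ' θ' = 1 := by
    rw [hθ', classInner_sub_left, classInner_sub_right, classInner_sub_right,
      classInner_smul_left, classInner_smul_left, classInner_smul_right, classInner_smul_right,
      h2, hin, hin', hself, map_intCast]
    linear_combination (-1 : ℂ) * hsq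
  have hθeq : θ = θ' + (c ψ₁ : ℂ) • (ψ₁ : G → ℂ) := by rw [hθ']; simp
  have hne : ∀ a : G → ℂ, θ ≠ a - a := by
    intro a h
    rw [sub_self] at h
    rw [h] at h2
    simp [classInner] at h2
  rcases genChar_norm_one hgen' hnorm' with hirr | hirr
  · rcases hc1 with h | h
    · exfalso
      apply add_one_ne_zero hirr ψ₁.2
      have := congrFun hθeq 1
      rw [h1, h] at this
      simpa using this.symm
    · refine ⟨θ', ψ₁, hirr, ψ₁.2, ?_, ?_⟩
      · intro he
        apply hne (ψ₁ : G → ℂ)
        rw [hθeq, h, he]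
        funext g; simp [sub_eq_add_neg]
      · rw [hθeq, h]
        funext g; simp [sub_eq_add_neg]
  · rcases hc1 with h | h
    · refine ⟨ψ₁, -θ', ψ₁.2, hirr, ?_, ?_⟩
      · intro he
        apply hne (ψ₁ : G → ℂ)
        have : θ' = -(ψ₁ : G → ℂ) := by rw [he]; simp
        rw [hθeq, h, this]
        funext g; simp
      · rw [hθeq, h]
        funext g; simp [add_comm]
    · exfalso
      apply add_one_ne_zero hirr ψ₁.2
      have := congrFun hθeq 1
      rw [h1, h] at this
      simp only [Pi.add_apply, Pi.smul_apply, smul_eq_mul, Pi.neg_apply] at this ⊢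
      push_cast at this
      linear_combination this

theorem key {a b a' b' : G → ℂ} (ha : IsIrrCharacter G a) (hb : IsIrrCharacter G b)
    (ha' : IsIrrCharacter G a') (hb' : IsIrrCharacter G b') (hab : a ≠ b) (hab' : a' ≠ b')
    (h : classInner (a - b) (a' - b') = 1) : (a = a' ∧ b ≠ b') ∨ (a ≠ a' ∧ b = b') := by
  classical
  rw [classInner_sub_left, classInner_sub_right, classInner_sub_right, classInner_irr ha ha',
    classInner_irr ha hb', classInner_irr hb ha', classInner_irr hb hb'] at h
  by_cases h1 : a = a'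
  · by_cases h2 : b = b'
    · exfalso
      have h3 : a ≠ b' := h2 ▸ hab
      have h4 : b ≠ a' := h1 ▸ hab.symm
      rw [if_pos h1, if_pos h2, if_neg h3, if_neg h4] at h
      norm_num at h
    · exact Or.inl ⟨h1, h2⟩
  · by_cases h2 : b = b'
    · exact Or.inr ⟨h1, h2⟩
    · exfalso
      rw [if_neg h1, if_neg h2] at h
      split_ifs at h <;> norm_num at h

/-- The isometry lemma behind exceptional characters. Let τ be a family of generalized characters of a finite group G indexed by Fin n, with τ i₀ = 0, every τ i vanishing at the identity, and inner products ⟨τ i, τ j⟩ = 2 if i = j and 1 otherwise for i, j ≠ i₀. Then there are a sign ε and pairwise distinct irreducible characters μ i with τ i = ε (μ i − μ i₀) for all i. -/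
theorem result {G : Type*} [Group G] [Fintype G] (n : ℕ) (i₀ : Fin n) (τ : Fin n → (G → ℂ)) (h0 : τ i₀ = 0) (hgen : ∀ i, Cfsg.IsGeneralizedCharacter G (τ i)) (hone : ∀ i, τ i 1 = 0) (hgram : ∀ i j, i ≠ i₀ → j ≠ i₀ → Cfsg.classInner (τ i) (τ j) = if i = j then 2 else 1) : ∃ ε : ℂ, (ε = 1 ∨ ε = -1) ∧ ∃ μ : Fin n → (G → ℂ), (∀ i, Cfsg.IsIrrCharacter G (μ i)) ∧ Function.Injective μ ∧ ∀ i, τ i = ε • (μ i - μ i₀) := by
  classical
  have hdec : ∀ i, ∃ a b : G → ℂ, IsIrrCharacter G a ∧ IsIrrCharacter G b ∧
      (i ≠ i₀ → a ≠ b ∧ τ i = a - b) := by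
    intro i
    by_cases hi : i = i₀
    · exact ⟨fun _ => 1, fun _ => 1, isIrrCharacter_one, isIrrCharacter_one, fun h => absurd hi h⟩
    · obtain ⟨a, b, ha, hb, hab, h⟩ := exists_sub_of_norm_two (hgen i)
        (by rw [hgram i i hi hi, if_pos rfl]) (hone i)
      exact ⟨a, b, ha, hb, fun _ => ⟨hab, h⟩⟩
  choose a b ha hb hab using hdec
  have hkey : ∀ i j, i ≠ i₀ → j ≠ i₀ → i ≠ j →
      (a i = a j ∧ b i ≠ b j) ∨ (a i ≠ a j ∧ b i = b j) := by
    intro i j hi hj hij
    apply key (ha i) (hb i) (ha j) (hb j) (hab i hi).1 (hab j hj).1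
    rw [← (hab i hi).2, ← (hab j hj).2, hgram i j hi hj, if_neg hij]
  by_cases hA : ∃ i j, i ≠ i₀ ∧ j ≠ i₀ ∧ i ≠ j ∧ a i = a j
  · obtain ⟨i, j, hi, hj, hij, haij⟩ := hA
    have hbij : b i ≠ b j := by
      rcases hkey i j hi hj hij with h | h
      · exact h.2
      · exact absurd haij h.1
    have hall : ∀ k, k ≠ i₀ → a k = a i := by
      intro k hk
      by_contra hne
      have hki : k ≠ i := fun h => hne (h ▸ rfl)
      have hkj : k ≠ j := fun h => hne (by rw [h, haij])
      have h1 : b k = b i := by
        rcases hkey k i hk hi hki with h | h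
        · exact absurd h.1 hne
        · exact h.2
      have h2 : b k = b j := by
        rcases hkey k j hk hj hkj with h | h
        · exact absurd (h.1.trans haij.symm) hne
        · exact h.2
      exact hbij (h1.symm.trans h2)
    refine ⟨-1, Or.inr rfl, fun k => if k = i₀ then a i else b k, ?_, ?_, ?_⟩
    · intro k
      by_cases hk : k = i₀
      · simp only [if_pos hk]; exact ha i
      · simp only [if_neg hk]; exact hb k
    · intro k l hkl
      by_cases hk : k = i₀ <;> by_cases hl : l = i₀
      · rw [hk, hl]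
      · simp only [if_pos hk, if_neg hl] at hkl
        exact absurd ((hall l hl).trans hkl) (hab l hl).1
      · simp only [if_neg hk, if_pos hl] at hkl
        exact absurd ((hall k hk).trans hkl.symm) (hab k hk).1
      · simp only [if_neg hk, if_neg hl] at hkl
        by_contra hne
        rcases hkey k l hk hl hne with h | h
        · exact h.2 hkl
        · exact h.1 ((hall k hk).trans (hall l hl).symm)
    · intro k
      by_cases hk : k = i₀
      · simp only [if_pos hk, if_true, sub_self, smul_zero]
        rw [hk, h0]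
      · simp only [if_neg hk, if_true]
        rw [(hab k hk).2, hall k hk]
        funext g
        simp
  · push Not at hA
    have hbb : ∀ i j, i ≠ i₀ → j ≠ i₀ → b i = b j := by
      intro i j hi hj
      by_cases hij : i = j
      · rw [hij]
      · rcases hkey i j hi hj hij with h | h
        · exact absurd h.1 (hA i j hi hj hij)
        · exact h.2
    by_cases hI : ∃ i, i ≠ i₀
    · obtain ⟨i, hi⟩ := hI
      refine ⟨1, Or.inl rfl, fun k => if k = i₀ then b i else a k, ?_, ?_, ?_⟩
      · intro k
        by_cases hk : k = i₀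
        · simp only [if_pos hk]; exact hb i
        · simp only [if_neg hk]; exact ha k
      · intro k l hkl
        by_cases hk : k = i₀ <;> by_cases hl : l = i₀
        · rw [hk, hl]
        · simp only [if_pos hk, if_neg hl] at hkl
          exact absurd (hkl.symm.trans (hbb i l hi hl)) (hab l hl).1
        · simp only [if_neg hk, if_pos hl] at hkl
          exact absurd (hkl.trans (hbb i k hi hk)) (hab k hk).1
        · simp only [if_neg hk, if_neg hl] at hkl
          by_contra hne
          exact hA k l hk hl hne hkl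
      · intro k
        by_cases hk : k = i₀
        · simp only [if_pos hk, if_true, sub_self, smul_zero]
          rw [hk, h0]
        · simp only [if_neg hk, if_true]
          rw [(hab k hk).2, hbb k i hk hi, one_smul]
    · push Not at hI
      refine ⟨1, Or.inl rfl, fun _ _ => 1, fun _ => isIrrCharacter_one, ?_, ?_⟩
      · intro k l _
        rw [hI k, hI l]
      · intro k
        rw [hI k, h0, sub_self, smul_zero]

end Cfsg.Agent.S0198
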