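import Cfsg.Statements.S0170
import Mathlib
import Cfsg.Agent.S0198
import Cfsg.Agent.S0150

set_option autoImplicit false
open Cfsg

namespace Cfsg.Agent.S0170

open Cfsg.Agent.Lib.Helper2 Cfsg.Agent.Lib.Helper24 Cfsg.Agent.Lib.Lead Cfsg.Agent.Lib.Helper6
open Cfsg.Agent.Lib.Helper23.IndTools
open scoped ComplexConjugate

/-- Exceptional characters. Let S be a subset of a finite group contained in its normalizer N and meeting its conjugates by elements outside N only in the identity. Given n ≥ 2 distinct irreducible characters of N of equal degree that vanish on N away from S, there exist a sign ε and n distinct irreducible characters θ_i of G such that inducing χ_i − χ_j to G gives ε (θ_i − θ_j) for all i, j. -/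
theorem result {G : Type*} [Group G] [Fintype G] (S : Set G) (hSN : S ⊆ Subgroup.normalizer S) (hTI : ∀ g : G, g ∉ Subgroup.normalizer S → ∀ s ∈ S, g * s * g⁻¹ ∈ S → s = 1) (n : ℕ) (hn : 2 ≤ n) (χ : Fin n → (Subgroup.normalizer S → ℂ)) (hirr : ∀ i, Cfsg.IsIrrCharacter (Subgroup.normalizer S) (χ i)) (hinj : Function.Injective χ) (hvan : ∀ i, ∀ x : Subgroup.normalizer S, (x : G) ∉ S → χ i x = 0) (hdeg : ∀ i j, χ i 1 = χ j 1) : ∃ ε : ℂ, (ε = 1 ∨ ε = -1) ∧ ∃ θ : Fin n → (G → ℂ), (∀ i, Cfsg.IsIrrCharacter G (θ i)) ∧ Function.Injective θ ∧ ∀ i j, Cfsg.indFun (Subgroup.normalizer S) (χ i) - Cfsg.indFun (Subgroup.normalizer S) (χ j) = ε • (θ i - θ j) := by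
  classical
  letI : Fintype (Subgroup.normalizer S) := Fintype.ofFinite _
  let i₀ : Fin n := ⟨0, by omega⟩
  let τ : Fin n → (G → ℂ) := fun i => indFun (Subgroup.normalizer S) (χ i - χ i₀)
  have hch : ∀ i, IsCharacter (Subgroup.normalizer S) (χ i) := fun i => IsIrrCharacter.isCharacter (hirr i)
  have hcl : ∀ i, IsClassFunction (Subgroup.normalizer S) (χ i - χ i₀) := by
    intro i g h
    simp only [Pi.sub_apply]
    rw [IsCharacter.isClassFunction (hch i) g h, IsCharacter.isClassFunction (hch i₀) g h]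
  have hv : ∀ i, ∀ x : (Subgroup.normalizer S), (x : G) ∉ S → (χ i - χ i₀) x = 0 := by
    intro i x hx
    simp only [Pi.sub_apply]
    rw [hvan i x hx, hvan i₀ x hx, sub_zero]
  have h1 : ∀ i, (χ i - χ i₀) 1 = 0 := by
    intro i
    simp only [Pi.sub_apply]
    rw [hdeg i i₀, sub_self]
  have h0 : τ i₀ = 0 := by
    simp only [τ]
    rw [indFun_sub, sub_self]
  have hgen : ∀ i, IsGeneralizedCharacter G (τ i) := fun i =>
    genChar_indFun (Subgroup.normalizer S) ⟨χ i, χ i₀, hch i, hch i₀, rfl⟩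
  have hone : ∀ i, τ i 1 = 0 := by
    intro i
    simp only [τ, indFun]
    apply mul_eq_zero_of_right
    apply Finset.sum_eq_zero
    intro x _
    have : x⁻¹ * 1 * x = 1 := by group
    rw [this, extendByZero_mem (Subgroup.normalizer S) _ (Subgroup.normalizer S).one_mem]
    exact h1 i
  have hgram : ∀ i j, i ≠ i₀ → j ≠ i₀ → classInner (τ i) (τ j) = if i = j then 2 else 1 := by
    intro i j hi hj
    simp only [τ]
    rw [Cfsg.Agent.S0150.result S hTI hSN _ _ (hcl i) (hcl j) (hv i) (hv j) (h1 i),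
      classInner_sub_left, classInner_sub_right, classInner_sub_right,
      classInner_irr (hirr i) (hirr j), classInner_irr (hirr i) (hirr i₀),
      classInner_irr (hirr i₀) (hirr j), classInner_irr (hirr i₀) (hirr i₀), if_pos rfl,
      if_neg (show ¬ χ i = χ i₀ from fun h => hi (hinj h)),
      if_neg (show ¬ χ i₀ = χ j from fun h => hj (hinj h.symm))]
    by_cases hij : i = j
    · rw [if_pos hij, if_pos (congrArg χ hij)]; norm_num
    · rw [if_neg hij, if_neg (show ¬ χ i = χ j from fun h => hij (hinj h))]; norm_num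
  obtain ⟨ε, hε, μ, hμ, hμinj, hτ⟩ := Cfsg.Agent.S0198.result n i₀ τ h0 hgen hone hgram
  refine ⟨ε, hε, μ, hμ, hμinj, ?_⟩
  intro i j
  have hi := hτ i
  have hj := hτ j
  simp only [τ] at hi hj
  rw [indFun_sub] at hi hj
  have : indFun (Subgroup.normalizer S) (χ i) - indFun (Subgroup.normalizer S) (χ j) =
      (indFun (Subgroup.normalizer S) (χ i) - indFun (Subgroup.normalizer S) (χ i₀)) - (indFun (Subgroup.normalizer S) (χ j) - indFun (Subgroup.normalizer S) (χ i₀)) := by
    abel
  rw [this, hi, hj, ← smul_sub]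
  congr 1
  abel

end Cfsg.Agent.S0170
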