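import Cfsg.Statements.S0171
import Mathlib
import Cfsg.Agent.Lib.Helper2.Frobenius
import Cfsg.Agent.Lib.Helper2.CharMore
import Cfsg.Agent.S0193
import Cfsg.Agent.S0173

set_option autoImplicit false
open Cfsg

namespace Cfsg.Agent.S0171

/-- Let G = K H with K normal, K ⊓ H trivial, and no non-identity element of H commuting with a non-identity element of K (a Frobenius group with kernel K and complement H). Then every non-principal irreducible character of K induces to an irreducible character of G. -/
theorem result {G : Type*} [Group G] [Fintype G] (K H : Subgroup G) [K.Normal] (hKH : K ⊓ H = ⊥) (hKH' : K ⊔ H = ⊤) (hfpf : ∀ h ∈ H, h ≠ 1 → ∀ k ∈ K, h * k = k * h → k = 1) (τ : K → ℂ) (hτ : Cfsg.IsIrrCharacter K τ) (hτ1 : τ ≠ fun _ => 1) : Cfsg.IsIrrCharacter G (Cfsg.indFun K τ) := by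
  classical
  open Cfsg.Agent.Lib.Helper2 in
  have hK : K.Normal := inferInstance
  apply isIrrCharacter_of_classInner_eq_one (IsCharacter.indFun K (IsIrrCharacter.isCharacter hτ))
  have h193 := Cfsg.Agent.S0193.result K τ hτ
  have hτcl := IsCharacter.isClassFunction (IsIrrCharacter.isCharacter hτ)
  have hset : ∀ g : G, (∀ k : K, τ ⟨g * k * g⁻¹, hK.conj_mem k k.2 g⟩ = τ k) ↔ g ∈ K := by
    intro g
    constructor
    · intro hfix
      by_contra hg
      let α : K ≃* K := MulAut.conjNormal g
      have hα : ∀ k : K, ((α k : K) : G) = g * k * g⁻¹ := fun k => by simp [α]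
      have h173 := Cfsg.Agent.S0173.result α
      have hL : Nat.card {C : ConjClasses K // ConjClasses.map α.toMonoidHom C = C} = 1 := by
        rw [Nat.card_eq_one_iff_unique]
        refine ⟨⟨?_⟩, ⟨⟨ConjClasses.mk 1, by
          show ConjClasses.mk (α.toMonoidHom 1) = ConjClasses.mk 1
          rw [map_one]⟩⟩⟩
        have key : ∀ C : ConjClasses K, ConjClasses.map α.toMonoidHom C = C → C = ConjClasses.mk 1 := by
          intro C hC
          obtain ⟨k, rfl⟩ := ConjClasses.exists_rep C
          have h1 : IsConj (α k) k := ConjClasses.mk_eq_mk_iff_isConj.mp hC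
          obtain ⟨u, hu⟩ := isConj_iff.mp h1
          have hu' : (u : G) * (g * k * g⁻¹) * (u : G)⁻¹ = k := by
            have := congrArg Subtype.val hu
            simpa [hα] using this
          have hcomm : ((u : G) * g) * k = k * ((u : G) * g) := by
            calc ((u : G) * g) * k = ((u : G) * (g * k * g⁻¹) * (u : G)⁻¹) * ((u : G) * g) := by group
              _ = k * ((u : G) * g) := by rw [hu']
          have hug : (u : G) * g ∉ K := by
            intro hmem
            apply hg
            have := K.mul_mem (K.inv_mem u.2) hmem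
            simpa using this
          have hk1 := frobenius_centralizer K H hKH' hfpf hug k.2 hcomm
          have : k = 1 := Subtype.ext hk1
          rw [this]
        rintro ⟨C, hC⟩ ⟨C', hC'⟩
        apply Subtype.ext
        show C = C'
        rw [key C hC, key C' hC']
      rw [hL] at h173
      have h2 := (Nat.card_eq_one_iff_unique.mp h173.symm).1
      have h3 := h2.elim (⟨⟨τ, hτ⟩, by
          ext k
          simp only [Function.comp_apply]
          rw [← hfix k]
          congr 1⟩ : {χ : Cfsg.IrrCharacter K // (χ : K → ℂ) ∘ α = (χ : K → ℂ)})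
        ⟨⟨fun _ => 1, isIrrCharacter_one⟩, rfl⟩
      apply hτ1
      exact congrArg (fun x : {χ : Cfsg.IrrCharacter K // (χ : K → ℂ) ∘ α = (χ : K → ℂ)} => (x.1 : K → ℂ)) h3
    · intro hg k
      exact hτcl k ⟨g, hg⟩
  have hcard : Nat.card {g : G // ∀ k : K, τ ⟨g * k * g⁻¹, hK.conj_mem k k.2 g⟩ = τ k} = Nat.card K :=
    Nat.card_congr (Equiv.subtypeEquivRight hset)
  rw [hcard] at h193
  have hK0 : (Nat.card K : ℂ) ≠ 0 := card_subgroup_ne_zero K
  exact mul_left_cancel₀ hK0 (by rw [h193, mul_one])

end Cfsg.Agent.S0171
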