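import Cfsg.Statements.S0172
import Mathlib

set_option autoImplicit false
open Cfsg

namespace Cfsg.Agent.S0172

open scoped Pointwise

theorem sum_comm (X : Type*) [Group X] [Fintype X] :
    Nat.card (ConjClasses X) * Nat.card X = ∑ x : X, Nat.card {y : X // Commute x y} := by
  rw [← card_comm_eq_card_conjClasses_mul_card,
    Nat.card_congr (Equiv.subtypeProdEquivSigmaSubtype (fun x y : X => Commute x y)), Nat.card_sigma]

theorem card_comm_conj {G : Type*} [Group G] (u h : G) :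
    Nat.card {y : G // Commute (u⁻¹ * h * u) y} = Nat.card {y : G // Commute h y} := by
  apply Nat.card_congr
  apply (MulAut.conj u).toEquiv.subtypeEquiv
  intro y
  show (u⁻¹ * h * u) * y = y * (u⁻¹ * h * u) ↔ h * (u * y * u⁻¹) = (u * y * u⁻¹) * h
  constructor
  · intro e
    have : h * (u * y * u⁻¹) = u * ((u⁻¹ * h * u) * y) * u⁻¹ := by group
    rw [this, e]; group
  · intro e
    have : (u⁻¹ * h * u) * y = u⁻¹ * (h * (u * y * u⁻¹)) * u := by group
    rw [this, e]; group

theorem card_comm_sub {G : Type*} [Group G] (L : Subgroup G) (x : L)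
    (h : ∀ y : G, Commute (x : G) y → y ∈ L) :
    Nat.card {y : G // Commute (x : G) y} = Nat.card {y : L // Commute x y} := by
  apply Nat.card_congr
  refine ⟨fun y => ⟨⟨y.1, h _ y.2⟩, Subtype.ext y.2⟩, fun y => ⟨y.1.1, congrArg Subtype.val y.2⟩,
    fun y => rfl, fun y => rfl⟩

theorem card_comm_one (X : Type*) [Group X] : Nat.card {y : X // Commute (1 : X) y} = Nat.card X := by
  apply Nat.card_congr
  exact Equiv.subtypeUnivEquiv (fun y => Commute.one_left y)

section
variable {G : Type*} [Group G] [Finite G] (K H : Subgroup G) [K.Normal]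

theorem F1 (hfpf : ∀ h ∈ H, h ≠ 1 → ∀ k ∈ K, h * k = k * h → k = 1) (h : G) (hh : h ∈ H) (h1 : h ≠ 1) :
    Function.Bijective (fun u : K => (⟨(u : G)⁻¹ * (h * u * h⁻¹),
      K.mul_mem (K.inv_mem u.2) ((inferInstance : K.Normal).conj_mem _ u.2 h)⟩ : K)) := by
  apply Finite.injective_iff_bijective.mp
  intro u v huv
  have e : (u : G)⁻¹ * (h * u * h⁻¹) = (v : G)⁻¹ * (h * v * h⁻¹) := congrArg Subtype.val huv
  have hc : h * ((v : G) * (u : G)⁻¹) = ((v : G) * (u : G)⁻¹) * h := by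
    have e2 : (v : G) * ((u : G)⁻¹ * (h * u * h⁻¹)) * (h * (u : G)⁻¹) = (v : G) * (u : G)⁻¹ * h := by group
    have e3 : (v : G) * ((v : G)⁻¹ * (h * v * h⁻¹)) * (h * (u : G)⁻¹) = h * ((v : G) * (u : G)⁻¹) := by group
    rw [← e2, ← e3, e]
  have := hfpf h hh h1 _ (K.mul_mem v.2 (K.inv_mem u.2)) hc
  exact Subtype.ext (mul_inv_eq_one.mp this).symm

theorem decomp (hKH' : K ⊔ H = ⊤) (y : G) : ∃ k ∈ K, ∃ h ∈ H, y = k * h := by
  have : y ∈ ((K ⊔ H : Subgroup G) : Set G) := by rw [hKH']; trivial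
  rw [Subgroup.normal_mul] at this
  obtain ⟨k, hk, h, hh, rfl⟩ := this
  exact ⟨k, hk, h, hh, rfl⟩

theorem F2 (hKH' : K ⊔ H = ⊤) (hfpf : ∀ h ∈ H, h ≠ 1 → ∀ k ∈ K, h * k = k * h → k = 1)
    (k : G) (hk : k ∈ K) (k1 : k ≠ 1) (y : G) (hy : Commute k y) : y ∈ K := by
  obtain ⟨k', hk', h', hh', rfl⟩ := decomp K H hKH' y
  by_cases h1 : h' = 1
  · rw [h1, mul_one]; exact hk'
  · exfalso
    obtain ⟨u, hu⟩ := (F1 K H hfpf h' hh' h1).2 ⟨k', hk'⟩
    have hu' : (u : G)⁻¹ * (h' * u * h'⁻¹) = k' := congrArg Subtype.val hu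
    have e : k' * h' = (u : G)⁻¹ * h' * u := by rw [← hu']; group
    have hy' : k * (k' * h') = (k' * h') * k := hy
    rw [e] at hy'
    have hc : h' * ((u : G) * k * (u : G)⁻¹) = ((u : G) * k * (u : G)⁻¹) * h' := by
      have e2 : h' * ((u : G) * k * (u : G)⁻¹) = (u : G) * (((u : G)⁻¹ * h' * u) * k) * (u : G)⁻¹ := by group
      rw [e2, ← hy']; group
    have := hfpf h' hh' h1 _ ((inferInstance : K.Normal).conj_mem _ hk u) hc
    apply k1
    have e3 : (u : G) * k * (u : G)⁻¹ = (u : G) * 1 * (u : G)⁻¹ := by rw [this]; group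
    exact mul_left_cancel (mul_right_cancel e3)

theorem F3 (hKH : K ⊓ H = ⊥) (hKH' : K ⊔ H = ⊤)
    (hfpf : ∀ h ∈ H, h ≠ 1 → ∀ k ∈ K, h * k = k * h → k = 1)
    (h : G) (hh : h ∈ H) (h1 : h ≠ 1) (y : G) (hy : Commute h y) : y ∈ H := by
  obtain ⟨k', hk', h', hh', rfl⟩ := decomp K H hKH' y
  have hy' : h * (k' * h') = (k' * h') * h := hy
  -- h'' = h' h h'⁻¹
  have e1 : k' * (h' * h * h'⁻¹) * k'⁻¹ = h := by
    have : k' * (h' * h * h'⁻¹) * k'⁻¹ = ((k' * h') * h) * (k' * h')⁻¹ := by group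
    rw [this, ← hy']; group
  have hmem : h * (h' * h * h'⁻¹)⁻¹ ∈ K ⊓ H := by
    refine ⟨?_, H.mul_mem hh (H.inv_mem (H.mul_mem (H.mul_mem hh' hh) (H.inv_mem hh')))⟩
    have : h * (h' * h * h'⁻¹)⁻¹ = k' * ((h' * h * h'⁻¹) * k'⁻¹ * (h' * h * h'⁻¹)⁻¹) := by
      nth_rewrite 1 [← e1]; group
    rw [this]
    exact K.mul_mem hk' ((inferInstance : K.Normal).conj_mem _ (K.inv_mem hk') _)
  rw [hKH, Subgroup.mem_bot, mul_inv_eq_one] at hmem
  rw [← hmem] at e1
  have hc : h * k' = k' * h := by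
    have := mul_inv_eq_iff_eq_mul.mp e1
    exact this.symm
  rw [hfpf h hh h1 k' hk' hc, one_mul]
  exact hh'
end

/-- Class number of a Frobenius group: if G = K H with K normal, K ⊓ H trivial and no non-identity element of H commuting with a non-identity element of K, then |H| * k(G) + 1 = |H| * k(H) + k(K), where k denotes the number of conjugacy classes. -/
theorem result {G : Type*} [Group G] [Finite G] (K H : Subgroup G) [K.Normal] (hKH : K ⊓ H = ⊥) (hKH' : K ⊔ H = ⊤) (hfpf : ∀ h ∈ H, h ≠ 1 → ∀ k ∈ K, h * k = k * h → k = 1) : Nat.card H * Nat.card (ConjClasses G) + 1 = Nat.card H * Nat.card (ConjClasses H) + Nat.card (ConjClasses K) := by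
  classical
  haveI := Fintype.ofFinite G
  have hcompl : Subgroup.IsComplement' K H := by
    apply Subgroup.isComplement'_of_disjoint_and_mul_eq_univ (disjoint_iff.mpr hKH)
    rw [← Subgroup.normal_mul, hKH']; rfl
  have hcard : Nat.card K * Nat.card H = Nat.card G := hcompl.card_mul
  set f : G → ℕ := fun x => Nat.card {y : G // Commute x y} with hf
  have hG := sum_comm G
  have hK := sum_comm K
  have hH := sum_comm H
  have e1 : ∑ x : G, f x = ∑ h : H, ∑ k : K, f ((k : G) * (h : G)) := by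
    rw [← (Equiv.ofBijective _ hcompl).sum_comp f, Fintype.sum_prod_type_right]
    rfl
  have e2 : ∀ h : H, h ≠ 1 → ∑ k : K, f ((k : G) * (h : G))
      = Nat.card K * Nat.card {y : H // Commute h y} := by
    intro h h1
    have h1' : (h : G) ≠ 1 := fun e => h1 (Subtype.ext e)
    rw [← (Equiv.ofBijective _ (F1 K H hfpf h h.2 h1')).sum_comp]
    have : ∀ u : K, f (((Equiv.ofBijective _ (F1 K H hfpf h h.2 h1')) u : K) * (h : G))
        = Nat.card {y : H // Commute h y} := by
      intro u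
      have e3 : (((Equiv.ofBijective _ (F1 K H hfpf h h.2 h1')) u : K) : G) * (h : G)
          = (u : G)⁻¹ * h * u := by
        show (u : G)⁻¹ * ((h : G) * u * (h : G)⁻¹) * (h : G) = _
        group
      rw [e3, hf]
      show Nat.card {y : G // Commute ((u : G)⁻¹ * h * u) y} = _
      rw [card_comm_conj, card_comm_sub H h (F3 K H hKH hKH' hfpf h h.2 h1')]
    rw [Finset.sum_congr rfl (fun u _ => this u), Finset.sum_const, Finset.card_univ,
      smul_eq_mul, ← Nat.card_eq_fintype_card (α := ↥K)]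
  have e4 : ∀ k : K, k ≠ 1 → f (k : G) = Nat.card {y : K // Commute k y} := by
    intro k k1
    have k1' : (k : G) ≠ 1 := fun e => k1 (Subtype.ext e)
    exact card_comm_sub K k (F2 K H hKH' hfpf k k.2 k1')
  rw [← Finset.add_sum_erase _ _ (Finset.mem_univ (1 : H))] at e1 hH
  rw [Finset.sum_congr rfl (fun h hh => e2 h (Finset.ne_of_mem_erase hh)), ← Finset.mul_sum] at e1
  simp only [OneMemClass.coe_one, mul_one] at e1
  rw [← Finset.add_sum_erase _ _ (Finset.mem_univ (1 : K))] at e1 hK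
  rw [Finset.sum_congr rfl (fun k hk => e4 k (Finset.ne_of_mem_erase hk))] at e1
  rw [card_comm_one] at hH hK
  have e5 : f ((1 : K) : G) = Nat.card G := card_comm_one G
  rw [e5] at e1
  rw [e1] at hG
  set A := ∑ x ∈ Finset.univ.erase (1 : K), Nat.card {y : K // Commute x y}
  set B := ∑ x ∈ Finset.univ.erase (1 : H), Nat.card {y : H // Commute x y}
  have hKpos : 0 < Nat.card K := Nat.card_pos
  apply Nat.eq_of_mul_eq_mul_left hKpos
  have h1 : Nat.card K * (Nat.card H * Nat.card (ConjClasses G) + 1)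
      = Nat.card (ConjClasses G) * Nat.card G + Nat.card K := by rw [← hcard]; ring
  have h2 : Nat.card K * (Nat.card H * Nat.card (ConjClasses H) + Nat.card (ConjClasses K))
      = Nat.card K * (Nat.card (ConjClasses H) * Nat.card H) + Nat.card (ConjClasses K) * Nat.card K := by
    ring
  rw [h1, h2, hG, hH, hK, ← hcard]
  ring

end Cfsg.Agent.S0172
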