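import Cfsg.Statements.S0180
import Cfsg.Agent.Lib.Helper25.GaloisVal
import Cfsg.Agent.Lib.Helper2.Ortho

set_option autoImplicit false
open Cfsg
open Cfsg.Agent.Lib.Helper2 Cfsg.Agent.Lib.Helper6 Cfsg.Agent.Lib.Helper24 Cfsg.Agent.Lib.Helper25
open scoped ComplexConjugate

namespace Cfsg.Agent.S0180

attribute [local instance] irrFintype

/-- Every irreducible complex character of a finite group takes only rational values if and only if g is conjugate to g ^ m for every element g and every m coprime to the group order. -/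
theorem result {G : Type*} [Group G] [Finite G] : (∀ χ : Cfsg.IrrCharacter G, ∀ g : G, ∃ q : ℚ, (χ : G → ℂ) g = (q : ℂ)) ↔ ∀ m : ℕ, m.Coprime (Nat.card G) → ∀ g : G, IsConj g (g ^ m) := by
  classical
  haveI := Fintype.ofFinite G
  constructor
  · intro h m hm g
    by_contra hcon
    have h1 := column_orthogonality g g
    rw [if_pos (IsConj.refl g)] at h1
    have h2 := column_orthogonality g (g ^ m)
    rw [if_neg hcon] at h2
    have h3 : ∀ χ : IrrCharacter G, (χ : G → ℂ) g * conj ((χ : G → ℂ) (g ^ m))
        = (χ : G → ℂ) g * conj ((χ : G → ℂ) g) := by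
      intro χ
      obtain ⟨q, hq⟩ := h χ g
      rw [GaloisVal.apply_pow_of_rat (IsIrrCharacter.isCharacter χ.2) g q hq hm, hq]
    rw [Finset.sum_congr rfl (fun χ _ => h3 χ), h1] at h2
    have h4 : 0 < Nat.card (Subgroup.centralizer ({g} : Set G)) := Nat.card_pos
    exact h4.ne' (by exact_mod_cast h2)
  · intro h χ g
    apply GaloisVal.rat_of_apply_pow (IsIrrCharacter.isCharacter χ.2) g
    intro m hm
    exact (Cfsg.Agent.Lib.Helper2.IsClassFunction.eq_of_isConj (irr_isClassFunction χ.2) (h m hm g)).symm

end Cfsg.Agent.S0180
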