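import Cfsg.Statements.S0181
import Mathlib
import Cfsg.Agent.Lib.Helper2.Inflation

set_option autoImplicit false
open Cfsg

namespace Cfsg.Agent.S0181

/-- Let H be a normal subgroup of a finite group G and ρ an irreducible complex representation whose kernel does not contain H. If g commutes with no non-identity element of H, then the character of ρ vanishes at g. -/
theorem result {G : Type*} [Group G] [Finite G] {V : Type*} [AddCommGroup V] [Module ℂ V] [FiniteDimensional ℂ V] (ρ : Representation ℂ G V) [ρ.IsIrreducible] (H : Subgroup G) [H.Normal] (hker : ∃ h ∈ H, ρ h ≠ LinearMap.id) (g : G) (hg : ∀ h ∈ H, h * g = g * h → h = 1) : ρ.character g = 0 := by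
  classical
  open Cfsg.Agent.Lib.Helper2 Module in
  cases nonempty_fintype G
  cases nonempty_fintype (G ⧸ H)
  haveI := finite_irr (G := G)
  haveI := finite_irr (G := G ⧸ H)
  cases nonempty_fintype (Cfsg.IrrCharacter G)
  cases nonempty_fintype (Cfsg.IrrCharacter (G ⧸ H))
  let χ₀ : Cfsg.IrrCharacter G := ⟨ρ.character, isIrrCharacter_of_rep ρ inferInstance⟩
  let ι : Cfsg.IrrCharacter (G ⧸ H) → Cfsg.IrrCharacter G :=
    fun ψ => ⟨fun x : G => (ψ : G ⧸ H → ℂ) (x : G ⧸ H), IsIrrCharacter.inflate H ψ.2⟩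
  have hι : Function.Injective ι := by
    intro ψ ψ' h
    apply Subtype.ext
    ext q
    obtain ⟨x, rfl⟩ := QuotientGroup.mk_surjective q
    exact congrArg (fun χ : Cfsg.IrrCharacter G => (χ : G → ℂ) x) h
  have hnot : χ₀ ∉ Finset.univ.image ι := by
    intro hmem
    obtain ⟨ψ, _, hψ⟩ := Finset.mem_image.mp hmem
    obtain ⟨h, hh, hne⟩ := hker
    apply hne
    rw [← char_eq_finrank_iff, ← Representation.char_one ρ]
    have h1 : ∀ x : G, ρ.character x = (ψ : G ⧸ H → ℂ) (x : G ⧸ H) := fun x =>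
      (congrArg (fun χ : Cfsg.IrrCharacter G => (χ : G → ℂ) x) hψ).symm
    rw [h1, h1, (QuotientGroup.eq_one_iff h).mpr hh]
    rfl
  -- column orthogonality as real sums
  have hcolG : ∑ χ : Cfsg.IrrCharacter G, Complex.normSq ((χ : G → ℂ) g) =
      (Nat.card (Subgroup.centralizer ({g} : Set G)) : ℝ) := by
    have h := column_orthogonality g g
    rw [if_pos (IsConj.refl g)] at h
    simp_rw [Complex.mul_conj] at h
    exact_mod_cast h
  have hcolQ : ∑ ψ : Cfsg.IrrCharacter (G ⧸ H), Complex.normSq ((ψ : G ⧸ H → ℂ) (g : G ⧸ H)) =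
      (Nat.card (Subgroup.centralizer ({(g : G ⧸ H)} : Set (G ⧸ H))) : ℝ) := by
    have h := column_orthogonality (g : G ⧸ H) (g : G ⧸ H)
    rw [if_pos (IsConj.refl _)] at h
    simp_rw [Complex.mul_conj] at h
    exact_mod_cast h
  have hcard : Nat.card (Subgroup.centralizer ({g} : Set G)) ≤
      Nat.card (Subgroup.centralizer ({(g : G ⧸ H)} : Set (G ⧸ H))) := by
    apply Nat.card_le_card_of_injective
      (fun x : Subgroup.centralizer ({g} : Set G) =>
        (⟨((x : G) : G ⧸ H), by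
          rw [Subgroup.mem_centralizer_singleton_iff]
          have := Subgroup.mem_centralizer_singleton_iff.mp x.2
          rw [← QuotientGroup.mk_mul, ← QuotientGroup.mk_mul, this]⟩ :
          Subgroup.centralizer ({(g : G ⧸ H)} : Set (G ⧸ H))))
    intro x y hxy
    have h1 : ((x : G) : G ⧸ H) = ((y : G) : G ⧸ H) := congrArg Subtype.val hxy
    rw [QuotientGroup.eq] at h1
    have hx := Subgroup.mem_centralizer_singleton_iff.mp x.2
    have hy := Subgroup.mem_centralizer_singleton_iff.mp y.2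
    have h2 : ((x : G)⁻¹ * y) * g = g * ((x : G)⁻¹ * y) := by
      have hx' : (x : G)⁻¹ * g = g * (x : G)⁻¹ := by
        calc (x : G)⁻¹ * g = (x : G)⁻¹ * (g * x) * (x : G)⁻¹ := by group
          _ = (x : G)⁻¹ * (x * g) * (x : G)⁻¹ := by rw [hx]
          _ = g * (x : G)⁻¹ := by group
      calc ((x : G)⁻¹ * y) * g = (x : G)⁻¹ * (y * g) := by group
        _ = (x : G)⁻¹ * (g * y) := by rw [hy]
        _ = ((x : G)⁻¹ * g) * y := by group
        _ = g * ((x : G)⁻¹ * y) := by rw [hx']; group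
    have h3 := hg _ h1 h2
    exact Subtype.ext (inv_mul_eq_one.mp h3)
  have hsub : ∑ χ ∈ Finset.univ.image ι, Complex.normSq ((χ : G → ℂ) g) + Complex.normSq (ρ.character g) ≤
      ∑ χ : Cfsg.IrrCharacter G, Complex.normSq ((χ : G → ℂ) g) := by
    have h1 : ∑ χ ∈ insert χ₀ (Finset.univ.image ι), Complex.normSq ((χ : G → ℂ) g) ≤
        ∑ χ : Cfsg.IrrCharacter G, Complex.normSq ((χ : G → ℂ) g) :=
      Finset.sum_le_sum_of_subset_of_nonneg (Finset.subset_univ _) (fun _ _ _ => Complex.normSq_nonneg _)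
    rw [Finset.sum_insert hnot] at h1
    linarith
  rw [Finset.sum_image (fun a _ b _ h => hι h)] at hsub
  have h5 : ∑ ψ : Cfsg.IrrCharacter (G ⧸ H), Complex.normSq (((ι ψ : Cfsg.IrrCharacter G) : G → ℂ) g) =
      ∑ ψ : Cfsg.IrrCharacter (G ⧸ H), Complex.normSq ((ψ : G ⧸ H → ℂ) (g : G ⧸ H)) := rfl
  rw [h5, hcolQ, hcolG] at hsub
  have hcard' : (Nat.card (Subgroup.centralizer ({g} : Set G)) : ℝ) ≤
      (Nat.card (Subgroup.centralizer ({(g : G ⧸ H)} : Set (G ⧸ H))) : ℝ) := by exact_mod_cast hcard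
  have h6 : Complex.normSq (ρ.character g) ≤ 0 := by linarith
  exact Complex.normSq_eq_zero.mp (le_antisymm h6 (Complex.normSq_nonneg _))

end Cfsg.Agent.S0181
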