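import Cfsg.Statements.S0184
import Mathlib
import Cfsg.Agent.Lib.Helper2.PermChar
import Cfsg.Agent.Lib.Helper2.Schur
import Cfsg.Agent.Lib.Helper20.Fitting
import Cfsg.Agent.Lib.Helper9.Basic

set_option autoImplicit false
open Cfsg

namespace Cfsg.Agent.S0184

/-- A finite p-group admits a faithful irreducible complex representation if and only if its centre is cyclic. -/
theorem result {G : Type*} [Group G] [Finite G] (p : ℕ) [Fact p.Prime] (hG : IsPGroup p G) : (∃ (n : ℕ) (ρ : Representation ℂ G (Fin n → ℂ)), ρ.IsIrreducible ∧ Function.Injective ρ) ↔ IsCyclic (Subgroup.center G) := by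
  classical
  open Cfsg.Agent.Lib.Helper2 in
  cases nonempty_fintype G
  constructor
  · rintro ⟨n, ρ, hρ, hinj⟩
    haveI := hρ
    haveI : Nontrivial (Fin n → ℂ) := nontrivial_of_isIrreducible ρ
    have hscal : ∀ z : Subgroup.center G, ∃ c : ℂ, ρ z = c • LinearMap.id := by
      intro z
      exact ⟨_, schur_scalar ρ (ρ z) (fun g => by
        show ρ z * ρ g = ρ g * ρ z
        rw [← map_mul, ← map_mul, (Subgroup.mem_center_iff.mp z.2 g)])⟩
    choose c hc using hscal
    have hid : (LinearMap.id : (Fin n → ℂ) →ₗ[ℂ] (Fin n → ℂ)) ≠ 0 := by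
      intro h
      obtain ⟨v, hv⟩ := exists_ne (0 : Fin n → ℂ)
      apply hv
      have := congrArg (fun T : (Fin n → ℂ) →ₗ[ℂ] (Fin n → ℂ) => T v) h
      simpa using this
    have hcinj : ∀ a b : ℂ, a • (LinearMap.id : (Fin n → ℂ) →ₗ[ℂ] (Fin n → ℂ)) = b • LinearMap.id → a = b :=
      fun a b h => smul_left_injective ℂ hid h
    let f : Subgroup.center G →* ℂ :=
      { toFun := c
        map_one' := by
          apply hcinj
          rw [← hc, one_smul]
          exact map_one ρ
        map_mul' := by
          intro z w
          apply hcinj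
          rw [← hc]
          show ρ ((z : G) * (w : G)) = _
          rw [map_mul, hc, hc]
          ext v
          simp [mul_smul]
          ring }
    apply isCyclic_of_injective_ringHom f
    intro z w hzw
    have h1 : c z = c w := hzw
    apply Subtype.ext
    apply hinj
    rw [hc, hc, h1]
  · intro hcyc
    by_cases hG1 : Subsingleton G
    · refine ⟨1, 1, isIrreducible_of_finrank_eq_one _ (by simp), ?_⟩
      intro a b _
      exact Subsingleton.elim a b
    · rw [not_subsingleton_iff_nontrivial] at hG1
      haveI := finite_irr (G := G)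
      cases nonempty_fintype (Cfsg.IrrCharacter G)
      haveI := hG.center_nontrivial
      have hpZ : p ∣ Nat.card (Subgroup.center G) := by
        obtain ⟨k, hk⟩ := (hG.to_subgroup (Subgroup.center G)).exists_card_eq
        rcases k with _ | k
        · rw [pow_zero] at hk
          have := Finite.one_lt_card (α := Subgroup.center G)
          omega
        · rw [hk]
          exact dvd_pow_self p (by omega)
      obtain ⟨w, hw⟩ := exists_prime_orderOf_dvd_card' p hpZ
      have hw1 : (w : G) ≠ 1 := by
        intro h
        have : w = 1 := Subtype.ext h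
        rw [this, orderOf_one] at hw
        exact (Fact.out : p.Prime).one_lt.ne hw
      have hex : ∃ χ : Cfsg.IrrCharacter G, (χ : G → ℂ) w ≠ (χ : G → ℂ) 1 := by
        by_contra hcon
        push Not at hcon
        have h1 := sum_degree_mul_irr (G := G) (w : G)
        rw [if_neg hw1] at h1
        have h2 := sum_degree_sq (G := G)
        have h3 : ∑ χ : Cfsg.IrrCharacter G, (χ : G → ℂ) 1 * (χ : G → ℂ) w =
            ∑ χ : Cfsg.IrrCharacter G, (χ : G → ℂ) 1 ^ 2 :=
          Finset.sum_congr rfl fun χ _ => by rw [hcon χ, pow_two]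
        rw [h3, h2] at h1
        exact card_ne_zero_complex h1
      obtain ⟨χ, hχ⟩ := hex
      obtain ⟨n, ρ, hρ, hχρ⟩ := χ.2
      refine ⟨n, ρ, hρ, ?_⟩
      rw [← MonoidHom.ker_eq_bot_iff]
      by_contra hker
      haveI : Group.IsNilpotent G := hG.isNilpotent
      obtain ⟨x, hxk, hxZ, hx1⟩ := Lib.Helper20.normal_inf_center_ne_bot (MonoidHom.ker ρ) hker
      -- an element of order `p` in `ker ρ ⊓ Z(G)`
      let M : Subgroup (Subgroup.center G) := (MonoidHom.ker ρ).subgroupOf (Subgroup.center G)
      have hM : p ∣ Nat.card M := by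
        obtain ⟨k, hk⟩ := ((hG.to_subgroup (Subgroup.center G)).to_subgroup M).exists_card_eq
        rcases k with _ | k
        · exfalso
          rw [pow_zero] at hk
          have hbot := Subgroup.card_eq_one.mp hk
          have hmem : (⟨x, hxZ⟩ : Subgroup.center G) ∈ M := hxk
          rw [hbot, Subgroup.mem_bot] at hmem
          exact hx1 (congrArg Subtype.val hmem)
        · rw [hk]
          exact dvd_pow_self p (by omega)
      obtain ⟨⟨u, huM⟩, hu⟩ := exists_prime_orderOf_dvd_card' p hM
      rw [Subgroup.orderOf_mk] at hu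
      have heq : Subgroup.zpowers u = Subgroup.zpowers w :=
        Lib.Helper9.eq_of_card_eq_of_isCyclic (by rw [Nat.card_zpowers, Nat.card_zpowers, hu, hw])
      have hwM : w ∈ M := by
        have h1 : w ∈ Subgroup.zpowers u := heq ▸ Subgroup.mem_zpowers w
        exact (Subgroup.zpowers_le.mpr huM) h1
      have hρw : ρ (w : G) = 1 := hwM
      apply hχ
      rw [← hχρ]
      show LinearMap.trace ℂ _ (ρ (w : G)) = LinearMap.trace ℂ _ (ρ 1)
      rw [hρw, map_one ρ]

end Cfsg.Agent.S0184
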