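import Cfsg.Statements.S0185
import Mathlib
import Cfsg.Agent.S0135
import Cfsg.Agent.Lib.Helper2.Integral
import Cfsg.Agent.Lib.Helper2.Linear

set_option autoImplicit false
open Cfsg

namespace Cfsg.Agent.S0185

/-- If a finite group has a faithful complex representation of degree less than the smallest prime dividing its order, the group is abelian. -/
theorem result {G : Type*} [Group G] [Finite G] {V : Type*} [AddCommGroup V] [Module ℂ V] [FiniteDimensional ℂ V] (ρ : Representation ℂ G V) (hfaithful : Function.Injective ρ) (hdeg : ∀ p : ℕ, p.Prime → p ∣ Nat.card G → Module.finrank ℂ V < p) (a b : G) : a * b = b * a := by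
  classical
  open Cfsg.Agent.Lib.Helper2 Module in
  apply hfaithful
  rw [map_mul, map_mul]
  -- the two operators agree on every irreducible subrepresentation
  have hker : (⊤ : Submodule ℂ V) ≤ LinearMap.ker (ρ a * ρ b - ρ b * ρ a) := by
    rw [← iSup_irreducible_eq_top (ρ := ρ)]
    refine iSup₂_le fun W hW => ?_
    haveI := hW
    have hdvd : finrank ℂ W.toSubmodule ∣ Nat.card G := Cfsg.Agent.S0135.result W.toRepresentation
    have hle : finrank ℂ W.toSubmodule ≤ finrank ℂ V := Submodule.finrank_le _
    have h1 : finrank ℂ W.toSubmodule = 1 := by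
      by_contra hne
      obtain ⟨p, hp, hpd⟩ := Nat.exists_prime_and_dvd hne
      have h2 := hdeg p hp (hpd.trans hdvd)
      have h3 : p ≤ finrank ℂ W.toSubmodule :=
        Nat.le_of_dvd (finrank_pos_of_isIrreducible W.toRepresentation) hpd
      omega
    intro w hw
    have ha := end_eq_trace_smul_of_finrank_eq_one h1 (W.toRepresentation a)
    have hb := end_eq_trace_smul_of_finrank_eq_one h1 (W.toRepresentation b)
    have ha' : ∀ x : W.toSubmodule, ρ a x = (LinearMap.trace ℂ _ (W.toRepresentation a)) • (x : V) := by
      intro x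
      have := congrArg (fun T => ((T x : W.toSubmodule) : V)) ha
      exact this
    have hb' : ∀ x : W.toSubmodule, ρ b x = (LinearMap.trace ℂ _ (W.toRepresentation b)) • (x : V) := by
      intro x
      have := congrArg (fun T => ((T x : W.toSubmodule) : V)) hb
      exact this
    rw [LinearMap.mem_ker, LinearMap.sub_apply, Module.End.mul_apply, Module.End.mul_apply]
    rw [hb' ⟨w, hw⟩, ha' ⟨w, hw⟩, map_smul, map_smul, hb' ⟨w, hw⟩, ha' ⟨w, hw⟩, smul_comm, sub_self]
  have : ρ a * ρ b - ρ b * ρ a = 0 := by
    ext v
    exact hker (Submodule.mem_top (x := v))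
  exact sub_eq_zero.mp this

end Cfsg.Agent.S0185
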