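import Cfsg.Statements.S0186
import Mathlib
import Cfsg.Agent.Lib.Helper2.PermChar
import Cfsg.Agent.S0185

set_option autoImplicit false
open Cfsg

namespace Cfsg.Agent.S0186

open Cfsg.Agent.Lib.Helper2 in
/-- A nonprincipal irreducible representation of a simple group is faithful. -/
theorem faithful_of_simple {G : Type*} [Group G] [Fintype G] [IsSimpleGroup G] {d : ℕ}
    (ρ : Representation ℂ G (Fin d → ℂ)) (hρ : ρ.IsIrreducible)
    (hne : ρ.character ≠ fun _ => 1) : Function.Injective ρ := by
  classical
  rw [← MonoidHom.ker_eq_bot_iff]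
  rcases (inferInstance : (MonoidHom.ker ρ).Normal).eq_bot_or_eq_top with h | h
  · exact h
  · exfalso
    have htriv : ∀ g, ρ g = 1 := fun g => by
      have : g ∈ MonoidHom.ker ρ := h ▸ Subgroup.mem_top g
      exact this
    have hχ : IsIrrCharacter G ρ.character := ⟨d, ρ, hρ, rfl⟩
    have hval : ∀ g, ρ.character g = (d : ℂ) := by
      intro g
      rw [Representation.character, htriv]
      simp
    have h1 := classInner_irr hχ isIrrCharacter_one
    rw [if_neg hne, Cfsg.classInner] at h1
    simp only [hval, map_one, mul_one, Finset.sum_const, Finset.card_univ, nsmul_eq_mul] at h1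
    rw [Nat.card_eq_fintype_card] at h1
    have hG : (Fintype.card G : ℂ) ≠ 0 := by exact_mod_cast Fintype.card_ne_zero
    have hd0 : (d : ℂ) = 0 := by
      field_simp at h1
      exact h1
    haveI := hρ
    have hpos := finrank_pos_of_isIrreducible ρ
    simp at hpos
    have : d = 0 := by exact_mod_cast hd0
    omega

/-- Let G be a finite simple group of order n and p a prime dividing n. If G has more than n / p^2 conjugacy classes, then every Sylow p-subgroup of G is abelian. -/
theorem result {G : Type*} [Group G] [Finite G] [IsSimpleGroup G] (p : ℕ) [Fact p.Prime] (hp : p ∣ Nat.card G) (hmany : Nat.card G < p ^ 2 * Nat.card (ConjClasses G)) (P : Sylow p G) (a b : G) (ha : a ∈ P) (hb : b ∈ P) : a * b = b * a := by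
  classical
  open Cfsg.Agent.Lib.Helper2 in
  cases nonempty_fintype G
  haveI := finite_irr (G := G)
  cases nonempty_fintype (Cfsg.IrrCharacter G)
  have hpp : p.Prime := Fact.out
  by_cases hp2 : p ^ 2 ∣ Nat.card G
  · -- a nonprincipal irreducible character of degree `< p`
    have hdeg : ∀ χ : Cfsg.IrrCharacter G, ∃ n : ℕ, (χ : G → ℂ) 1 = n :=
      fun χ => IsCharacter.apply_one (IsIrrCharacter.isCharacter χ.2)
    choose d hd using hdeg
    have hsum : ∑ χ : Cfsg.IrrCharacter G, d χ ^ 2 = Nat.card G := by
      have h := sum_degree_sq (G := G)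
      simp_rw [hd] at h
      exact_mod_cast h
    let one : Cfsg.IrrCharacter G := ⟨fun _ => 1, isIrrCharacter_one⟩
    have hd1 : d one = 1 := by
      have := hd one
      have h1 : (one : G → ℂ) 1 = 1 := rfl
      rw [h1] at this
      exact_mod_cast this.symm
    have hex : ∃ χ : Cfsg.IrrCharacter G, χ ≠ one ∧ d χ < p := by
      by_contra hcon
      push Not at hcon
      have h1 : 1 + (Fintype.card (Cfsg.IrrCharacter G) - 1) * p ^ 2 ≤ Nat.card G := by
        rw [← hsum, ← Finset.add_sum_erase _ _ (Finset.mem_univ one), hd1]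
        have h2 : (Finset.univ.erase one).card • p ^ 2 ≤ ∑ χ ∈ Finset.univ.erase one, d χ ^ 2 := by
          apply Finset.card_nsmul_le_sum
          intro χ hχ
          exact Nat.pow_le_pow_left (hcon χ (Finset.mem_erase.mp hχ).1) 2
        rw [Finset.card_erase_of_mem (Finset.mem_univ one), Finset.card_univ, smul_eq_mul] at h2
        omega
      obtain ⟨m, hm⟩ := hp2
      rw [← card_irr_eq_card_conjClasses, Nat.card_eq_fintype_card (α := Cfsg.IrrCharacter G), hm] at hmany
      have h3 : m < Fintype.card (Cfsg.IrrCharacter G) := Nat.lt_of_mul_lt_mul_left hmany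
      rw [hm] at h1
      have h4 : m * p ^ 2 ≤ (Fintype.card (Cfsg.IrrCharacter G) - 1) * p ^ 2 :=
        Nat.mul_le_mul_right _ (by omega)
      have h5 : p ^ 2 * m = m * p ^ 2 := mul_comm _ _
      omega
    obtain ⟨χ, hχ1, hχp⟩ := hex
    obtain ⟨n, ρ, hρ, hχρ⟩ := χ.2
    have hne : ρ.character ≠ fun _ => 1 := by
      intro h
      apply hχ1
      apply Subtype.ext
      rw [← hχρ, h]
    have hinj := faithful_of_simple ρ hρ hne
    have hn : n = d χ := by
      have h1 := hd χ
      rw [← hχρ, Representation.char_one] at h1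
      simp at h1
      exact h1
    let σ : Representation ℂ (P : Subgroup G) (Fin n → ℂ) := ρ.comp (P : Subgroup G).subtype
    have hσ : Function.Injective σ := hinj.comp (Subgroup.subtype_injective _)
    have := S0185.result σ hσ (by
      intro q hq hqP
      obtain ⟨k, hk⟩ := P.2.exists_card_eq
      have hk' : Nat.card (P : Subgroup G) = p ^ k := hk
      rw [hk'] at hqP
      have hqp : q = p := (Nat.prime_dvd_prime_iff_eq hq hpp).mp (hq.dvd_of_dvd_pow hqP)
      rw [hqp]
      simp
      omega) ⟨a, ha⟩ ⟨b, hb⟩
    exact congrArg Subtype.val this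
  · obtain ⟨k, hk⟩ := P.2.exists_card_eq
    have hk' : Nat.card (P : Subgroup G) = p ^ k := hk
    have hdvd : p ^ k ∣ Nat.card G := hk' ▸ Subgroup.card_subgroup_dvd_card _
    have hk1 : k ≤ 1 := by
      by_contra hcon
      exact hp2 ((pow_dvd_pow p (by omega)).trans hdvd)
    have hcyc : IsCyclic (P : Subgroup G) := by
      interval_cases k
      · rw [pow_zero] at hk'
        haveI : Subsingleton (P : Subgroup G) := (Nat.card_eq_one_iff_unique.mp hk').1
        infer_instance
      · rw [pow_one] at hk'
        exact isCyclic_of_prime_card hk'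
    have := (IsCyclic.commGroup (α := (P : Subgroup G))).mul_comm ⟨a, ha⟩ ⟨b, hb⟩
    exact congrArg Subtype.val this

end Cfsg.Agent.S0186
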