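import Cfsg.Statements.S0188
import Mathlib
import Cfsg.Agent.Lib.Helper2.Clifford

set_option autoImplicit false
open Cfsg

namespace Cfsg.Agent.S0188

open Cfsg.Agent.Lib.Helper2 in
theorem classInner_prod {G : Type*} [Group G] [Fintype G] {H : Type*} [Group H] [Fintype H]
    (φ φ' : G → ℂ) (ψ ψ' : H → ℂ) :
    Cfsg.classInner (fun x : G × H => φ x.1 * ψ x.2) (fun x : G × H => φ' x.1 * ψ' x.2) =
      Cfsg.classInner φ φ' * Cfsg.classInner ψ ψ' := by
  simp only [Cfsg.classInner, Nat.card_prod, Nat.cast_mul, map_mul]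
  rw [Fintype.sum_prod_type]
  have : ∀ (x : G), ∑ y : H, φ x * ψ y * ((starRingEnd ℂ) (φ' x) * (starRingEnd ℂ) (ψ' y)) =
      (φ x * (starRingEnd ℂ) (φ' x)) * ∑ y : H, ψ y * (starRingEnd ℂ) (ψ' y) := by
    intro x
    rw [Finset.mul_sum]
    refine Finset.sum_congr rfl fun y _ => ?_
    ring
  simp_rw [this]
  rw [← Finset.sum_mul, mul_inv]
  ring

open Cfsg.Agent.Lib.Helper2 in
theorem isIrr_prod {G : Type*} [Group G] [Fintype G] {H : Type*} [Group H] [Fintype H]
    {φ : G → ℂ} {ψ : H → ℂ} (hφ : Cfsg.IsIrrCharacter G φ) (hψ : Cfsg.IsIrrCharacter H ψ) :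
    Cfsg.IsIrrCharacter (G × H) (fun x => φ x.1 * ψ x.2) := by
  classical
  apply isIrrCharacter_of_classInner_eq_one
  · exact IsCharacter.mul (IsCharacter.comp_hom (MonoidHom.fst G H) (IsIrrCharacter.isCharacter hφ))
      (IsCharacter.comp_hom (MonoidHom.snd G H) (IsIrrCharacter.isCharacter hψ))
  · rw [classInner_prod, classInner_irr hφ hφ, classInner_irr hψ hψ, if_pos rfl, if_pos rfl, one_mul]

/-- The irreducible complex characters of G × H are precisely the functions (g, h) ↦ φ g * ψ h with φ, ψ irreducible characters of G and H. -/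
theorem result {G : Type*} [Group G] [Finite G] {H : Type*} [Group H] [Finite H] (θ : G × H → ℂ) : Cfsg.IsIrrCharacter (G × H) θ ↔ ∃ (φ : G → ℂ) (ψ : H → ℂ), Cfsg.IsIrrCharacter G φ ∧ Cfsg.IsIrrCharacter H ψ ∧ θ = fun x => φ x.1 * ψ x.2 := by
  classical
  open Cfsg.Agent.Lib.Helper2 in
  cases nonempty_fintype G
  cases nonempty_fintype H
  haveI := finite_irr (G := G)
  haveI := finite_irr (G := H)
  haveI := finite_irr (G := G × H)
  cases nonempty_fintype (Cfsg.IrrCharacter G)
  cases nonempty_fintype (Cfsg.IrrCharacter H)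
  cases nonempty_fintype (Cfsg.IrrCharacter (G × H))
  constructor
  · intro hθ
    by_contra hcon
    push Not at hcon
    -- the product map
    let f : Cfsg.IrrCharacter G × Cfsg.IrrCharacter H → Cfsg.IrrCharacter (G × H) :=
      fun p => ⟨fun x => (p.1 : G → ℂ) x.1 * (p.2 : H → ℂ) x.2, isIrr_prod p.1.2 p.2.2⟩
    have hf : Function.Injective f := by
      intro p q hpq
      have h1 : Cfsg.classInner ((f p : G × H → ℂ)) (f q) = 1 := by
        rw [hpq, classInner_irr (f q).2 (f q).2, if_pos rfl]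
      have h2 : Cfsg.classInner ((f p : G × H → ℂ)) (f q) =
          Cfsg.classInner (p.1 : G → ℂ) q.1 * Cfsg.classInner (p.2 : H → ℂ) q.2 := classInner_prod _ _ _ _
      rw [h1, classInner_irr p.1.2 q.1.2, classInner_irr p.2.2 q.2.2] at h2
      by_cases ha : (p.1 : G → ℂ) = q.1
      · by_cases hb : (p.2 : H → ℂ) = q.2
        · exact Prod.ext (Subtype.ext ha) (Subtype.ext hb)
        · rw [if_neg hb, mul_zero] at h2
          exact absurd h2 one_ne_zero
      · rw [if_neg ha, zero_mul] at h2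
        exact absurd h2 one_ne_zero
    have hnot : (⟨θ, hθ⟩ : Cfsg.IrrCharacter (G × H)) ∉ Finset.univ.image f := by
      intro hmem
      obtain ⟨p, _, hp⟩ := Finset.mem_image.mp hmem
      exact hcon p.1 p.2 p.1.2 p.2.2 (congrArg Subtype.val hp).symm
    -- degrees as naturals
    have hdeg : ∀ χ : Cfsg.IrrCharacter (G × H), ∃ n : ℕ, (χ : G × H → ℂ) 1 = n ∧ 0 < n := by
      intro χ
      obtain ⟨n, ρ, hρ, hχ⟩ := χ.2
      haveI := hρ
      exact ⟨_, by rw [← hχ, Representation.char_one], finrank_pos_of_isIrreducible ρ⟩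
    choose d hd hdpos using hdeg
    have hsum : ∑ χ : Cfsg.IrrCharacter (G × H), (d χ) ^ 2 = Nat.card G * Nat.card H := by
      have := sum_degree_sq (G := G × H)
      simp_rw [hd] at this
      rw [Nat.card_prod] at this
      exact_mod_cast this
    have hsum2 : ∑ χ ∈ Finset.univ.image f, (d χ) ^ 2 = Nat.card G * Nat.card H := by
      rw [Finset.sum_image (fun a _ b _ h => hf h)]
      have h1 := sum_degree_sq (G := G)
      have h2 := sum_degree_sq (G := H)
      have h3 : ((∑ p : Cfsg.IrrCharacter G × Cfsg.IrrCharacter H, (d (f p)) ^ 2 : ℕ) : ℂ) =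
          (Nat.card G : ℂ) * (Nat.card H : ℂ) := by
        push_cast
        simp_rw [← hd]
        rw [← h1, ← h2, Fintype.sum_prod_type, Finset.sum_mul_sum]
        refine Finset.sum_congr rfl fun a _ => Finset.sum_congr rfl fun b _ => ?_
        simp only [f, Prod.fst_one, Prod.snd_one]
        ring
      exact_mod_cast h3
    have hlt : ∑ χ ∈ Finset.univ.image f, (d χ) ^ 2 < ∑ χ : Cfsg.IrrCharacter (G × H), (d χ) ^ 2 := by
      apply Finset.sum_lt_sum_of_subset (Finset.subset_univ _) (Finset.mem_univ ⟨θ, hθ⟩) hnot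
      · exact pow_pos (hdpos _) 2
      · intro j _ _
        exact Nat.zero_le _
    omega
  · rintro ⟨φ, ψ, hφ, hψ, rfl⟩
    exact isIrr_prod hφ hψ

end Cfsg.Agent.S0188
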