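import Cfsg.Statements.S0189
import Cfsg.Agent.Lib.Helper2.PermChar

set_option autoImplicit false
open Cfsg

namespace Cfsg.Agent.S0189

/-- If a complex character of a finite group vanishes at every non-identity element of a Sylow p-subgroup P, then |P| divides its degree. -/
theorem result {G : Type*} [Group G] [Finite G] (p : ℕ) [Fact p.Prime] (P : Sylow p G) (χ : G → ℂ) (hχ : Cfsg.IsCharacter G χ) (hvan : ∀ g : G, g ∈ P → g ≠ 1 → χ g = 0) : ∃ k : ℕ, χ 1 = (Nat.card P : ℂ) * k := by
  classical
  open Cfsg.Agent.Lib.Helper2 in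
  cases nonempty_fintype G
  obtain ⟨k, hk⟩ := IsCharacter.classInner_nat (IsCharacter.restrict (P : Subgroup G) hχ)
    (IsIrrCharacter.isCharacter (isIrrCharacter_one (G := (P : Subgroup G))))
  refine ⟨k, ?_⟩
  rw [← hk, Cfsg.classInner, Finset.sum_eq_single 1]
  · have hP : (Nat.card (P : Subgroup G) : ℂ) ≠ 0 := card_subgroup_ne_zero _
    simp only [map_one, mul_one, OneMemClass.coe_one]
    rw [← mul_assoc]
    have : (Nat.card P : ℂ) = (Nat.card (P : Subgroup G) : ℂ) := rfl
    rw [this, mul_inv_cancel₀ hP, one_mul]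
  · intro g _ hg
    rw [hvan g g.2 (fun h => hg (Subtype.ext h)), zero_mul]
  · intro h; exact absurd (Finset.mem_univ _) h

end Cfsg.Agent.S0189
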