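import Cfsg.Statements.S0190
import Cfsg.Agent.Lib.Helper2.Induction

set_option autoImplicit false
open Cfsg

namespace Cfsg.Agent.S0190

/-- For a transitive action of a finite group on X, the permutation character g ↦ (number of fixed points of g) is the function induced from the principal character of the stabilizer of any point. -/
theorem result {G : Type*} [Group G] [Fintype G] (X : Type*) [MulAction G X] [Finite X] [MulAction.IsPretransitive G X] (x : X) : (fun g : G => (Nat.card (MulAction.fixedBy X g) : ℂ)) = Cfsg.indFun (MulAction.stabilizer G x) (fun _ => 1) := by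
  classical
  open Cfsg.Agent.Lib.Helper2 in
  cases nonempty_fintype X
  ext g
  have key : ∀ y : G, Cfsg.extendByZero (MulAction.stabilizer G x) (fun _ => 1) (y⁻¹ * g * y) =
      if g • (y • x) = y • x then 1 else 0 := by
    intro y
    have hiff : y⁻¹ * g * y ∈ MulAction.stabilizer G x ↔ g • (y • x) = y • x := by
      rw [MulAction.mem_stabilizer_iff, mul_smul, mul_smul, inv_smul_eq_iff]
    by_cases hy : g • (y • x) = y • x
    · rw [if_pos hy, extendByZero_mem _ _ (hiff.mpr hy)]
    · rw [if_neg hy, extendByZero_not_mem _ _ (fun h => hy (hiff.mp h))]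
  simp only [Cfsg.indFun, key]
  rw [← Finset.sum_filter, Finset.sum_const, nsmul_eq_mul, mul_one]
  set A := Finset.univ.filter (fun y : G => g • (y • x) = y • x) with hA
  set B := Finset.univ.filter (fun z : X => g • z = z) with hB
  have hmaps : ∀ y ∈ A, y • x ∈ B := by
    intro y hy
    simp only [hA, hB, Finset.mem_filter, Finset.mem_univ, true_and] at hy ⊢
    exact hy
  have h1 := Finset.card_eq_sum_card_fiberwise hmaps
  have h2 : ∀ z ∈ B, (A.filter (fun y => y • x = z)).card = Nat.card (MulAction.stabilizer G x) := by
    intro z hz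
    obtain ⟨y0, rfl⟩ := MulAction.exists_smul_eq G x z
    rw [Nat.card_eq_fintype_card, ← Finset.card_univ]
    symm
    apply Finset.card_bij (fun (s : MulAction.stabilizer G x) _ => y0 * s)
    · intro s _
      simp only [hA, hB, Finset.mem_filter, Finset.mem_univ, true_and] at hz ⊢
      have hs : (s : G) • x = x := s.2
      rw [mul_smul, hs]
      exact ⟨hz, rfl⟩
    · intro s _ s' _ h
      exact Subtype.ext (mul_left_cancel h)
    · intro y hy
      simp only [Finset.mem_filter] at hy
      refine ⟨⟨y0⁻¹ * y, ?_⟩, Finset.mem_univ _, by simp⟩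
      rw [MulAction.mem_stabilizer_iff, mul_smul, hy.2, inv_smul_smul]
  rw [Finset.sum_congr rfl h2, Finset.sum_const, smul_eq_mul] at h1
  have h3 : Nat.card (MulAction.fixedBy X g) = B.card := by
    rw [Nat.card_eq_fintype_card, hB, ← Fintype.card_subtype]
    rfl
  rw [h1, h3]
  push_cast
  have hS : (Nat.card (MulAction.stabilizer G x) : ℂ) ≠ 0 := card_subgroup_ne_zero _
  field_simp

end Cfsg.Agent.S0190
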