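import Cfsg.Statements.S0191
import Cfsg.Agent.Lib.Helper24.Zeros
-- import your own Cfsg.Agent.* helpers here

set_option autoImplicit false
open Cfsg

namespace Cfsg.Agent.S0191

open Cfsg.Agent.Lib.Helper24 Cfsg.Agent.Lib.Helper2 Cfsg.Agent.Lib.Helper6

/-- An irreducible complex representation of a finite group of degree greater than 1 has a character that vanishes somewhere. -/
theorem result {G : Type*} [Group G] [Finite G] {V : Type*} [AddCommGroup V] [Module ℂ V] [FiniteDimensional ℂ V] (ρ : Representation ℂ G V) [ρ.IsIrreducible] (hdeg : 1 < Module.finrank ℂ V) : ∃ g : G, ρ.character g = 0 := by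
  classical
  cases nonempty_fintype G
  have hirr : IsIrrCharacter G ρ.character := isIrrCharacter_of_rep ρ inferInstance
  have hc := IsIrrCharacter.isCharacter hirr
  have hd : charDegree ρ.character = Module.finrank ℂ V := by
    have h1 := charDegree_cast hc
    rw [Representation.char_one] at h1
    exact_mod_cast h1
  have h := card_zeros_ge hirr
  have h1 : 0 < (Finset.univ.filter
      (fun g : G => ‖ρ.character g‖ = (charDegree ρ.character : ℝ))).card := by
    apply Finset.card_pos.mpr
    refine ⟨1, ?_⟩
    simp only [Finset.mem_filter, Finset.mem_univ, true_and]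
    rw [← charDegree_cast hc, Complex.norm_natCast]
  have h2 : 0 < charDegree ρ.character ^ 2 - 1 := by
    rw [hd]
    have : 2 ^ 2 ≤ Module.finrank ℂ V ^ 2 := Nat.pow_le_pow_left hdeg 2
    omega
  have h3 : 0 < (Finset.univ.filter (fun g : G => ρ.character g = 0)).card :=
    lt_of_lt_of_le (Nat.mul_pos h2 h1) h
  obtain ⟨g, hg⟩ := Finset.card_pos.mp h3
  exact ⟨g, (Finset.mem_filter.mp hg).2⟩

end Cfsg.Agent.S0191
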