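import Cfsg.Statements.S0192
import Mathlib
import Cfsg.Agent.Lib.Helper2.Clifford

set_option autoImplicit false
open Cfsg

namespace Cfsg.Agent.S0192

open Cfsg.Agent.Lib.Helper2 Module in
theorem classInner_restrict_one {G : Type*} [Group G] {V : Type*} [AddCommGroup V] [Module ℂ V]
    [FiniteDimensional ℂ V] (ρ : Representation ℂ G V) (H : Subgroup G) [Fintype H] :
    Cfsg.classInner (fun x : H => ρ.character x) (fun _ => 1) =
      (finrank ℂ (Representation.invariants (ρ.comp H.subtype)) : ℂ) := by
  letI := invertibleCard (G := H)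
  rw [← Representation.card_inv_mul_sum_char_eq_finrank, Cfsg.classInner]
  simp
  rfl

/-- Brauer's generation criterion. Let G be a finite simple group, H₁ and H₂ subgroups, and χ a non-principal irreducible character. If the multiplicity of the principal character in χ restricted to H₁ ⊓ H₂ is less than the sum of the corresponding multiplicities for H₁ and H₂, then H₁ and H₂ do not generate G. -/
theorem result {G : Type*} [Group G] [Fintype G] [IsSimpleGroup G] (H₁ H₂ : Subgroup G) [Fintype H₁] [Fintype H₂] [Fintype ↥(H₁ ⊓ H₂)] (χ : G → ℂ) (hχ : Cfsg.IsIrrCharacter G χ) (hχ1 : χ ≠ fun _ => 1) (hlt : (Cfsg.classInner (fun x : ↥(H₁ ⊓ H₂) => χ x) (fun _ => 1)).re < (Cfsg.classInner (fun x : H₁ => χ x) (fun _ => 1)).re + (Cfsg.classInner (fun x : H₂ => χ x) (fun _ => 1)).re) : H₁ ⊔ H₂ ≠ ⊤ := by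
  classical
  open Cfsg.Agent.Lib.Helper2 Module in
  intro htop
  obtain ⟨n, ρ, hρ, rfl⟩ := hχ
  rw [classInner_restrict_one, classInner_restrict_one, classInner_restrict_one] at hlt
  simp only [Complex.natCast_re] at hlt
  have hlt' : finrank ℂ (Representation.invariants (ρ.comp (H₁ ⊓ H₂).subtype)) <
      finrank ℂ (Representation.invariants (ρ.comp H₁.subtype)) +
      finrank ℂ (Representation.invariants (ρ.comp H₂.subtype)) := by exact_mod_cast hlt
  set A₁ := Representation.invariants (ρ.comp H₁.subtype) with hA₁
  set A₂ := Representation.invariants (ρ.comp H₂.subtype) with hA₂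
  set A := Representation.invariants (ρ.comp (H₁ ⊓ H₂).subtype) with hA
  have hle : A₁ ⊔ A₂ ≤ A := by
    apply sup_le
    · intro v hv
      rw [hA, Representation.mem_invariants]
      rw [hA₁, Representation.mem_invariants] at hv
      intro g
      exact hv ⟨g.1, g.2.1⟩
    · intro v hv
      rw [hA, Representation.mem_invariants]
      rw [hA₂, Representation.mem_invariants] at hv
      intro g
      exact hv ⟨g.1, g.2.2⟩
  have h1 := Submodule.finrank_sup_add_finrank_inf_eq A₁ A₂
  have h2 := Submodule.finrank_mono hle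
  have h3 : 0 < finrank ℂ ↥(A₁ ⊓ A₂) := by omega
  obtain ⟨⟨v, hv⟩, hv0⟩ := (Module.finrank_pos_iff_exists_ne_zero (R := ℂ)).mp h3
  have hv0' : v ≠ 0 := fun h => hv0 (Subtype.ext h)
  -- v is fixed by G
  let S : Subgroup G :=
    { carrier := {g | ρ g v = v}
      one_mem' := by simp
      mul_mem' := by
        intro a b ha hb
        simp only [Set.mem_ofPred_eq] at ha hb ⊢
        rw [map_mul, Module.End.mul_apply, hb, ha]
      inv_mem' := by
        intro a ha
        simp only [Set.mem_ofPred_eq] at ha ⊢
        conv_lhs => rw [← ha]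
        rw [← Module.End.mul_apply, ← map_mul]
        simp }
  have hS₁ : H₁ ≤ S := by
    intro g hg
    have : v ∈ A₁ := hv.1
    rw [hA₁, Representation.mem_invariants] at this
    exact this ⟨g, hg⟩
  have hS₂ : H₂ ≤ S := by
    intro g hg
    have : v ∈ A₂ := hv.2
    rw [hA₂, Representation.mem_invariants] at this
    exact this ⟨g, hg⟩
  have hS : S = ⊤ := top_le_iff.mp (htop ▸ sup_le hS₁ hS₂)
  have hinv : v ∈ Representation.invariants ρ := by
    rw [Representation.mem_invariants]
    intro g
    have : g ∈ S := hS ▸ Subgroup.mem_top g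
    exact this
  have hpos : 0 < finrank ℂ (Representation.invariants ρ) :=
    (Module.finrank_pos_iff_exists_ne_zero (R := ℂ)).mpr ⟨⟨v, hinv⟩, fun h => hv0' (congrArg Subtype.val h)⟩
  have hin : Cfsg.classInner ρ.character (fun _ => 1) = (finrank ℂ (Representation.invariants ρ) : ℂ) := by
    letI := invertibleCard (G := G)
    rw [← Representation.card_inv_mul_sum_char_eq_finrank, Cfsg.classInner]
    simp
  rw [classInner_irr (isIrrCharacter_of_rep ρ hρ) isIrrCharacter_one, if_neg hχ1] at hin
  have : finrank ℂ (Representation.invariants ρ) = 0 := by exact_mod_cast hin.symm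
  omega

end Cfsg.Agent.S0192
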