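import Cfsg.Statements.S0194
import Mathlib
import Cfsg.Agent.Lib.Helper2.Clifford
import Cfsg.Agent.S0161

set_option autoImplicit false
open scoped ComplexConjugate
open Cfsg

namespace Cfsg.Agent.S0194

/-- Let G have odd order, H be a normal subgroup and θ a non-principal irreducible character of H. Then the function induced from θ is orthogonal to its complex conjugate. -/
theorem result {G : Type*} [Group G] [Fintype G] (hodd : Odd (Nat.card G)) (H : Subgroup G) [H.Normal] (θ : H → ℂ) (hθ : Cfsg.IsIrrCharacter H θ) (hθ1 : θ ≠ fun _ => 1) : Cfsg.classInner (fun g => conj (Cfsg.indFun H θ g)) (Cfsg.indFun H θ) = 0 := by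
  classical
  open Cfsg.Agent.Lib.Helper2 in
  have hconj : (fun g => conj (Cfsg.indFun H θ g)) = Cfsg.indFun H (fun h => conj (θ h)) := by
    ext g
    simp only [Cfsg.indFun, map_mul, map_inv₀, map_natCast, map_sum]
    congr 1
    refine Finset.sum_congr rfl fun x _ => ?_
    by_cases hx : x⁻¹ * g * x ∈ H
    · rw [extendByZero_mem _ _ hx, extendByZero_mem _ _ hx]
    · rw [extendByZero_not_mem _ _ hx, extendByZero_not_mem _ _ hx, map_zero]
  rw [hconj, classInner_indFun_indFun]
  apply mul_eq_zero_of_right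
  apply Finset.sum_eq_zero
  intro x _
  rw [classInner_irr (IsIrrCharacter.conj hθ) (IsIrrCharacter.conjFun H hθ x), if_neg]
  intro hx
  -- x * x fixes θ
  have h2 : conjFun H (x * x) θ = θ := by
    rw [conjFun_mul, ← hx, conjFun_conj, ← hx]
    ext h
    simp
  have hox : Odd (orderOf x) := Odd.of_dvd_nat hodd (orderOf_dvd_natCard x)
  obtain ⟨k, hk⟩ := hox
  have hx' : x = (x * x) ^ (k + 1) := by
    rw [← pow_two, ← pow_mul, show 2 * (k + 1) = orderOf x + 1 by omega, pow_succ,
      pow_orderOf_eq_one, one_mul]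
  have h3 : conjFun H x θ = θ := by
    rw [hx']
    exact conjFun_pow_of_fixed H h2 _
  rw [h3] at hx
  have hoddH : Odd (Nat.card H) := Odd.of_dvd_nat hodd (Subgroup.card_subgroup_dvd_card H)
  apply hθ1
  exact Cfsg.Agent.S0161.result hoddH ⟨θ, hθ⟩ (fun g => Complex.conj_eq_iff_im.mp (congrFun hx g))

end Cfsg.Agent.S0194
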