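import Cfsg.Statements.S0196
import Mathlib

set_option autoImplicit false
open Cfsg

namespace Cfsg.Agent.S0196

/-- The conjugation action of the normalizer of `A` on the nonidentity elements of `A`. -/
@[reducible] def conjAction {G : Type*} [Group G] (A : Subgroup G) :
    MulAction (Subgroup.normalizer (A : Set G)) {x : G // x ∈ A ∧ x ≠ 1} where
  smul n x := ⟨n * x * (n : G)⁻¹, (Subgroup.mem_normalizer_iff.mp n.2 x).mp x.2.1, by
    intro h
    apply x.2.2
    have : (x : G) = (n : G)⁻¹ * (n * x * (n : G)⁻¹) * n := by group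
    rw [this, h]
    group⟩
  one_smul x := by
    apply Subtype.ext
    show ((1 : Subgroup.normalizer (A : Set G)) : G) * x * ((1 : Subgroup.normalizer (A : Set G)) : G)⁻¹ = x
    simp
  mul_smul m n x := by
    apply Subtype.ext
    show ((m * n : Subgroup.normalizer (A : Set G)) : G) * x * ((m * n : Subgroup.normalizer (A : Set G)) : G)⁻¹ =
      m * (n * x * (n : G)⁻¹) * (m : G)⁻¹
    simp [mul_assoc]

/-- Let A be a subgroup of a finite group G that equals the centralizer of each of its non-identity elements, and let N be its normalizer. Then the index of A in N divides |A| − 1 (N/A permutes the non-identity elements of A in orbits of full length). -/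
theorem result {G : Type*} [Group G] [Finite G] (A : Subgroup G) (hA : ∀ x ∈ A, x ≠ 1 → Subgroup.centralizer ({x} : Set G) = A) : (A.subgroupOf (Subgroup.normalizer (A : Set G))).index ∣ Nat.card A - 1 := by
  classical
  letI := conjAction A
  have hstab : ∀ x : {x : G // x ∈ A ∧ x ≠ 1},
      MulAction.stabilizer (Subgroup.normalizer (A : Set G)) x = A.subgroupOf (Subgroup.normalizer (A : Set G)) := by
    intro x
    ext n
    rw [MulAction.mem_stabilizer_iff, Subgroup.mem_subgroupOf]
    have key : ∀ y : G, y ∈ A ↔ y * x = x * y := fun y =>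
      (SetLike.ext_iff.mp (hA x x.2.1 x.2.2) y).symm.trans Subgroup.mem_centralizer_singleton_iff
    have hmem : (n : G) ∈ A ↔ (n : G) * x = x * n := key n
    rw [hmem]
    constructor
    · intro h
      have h1 : (n : G) * x * (n : G)⁻¹ = x := congrArg Subtype.val h
      calc (n : G) * x = ((n : G) * x * (n : G)⁻¹) * n := by group
        _ = x * n := by rw [h1]
    · intro h
      apply Subtype.ext
      show (n : G) * x * (n : G)⁻¹ = x
      rw [h]
      group
  have e := MulAction.selfEquivSigmaOrbitsQuotientStabilizer (Subgroup.normalizer (A : Set G)) {x : G // x ∈ A ∧ x ≠ 1}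
  have h1 := Nat.card_congr e
  cases nonempty_fintype (Quotient (MulAction.orbitRel (Subgroup.normalizer (A : Set G)) {x : G // x ∈ A ∧ x ≠ 1}))
  rw [Nat.card_sigma] at h1
  have h2 : ∀ ω : MulAction.orbitRel.Quotient (Subgroup.normalizer (A : Set G)) {x : G // x ∈ A ∧ x ≠ 1},
      Nat.card (Subgroup.normalizer (A : Set G) ⧸ MulAction.stabilizer (Subgroup.normalizer (A : Set G)) ω.out) =
      (A.subgroupOf (Subgroup.normalizer (A : Set G))).index := by
    intro ω
    rw [hstab]
    rfl
  simp_rw [h2] at h1
  have h3 : Nat.card {x : G // x ∈ A ∧ x ≠ 1} = Nat.card A - 1 := by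
    have e2 : {x : G // x ∈ A ∧ x ≠ 1} ≃ {a : A // a ≠ 1} :=
      { toFun := fun x => ⟨⟨x.1, x.2.1⟩, fun h => x.2.2 (congrArg Subtype.val h)⟩
        invFun := fun a => ⟨a.1.1, a.1.2, fun h => a.2 (Subtype.ext h)⟩
        left_inv := fun x => rfl
        right_inv := fun a => rfl }
    rw [Nat.card_congr e2]
    cases nonempty_fintype A
    rw [Nat.card_eq_fintype_card, Nat.card_eq_fintype_card, Fintype.card_subtype_compl, Fintype.card_subtype_eq]
  rw [← h3, h1, Finset.sum_const, smul_eq_mul]
  exact Dvd.intro_left _ rfl

end Cfsg.Agent.S0196
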