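import Cfsg.Statements.S0200
import Mathlib
import Cfsg.Agent.Lib.Helper2.Isolated
import Cfsg.Agent.S0199

set_option autoImplicit false
open Cfsg

namespace Cfsg.Agent.S0200

/-- An involution lying in no normal 2-subgroup of a finite group inverts a nontrivial element of odd order (a consequence of the Baer–Suzuki Theorem). -/
theorem result {G : Type*} [Group G] [Finite G] (t : G) (ht : orderOf t = 2) (hO : ∀ N : Subgroup G, N.Normal → IsPGroup 2 N → t ∉ N) : ∃ h : G, h ≠ 1 ∧ Odd (orderOf h) ∧ t * h * t⁻¹ = h⁻¹ := by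
  by_contra hcon
  push Not at hcon
  have ht2 := Lib.Helper2.mul_self_of_orderOf_two ht
  have hti := Lib.Helper2.inv_eq_of_mul_self ht2
  have hX : IsPGroup 2 (Subgroup.zpowers t) := by
    apply IsPGroup.of_card (n := 1)
    rw [Nat.card_zpowers, ht, pow_one]
  have key : ∀ g : G, IsPGroup 2 ↥(Subgroup.zpowers t ⊔ (Subgroup.zpowers t).map (MulAut.conj g).toMonoidHom) := by
    intro g
    have hv : orderOf (g * t * g⁻¹) = 2 := (Lib.Helper2.orderOf_conj_eq g t).trans ht
    have hv2 := Lib.Helper2.mul_self_of_orderOf_two hv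
    have e : Subgroup.zpowers t ⊔ (Subgroup.zpowers t).map (MulAut.conj g).toMonoidHom =
        Subgroup.closure ({t, g * t * g⁻¹} : Set G) := by
      rw [MonoidHom.map_zpowers, Subgroup.zpowers_eq_closure, Subgroup.zpowers_eq_closure,
        ← Subgroup.closure_union]
      rfl
    rw [e]
    obtain ⟨a, m, hm, hn⟩ := Nat.exists_eq_two_pow_mul_odd (orderOf_pos (t * (g * t * g⁻¹))).ne'
    have hord : orderOf ((t * (g * t * g⁻¹)) ^ (2 ^ a)) = m := by
      rw [orderOf_pow_of_dvd (by positivity) ⟨m, hn⟩, hn, Nat.mul_div_cancel_left _ (by positivity)]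
    have hinv : t * (t * (g * t * g⁻¹)) ^ (2 ^ a) * t⁻¹ = ((t * (g * t * g⁻¹)) ^ (2 ^ a))⁻¹ := by
      have := Lib.Helper2.invol_conj_zpow ht2 hv2 ((2 ^ a : ℕ) : ℤ)
      rw [zpow_natCast] at this
      rw [hti, this]
    have h1 : (t * (g * t * g⁻¹)) ^ (2 ^ a) = 1 := by
      by_contra hne
      exact hcon _ hne (by rw [hord]; exact hm) hinv
    rintro ⟨d, hd⟩
    refine ⟨a + 1, ?_⟩
    apply Subtype.ext
    show d ^ 2 ^ (a + 1) = 1
    obtain ⟨k, rfl | rfl⟩ := (Lib.Helper2.mem_closure_pair_iff ht2 hv2 d).mp hd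
    · have h2 : ((t * (g * t * g⁻¹)) ^ k) ^ 2 ^ a = 1 := by
        rw [← zpow_natCast, ← zpow_mul, mul_comm, zpow_mul, zpow_natCast, h1, one_zpow]
      rw [pow_succ, pow_mul, h2, one_pow]
    · rw [pow_succ, mul_comm, pow_mul, pow_two, Lib.Helper2.zpow_mul_invol_mul_self ht2 hv2, one_pow]
  obtain ⟨N, hN, hN2, hle⟩ := S0199.result (Subgroup.zpowers t) hX key
  exact hO N hN hN2 (hle (Subgroup.mem_zpowers t))

end Cfsg.Agent.S0200
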