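import Cfsg.Statements.S0201
import Mathlib
import Cfsg.Agent.Lib.Helper2.ZStar

set_option autoImplicit false
open Cfsg

namespace Cfsg.Agent.S0201

/-- Brauer–Suzuki Theorem: if a Sylow 2-subgroup of a finite group is generalized quaternion (of order at least 8) and the group has no nontrivial normal subgroup of odd order, then its centre has order 2. -/
theorem result {G : Type*} [Group G] [Finite G] (S : Sylow 2 G) (n : ℕ) (e : (S : Subgroup G) ≃* QuaternionGroup (2 ^ (n + 1))) (hO : ∀ N : Subgroup G, N.Normal → Odd (Nat.card N) → N = ⊥) : Nat.card (Subgroup.center G) = 2 := by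
  haveI : Fact (Nat.Prime 2) := ⟨Nat.prime_two⟩
  have hQ := Cfsg.Agent.Lib.Helper27.BS.qs_of_equiv (S : Subgroup G) (n + 1) (by omega) e
  obtain ⟨a, ha⟩ : ∃ a : G, a = ((e.symm (QuaternionGroup.a 1) : (S : Subgroup G)) : G) := ⟨_, rfl⟩
  obtain ⟨b, hb⟩ : ∃ b : G, b = ((e.symm (QuaternionGroup.xa 0) : (S : Subgroup G)) : G) := ⟨_, rfl⟩
  rw [← ha, ← hb] at hQ
  obtain ⟨t, ht⟩ : ∃ t : G, t = a ^ (2 ^ (n + 1)) := ⟨_, rfl⟩
  have ht1 : t ≠ 1 := ht ▸ hQ.t_ne_one
  have htt : t * t = 1 := by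
    rw [ht, ← pow_add, ← two_mul, ← pow_succ', ← hQ.ord, pow_orderOf_eq_one]
  have ht2 : orderOf t = 2 := Cfsg.Agent.Lib.Helper2.orderOf_two_of_mul_self htt ht1
  have hcore : Cfsg.pPrimeCore 2 G = ⊥ :=
    hO _ (Cfsg.pPrimeCore_normal 2 G) Cfsg.Agent.Lib.Helper2.odd_card_oddCore
  have hiso : ∀ g : G, g * t * g⁻¹ ∈ S → g * t * g⁻¹ = t := by
    intro g hg
    have h2 : orderOf (g * t * g⁻¹) = 2 := (Cfsg.Agent.Lib.Helper2.orderOf_conj_eq g t).trans ht2
    rcases hQ.uniq _ hg (Cfsg.Agent.Lib.Helper2.mul_self_of_orderOf_two h2) with h | h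
    · exact absurd h (Cfsg.Agent.Lib.Helper2.ne_one_of_orderOf_two h2)
    · rw [h, ht]
  have htc : t ∈ Subgroup.center G := by
    rw [Subgroup.mem_center_iff]
    intro g
    have := Cfsg.Agent.Lib.Helper2.zstar_sylow S t ht2 hiso g
    rw [Cfsg.oddCore, hcore, Subgroup.mem_bot] at this
    have h1 : t * g * t⁻¹ = g := mul_inv_eq_one.mp this
    exact (mul_inv_eq_iff_eq_mul.mp h1).symm
  have hpc := Cfsg.Agent.Lib.Helper17.isPGroup_center_of_core_eq_bot hcore
  obtain ⟨c, hc⟩ := Cfsg.Agent.Lib.Helper2.exists_conj_mem_sylow S hpc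
  have hcen : Subgroup.center G = Subgroup.zpowers t := by
    apply le_antisymm
    · intro z hz
      have hzS : z ∈ (S : Subgroup G) := by
        have h1 := hc z hz
        have h2 : c * z * c⁻¹ = z := by
          rw [Subgroup.mem_center_iff.mp hz c]; group
        rwa [h2] at h1
      have hzz : z * z = 1 := by
        by_contra hne
        obtain ⟨u, _, hu⟩ := hQ.noncentral z hzS hne
        exact hu (Subgroup.mem_center_iff.mp hz u)
      rcases hQ.uniq z hzS hzz with h | h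
      · rw [h]; exact Subgroup.one_mem _
      · rw [h, ← ht]; exact Subgroup.mem_zpowers t
    · rw [Subgroup.zpowers_le]; exact htc
  rw [hcen, Nat.card_zpowers, ht2]

end Cfsg.Agent.S0201
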