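import Cfsg.Statements.S0203
import Mathlib
import Cfsg.Agent.Lib.Helper2.Klein

set_option autoImplicit false
open Cfsg

namespace Cfsg.Agent.S0203

/-- If a Sylow 2-subgroup P of a finite group G is a Klein four-group, then G has three classes of involutions if and only if P has a normal complement in G. -/
theorem result {G : Type*} [Group G] [Finite G] (P : Sylow 2 G) (hP : IsKleinFour (P : Subgroup G)) : Nat.card {C : ConjClasses G // ∃ t : G, orderOf t = 2 ∧ ConjClasses.mk t = C} = 3 ↔ ∃ N : Subgroup G, N.Normal ∧ Subgroup.IsComplement' N (P : Subgroup G) := by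
  constructor
  · intro h3
    have hnf : ∀ z ∈ P, ∀ w ∈ P, IsConj z w → z = w := by
      rcases Lib.Helper2.klein_dichotomy P hP with h | h
      · have := Lib.Helper2.klein_card_of_conj P hP h
        omega
      · exact h
    have hNC : Subgroup.normalizer (P : Set G) ≤ Subgroup.centralizer (P : Set G) := by
      intro n hn
      rw [Subgroup.mem_centralizer_iff]
      intro z hz
      have hz' : z ∈ P := hz
      have h1 : n * z * n⁻¹ ∈ P := (Subgroup.mem_normalizer_iff.mp hn z).mp hz'
      have h2 := hnf z hz' _ h1 (isConj_iff.mpr ⟨n, rfl⟩)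
      calc z * n = (n * z * n⁻¹) * n := by rw [← h2]
        _ = n * z := by group
    exact ⟨_, inferInstance, MonoidHom.ker_transferSylow_isComplement' P hNC⟩
  · rintro ⟨N, hN, hcompl⟩
    apply Lib.Helper2.klein_card_of_no_fusion P hP
    intro z hz w hw hzw
    obtain ⟨g, hg⟩ := isConj_iff.mp hzw
    obtain ⟨⟨⟨n, hn⟩, ⟨p, hp⟩⟩, hnp⟩ := hcompl.2 g
    have hnp' : n * p = g := hnp
    have hp' : p ∈ P := hp
    have h1 : w = n * z * n⁻¹ := by
      rw [← hg, ← hnp']
      calc n * p * z * (n * p)⁻¹ = n * (p * z) * p⁻¹ * n⁻¹ := by group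
        _ = n * (z * p) * p⁻¹ * n⁻¹ := by rw [Lib.Helper2.klein_comm P hP hp' hz]
        _ = n * z * n⁻¹ := by group
    have h2 : w * z⁻¹ ∈ N := by
      rw [h1]
      have : n * z * n⁻¹ * z⁻¹ = n * (z * n⁻¹ * z⁻¹) := by group
      rw [this]
      exact N.mul_mem hn (hN.conj_mem _ (N.inv_mem hn) z)
    have h3 : w * z⁻¹ ∈ (P : Subgroup G) := Subgroup.mul_mem _ hw (Subgroup.inv_mem _ hz)
    have h4 : w * z⁻¹ ∈ N ⊓ (P : Subgroup G) := ⟨h2, h3⟩
    rw [hcompl.disjoint.eq_bot, Subgroup.mem_bot] at h4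
    exact (mul_inv_eq_one.mp h4).symm

end Cfsg.Agent.S0203
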