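import Cfsg.Statements.S0206
import Mathlib
import Cfsg.Agent.Lib.Helper2.Dihedral

set_option autoImplicit false
open Cfsg

namespace Cfsg.Agent.S0206

theorem zpow_cast_add {G : Type*} [Group G] (R : G) (i j : ZMod (orderOf R)) :
    R ^ ((i + j).cast : ℤ) = R ^ (i.cast : ℤ) * R ^ (j.cast : ℤ) := by
  rw [← zpow_add, zpow_eq_zpow_iff_modEq, ← ZMod.intCast_eq_intCast_iff]
  simp

theorem zpow_cast_sub {G : Type*} [Group G] (R : G) (i j : ZMod (orderOf R)) :
    R ^ ((j - i).cast : ℤ) = R ^ (-(i.cast : ℤ)) * R ^ (j.cast : ℤ) := by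
  rw [← zpow_add, zpow_eq_zpow_iff_modEq, ← ZMod.intCast_eq_intCast_iff]
  simp [sub_eq_neg_add]

/-- The map from the dihedral group. -/
noncomputable def toFun {G : Type*} [Group G] (x y : G) : DihedralGroup (orderOf (x * y)) → G
  | DihedralGroup.r i => (x * y) ^ (i.cast : ℤ)
  | DihedralGroup.sr i => x * (x * y) ^ (i.cast : ℤ)

theorem toFun_mul {G : Type*} [Group G] (x y : G) (hx : x * x = 1) (hy : y * y = 1)
    (a b : DihedralGroup (orderOf (x * y))) : toFun x y (a * b) = toFun x y a * toFun x y b := by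
  rcases a with i | i <;> rcases b with j | j
  · rw [DihedralGroup.r_mul_r]
    exact zpow_cast_add _ i j
  · rw [DihedralGroup.r_mul_sr]
    show x * (x * y) ^ ((j - i).cast : ℤ) = (x * y) ^ (i.cast : ℤ) * (x * (x * y) ^ (j.cast : ℤ))
    rw [zpow_cast_sub, ← mul_assoc, ← mul_assoc, Lib.Helper2.invol_mul_zpow hx hy, neg_neg]
  · rw [DihedralGroup.sr_mul_r]
    show x * (x * y) ^ ((i + j).cast : ℤ) = x * (x * y) ^ (i.cast : ℤ) * (x * y) ^ (j.cast : ℤ)
    rw [zpow_cast_add, mul_assoc]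
  · rw [DihedralGroup.sr_mul_sr]
    show (x * y) ^ ((j - i).cast : ℤ) = x * (x * y) ^ (i.cast : ℤ) * (x * (x * y) ^ (j.cast : ℤ))
    rw [zpow_cast_sub, ← mul_assoc, Lib.Helper2.invol_conj_zpow hx hy, zpow_neg]

/-- Two distinct involutions x, y of a finite group generate a subgroup isomorphic to the dihedral group of order 2·|xy|. -/
theorem result {G : Type*} [Group G] [Finite G] (x y : G) (hx : orderOf x = 2) (hy : orderOf y = 2) (hxy : x ≠ y) : Nonempty (↥(Subgroup.closure ({x, y} : Set G)) ≃* DihedralGroup (orderOf (x * y))) := by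
  have hx2 := Lib.Helper2.mul_self_of_orderOf_two hx
  have hy2 := Lib.Helper2.mul_self_of_orderOf_two hy
  have hx1 := Lib.Helper2.ne_one_of_orderOf_two hx
  have hy1 := Lib.Helper2.ne_one_of_orderOf_two hy
  let φ : DihedralGroup (orderOf (x * y)) →* G := MonoidHom.mk' (toFun x y) (toFun_mul x y hx2 hy2)
  have hinj : Function.Injective φ := by
    rw [injective_iff_map_eq_one]
    intro a ha
    rcases a with i | i
    · have h : (x * y) ^ (i.cast : ℤ) = 1 := ha
      rw [← zpow_zero (x * y), zpow_eq_zpow_iff_modEq, ← ZMod.intCast_eq_intCast_iff] at h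
      simp at h
      rw [h]
      rfl
    · exfalso
      have h : x * (x * y) ^ (i.cast : ℤ) = 1 := ha
      apply Lib.Helper2.invol_not_mem_zpowers hx2 hy2 hx1 hy1
      refine ⟨(i.cast : ℤ), ?_⟩
      show (x * y) ^ (i.cast : ℤ) = x
      exact (inv_eq_of_mul_eq_one_right h).symm.trans (Lib.Helper2.inv_eq_of_mul_self hx2)
  have hrange : φ.range = Subgroup.closure ({x, y} : Set G) := by
    ext d
    rw [Lib.Helper2.mem_closure_pair_iff hx2 hy2]
    constructor
    · rintro ⟨a, rfl⟩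
      rcases a with i | i
      · exact ⟨_, Or.inl rfl⟩
      · exact ⟨_, Or.inr (Lib.Helper2.invol_mul_zpow hx2 hy2 _)⟩
    · rintro ⟨k, rfl | rfl⟩
      · refine ⟨DihedralGroup.r (k : ZMod _), ?_⟩
        show (x * y) ^ (((k : ZMod (orderOf (x * y))).cast : ℤ)) = _
        rw [zpow_eq_zpow_iff_modEq, ← ZMod.intCast_eq_intCast_iff]
        simp
      · refine ⟨DihedralGroup.sr ((-k : ℤ) : ZMod _), ?_⟩
        show x * (x * y) ^ ((((-k : ℤ) : ZMod (orderOf (x * y))).cast : ℤ)) = _
        rw [Lib.Helper2.invol_mul_zpow hx2 hy2]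
        congr 1
        rw [zpow_eq_zpow_iff_modEq, ← ZMod.intCast_eq_intCast_iff]
        simp
  exact ⟨((MonoidHom.ofInjective hinj).trans (MulEquiv.subgroupCongr hrange)).symm⟩

end Cfsg.Agent.S0206
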