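import Cfsg.Statements.S0208
import Mathlib
import Cfsg.Agent.Lib.Helper2.Dihedral

set_option autoImplicit false
open Cfsg

namespace Cfsg.Agent.S0208

/-- If x, y are involutions and xy has odd order, then some element of the subgroup generated by x and y conjugates x to y. -/
theorem result {G : Type*} [Group G] [Finite G] (x y : G) (hx : orderOf x = 2) (hy : orderOf y = 2) (hodd : Odd (orderOf (x * y))) : ∃ d ∈ Subgroup.closure ({x, y} : Set G), d * x * d⁻¹ = y := by
  have hx2 := Lib.Helper2.mul_self_of_orderOf_two hx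
  have hy2 := Lib.Helper2.mul_self_of_orderOf_two hy
  obtain ⟨m, hm⟩ := hodd
  refine ⟨(x * y) ^ (m : ℤ), Lib.Helper2.zpow_mem_closure_pair _, ?_⟩
  rw [Lib.Helper2.zpow_conj_invol hx2 hy2]
  conv_rhs => rw [Lib.Helper2.snd_eq_zpow_mul hx2 hy2]
  congr 1
  rw [zpow_eq_zpow_iff_modEq, hm]
  push_cast
  refine Int.modEq_iff_dvd.mpr ⟨-1, by ring⟩

end Cfsg.Agent.S0208
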