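import Cfsg.Statements.S0211
import Mathlib
import Cfsg.Agent.Lib.Helper2.Dihedral
import Cfsg.Agent.S0209

set_option autoImplicit false
open Cfsg

namespace Cfsg.Agent.S0211

/-- Let x, y be involutions with xy of even order n and z = (xy)^(n/2). Then xz is conjugate to x by an element of the subgroup generated by x, y if and only if 4 divides n. -/
theorem result {G : Type*} [Group G] [Finite G] (x y : G) (hx : orderOf x = 2) (hy : orderOf y = 2) (heven : Even (orderOf (x * y))) : (∃ d ∈ Subgroup.closure ({x, y} : Set G), d * x * d⁻¹ = x * (x * y) ^ (orderOf (x * y) / 2)) ↔ 4 ∣ orderOf (x * y) := by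
  have hx2 := Lib.Helper2.mul_self_of_orderOf_two hx
  have hy2 := Lib.Helper2.mul_self_of_orderOf_two hy
  obtain ⟨-, hcx, -⟩ := S0209.result x y hx hy heven
  have hxz : x * (x * y) ^ (orderOf (x * y) / 2) = (x * y) ^ ((orderOf (x * y) / 2 : ℕ) : ℤ) * x := by
    rw [zpow_natCast]
    exact hcx.symm
  rw [hxz]
  obtain ⟨m, hm⟩ := heven
  have hdiv : orderOf (x * y) / 2 = m := by omega
  rw [hdiv]
  constructor
  · rintro ⟨d, hd, h⟩
    obtain ⟨k, hk⟩ := Lib.Helper2.conj_invol_of_mem_closure_pair hx2 hy2 hd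
    rw [hk] at h
    have h3 := mul_right_cancel h
    rw [zpow_eq_zpow_iff_modEq] at h3
    obtain ⟨c, hc⟩ := Int.modEq_iff_dvd.mp h3
    rw [hm] at hc
    push_cast at hc
    have : (m : ℤ) = 2 * (k + m * c) := by linarith
    have h2 : (2 : ℤ) ∣ m := ⟨_, this⟩
    have h2' : 2 ∣ m := by exact_mod_cast h2
    rw [hm]
    omega
  · intro h4
    obtain ⟨c, hc⟩ := h4
    refine ⟨(x * y) ^ (c : ℤ), Lib.Helper2.zpow_mem_closure_pair _, ?_⟩
    rw [Lib.Helper2.zpow_conj_invol hx2 hy2]
    congr 2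
    have : m = 2 * c := by omega
    rw [this]
    push_cast
    ring

end Cfsg.Agent.S0211
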