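import Cfsg.Statements.S0213
import Mathlib
import Cfsg.Agent.Lib.Helper2.Isolated
import Cfsg.Agent.Lib.Helper2.Count
import Cfsg.Agent.S0208
import Cfsg.Agent.S0209

set_option autoImplicit false
open Cfsg

namespace Cfsg.Agent.S0213

theorem involution_unique_zpowers {G : Type*} [Group G] [Finite G] (r : G) {a b : G}
    (ha : a ∈ Subgroup.zpowers r) (hb : b ∈ Subgroup.zpowers r)
    (ha2 : orderOf a = 2) (hb2 : orderOf b = 2) : a = b := by
  classical
  cases nonempty_fintype (Subgroup.zpowers r)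
  have hd : 2 ∣ Fintype.card (Subgroup.zpowers r) := by
    have := orderOf_dvd_card (x := (⟨a, ha⟩ : Subgroup.zpowers r))
    rwa [Subgroup.orderOf_mk, ha2] at this
  have h := IsCyclic.card_orderOf_eq_totient hd
  rw [Nat.totient_two] at h
  have := Finset.card_le_one.mp h.le ⟨a, ha⟩ (by simp [Subgroup.orderOf_mk, ha2]) ⟨b, hb⟩
    (by simp [Subgroup.orderOf_mk, hb2])
  exact congrArg Subtype.val this

/-- the count in the Thompson order formula. -/
noncomputable def cnt {G : Type*} [Group G] (x₁ x₂ z : G) : ℕ :=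
  Nat.card {p : G × G // IsConj x₁ p.1 ∧ IsConj x₂ p.2 ∧ z ∈ Subgroup.zpowers (p.1 * p.2)}

theorem mem_zpowers_conj {G : Type*} [Group G] {z u v : G} (g : G)
    (h : z ∈ Subgroup.zpowers (u * v)) :
    g * z * g⁻¹ ∈ Subgroup.zpowers ((g * u * g⁻¹) * (g * v * g⁻¹)) := by
  obtain ⟨k, rfl⟩ := Subgroup.mem_zpowers_iff.mp h
  have e : (g * u * g⁻¹) * (g * v * g⁻¹) = g * (u * v) * g⁻¹ := by group
  rw [e, ← conj_zpow]
  exact Subgroup.zpow_mem _ (Subgroup.mem_zpowers _) k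

theorem cnt_conj {G : Type*} [Group G] (x₁ x₂ z g : G) :
    cnt x₁ x₂ (g * z * g⁻¹) = cnt x₁ x₂ z := by
  unfold cnt
  apply Nat.card_congr
  refine
    { toFun := fun p => ⟨(g⁻¹ * p.1.1 * g, g⁻¹ * p.1.2 * g), ?_, ?_, ?_⟩
      invFun := fun p => ⟨(g * p.1.1 * g⁻¹, g * p.1.2 * g⁻¹), ?_, ?_, ?_⟩
      left_inv := ?_
      right_inv := ?_ }
  · exact p.2.1.trans (isConj_iff.mpr ⟨g⁻¹, by simp⟩)
  · exact p.2.2.1.trans (isConj_iff.mpr ⟨g⁻¹, by simp⟩)
  · have := mem_zpowers_conj g⁻¹ p.2.2.2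
    simp only [inv_inv] at this
    have e : g⁻¹ * (g * z * g⁻¹) * g = z := by group
    rwa [e] at this
  · exact p.2.1.trans (isConj_iff.mpr ⟨g, rfl⟩)
  · exact p.2.2.1.trans (isConj_iff.mpr ⟨g, rfl⟩)
  · exact mem_zpowers_conj g p.2.2.2
  · rintro ⟨⟨u, v⟩, h⟩
    apply Subtype.ext
    show (g * (g⁻¹ * u * g) * g⁻¹, g * (g⁻¹ * v * g) * g⁻¹) = (u, v)
    congr 1 <;> group
  · rintro ⟨⟨u, v⟩, h⟩
    apply Subtype.ext
    show (g⁻¹ * (g * u * g⁻¹) * g, g⁻¹ * (g * v * g⁻¹) * g) = (u, v)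
    congr 1 <;> group

theorem cnt_of_isConj {G : Type*} [Group G] (x₁ x₂ : G) {z w : G} (h : IsConj z w) :
    cnt x₁ x₂ w = cnt x₁ x₂ z := by
  obtain ⟨g, rfl⟩ := isConj_iff.mp h
  exact cnt_conj x₁ x₂ z g

/-- Thompson Order Formula, two-class case: if every involution of the finite group G is conjugate to exactly one of the non-conjugate involutions x₁, x₂, and nᵢ is the number of pairs (u, v) with u conjugate to x₁, v conjugate to x₂ and xᵢ in the cyclic group generated by uv, then |G| = |C(x₂)| n₁ + |C(x₁)| n₂. -/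
theorem result {G : Type*} [Group G] [Finite G] (x₁ x₂ : G) (h₁ : orderOf x₁ = 2) (h₂ : orderOf x₂ = 2) (hnc : ¬ IsConj x₁ x₂) (hall : ∀ t : G, orderOf t = 2 → IsConj x₁ t ∨ IsConj x₂ t) : Nat.card G = Nat.card (Subgroup.centralizer ({x₂} : Set G)) * Nat.card {p : G × G // IsConj x₁ p.1 ∧ IsConj x₂ p.2 ∧ x₁ ∈ Subgroup.zpowers (p.1 * p.2)} + Nat.card (Subgroup.centralizer ({x₁} : Set G)) * Nat.card {p : G × G // IsConj x₁ p.1 ∧ IsConj x₂ p.2 ∧ x₂ ∈ Subgroup.zpowers (p.1 * p.2)} := by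
  classical
  cases nonempty_fintype G
  have hord : ∀ {x y : G}, orderOf x = 2 → IsConj x y → orderOf y = 2 := by
    intro x y hx hxy
    obtain ⟨g, rfl⟩ := isConj_iff.mp hxy
    rw [Lib.Helper2.orderOf_conj_eq, hx]
  -- the pairs fibre over the involutions
  have e1 : ({u : G // IsConj x₁ u} × {v : G // IsConj x₂ v}) ≃
      Σ z : {z : G // orderOf z = 2},
        {p : G × G // IsConj x₁ p.1 ∧ IsConj x₂ p.2 ∧ z.1 ∈ Subgroup.zpowers (p.1 * p.2)} :=
    { toFun := fun p =>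
        have heven : Even (orderOf (p.1.1 * p.2.1)) := by
          by_contra hodd
          rw [Nat.not_even_iff_odd] at hodd
          obtain ⟨d, -, hd⟩ := S0208.result p.1.1 p.2.1 (hord h₁ p.1.2) (hord h₂ p.2.2) hodd
          exact hnc (p.1.2.trans ((isConj_iff.mpr ⟨d, hd⟩).trans p.2.2.symm))
        ⟨⟨(p.1.1 * p.2.1) ^ (orderOf (p.1.1 * p.2.1) / 2),
          (S0209.result p.1.1 p.2.1 (hord h₁ p.1.2) (hord h₂ p.2.2) heven).1⟩,
          ⟨(p.1.1, p.2.1), p.1.2, p.2.2, Subgroup.pow_mem _ (Subgroup.mem_zpowers _) _⟩⟩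
      invFun := fun q => (⟨q.2.1.1, q.2.2.1⟩, ⟨q.2.1.2, q.2.2.2.1⟩)
      left_inv := fun p => rfl
      right_inv := by
        rintro ⟨⟨z, hz⟩, ⟨⟨u, v⟩, hu, hv, hzuv⟩⟩
        have heven : Even (orderOf (u * v)) := by
          by_contra hodd
          rw [Nat.not_even_iff_odd] at hodd
          obtain ⟨d, -, hd⟩ := S0208.result u v (hord h₁ hu) (hord h₂ hv) hodd
          exact hnc (hu.trans ((isConj_iff.mpr ⟨d, hd⟩).trans hv.symm))
        have hzz : (u * v) ^ (orderOf (u * v) / 2) = z :=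
          involution_unique_zpowers (u * v) (Subgroup.pow_mem _ (Subgroup.mem_zpowers _) _) hzuv
            (S0209.result u v (hord h₁ hu) (hord h₂ hv) heven).1 hz
        subst hzz
        rfl }
  have hiff : ∀ z : G, orderOf z = 2 ↔ (IsConj x₁ z ∨ IsConj x₂ z) := by
    intro z
    constructor
    · exact hall z
    · rintro (h | h)
      · exact hord h₁ h
      · exact hord h₂ h
  have hdisj : Disjoint (fun z : G => IsConj x₁ z) (fun z : G => IsConj x₂ z) := by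
    rw [Pi.disjoint_iff]
    intro z
    rw [Prop.disjoint_iff]
    rintro ⟨a1, a2⟩
    exact hnc (a1.trans a2.symm)
  obtain ⟨e2, he2⟩ : ∃ e2 : {z : G // orderOf z = 2} ≃ {z : G // IsConj x₁ z} ⊕ {z : G // IsConj x₂ z},
      ∀ z, ((e2.symm z : {z : G // orderOf z = 2}) : G) = Sum.elim (fun a => a.1) (fun b => b.1) z := by
    refine ⟨Equiv.trans (Equiv.subtypeEquivRight hiff) (subtypeOrEquiv _ _ hdisj), ?_⟩
    intro z
    rcases z with a | b
    · rw [Equiv.symm_trans_apply, subtypeOrEquiv_symm_inl]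
      rfl
    · rw [Equiv.symm_trans_apply, subtypeOrEquiv_symm_inr]
      rfl
  have hcount := Nat.card_congr e1
  rw [Nat.card_prod, Nat.card_sigma] at hcount
  have hsum : ∑ z : {z : G // orderOf z = 2},
      Nat.card {p : G × G // IsConj x₁ p.1 ∧ IsConj x₂ p.2 ∧ z.1 ∈ Subgroup.zpowers (p.1 * p.2)} =
      Nat.card {u : G // IsConj x₁ u} * cnt x₁ x₂ x₁ + Nat.card {v : G // IsConj x₂ v} * cnt x₁ x₂ x₂ := by
    have h0 : ∀ z : {z : G // orderOf z = 2},
      Nat.card {p : G × G // IsConj x₁ p.1 ∧ IsConj x₂ p.2 ∧ z.1 ∈ Subgroup.zpowers (p.1 * p.2)} =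
        cnt x₁ x₂ z.1 := fun z => rfl
    simp_rw [h0]
    rw [← Equiv.sum_comp e2.symm, Fintype.sum_sum_type]
    simp_rw [he2]
    simp only [Sum.elim_inl, Sum.elim_inr]
    congr 1
    · rw [Finset.sum_congr rfl (fun a _ => cnt_of_isConj x₁ x₂ a.2), Finset.sum_const, Finset.card_univ,
        smul_eq_mul, Nat.card_eq_fintype_card]
    · rw [Finset.sum_congr rfl (fun a _ => cnt_of_isConj x₁ x₂ a.2), Finset.sum_const, Finset.card_univ,
        smul_eq_mul, Nat.card_eq_fintype_card]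
  rw [hsum] at hcount
  have hk1 := Lib.Helper2.card_conj_mul_card_centralizer x₁
  have hk2 := Lib.Helper2.card_conj_mul_card_centralizer x₂
  show Nat.card G = Nat.card (Subgroup.centralizer ({x₂} : Set G)) * cnt x₁ x₂ x₁ +
    Nat.card (Subgroup.centralizer ({x₁} : Set G)) * cnt x₁ x₂ x₂
  set k1 := Nat.card {u : G // IsConj x₁ u}
  set k2 := Nat.card {v : G // IsConj x₂ v}
  set c1 := Nat.card (Subgroup.centralizer ({x₁} : Set G))
  set c2 := Nat.card (Subgroup.centralizer ({x₂} : Set G))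
  set N := Nat.card G
  have hNpos : 0 < N := Nat.card_pos
  apply Nat.eq_of_mul_eq_mul_left hNpos
  calc N * N = (k1 * c1) * (k2 * c2) := by rw [hk1, hk2]
    _ = (k1 * k2) * (c1 * c2) := by ring
    _ = (k1 * cnt x₁ x₂ x₁ + k2 * cnt x₁ x₂ x₂) * (c1 * c2) := by rw [hcount]
    _ = (k1 * c1) * (c2 * cnt x₁ x₂ x₁) + (k2 * c2) * (c1 * cnt x₁ x₂ x₂) := by ring
    _ = N * (c2 * cnt x₁ x₂ x₁ + c1 * cnt x₁ x₂ x₂) := by rw [hk1, hk2]; ring

end Cfsg.Agent.S0213
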