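import Cfsg.Statements.S0216
import Mathlib
import Cfsg.Agent.Lib.Helper2.Isolated
import Cfsg.Agent.S0209

set_option autoImplicit false
open Cfsg

namespace Cfsg.Agent.S0216

/-- For an involution u in a Sylow 2-subgroup P of a finite group G, the following are equivalent: no G-conjugate of u other than u lies in P; every commutator of u with an element of G has odd order. -/
theorem result {G : Type*} [Group G] [Finite G] (P : Sylow 2 G) (u : G) (hu : orderOf u = 2) (huP : u ∈ P) : (∀ g : G, g * u * g⁻¹ ∈ P → g * u * g⁻¹ = u) ↔ (∀ g : G, Odd (orderOf (u * g * u⁻¹ * g⁻¹))) := by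
  have hu2 := Lib.Helper2.mul_self_of_orderOf_two hu
  have hui := Lib.Helper2.inv_eq_of_mul_self hu2
  constructor
  · intro hiso g
    by_contra hodd
    rw [Nat.not_odd_iff_even] at hodd
    have e : u * g * u⁻¹ * g⁻¹ = u * (g * u * g⁻¹) := by rw [hui]; group
    rw [e] at hodd
    have hv : orderOf (g * u * g⁻¹) = 2 := (Lib.Helper2.orderOf_conj_eq g u).trans hu
    obtain ⟨hz, hzu, -⟩ := S0209.result u (g * u * g⁻¹) hu hv hodd
    obtain ⟨h, hh⟩ := Lib.Helper2.zpow_mul_invol_conj g hu2 ((orderOf (u * (g * u * g⁻¹)) / 2 : ℕ) : ℤ)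
    rw [zpow_natCast] at hh
    have hc : Commute u (h * u * h⁻¹) := by
      rw [← hh]
      exact hzu.symm.mul_right (Commute.refl u)
    have := Lib.Helper2.isolated_commute P u hu hiso h hc
    rw [← hh] at this
    exact Lib.Helper2.ne_one_of_orderOf_two hz (mul_eq_right.mp this)
  · intro hodd g hg
    have hmem : u * g * u⁻¹ * g⁻¹ ∈ (P : Subgroup G) := by
      have e : u * g * u⁻¹ * g⁻¹ = u * (g * u * g⁻¹)⁻¹ := by group
      rw [e]
      exact Subgroup.mul_mem _ huP (Subgroup.inv_mem _ hg)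
    obtain ⟨k, hk⟩ := P.2 ⟨_, hmem⟩
    have hk' : (u * g * u⁻¹ * g⁻¹) ^ 2 ^ k = 1 := congrArg Subtype.val hk
    have hdvd := orderOf_dvd_of_pow_eq_one hk'
    have hcop : Nat.Coprime (orderOf (u * g * u⁻¹ * g⁻¹)) (2 ^ k) :=
      Nat.Coprime.pow_right k (Nat.coprime_two_right.mpr (hodd g))
    have h1 := Nat.Coprime.eq_one_of_dvd hcop hdvd
    rw [orderOf_eq_one_iff] at h1
    have : g * u * g⁻¹ = (u * g * u⁻¹ * g⁻¹)⁻¹ * u := by group
    rw [this, h1]
    simp

end Cfsg.Agent.S0216
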