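import Cfsg.Statements.S0218
import Mathlib

set_option autoImplicit false
open Cfsg

namespace Cfsg.Agent.S0218

theorem orderOf_eq_two_iff (N : ℕ) [NeZero N] (x : QuaternionGroup N) :
    orderOf x = 2 ↔ x = QuaternionGroup.a (N : ZMod (2 * N)) := by
  have hN : 0 < N := Nat.pos_of_ne_zero (NeZero.ne N)
  rcases x with i | i
  · constructor
    · intro h
      have h1 : QuaternionGroup.a i * QuaternionGroup.a i = 1 := by
        rw [← pow_two, ← h, pow_orderOf_eq_one]
      rw [QuaternionGroup.a_mul_a, QuaternionGroup.one_def] at h1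
      have h2 : i + i = 0 := QuaternionGroup.a.inj h1
      have h3 : i ≠ 0 := by
        rintro rfl
        rw [QuaternionGroup.a_zero] at h
        simp at h
      congr 1
      have hv := ZMod.val_lt i
      have h4 : ((i.val + i.val : ℕ) : ZMod (2 * N)) = 0 := by
        push_cast
        rw [ZMod.natCast_zmod_val, h2]
      rw [ZMod.natCast_eq_zero_iff] at h4
      have hv0 : i.val ≠ 0 := by rwa [Ne, ZMod.val_eq_zero]
      obtain ⟨c, hc⟩ := h4
      have hc1 : c = 1 := by
        rcases c with _ | _ | c
        · omega
        · rfl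
        · exfalso
          have : 2 * N * (c + 1 + 1) = 2 * N * c + 4 * N := by ring
          omega
      subst hc1
      have h5 : i.val = N := by omega
      rw [← ZMod.natCast_zmod_val i, h5]
    · intro h
      rw [h]
      apply orderOf_eq_prime
      · rw [pow_two, QuaternionGroup.a_mul_a, QuaternionGroup.one_def]
        congr 1
        have : ((2 * N : ℕ) : ZMod (2 * N)) = 0 := ZMod.natCast_self _
        rw [← this]
        push_cast
        ring
      · rw [QuaternionGroup.one_def]
        intro h0
        have h1 : (N : ZMod (2 * N)) = 0 := QuaternionGroup.a.inj h0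
        rw [ZMod.natCast_eq_zero_iff] at h1
        have := Nat.le_of_dvd hN h1
        omega
  · rw [QuaternionGroup.orderOf_xa]
    simp

/-- The generalized quaternion group of order 2^(n+3) contains exactly one element of order 2. -/
theorem result (n : ℕ) : Nat.card {x : QuaternionGroup (2 ^ (n + 1)) // orderOf x = 2} = 1 := by
  haveI : NeZero (2 ^ (n + 1)) := ⟨by positivity⟩
  rw [Nat.card_eq_one_iff_unique]
  refine ⟨⟨?_⟩, ⟨⟨_, (orderOf_eq_two_iff _ _).mpr rfl⟩⟩⟩
  rintro ⟨a, ha⟩ ⟨b, hb⟩
  apply Subtype.ext
  rw [orderOf_eq_two_iff] at ha hb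
  exact ha.trans hb.symm

end Cfsg.Agent.S0218
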