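import Cfsg.Statements.S0220
import Mathlib
import Cfsg.Agent.Lib.Helper16.SPE
import Cfsg.Agent.S0219
import Cfsg.Agent.Lib.Helper2.Isolated

set_option autoImplicit false
open Cfsg

namespace Cfsg.Agent.S0220

theorem involution_unique_of_isCyclic {C : Type*} [Group C] [Finite C] [IsCyclic C] {a b : C}
    (ha : orderOf a = 2) (hb : orderOf b = 2) : a = b := by
  classical
  cases nonempty_fintype C
  have hd : 2 ∣ Fintype.card C := by
    rw [← ha]
    exact orderOf_dvd_card
  have h := IsCyclic.card_orderOf_eq_totient hd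
  rw [Nat.totient_two] at h
  exact Finset.card_le_one.mp h.le a (by simp [ha]) b (by simp [hb])

theorem aux {G : Type*} [Group G] [Finite G] (x : G) (hx : orderOf x = 2) (C : Subgroup G)
    (hC : C = Subgroup.centralizer ({x} : Set G)) (S : Sylow 2 ↥C)
    (hS : IsCyclic (S : Subgroup ↥C)) : ∃ H : Subgroup G, H.index = 2 := by
  have hSC : Lib.Helper16.SylIn 2 ((S : Subgroup ↥C).map C.subtype) C := Lib.Helper16.sylIn_of_sylow S
  set S' := (S : Subgroup ↥C).map C.subtype with hS'
  have hxC : x ∈ C := by
    rw [hC, Subgroup.mem_centralizer_singleton_iff]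
  have hcyc : IsCyclic S' := by
    have e : (S : Subgroup ↥C) ≃* S' := (S : Subgroup ↥C).equivMapOfInjective C.subtype C.subtype_injective
    haveI := hS
    exact isCyclic_of_surjective e e.surjective
  -- `x ∈ S'`
  have hxS : x ∈ S' := by
    have hz : IsPGroup 2 (Subgroup.zpowers x) := Lib.Helper16.isPGroup_zpowers_of_orderOf hx
    obtain ⟨l, hl, hle⟩ := hSC.exists_conj_le hz (Subgroup.zpowers_le.mpr hxC)
    have h1 : l * x * l⁻¹ ∈ S' := hle ⟨x, Subgroup.mem_zpowers x, by simp [MulAut.conj_apply]⟩
    rw [hC, Subgroup.mem_centralizer_singleton_iff] at hl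
    rwa [hl, mul_assoc, mul_inv_cancel, mul_one] at h1
  obtain ⟨T, hT⟩ := hSC.2.1.exists_le_sylow
  have hST : S' = T := by
    by_contra hne
    have hlt : S' < T := lt_of_le_of_ne hT hne
    obtain ⟨y, hyT, hyS, hyN⟩ := Lib.Helper16.exists_mem_normalizer_of_lt T.2 hlt
    have hyx : y * x * y⁻¹ ∈ S' := (Subgroup.mem_normalizer_iff.mp hyN x).mp hxS
    have heq : y * x * y⁻¹ = x := by
      have h1 : (⟨y * x * y⁻¹, hyx⟩ : S') = ⟨x, hxS⟩ := by
        apply involution_unique_of_isCyclic
        · rw [Subgroup.orderOf_mk, Lib.Helper2.orderOf_conj_eq, hx]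
        · rw [Subgroup.orderOf_mk, hx]
      exact congrArg Subtype.val h1
    have hyC : y ∈ C := by
      rw [hC, Subgroup.mem_centralizer_singleton_iff]
      calc y * x = (y * x * y⁻¹) * y := by group
        _ = x * y := by rw [heq]
    have h2 : S' = (T : Subgroup G) ⊓ C :=
      hSC.eq_of_le (T.2.to_le inf_le_left) inf_le_right (le_inf hT hSC.1)
    apply hyS
    rw [h2]
    exact ⟨hyT, hyC⟩
  have heven : Even (Nat.card G) := by
    rw [even_iff_two_dvd, ← hx]
    exact orderOf_dvd_natCard x
  apply S0219.result heven T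
  rw [← hST]
  exact hcyc

/-- If x is an involution of a finite group G and a Sylow 2-subgroup of the centralizer of x is cyclic, then G has a subgroup of index 2; in particular G is not simple unless it has order 2. -/
theorem result {G : Type*} [Group G] [Finite G] (x : G) (hx : orderOf x = 2) (S : Sylow 2 ↥(Subgroup.centralizer ({x} : Set G))) (hS : IsCyclic (S : Subgroup ↥(Subgroup.centralizer ({x} : Set G)))) : ∃ H : Subgroup G, H.index = 2 :=
  aux x hx _ rfl S hS

end Cfsg.Agent.S0220
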