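import Mathlib
import Cfsg.Statements.S0221
import Cfsg.Agent.Lib.Helper4.NormalFour
import Cfsg.Agent.S0111


set_option autoImplicit false
open Cfsg

namespace Cfsg.Agent.S0221

open Cfsg.Agent.Lib.Helper4


/-- Let G be a finite group with no subgroup of index 2 whose 2-rank is at least 3 (it contains an elementary abelian subgroup of order 8). Then the centralizer of every involution of G also contains an elementary abelian subgroup of order 8. -/
theorem result {G : Type*} [Group G] [Finite G] (hno : ∀ H : Subgroup G, H.index ≠ 2) (hrank : ∃ E : Subgroup G, Nat.card E = 8 ∧ ∀ e ∈ E, e ^ 2 = 1) (x : G) (hx : orderOf x = 2) : ∃ E : Subgroup G, E ≤ Subgroup.centralizer ({x} : Set G) ∧ Nat.card E = 8 ∧ ∀ e ∈ E, e ^ 2 = 1 := by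
  have : Fact (Nat.Prime 2) := ⟨Nat.prime_two⟩
  obtain ⟨E0, hE0c, hE02⟩ := hrank
  obtain ⟨S, hS⟩ := (IsPGroup.of_card (p := 2) (n := 3) (by rw [hE0c]; norm_num)).exists_le_sylow
  obtain ⟨T', hidx, hT'⟩ := exists_index_two_centralizing (R := (S : Subgroup G)) S.2
    (E0.subgroupOf S) (by rw [card_subgroupOf_of_le hS, hE0c]) (by
      intro e he
      exact Subtype.ext (by simpa using hE02 e he))
  -- conjugate x into T'
  obtain ⟨k, t, htT, hkt⟩ : ∃ (k : G) (t : (S : Subgroup G)), t ∈ T' ∧ k * x * k⁻¹ = t := by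
    have hxp : IsPGroup 2 (Subgroup.zpowers x) :=
      IsPGroup.of_card (n := 1) (by rw [Nat.card_zpowers, hx, pow_one])
    obtain ⟨S1, hS1⟩ := hxp.exists_le_sylow
    obtain ⟨g, hg⟩ := MulAction.exists_smul_eq G S1 S
    have hu : g * x * g⁻¹ ∈ (S : Subgroup G) := by
      rw [← hg, Sylow.smul_def, Sylow.pointwise_smul_def]
      exact ⟨x, hS1 (Subgroup.mem_zpowers x), by simp⟩
    by_cases huT : (⟨g * x * g⁻¹, hu⟩ : (S : Subgroup G)) ∈ T'
    · exact ⟨g, _, huT, rfl⟩
    · have hidx2 : T'.index = 2 := by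
        have h1 : T'.index ≠ 1 := by
          intro h
          rw [Subgroup.index_eq_one] at h
          exact huT (h ▸ Subgroup.mem_top _)
        have h0 : T'.index ≠ 0 := Subgroup.index_ne_zero_of_finite
        omega
      have hQi : (T'.map (S : Subgroup G).subtype).relIndex (S : Subgroup G) = 2 := by
        rw [Subgroup.relIndex, Subgroup.subgroupOf,
          Subgroup.comap_map_eq_self_of_injective (Subgroup.subtype_injective _), hidx2]
      have huo : orderOf (g * x * g⁻¹) = 2 := by
        have := orderOf_injective (MulAut.conj g).toMonoidHom (MulAut.conj g).injective x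
        simpa [hx] using this
      rcases Cfsg.Agent.S0111.result S (T'.map (S : Subgroup G).subtype)
        (Subgroup.map_subtype_le _) hQi (g * x * g⁻¹) huo hu (by
          rintro ⟨y, hy, hyx⟩
          apply huT
          have : y = ⟨g * x * g⁻¹, hu⟩ := Subtype.ext hyx
          rwa [← this]) with ⟨M, _, hM, _⟩ | ⟨h, y, hy, hyx⟩
      · exact absurd hM (hno M)
      · refine ⟨h * g, y, hy, ?_⟩
        have : (y : G) = h * (g * x * g⁻¹) * h⁻¹ := hyx
        rw [this]; group
  have ht2 : t ^ 2 = 1 := by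
    apply Subtype.ext
    have : (k * x * k⁻¹) ^ 2 = 1 := by
      rw [conj_pow, ← hx, pow_orderOf_eq_one]; group
    rw [hkt] at this
    simpa using this
  obtain ⟨E1, hE1c, hE1card, hE12⟩ := hT' t htT ht2
  refine ⟨(E1.map (S : Subgroup G).subtype).map (MulAut.conj k⁻¹).toMonoidHom, ?_, ?_, ?_⟩
  · rintro _ ⟨_, ⟨e, he, rfl⟩, rfl⟩
    rw [Subgroup.mem_centralizer_singleton_iff]
    have h1 := Subgroup.mem_centralizer_singleton_iff.mp (hE1c he)
    have h2 : (e : G) * (k * x * k⁻¹) = (k * x * k⁻¹) * e := by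
      rw [hkt]
      exact congrArg Subtype.val h1
    simp only [Subgroup.coe_subtype, MulEquiv.coe_toMonoidHom, MulAut.conj_apply, inv_inv]
    calc k⁻¹ * (e : G) * k * x = k⁻¹ * ((e : G) * (k * x * k⁻¹)) * k := by group
      _ = k⁻¹ * ((k * x * k⁻¹) * e) * k := by rw [h2]
      _ = x * (k⁻¹ * (e : G) * k) := by group
  · rw [Subgroup.card_map_of_injective (MulAut.conj k⁻¹).injective,
      Subgroup.card_map_of_injective (Subgroup.subtype_injective _), hE1card]
  · rintro _ ⟨_, ⟨e, he, rfl⟩, rfl⟩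
    have h1 : ((e : G)) ^ 2 = 1 := by simpa using congrArg Subtype.val (hE12 e he)
    rw [← map_pow]
    simp [h1]

end Cfsg.Agent.S0221
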