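import Cfsg.Statements.S0226
import Mathlib

set_option autoImplicit false
open Cfsg

namespace Cfsg.Agent.S0226

/-- A finite group of even order has an odd number of involutions. -/
theorem result {G : Type*} [Group G] [Finite G] (heven : Even (Nat.card G)) : Odd (Nat.card {t : G // orderOf t = 2}) := by
  classical
  cases nonempty_fintype G
  let f : Function.End G := fun x => x⁻¹
  have hf : f ^ 2 ^ 1 = 1 := by
    funext x
    show f (f x) = x
    exact inv_inv x
  have h1 := Equiv.Perm.card_fixedPoints_modEq (p := 2) (n := 1) hf
  have e : Function.fixedPoints f ≃ Option {t : G // orderOf t = 2} :=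
    { toFun := fun x => if h : (x : G) = 1 then none else some ⟨x, by
        apply orderOf_eq_prime _ h
        have hx : (x : G)⁻¹ = x := x.2
        rw [pow_two]
        nth_rewrite 1 [← hx]
        exact inv_mul_cancel _⟩
      invFun := fun o => match o with
        | none => ⟨1, inv_one⟩
        | some t => ⟨t, by
            show (t : G)⁻¹ = t
            apply inv_eq_of_mul_eq_one_left
            rw [← pow_two]
            have := pow_orderOf_eq_one (t : G)
            rwa [t.2] at this⟩
      left_inv := by
        intro x
        by_cases h : (x : G) = 1
        · simp only [h, dite_true]
          exact Subtype.ext h.symm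
        · simp only [h, dite_false]
      right_inv := by
        intro o
        rcases o with _ | t
        · simp
        · have : (t : G) ≠ 1 := by
            intro h
            have := t.2
            rw [h] at this
            simp at this
          simp [this] }
  rw [Fintype.card_congr e, Fintype.card_option, ← Nat.card_eq_fintype_card, ← Nat.card_eq_fintype_card] at h1
  have h2 : Nat.card G % 2 = 0 := Nat.even_iff.mp heven
  have h3 : (Nat.card {t : G // orderOf t = 2} + 1) % 2 = 0 := by
    rw [← h2]; exact h1.symm
  rw [Nat.odd_iff]
  omega

end Cfsg.Agent.S0226
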