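import Cfsg.Statements.S0229
import Mathlib
import Cfsg.Agent.Lib.Helper2.Isolated
import Cfsg.Agent.S0208
import Cfsg.Agent.S0209
import Cfsg.Agent.S0211

set_option autoImplicit false
open Cfsg

namespace Cfsg.Agent.S0229

/-- Let t be an involution of a Sylow 2-subgroup S of a finite group G, conjugate in G to no other element of S, and let s be an involution of G not conjugate to t. Then the order of st is twice an odd number. -/
theorem result {G : Type*} [Group G] [Finite G] (S : Sylow 2 G) (t : G) (ht : orderOf t = 2) (htS : t ∈ S) (hiso : ∀ g : G, g * t * g⁻¹ ∈ S → g * t * g⁻¹ = t) (s : G) (hs : orderOf s = 2) (hns : ¬ IsConj s t) : orderOf (s * t) % 4 = 2 := by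
  have hcomm : orderOf (t * s) = orderOf (s * t) := by
    have : t * s = t * (s * t) * t⁻¹ := by group
    rw [this, Lib.Helper2.orderOf_conj_eq]
  rcases Nat.even_or_odd (orderOf (s * t)) with heven | hodd
  · have h4 : ¬ 4 ∣ orderOf (s * t) := by
      intro h4
      rw [← hcomm] at h4 heven
      obtain ⟨d, -, hd⟩ := (S0211.result t s ht hs heven).mpr h4
      obtain ⟨hz, hzt, -⟩ := S0209.result t s ht hs heven
      have hc : Commute t (d * t * d⁻¹) := by
        rw [hd]
        exact (Commute.refl t).mul_right hzt.symm
      have := Lib.Helper2.isolated_commute S t ht hiso d hc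
      rw [hd] at this
      exact Lib.Helper2.ne_one_of_orderOf_two hz (mul_eq_left.mp this)
    have := Nat.even_iff.mp heven
    omega
  · exfalso
    obtain ⟨d, -, hd⟩ := S0208.result s t hs ht hodd
    exact hns (isConj_iff.mpr ⟨d, hd⟩)

end Cfsg.Agent.S0229
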