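import Cfsg.Statements.S0230
import Mathlib
import Cfsg.Agent.Lib.Helper2.Isolated
import Cfsg.Agent.Lib.Helper2.Count
import Cfsg.Agent.S0208
import Cfsg.Agent.S0209

set_option autoImplicit false
open Cfsg

namespace Cfsg.Agent.S0230

/-- Let G be a finite group with two non-conjugate involutions, and let t be an involution whose centralizer has maximal order among centralizers of involutions. Then |G| < |C_G(t)|^3. -/
theorem result {G : Type*} [Group G] [Finite G] (s t : G) (hs : orderOf s = 2) (ht : orderOf t = 2) (hnc : ¬ IsConj s t) (hmax : ∀ u : G, orderOf u = 2 → Nat.card (Subgroup.centralizer ({u} : Set G)) ≤ Nat.card (Subgroup.centralizer ({t} : Set G))) : Nat.card G < Nat.card (Subgroup.centralizer ({t} : Set G)) ^ 3 := by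
  classical
  cases nonempty_fintype G
  set m := Nat.card (Subgroup.centralizer ({t} : Set G)) with hm
  have hcl := Lib.Helper2.card_conj_mul_card_centralizer t
  rw [← hm] at hcl
  -- the involutions of `C(s)`
  let I : Finset G := Finset.univ.filter (fun z => z ∈ Subgroup.centralizer ({s} : Set G) ∧ orderOf z = 2)
  let Cz : G → Finset G := fun z => Finset.univ.filter (fun y => y ∈ Subgroup.centralizer ({z} : Set G))
  have hCz : ∀ z, (Cz z).card = Nat.card (Subgroup.centralizer ({z} : Set G)) := by
    intro z
    rw [Nat.card_eq_fintype_card, Fintype.card_subtype]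
  have hsub : Finset.univ.filter (fun y => IsConj t y) ⊆ I.biUnion Cz := by
    intro y hy
    rw [Finset.mem_filter] at hy
    have hty := hy.2
    obtain ⟨c, hc⟩ := isConj_iff.mp hty
    have hy2 : orderOf y = 2 := by rw [← hc, Lib.Helper2.orderOf_conj_eq, ht]
    have hnc' : ¬ IsConj s y := fun h => hnc (h.trans hty.symm)
    have heven : Even (orderOf (s * y)) := by
      by_contra hodd
      rw [Nat.not_even_iff_odd] at hodd
      obtain ⟨d, -, hd⟩ := S0208.result s y hs hy2 hodd
      exact hnc' (isConj_iff.mpr ⟨d, hd⟩)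
    obtain ⟨hz, hzs, hzy⟩ := S0209.result s y hs hy2 heven
    rw [Finset.mem_biUnion]
    refine ⟨(s * y) ^ (orderOf (s * y) / 2), ?_, ?_⟩
    · rw [Finset.mem_filter]
      refine ⟨Finset.mem_univ _, ?_, hz⟩
      rw [Subgroup.mem_centralizer_singleton_iff]
      exact hzs
    · rw [Finset.mem_filter]
      refine ⟨Finset.mem_univ _, ?_⟩
      rw [Subgroup.mem_centralizer_singleton_iff]
      exact hzy.symm
  have h1 : Nat.card {x : G // IsConj t x} ≤ ∑ z ∈ I, (Cz z).card := by
    rw [Nat.card_eq_fintype_card, Fintype.card_subtype]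
    exact (Finset.card_le_card hsub).trans Finset.card_biUnion_le
  have h2 : ∑ z ∈ I, (Cz z).card ≤ I.card * m := by
    rw [← smul_eq_mul, ← Finset.sum_const]
    apply Finset.sum_le_sum
    intro z hz
    rw [hCz]
    exact hmax z (Finset.mem_filter.mp hz).2.2
  have h3 : I.card + 1 ≤ Nat.card (Subgroup.centralizer ({s} : Set G)) := by
    rw [← hCz s]
    have hnot : (1 : G) ∉ I := by
      intro h
      have := (Finset.mem_filter.mp h).2.2
      simp at this
    rw [← Finset.card_insert_of_notMem hnot]
    apply Finset.card_le_card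
    intro z hz
    rw [Finset.mem_insert] at hz
    rw [Finset.mem_filter]
    refine ⟨Finset.mem_univ _, ?_⟩
    rcases hz with rfl | hz
    · exact Subgroup.one_mem _
    · exact (Finset.mem_filter.mp hz).2.1
  have h4 : I.card + 1 ≤ m := h3.trans (hmax s hs)
  have hmpos : 0 < m := Nat.card_pos
  calc Nat.card G = Nat.card {x : G // IsConj t x} * m := hcl.symm
    _ ≤ (I.card * m) * m := Nat.mul_le_mul_right _ (h1.trans h2)
    _ < (m * m) * m := by
        apply Nat.mul_lt_mul_of_pos_right _ hmpos
        apply Nat.mul_lt_mul_of_pos_right _ hmpos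
        omega
    _ = m ^ 3 := by ring

end Cfsg.Agent.S0230
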