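import Cfsg.Statements.S0231
import Mathlib
import Cfsg.Agent.Lib.Helper2.Isolated
import Cfsg.Agent.S0208
import Cfsg.Agent.S0209

set_option autoImplicit false
open scoped Pointwise
open Cfsg

namespace Cfsg.Agent.S0231

open scoped Pointwise in
theorem ti_elementwise {G : Type*} [Group G] [Finite G] (T : Sylow 2 G)
    (hTI : ∀ g : G, MulAut.conj g • (T : Subgroup G) ≠ T → MulAut.conj g • (T : Subgroup G) ⊓ T = ⊥)
    (g x : G) (hx : x ∈ T) (hgx : g⁻¹ * x * g ∈ T) (hx1 : x ≠ 1) :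
    g ∈ Subgroup.normalizer ((T : Subgroup G) : Set G) := by
  by_contra hg
  have hne : MulAut.conj g • (T : Subgroup G) ≠ T := by
    intro h
    apply hg
    apply Sylow.smul_eq_iff_mem_normalizer.mp
    exact Sylow.ext (by rw [Sylow.coe_subgroup_smul]; exact h)
  have h1 := hTI g hne
  have hmem : x ∈ MulAut.conj g • (T : Subgroup G) ⊓ T := by
    refine Subgroup.mem_inf.mpr ⟨?_, hx⟩
    rw [Subgroup.mem_pointwise_smul_iff_inv_smul_mem, MulAut.smul_def, ← map_inv, MulAut.conj_apply,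
      inv_inv]
    exact hgx
  rw [h1, Subgroup.mem_bot] at hmem
  exact hx1 hmem

/-- Let T be a Sylow 2-subgroup of the finite group G which is not normal and which intersects every other Sylow 2-subgroup trivially. Then G has a single conjugacy class of involutions. -/
theorem result {G : Type*} [Group G] [Finite G] (T : Sylow 2 G) (hnn : ¬ (T : Subgroup G).Normal) (hTI : ∀ g : G, MulAut.conj g • (T : Subgroup G) ≠ T → MulAut.conj g • (T : Subgroup G) ⊓ T = ⊥) (s t : G) (hs : orderOf s = 2) (ht : orderOf t = 2) : IsConj s t := by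
  by_contra hnc
  have hU : ∀ (s a b : G), s ≠ 1 → a⁻¹ * s * a ∈ T → b⁻¹ * s * b ∈ T →
      a⁻¹ * b ∈ Subgroup.normalizer ((T : Subgroup G) : Set G) := by
    intro s a b hs1 ha hb
    apply ti_elementwise T hTI (a⁻¹ * b) (a⁻¹ * s * a) ha
    · have : (a⁻¹ * b)⁻¹ * (a⁻¹ * s * a) * (a⁻¹ * b) = b⁻¹ * s * b := by group
      rw [this]
      exact hb
    · intro h
      apply hs1
      have : s = a * (a⁻¹ * s * a) * a⁻¹ := by group
      rw [this, h]
      group
  have hCm : ∀ s z : G, orderOf s = 2 → orderOf z = 2 → Commute s z →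
      ∃ a : G, a⁻¹ * s * a ∈ T ∧ a⁻¹ * z * a ∈ T := by
    intro s z hs hz hc
    obtain ⟨c, hcT⟩ := Lib.Helper2.exists_conj_mem_sylow T
      (Lib.Helper2.isPGroup_closure_commuting_involutions (Lib.Helper2.mul_self_of_orderOf_two hs)
        (Lib.Helper2.mul_self_of_orderOf_two hz) hc)
    refine ⟨c⁻¹, ?_, ?_⟩
    · simpa using hcT s Lib.Helper2.fst_mem_closure_pair
    · simpa using hcT z Lib.Helper2.snd_mem_closure_pair
  have hD : ∀ s t : G, orderOf s = 2 → orderOf t = 2 → ¬ IsConj s t →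
      ∃ a : G, a⁻¹ * s * a ∈ T ∧ a⁻¹ * t * a ∈ T := by
    intro s t hs ht hnc
    have heven : Even (orderOf (s * t)) := by
      by_contra hodd
      rw [Nat.not_even_iff_odd] at hodd
      obtain ⟨d, -, hd⟩ := S0208.result s t hs ht hodd
      exact hnc (isConj_iff.mpr ⟨d, hd⟩)
    obtain ⟨hz, hzs, hzt⟩ := S0209.result s t hs ht heven
    obtain ⟨a, has, haz⟩ := hCm _ _ hs hz hzs.symm
    obtain ⟨b, hbz, hbt⟩ := hCm _ _ hz ht hzt
    have hn := hU _ a b (Lib.Helper2.ne_one_of_orderOf_two hz) haz hbz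
    refine ⟨a, has, ?_⟩
    have h1 := (Subgroup.mem_normalizer_iff.mp hn (b⁻¹ * t * b)).mp hbt
    have : a⁻¹ * b * (b⁻¹ * t * b) * (a⁻¹ * b)⁻¹ = a⁻¹ * t * a := by group
    rw [this] at h1
    exact h1
  obtain ⟨a, has, hat⟩ := hD s t hs ht hnc
  apply hnn
  rw [← Subgroup.normalizer_eq_top_iff, eq_top_iff]
  intro g _
  have hs' : orderOf ((a * g * a⁻¹) * s * (a * g * a⁻¹)⁻¹) = 2 :=
    (Lib.Helper2.orderOf_conj_eq _ _).trans hs
  have hnc' : ¬ IsConj ((a * g * a⁻¹) * s * (a * g * a⁻¹)⁻¹) t := by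
    intro h
    apply hnc
    exact (isConj_iff.mpr ⟨a * g * a⁻¹, rfl⟩ : IsConj s _).trans h
  obtain ⟨c, hcs, hct⟩ := hD _ t hs' ht hnc'
  have h1 := hU t a c (Lib.Helper2.ne_one_of_orderOf_two ht) hat hct
  have h2 := hU s a (a * g⁻¹ * a⁻¹ * c) (Lib.Helper2.ne_one_of_orderOf_two hs) has (by
    have : (a * g⁻¹ * a⁻¹ * c)⁻¹ * s * (a * g⁻¹ * a⁻¹ * c) =
      c⁻¹ * ((a * g * a⁻¹) * s * (a * g * a⁻¹)⁻¹) * c := by group
    rw [this]
    exact hcs)
  have h3 := Subgroup.mul_mem _ h1 (Subgroup.inv_mem _ h2)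
  have : a⁻¹ * c * (a⁻¹ * (a * g⁻¹ * a⁻¹ * c))⁻¹ = g := by group
  rw [this] at h3
  exact h3

end Cfsg.Agent.S0231
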