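import Cfsg.Statements.S0232
import Mathlib
import Cfsg.Agent.Lib.Helper2.InvCount
import Cfsg.Agent.S0233
import Cfsg.Agent.S0219
import Cfsg.Agent.Lib.Helper2.Isolated

set_option autoImplicit false
open Cfsg

namespace Cfsg.Agent.S0232

theorem case_odd_center {G : Type*} [Group G] [Finite G] (heven : Even (Nat.card G))
    (hgt : 2 < Nat.card G) (hZ : Odd (Nat.card (Subgroup.center G))) :
    ∃ H : Subgroup G, H ≠ ⊤ ∧ Nat.card G < (Nat.card H) ^ 3 := by
  classical
  cases nonempty_fintype G
  haveI : Nonempty {H : Subgroup G // H ≠ ⊤} := ⟨⟨⊥, by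
    intro h
    have := congrArg (fun K : Subgroup G => Nat.card K) h
    simp only [Subgroup.card_bot, Subgroup.card_top] at this
    omega⟩⟩
  obtain ⟨⟨H, hH⟩, hmax⟩ := Finite.exists_max (fun K : {H : Subgroup G // H ≠ ⊤} => Nat.card K.1)
  refine ⟨H, hH, ?_⟩
  have hmax' : ∀ K : Subgroup G, K ≠ ⊤ → Nat.card K ≤ Nat.card H := fun K hK => hmax ⟨K, hK⟩
  set h := Nat.card H with hh
  set N := Nat.card G with hN
  set n := Lib.Helper2.numInv G with hn
  have hhpos : 0 < h := Nat.card_pos
  obtain ⟨t, ht⟩ := exists_prime_orderOf_dvd_card' 2 (even_iff_two_dvd.mp heven)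
  have hNn : N ≤ n * h := by
    have h1 : N ≤ n * Nat.card (Subgroup.centralizer ({t} : Set G)) := by
      rw [hN, ← Lib.Helper2.card_conj_mul_card_centralizer t]
      apply Nat.mul_le_mul_right
      apply Nat.card_le_card_of_injective
        (fun x : {x : G // IsConj t x} => (⟨x.1, by
          obtain ⟨g, hg⟩ := isConj_iff.mp x.2
          rw [← hg, Lib.Helper2.orderOf_conj_eq, ht]⟩ : {t : G // orderOf t = 2}))
      intro a b hab
      have h : (a : G) = b := congrArg (fun z : {t : G // orderOf t = 2} => (z : G)) hab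
      exact Subtype.ext h
    refine h1.trans (Nat.mul_le_mul_left _ (hmax' _ ?_))
    exact S0233.centralizer_ne_top_of_real hZ t (Lib.Helper2.ne_one_of_orderOf_two ht)
      (Lib.Helper2.isConj_inv_of_orderOf_two ht)
  have hBF := Lib.Helper2.numInv_sq_add_le (G := G)
  rw [← hn] at hBF
  set R := Finset.univ.filter (fun x : G => x ≠ 1 ∧ IsConj x x⁻¹) with hR
  have h1 : ∑ x ∈ R, Nat.card (Subgroup.centralizer ({x} : Set G)) ≤ R.card * h := by
    rw [← smul_eq_mul, ← Finset.sum_const]
    apply Finset.sum_le_sum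
    intro x hx
    rw [hR, Finset.mem_filter] at hx
    exact hmax' _ (S0233.centralizer_ne_top_of_real hZ x hx.2.1 hx.2.2)
  have hRcard : R.card ≤ N := by
    rw [hN, Nat.card_eq_fintype_card]
    exact Finset.card_le_univ _
  have hnpos : 0 < n := by
    haveI : Nonempty {t : G // orderOf t = 2} := ⟨⟨t, ht⟩⟩
    exact Nat.card_pos
  have h2 : n * n < N * h := by
    have : R.card * h ≤ N * h := Nat.mul_le_mul_right _ hRcard
    omega
  have h3 : N * N < N * h ^ 3 := by
    calc N * N ≤ (n * h) * (n * h) := Nat.mul_le_mul hNn hNn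
      _ = (n * n) * (h * h) := by ring
      _ < (N * h) * (h * h) := Nat.mul_lt_mul_of_pos_right h2 (by positivity)
      _ = N * h ^ 3 := by ring
  exact Nat.lt_of_mul_lt_mul_left h3

theorem aux (N : ℕ) : ∀ (G : Type*) [Group G] [Finite G], Nat.card G = N → Even (Nat.card G) →
    2 < Nat.card G → ∃ H : Subgroup G, H ≠ ⊤ ∧ Nat.card G < (Nat.card H) ^ 3 := by
  induction N using Nat.strong_induction_on with
  | _ N ih =>
  intro G _ _ hN heven hgt
  by_cases hZ : Odd (Nat.card (Subgroup.center G))
  · exact case_odd_center heven hgt hZ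
  rw [Nat.not_odd_iff_even, even_iff_two_dvd] at hZ
  obtain ⟨⟨z, hzZ⟩, hz⟩ := exists_prime_orderOf_dvd_card' 2 hZ
  rw [Subgroup.orderOf_mk] at hz
  haveI hnorm : (Subgroup.zpowers z).Normal := by
    constructor
    intro a ha g
    obtain ⟨k, rfl⟩ := Subgroup.mem_zpowers_iff.mp ha
    have hc : Commute g z := (Subgroup.mem_center_iff.mp hzZ g)
    have : g * z ^ k * g⁻¹ = z ^ k := by
      rw [(hc.zpow_right k).eq, mul_assoc, mul_inv_cancel, mul_one]
    rw [this]
    exact Subgroup.zpow_mem _ (Subgroup.mem_zpowers z) k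
  have hcz : Nat.card (Subgroup.zpowers z) = 2 := by rw [Nat.card_zpowers, hz]
  have hidx : 2 * (Subgroup.zpowers z).index = Nat.card G := by
    rw [← hcz]
    exact Subgroup.card_mul_index _
  have hQ : Nat.card (G ⧸ Subgroup.zpowers z) = (Subgroup.zpowers z).index := rfl
  by_cases hQeven : Even (Nat.card (G ⧸ Subgroup.zpowers z))
  · by_cases hQ2 : 2 < Nat.card (G ⧸ Subgroup.zpowers z)
    · obtain ⟨K, hK, hlt⟩ := ih (Nat.card (G ⧸ Subgroup.zpowers z)) (by omega)
        (G ⧸ Subgroup.zpowers z) rfl hQeven hQ2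
      refine ⟨K.comap (QuotientGroup.mk' (Subgroup.zpowers z)), ?_, ?_⟩
      · intro htop
        apply hK
        rw [← Subgroup.index_eq_one] at htop ⊢
        rwa [Subgroup.index_comap_of_surjective K (QuotientGroup.mk'_surjective _)] at htop
      · have h1 := (K.comap (QuotientGroup.mk' (Subgroup.zpowers z))).card_mul_index
        rw [Subgroup.index_comap_of_surjective K (QuotientGroup.mk'_surjective _)] at h1
        have h2 := K.card_mul_index
        have h3 : Nat.card (K.comap (QuotientGroup.mk' (Subgroup.zpowers z))) = 2 * Nat.card K := by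
          have hpos : 0 < K.index := Nat.pos_of_ne_zero Subgroup.index_ne_zero_of_finite
          apply Nat.eq_of_mul_eq_mul_right hpos
          rw [h1, mul_assoc, h2, hQ, hidx]
        rw [h3, ← hidx, ← hQ]
        have : (2 * Nat.card K) ^ 3 = 8 * (Nat.card K) ^ 3 := by ring
        omega
    · refine ⟨Subgroup.zpowers z, ?_, ?_⟩
      · intro htop
        rw [htop, Subgroup.card_top] at hcz
        omega
      · rw [hcz]
        omega
  · rw [Nat.not_even_iff_odd] at hQeven
    have hp : IsPGroup 2 (Subgroup.zpowers z) := IsPGroup.of_card (n := 1) (by rw [hcz, pow_one])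
    have hnd : ¬ 2 ∣ (Subgroup.zpowers z).index := by
      rw [← hQ, ← even_iff_two_dvd, Nat.not_even_iff_odd]
      exact hQeven
    obtain ⟨H, hH⟩ := S0219.result heven (hp.toSylow hnd)
      (inferInstanceAs (IsCyclic (Subgroup.zpowers z)))
    refine ⟨H, ?_, ?_⟩
    · intro htop
      rw [htop, Subgroup.index_top] at hH
      omega
    · have h1 := H.card_mul_index
      rw [hH] at h1
      rw [← h1]
      have h2 : 2 ≤ Nat.card H := by omega
      nlinarith [Nat.pow_le_pow_left h2 2]

/-- A finite group G of even order greater than 2 has a proper subgroup H with |G| < |H|^3. -/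
theorem result {G : Type*} [Group G] [Finite G] (heven : Even (Nat.card G)) (hgt : 2 < Nat.card G) : ∃ H : Subgroup G, H ≠ ⊤ ∧ Nat.card G < (Nat.card H) ^ 3 := by
  exact aux _ G rfl heven hgt

end Cfsg.Agent.S0232
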