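import Cfsg.Statements.S0234
import Mathlib
import Cfsg.Agent.Lib.Helper2.InvCount
import Cfsg.Agent.S0233
import Cfsg.Agent.S0219
import Cfsg.Agent.S0061
import Cfsg.Agent.Lib.Helper2.AltEmbed

set_option autoImplicit false
open Cfsg

namespace Cfsg.Agent.S0234

set_option maxRecDepth 100000 in
theorem count_A5 : (Finset.univ.filter (fun t : Equiv.Perm (Fin 5) =>
    Equiv.Perm.sign t = 1 ∧ t ≠ 1 ∧ t * t = 1)).card = 15 := by decide

theorem numInv_A5 : Nat.card {t : alternatingGroup (Fin 5) // orderOf t = 2} = 15 := by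
  rw [← count_A5, ← Fintype.card_subtype, ← Nat.card_eq_fintype_card]
  apply Nat.card_congr
  exact
    { toFun := fun t => ⟨t.1.1, Equiv.Perm.mem_alternatingGroup.mp t.1.2, by
          intro h
          exact Lib.Helper2.ne_one_of_orderOf_two t.2 (Subtype.ext h), by
          exact congrArg Subtype.val (Lib.Helper2.mul_self_of_orderOf_two t.2)⟩
      invFun := fun t => ⟨⟨t.1, Equiv.Perm.mem_alternatingGroup.mpr t.2.1⟩, by
          apply Lib.Helper2.orderOf_two_of_mul_self
          · exact Subtype.ext t.2.2.2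
          · intro h
            exact t.2.2.1 (congrArg Subtype.val h)⟩
      left_inv := fun t => rfl
      right_inv := fun t => rfl }

theorem cases60 (N : ℕ) (h : N ∣ 60) :
    N ∣ 2 ^ 2 * 3 ∨ N ∣ 2 ^ 2 * 5 ∨ N = 30 ∨ N = 60 ∨ N = 15 := by
  have hle : N ≤ 60 := Nat.le_of_dvd (by norm_num) h
  interval_cases N <;> revert h <;> decide

theorem not_comm {G : Type*} [Group G] [Finite G] [IsSimpleGroup G] (heven : Even (Nat.card G))
    (hgt : 2 < Nat.card G) : ¬ (∀ a b : G, a * b = b * a) := by
  intro hcomm
  obtain ⟨t, ht⟩ := exists_prime_orderOf_dvd_card' 2 (even_iff_two_dvd.mp heven)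
  have hn : (Subgroup.zpowers t).Normal := by
    constructor
    intro a ha g
    rw [hcomm g a, mul_assoc, mul_inv_cancel, mul_one]
    exact ha
  rcases hn.eq_bot_or_eq_top with h | h
  · rw [Subgroup.zpowers_eq_bot] at h
    exact Lib.Helper2.ne_one_of_orderOf_two ht h
  · have h1 : Nat.card (Subgroup.zpowers t) = 2 := by rw [Nat.card_zpowers, ht]
    rw [h, Subgroup.card_top] at h1
    omega

theorem no_index_two {G : Type*} [Group G] [Finite G] [IsSimpleGroup G]
    (hgt : 2 < Nat.card G) (H : Subgroup G) : H.index ≠ 2 := by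
  intro h2
  have hn : H.Normal := Subgroup.normal_of_index_eq_two h2
  rcases hn.eq_bot_or_eq_top with h | h
  · rw [h, Subgroup.index_bot] at h2
    omega
  · rw [h, Subgroup.index_top] at h2
    omega

theorem not_solvable {G : Type*} [Group G] [Finite G] [IsSimpleGroup G] (heven : Even (Nat.card G))
    (hgt : 2 < Nat.card G) : ¬ Group.IsSolvable G := by
  intro hs
  exact not_comm heven hgt (IsSimpleGroup.comm_iff_isSolvable.mpr hs)

/-- In a finite simple group G of even order greater than 2, the number n of involutions satisfies 3n < |G|. -/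
theorem result {G : Type*} [Group G] [Finite G] [IsSimpleGroup G] (heven : Even (Nat.card G)) (hgt : 2 < Nat.card G) : 3 * Nat.card {t : G // orderOf t = 2} < Nat.card G := by
  classical
  by_contra hcon
  rw [not_lt] at hcon
  set n := Nat.card {t : G // orderOf t = 2} with hn
  set N := Nat.card G with hN
  have hZ : Odd (Nat.card (Subgroup.center G)) := by
    rcases (inferInstance : (Subgroup.center G).Normal).eq_bot_or_eq_top with hZ | hZ
    · rw [hZ, Subgroup.card_bot]
      exact odd_one
    · exfalso
      apply not_comm heven hgt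
      intro a b
      have : b ∈ Subgroup.center G := hZ ▸ Subgroup.mem_top b
      exact (Subgroup.mem_center_iff.mp this a)
  obtain ⟨H, hH, hidx⟩ := S0233.result heven hZ
  rcases hidx with h2 | hlt
  · exact no_index_two hgt H h2
  rw [← hn, ← hN] at hlt
  have hk : H.index ≤ 5 := by
    have h1 : N * (N + n) ≤ 12 * n ^ 2 := by
      calc N * (N + n) ≤ (3 * n) * (3 * n + n) := Nat.mul_le_mul hcon (by omega)
        _ = 12 * n ^ 2 := by ring
    have h2 : (2 * H.index) * n ^ 2 < 12 * n ^ 2 := lt_of_lt_of_le hlt h1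
    have h3 := Nat.lt_of_mul_lt_mul_right h2
    omega
  have hcore := Lib.Helper2.normalCore_eq_bot_of_isSimpleGroup H hH
  cases nonempty_fintype (G ⧸ H)
  have hc : Fintype.card (G ⧸ H) = H.index := by
    rw [← Nat.card_eq_fintype_card]
    rfl
  have hinj : Function.Injective (MulAction.toPermHom G (G ⧸ H)) := by
    rw [Subgroup.normalCore_eq_ker] at hcore
    exact (MonoidHom.ker_eq_bot_iff _).mp hcore
  haveI : Nontrivial (G ⧸ H) := by
    rw [← Fintype.one_lt_card_iff_nontrivial, hc]
    exact Subgroup.one_lt_index_of_ne_top hH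
  have hle : (MulAction.toPermHom G (G ⧸ H)).range ≤ alternatingGroup (G ⧸ H) := by
    rcases (inferInstance : (Equiv.Perm.sign.comp (MulAction.toPermHom G (G ⧸ H))).ker.Normal).eq_bot_or_eq_top
      with hk | hk
    · exfalso
      have hinj2 : Function.Injective (Equiv.Perm.sign.comp (MulAction.toPermHom G (G ⧸ H))) :=
        (MonoidHom.ker_eq_bot_iff _).mp hk
      have := Nat.card_le_card_of_injective _ hinj2
      rw [Nat.card_eq_fintype_card (α := ℤˣ), Fintype.card_units_int] at this
      omega
    · rintro _ ⟨g, rfl⟩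
      rw [Equiv.Perm.mem_alternatingGroup]
      have : g ∈ (Equiv.Perm.sign.comp (MulAction.toPermHom G (G ⧸ H))).ker := hk ▸ Subgroup.mem_top g
      exact this
  have hdvd : 2 * N ∣ (H.index).factorial := by
    have h1 : Nat.card (MulAction.toPermHom G (G ⧸ H)).range = N :=
      (Nat.card_congr (MonoidHom.ofInjective hinj).toEquiv).symm
    have h2 := Subgroup.card_dvd_of_le hle
    rw [h1] at h2
    have h3 := two_mul_nat_card_alternatingGroup (α := G ⧸ H)
    rw [Nat.card_eq_fintype_card (α := Equiv.Perm (G ⧸ H)), Fintype.card_perm, hc] at h3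
    rw [← h3]
    exact Nat.mul_dvd_mul_left 2 h2
  have h120 : 2 * N ∣ 120 := hdvd.trans (Nat.factorial_dvd_factorial hk)
  have h60 : N ∣ 60 := (Nat.mul_dvd_mul_iff_left (by norm_num : 0 < 2)).mp (h120 : 2 * N ∣ 2 * 60)
  have hN2 : N % 2 = 0 := Nat.even_iff.mp heven
  rcases cases60 N h60 with h | h | h | h | h
  · exact not_solvable heven hgt (S0061.main Nat.prime_two Nat.prime_three N G rfl ⟨2, h⟩)
  · exact not_solvable heven hgt (S0061.main Nat.prime_two Nat.prime_five N G rfl ⟨2, h⟩)
  · obtain ⟨t, ht⟩ := exists_prime_orderOf_dvd_card' 2 (even_iff_two_dvd.mp heven)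
    have hcz : Nat.card (Subgroup.zpowers t) = 2 := by rw [Nat.card_zpowers, ht]
    have hp : IsPGroup 2 (Subgroup.zpowers t) := IsPGroup.of_card (n := 1) (by rw [hcz, pow_one])
    have hnd : ¬ 2 ∣ (Subgroup.zpowers t).index := by
      have h1 := (Subgroup.zpowers t).card_mul_index
      rw [hcz, ← hN, h] at h1
      omega
    obtain ⟨K, hK⟩ := S0219.result heven (hp.toSylow hnd)
      (inferInstanceAs (IsCyclic (Subgroup.zpowers t)))
    exact no_index_two hgt K hK
  · have hk5 : H.index = 5 := by
      rw [h] at hdvd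
      have hle := Nat.le_of_dvd (Nat.factorial_pos _) hdvd
      by_contra hne
      have h4 : H.index ≤ 4 := by omega
      have := Nat.factorial_le h4
      simp [Nat.factorial] at this
      omega
    obtain ⟨e⟩ := Lib.Helper2.nonempty_mulEquiv_alternatingGroup_of_index H 5 hk5 hcore
      (by rw [← hN, h]; rfl)
    have hn15 : n = 15 := by
      rw [hn, ← numInv_A5]
      apply Nat.card_congr
      exact e.toEquiv.subtypeEquiv (fun t => by
        show orderOf t = 2 ↔ orderOf (e t) = 2
        rw [MulEquiv.orderOf_eq])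
    omega
  · omega

end Cfsg.Agent.S0234
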