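import Cfsg.Statements.S0240
import Mathlib
import Cfsg.Agent.Lib.Helper2.Dihedral

set_option autoImplicit false
open Cfsg

namespace Cfsg.Agent.S0240

/-- Let G be a finite group with n involutions and H a subgroup with |H|·(n+1) > |G|. Then some nontrivial h ∈ H is strongly real in G: an involution t of G satisfies t h t⁻¹ = h⁻¹. -/
theorem result {G : Type*} [Group G] [Finite G] (H : Subgroup G) (hH : Nat.card G < Nat.card H * (Nat.card {t : G // orderOf t = 2} + 1)) : ∃ h : G, h ∈ H ∧ h ≠ 1 ∧ ∃ t : G, orderOf t = 2 ∧ t * h * t⁻¹ = h⁻¹ := by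
  classical
  cases nonempty_fintype G
  have hidx : Nat.card (G ⧸ H) < Nat.card (Option {t : G // orderOf t = 2}) := by
    rw [Finite.card_option]
    have h1 := H.card_mul_index
    rw [← h1] at hH
    exact Nat.lt_of_mul_lt_mul_left hH
  rw [Nat.card_eq_fintype_card, Nat.card_eq_fintype_card] at hidx
  let f : Option {t : G // orderOf t = 2} → G := fun o => match o with
    | none => 1
    | some t => t.1
  have hf2 : ∀ o, f o * f o = 1 := by
    intro o
    rcases o with _ | t
    · exact one_mul 1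
    · exact Lib.Helper2.mul_self_of_orderOf_two t.2
  have hfinj : Function.Injective f := by
    intro a b hab
    rcases a with _ | ⟨a, ha⟩ <;> rcases b with _ | ⟨b, hb⟩
    · rfl
    · exact absurd (show (1 : G) = b from hab).symm (Lib.Helper2.ne_one_of_orderOf_two hb)
    · exact absurd (show a = (1 : G) from hab) (Lib.Helper2.ne_one_of_orderOf_two ha)
    · have : a = b := hab
      subst this
      rfl
  obtain ⟨a, b, hab, heq⟩ := Fintype.exists_ne_map_eq_of_card_lt (fun o => ((f o : G) : G ⧸ H)) hidx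
  have hmem : (f a)⁻¹ * f b ∈ H := QuotientGroup.eq.mp heq
  rw [Lib.Helper2.inv_eq_of_mul_self (hf2 a)] at hmem
  have hne : f a * f b ≠ 1 := by
    intro h
    apply hab
    apply hfinj
    rw [← Lib.Helper2.inv_eq_of_mul_self (hf2 b)]
    exact eq_inv_of_mul_eq_one_left h
  refine ⟨f a * f b, hmem, hne, ?_⟩
  have hinv : (f a * f b)⁻¹ = f b * f a := by
    rw [mul_inv_rev, Lib.Helper2.inv_eq_of_mul_self (hf2 a), Lib.Helper2.inv_eq_of_mul_self (hf2 b)]
  rcases a with _ | ⟨a, ha⟩
  · rcases b with _ | ⟨b, hb⟩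
    · exact absurd rfl hab
    · refine ⟨b, hb, ?_⟩
      rw [hinv]
      show b * (1 * b) * b⁻¹ = b * 1
      group
  · refine ⟨a, ha, ?_⟩
    rw [hinv]
    show a * (a * f b) * a⁻¹ = f b * a
    rw [← mul_assoc, Lib.Helper2.mul_self_of_orderOf_two ha, one_mul,
      Lib.Helper2.inv_eq_of_mul_self (Lib.Helper2.mul_self_of_orderOf_two ha)]

end Cfsg.Agent.S0240
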