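import Cfsg.Statements.S0241
import Mathlib
import Cfsg.Agent.Lib.Helper2.Dihedral

set_option autoImplicit false
open Cfsg

namespace Cfsg.Agent.S0241

/-- If x ≠ 1 is conjugate to x⁻¹ in a finite group G and |C_G(x)| is odd, then some involution t satisfies t x t⁻¹ = x⁻¹. -/
theorem result {G : Type*} [Group G] [Finite G] (x : G) (hx : x ≠ 1) (hreal : IsConj x x⁻¹) (hodd : Odd (Nat.card (Subgroup.centralizer ({x} : Set G)))) : ∃ t : G, orderOf t = 2 ∧ t * x * t⁻¹ = x⁻¹ := by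
  obtain ⟨g, hg⟩ := isConj_iff.mp hreal
  have hg2 : g ^ 2 ∈ Subgroup.centralizer ({x} : Set G) := by
    rw [Subgroup.mem_centralizer_singleton_iff]
    have h1 : g * x = x⁻¹ * g := by rw [← hg]; group
    have h2 : g * x⁻¹ = x * g := by
      have : x = g⁻¹ * x⁻¹ * g := by rw [← hg]; group
      calc g * x⁻¹ = g * (g⁻¹ * x⁻¹ * g)⁻¹ := by rw [← this]
        _ = g * (g⁻¹ * x * g) := by group
        _ = x * g := by group
    rw [pow_two, mul_assoc, h1, ← mul_assoc, h2, mul_assoc]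
  have hk : Odd (orderOf (g ^ 2)) := by
    have h1 : orderOf (g ^ 2) ∣ Nat.card (Subgroup.centralizer ({x} : Set G)) := by
      have := orderOf_dvd_natCard (⟨g ^ 2, hg2⟩ : Subgroup.centralizer ({x} : Set G))
      rwa [Subgroup.orderOf_mk] at this
    exact Odd.of_dvd_nat hodd h1
  obtain ⟨j, hj⟩ := hk
  have hinv : g ^ (orderOf (g ^ 2)) * x * (g ^ (orderOf (g ^ 2)))⁻¹ = x⁻¹ := by
    have hc : Commute ((g ^ 2) ^ j) x⁻¹ := by
      rw [Subgroup.mem_centralizer_singleton_iff] at hg2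
      exact ((show Commute (g ^ 2) x from hg2).pow_left j).inv_right
    have e : g ^ (orderOf (g ^ 2)) = (g ^ 2) ^ j * g := by
      rw [hj, pow_succ, pow_mul]
    rw [e, mul_inv_rev]
    calc (g ^ 2) ^ j * g * x * (g⁻¹ * ((g ^ 2) ^ j)⁻¹) = (g ^ 2) ^ j * (g * x * g⁻¹) * ((g ^ 2) ^ j)⁻¹ := by group
      _ = (g ^ 2) ^ j * x⁻¹ * ((g ^ 2) ^ j)⁻¹ := by rw [hg]
      _ = x⁻¹ := by rw [hc.eq, mul_assoc, mul_inv_cancel, mul_one]
  refine ⟨g ^ (orderOf (g ^ 2)), ?_, hinv⟩
  apply Lib.Helper2.orderOf_two_of_mul_self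
  · rw [← pow_add, ← two_mul, pow_mul, pow_orderOf_eq_one]
  · intro h1
    rw [h1] at hinv
    simp only [one_mul, inv_one, mul_one] at hinv
    have hxx : x * x = 1 := by
      nth_rewrite 1 [hinv]
      exact inv_mul_cancel x
    have hx2 : orderOf x = 2 := Lib.Helper2.orderOf_two_of_mul_self hxx hx
    have hxC : x ∈ Subgroup.centralizer ({x} : Set G) := by
      rw [Subgroup.mem_centralizer_singleton_iff]
    have h2 : 2 ∣ Nat.card (Subgroup.centralizer ({x} : Set G)) := by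
      have := orderOf_dvd_natCard (⟨x, hxC⟩ : Subgroup.centralizer ({x} : Set G))
      rwa [Subgroup.orderOf_mk, hx2] at this
    exact (Nat.not_even_iff_odd.mpr hodd) (even_iff_two_dvd.mpr h2)

end Cfsg.Agent.S0241
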