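import Cfsg.Statements.S0244
import Mathlib

set_option autoImplicit false
open Cfsg

namespace Cfsg.Agent.S0244

/-- Sp_2 = SL_2: a matrix on Fin 1 ⊕ Fin 1 lies in Mathlib's symplectic group iff its determinant is 1. -/
theorem result {R : Type*} [CommRing R] (A : Matrix (Fin 1 ⊕ Fin 1) (Fin 1 ⊕ Fin 1) R) : A ∈ Matrix.symplecticGroup (Fin 1) R ↔ A.det = 1 := by
  have hdet : A.det = A (Sum.inl 0) (Sum.inl 0) * A (Sum.inr 0) (Sum.inr 0) -
      A (Sum.inl 0) (Sum.inr 0) * A (Sum.inr 0) (Sum.inl 0) := by
    rw [← Matrix.det_submatrix_equiv_self (finSumFinEquiv (m := 1) (n := 1)).symm A,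
      Matrix.det_fin_two]
    rfl
  rw [SymplecticGroup.mem_iff, hdet]
  constructor
  · intro h
    have := congrFun (congrFun h (Sum.inr 0)) (Sum.inl 0)
    simp [Matrix.mul_apply, Matrix.J, Matrix.fromBlocks] at this
    linear_combination this
  · intro h
    ext i j
    have h0 : ∀ i : Fin 1, i = 0 := fun i => Subsingleton.elim _ _
    rcases i with i | i <;> rcases j with j | j <;> rw [h0 i, h0 j] <;>
      simp [Matrix.mul_apply, Matrix.J, Matrix.fromBlocks]
    · ring
    · linear_combination -h
    · linear_combination h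
    · ring

end Cfsg.Agent.S0244
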