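import Cfsg.Statements.S0247
import Mathlib
import Cfsg.Agent.Lib.Helper14.SymInSp
import Cfsg.Agent.Lib.Helper14.SpOrder

set_option autoImplicit false
open Cfsg

namespace Cfsg.Agent.S0247

/-- Sp_4(2) is isomorphic to the symmetric group S_6. -/
theorem result {F : Type*} [Field F] [Fintype F] (hF : Fintype.card F = 2) : Nonempty (Matrix.symplecticGroup (Fin 2) F ≃* Equiv.Perm (Fin 6)) := by
  classical
  haveI : CharP F 2 := by
    obtain ⟨p, hp⟩ := CharP.exists F
    haveI := hp
    have hpp : p.Prime := (CharP.char_is_prime_or_zero F p).resolve_right (by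
      intro h0
      subst h0
      haveI := CharP.charP_to_charZero F
      exact not_finite F)
    have h1 : ((Fintype.card F : ℕ) : F) = 0 := Nat.cast_card_eq_zero F
    rw [hF] at h1
    have h2 := (CharP.cast_eq_zero_iff F p 2).1 h1
    have h3 : p = 2 := (Nat.prime_dvd_prime_iff_eq hpp Nat.prime_two).1 h2
    rw [← h3]; exact hp
  obtain ⟨f, hf⟩ := Cfsg.Agent.Lib.Helper14.exists_perm_hom_sp F 3 le_rfl
  have hc : Nat.card (Matrix.symplecticGroup (Fin 2) F) = 720 := by
    rw [Cfsg.Agent.Lib.Helper14.card_sp, hF]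
    decide
  haveI : Finite (Matrix.symplecticGroup (Fin 2) F) := Nat.finite_of_card_ne_zero (by rw [hc]; norm_num)
  have hc2 : Nat.card (Equiv.Perm (Fin (2 * 3))) = 720 := by
    rw [Nat.card_eq_fintype_card, Fintype.card_perm, Fintype.card_fin]
    decide
  have hbij : Function.Bijective f := by
    rw [Nat.bijective_iff_injective_and_card]
    exact ⟨hf, by rw [hc2]; exact hc.symm⟩
  exact ⟨(MulEquiv.ofBijective f hbij).symm⟩

end Cfsg.Agent.S0247
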