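import Cfsg.Statements.S0250
import Mathlib
import Cfsg.Agent.Lib.Helper2.PSL2Small
import Cfsg.Agent.S0242

set_option autoImplicit false
open Cfsg

namespace Cfsg.Agent.S0250

/-- SL_2(2) is isomorphic to S_3. -/
theorem result {F : Type*} [Field F] [Fintype F] (hF : Fintype.card F = 2) : Nonempty (Matrix.SpecialLinearGroup (Fin 2) F ≃* Equiv.Perm (Fin 3)) := by
  classical
  haveI : Finite (Projectivization F (Fin 2 → F)) :=
    Nat.finite_of_card_ne_zero (by rw [Lib.Helper2.card_projLine]; omega)
  cases nonempty_fintype (Projectivization F (Fin 2 → F))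
  have hP : Fintype.card (Projectivization F (Fin 2 → F)) = 3 := by
    rw [← Nat.card_eq_fintype_card, Lib.Helper2.card_projLine, hF]
  have hcard : Nat.card (Matrix.SpecialLinearGroup (Fin 2) F) = 6 := by
    have := S0242.result hF 2 (by norm_num)
    rw [Fin.prod_univ_two] at this
    norm_num at this
    rw [Nat.card_eq_fintype_card]
    exact this
  have hF01 : ∀ r : F, r = 0 ∨ r = 1 := by
    intro r
    by_contra hcon
    push Not at hcon
    have := Fintype.two_lt_card_iff.mpr ⟨(0 : F), 1, r, zero_ne_one, hcon.1.symm, hcon.2.symm⟩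
    omega
  have hcenter : Subgroup.center (Matrix.SpecialLinearGroup (Fin 2) F) = ⊥ := by
    rw [eq_bot_iff]
    intro A hA
    rw [Matrix.SpecialLinearGroup.mem_center_iff] at hA
    obtain ⟨r, hr, hrA⟩ := hA
    rw [Subgroup.mem_bot]
    apply Subtype.ext
    rw [← hrA]
    rcases hF01 r with rfl | rfl
    · simp at hr
    · simp
  have hinj : Function.Injective (MulAction.toPermHom (Matrix.SpecialLinearGroup (Fin 2) F)
      (Projectivization F (Fin 2 → F))) := by
    rw [← MonoidHom.ker_eq_bot_iff, Projectivization.SL_mulAction_ker, hcenter]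
  have hbij : Function.Bijective (MulAction.toPermHom (Matrix.SpecialLinearGroup (Fin 2) F)
      (Projectivization F (Fin 2 → F))) := by
    rw [Fintype.bijective_iff_injective_and_card]
    refine ⟨hinj, ?_⟩
    rw [← Nat.card_eq_fintype_card, hcard, Fintype.card_perm, hP]
    rfl
  exact ⟨(MulEquiv.ofBijective _ hbij).trans (Fintype.equivFinOfCardEq hP).permCongrHom⟩

end Cfsg.Agent.S0250
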