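import Cfsg.Statements.S0251
import Mathlib
import Cfsg.Agent.Lib.Helper2.PSL2Small

set_option autoImplicit false
open Cfsg

namespace Cfsg.Agent.S0251

/-- PSL_2(3) is isomorphic to A_4. -/
theorem result {F : Type*} [Field F] [Fintype F] (hF : Fintype.card F = 3) : Nonempty (Matrix.ProjectiveSpecialLinearGroup (Fin 2) F ≃* alternatingGroup (Fin 4)) := by
  apply Lib.Helper2.PSL2_equiv_alternatingGroup 4 (by rw [hF])
  have h := Lib.Helper2.card_PSL2_mul (F := F)
  rw [hF] at h
  norm_num at h
  have : Nat.factorial 4 = 24 := rfl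
  omega

end Cfsg.Agent.S0251
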