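import Cfsg.Statements.S0254
import Cfsg.Agent.Lib.Helper3.L29.Psl
import Cfsg.Agent.Lib.Helper3.A6r.Bd
import Cfsg.Agent.Lib.Helper3.ExcIso

set_option autoImplicit false
open Cfsg

namespace Cfsg.Agent.S0254

/-- PSL_2(9) is isomorphic to A_6. -/
theorem result {F : Type*} [Field F] [Fintype F] (hF : Fintype.card F = 9) : Nonempty (Matrix.ProjectiveSpecialLinearGroup (Fin 2) F ≃* alternatingGroup (Fin 6)) := by
  obtain ⟨e1⟩ := Cfsg.Agent.Lib.Helper3.psl_of_card (n := Fin 2) (F := F)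
    (K := Cfsg.Agent.Lib.Helper3.F9) (by rw [hF, Cfsg.Agent.Lib.Helper3.F9.card_eq])
  obtain ⟨e2⟩ := Cfsg.Agent.Lib.Helper3.L29.psl_iso
  obtain ⟨e3⟩ := Cfsg.Agent.Lib.Helper3.A6r.iso
  obtain ⟨e4⟩ := Cfsg.Agent.Lib.Helper3.iso_alternating _ Cfsg.Agent.Lib.Helper3.A6r.simple
    (by rw [Cfsg.Agent.Lib.Helper3.A6r.card_eq]; norm_num)
    (by rw [Cfsg.Agent.Lib.Helper3.A6r.card_eq]; decide) (by norm_num)
  exact ⟨e1.trans (e2.trans (e3.symm.trans e4))⟩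

end Cfsg.Agent.S0254
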