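import Cfsg.Statements.S0255
import Cfsg.Agent.Lib.Helper3.L27.Psl
import Cfsg.Agent.Lib.Helper3.L32.Psl
import Cfsg.Agent.Lib.Helper3.ExcIso

set_option autoImplicit false
open Cfsg

namespace Cfsg.Agent.S0255

/-- PSL_2(7) is isomorphic to PSL_3(2). -/
theorem result {F K : Type*} [Field F] [Fintype F] [Field K] [Fintype K] (hF : Fintype.card F = 7) (hK : Fintype.card K = 2) : Nonempty (Matrix.ProjectiveSpecialLinearGroup (Fin 2) F ≃* Matrix.ProjectiveSpecialLinearGroup (Fin 3) K) := by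
  have : Fact (Nat.Prime 7) := ⟨by norm_num⟩
  have : Fact (Nat.Prime 2) := ⟨by norm_num⟩
  obtain ⟨e1⟩ := Cfsg.Agent.Lib.Helper3.psl_of_card (n := Fin 2) (F := F) (K := ZMod 7)
    (by rw [hF, ZMod.card])
  obtain ⟨e2⟩ := Cfsg.Agent.Lib.Helper3.L27.psl_iso
  obtain ⟨e3⟩ := Cfsg.Agent.Lib.Helper3.L27.iso
  obtain ⟨e4⟩ := Cfsg.Agent.Lib.Helper3.L32.psl_iso
  obtain ⟨e5⟩ := Cfsg.Agent.Lib.Helper3.psl_of_card (n := Fin 3) (F := K) (K := ZMod 2)
    (by rw [hK, ZMod.card])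
  exact ⟨e1.trans (e2.trans (e3.trans (e4.symm.trans e5.symm)))⟩

end Cfsg.Agent.S0255
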