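import Cfsg.Statements.S0256
import Cfsg.Agent.Lib.Helper3.L42.Psl
import Cfsg.Agent.Lib.Helper3.A8r.Bd
import Cfsg.Agent.Lib.Helper3.ExcIso

set_option autoImplicit false
open Cfsg

namespace Cfsg.Agent.S0256

/-- PSL_4(2) is isomorphic to A_8. -/
theorem result {F : Type*} [Field F] [Fintype F] (hF : Fintype.card F = 2) : Nonempty (Matrix.ProjectiveSpecialLinearGroup (Fin 4) F ≃* alternatingGroup (Fin 8)) := by
  have : Fact (Nat.Prime 2) := ⟨by norm_num⟩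
  obtain ⟨e1⟩ := Cfsg.Agent.Lib.Helper3.psl_of_card (n := Fin 4) (F := F) (K := ZMod 2)
    (by rw [hF, ZMod.card])
  obtain ⟨e2⟩ := Cfsg.Agent.Lib.Helper3.L42.psl_iso
  obtain ⟨e3⟩ := Cfsg.Agent.Lib.Helper3.A8r.iso
  obtain ⟨e4⟩ := Cfsg.Agent.Lib.Helper3.iso_alternating _ Cfsg.Agent.Lib.Helper3.A8r.simple
    (by rw [Cfsg.Agent.Lib.Helper3.A8r.card_eq]; norm_num)
    (by rw [Cfsg.Agent.Lib.Helper3.A8r.card_eq]; decide) (by norm_num)
  exact ⟨e1.trans (e2.trans (e3.symm.trans e4))⟩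

end Cfsg.Agent.S0256
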