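import Cfsg.Statements.S0257
import Cfsg.Agent.Lib.Helper14.SL23
open Cfsg.Agent.Lib.Helper14.SL23

set_option autoImplicit false
open Cfsg

namespace Cfsg.Agent.S0257

/-- SL_2(3) has a normal subgroup of index 3 isomorphic to the quaternion group of order 8, and its centre has order 2. -/
theorem result {F : Type*} [Field F] [Fintype F] (hF : Fintype.card F = 3) : (∃ Q : Subgroup (Matrix.SpecialLinearGroup (Fin 2) F), Q.Normal ∧ Q.index = 3 ∧ Nonempty (Q ≃* QuaternionGroup 2)) ∧ Nat.card (Subgroup.center (Matrix.SpecialLinearGroup (Fin 2) F)) = 2 := by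
  classical
  let f : ZMod 3 ≃+* F := ZMod.ringEquivOfPrime F Nat.prime_three hF
  let e : SL ≃* Matrix.SpecialLinearGroup (Fin 2) F :=
    { toFun := Matrix.SpecialLinearGroup.map (f : ZMod 3 →+* F)
      invFun := Matrix.SpecialLinearGroup.map (f.symm : F →+* ZMod 3)
      left_inv := by
        intro g
        apply Subtype.ext
        ext i j
        simp
      right_inv := by
        intro g
        apply Subtype.ext
        ext i j
        simp
      map_mul' := map_mul _ }
  refine ⟨⟨Q.map e.toMonoidHom, ?_, ?_, ?_⟩, ?_⟩
  · exact Subgroup.Normal.map inferInstance _ e.surjective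
  · have := Subgroup.index_map_of_bijective (f := e.toMonoidHom) e.bijective Q
    rw [this]
    exact index_Q
  · obtain ⟨φ⟩ := Q_equiv
    exact ⟨(e.subgroupMap Q).symm.trans φ⟩
  · exact ((Nat.card_congr (Subgroup.centerCongr e).toEquiv).symm).trans card_center

end Cfsg.Agent.S0257
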