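import Cfsg.Statements.S0262
import Cfsg.Agent.Lib.Helper13.SL2Tori

set_option autoImplicit false
open Cfsg

namespace Cfsg.Agent.S0262

open Cfsg.Agent.Lib.Helper13

/-- For an odd prime r different from the characteristic, the Sylow r-subgroups of SL_2(q) are cyclic. -/
theorem result {F : Type*} [Field F] [Fintype F] (p : ℕ) [Fact p.Prime] [CharP F p] (r : ℕ) [Fact r.Prime] (hr : r ≠ 2) (hrp : r ≠ p) (R : Sylow r (Matrix.SpecialLinearGroup (Fin 2) F)) : IsCyclic (R : Subgroup (Matrix.SpecialLinearGroup (Fin 2) F)) := by
  classical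
  have hR : IsPGroup r (R : Subgroup (Matrix.SpecialLinearGroup (Fin 2) F)) := R.2
  rcases subsingleton_or_nontrivial (R : Subgroup (Matrix.SpecialLinearGroup (Fin 2) F)) with hs | hn
  · exact isCyclic_of_subsingleton
  · have hc := hR.center_nontrivial
    obtain ⟨⟨z, hzc⟩, hz1⟩ := exists_ne (1 : Subgroup.center (R : Subgroup (Matrix.SpecialLinearGroup (Fin 2) F)))
    have hz1' : (z : Matrix.SpecialLinearGroup (Fin 2) F) ≠ 1 := by
      intro h
      apply hz1
      apply Subtype.ext
      apply Subtype.ext
      exact h
    apply isCyclic_of_commute_semisimple _ (z : Matrix.SpecialLinearGroup (Fin 2) F)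
    · intro h4
      have h2p := pow_two_mul_char_eq_one p (z : Matrix.SpecialLinearGroup (Fin 2) F) h4
      obtain ⟨k, hk⟩ := hR z
      have hk' : (z : Matrix.SpecialLinearGroup (Fin 2) F) ^ (r ^ k) = 1 := by
        have := congrArg Subtype.val hk
        simpa using this
      apply hz1'
      have hcop : Nat.Coprime (r ^ k) (2 * p) := by
        apply Nat.Coprime.pow_left
        apply Nat.Coprime.mul_right
        · exact (Nat.coprime_primes Fact.out Nat.prime_two).mpr hr
        · exact (Nat.coprime_primes Fact.out Fact.out).mpr hrp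
      have h1 := orderOf_dvd_of_pow_eq_one hk'
      have h2 := orderOf_dvd_of_pow_eq_one h2p
      have := Nat.eq_one_of_dvd_coprimes hcop h1 h2
      exact orderOf_eq_one_iff.mp this
    · intro g hg
      have := Subgroup.mem_center_iff.mp hzc ⟨g, hg⟩
      exact congrArg Subtype.val this

end Cfsg.Agent.S0262
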