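import Cfsg.Statements.S0264
import Cfsg.Agent.Lib.Helper14.SLGen

set_option autoImplicit false
open Cfsg

namespace Cfsg.Agent.S0264

/-- GL_n(F)' = SL_n(F) (as the kernel of det), for every field F and every n, except n = 2 over the field of two elements. -/
theorem result {F : Type*} [Field F] (n : ℕ) (h : n = 2 → ∃ a : F, a ≠ 0 ∧ a ≠ 1) : commutator (Matrix.GeneralLinearGroup (Fin n) F) = (Matrix.GeneralLinearGroup.det : Matrix.GeneralLinearGroup (Fin n) F →* Fˣ).ker := by
  classical
  apply le_antisymm
  · rw [commutator_eq_closure, Subgroup.closure_le]
    rintro _ ⟨a, b, rfl⟩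
    simp only [SetLike.mem_coe, MonoidHom.mem_ker, map_commutatorElement]
    exact commutatorElement_eq_one_iff_mul_comm.2 (mul_comm _ _)
  · intro g hg
    rw [MonoidHom.mem_ker] at hg
    have hg' : (g : Matrix (Fin n) (Fin n) F).det = 1 := congrArg Units.val hg
    obtain ⟨s, rfl⟩ : ∃ s : Matrix.SpecialLinearGroup (Fin n) F,
        Matrix.SpecialLinearGroup.toGL s = g := ⟨⟨g, hg'⟩, Units.ext rfl⟩
    rcases Nat.lt_or_ge n 2 with hn | hn
    · have : s = 1 := by
        interval_cases n
        · exact Subtype.ext (Subsingleton.elim _ _)
        · apply Subtype.ext
          ext i j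
          have hi : i = 0 := Subsingleton.elim _ _
          have hj : j = 0 := Subsingleton.elim _ _
          subst hi hj
          have := s.2
          rw [Matrix.det_fin_one] at this
          simpa using this
      rw [this, map_one]
      exact one_mem _
    · rcases Nat.lt_or_ge 2 n with h3 | h2
      · have h4 := Cfsg.Agent.Lib.Helper14.SL_commutator_eq_top (ι := Fin n) (F := F)
          (by simp; omega)
        have h5 : s ∈ commutator (Matrix.SpecialLinearGroup (Fin n) F) := by rw [h4]; trivial
        have h6 := Subgroup.mem_map_of_mem Matrix.SpecialLinearGroup.toGL h5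
        rw [commutator_def, Subgroup.map_commutator] at h6
        exact Subgroup.commutator_mono le_top le_top h6
      · obtain rfl : n = 2 := le_antisymm h2 hn
        obtain ⟨a, ha0, ha1⟩ := h rfl
        have hkey : ∀ d x y : Matrix.GeneralLinearGroup (Fin 2) F, d * x = y * x * d →
            y ∈ commutator (Matrix.GeneralLinearGroup (Fin 2) F) := by
          intro d x y hd
          have : d * x * d⁻¹ * x⁻¹ = y := by
            rw [hd]; group
          rw [← this, ← commutatorElement_def]
          exact Subgroup.commutator_mem_commutator (Subgroup.mem_top _) (Subgroup.mem_top _)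
        have ha1' : a - 1 ≠ 0 := sub_ne_zero_of_ne ha1
        refine Matrix.SL2.transvection_induction
          (fun s => Matrix.SpecialLinearGroup.toGL s ∈
            commutator (Matrix.GeneralLinearGroup (Fin 2) F)) ?_ ?_ s
        · intro i j hij c
          fin_cases i
          · obtain rfl : j = 1 := by fin_cases j <;> tauto
            refine hkey (Matrix.GeneralLinearGroup.mkOfDetNeZero !![a, 0; 0, 1] (by simpa using ha0))
              (Matrix.SpecialLinearGroup.toGL
                (Matrix.SpecialLinearGroup.transvection zero_ne_one (c / (a - 1)))) _ ?_
            apply Units.ext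
            ext i j
            fin_cases i <;> fin_cases j <;>
              simp [Matrix.SpecialLinearGroup.transvection_coe, Matrix.mul_apply,
                Matrix.GeneralLinearGroup.mkOfDetNeZero, Matrix.single_apply]
            field_simp
            ring
          · obtain rfl : j = 0 := by fin_cases j <;> tauto
            refine hkey (Matrix.GeneralLinearGroup.mkOfDetNeZero !![1, 0; 0, a] (by simpa using ha0))
              (Matrix.SpecialLinearGroup.toGL
                (Matrix.SpecialLinearGroup.transvection one_ne_zero (c / (a - 1)))) _ ?_
            apply Units.ext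
            ext i j
            fin_cases i <;> fin_cases j <;>
              simp [Matrix.SpecialLinearGroup.transvection_coe, Matrix.mul_apply,
                Matrix.GeneralLinearGroup.mkOfDetNeZero, Matrix.single_apply]
            field_simp
            ring
        · intro A B hA hB
          simp only [map_mul]
          exact mul_mem hA hB

end Cfsg.Agent.S0264
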