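import Cfsg.Statements.S0268
import Mathlib

set_option autoImplicit false
open Cfsg

namespace Cfsg.Agent.S0268

/-- For q odd, -1 is the unique involution of SL_2(q). -/
theorem result {F : Type*} [Field F] [Fintype F] (hF : Odd (Fintype.card F)) (g : Matrix.SpecialLinearGroup (Fin 2) F) (h1 : g ≠ 1) (h2 : g * g = 1) : (g : Matrix (Fin 2) (Fin 2) F) = -1 := by
  have h2F : (2 : F) ≠ 0 := by
    have hc : ringChar F ≠ 2 := by
      intro hc
      have := FiniteField.even_card_iff_char_two.1 hc
      exact (Nat.not_even_iff_odd.2 hF) (Nat.even_iff.2 this)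
    exact Ring.two_ne_zero hc
  have hdet := g.2
  rw [Matrix.det_fin_two] at hdet
  have hm : (g : Matrix (Fin 2) (Fin 2) F) * (g : Matrix (Fin 2) (Fin 2) F) = 1 := by
    rw [← Matrix.SpecialLinearGroup.coe_mul, h2, Matrix.SpecialLinearGroup.coe_one]
  have e00 := congrFun (congrFun hm 0) 0
  have e01 := congrFun (congrFun hm 0) 1
  have e10 := congrFun (congrFun hm 1) 0
  have e11 := congrFun (congrFun hm 1) 1
  simp [Matrix.mul_apply, Fin.sum_univ_two] at e00 e01 e10 e11
  set a := (g : Matrix (Fin 2) (Fin 2) F) 0 0
  set b := (g : Matrix (Fin 2) (Fin 2) F) 0 1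
  set c := (g : Matrix (Fin 2) (Fin 2) F) 1 0
  set d := (g : Matrix (Fin 2) (Fin 2) F) 1 1
  have hs : a + d ≠ 0 := by
    intro hs
    have hd : d = -a := by linear_combination hs
    rw [hd] at hdet
    apply h2F
    linear_combination -e00 - hdet
  have hb : b = 0 := by
    have : b * (a + d) = 0 := by linear_combination e01
    exact (mul_eq_zero.1 this).resolve_right hs
  have hc : c = 0 := by
    have : c * (a + d) = 0 := by linear_combination e10
    exact (mul_eq_zero.1 this).resolve_right hs
  rw [hb, hc] at hdet e00
  have had : a = d := by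
    have : a * (a - d) = 0 := by linear_combination e00 - hdet
    rcases mul_eq_zero.1 this with h | h
    · rw [h] at e00; simp at e00
    · linear_combination h
  have ha : a = 1 ∨ a = -1 := by
    have : (a - 1) * (a + 1) = 0 := by linear_combination e00
    rcases mul_eq_zero.1 this with h | h
    · left; linear_combination h
    · right; linear_combination h
  rcases ha with ha | ha
  · exfalso
    apply h1
    apply Subtype.ext
    ext i j
    fin_cases i <;> fin_cases j
    · exact ha
    · exact hb
    · exact hc
    · exact had.symm.trans ha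
  · ext i j
    fin_cases i <;> fin_cases j
    · simpa using ha
    · simpa using hb
    · simpa using hc
    · simpa using had.symm.trans ha

end Cfsg.Agent.S0268
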