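import Cfsg.Statements.S0275
import Mathlib
import Cfsg.Agent.Lib.Helper5.Dk9
import Cfsg.Agent.Lib.Helper13.SL2Quat

set_option autoImplicit false
open Cfsg

namespace Cfsg.Agent.S0275

open Cfsg.Agent.Lib.Helper5.Dk Cfsg.Agent.Lib.Helper13
open Pointwise

/-- If p is odd and H is a subgroup of SL_2(q), q a power of p, with more than one Sylow p-subgroup, then the Sylow 2-subgroups of H are generalised quaternion. -/
theorem result {F : Type*} [Field F] [Fintype F] (p : ℕ) [Fact p.Prime] [CharP F p] (hp : p ≠ 2) (H : Subgroup (Matrix.SpecialLinearGroup (Fin 2) F)) (hH : 1 < Nat.card (Sylow p H)) (S : Sylow 2 H) : ∃ k : ℕ, 1 ≤ k ∧ Nonempty ((S : Subgroup H) ≃* QuaternionGroup (2 ^ k)) := by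
  classical
  have hpp : p.Prime := Fact.out
  have h2 : (2 : F) ≠ 0 := by
    intro h
    have : (p : ℕ) ∣ 2 := (CharP.cast_eq_zero_iff F p 2).mp (by exact_mod_cast h)
    exact hp ((Nat.prime_dvd_prime_iff_eq hpp Nat.prime_two).mp this)
  rcases cyclic_or_quaternion_of_embeds_SL2 h2 S.2 (H.subtype.comp (S : Subgroup H).subtype)
    (fun x y hxy => Subtype.ext (Subtype.ext hxy)) with hc | ⟨m, hm⟩
  · exfalso
    obtain ⟨Φ, hi, hr⟩ := dickson_sl2p p hp H hH
    obtain ⟨Q, hQ, i, hiQ, j, hjQ, hij⟩ := exists_nonabelian_two_subgroup (F := ZMod p)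
      (by rw [ZMod.card p]; exact hpp.odd_of_ne_two hp)
    let Φ' : Matrix.SpecialLinearGroup (Fin 2) (ZMod p) →* H := Φ.codRestrict H (fun x => hr ⟨x, rfl⟩)
    have hQ' : IsPGroup 2 (Q.map Φ') := hQ.map Φ'
    obtain ⟨S', hS'⟩ := hQ'.exists_le_sylow
    obtain ⟨g, rfl⟩ := MulAction.exists_smul_eq H S S'
    have a1 : Φ' i ∈ ((g • S : Sylow 2 H) : Subgroup H) := hS' ⟨i, hiQ, rfl⟩
    have a2 : Φ' j ∈ ((g • S : Sylow 2 H) : Subgroup H) := hS' ⟨j, hjQ, rfl⟩
    rw [Sylow.coe_subgroup_smul, Subgroup.mem_pointwise_smul_iff_inv_smul_mem] at a1 a2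
    have hcomm := hc.commutative.is_comm.comm ⟨_, a1⟩ ⟨_, a2⟩
    have h3 := congrArg Subtype.val hcomm
    simp only [Subgroup.coe_mul, ← smul_mul'] at h3
    have h4 : Φ' i * Φ' j = Φ' j * Φ' i := smul_left_cancel _ h3
    rw [← map_mul, ← map_mul] at h4
    apply hij
    apply hi
    exact congrArg Subtype.val h4
  · exact ⟨m + 1, by omega, hm⟩

end Cfsg.Agent.S0275
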