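import Cfsg.Statements.S0291
import Cfsg.Agent.Lib.Helper15.Count7

set_option autoImplicit false
open Cfsg Cfsg.Agent.Lib.Helper15

namespace Cfsg.Agent.S0291

/-- For q odd, the form x_0^2 + sum_{i<m} x_i y_i on F^(2m+1) has exactly q^(2m) zeros. -/
theorem result {F : Type*} [Field F] [Fintype F] {q : ℕ} (hF : Fintype.card F = q) (hodd : Odd q) (m : ℕ) : Nat.card {v : Unit ⊕ (Fin m ⊕ Fin m) → F // Cfsg.quadFormOdd m F v = 0} = q ^ (2 * m) := by
  subst hF
  have hq : 1 ≤ Fintype.card F := Fintype.card_pos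
  have h2 : (2 : F) ≠ 0 := by
    intro h
    have := CharTwo.of_one_ne_zero_of_two_eq_zero (one_ne_zero (α := F)) h
    have h3 := FiniteField.even_card_of_char_two (F := F) (ringChar.eq F 2)
    exact (Nat.not_even_iff_odd.2 hodd) (Nat.even_iff.2 h3)
  have h1 := (count_odd (F := F) h2 m).1
  rw [← coe_qOdd]
  show zeros (qOdd m F) = _
  rw [h1, zRec_one _ _ hq]

end Cfsg.Agent.S0291
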