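import Cfsg.Statements.S0293
import Cfsg.Agent.S0287
import Cfsg.Agent.S0790
import Cfsg.Agent.Lib.Helper15.Central2
import Cfsg.Agent.Lib.Helper15.Count7

set_option autoImplicit false
open Cfsg Cfsg.Agent.Lib.Helper15

namespace Cfsg.Agent.S0293

/-- gcd(4, q^m - 1) |PΩ^+_{2m}(q)| = q^(m(m-1)) (q^m - 1) prod_{i=1}^{m-1} (q^(2i) - 1), m at least 4 (type D_m). -/
theorem result {F : Type*} [Field F] [Fintype F] {q : ℕ} (hF : Fintype.card F = q) (m : ℕ) (hm : 4 ≤ m) : Nat.gcd 4 (q ^ m - 1) * Nat.card (Cfsg.POmega F (Cfsg.quadFormPlus m F)) = q ^ (m * (m - 1)) * (q ^ m - 1) * ∏ i ∈ Finset.range (m - 1), (q ^ (2 * (i + 1)) - 1) := by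
  have hO := Cfsg.Agent.S0287.result hF m (by omega)
  obtain ⟨X, hX⟩ : ∃ X, X = q ^ (m * (m - 1)) * (q ^ m - 1) * ∏ i ∈ Finset.range (m - 1), (q ^ (2 * (i + 1)) - 1) :=
    ⟨_, rfl⟩
  rw [← hX]
  replace hO : Nat.card (Cfsg.isometryGroup F (Cfsg.quadFormPlus m F)) = 2 * X := by
    rw [hO, hX]; ring
  clear hX
  have hcard : Fintype.card (Fin m ⊕ Fin m) = 2 * m := by simp; ring
  have hnd := qPlus_nondegenerate m F
  have h1 := card_POmega_mul (F := F) (qPlus m F)
  have hq1 : 1 ≤ q := by rw [← hF]; exact Fintype.card_pos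
  have hqm : 1 ≤ q ^ m := Nat.one_le_pow _ _ hq1
  by_cases h2 : (2 : F) = 0
  · have hch : CharP F 2 := CharTwo.of_one_ne_zero_of_two_eq_zero (one_ne_zero (α := F)) h2
    have h3 := FiniteField.even_card_of_char_two (F := F) (ringChar.eq F 2)
    rw [hF] at h3
    have hneg : negI (qPlus m F) = 1 := by
      apply isometry_ext
      rw [coe_negI]
      have : (-1 : Matrix (Fin m ⊕ Fin m) (Fin m ⊕ Fin m) F) = 1 := by
        ext i j
        simp only [Matrix.neg_apply]
        exact CharTwo.neg_eq _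
      rw [this]; rfl
    have hg : Nat.gcd 4 (q ^ m - 1) = 1 := by
      have h5 : q ^ m % 2 = 0 := by
        rw [Nat.pow_mod, h3]
        simp [show m ≠ 0 by omega]
      have h6 : Nat.Coprime 2 (q ^ m - 1) := by
        rw [Nat.coprime_two_left]
        rw [Nat.odd_iff]; omega
      exact Nat.Coprime.pow_left 2 h6
    rw [← coe_qPlus] at hO ⊢
    rw [index_Omega_even _ hnd (Or.inr (by omega)) (by omega), card_center_of_not_mem _ hnd (by omega)
      (Or.inr hneg), hO] at h1
    rw [hg]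
    omega
  · have hodd : Odd q := by
      rw [← hF]
      rcases Nat.even_or_odd (Fintype.card F) with h | h
      · exfalso
        apply h2
        have h5 := FiniteField.even_card_iff_char_two.2 (Nat.even_iff.1 h)
        have : CharP F 2 := by rw [← h5]; exact ringChar.charP F
        exact CharTwo.two_eq_zero
      · exact h
    have hcrit := Cfsg.Agent.S0790.result hF hodd m (by omega)
    rw [← coe_qPlus] at hO hcrit ⊢
    have hex : (∃ g : ↥(Cfsg.isometryGroup F (qPlus m F)), g ∈ Cfsg.Omega F (qPlus m F) ∧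
        ((g : Matrix.GeneralLinearGroup (Fin m ⊕ Fin m) F) :
          Matrix (Fin m ⊕ Fin m) (Fin m ⊕ Fin m) F) = -1) ↔
        negI (qPlus m F) ∈ Cfsg.Omega F (qPlus m F) := by
      constructor
      · rintro ⟨g, hg, hgc⟩
        have : g = negI (qPlus m F) := isometry_ext (by rw [hgc, coe_negI])
        rwa [this] at hg
      · intro h
        exact ⟨_, h, coe_negI _⟩
    rw [hex] at hcrit
    rw [index_Omega_odd h2 _ hnd (by omega), hO] at h1
    have hqodd : q ^ m % 2 = 1 := Nat.odd_iff.1 (hodd.pow)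
    by_cases h4 : q ^ m % 4 = 1
    · rw [card_center_of_mem h2 _ hnd (by omega) (hcrit.2 h4)] at h1
      have hg : Nat.gcd 4 (q ^ m - 1) = 4 := Nat.gcd_eq_left (by omega)
      rw [hg]
      omega
    · rw [card_center_of_not_mem _ hnd (by omega) (Or.inl (fun h => h4 (hcrit.1 h)))] at h1
      have hg : Nat.gcd 4 (q ^ m - 1) = 2 := by
        obtain ⟨t, ht⟩ : ∃ t, q ^ m - 1 = 4 * t + 2 := ⟨(q ^ m - 1) / 4, by omega⟩
        rw [ht]
        simp
      rw [hg]
      omega

end Cfsg.Agent.S0293
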