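import Cfsg.Statements.S0791
import Cfsg.Agent.Lib.Helper15.MinusForm

set_option autoImplicit false
open Cfsg Cfsg.Agent.Lib.Helper15

namespace Cfsg.Agent.S0791

/-- −1 ∈ Ω⁻_2m(q) iff q^m ≡ −1 (mod 4), for q odd and m ≥ 1; for the minus-type form quadFormMinus (m−1) with anisotropic binary part. -/
theorem result {F : Type*} [Field F] [Fintype F] {q : ℕ} (hF : Fintype.card F = q) (hodd : Odd q) (m : ℕ) (hm : 1 ≤ m) (a b : F) (hab : ∀ z₁ z₂ : F, z₁ ^ 2 + a * z₁ * z₂ + b * z₂ ^ 2 = 0 → z₁ = 0 ∧ z₂ = 0) : (∃ g : ↥(Cfsg.isometryGroup F (Cfsg.quadFormMinus (m - 1) F a b)), g ∈ Cfsg.Omega F (Cfsg.quadFormMinus (m - 1) F a b) ∧ ((g : Matrix.GeneralLinearGroup ((Fin (m - 1) ⊕ Fin (m - 1)) ⊕ Fin 2) F) : Matrix ((Fin (m - 1) ⊕ Fin (m - 1)) ⊕ Fin 2) ((Fin (m - 1) ⊕ Fin (m - 1)) ⊕ Fin 2) F) = -1) ↔ q ^ m % 4 = 3 := by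
  have h2 : (2 : F) ≠ 0 := by
    intro h
    have : CharP F 2 := CharTwo.of_one_ne_zero_of_two_eq_zero one_ne_zero h
    have h3 : (2 : ℕ) ∣ Fintype.card F := by
      rw [← CharP.cast_eq_zero_iff F 2]
      exact FiniteField.cast_card_eq_zero F
    rw [hF] at h3
    exact (Nat.not_even_iff_odd.2 hodd) (even_iff_two_dvd.2 h3)
  rw [← coe_qMinus]
  have hnd := qMinus_nondegenerate (m - 1) a b hab
  have hcrit := negI_mem_Omega_iff h2 (by
    simp only [Fintype.card_sum, Fintype.card_fin]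
    exact ⟨m - 1 + 1, by ring⟩) (qMinus (m - 1) F a b) hnd
  have hex : (∃ g : ↥(Cfsg.isometryGroup F (qMinus (m - 1) F a b)), g ∈ Cfsg.Omega F (qMinus (m - 1) F a b) ∧
      ((g : Matrix.GeneralLinearGroup ((Fin (m - 1) ⊕ Fin (m - 1)) ⊕ Fin 2) F) :
        Matrix ((Fin (m - 1) ⊕ Fin (m - 1)) ⊕ Fin 2) ((Fin (m - 1) ⊕ Fin (m - 1)) ⊕ Fin 2) F) = -1) ↔
      negI (qMinus (m - 1) F a b) ∈ Cfsg.Omega F (qMinus (m - 1) F a b) := by
    constructor
    · rintro ⟨g, hg, hgc⟩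
      have : g = negI (qMinus (m - 1) F a b) := isometry_ext (by rw [hgc, coe_negI])
      rwa [this] at hg
    · intro h
      exact ⟨_, h, coe_negI _⟩
  rw [hex, hcrit, gram_qMinus, Matrix.det_fromBlocks_zero₂₁, det_antidiag, Matrix.det_fin_two_of]
  have hD := aniso_disc h2 a b hab
  have hD0 : a ^ 2 - 4 * b ≠ 0 := by
    intro h; apply hD; rw [h]; exact IsSquare.zero
  have e1 : (-1 : F) ^ (m - 1) * (2 * (2 * b) - a * a) = (-1) ^ m * (a ^ 2 - 4 * b) := by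
    obtain ⟨k, rfl⟩ : ∃ k, m = k + 1 := ⟨m - 1, by omega⟩
    simp only [Nat.add_sub_cancel, pow_succ]
    ring
  rw [e1, isSquare_mul_iff (pow_ne_zero _ (by simp)) hD0, isSquare_neg_one_pow_iff hF hodd]
  have e2 : (Even (m * (q - 1) / 2) ↔ IsSquare (a ^ 2 - 4 * b)) ↔ ¬ Even (m * (q - 1) / 2) := by
    tauto
  rw [e2]
  obtain ⟨j, rfl⟩ := hodd
  have e3 : m * (2 * j + 1 - 1) / 2 = m * j := by
    rw [Nat.add_sub_cancel, show m * (2 * j) = 2 * (m * j) by ring, Nat.mul_div_cancel_left _ (by norm_num)]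
  rw [e3, Nat.even_mul, Nat.pow_mod]
  rcases Nat.even_or_odd' j with ⟨i, rfl | rfl⟩
  · have : (2 * (2 * i) + 1) % 4 = 1 := by omega
    rw [this, one_pow]
    simp
  · have : (2 * (2 * i + 1) + 1) % 4 = 3 := by omega
    rw [this]
    rcases Nat.even_or_odd' m with ⟨l, rfl | rfl⟩
    · rw [pow_mul, Nat.pow_mod]
      simp
    · rw [pow_succ, pow_mul, Nat.mul_mod, Nat.pow_mod]
      simp [Nat.even_add_one]

end Cfsg.Agent.S0791
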