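import Cfsg.Statements.S0298
import Cfsg.Agent.Lib.Helper14.Omega3
import Cfsg.Agent.Lib.Helper14.POmegaIso
import Cfsg.Agent.Lib.Helper14.SU2
import Cfsg.Agent.Lib.Helper15.OmegaIndex
import Cfsg.Agent.Lib.Helper15.NotMax3
import Cfsg.Agent.S0286
open Cfsg.Agent.Lib.Helper14 Cfsg.Agent.Lib.Helper14.Omega3 Cfsg.Agent.Lib.Helper14.POmegaIso Cfsg.Agent.Lib.Helper15
open scoped commutatorElement

set_option autoImplicit false
open Cfsg

namespace Cfsg.Agent.S0298

/-- PΩ_3(q) is isomorphic to PSL_2(q) for q odd. -/
theorem result {F : Type*} [Field F] [Fintype F] (hodd : Odd (Fintype.card F)) : Nonempty (Cfsg.POmega F (Cfsg.quadFormOdd 1 F) ≃* Matrix.ProjectiveSpecialLinearGroup (Fin 2) F) := by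
  classical
  have h2 : (2 : F) ≠ 0 := by
    intro h
    have := CharTwo.of_one_ne_zero_of_two_eq_zero (one_ne_zero (α := F)) h
    have h3 := FiniteField.even_card_of_char_two (F := F) (ringChar.eq F 2)
    exact (Nat.not_even_iff_odd.2 hodd) (Nat.even_iff.2 h3)
  have hO := Cfsg.Agent.S0286.result (F := F) rfl hodd 1
  rw [← coe_qOdd] at hO ⊢
  have hnd := qOdd_nondegenerate h2 1
  have hh : Fintype.card F ≠ 2 ∨ Fintype.card I3 ≠ 4 := Or.inl (card_ne_two_of_two_ne_zero h2)
  let ρ : Matrix.SpecialLinearGroup (Fin 2) F →* Cfsg.isometryGroup F (qOdd 1 F) :=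
    MonoidHom.codRestrict (MonoidHom.toHomUnits
      { toFun := fun g => M3 g.1, map_one' := M3_one, map_mul' := fun g h => M3_mul g.1 h.1 }) _ (by
      intro g u v
      change (qOdd 1 F) _ = (qOdd 1 F) _
      rw [coe_qOdd]
      exact Q_M3 g.1 g.2 u)
  have hρ : ∀ g, (ρ g).1.1 = M3 g.1 := fun g => rfl
  have hsq : ∀ y : Cfsg.isometryGroup F (qOdd 1 F), y * y ∈ commutator (Cfsg.isometryGroup F (qOdd 1 F)) := by
    intro y
    have := ker_chars h2 (qOdd 1 F) hnd hh
    change y * y ∈ Cfsg.Omega F (qOdd 1 F)
    rw [← this, MonoidHom.mem_ker, map_mul]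
    exact Prod.ext (Int.units_mul_self _) (Int.units_mul_self _)
  have hhalf : ∀ (i j : Fin 2) (h : i ≠ j) (c : F), Matrix.SpecialLinearGroup.transvection h c =
      Matrix.SpecialLinearGroup.transvection h (c / 2) * Matrix.SpecialLinearGroup.transvection h (c / 2) := by
    intro i j h c
    rw [← Matrix.SpecialLinearGroup.transvection_add]
    congr 1
    field_simp
    ring
  have hker : ∀ g, g ∈ ρ.ker → g = 1 ∨ g = -1 := by
    intro g hg
    have h1 : M3 g.1 = 1 := by
      rw [← hρ, MonoidHom.mem_ker.1 hg]
      rfl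
    rcases M3_eq_one g.2 h1 with h | h
    · left; exact Subtype.ext h
    · right; exact Subtype.ext h
  refine pomega_equiv ρ ?_ ?_ ?_
  · intro s
    induction s using Matrix.SL2.transvection_induction with
    | htransvec i j h c => rw [hhalf, map_mul]; exact hsq _
    | hmul A B hA hB => rw [map_mul]; exact mul_mem hA hB
  · have h3 := index_Omega_odd h2 (qOdd 1 F) hnd (by simp)
    have h4 := Subgroup.card_mul_index (Cfsg.Omega F (qOdd 1 F))
    rw [h3, hO] at h4
    have h5 := card_sl_two (K := F) rfl
    have h6 : Nat.card ρ.ker ≤ 2 := by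
      have h7 : (ρ.ker : Set (Matrix.SpecialLinearGroup (Fin 2) F)) ⊆ {1, -1} := by
        intro g hg
        rcases hker g hg with h | h
        · left; exact h
        · right; exact h
      calc Nat.card ρ.ker = (ρ.ker : Set (Matrix.SpecialLinearGroup (Fin 2) F)).ncard := rfl
        _ ≤ ({1, -1} : Set (Matrix.SpecialLinearGroup (Fin 2) F)).ncard :=
          Set.ncard_le_ncard h7 (Set.toFinite _)
        _ ≤ 2 := by
          have := Set.ncard_insert_le (1 : Matrix.SpecialLinearGroup (Fin 2) F) {-1}
          rwa [Set.ncard_singleton] at this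
    rw [h5]
    simp only [Finset.prod_range_one, one_pow, pow_one, zero_add, mul_one] at h4
    have h8 : Nat.card ρ.ker * Nat.card (commutator (Cfsg.isometryGroup F (qOdd 1 F))) ≤
        2 * Nat.card (commutator (Cfsg.isometryGroup F (qOdd 1 F))) := Nat.mul_le_mul_right _ h6
    have h9 : Nat.card (commutator (Cfsg.isometryGroup F (qOdd 1 F))) * 4 =
        2 * (Fintype.card F * (Fintype.card F ^ 2 - 1)) := by rw [← mul_assoc]; exact h4
    omega
  · intro x hx
    rw [Subgroup.mem_center_iff]
    intro s
    induction s using Matrix.SL2.transvection_induction with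
    | htransvec i j h c =>
      rw [hhalf]
      set t := Matrix.SpecialLinearGroup.transvection h (c / 2) with ht
      have h1 : x * t = t * x ∨ x * t = -1 * (t * x) := by
        rcases hker _ (hx t) with h | h
        · left
          exact commutatorElement_eq_one_iff_mul_comm.1 h
        · right
          rw [← h, commutatorElement_def]
          group
      rcases h1 with h1 | h1
      · rw [mul_assoc, ← h1, ← mul_assoc, ← h1, mul_assoc]
      · have hneg : ∀ y : Matrix.SpecialLinearGroup (Fin 2) F, y * -1 = -1 * y := by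
          intro y
          apply Subtype.ext
          simp
        have hneg2 : (-1 : Matrix.SpecialLinearGroup (Fin 2) F) * -1 = 1 := by
          apply Subtype.ext
          simp
        calc t * t * x = (-1 * -1) * (t * (t * x)) := by rw [hneg2, one_mul, mul_assoc]
          _ = -1 * (t * (-1 * (t * x))) := by
            rw [← mul_assoc t (-1), hneg t]; simp only [mul_assoc]
          _ = -1 * (t * (x * t)) := by rw [h1]
          _ = (-1 * (t * x)) * t := by simp only [mul_assoc]
          _ = x * (t * t) := by rw [← h1, mul_assoc]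
    | hmul A B hA hB => rw [mul_assoc, hB, ← mul_assoc, hA, mul_assoc]

end Cfsg.Agent.S0298
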