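import Cfsg.Statements.S0299
import Cfsg.Agent.Lib.Helper14.Omega4P
import Cfsg.Agent.Lib.Helper14.POmegaIso
import Cfsg.Agent.Lib.Helper14.SU2
import Cfsg.Agent.Lib.Helper15.OmegaIndex
import Cfsg.Agent.Lib.Helper15.PlusLagr
import Cfsg.Agent.S0287
open Cfsg.Agent.Lib.Helper14 Cfsg.Agent.Lib.Helper14.Omega4P Cfsg.Agent.Lib.Helper14.POmegaIso Cfsg.Agent.Lib.Helper15
open scoped commutatorElement

set_option autoImplicit false
open Cfsg

namespace Cfsg.Agent.S0299

/-- PΩ^+_4(q) is isomorphic to PSL_2(q) x PSL_2(q) for q at least 3. -/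
theorem result {F : Type*} [Field F] [Fintype F] (hF : 3 ≤ Fintype.card F) : Nonempty (Cfsg.POmega F (Cfsg.quadFormPlus 2 F) ≃* Matrix.ProjectiveSpecialLinearGroup (Fin 2) F × Matrix.ProjectiveSpecialLinearGroup (Fin 2) F) := by
  classical
  have hO := Cfsg.Agent.S0287.result (F := F) rfl 2 (by norm_num)
  rw [← coe_qPlus] at hO ⊢
  have hnd := qPlus_nondegenerate 2 F
  have hh : Fintype.card F ≠ 2 ∨ Fintype.card I4 ≠ 4 := Or.inl (by omega)
  let ρL : Matrix.SpecialLinearGroup (Fin 2) F →* Cfsg.isometryGroup F (qPlus 2 F) :=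
    MonoidHom.codRestrict (MonoidHom.toHomUnits
      { toFun := fun g => L g.1, map_one' := L_one, map_mul' := fun g h => L_mul g.1 h.1 }) _ (by
      intro g u v
      change (qPlus 2 F) _ = (qPlus 2 F) _
      rw [coe_qPlus]
      exact Q_L g.1 g.2 u)
  let ρR : Matrix.SpecialLinearGroup (Fin 2) F →* Cfsg.isometryGroup F (qPlus 2 F) :=
    MonoidHom.codRestrict (MonoidHom.toHomUnits
      { toFun := fun g => R g.1, map_one' := R_one, map_mul' := fun g h => R_mul g.1 h.1 }) _ (by
      intro g u v
      change (qPlus 2 F) _ = (qPlus 2 F) _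
      rw [coe_qPlus]
      exact Q_R g.1 g.2 u)
  have hρL : ∀ g, (ρL g).1.1 = L g.1 := fun g => rfl
  have hρR : ∀ g, (ρR g).1.1 = R g.1 := fun g => rfl
  have hcomm : ∀ g h, Commute (ρL g) (ρR h) := by
    intro g h
    apply Subtype.ext
    apply Units.ext
    exact L_R_comm g.1 h.1
  let ρ := MonoidHom.noncommCoprod ρL ρR hcomm
  have hker : ∀ x, x ∈ ρ.ker → x = 1 ∨ x = (-1, -1) := by
    rintro ⟨g, h⟩ hx
    have h1 : ρL g * ρR h = 1 := hx
    have h3 : ρL g = ρR h⁻¹ := by rw [map_inv]; exact eq_inv_of_mul_eq_one_left h1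
    have h4 : L g.1 = R (h⁻¹).1 := by rw [← hρL, ← hρR, h3]
    rcases L_eq_R g.2 h4 with ⟨h5, h6⟩ | ⟨h5, h6⟩
    · left
      have e1 : g = 1 := Subtype.ext h5
      have e2 : h⁻¹ = 1 := Subtype.ext h6
      rw [e1, inv_eq_one.1 e2]
      rfl
    · right
      have e1 : g = -1 := Subtype.ext h5
      have e2 : h⁻¹ = -1 := Subtype.ext h6
      have e3 : h = -1 := by
        rw [← inv_inv h, e2]
        apply inv_eq_of_mul_eq_one_left
        apply Subtype.ext
        simp
      rw [e1, e3]
  have hS : Nat.card (Matrix.SpecialLinearGroup (Fin 2) F × Matrix.SpecialLinearGroup (Fin 2) F) =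
      Fintype.card F ^ 2 * (Fintype.card F ^ 2 - 1) * (Fintype.card F ^ 2 - 1) := by
    rw [Nat.card_prod, card_sl_two (K := F) rfl]
    ring
  have hO' : Nat.card (Cfsg.isometryGroup F (qPlus 2 F)) =
      2 * (Fintype.card F ^ 2 * (Fintype.card F ^ 2 - 1) * (Fintype.card F ^ 2 - 1)) := by
    rw [hO]
    simp only [Nat.add_one_sub_one, Finset.prod_range_one, mul_one, zero_add]
    ring
  have hmain : (∀ g, ρL g ∈ commutator (Cfsg.isometryGroup F (qPlus 2 F))) ∧
      (∀ g, ρR g ∈ commutator (Cfsg.isometryGroup F (qPlus 2 F))) ∧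
      Nat.card ρ.ker * Nat.card (commutator (Cfsg.isometryGroup F (qPlus 2 F))) ≤
        Nat.card (Matrix.SpecialLinearGroup (Fin 2) F × Matrix.SpecialLinearGroup (Fin 2) F) := by
    have h4 := Subgroup.card_mul_index (Cfsg.Omega F (qPlus 2 F))
    by_cases h2 : (2 : F) = 0
    · have := CharTwo.of_one_ne_zero_of_two_eq_zero (one_ne_zero (α := F)) h2
      obtain ⟨a, ha0, ha1⟩ : ∃ a : F, a ≠ 0 ∧ a ≠ 1 := by
        by_contra hcon
        push Not at hcon
        have : Fintype.card F ≤ 2 := by
          have h1 : (Finset.univ : Finset F) ⊆ {0, 1} := by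
            intro x _
            by_cases hx : x = 0
            · simp [hx]
            · simp [hcon x hx]
          calc Fintype.card F = (Finset.univ : Finset F).card := rfl
            _ ≤ ({0, 1} : Finset F).card := Finset.card_le_card h1
            _ ≤ 2 := Finset.card_le_two
        omega
      have hasq : a ^ 2 ≠ 1 := by
        intro h
        apply ha1
        have h5 : (a - 1) ^ 2 = 0 := by linear_combination h - (a - 1) * h2
        exact sub_eq_zero.1 (pow_eq_zero_iff (by norm_num) |>.1 h5)
      have hperf := Matrix.SL2.commutator_eq_top ha0 hasq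
      refine ⟨map_mem_commutator ρL hperf, map_mem_commutator ρR hperf, ?_⟩
      have h3 := index_Omega_even (qPlus 2 F) hnd hh (by simp)
      rw [h3, hO'] at h4
      have h6 : Nat.card ρ.ker ≤ 1 := by
        have : Subsingleton ρ.ker := by
          refine ⟨fun x y => ?_⟩
          have hone : ((-1, -1) : Matrix.SpecialLinearGroup (Fin 2) F × Matrix.SpecialLinearGroup (Fin 2) F) = 1 := by
            have : (-1 : Matrix.SpecialLinearGroup (Fin 2) F) = 1 := by
              apply Subtype.ext
              change (-1 : Matrix (Fin 2) (Fin 2) F) = 1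
              exact CharTwo.neg_eq 1
            rw [this]; rfl
          apply Subtype.ext
          have hx : x.1 = 1 := by rcases hker x.1 x.2 with h | h <;> simp [h, hone]
          have hy : y.1 = 1 := by rcases hker y.1 y.2 with h | h <;> simp [h, hone]
          rw [hx, hy]
        exact Finite.card_le_one_iff_subsingleton.2 this
      rw [hS]
      have h8 := Nat.mul_le_mul_right (Nat.card (commutator (Cfsg.isometryGroup F (qPlus 2 F)))) h6
      have h9 : Nat.card (commutator (Cfsg.isometryGroup F (qPlus 2 F))) * 2 = _ := h4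
      omega
    · have hsq : ∀ y : Cfsg.isometryGroup F (qPlus 2 F),
          y * y ∈ commutator (Cfsg.isometryGroup F (qPlus 2 F)) := by
        intro y
        have := ker_chars h2 (qPlus 2 F) hnd hh
        change y * y ∈ Cfsg.Omega F (qPlus 2 F)
        rw [← this, MonoidHom.mem_ker, map_mul]
        exact Prod.ext (Int.units_mul_self _) (Int.units_mul_self _)
      have hhalf : ∀ (i j : Fin 2) (h : i ≠ j) (c : F), Matrix.SpecialLinearGroup.transvection h c =
          Matrix.SpecialLinearGroup.transvection h (c / 2) *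
            Matrix.SpecialLinearGroup.transvection h (c / 2) := by
        intro i j h c
        rw [← Matrix.SpecialLinearGroup.transvection_add]
        congr 1
        field_simp
        ring
      have hgen : ∀ φ : Matrix.SpecialLinearGroup (Fin 2) F →* Cfsg.isometryGroup F (qPlus 2 F),
          ∀ s, φ s ∈ commutator (Cfsg.isometryGroup F (qPlus 2 F)) := by
        intro φ s
        induction s using Matrix.SL2.transvection_induction with
        | htransvec i j h c => rw [hhalf, map_mul]; exact hsq _
        | hmul A B hA hB => rw [map_mul]; exact mul_mem hA hB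
      refine ⟨hgen ρL, hgen ρR, ?_⟩
      have h3 := index_Omega_odd h2 (qPlus 2 F) hnd (by simp)
      rw [h3, hO'] at h4
      have h6 : Nat.card ρ.ker ≤ 2 := by
        have h7 : (ρ.ker : Set (Matrix.SpecialLinearGroup (Fin 2) F × Matrix.SpecialLinearGroup (Fin 2) F))
            ⊆ {1, (-1, -1)} := by
          intro g hg
          rcases hker g hg with h | h
          · left; exact h
          · right; exact h
        calc Nat.card ρ.ker = (ρ.ker : Set (Matrix.SpecialLinearGroup (Fin 2) F × Matrix.SpecialLinearGroup (Fin 2) F)).ncard := rfl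
          _ ≤ ({1, (-1, -1)} : Set (Matrix.SpecialLinearGroup (Fin 2) F × Matrix.SpecialLinearGroup (Fin 2) F)).ncard :=
            Set.ncard_le_ncard h7 (Set.toFinite _)
          _ ≤ 2 := by
            have := Set.ncard_insert_le (1 : Matrix.SpecialLinearGroup (Fin 2) F × Matrix.SpecialLinearGroup (Fin 2) F) {(-1, -1)}
            rwa [Set.ncard_singleton] at this
      rw [hS]
      have h8 := Nat.mul_le_mul_right (Nat.card (commutator (Cfsg.isometryGroup F (qPlus 2 F)))) h6
      have h9 : Nat.card (commutator (Cfsg.isometryGroup F (qPlus 2 F))) * 4 = _ := h4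
      omega
  obtain ⟨hmL, hmR, hcard⟩ := hmain
  let Z := Subgroup.center (Matrix.SpecialLinearGroup (Fin 2) F)
  refine pomega_equiv' ρ (MonoidHom.prodMap (QuotientGroup.mk' Z) (QuotientGroup.mk' Z))
    (Function.Surjective.prodMap (QuotientGroup.mk'_surjective Z) (QuotientGroup.mk'_surjective Z))
    ?_ hcard ?_ ?_
  · rintro ⟨g, h⟩
    exact mul_mem (hmL g) (hmR h)
  · rintro ⟨x1, x2⟩ hx
    rw [MonoidHom.mem_ker]
    have hx1 : x1 ∈ Z := by
      rw [Subgroup.mem_center_iff]
      intro t
      have h1 := hker _ (hx (t, 1))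
      have h3 : ⁅((x1, x2) : Matrix.SpecialLinearGroup (Fin 2) F × Matrix.SpecialLinearGroup (Fin 2) F), ((t, 1) : Matrix.SpecialLinearGroup (Fin 2) F × Matrix.SpecialLinearGroup (Fin 2) F)⁆ = (⁅x1, t⁆, 1) := by
        refine Prod.ext rfl ?_
        change x2 * 1 * x2⁻¹ * 1⁻¹ = 1
        simp
      rw [h3] at h1
      have h5 : ⁅x1, t⁆ = 1 := by
        rcases h1 with h | h
        · exact congrArg Prod.fst h
        · have e1 := congrArg Prod.fst h
          have e2 := congrArg Prod.snd h
          simp only at e1 e2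
          rw [e1, ← e2]
      exact (commutatorElement_eq_one_iff_mul_comm.1 h5).symm
    have hx2 : x2 ∈ Z := by
      rw [Subgroup.mem_center_iff]
      intro t
      have h1 := hker _ (hx (1, t))
      have h3 : ⁅((x1, x2) : Matrix.SpecialLinearGroup (Fin 2) F × Matrix.SpecialLinearGroup (Fin 2) F), ((1, t) : Matrix.SpecialLinearGroup (Fin 2) F × Matrix.SpecialLinearGroup (Fin 2) F)⁆ = (1, ⁅x2, t⁆) := by
        refine Prod.ext ?_ rfl
        change x1 * 1 * x1⁻¹ * 1⁻¹ = 1
        simp
      rw [h3] at h1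
      have h5 : ⁅x2, t⁆ = 1 := by
        rcases h1 with h | h
        · exact congrArg Prod.snd h
        · have e1 := congrArg Prod.fst h
          have e2 := congrArg Prod.snd h
          simp only at e1 e2
          rw [e2, ← e1]
      exact (commutatorElement_eq_one_iff_mul_comm.1 h5).symm
    exact Prod.ext ((QuotientGroup.eq_one_iff _).2 hx1) ((QuotientGroup.eq_one_iff _).2 hx2)
  · rintro ⟨x1, x2⟩ hx
    rw [MonoidHom.mem_ker] at hx
    have hx1 : x1 ∈ Z := (QuotientGroup.eq_one_iff _).1 (congrArg Prod.fst hx)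
    have hx2 : x2 ∈ Z := (QuotientGroup.eq_one_iff _).1 (congrArg Prod.snd hx)
    rw [Subgroup.mem_center_iff]
    rintro ⟨g, h⟩
    exact Prod.ext (Subgroup.mem_center_iff.1 hx1 g) (Subgroup.mem_center_iff.1 hx2 h)

end Cfsg.Agent.S0299
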