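import Cfsg.Statements.S0300
import Cfsg.Agent.Lib.Helper14.Omega4M
import Cfsg.Agent.Lib.Helper14.POmegaIso
import Cfsg.Agent.Lib.Helper14.SU2
import Cfsg.Agent.Lib.Helper14.SpPerf
import Cfsg.Agent.Lib.Helper15.OmegaIndex
import Cfsg.Agent.Lib.Helper15.IndexTwo
import Cfsg.Agent.S0288
open Cfsg.Agent.Lib.Helper14 Cfsg.Agent.Lib.Helper14.Omega4M Cfsg.Agent.Lib.Helper14.POmegaIso Cfsg.Agent.Lib.Helper15
open scoped commutatorElement

set_option autoImplicit false
open Cfsg

namespace Cfsg.Agent.S0300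

/-- PΩ^-_4(q) is isomorphic to PSL_2(q^2). -/
theorem result {F K : Type*} [Field F] [Fintype F] [Field K] [Fintype K] {q : ℕ} (hF : Fintype.card F = q) (hK : Fintype.card K = q ^ 2) (a b : F) (hab : ∀ z₁ z₂ : F, z₁ ^ 2 + a * z₁ * z₂ + b * z₂ ^ 2 = 0 → z₁ = 0 ∧ z₂ = 0) : Nonempty (Cfsg.POmega F (Cfsg.quadFormMinus 1 F a b) ≃* Matrix.ProjectiveSpecialLinearGroup (Fin 2) K) := by
  classical
  obtain ⟨D, rfl, rfl⟩ := GUO.exists_data_of_aniso hK hF a b hab
  have hO := Cfsg.Agent.S0288.result (F := F) hF 2 (by norm_num) D.a D.b hab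
  rw [show (2 - 1 : ℕ) = 1 from rfl] at hO
  rw [← coe_qMinus] at hO ⊢
  have hnd := qMinus_nondegenerate 1 D.a D.b hab
  have hq := q_ge_two hK
  have hK4 : 4 ≤ Fintype.card K := by rw [hK]; nlinarith
  obtain ⟨c, hc0, hc1⟩ := exists_sq_ne_one hK4
  have hperf := Matrix.SL2.commutator_eq_top hc0 hc1
  have hker := ker_rho D hK hF
  have hS : Nat.card (Matrix.SpecialLinearGroup (Fin 2) K) = q ^ 2 * ((q ^ 2) ^ 2 - 1) :=
    card_sl_two hK
  have hO' : Nat.card (Cfsg.isometryGroup F (qMinus 1 F D.a D.b)) = 2 * (q ^ 2 * ((q ^ 2) ^ 2 - 1)) := by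
    rw [hO]
    simp only [Finset.prod_range_one, mul_one, zero_add]
    have h1 : 1 ≤ q ^ 2 := Nat.one_le_pow _ _ (by omega)
    obtain ⟨t, ht⟩ : ∃ t, q ^ 2 = t + 1 := ⟨q ^ 2 - 1, by omega⟩
    rw [ht]
    have e1 : (t + 1) ^ 2 - 1 = t * (t + 2) := by
      have : (t + 1) ^ 2 = t * (t + 2) + 1 := by ring
      omega
    rw [e1, Nat.add_sub_cancel]
    ring
  refine pomega_equiv_of_perfect (rho D hK hF) hperf ?_ ?_
  · intro g hg
    rw [Subgroup.mem_center_iff]
    intro h
    rcases hker g hg with rfl | rfl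
    · simp
    · apply Subtype.ext
      simp
  · by_cases h2 : (2 : F) = 0
    · have h2K : (2 : K) = 0 := by
        have := congrArg D.ι h2
        rwa [map_ofNat, map_zero] at this
      have := CharTwo.of_one_ne_zero_of_two_eq_zero (one_ne_zero (α := K)) h2K
      have hinj : Function.Injective (rho D hK hF) := by
        rw [← MonoidHom.ker_eq_bot_iff, eq_bot_iff]
        intro g hg
        rw [Subgroup.mem_bot]
        rcases hker g hg with h | h
        · exact h
        · rw [h]
          apply Subtype.ext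
          change (-1 : Matrix (Fin 2) (Fin 2) K) = 1
          exact CharTwo.neg_eq 1
      have h3 : Nat.card (rho D hK hF).range = Nat.card (Matrix.SpecialLinearGroup (Fin 2) K) :=
        (Nat.card_congr (MonoidHom.ofInjective hinj).toEquiv).symm
      have h4 := Subgroup.card_mul_index (rho D hK hF).range
      rw [h3, hO', hS] at h4
      have hpos : 0 < q ^ 2 * ((q ^ 2) ^ 2 - 1) := by
        rw [← hS]; exact Nat.card_pos
      have h5 : (rho D hK hF).range.index = 2 := by
        apply Nat.eq_of_mul_eq_mul_left hpos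
        rw [h4]; ring
      have h6 := Subgroup.card_le_of_le (commutator_le_of_index_two' _ h5)
      rw [(MonoidHom.ker_eq_bot_iff _).2 hinj, Subgroup.card_bot, one_mul, ← h3]
      exact h6
    · have h4 := Subgroup.card_mul_index (Cfsg.Omega F (qMinus 1 F D.a D.b))
      have h3 := index_Omega_odd h2 (qMinus 1 F D.a D.b) hnd (by simp)
      rw [h3, hO'] at h4
      have h6 : Nat.card (rho D hK hF).ker ≤ 2 := by
        have h7 : ((rho D hK hF).ker : Set (Matrix.SpecialLinearGroup (Fin 2) K)) ⊆ {1, -1} := by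
          intro g hg
          rcases hker g hg with h | h
          · left; exact h
          · right; exact h
        calc Nat.card (rho D hK hF).ker = ((rho D hK hF).ker : Set (Matrix.SpecialLinearGroup (Fin 2) K)).ncard := rfl
          _ ≤ ({1, -1} : Set (Matrix.SpecialLinearGroup (Fin 2) K)).ncard :=
            Set.ncard_le_ncard h7 (Set.toFinite _)
          _ ≤ 2 := by
            have := Set.ncard_insert_le (1 : Matrix.SpecialLinearGroup (Fin 2) K) {-1}
            rwa [Set.ncard_singleton] at this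
      rw [hS]
      have h8 := Nat.mul_le_mul_right (Nat.card (commutator (Cfsg.isometryGroup F (qMinus 1 F D.a D.b)))) h6
      have h9 : Nat.card (commutator (Cfsg.isometryGroup F (qMinus 1 F D.a D.b))) * 4 = _ := h4
      omega

end Cfsg.Agent.S0300
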