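import Cfsg.Statements.S0301
import Cfsg.Agent.Lib.Helper14.Omega5
import Cfsg.Agent.Lib.Helper14.POmegaIso
import Cfsg.Agent.Lib.Helper14.POmegaIso2
import Cfsg.Agent.Lib.Helper14.SpPerf
import Cfsg.Agent.Lib.Helper15.OmegaIndex
import Cfsg.Agent.Lib.Helper15.NotMax3
import Cfsg.Agent.S0286
import Cfsg.Agent.S0245
import Cfsg.Agent.S0246
import Cfsg.Agent.S0269
import Cfsg.Agent.S0270
open Cfsg.Agent.Lib.Helper14 Cfsg.Agent.Lib.Helper14.Omega5 Cfsg.Agent.Lib.Helper14.POmegaIso Cfsg.Agent.Lib.Helper15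
open scoped commutatorElement Matrix

set_option autoImplicit false
open Cfsg

namespace Cfsg.Agent.S0301

/-- PΩ_5(q) is isomorphic to PSp_4(q) for q odd. -/
theorem result {F : Type*} [Field F] [Fintype F] (hodd : Odd (Fintype.card F)) : Nonempty (Cfsg.POmega F (Cfsg.quadFormOdd 2 F) ≃* Cfsg.PSp 2 F) := by
  classical
  have h2 : (2 : F) ≠ 0 := by
    intro h
    have := CharTwo.of_one_ne_zero_of_two_eq_zero (one_ne_zero (α := F)) h
    have h3 := FiniteField.even_card_of_char_two (F := F) (ringChar.eq F 2)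
    exact (Nat.not_even_iff_odd.2 hodd) (Nat.even_iff.2 h3)
  have hq3 : 3 ≤ Fintype.card F := by
    have h1 : 2 ≤ Fintype.card F := Fintype.one_lt_card
    rcases hodd with ⟨k, hk⟩
    omega
  have hO := Cfsg.Agent.S0286.result (F := F) rfl hodd 2
  have hnd := qOdd_nondegenerate h2 2
  have hperf : commutator (Matrix.symplecticGroup (Fin 2) F) = ⊤ :=
    Cfsg.Agent.S0269.result 2 (Or.inr (Or.inl ⟨rfl, hq3⟩))
  have hsimple : IsSimpleGroup (Cfsg.PSp 2 F) := Cfsg.Agent.S0270.result 2 le_rfl (fun _ => hq3)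
  have hkerZ : (rho5 F).ker ≤ Subgroup.center (Matrix.symplecticGroup (Fin 2) F) := by
    refine ker_le_center_of_simple (rho5 F) hperf hsimple (spX (Matrix.single 0 0 1) (by simp)) ?_
    intro h
    apply D_ne_one (F := F)
    have := rho5_val (F := F) (spX (Matrix.single 0 0 1) (by simp))
    rw [h] at this
    exact this.symm
  refine pomega_equiv_of_perfect (rho5 F) hperf hkerZ ?_
  have hZ := Cfsg.Agent.S0246.result (F := F) rfl 2 (by norm_num)
  have hZ2 : Nat.card (Subgroup.center (Matrix.symplecticGroup (Fin 2) F)) ≤ 2 := by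
    rw [hZ]; exact Nat.gcd_le_left _ (by norm_num)
  have h6 : Nat.card (rho5 F).ker ≤ 2 := le_trans (Subgroup.card_le_of_le hkerZ) hZ2
  have hS := Cfsg.Agent.S0245.result (F := F) rfl 2
  have h3 : (Cfsg.Omega F (Cfsg.quadFormOdd 2 F)).index = 4 := by
    have := index_Omega_odd h2 (qOdd 2 F) hnd (by simp)
    rwa [coe_qOdd] at this
  have h4 := Subgroup.card_mul_index (Cfsg.Omega F (Cfsg.quadFormOdd 2 F))
  rw [h3, hO] at h4
  rw [hS]
  have h8 := Nat.mul_le_mul_right (Nat.card (commutator (Cfsg.isometryGroup F (Cfsg.quadFormOdd 2 F)))) h6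
  have h9 : Nat.card (commutator (Cfsg.isometryGroup F (Cfsg.quadFormOdd 2 F))) * 4 =
      2 * (Fintype.card F ^ 2 ^ 2 * ∏ i ∈ Finset.range 2, (Fintype.card F ^ (2 * (i + 1)) - 1)) := by
    rw [← mul_assoc]; exact h4
  omega

end Cfsg.Agent.S0301
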