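import Cfsg.Statements.S0302
import Cfsg.Agent.Lib.Helper14.Omega6P
import Cfsg.Agent.Lib.Helper14.POmegaIso
import Cfsg.Agent.Lib.Helper14.SLGen
import Cfsg.Agent.Lib.Helper14.Orders
import Cfsg.Agent.Lib.Helper15.OmegaIndex
import Cfsg.Agent.Lib.Helper15.PlusLagr
import Cfsg.Agent.S0287
open Cfsg.Agent.Lib.Helper14 Cfsg.Agent.Lib.Helper14.Omega6P Cfsg.Agent.Lib.Helper14.POmegaIso Cfsg.Agent.Lib.Helper15
open scoped commutatorElement

set_option autoImplicit false
open Cfsg

namespace Cfsg.Agent.S0302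

/-- PΩ^+_6(q) is isomorphic to PSL_4(q). -/
theorem result {F : Type*} [Field F] [Fintype F] : Nonempty (Cfsg.POmega F (Cfsg.quadFormPlus 3 F) ≃* Matrix.ProjectiveSpecialLinearGroup (Fin 4) F) := by
  classical
  have hO := Cfsg.Agent.S0287.result (F := F) rfl 3 (by norm_num)
  rw [← coe_qPlus] at hO ⊢
  have hnd := qPlus_nondegenerate 3 F
  have hh : Fintype.card F ≠ 2 ∨ Fintype.card I6 ≠ 4 := Or.inr (by simp)
  let ρ : Matrix.SpecialLinearGroup (Fin 4) F →* Cfsg.isometryGroup F (qPlus 3 F) :=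
    MonoidHom.codRestrict (MonoidHom.toHomUnits
      { toFun := fun g => C g.1, map_one' := C_one, map_mul' := fun g h => C_mul g.1 h.1 }) _ (by
      intro g u v
      change (qPlus 3 F) _ = (qPlus 3 F) _
      rw [coe_qPlus]
      have := Q_C g.1 u
      rw [g.2, one_mul] at this
      exact this)
  have hρ : ∀ g, (ρ g).1.1 = C g.1 := fun g => rfl
  have hperf : commutator (Matrix.SpecialLinearGroup (Fin 4) F) = ⊤ :=
    SL_commutator_eq_top (by simp)
  have hkerZ : ρ.ker ≤ Subgroup.center (Matrix.SpecialLinearGroup (Fin 4) F) := by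
    have hsimple := PSL_isSimpleGroup (ι := Fin 4) (F := F) (by simp)
    have hn : (ρ.ker.map (QuotientGroup.mk' (Subgroup.center (Matrix.SpecialLinearGroup (Fin 4) F)))).Normal :=
      Subgroup.Normal.map inferInstance _ (QuotientGroup.mk'_surjective _)
    rcases hn.eq_bot_or_eq_top with h | h
    · have := (Subgroup.map_eq_bot_iff _).1 h
      rwa [QuotientGroup.ker_mk'] at this
    · exfalso
      have hdec : ∀ s : Matrix.SpecialLinearGroup (Fin 4) F,
          ∃ z ∈ Subgroup.center (Matrix.SpecialLinearGroup (Fin 4) F), ρ s = ρ z := by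
        intro s
        have h1 : QuotientGroup.mk' (Subgroup.center (Matrix.SpecialLinearGroup (Fin 4) F)) s ∈
            ρ.ker.map (QuotientGroup.mk' (Subgroup.center (Matrix.SpecialLinearGroup (Fin 4) F))) := by
          rw [h]; exact Subgroup.mem_top _
        obtain ⟨n, hn, hns⟩ := h1
        refine ⟨n⁻¹ * s, QuotientGroup.eq.1 hns, ?_⟩
        rw [map_mul, map_inv, MonoidHom.mem_ker.1 hn, inv_one, one_mul]
      have htop : (⊤ : Subgroup (Matrix.SpecialLinearGroup (Fin 4) F)) ≤ ρ.ker := by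
        rw [← hperf, commutator_def, Subgroup.commutator_le]
        intro s _ s' _
        obtain ⟨z, hz, hsz⟩ := hdec s
        obtain ⟨z', _, hsz'⟩ := hdec s'
        rw [MonoidHom.mem_ker, map_commutatorElement, hsz, hsz', ← map_commutatorElement,
          commutatorElement_eq_one_iff_mul_comm.2 ((Subgroup.mem_center_iff.1 hz z').symm), map_one]
      have ht : Matrix.SpecialLinearGroup.transvection (show (0 : Fin 4) ≠ 1 by decide) (1 : F) ∈ ρ.ker :=
        htop (Subgroup.mem_top _)
      have h1 : C (Matrix.SpecialLinearGroup.transvection (show (0 : Fin 4) ≠ 1 by decide) (1 : F)).1 = 1 := by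
        rw [← hρ, MonoidHom.mem_ker.1 ht]; rfl
      have h3 := congrFun (congrFun h1 (.inl 1)) (.inr 2)
      simp [C, p1, p2] at h3
      simp [minor, Matrix.SpecialLinearGroup.transvection_coe] at h3
  have : Fact (Even (Fintype.card (Fin 4))) := ⟨by rw [Fintype.card_fin]; decide⟩
  have hker : ∀ g, g ∈ ρ.ker → g = 1 ∨ g = -1 := by
    intro g hg
    obtain ⟨r, -, hr⟩ := Matrix.SpecialLinearGroup.mem_center_iff.1 (hkerZ hg)
    have h1 : C g.1 = 1 := by
      rw [← hρ, MonoidHom.mem_ker.1 hg]; rfl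
    have h3 := congrFun (congrFun h1 (.inl 0)) (.inl 0)
    rw [← hr] at h3
    simp [C, p1, p2] at h3
    simp [minor] at h3
    have h4 : (r - 1) * (r + 1) = 0 := by linear_combination h3
    rcases mul_eq_zero.1 h4 with h | h
    · left
      apply Subtype.ext
      rw [← hr, sub_eq_zero.1 h]
      simp
    · right
      apply Subtype.ext
      rw [← hr, eq_neg_of_add_eq_zero_left h, map_neg, map_one]
      rfl
  refine pomega_equiv_of_perfect ρ hperf hkerZ ?_
  have hq : 2 ≤ Fintype.card F := Fintype.one_lt_card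
  obtain ⟨q, hqd⟩ : ∃ q, q = Fintype.card F := ⟨_, rfl⟩
  rw [← hqd] at hO hq
  have hS : Nat.card (Matrix.SpecialLinearGroup (Fin 4) F) =
      q ^ 6 * (q ^ 4 - 1) * (q ^ 3 - 1) * (q ^ 2 - 1) := by
    have h1 := card_SL_field (F := F) 4 (by norm_num)
    rw [Fin.prod_univ_four, ← hqd] at h1
    simp only [Fin.val_zero, Fin.val_one, pow_zero, pow_one] at h1
    have e1 : q ^ 4 - q = q * (q ^ 3 - 1) := by rw [Nat.mul_sub, mul_one]; ring_nf
    have e2 : q ^ 4 - q ^ ((2 : Fin 4) : ℕ) = q ^ 2 * (q ^ 2 - 1) := by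
      rw [Nat.mul_sub, mul_one]; ring_nf; rfl
    have e3 : q ^ 4 - q ^ ((3 : Fin 4) : ℕ) = q ^ 3 * (q - 1) := by
      rw [Nat.mul_sub, mul_one]; ring_nf; rfl
    rw [e1, e2, e3] at h1
    have h3 : (q - 1) * Nat.card (Matrix.SpecialLinearGroup (Fin 4) F) =
        (q - 1) * (q ^ 6 * (q ^ 4 - 1) * (q ^ 3 - 1) * (q ^ 2 - 1)) := by rw [h1]; ring
    exact Nat.eq_of_mul_eq_mul_left (by omega) h3
  have hO' : Nat.card (Cfsg.isometryGroup F (qPlus 3 F)) =
      2 * (q ^ 6 * (q ^ 4 - 1) * (q ^ 3 - 1) * (q ^ 2 - 1)) := by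
    rw [hO]
    simp only [Finset.prod_range_succ, Finset.prod_range_zero]
    norm_num
    ring
  have h4 := Subgroup.card_mul_index (Cfsg.Omega F (qPlus 3 F))
  rw [hS]
  by_cases h2 : (2 : F) = 0
  · have := CharTwo.of_one_ne_zero_of_two_eq_zero (one_ne_zero (α := F)) h2
    have h3 := index_Omega_even (qPlus 3 F) hnd hh (by simp)
    rw [h3, hO'] at h4
    have h6 : Nat.card ρ.ker ≤ 1 := by
      have : Subsingleton ρ.ker := by
        refine ⟨fun x y => ?_⟩
        have hone : (-1 : Matrix.SpecialLinearGroup (Fin 4) F) = 1 := by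
          apply Subtype.ext
          change (-1 : Matrix (Fin 4) (Fin 4) F) = 1
          exact CharTwo.neg_eq 1
        apply Subtype.ext
        have hx : x.1 = 1 := by rcases hker x.1 x.2 with h | h <;> simp [h, hone]
        have hy : y.1 = 1 := by rcases hker y.1 y.2 with h | h <;> simp [h, hone]
        rw [hx, hy]
      exact Finite.card_le_one_iff_subsingleton.2 this
    have h8 := Nat.mul_le_mul_right (Nat.card (commutator (Cfsg.isometryGroup F (qPlus 3 F)))) h6
    have h9 : Nat.card (commutator (Cfsg.isometryGroup F (qPlus 3 F))) * 2 = _ := h4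
    omega
  · have h3 := index_Omega_odd h2 (qPlus 3 F) hnd (by simp)
    rw [h3, hO'] at h4
    have h6 : Nat.card ρ.ker ≤ 2 := by
      have h7 : (ρ.ker : Set (Matrix.SpecialLinearGroup (Fin 4) F)) ⊆ {1, -1} := by
        intro g hg
        rcases hker g hg with h | h
        · left; exact h
        · right; exact h
      calc Nat.card ρ.ker = (ρ.ker : Set (Matrix.SpecialLinearGroup (Fin 4) F)).ncard := rfl
        _ ≤ ({1, -1} : Set (Matrix.SpecialLinearGroup (Fin 4) F)).ncard :=
          Set.ncard_le_ncard h7 (Set.toFinite _)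
        _ ≤ 2 := by
          have := Set.ncard_insert_le (1 : Matrix.SpecialLinearGroup (Fin 4) F) {-1}
          rwa [Set.ncard_singleton] at this
    have h8 := Nat.mul_le_mul_right (Nat.card (commutator (Cfsg.isometryGroup F (qPlus 3 F)))) h6
    have h9 : Nat.card (commutator (Cfsg.isometryGroup F (qPlus 3 F))) * 4 = _ := h4
    omega

end Cfsg.Agent.S0302
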