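import Cfsg.Statements.S0303
import Cfsg.Agent.Lib.Helper14.Omega6M
import Cfsg.Agent.Lib.Helper14.POmegaIso
import Cfsg.Agent.Lib.Helper15.OmegaIndex
import Cfsg.Agent.S0288
import Cfsg.Agent.S0780
import Cfsg.Agent.S0781
open Cfsg.Agent.Lib.Helper14 Cfsg.Agent.Lib.Helper14.Omega6M Cfsg.Agent.Lib.Helper14.POmegaIso Cfsg.Agent.Lib.Helper15
open scoped commutatorElement

set_option autoImplicit false
open Cfsg

namespace Cfsg.Agent.S0303

/-- PΩ^-_6(q) is isomorphic to PSU_4(q). -/
theorem result {F K : Type*} [Field F] [Fintype F] [Field K] [Fintype K] {q : ℕ} (hF : Fintype.card F = q) (hK : Fintype.card K = q ^ 2) (a b : F) (hab : ∀ z₁ z₂ : F, z₁ ^ 2 + a * z₁ * z₂ + b * z₂ ^ 2 = 0 → z₁ = 0 ∧ z₂ = 0) : Nonempty (Cfsg.POmega F (Cfsg.quadFormMinus 2 F a b) ≃* Cfsg.PSU 4 K q) := by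
  classical
  obtain ⟨D, rfl, rfl⟩ := GUO.exists_data_of_aniso hK hF a b hab
  have hO := Cfsg.Agent.S0288.result (F := F) hF 3 (by norm_num) D.a D.b hab
  rw [show (3 - 1 : ℕ) = 2 from rfl] at hO
  rw [← coe_qMinus] at hO ⊢
  have hnd := qMinus_nondegenerate 2 D.a D.b hab
  have hq := q_ge_two hK
  obtain ⟨ρ, hρ⟩ := exists_rho D hK hF
  have hperf : commutator (Cfsg.SU 4 K q) = ⊤ := by
    rw [eq_top_iff, ← Cfsg.Agent.S0780.result hK 4 (by norm_num) (by omega), Subgroup.closure_le,
      commutator_eq_closure]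
    rintro A ⟨v, c, hv, hA⟩
    exact Subgroup.subset_closure (Cfsg.Agent.S0781.result hK 4 (Or.inl le_rfl) A v c hv hA)
  have hS : Nat.card (Cfsg.SU 4 K q) = q ^ 6 * (q ^ 3 + 1) * (q ^ 2 - 1) * (q ^ 4 - 1) := by
    have h1 := card_su_mul (n := 4) hK (by norm_num)
    rw [card_gu hK] at h1
    simp only [Finset.prod_range_succ, Finset.prod_range_zero] at h1
    norm_num [Nat.even_iff] at h1
    have h3 : (q + 1) * Nat.card (Cfsg.SU 4 K q) =
        (q + 1) * (q ^ 6 * (q ^ 3 + 1) * (q ^ 2 - 1) * (q ^ 4 - 1)) := by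
      rw [Nat.card_eq_fintype_card, h1]; ring
    exact Nat.eq_of_mul_eq_mul_left (by omega) h3
  have hO' : Nat.card (Cfsg.isometryGroup F (qMinus 2 F D.a D.b)) =
      2 * (q ^ 6 * (q ^ 3 + 1) * (q ^ 2 - 1) * (q ^ 4 - 1)) := by
    rw [hO]
    simp only [Finset.prod_range_succ, Finset.prod_range_zero]
    norm_num
    ring
  have hinj : Function.Injective (fun g : ρ.ker => g.1.1.1) := by
    intro g h hgh
    exact Subtype.ext (Subtype.ext (Subtype.ext hgh))
  have hrange : Set.range (fun g : ρ.ker => g.1.1.1) ⊆ {1, -1} := by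
    rintro _ ⟨g, rfl⟩
    rcases hρ g.1 g.2 with h | h
    · left; exact h
    · right; exact h
  refine pomega_equiv_of_perfect ρ hperf ?_ ?_
  · intro g hg
    rw [Subgroup.mem_center_iff]
    intro h
    apply Subtype.ext
    apply Subtype.ext
    change h.1.1 * g.1.1 = g.1.1 * h.1.1
    rcases hρ g hg with e | e <;> rw [e] <;> simp
  · have h4 := Subgroup.card_mul_index (Cfsg.Omega F (qMinus 2 F D.a D.b))
    have hc : Nat.card ρ.ker = (Set.range (fun g : ρ.ker => g.1.1.1)).ncard :=
      (Nat.card_range_of_injective hinj).symm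
    rw [hS]
    by_cases h2 : (2 : F) = 0
    · have h2K : (2 : K) = 0 := by
        have := congrArg D.ι h2
        rwa [map_ofNat, map_zero] at this
      have := CharTwo.of_one_ne_zero_of_two_eq_zero (one_ne_zero (α := K)) h2K
      have := CharTwo.of_one_ne_zero_of_two_eq_zero (one_ne_zero (α := F)) h2
      have h3 := index_Omega_even (qMinus 2 F D.a D.b) hnd (Or.inr (by simp)) (by simp)
      rw [h3, hO'] at h4
      have h6 : Nat.card ρ.ker ≤ 1 := by
        rw [hc]
        have h7 : Set.range (fun g : ρ.ker => g.1.1.1) ⊆ {1} := by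
          intro x hx
          rcases hrange hx with h | h
          · exact h
          · rw [Set.mem_singleton_iff] at h ⊢
            rw [h]
            exact CharTwo.neg_eq 1
        calc _ ≤ ({1} : Set (Matrix (Fin 4) (Fin 4) K)).ncard := Set.ncard_le_ncard h7 (Set.toFinite _)
          _ = 1 := Set.ncard_singleton _
      have h8 := Nat.mul_le_mul_right (Nat.card (commutator (Cfsg.isometryGroup F (qMinus 2 F D.a D.b)))) h6
      have h9 : Nat.card (commutator (Cfsg.isometryGroup F (qMinus 2 F D.a D.b))) * 2 = _ := h4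
      omega
    · have h3 := index_Omega_odd h2 (qMinus 2 F D.a D.b) hnd (by simp)
      rw [h3, hO'] at h4
      have h6 : Nat.card ρ.ker ≤ 2 := by
        rw [hc]
        calc _ ≤ ({1, -1} : Set (Matrix (Fin 4) (Fin 4) K)).ncard :=
              Set.ncard_le_ncard hrange (Set.toFinite _)
          _ ≤ 2 := by
            have := Set.ncard_insert_le (1 : Matrix (Fin 4) (Fin 4) K) {-1}
            rwa [Set.ncard_singleton] at this
      have h8 := Nat.mul_le_mul_right (Nat.card (commutator (Cfsg.isometryGroup F (qMinus 2 F D.a D.b)))) h6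
      have h9 : Nat.card (commutator (Cfsg.isometryGroup F (qMinus 2 F D.a D.b))) * 4 = _ := h4
      omega

end Cfsg.Agent.S0303
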