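import Cfsg.Statements.S0305
import Cfsg.Agent.Lib.Helper18.Dihedral
import Cfsg.Agent.S0287
open Matrix

set_option autoImplicit false
open Cfsg

namespace Cfsg.Agent.S0305

/-- GO^+_2(q) is dihedral of order 2(q-1). -/
theorem result {F : Type*} [Field F] [Fintype F] {q : ℕ} (hF : Fintype.card F = q) : Nonempty (Cfsg.isometryGroup F (Cfsg.quadFormPlus 1 F) ≃* DihedralGroup (q - 1)) := by
  classical
  have hq : 2 ≤ q := by rw [← hF]; exact Fintype.one_lt_card
  have hcard : Nat.card (Cfsg.isometryGroup F (Cfsg.quadFormPlus 1 F)) = 2 * (q - 1) := by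
    have := Cfsg.Agent.S0287.result hF 1 le_rfl
    simpa using this
  obtain ⟨g, hg⟩ := IsCyclic.exists_generator (α := Fˣ)
  have hog : orderOf g = q - 1 := by
    rw [orderOf_eq_card_of_forall_mem_zpowers hg, Nat.card_units, Nat.card_eq_fintype_card, hF]
  let D : Fˣ → Matrix (Fin 1 ⊕ Fin 1) (Fin 1 ⊕ Fin 1) F := fun u =>
    Matrix.diagonal (Sum.elim (fun _ => (u : F)) (fun _ => ((u⁻¹ : Fˣ) : F)))
  have hDmul : ∀ u v : Fˣ, D u * D v = D (u * v) := by
    intro u v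
    simp only [D]
    rw [Matrix.diagonal_mul_diagonal]
    congr 1
    funext i
    rcases i with i | i
    · simp
    · simp [mul_comm]
  have hD1 : D 1 = 1 := by
    simp only [D]
    rw [← Matrix.diagonal_one]
    congr 1
    funext i
    rcases i with i | i <;> simp
  have hQ : ∀ w, Cfsg.quadFormPlus 1 F w = w (Sum.inl 0) * w (Sum.inr 0) := by
    intro w
    simp [Cfsg.quadFormPlus]
  let Y : Fˣ → Cfsg.isometryGroup F (Cfsg.quadFormPlus 1 F) := fun u =>
    ⟨⟨D u, D u⁻¹, by rw [hDmul, mul_inv_cancel, hD1], by rw [hDmul, inv_mul_cancel, hD1]⟩, by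
      intro w _
      change Cfsg.quadFormPlus 1 F (D u *ᵥ w) = Cfsg.quadFormPlus 1 F w
      rw [hQ, hQ]
      simp only [D, Matrix.mulVec_diagonal, Sum.elim_inl, Sum.elim_inr]
      have : (u : F) * ((u⁻¹ : Fˣ) : F) = 1 := Units.mul_inv u
      linear_combination (w (Sum.inl 0) * w (Sum.inr 0)) * this⟩
  have hext : ∀ g h : Cfsg.isometryGroup F (Cfsg.quadFormPlus 1 F), g.1.1 = h.1.1 → g = h :=
    fun g h hgh => Subtype.ext (Units.ext hgh)
  have hYmul : ∀ u v, Y u * Y v = Y (u * v) := fun u v => hext _ _ (hDmul u v)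
  have hY1 : Y 1 = 1 := hext _ _ hD1
  have hYpow : ∀ (u : Fˣ) (k : ℕ), Y u ^ k = Y (u ^ k) := by
    intro u k
    induction k with
    | zero => rw [pow_zero, pow_zero, hY1]
    | succ k ih => rw [pow_succ, pow_succ, ih, hYmul]
  have hYinj : ∀ u, Y u = 1 → u = 1 := by
    intro u hu
    have h1 : D u (Sum.inl 0) (Sum.inl 0) = (1 : Matrix (Fin 1 ⊕ Fin 1) (Fin 1 ⊕ Fin 1) F) (Sum.inl 0) (Sum.inl 0) :=
      congrFun (congrFun (congrArg (fun z : Cfsg.isometryGroup F (Cfsg.quadFormPlus 1 F) => z.1.1) hu) _) _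
    simp only [D, Matrix.diagonal_apply_eq, Sum.elim_inl, Matrix.one_apply_eq] at h1
    exact Units.ext h1
  have hoy : orderOf (Y g) = q - 1 := by
    rw [← hog, orderOf_eq_orderOf_iff]
    intro k
    rw [hYpow]
    constructor
    · intro h; exact hYinj _ h
    · intro h; rw [h, hY1]
  let X : Matrix (Fin 1 ⊕ Fin 1) (Fin 1 ⊕ Fin 1) F := Matrix.fromBlocks 0 1 1 0
  have hXX : X * X = 1 := by
    simp only [X]
    rw [Matrix.fromBlocks_multiply]
    simp
  have hXv : ∀ w, (X *ᵥ w) (Sum.inl 0) = w (Sum.inr 0) ∧ (X *ᵥ w) (Sum.inr 0) = w (Sum.inl 0) := by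
    intro w
    simp [X, Matrix.mulVec, dotProduct, Matrix.fromBlocks]
  let x : Cfsg.isometryGroup F (Cfsg.quadFormPlus 1 F) := ⟨⟨X, X, hXX, hXX⟩, by
      intro w _
      change Cfsg.quadFormPlus 1 F (X *ᵥ w) = Cfsg.quadFormPlus 1 F w
      rw [hQ, hQ, (hXv w).1, (hXv w).2, mul_comm]⟩
  have hxx : x * x = 1 := hext _ _ hXX
  have hxinv : x⁻¹ = x := inv_eq_of_mul_eq_one_left hxx
  have hXD : ∀ u : Fˣ, X * D u = D u⁻¹ * X := by
    intro u
    have h1 : ∀ u : Fˣ, D u = Matrix.fromBlocks (Matrix.diagonal fun _ => (u : F)) 0 0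
        (Matrix.diagonal fun _ => ((u⁻¹ : Fˣ) : F)) := by
      intro u
      simp only [D]
      rw [Matrix.fromBlocks_diagonal]
    rw [h1, h1]
    simp only [X]
    rw [Matrix.fromBlocks_multiply, Matrix.fromBlocks_multiply]
    simp
  have hYinv : (Y g)⁻¹ = Y g⁻¹ := by
    apply inv_eq_of_mul_eq_one_left
    rw [hYmul, inv_mul_cancel, hY1]
  have hxy : x * Y g * x⁻¹ = (Y g)⁻¹ := by
    rw [hxinv, hYinv]
    apply hext
    change X * D g * X = D g⁻¹
    rw [hXD, Matrix.mul_assoc, hXX, Matrix.mul_one]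
  have hx' : x ∉ Subgroup.zpowers (Y g) := by
    intro h
    rw [← mem_powers_iff_mem_zpowers] at h
    obtain ⟨k, hk⟩ := h
    have hk' : Y g ^ k = x := hk
    rw [hYpow] at hk'
    have h1 : D (g ^ k) (Sum.inl 0) (Sum.inr 0) = X (Sum.inl 0) (Sum.inr 0) :=
      congrFun (congrFun (congrArg (fun z : Cfsg.isometryGroup F (Cfsg.quadFormPlus 1 F) => z.1.1) hk') _) _
    simp [D, X] at h1
  exact Cfsg.Agent.Lib.Helper18.nonempty_mulEquiv_dihedralGroup (Y g) x (q - 1) hoy (by omega) hxx hxy hx' hcard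

end Cfsg.Agent.S0305
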