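import Cfsg.Statements.S0306
import Cfsg.Agent.Lib.Helper14.Dih2
import Cfsg.Agent.Lib.Helper14.GUOrth
import Cfsg.Agent.Lib.Helper18.Dihedral
import Cfsg.Agent.S0288
open Cfsg.Agent.Lib.Helper14.Dih2 Cfsg.Agent.Lib.Helper14 Matrix

set_option autoImplicit false
open Cfsg

namespace Cfsg.Agent.S0306

/-- GO^-_2(q) is dihedral of order 2(q+1). -/
theorem result {F : Type*} [Field F] [Fintype F] {q : ℕ} (hF : Fintype.card F = q) (a b : F) (hab : ∀ z₁ z₂ : F, z₁ ^ 2 + a * z₁ * z₂ + b * z₂ ^ 2 = 0 → z₁ = 0 ∧ z₂ = 0) : Nonempty (Cfsg.isometryGroup F (Cfsg.quadFormMinus 0 F a b) ≃* DihedralGroup (q + 1)) := by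
  classical
  obtain ⟨p, hp⟩ := CharP.exists F
  have : Fact p.Prime := ⟨CharP.char_is_prime F p⟩
  let K := FiniteField.Extension F p 2
  let _ : Fintype K := Fintype.ofFinite K
  have hK : Fintype.card K = q ^ 2 := by
    rw [← Nat.card_eq_fintype_card, FiniteField.natCard_extension, Nat.card_eq_fintype_card, hF]
  have hq : 2 ≤ q := q_ge_two hK
  have hd := Cfsg.Agent.Lib.Helper15.aniso_disc_ne_zero a b hab
  obtain ⟨φ, hφ⟩ := GUO.exists_gu_hom_minus hK hF 0 Even.zero a b hab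
  have hcyc : IsCyclic (Cfsg.GU (0 + 1) K q) := by
    let f : Cfsg.GU (0 + 1) K q →* K :=
      (Matrix.detMonoidHom).comp ((Units.coeHom _).comp (Cfsg.GU (0 + 1) K q).subtype)
    apply isCyclic_of_subgroup_isDomain f
    intro g h hgh
    apply Subtype.ext; apply Units.ext; ext i j
    have h1 : (g.1.1).det = (h.1.1).det := hgh
    rw [Matrix.det_fin_one, Matrix.det_fin_one] at h1
    have hi : i = 0 := Fin.fin_one_eq_zero i
    have hj : j = 0 := Fin.fin_one_eq_zero j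
    rw [hi, hj]; exact h1
  obtain ⟨c, hc⟩ := hcyc.exists_generator
  have hoc : orderOf c = q + 1 := by
    rw [orderOf_eq_card_of_forall_mem_zpowers hc, card_gu hK (0 + 1)]; simp
  set y := φ c with hy
  have hoy : orderOf y = q + 1 := by rw [hy, orderOf_injective φ hφ, hoc]
  have hcard : Nat.card (Cfsg.isometryGroup F (Cfsg.quadFormMinus 0 F a b)) = 2 * (q + 1) := by
    have := Cfsg.Agent.S0288.result hF 1 le_rfl a b hab
    simpa using this
  let e : Fin 2 ≃ (Fin 0 ⊕ Fin 0) ⊕ Fin 2 := (Equiv.emptySum (Fin 0 ⊕ Fin 0) (Fin 2)).symm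
  let R : Matrix (Fin 2) (Fin 2) F ≃ₐ[F] Matrix ((Fin 0 ⊕ Fin 0) ⊕ Fin 2) ((Fin 0 ⊕ Fin 0) ⊕ Fin 2) F :=
    Matrix.reindexAlgEquiv F F e
  have hQ : ∀ w, Cfsg.quadFormMinus 0 F a b w = N2 a b (w ∘ e) := by
    intro w
    simp [Cfsg.quadFormMinus, N2, e]
  have hR : ∀ (A : Matrix (Fin 2) (Fin 2) F) w, (R A *ᵥ w) ∘ e = A *ᵥ (w ∘ e) := by
    intro A w
    have : R A = A.submatrix e.symm e.symm := rfl
    rw [this, Matrix.submatrix_mulVec_equiv]
    funext i
    simp
  have hpres : ∀ g : Cfsg.isometryGroup F (Cfsg.quadFormMinus 0 F a b),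
      ∀ w, N2 a b (R.symm g.1.1 *ᵥ w) = N2 a b w := by
    intro g w
    have h1 := g.2 (w ∘ e.symm) 0
    change Cfsg.quadFormMinus 0 F a b (g.1.1 *ᵥ (w ∘ e.symm)) = Cfsg.quadFormMinus 0 F a b (w ∘ e.symm) at h1
    rw [hQ, hQ] at h1
    have h2 : g.1.1 = R (R.symm g.1.1) := (R.apply_symm_apply _).symm
    rw [h2, hR] at h1
    have h3 : (w ∘ e.symm) ∘ e = w := by funext i; simp
    rw [h3] at h1
    exact h1
  have hX : ∃ x : Cfsg.isometryGroup F (Cfsg.quadFormMinus 0 F a b), x.1.1 = R (X a) := by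
    refine ⟨⟨⟨R (X a), R (X a), by rw [← map_mul, X_mul_X, map_one], by rw [← map_mul, X_mul_X, map_one]⟩, ?_⟩, rfl⟩
    intro w _
    change Cfsg.quadFormMinus 0 F a b (R (X a) *ᵥ w) = Cfsg.quadFormMinus 0 F a b w
    rw [hQ, hQ, hR, N2_X]
  obtain ⟨x, hx⟩ := hX
  have hext : ∀ g h : Cfsg.isometryGroup F (Cfsg.quadFormMinus 0 F a b), g.1.1 = h.1.1 → g = h :=
    fun g h hgh => Subtype.ext (Units.ext hgh)
  have hxx : x * x = 1 := by
    apply hext
    change x.1.1 * x.1.1 = 1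
    rw [hx, ← map_mul, X_mul_X, map_one]
  have hy2 : y * y ≠ 1 := by
    intro h
    have h1 : orderOf y ∣ 2 := orderOf_dvd_of_pow_eq_one (by rw [pow_two, h])
    rw [hoy] at h1
    have := Nat.le_of_dvd (by norm_num) h1
    omega
  obtain ⟨u, v, hN, hA⟩ := classify a b hd (R.symm y.1.1) (hpres y)
  have hyR : y.1.1 = R (R.symm y.1.1) := (R.apply_symm_apply _).symm
  have hNbar : M a b (u + a * v) (-v) * M a b u v = 1 := by rw [Mbar_mul_M, hN, one_smul]
  have hNbar' : M a b u v * M a b (u + a * v) (-v) = 1 := by rw [M_mul_Mbar, hN, one_smul]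
  have hA' : R.symm y.1.1 = M a b u v := by
    rcases hA with h | h
    · exact h
    · exfalso
      apply hy2
      apply hext
      change y.1.1 * y.1.1 = 1
      rw [hyR, h, ← map_mul]
      have : M a b u v * X a * (M a b u v * X a) = 1 := by
        rw [Matrix.mul_assoc, ← Matrix.mul_assoc (X a), X_mul_M, Matrix.mul_assoc, X_mul_X, Matrix.mul_one,
          hNbar']
      rw [this, map_one]
  have hxyxy : x * y * x * y = 1 := by
    apply hext
    change x.1.1 * y.1.1 * x.1.1 * y.1.1 = 1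
    rw [hyR, hA', hx, ← map_mul, ← map_mul, ← map_mul]
    have : X a * M a b u v * X a * M a b u v = 1 := by
      rw [X_mul_M, Matrix.mul_assoc _ (X a) (X a), X_mul_X, Matrix.mul_one, hNbar]
    rw [this, map_one]
  have hxinv : x⁻¹ = x := inv_eq_of_mul_eq_one_left hxx
  have hxy : x * y * x⁻¹ = y⁻¹ := by
    rw [hxinv]
    exact eq_inv_of_mul_eq_one_left hxyxy
  have hx' : x ∉ Subgroup.zpowers y := by
    intro h
    obtain ⟨k, hk⟩ := Subgroup.mem_zpowers_iff.1 h
    have hcomm : x * y = y * x := by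
      rw [← hk, ← _root_.zpow_add_one, ← _root_.zpow_one_add, add_comm]
    apply hy2
    have h1 : y = y⁻¹ := by
      rw [← hxy, hcomm, mul_assoc, mul_inv_cancel, mul_one]
    calc y * y = y * y⁻¹ := by rw [← h1]
      _ = 1 := mul_inv_cancel y
  exact Cfsg.Agent.Lib.Helper18.nonempty_mulEquiv_dihedralGroup y x (q + 1) hoy (by omega) hxx hxy hx' hcard

end Cfsg.Agent.S0306
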