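import Cfsg.Statements.S0307
import Mathlib
import Cfsg.Agent.Lib.Helper14.CycQuot

set_option autoImplicit false
open Cfsg

namespace Cfsg.Agent.S0307

/-- PSL_n(q) is normal in PGL_n(q) with cyclic quotient of order gcd(n, q-1): the image of the natural map PSL_n → PGL_n is the kernel of a surjective homomorphism onto the cyclic group of that order. -/
theorem result {F : Type*} [Field F] [Fintype F] {q : ℕ} (hF : Fintype.card F = q) (n : ℕ) (hn : 1 ≤ n) : ∃ g : Matrix.ProjGenLinGroup (Fin n) F →* Multiplicative (ZMod (Nat.gcd n (q - 1))), Function.Surjective g ∧ g.ker = (Matrix.ProjectiveSpecialLinearGroup.toPGL : Matrix.ProjectiveSpecialLinearGroup (Fin n) F →* Matrix.ProjGenLinGroup (Fin n) F).range := by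
  classical
  have hc : Nat.card Fˣ = q - 1 := by
    rw [Nat.card_eq_fintype_card, Fintype.card_units, hF]
  obtain ⟨ψ, hψs, hψ⟩ := Cfsg.Agent.Lib.Helper14.exists_hom_zmod_gcd (C := Fˣ) n (q - 1) hc
  have : Nonempty (Fin n) := ⟨⟨0, hn⟩⟩
  refine ⟨Matrix.ProjGenLinGroup.lift (ψ.comp Matrix.GeneralLinearGroup.det) ?_, ?_, ?_⟩
  · refine MonoidHom.ext fun u => ?_
    simp only [MonoidHom.comp_apply, MonoidHom.one_apply]
    rw [hψ]
    exact ⟨u, by simp⟩
  · intro z
    obtain ⟨x, rfl⟩ := hψs z
    obtain ⟨A, rfl⟩ := Matrix.GeneralLinearGroup.det_surjective (n := Fin n) x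
    exact ⟨Matrix.ProjGenLinGroup.mk A, rfl⟩
  · ext g
    induction g using Matrix.ProjGenLinGroup.induction_on with | mk g =>
    rw [MonoidHom.mem_ker, Matrix.ProjGenLinGroup.lift_mk, MonoidHom.comp_apply, hψ,
      MonoidHom.mem_range]
    constructor
    · rintro ⟨y, hy⟩
      have hdet : (g * Matrix.GeneralLinearGroup.scalar (Fin n) y⁻¹).1.det = 1 := by
        have h1 : Matrix.GeneralLinearGroup.det
            (g * Matrix.GeneralLinearGroup.scalar (Fin n) y⁻¹) = 1 := by
          rw [map_mul, ← hy]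
          simp
        exact congrArg Units.val h1
      let s : Matrix.SpecialLinearGroup (Fin n) F := ⟨_, hdet⟩
      refine ⟨QuotientGroup.mk s, ?_⟩
      rw [Matrix.ProjectiveSpecialLinearGroup.toPGL_mk, Matrix.ProjGenLinGroup.mk_eq_mk_iff]
      refine ⟨y, Units.ext ?_⟩
      have : g * Matrix.GeneralLinearGroup.scalar (Fin n) y⁻¹ *
          Matrix.GeneralLinearGroup.scalar (Fin n) y = g := by
        rw [mul_assoc, ← map_mul, inv_mul_cancel, map_one, mul_one]
      have h2 := congrArg Units.val this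
      rw [Units.val_mul] at h2 ⊢
      exact h2
    · rintro ⟨X, hX⟩
      induction X using QuotientGroup.induction_on with | H X =>
      rw [Matrix.ProjectiveSpecialLinearGroup.toPGL_mk, Matrix.ProjGenLinGroup.mk_eq_mk_iff] at hX
      obtain ⟨u, hu⟩ := hX
      exact ⟨u, by simpa using congrArg Matrix.GeneralLinearGroup.det hu⟩

end Cfsg.Agent.S0307
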