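import Cfsg.Statements.S0321
import Cfsg.Agent.Lib.Helper3.BN3

set_option autoImplicit false
open Cfsg

namespace Cfsg.Agent.S0321

/-- For `n ∈ N` not in `B`, the union `B ∪ B n B` is (the underlying set of) a subgroup exactly when `n` agrees
modulo `B ⊓ N` with one of the distinguished representatives; thus the distinguished involutions are
determined by `B` and `N`. -/
theorem result {G : Type*} [Group G] (P : Cfsg.BNPair G) {n : G}
    (hn : n ∈ P.N) (hnB : n ∉ P.B) :
    (∃ H : Subgroup G, (H : Set G) = (P.B : Set G) ∪ DoubleCoset.doubleCoset n (P.B : Set G) P.B) ↔ ∃ s ∈ P.S, s⁻¹ * n ∈ P.B := by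
  constructor
  · rintro ⟨H, hH⟩
    have hBH : P.B ≤ H := by
      intro b hb
      have : b ∈ (H : Set G) := by rw [hH]; exact Or.inl hb
      exact this
    have hnH : n ∈ H := by
      have : n ∈ (H : Set G) := by
        rw [hH]; exact Or.inr (DoubleCoset.mem_doubleCoset_self _ _ _)
      exact this
    have hpar := Cfsg.Agent.Lib.Helper3.eq_parabolic P hBH
    have hne : (P.S ∩ (H : Set G)).Nonempty := by
      by_contra hcon
      rw [Set.not_nonempty_iff_eq_empty] at hcon
      rw [hcon, Cfsg.Agent.Lib.Helper3.parabolic_empty] at hpar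
      rw [hpar] at hnH
      exact hnB hnH
    obtain ⟨s, hs, hsH⟩ := hne
    refine ⟨s, hs, ?_⟩
    rw [hH] at hsH
    rcases hsH with h | h
    · exact absurd h (Cfsg.Agent.Lib.Helper3.not_mem_B P hs)
    · have := (Cfsg.Agent.Lib.Helper3.mem_dc_iff P hn (P.subset hs)).1 h
      have h2 := P.B.inv_mem this
      simpa using h2
  · rintro ⟨s, hs, hsn⟩
    refine ⟨P.parabolic {s}, ?_⟩
    have e := (Cfsg.Agent.Lib.Helper3.dc_eq_iff P (P.subset hs) hn).2 hsn
    ext g
    rw [← e]
    exact Cfsg.Agent.Lib.Helper3.mem_parabolic_singleton P hs g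

end Cfsg.Agent.S0321
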