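import Cfsg.Statements.S0322
import Cfsg.Agent.Lib.Helper3.BN3

set_option autoImplicit false
open Cfsg

namespace Cfsg.Agent.S0322

/-- A group with a (B,N)-pair of rank one acts doubly transitively on the left cosets of `B`. -/
theorem result {G : Type*} [Group G] (P : Cfsg.BNPair G) (h : P.rank = 1) : MulAction.IsMultiplyPretransitive G (G ⧸ P.B) 2 := by
  have hcard : Nat.card P.S = 1 := h
  rw [Nat.card_eq_one_iff_exists] at hcard
  obtain ⟨s, hs⟩ := hcard
  have hS : P.S = {(s : G)} := by
    ext x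
    constructor
    · intro hx
      have := hs ⟨x, hx⟩
      rw [Set.mem_singleton_iff, ← this]
    · intro hx
      rw [Set.mem_singleton_iff] at hx
      rw [hx]
      exact s.2
  have hall : ∀ g : G, g ∈ P.B ∨ g ∈ DoubleCoset.doubleCoset (s : G) (P.B : Set G) P.B := by
    intro g
    rw [← Cfsg.Agent.Lib.Helper3.mem_parabolic_singleton P s.2, ← hS,
      Cfsg.Agent.Lib.Helper3.parabolic_S]
    trivial
  rw [MulAction.is_two_pretransitive_iff]
  intro a b c d hab hcd
  induction a using QuotientGroup.induction_on with | H x => ?_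
  induction b using QuotientGroup.induction_on with | H y => ?_
  induction c using QuotientGroup.induction_on with | H z => ?_
  induction d using QuotientGroup.induction_on with | H u => ?_
  have h1 : x⁻¹ * y ∉ P.B := fun h => hab (QuotientGroup.eq.2 h)
  have h2 : z⁻¹ * u ∉ P.B := fun h => hcd (QuotientGroup.eq.2 h)
  obtain ⟨b1, hb1, b2, hb2, e1⟩ := DoubleCoset.mem_doubleCoset.1 ((hall _).resolve_left h1)
  obtain ⟨b3, hb3, b4, hb4, e2⟩ := DoubleCoset.mem_doubleCoset.1 ((hall _).resolve_left h2)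
  refine ⟨z * b3 * b1⁻¹ * x⁻¹, ?_, ?_⟩
  · rw [MulAction.Quotient.smul_mk, QuotientGroup.eq]
    have e : ((z * b3 * b1⁻¹ * x⁻¹) • x)⁻¹ * z = b1 * b3⁻¹ := by
      simp only [smul_eq_mul]
      group
    rw [e]
    exact P.B.mul_mem hb1 (P.B.inv_mem hb3)
  · rw [MulAction.Quotient.smul_mk, QuotientGroup.eq]
    have e : ((z * b3 * b1⁻¹ * x⁻¹) • y)⁻¹ * u = b2⁻¹ * b4 := by
      simp only [smul_eq_mul]
      have hy : y = x * (b1 * s * b2) := by rw [← e1]; group
      have hu : u = z * (b3 * s * b4) := by rw [← e2]; group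
      rw [hy, hu]
      group
    rw [e]
    exact P.B.mul_mem (P.B.inv_mem hb2) hb4

end Cfsg.Agent.S0322
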