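import Cfsg.Statements.S0323

set_option autoImplicit false
open scoped Pointwise
open Cfsg

namespace Cfsg.Agent.S0323

/-- A doubly transitive action on a set with at least three points yields a (B,N)-pair of rank one:
`B` is the stabiliser of a point `x`, `N` the setwise stabiliser of a pair `{x, y}`. -/
theorem result {G Ω : Type*} [Group G] [MulAction G Ω]
    (h2 : MulAction.IsMultiplyPretransitive G Ω 2) {x y z : Ω} (hxy : x ≠ y) (hyz : y ≠ z) (hxz : x ≠ z) :
    ∃ P : Cfsg.BNPair G, P.B = MulAction.stabilizer G x ∧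
      P.N = MulAction.stabilizer G ({x, y} : Set Ω) ∧ P.rank = 1 := by
  rw [MulAction.is_two_pretransitive_iff] at h2
  obtain ⟨s, hsx, hsy⟩ := h2 hxy hxy.symm
  have memB : ∀ g : G, g ∈ MulAction.stabilizer G x ↔ g • x = x := fun g => MulAction.mem_stabilizer_iff
  have memN : ∀ n : G, n ∈ MulAction.stabilizer G ({x, y} : Set Ω) ↔
      (n • x = x ∧ n • y = y) ∨ (n • x = y ∧ n • y = x) := by
    intro n
    rw [MulAction.mem_stabilizer_iff, Set.smul_set_insert, Set.smul_set_singleton,
      Set.pair_eq_pair_iff]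
  have dcB : ∀ m g : G, m • x = x → g • x = x →
      g ∈ DoubleCoset.doubleCoset m (MulAction.stabilizer G x : Set G) (MulAction.stabilizer G x) := by
    intro m g hm hg
    refine DoubleCoset.mem_doubleCoset.2 ⟨1, Subgroup.one_mem _, m⁻¹ * g, ?_, by group⟩
    show m⁻¹ * g ∈ MulAction.stabilizer G x
    rw [memB, mul_smul, hg, inv_smul_eq_iff, hm]
  have dcS : ∀ m g : G, m • x ≠ x → g • x ≠ x →
      g ∈ DoubleCoset.doubleCoset m (MulAction.stabilizer G x : Set G) (MulAction.stabilizer G x) := by
    intro m g hm hg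
    obtain ⟨b, hbx, hbm⟩ := h2 (Ne.symm hm) (Ne.symm hg)
    refine DoubleCoset.mem_doubleCoset.2 ⟨b, hbx, (b * m)⁻¹ * g, ?_, by group⟩
    show (b * m)⁻¹ * g ∈ MulAction.stabilizer G x
    rw [memB, mul_smul, inv_smul_eq_iff, mul_smul, hbm]
  have hsN : s ∈ MulAction.stabilizer G ({x, y} : Set Ω) := (memN s).2 (Or.inr ⟨hsx, hsy⟩)
  refine ⟨{ B := MulAction.stabilizer G x
            N := MulAction.stabilizer G ({x, y} : Set Ω)
            S := {s}
            sup_eq_top := ?_
            conj_mem := ?_
            subset := ?_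
            sq_mem := ?_
            inj := ?_
            closure_sup := ?_
            mul_mem_union := ?_
            conj_ne := ?_ }, rfl, rfl, ?_⟩
  · rw [eq_top_iff]
    intro g _
    by_cases hg : g • x = x
    · exact (le_sup_left : MulAction.stabilizer G x ≤ _) ((memB g).2 hg)
    · obtain ⟨b, hbx, hbg⟩ := h2 (Ne.symm hg) hxy
      have h3 : s * b * g ∈ MulAction.stabilizer G x := by
        rw [memB, mul_smul, mul_smul, hbg, hsy]
      have e : g = b⁻¹ * s⁻¹ * (s * b * g) := by group
      rw [e]
      refine Subgroup.mul_mem _ (Subgroup.mul_mem _ (Subgroup.inv_mem _ ?_) (Subgroup.inv_mem _ ?_)) ?_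
      · exact (le_sup_left : MulAction.stabilizer G x ≤ _) ((memB b).2 hbx)
      · exact (le_sup_right : MulAction.stabilizer G ({x, y} : Set Ω) ≤ _) hsN
      · exact (le_sup_left : MulAction.stabilizer G x ≤ _) h3
  · rintro n hn t ⟨htB, htN⟩
    replace htB : t • x = x := (memB t).1 htB
    replace htN : t ∈ MulAction.stabilizer G ({x, y} : Set Ω) := htN
    have hty : t • y = y := by
      rcases (memN t).1 htN with h | h
      · exact h.2
      · exact absurd (htB.symm.trans h.1) hxy
    rw [memB, mul_smul, mul_smul]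
    rcases (memN n).1 hn with h | h
    · have : n⁻¹ • x = x := by rw [inv_smul_eq_iff, h.1]
      rw [this, htB, h.1]
    · have : n⁻¹ • x = y := by rw [inv_smul_eq_iff, h.2]
      rw [this, hty, h.2]
  · intro a ha
    rw [Set.mem_singleton_iff] at ha
    rw [ha]
    exact hsN
  · intro a ha
    rw [Set.mem_singleton_iff] at ha
    rw [ha, memB, mul_smul, hsx, hsy]
  · intro a ha b hb _
    rw [Set.mem_singleton_iff] at ha hb
    rw [ha, hb]
  · apply le_antisymm
    · apply sup_le _ inf_le_right
      rw [Subgroup.closure_le]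
      intro a ha
      rw [Set.mem_singleton_iff] at ha
      rw [ha]
      exact hsN
    · intro n hn
      rcases (memN n).1 hn with h | h
      · exact (le_sup_right : MulAction.stabilizer G x ⊓ MulAction.stabilizer G ({x, y} : Set Ω) ≤ _)
          ⟨(memB n).2 h.1, hn⟩
      · have h3 : s * n ∈ MulAction.stabilizer G x ⊓ MulAction.stabilizer G ({x, y} : Set Ω) := by
          refine ⟨(memB _).2 ?_, Subgroup.mul_mem _ hsN hn⟩
          rw [mul_smul, h.1, hsy]
        have e : n = s⁻¹ * (s * n) := by group
        rw [e]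
        refine Subgroup.mul_mem _ (Subgroup.inv_mem _ ?_) ?_
        · exact (le_sup_left : Subgroup.closure {s} ≤ _) (Subgroup.subset_closure rfl)
        · exact (le_sup_right :
            MulAction.stabilizer G x ⊓ MulAction.stabilizer G ({x, y} : Set Ω) ≤ _) h3
  · intro a ha n hn b hb
    rw [Set.mem_singleton_iff] at ha
    subst ha
    by_cases hg : (a * b * n) • x = x
    · rcases (memN n).1 hn with h | h
      · exact Or.inr (dcB _ _ h.1 hg)
      · exact Or.inl (dcB _ _ (by rw [mul_smul, h.1, hsy]) hg)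
    · rcases (memN n).1 hn with h | h
      · exact Or.inl (dcS _ _ (by rw [mul_smul, h.1, hsx]; exact hxy.symm) hg)
      · exact Or.inr (dcS _ _ (by rw [h.1]; exact hxy.symm) hg)
  · intro a ha
    rw [Set.mem_singleton_iff] at ha
    subst ha
    intro heq
    obtain ⟨b, hbx, hby⟩ := h2 hxy hxz
    have h3 : a * b * a ∈ (MulAction.stabilizer G x : Set G) := by
      rw [← heq]
      exact ⟨b, (memB b).2 hbx, rfl⟩
    have h4 : (a * b * a) • x = x := (memB _).1 h3
    rw [mul_smul, mul_smul, hsx, hby] at h4
    have h5 : a • z = a • y := by rw [h4, hsy]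
    exact hyz (smul_left_cancel a h5).symm
  · show Nat.card ({s} : Set G) = 1
    simp

end Cfsg.Agent.S0323
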