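import Cfsg.Statements.S0333
import Cfsg.Agent.Lib.Helper19.TorD

set_option autoImplicit false
open Cfsg

namespace Cfsg.Agent.S0333

open Cfsg.Agent.Lib.Helper19.Suz

/-- With `q = 2^(2m+1)` and `r = 2^m`, the Suzuki group has cyclic subgroups of orders `q + 2r + 1` and
`q - 2r + 1`; each is the centraliser of each of its non-identity elements and has index `4` in its normaliser. -/
theorem result {F : Type*} [Field F] [Fintype F] {m : ℕ} (hm : 1 ≤ m)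
    (hF : Fintype.card F = 2 ^ (2 * m + 1)) :
    ∀ k ∈ ({2 ^ (2 * m + 1) + 2 ^ (m + 1) + 1, 2 ^ (2 * m + 1) - 2 ^ (m + 1) + 1} : Set ℕ),
      ∃ U : Subgroup (Cfsg.Sz F m), IsCyclic U ∧ Nat.card U = k ∧
        (∀ u ∈ U, u ≠ 1 → Subgroup.centralizer {u} = U) ∧ Nat.card (Subgroup.normalizer (U : Set (Cfsg.Sz F m))) = 4 * k := by
  haveI : Hyp F m := ⟨hm, hF⟩
  haveI : CharP F 2 := Hyp.charP (F := F) (m := m)
  obtain ⟨h1, ⟨x, hx, hxc⟩, ⟨y, hy, hyc⟩⟩ := tori_main (F := F) m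
  have key : ∀ z : Cfsg.Sz F m, FF m z → IsCyclic (Cen m z) ∧
      (∀ u ∈ Cen m z, u ≠ 1 → Subgroup.centralizer {u} = Cen m z) ∧
      Nat.card (Subgroup.normalizer ((Cen m z : Subgroup (Cfsg.Sz F m)) : Set (Cfsg.Sz F m))) =
        4 * Nat.card (Cen m z) := by
    intro z hz
    exact ⟨hz.cyclic, fun u hu hu1 => hz.cen_eq hu hu1, (h1 z hz).2⟩
  intro k hk
  rcases hk with rfl | hk
  · obtain ⟨a, b, c⟩ := key x hx
    rw [hF] at hxc
    exact ⟨Cen m x, a, hxc, b, by rw [c, hxc]⟩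
  · rw [Set.mem_singleton_iff] at hk
    subst hk
    obtain ⟨a, b, c⟩ := key y hy
    rw [hF] at hyc
    exact ⟨Cen m y, a, hyc, b, by rw [c, hyc]⟩

end Cfsg.Agent.S0333
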