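import Cfsg.Statements.S0338
import Cfsg.Agent.Lib.Helper3.Zass3

set_option autoImplicit false
open Cfsg

namespace Cfsg.Agent.S0338

/-- A Zassenhaus group of odd degree is a simple group. -/
theorem result {G Ω : Type*} [Group G] [MulAction G Ω] [Fintype Ω]
    (hZ : Cfsg.IsZassenhausGroup G Ω) (hodd : Odd (Fintype.card Ω)) : IsSimpleGroup G := by
  have hodd' : Odd (Nat.card Ω) := by rw [Nat.card_eq_fintype_card]; exact hodd
  obtain ⟨g0, hg0, _⟩ := hZ.2.2.2.1
  have : Nontrivial G := ⟨⟨g0, 1, hg0⟩⟩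
  refine ⟨fun N hN => ?_⟩
  by_cases h : N = ⊥
  · exact Or.inl h
  · exact Or.inr (Cfsg.Agent.Lib.Helper3.zass_odd_normal_eq_top hZ hodd' N h)

end Cfsg.Agent.S0338
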