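import Cfsg.Statements.S0357
import Cfsg.Agent.Lib.Helper3.Steiner2

set_option autoImplicit false
open Cfsg

namespace Cfsg.Agent.S0357

/-- In a Steiner system S(5, 6, 12), the complement of every block is again a block. -/
theorem result {α : Type*} [Fintype α] [DecidableEq α] (hα : Fintype.card α = 12) {B : Set (Finset α)} (hB : Cfsg.IsSteinerSystem 5 6 B) {b : Finset α} (hb : b ∈ B) : bᶜ ∈ B := by
  obtain ⟨n0, _⟩ := Cfsg.Agent.Lib.Helper3.nInt_5_6_12 hα hB hb
  rw [Cfsg.Agent.Lib.Helper3.nInt, Finset.card_eq_one] at n0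
  obtain ⟨c, hc⟩ := n0
  have hc' : c ∈ (Cfsg.Agent.Lib.Helper3.Bf B).filter (fun c => (c ∩ b).card = 0) := by
    rw [hc]; exact Finset.mem_singleton_self c
  rw [Finset.mem_filter, Cfsg.Agent.Lib.Helper3.mem_Bf, Finset.card_eq_zero] at hc'
  have hsub : c ⊆ bᶜ := by
    intro a ha
    rw [Finset.mem_compl]
    intro hab
    have : a ∈ c ∩ b := Finset.mem_inter.2 ⟨ha, hab⟩
    rw [hc'.2] at this
    exact absurd this (Finset.notMem_empty a)
  have heq : c = bᶜ := by
    apply Finset.eq_of_subset_of_card_le hsub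
    rw [Finset.card_compl, hα, hB.1 b hb, hB.1 c hc'.1]
  rw [← heq]
  exact hc'.1

end Cfsg.Agent.S0357
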