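import Cfsg.Statements.S0358
import Cfsg.Agent.Lib.Helper3.Golay2

set_option autoImplicit false
open Cfsg

namespace Cfsg.Agent.S0358

/-- The length-24 code built from the squares modulo 23 has dimension 12 over the field with two elements. -/
theorem result : Module.finrank (ZMod 2) Cfsg.golayCode = 12 := by
  exact Cfsg.Agent.Lib.Helper3.finrank_golayCode

end Cfsg.Agent.S0358
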