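import Cfsg.Statements.S0366
import Cfsg.Agent.Lib.Helper28.GolayCount

set_option autoImplicit false
open Cfsg

namespace Cfsg.Agent.S0366

/-- The permutation group preserving the length-24 code is 5-transitive on the 24 points. -/
theorem result : MulAction.IsMultiplyPretransitive Cfsg.M24 Cfsg.GolayPt 5 := by
  refine ⟨fun x y => ?_⟩
  obtain ⟨g, hg, h⟩ := Cfsg.Agent.Lib.Helper28.M24_five_trans x y x.injective y.injective
  refine ⟨⟨g, hg⟩, ?_⟩
  apply DFunLike.ext
  intro i
  exact h i

end Cfsg.Agent.S0366
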