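import Cfsg.Statements.S0380
import Cfsg.Agent.Lib.Helper3.M21.Iso
import Cfsg.Agent.Lib.Helper3.L34.Psl
import Cfsg.Agent.Lib.Helper3.ExcIso

set_option autoImplicit false
open Cfsg

namespace Cfsg.Agent.S0380

/-- A three-point stabiliser in the group of the length-24 code is isomorphic to PSL(3, F) for the field F with 4 elements. -/
theorem result (p q r : Cfsg.GolayPt) (hpq : p ≠ q) (hpr : p ≠ r) (hqr : q ≠ r) (F : Type) [Field F] [Fintype F] (hF : Fintype.card F = 4) : Nonempty (↥(MulAction.stabilizer Cfsg.M24 p ⊓ MulAction.stabilizer Cfsg.M24 q ⊓ MulAction.stabilizer Cfsg.M24 r) ≃* Matrix.ProjectiveSpecialLinearGroup (Fin 3) F) := by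
  obtain ⟨e1⟩ := Cfsg.Agent.Lib.Helper3.M21.stab3_iso p q r hpq hpr hqr
  obtain ⟨e2⟩ := Cfsg.Agent.Lib.Helper3.M21.St3_iso
  obtain ⟨e3⟩ := Cfsg.Agent.Lib.Helper3.L34.iso
  obtain ⟨e4⟩ := Cfsg.Agent.Lib.Helper3.L34.psl_iso
  obtain ⟨e5⟩ := Cfsg.Agent.Lib.Helper3.psl_of_card (n := Fin 3) (F := F)
    (K := Cfsg.Agent.Lib.Helper3.F4) (by rw [hF, Cfsg.Agent.Lib.Helper3.F4.card_eq])
  exact ⟨e1.trans (e2.trans (e3.symm.trans (e4.symm.trans e5.symm)))⟩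

end Cfsg.Agent.S0380
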