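import Cfsg.Statements.S0389
import Cfsg.Agent.Lib.Helper28.GolayDodecad2

set_option autoImplicit false
open scoped Pointwise
open Cfsg

namespace Cfsg.Agent.S0389

/-- The stabiliser of a dodecad and a point on it is 3-transitive on the complementary dodecad. -/
theorem result (d : Finset Cfsg.GolayPt) (hd : d ∈ Cfsg.dodecads) (p : Cfsg.GolayPt) (hp : p ∈ d) (x y : Fin 3 ↪ Cfsg.GolayPt) (hx : ∀ i, x i ∉ d) (hy : ∀ i, y i ∉ d) : ∃ g ∈ MulAction.stabilizer Cfsg.M24 d ⊓ MulAction.stabilizer Cfsg.M24 p, ∀ i, (g : Equiv.Perm Cfsg.GolayPt) (x i) = y i := by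
  obtain ⟨g, hg, h1, h2, h3⟩ := Cfsg.Agent.Lib.Helper28.M11_three_trans hd hp x y x.injective y.injective hx hy
  exact ⟨⟨g, hg⟩, ⟨h1, h2⟩, h3⟩

end Cfsg.Agent.S0389
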