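import Cfsg.Statements.S0398
import Mathlib
import Cfsg.Agent.Lib.Helper10.LeechOrder

set_option autoImplicit false
open Cfsg

namespace Cfsg.Agent.S0398

open Cfsg.Agent.Lib.Helper28 Cfsg.Agent.Lib.Helper10
open scoped Pointwise

theorem exists_code_sep {i j : Cfsg.GolayPt} (h : i ≠ j) : ∃ c, IsC c ∧ j ∈ c ∧ i ∉ c := by
  have hc0 : IsC (unmask 8536111) := by
    rw [isC_iff, mask_unmask _ (by norm_num)]; decide +kernel
  have h1 : pt 0 ∈ unmask 8536111 := by rw [mem_unmask]; decide +kernel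
  have h2 : pt 4 ∉ unmask 8536111 := by rw [mem_unmask]; decide +kernel
  obtain ⟨σ, hσ, e1, e2⟩ := M24_trans_pt2 (p := pt 0) (q := pt 4) (p' := j) (q' := i) (by decide) (Ne.symm h)
  refine ⟨σ • unmask 8536111, isC_smul hσ hc0, ?_, ?_⟩
  · rw [← e1]; exact Finset.smul_mem_smul_finset h1
  · rw [← e2]
    intro hh
    exact h2 ((Finset.smul_mem_smul_finset_iff σ).1 hh)

theorem center_single {z : ↥Cfsg.Co0} (hz : ∀ g : ↥Cfsg.Co0, g * z = z * g) (i : Cfsg.GolayPt) :
    ∃ t : ℤ, (t = 8 ∨ t = -8) ∧ (z • e8 i : ↥Cfsg.leechLattice).1 = Pi.single i t := by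
  set w := z • e8 i with hw
  have h0 : ∀ j, j ≠ i → w.1 j = 0 := by
    intro j hj
    obtain ⟨c, hc, hjc, hic⟩ := exists_code_sep (Ne.symm hj)
    set P : ↥Cfsg.Co0 := monoEl (1, ⟨c, (mem_codeFin c).2 hc⟩) with hP
    have e1 : P • e8 i = e8 i := by
      apply Subtype.ext
      have := monoEl_e8 (1, ⟨c, (mem_codeFin c).2 hc⟩) i 8 (single_mem i (Or.inl rfl))
      rw [hP]
      refine this.trans ?_
      show (Pi.single i (sgn c i * 8) : Cfsg.GolayPt → ℤ) = Pi.single i 8
      simp [sgn, hic]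
    have e2 : P • w = w := by
      rw [hw, ← mul_smul, hz, mul_smul, e1]
    have e3 := congrFun (congrArg Subtype.val e2) j
    rw [hP, monoEl_smul] at e3
    have e4 : sgn c j * w.1 j = w.1 j := e3
    simp only [sgn, hjc, if_true] at e4
    linarith
  have hn : Cfsg.sqNorm w.1 = 64 := by rw [hw, Co0_sqNorm, sqNorm_e8]
  have hn' : Cfsg.sqNorm w.1 = w.1 i ^ 2 := by
    unfold Cfsg.sqNorm
    rw [Finset.sum_eq_single i]
    · intro k _ hk; rw [h0 k hk]; norm_num
    · intro h; exact absurd (Finset.mem_univ i) h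
  rw [hn] at hn'
  refine ⟨w.1 i, ?_, ?_⟩
  · have : (w.1 i - 8) * (w.1 i + 8) = 0 := by ring_nf; linarith
    rcases mul_eq_zero.1 this with h | h
    · left; linarith
    · right; linarith
  · funext j
    by_cases hj : j = i
    · subst hj; simp
    · rw [h0 j hj, Pi.single_eq_of_ne hj]

theorem center_cases {z : ↥Cfsg.Co0} (hz : ∀ g : ↥Cfsg.Co0, g * z = z * g) : z = 1 ∨ z = negCo0 := by
  choose t ht hzt using center_single hz
  have hconst : ∀ i j, t i = t j := by
    intro i j
    obtain ⟨π, hπ, hij⟩ := M24_trans_pt i j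
    set P : ↥Cfsg.Co0 := monoEl (⟨π, hπ⟩, ⟨∅, (mem_codeFin ∅).2 isC_empty⟩) with hP
    have e1 : P • e8 i = e8 j := by
      apply Subtype.ext
      have := monoEl_e8 (⟨π, hπ⟩, ⟨∅, (mem_codeFin ∅).2 isC_empty⟩) i 8 (single_mem i (Or.inl rfl))
      rw [hP]
      refine this.trans ?_
      show (Pi.single (π i) (sgn ∅ (π i) * 8) : Cfsg.GolayPt → ℤ) = Pi.single j 8
      rw [hij]; simp [sgn]
    have e2 : z • e8 j = P • (z • e8 i) := by
      rw [← e1, ← mul_smul, ← mul_smul, hz]
    have e3 : z • e8 i = ⟨Pi.single i (t i), single_mem i (ht i)⟩ := Subtype.ext (hzt i)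
    have e4 := congrArg Subtype.val e2
    rw [hzt j, e3, hP, monoEl_e8] at e4
    have e5 := congrFun e4 j
    have e6 : (Pi.single (π i) (sgn ∅ (π i) * t i) : Cfsg.GolayPt → ℤ) j = t i := by
      rw [hij]; simp [sgn]
    rw [Pi.single_eq_same] at e5
    exact (e5.trans e6).symm
  have hact : ∀ (v : ↥Cfsg.leechLattice) (i : Cfsg.GolayPt), (z • v : ↥Cfsg.leechLattice).1 i * t i = v.1 i * 8 := by
    intro v i
    have := Co0_dot z v (e8 i)
    rw [hzt, dot_single] at this
    rw [this]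
    exact dot_single _ _ _
  rcases ht none with h | h
  · left
    apply Co0_ext
    intro v
    funext i
    have := hact v i
    rw [hconst i none, h] at this
    rw [one_smul]
    linarith
  · right
    apply Co0_ext
    intro v
    funext i
    have := hact v i
    rw [hconst i none, h] at this
    rw [negCo0_smul]
    show _ = -(v.1 i)
    linarith


/-- The centre of the lattice's automorphism group has order 2. -/
theorem result : Nat.card (Subgroup.center Cfsg.Co0) = 2 := by
  rw [Nat.card_eq_two_iff]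
  refine ⟨⟨1, Subgroup.one_mem _⟩, ⟨negCo0, Subgroup.mem_center_iff.2 (fun g => negCo0_comm g)⟩, ?_, ?_⟩
  · intro h
    exact negCo0_ne_one (congrArg Subtype.val h).symm
  · ext ⟨z, hz⟩
    simp only [Set.mem_insert_iff, Set.mem_singleton_iff, Set.mem_univ, iff_true, Subtype.mk.injEq]
    exact center_cases (Subgroup.mem_center_iff.1 hz)

end Cfsg.Agent.S0398
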