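import Cfsg.Statements.S0412
import Cfsg.Agent.Lib.Helper28.Stein3
import Cfsg.Agent.S0364
import Cfsg.Agent.S0365

set_option autoImplicit false
open Cfsg

namespace Cfsg.Agent.S0412

/-- Aut of an S(5, 8, 24) is simple of order 244823040 and 5-transitive on points. -/
theorem result {α : Type*} [Fintype α] [DecidableEq α] (hα : Fintype.card α = 24) {B : Set (Finset α)} (hB : Cfsg.IsSteinerSystem 5 8 B) : Cfsg.IsM24 (Cfsg.setSystemAut B) ∧ MulAction.IsMultiplyPretransitive (Cfsg.setSystemAut B) α 5 := by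
  obtain ⟨e, he⟩ := Cfsg.Agent.Lib.Helper28.Stein.iso24 hα (by decide : Fintype.card Cfsg.GolayPt = 24) hB
    Cfsg.Agent.Lib.Helper28.octads_steiner
  have E := Cfsg.Agent.Lib.Helper28.Stein.autCongr e he
  have hs : IsSimpleGroup (Cfsg.setSystemAut Cfsg.octads) := by
    rw [Cfsg.Agent.Lib.Helper28.Stein.aut_octads]; exact Cfsg.Agent.S0365.result
  have hc : Nat.card (Cfsg.setSystemAut Cfsg.octads) = 244823040 := by
    rw [Cfsg.Agent.Lib.Helper28.Stein.aut_octads]; exact Cfsg.Agent.S0364.result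
  refine ⟨⟨E.isSimpleGroup, by rw [Nat.card_congr E.toEquiv]; exact hc⟩, ?_⟩
  apply Cfsg.Agent.Lib.Helper28.Stein.mpt_transport e he
  rw [Cfsg.Agent.Lib.Helper28.Stein.aut_octads]
  exact Cfsg.Agent.Lib.Helper28.M24_mpt5

end Cfsg.Agent.S0412
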