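import Cfsg.Statements.S0413
import Cfsg.Agent.Lib.Helper28.AutD2
import Cfsg.Agent.Lib.Helper28.SteinD23

set_option autoImplicit false
open Cfsg

namespace Cfsg.Agent.S0413

/-- Aut of an S(4, 7, 23) is simple of order 10200960 and 4-transitive. -/
theorem result {α : Type*} [Fintype α] [DecidableEq α] (hα : Fintype.card α = 23) {B : Set (Finset α)} (hB : Cfsg.IsSteinerSystem 4 7 B) : Cfsg.IsM23 (Cfsg.setSystemAut B) ∧ MulAction.IsMultiplyPretransitive (Cfsg.setSystemAut B) α 4 := by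
  obtain ⟨e, he⟩ := Cfsg.Agent.Lib.Helper28.Stein.iso23 hα Cfsg.Agent.Lib.Helper28.AutD.card_S23 hB
    Cfsg.Agent.Lib.Helper28.AutD.D23_steiner
  refine ⟨⟨?_, ?_⟩, Cfsg.Agent.Lib.Helper28.Stein.mpt_transport e he Cfsg.Agent.Lib.Helper28.AutD.mpt_aut_D23⟩
  · have := Cfsg.Agent.Lib.Helper28.AutD.isM23_aut_D23.1
    exact (Cfsg.Agent.Lib.Helper28.Stein.autCongr e he).isSimpleGroup
  · rw [Nat.card_congr (Cfsg.Agent.Lib.Helper28.Stein.autCongr e he).toEquiv]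
    exact Cfsg.Agent.Lib.Helper28.AutD.isM23_aut_D23.2

end Cfsg.Agent.S0413
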