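import Cfsg.Statements.S0439

set_option autoImplicit false
open Cfsg

namespace Cfsg.Agent.S0439

/-- In the symmetric group of degree n ≥ 2, the set of transpositions is a conjugacy class of 3-transpositions which generates the group. -/
theorem result (n : ℕ) (hn : 2 ≤ n) : Cfsg.IsThreeTranspositionClass {σ : Equiv.Perm (Fin n) | σ.IsSwap} := by
  have hthree : ∀ a b c : Fin n, a ≠ b → a ≠ c → b ≠ c →
      (Equiv.swap a b * Equiv.swap a c) ^ 3 = 1 := by
    intro a b c hab hac hbc
    have := (Equiv.Perm.isThreeCycle_swap_mul_swap_same hab hac hbc).orderOf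
    rw [← this, pow_orderOf_eq_one]
  refine ⟨⟨?_, ?_⟩, ?_, Equiv.Perm.closure_isSwap⟩
  · rintro d ⟨x, y, hxy, rfl⟩
    exact orderOf_eq_prime (by rw [pow_two, Equiv.swap_mul_self]) (by
      intro h
      exact hxy (Equiv.swap_eq_one_iff.1 h))
  · rintro d ⟨a, b, hab, rfl⟩ e ⟨c, d, hcd, rfl⟩
    by_cases hca : c = a
    · subst hca
      by_cases hdb : d = b
      · subst hdb
        left
        rw [Equiv.swap_mul_self, one_pow]
      · right
        exact hthree c b d hab hcd (Ne.symm hdb)
    · by_cases hcb : c = b
      · subst hcb
        by_cases hda : d = a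
        · subst hda
          left
          rw [Equiv.swap_comm, Equiv.swap_mul_self, one_pow]
        · right
          rw [Equiv.swap_comm a c]
          exact hthree c a d hab.symm hcd (Ne.symm hda)
      · by_cases hda : d = a
        · subst hda
          right
          rw [Equiv.swap_comm c d]
          exact hthree d b c hab hcd.symm (Ne.symm hcb)
        · by_cases hdb : d = b
          · subst hdb
            right
            rw [Equiv.swap_comm c d, Equiv.swap_comm a d]
            exact hthree d a c hab.symm hcd.symm (Ne.symm hca)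
          · left
            have hdis : Equiv.Perm.Disjoint (Equiv.swap a b) (Equiv.swap c d) := by
              apply Equiv.Perm.disjoint_swap_swap
              simp only [List.nodup_cons, List.mem_cons, List.not_mem_nil, or_false, not_or,
                List.nodup_nil, and_true, not_false_eq_true]
              exact ⟨⟨hab, Ne.symm hca, Ne.symm hda⟩, ⟨Ne.symm hcb, Ne.symm hdb⟩, hcd⟩
            rw [hdis.commute.mul_pow, pow_two, pow_two, Equiv.swap_mul_self, Equiv.swap_mul_self,
              one_mul]
  · have h01 : (⟨0, by omega⟩ : Fin n) ≠ ⟨1, by omega⟩ := by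
      intro h
      have := congrArg Fin.val h
      simp at this
    refine ⟨Equiv.swap ⟨0, by omega⟩ ⟨1, by omega⟩, ⟨_, _, h01, rfl⟩, ?_⟩
    ext σ
    show σ.IsSwap ↔ IsConj _ σ
    constructor
    · rintro ⟨x, y, hxy, rfl⟩
      exact Equiv.Perm.isConj_swap h01 hxy
    · intro h
      obtain ⟨c, hc⟩ := isConj_iff.1 h
      rw [← hc, ← Equiv.swap_apply_apply]
      exact ⟨_, _, fun h => h01 (c.injective h), rfl⟩

end Cfsg.Agent.S0439
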