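import Cfsg.Statements.S0440
import Mathlib
import Cfsg.Agent.Lib.Helper14.SpTransv
import Cfsg.Agent.Lib.Helper14.SpSimple
open Cfsg.Agent.Lib.Helper14 Cfsg.Agent.Lib.Helper5 Matrix

set_option autoImplicit false
open Cfsg

namespace Cfsg.Agent.S0440

/-- In the symplectic group in dimension 2n ≥ 2 over the field with two elements, the elements g for which g - 1 has rank one (the symplectic transvections) form a conjugacy class of 3-transpositions generating the group. -/
theorem result (n : ℕ) (hn : 1 ≤ n) : Cfsg.IsThreeTranspositionClass {g : Matrix.symplecticGroup (Fin n) (ZMod 2) | ((g : Matrix (Fin n ⊕ Fin n) (Fin n ⊕ Fin n) (ZMod 2)) - 1).rank = 1} := by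
  classical
  have hz : ∀ a : ZMod 2, a ≠ 0 → a = 1 := by decide
  have h2 : (1 : ZMod 2) + 1 = 0 := by decide
  have h3' : (-1 : ZMod 2) = 1 := by decide
  haveI : Fact (Nat.Prime 2) := ⟨Nat.prime_two⟩
  set D : Set (Matrix.symplecticGroup (Fin n) (ZMod 2)) :=
    {g | ((g : Matrix (Fin n ⊕ Fin n) (Fin n ⊕ Fin n) (ZMod 2)) - 1).rank = 1} with hD
  have hne1 : ∀ v : Fin n ⊕ Fin n → ZMod 2, v ≠ 0 → spT v (1 : ZMod 2) ≠ 1 := by
    intro v hv h
    rw [← spT_zero (1 : ZMod 2)] at h
    exact hv ((spT_eq_iff_of_char_two _ _ hv).1 h.symm).symm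
  have hmem : ∀ g, g ∈ D ↔ ∃ v : Fin n ⊕ Fin n → ZMod 2, v ≠ 0 ∧ g = spT v 1 := by
    intro g
    constructor
    · intro hg
      obtain ⟨v, a, hv, ha, rfl⟩ := exists_eq_spT_of_rank_one g hg
      exact ⟨v, hv, by rw [hz a ha]⟩
    · rintro ⟨v, hv, rfl⟩
      change (Cfsg.sympTransvection n v 1 - 1).rank = 1
      have h1 : Cfsg.sympTransvection n v (1 : ZMod 2) - 1 =
          Matrix.vecMulVec v (Matrix.J (Fin n) (ZMod 2) *ᵥ v) := by
        simp [Cfsg.sympTransvection]
      rw [h1]
      apply le_antisymm (Matrix.rank_vecMulVec_le _ _)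
      rw [Nat.one_le_iff_ne_zero]
      intro h0
      apply hne1 v hv
      apply Subtype.ext
      change Cfsg.sympTransvection n v 1 = 1
      rw [← sub_eq_zero, h1]
      have h5 : LinearMap.range (Matrix.vecMulVec v (Matrix.J (Fin n) (ZMod 2) *ᵥ v)).mulVecLin = ⊥ :=
        Submodule.finrank_eq_zero.1 h0
      have h6 := LinearMap.range_eq_bot.1 h5
      apply ext_mulVec
      intro x
      rw [Matrix.zero_mulVec, ← Matrix.mulVecLin_apply, h6]
      rfl
  have hsq : ∀ v : Fin n ⊕ Fin n → ZMod 2, spT v (1 : ZMod 2) * spT v 1 = 1 := by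
    intro v
    rw [← spT_add, h2]
    apply Subtype.ext
    change Cfsg.sympTransvection n v 0 = 1
    simp [Cfsg.sympTransvection]
  have hinv : ∀ v : Fin n ⊕ Fin n → ZMod 2, (spT v (1 : ZMod 2))⁻¹ = spT v 1 := fun v =>
    inv_eq_of_mul_eq_one_left (hsq v)
  have hact : ∀ u v : Fin n ⊕ Fin n → ZMod 2, (spT u (1 : ZMod 2)).1 *ᵥ v =
      v + Cfsg.sympForm n (ZMod 2) v u • u := by
    intro u v
    change Cfsg.sympTransvection n u 1 *ᵥ v = _
    rw [sympTransvection_mulVec, one_mul]
  refine ⟨⟨?_, ?_⟩, ?_, ?_⟩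
  · intro d hd
    obtain ⟨v, hv, rfl⟩ := (hmem d).1 hd
    exact orderOf_eq_prime (by rw [pow_two]; exact hsq v) (hne1 v hv)
  · intro d hd e he
    obtain ⟨u, hu, rfl⟩ := (hmem d).1 hd
    obtain ⟨v, hv, rfl⟩ := (hmem e).1 he
    have h1 := spT_conj (spT u (1 : ZMod 2)) v 1
    have h3 := spT_conj (spT v (1 : ZMod 2)) u 1
    rw [hinv, hact] at h1 h3
    by_cases hc : Cfsg.sympForm n (ZMod 2) v u = 0
    · left
      rw [hc, zero_smul, add_zero] at h1
      set d := spT u (1 : ZMod 2)
      set e := spT v (1 : ZMod 2)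
      calc (d * e) ^ 2 = (d * e * d) * e := by rw [pow_two]; group
        _ = 1 := by rw [h1]; exact hsq v
    · right
      have hc1 := hz _ hc
      have hc2 : Cfsg.sympForm n (ZMod 2) u v = 1 := by
        rw [sympForm_swap, hc1]; exact h3'
      rw [hc1, one_smul] at h1
      rw [hc2, one_smul, add_comm] at h3
      set d := spT u (1 : ZMod 2)
      set e := spT v (1 : ZMod 2)
      have hdd : d * d = 1 := hsq u
      have hee : e * e = 1 := hsq v
      calc (d * e) ^ 3 = (d * e * d) * e * d * e := by rw [pow_succ, pow_two]; group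
        _ = (e * d * e) * e * d * e := by rw [h1, h3]
        _ = e * d * (e * e) * d * e := by group
        _ = e * (d * d) * e := by rw [hee]; group
        _ = 1 := by rw [hdd, mul_one, hee]
  · set v0 : Fin n ⊕ Fin n → ZMod 2 := Pi.single (Sum.inl ⟨0, hn⟩) 1 with hv0
    have hv0' : v0 ≠ 0 := by
      intro h
      have := congrFun h (Sum.inl ⟨0, hn⟩)
      simp [hv0] at this
    refine ⟨spT v0 1, (hmem _).2 ⟨v0, hv0', rfl⟩, ?_⟩
    ext g
    rw [hmem]
    change _ ↔ IsConj _ g
    rw [isConj_iff]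
    constructor
    · rintro ⟨v, hv, rfl⟩
      obtain ⟨c, hc⟩ := sp_transitive v0 v hv0' hv
      exact ⟨c, by rw [spT_conj, hc]⟩
    · rintro ⟨c, rfl⟩
      refine ⟨c.1 *ᵥ v0, ?_, spT_conj c v0 1⟩
      intro h0
      apply hv0'
      have := symp_inv_mulVec c v0
      rw [h0, Matrix.mulVec_zero] at this
      exact this.symm
  · rw [eq_top_iff, ← tvGroup_eq_top, tvGroup, Subgroup.closure_le]
    rintro A ⟨w, c, hA⟩
    have hA' : A = spT w c := Subtype.ext hA
    by_cases hc : c = 0
    · have : A = 1 := by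
        rw [hA', hc]
        apply Subtype.ext
        change Cfsg.sympTransvection n w 0 = 1
        simp [Cfsg.sympTransvection]
      rw [this]; exact Subgroup.one_mem _
    · by_cases hw : w = 0
      · rw [hA', hw, spT_zero]; exact Subgroup.one_mem _
      · exact Subgroup.subset_closure ((hmem A).2 ⟨w, hw, by rw [hA', hz c hc]⟩)

end Cfsg.Agent.S0440
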