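import Cfsg.Statements.S0442
import Cfsg.Agent.Lib.Helper3.ThreeTr

set_option autoImplicit false
open Cfsg

namespace Cfsg.Agent.S0442

/-- A standard trick for producing elements of an involution centraliser: for an involution a and an element g, let b be the conjugate g⁻¹ * a * g. If a * b has odd order 2m + 1 then g * (a * b) ^ m commutes with a; if a * b has even order 2m then (a * b) ^ m and (a * (g * a * g⁻¹)) ^ m commute with a. -/
theorem result {G : Type*} [Group G] (a g : G) (ha : orderOf a = 2) : (∀ m : ℕ, orderOf (a * (g⁻¹ * a * g)) = 2 * m + 1 → Commute (g * (a * (g⁻¹ * a * g)) ^ m) a) ∧ (∀ m : ℕ, orderOf (a * (g⁻¹ * a * g)) = 2 * m → Commute ((a * (g⁻¹ * a * g)) ^ m) a ∧ Commute ((a * (g * a * g⁻¹)) ^ m) a) := by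
  have ha2 : a * a = 1 := Cfsg.Agent.Lib.Helper3.mul_self_of_orderOf ha
  have hai : a⁻¹ = a := Cfsg.Agent.Lib.Helper3.inv_of_mul_self ha2
  -- general facts on two involutions
  have gen : ∀ b : G, b * b = 1 → ∀ m : ℕ, a * (a * b) ^ m * a = (b * a) ^ m := by
    intro b hb m
    induction m with
    | zero => simp [ha2]
    | succ m ih =>
      rw [pow_succ, pow_succ, ← ih]
      simp only [mul_assoc]
  have inv_ab : ∀ b : G, b * b = 1 → (a * b)⁻¹ = b * a := by
    intro b hb
    rw [mul_inv_rev, hai, Cfsg.Agent.Lib.Helper3.inv_of_mul_self hb]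
  have even : ∀ b : G, b * b = 1 → ∀ m : ℕ, (a * b) ^ (2 * m) = 1 → Commute ((a * b) ^ m) a := by
    intro b hb m hm
    have h1 := gen b hb m
    rw [← inv_ab b hb, inv_pow] at h1
    have h2 : ((a * b) ^ m)⁻¹ = (a * b) ^ m := by
      apply inv_eq_of_mul_eq_one_left
      rw [← pow_add, ← two_mul, hm]
    rw [h2] at h1
    show (a * b) ^ m * a = a * (a * b) ^ m
    calc (a * b) ^ m * a = (a * (a * b) ^ m * a) * a := by rw [h1]
      _ = a * (a * b) ^ m * (a * a) := by simp only [mul_assoc]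
      _ = a * (a * b) ^ m := by rw [ha2, mul_one]
  have hb : (g⁻¹ * a * g) * (g⁻¹ * a * g) = 1 := by
    calc (g⁻¹ * a * g) * (g⁻¹ * a * g) = g⁻¹ * (a * (g * g⁻¹) * a) * g := by
          simp only [mul_assoc]
      _ = 1 := by rw [mul_inv_cancel, mul_one, ha2, mul_one, inv_mul_cancel]
  have hb' : (g * a * g⁻¹) * (g * a * g⁻¹) = 1 := by
    calc (g * a * g⁻¹) * (g * a * g⁻¹) = g * (a * (g⁻¹ * g) * a) * g⁻¹ := by
          simp only [mul_assoc]
      _ = 1 := by rw [inv_mul_cancel, mul_one, ha2, mul_one, mul_inv_cancel]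
  constructor
  · intro m hm
    obtain ⟨b, hbdef⟩ : ∃ b, b = g⁻¹ * a * g := ⟨_, rfl⟩
    rw [← hbdef] at hm hb ⊢
    have hpow : (a * b) ^ (2 * m + 1) = 1 := by rw [← hm, pow_orderOf_eq_one]
    have h1 := gen b hb m
    rw [← inv_ab b hb, inv_pow] at h1
    -- w a w⁻¹ = b
    have h2 : (a * b) ^ m * a * ((a * b) ^ m)⁻¹ = b := by
      rw [← h1]
      calc (a * b) ^ m * a * (a * (a * b) ^ m * a) = (a * b) ^ m * (a * a) * (a * b) ^ m * a := by
            simp only [mul_assoc]
        _ = (a * b) ^ (2 * m) * a := by rw [ha2, mul_one, ← pow_add, ← two_mul]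
        _ = (a * b)⁻¹ * a := by
            congr 1
            apply eq_inv_of_mul_eq_one_left
            rw [← pow_succ, hpow]
        _ = b := by rw [inv_ab b hb, mul_assoc, ha2, mul_one]
    have h3 : (a * b) ^ m * a = b * (a * b) ^ m := by
      calc (a * b) ^ m * a = ((a * b) ^ m * a * ((a * b) ^ m)⁻¹) * (a * b) ^ m := by
            rw [inv_mul_cancel_right]
        _ = b * (a * b) ^ m := by rw [h2]
    show g * (a * b) ^ m * a = a * (g * (a * b) ^ m)
    rw [mul_assoc, h3, hbdef]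
    simp only [mul_assoc, mul_inv_cancel_left]
  · intro m hm
    have hpow : (a * (g⁻¹ * a * g)) ^ (2 * m) = 1 := by rw [← hm, pow_orderOf_eq_one]
    refine ⟨even _ hb m hpow, even _ hb' m ?_⟩
    have h4 : a * (g * a * g⁻¹) = g * (a * (g⁻¹ * a * g))⁻¹ * g⁻¹ := by
      rw [inv_ab _ hb]
      simp only [mul_assoc, mul_inv_cancel_left]
    rw [h4, conj_pow, inv_pow, hpow, inv_one, mul_one, mul_inv_cancel]

end Cfsg.Agent.S0442
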