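import Cfsg.Statements.S0443

set_option autoImplicit false
open Cfsg

namespace Cfsg.Agent.S0443

/-- Two definitions of a 2-central involution agree: an element t of order 2 of a finite group lies in the centre of some Sylow 2-subgroup if and only if its centraliser contains some Sylow 2-subgroup. -/
theorem result {G : Type*} [Group G] [Finite G] (t : G) (ht : orderOf t = 2) : Cfsg.IsTwoCentralInvolution t ↔ ∃ P : Sylow 2 G, (P : Subgroup G) ≤ Subgroup.centralizer ({t} : Set G) := by
  have : Fact (Nat.Prime 2) := ⟨Nat.prime_two⟩
  constructor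
  · rintro ⟨_, P, _, hP⟩
    refine ⟨P, fun x hx => ?_⟩
    rw [Subgroup.mem_centralizer_singleton_iff]
    exact hP x hx
  · rintro ⟨P, hP⟩
    have hcomm : ∀ x ∈ P, x * t = t * x := fun x hx =>
      Subgroup.mem_centralizer_singleton_iff.1 (hP hx)
    refine ⟨ht, P, ?_, hcomm⟩
    have hz : IsPGroup 2 (Subgroup.zpowers t) := by
      apply IsPGroup.of_card (n := 1)
      rw [Nat.card_zpowers, ht, pow_one]
    have hle : Subgroup.zpowers t ≤ Subgroup.normalizer ((P : Subgroup G) : Set G) := by
      rw [Subgroup.zpowers_le, Subgroup.mem_normalizer_iff]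
      intro x
      constructor
      · intro hx
        rw [← hcomm x hx, mul_inv_cancel_right]
        exact hx
      · intro hx
        have h1 := hcomm _ hx
        have h2 : t * x * t⁻¹ = x := by
          have h3 : t * x * t⁻¹ * t = t * (t * x * t⁻¹) := h1
          rw [inv_mul_cancel_right] at h3
          exact (mul_left_cancel h3).symm
        rwa [h2] at hx
    have hsup := hz.to_sup_of_normal_right' P.isPGroup' hle
    have h3 := P.is_maximal' hsup le_sup_right
    have h4 : Subgroup.zpowers t ≤ P := by
      rw [← h3]
      exact le_sup_left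
    exact h4 (Subgroup.mem_zpowers t)

end Cfsg.Agent.S0443
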