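import Cfsg.Statements.S0444
import Cfsg.Agent.Lib.Helper3.ThreeTr
import Cfsg.Agent.Lib.Helper3.Dih

set_option autoImplicit false
open Cfsg

namespace Cfsg.Agent.S0444

/-- Two members of a set of 3-transpositions which do not commute generate a subgroup isomorphic to the symmetric group on three letters. -/
theorem result {G : Type*} [Group G] {E : Set G} (hE : Cfsg.IsThreeTranspositionSet E) {d e : G} (hd : d ∈ E) (he : e ∈ E) (h : ¬ Commute d e) : Nonempty (Subgroup.closure ({d, e} : Set G) ≃* Equiv.Perm (Fin 3)) := by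
  rcases Cfsg.Agent.Lib.Helper3.tt_cases hE hd he with h1 | h1
  · exact absurd h1 h
  · apply Cfsg.Agent.Lib.Helper3.closure_equiv_perm3 (Cfsg.Agent.Lib.Helper3.tt_sq hE hd) (Cfsg.Agent.Lib.Helper3.tt_sq hE he) h1
    rintro rfl
    exact h (Commute.refl d)

end Cfsg.Agent.S0444
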