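import Cfsg.Statements.S2572
import Cfsg.Agent.Lib.Helper14.TransCount

set_option autoImplicit false
open Cfsg

namespace Cfsg.Agent.S2572

open Cfsg.Agent.Lib.Helper14

theorem prod_rec (q m : ℕ) : ∏ i : Fin (m + 1), (q ^ (m + 1) - q ^ (i : ℕ))
    = (q ^ (m + 1) - 1) * q ^ m * ∏ i : Fin m, (q ^ m - q ^ (i : ℕ)) := by
  rw [Fin.prod_univ_succ]
  simp only [Fin.val_zero, pow_zero, Fin.val_succ]
  have : ∀ i : Fin m, q ^ (m + 1) - q ^ ((i : ℕ) + 1) = q * (q ^ m - q ^ (i : ℕ)) := by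
    intro i
    rw [Nat.mul_sub, pow_succ, pow_succ, mul_comm, mul_comm (q ^ (i : ℕ))]
  rw [Finset.prod_congr rfl (fun i _ => this i), Finset.prod_mul_distrib, Finset.prod_const,
    Finset.card_univ, Fintype.card_fin, mul_assoc]

theorem isTransvection_conj {F : Type*} [Field F] {n : ℕ} {t h : GL (Fin n) F}
    (ht : Cfsg.IsTransvection (t : Matrix (Fin n) (Fin n) F)) (hc : IsConj t h) :
    Cfsg.IsTransvection (h : Matrix (Fin n) (Fin n) F) := by
  obtain ⟨c, hc⟩ := isConj_iff.1 hc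
  have h1 : (h : Matrix (Fin n) (Fin n) F) - 1
      = (c : Matrix (Fin n) (Fin n) F) * ((t : Matrix (Fin n) (Fin n) F) - 1)
        * ((c⁻¹ : GL (Fin n) F) : Matrix (Fin n) (Fin n) F) := by
    rw [← hc]
    simp only [Units.val_mul, mul_sub, sub_mul, mul_one]
    rw [← Units.val_mul c c⁻¹, mul_inv_cancel, Units.val_one]
  have hcc : ((c⁻¹ : GL (Fin n) F) : Matrix (Fin n) (Fin n) F) * (c : Matrix (Fin n) (Fin n) F) = 1 := by
    rw [← Units.val_mul, inv_mul_cancel, Units.val_one]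
  constructor
  · rw [h1, Matrix.rank_mul_eq_left_of_isUnit_det _ _ ((Matrix.isUnit_iff_isUnit_det _).1 (c⁻¹).isUnit),
      Matrix.rank_mul_eq_right_of_isUnit_det _ _ ((Matrix.isUnit_iff_isUnit_det _).1 c.isUnit)]
    exact ht.1
  · rw [h1]
    calc _ = (c : Matrix (Fin n) (Fin n) F) * ((t : Matrix (Fin n) (Fin n) F) - 1)
        * (((c⁻¹ : GL (Fin n) F) : Matrix (Fin n) (Fin n) F) * (c : Matrix (Fin n) (Fin n) F))
        * ((t : Matrix (Fin n) (Fin n) F) - 1) * ((c⁻¹ : GL (Fin n) F) : Matrix (Fin n) (Fin n) F) := by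
          simp only [mul_assoc]
      _ = (c : Matrix (Fin n) (Fin n) F) * (((t : Matrix (Fin n) (Fin n) F) - 1)
        * ((t : Matrix (Fin n) (Fin n) F) - 1)) * ((c⁻¹ : GL (Fin n) F) : Matrix (Fin n) (Fin n) F) := by
          rw [hcc]; simp only [mul_assoc, mul_one]
      _ = 0 := by rw [ht.2]; simp

theorem card_class {F : Type*} [Field F] [Fintype F] {n : ℕ} (t : GL (Fin n) F)
    (ht : Cfsg.IsTransvection (t : Matrix (Fin n) (Fin n) F)) :
    Nat.card {h : GL (Fin n) F // IsConj t h}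
      = Nat.card {M : (Fin n → F) →ₗ[F] (Fin n → F) // IsTMap M} := by
  apply Nat.card_congr
  refine Equiv.ofBijective (fun h => ⟨Matrix.toLin' ((h.1 : Matrix (Fin n) (Fin n) F) - 1), ?_⟩) ⟨?_, ?_⟩
  · have := isTransvection_conj ht h.2
    refine ⟨this.1, ?_⟩
    rw [← Matrix.toLin'_mul, this.2, map_zero]
  · rintro ⟨h, hh⟩ ⟨h', hh'⟩ he
    have := Matrix.toLin'.injective (congrArg Subtype.val he)
    apply Subtype.ext
    apply Units.ext
    exact sub_left_injective this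
  · rintro ⟨M, hM⟩
    set A := LinearMap.toMatrix' M with hA
    have hAA : A * A = 0 := by
      rw [hA, ← LinearMap.toMatrix'_comp, hM.2, map_zero]
    have hAr : A.rank = 1 := by
      have : A.mulVecLin = M := by
        rw [hA]; exact Matrix.toLin'_toMatrix' M
      rw [Matrix.rank, this]; exact hM.1
    let h : GL (Fin n) F := ⟨1 + A, 1 - A, by
      rw [mul_sub, add_mul, add_mul, hAA]; simp, by
      rw [sub_mul, mul_add, mul_add, hAA]; simp⟩
    have hh : (h : Matrix (Fin n) (Fin n) F) - 1 = A := by simp [h]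
    obtain ⟨B, hB, hBM⟩ := exists_isUnit_intertwine ((t : Matrix (Fin n) (Fin n) F) - 1) A ht.1 ht.2 hAr hAA
    refine ⟨⟨h, ?_⟩, ?_⟩
    · rw [isConj_iff]
      refine ⟨Matrix.GeneralLinearGroup.mk'' B hB, ?_⟩
      rw [mul_inv_eq_iff_eq_mul]
      apply Units.ext
      simp only [Units.val_mul]
      have h2 : (Matrix.GeneralLinearGroup.mk'' B hB : Matrix (Fin n) (Fin n) F) = B := rfl
      rw [h2]
      have h3 : (h : Matrix (Fin n) (Fin n) F) = 1 + A := rfl
      rw [h3, add_mul, ← hBM, mul_sub]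
      simp
    · apply Subtype.ext
      simp only [hh, hA]
      exact Matrix.toLin'_toMatrix' M

/-- Centraliser of a transvection in GL_n(q), n ≥ 2: if t − 1 has rank one and square zero, the centraliser of t in GL_n(q) has order q^(2n−3) (q − 1) |GL_(n−2)(q)| (a group of order q^(2n−3) extended by GL_1(q) × GL_(n−2)(q)). -/
theorem result {F : Type*} [Field F] [Fintype F] {q n : ℕ} (hF : Fintype.card F = q) (hn : 2 ≤ n) (t : GL (Fin n) F) (ht : Cfsg.IsTransvection (t : Matrix (Fin n) (Fin n) F)) : Nat.card ↥(Subgroup.centralizer ({t} : Set (GL (Fin n) F))) = q ^ (2 * n - 3) * (q - 1) * ∏ i : Fin (n - 2), (q ^ (n - 2) - q ^ (i : ℕ)) := by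
  obtain ⟨m, rfl⟩ : ∃ m, n = m + 2 := ⟨n - 2, by omega⟩
  have hq : 2 ≤ q := by rw [← hF]; exact Fintype.one_lt_card
  have h1 := card_isConj_mul_card_centralizer' t
  rw [card_class t ht, Matrix.card_GL_field, hF] at h1
  have h2 := card_tmap_mul (K := F) (V := Fin (m + 2) → F)
  rw [card_tpair] at h2
  have h4 : Nat.card F = q := by rw [Nat.card_eq_fintype_card, hF]
  have h3 : Nat.card Fˣ = q - 1 := by
    have := Nat.card_eq_card_units_add_one F
    omega
  rw [h3, h4, Module.finrank_fin_fun] at h2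
  rw [prod_rec, prod_rec] at h1
  change _ = q ^ (2 * (m + 2) - 3) * (q - 1) * ∏ i : Fin m, (q ^ m - q ^ (i : ℕ))
  set N := Nat.card {M : (Fin (m + 2) → F) →ₗ[F] (Fin (m + 2) → F) // IsTMap M}
  set C := Nat.card ↥(Subgroup.centralizer ({t} : Set (GL (Fin (m + 2)) F)))
  set P := ∏ i : Fin m, (q ^ m - q ^ (i : ℕ))
  have e1 : 2 * (m + 2) - 3 = (m + 1) + m := by omega
  have e2 : m + 2 - 1 = m + 1 := by omega
  rw [e2] at h2
  rw [e1, pow_add]
  have hpos1 : 0 < q ^ (m + 2) - 1 := by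
    have : 1 < q ^ (m + 2) := Nat.one_lt_pow (by omega) (by omega)
    omega
  have hpos2 : 0 < q ^ (m + 1) - 1 := by
    have : 1 < q ^ (m + 1) := Nat.one_lt_pow (by omega) (by omega)
    omega
  apply Nat.eq_of_mul_eq_mul_left (Nat.mul_pos hpos1 hpos2)
  rw [← h2]
  calc N * (q - 1) * C = (N * C) * (q - 1) := by ring
    _ = _ := by rw [h1, h2]; ring

end Cfsg.Agent.S2572
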