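import Cfsg.Statements.S0445
import Cfsg.Agent.S2572
import Cfsg.Agent.Lib.Helper14.TransvStd

set_option autoImplicit false
open Cfsg

namespace Cfsg.Agent.S0445

open Cfsg.Agent.Lib.Helper14

theorem card_centralizer_SL_eq_GL {F : Type*} [Field F] [Fintype F] (hF : Fintype.card F = 2) {n : ℕ}
    (s : Matrix.SpecialLinearGroup (Fin n) F) :
    Nat.card (Subgroup.centralizer ({s} : Set (Matrix.SpecialLinearGroup (Fin n) F)))
      = Nat.card (Subgroup.centralizer ({Matrix.SpecialLinearGroup.toGL s} : Set (GL (Fin n) F))) := by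
  classical
  have hsub : Subsingleton Fˣ := by
    rw [← Fintype.card_le_one_iff_subsingleton, Fintype.card_units, hF]
  apply Nat.card_congr
  refine Equiv.ofBijective (fun g => ⟨Matrix.SpecialLinearGroup.toGL g.1, ?_⟩) ⟨?_, ?_⟩
  · have := g.2
    rw [Subgroup.mem_centralizer_singleton_iff] at this ⊢
    rw [← map_mul, ← map_mul, this]
  · intro a b hab
    apply Subtype.ext
    exact Matrix.SpecialLinearGroup.toGL_injective (congrArg Subtype.val hab)
  · rintro ⟨g, hg⟩
    have hdet : (g : Matrix (Fin n) (Fin n) F).det = 1 := by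
      have := Subsingleton.elim (Matrix.GeneralLinearGroup.det g) 1
      exact congrArg Units.val this
    let g' : Matrix.SpecialLinearGroup (Fin n) F := ⟨g.val, hdet⟩
    have hg' : Matrix.SpecialLinearGroup.toGL g' = g := Units.ext rfl
    refine ⟨⟨g', ?_⟩, Subtype.ext hg'⟩
    rw [Subgroup.mem_centralizer_singleton_iff] at hg ⊢
    apply Matrix.SpecialLinearGroup.toGL_injective
    rw [map_mul, map_mul, hg', hg]

/-- In the special linear group of dimension 5 over the field with two elements, the centraliser of a transvection has order 21504 = 2 ^ 7 · 168 (it is an extension of an extraspecial group of order 2 ^ 7 by the simple group of order 168). -/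
theorem result (s : Matrix.SpecialLinearGroup (Fin 5) (ZMod 2)) (hs : (s : Matrix (Fin 5) (Fin 5) (ZMod 2)) = Matrix.transvection 0 1 1) : Nat.card (Subgroup.centralizer ({s} : Set (Matrix.SpecialLinearGroup (Fin 5) (ZMod 2)))) = 21504 := by
  have ht : Cfsg.IsTransvection ((Matrix.SpecialLinearGroup.toGL s : GL (Fin 5) (ZMod 2)) : Matrix (Fin 5) (Fin 5) (ZMod 2)) := by
    rw [Matrix.SpecialLinearGroup.coe_GL_coe_matrix, hs]
    unfold Cfsg.IsTransvection
    rw [transvection_sub_one]
    exact ⟨rank_single 0 1 one_ne_zero, single_mul_self (by decide) 1⟩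
  have h1 := Cfsg.Agent.S2572.result (F := ZMod 2) (q := 2) (n := 5) (by simp) (by norm_num)
    (Matrix.SpecialLinearGroup.toGL s) ht
  rw [card_centralizer_SL_eq_GL (by simp), h1]
  simp [Fin.prod_univ_succ]

end Cfsg.Agent.S0445
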