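import Cfsg.Statements.S0446

set_option autoImplicit false
open Cfsg

namespace Cfsg.Agent.S0446

/-- Every finite group of even order contains a 2-central involution, i.e. an element of order 2 in the centre of some Sylow 2-subgroup. -/
theorem result {G : Type*} [Group G] [Finite G] (h : Even (Nat.card G)) : ∃ t : G, Cfsg.IsTwoCentralInvolution t := by
  have h2 : (2 : ℕ) ∣ Nat.card G := even_iff_two_dvd.1 h
  have : Fact (Nat.Prime 2) := ⟨Nat.prime_two⟩
  obtain ⟨P⟩ : Nonempty (Sylow 2 G) := inferInstance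
  have hP : Nontrivial P := by
    rw [← Finite.one_lt_card_iff_nontrivial]
    have h3 : 2 ∣ Nat.card P := P.dvd_card_of_dvd_card h2
    have h4 : 0 < Nat.card P := Nat.card_pos
    exact lt_of_lt_of_le (by norm_num) (Nat.le_of_dvd h4 h3)
  have hc : Nontrivial (Subgroup.center P) := P.isPGroup'.center_nontrivial
  have hcp : IsPGroup 2 (Subgroup.center P) := P.isPGroup'.to_subgroup _
  obtain ⟨k, hk⟩ := hcp.exists_card_eq
  have hk0 : k ≠ 0 := by
    rintro rfl
    rw [pow_zero] at hk
    have := Finite.one_lt_card_iff_nontrivial.2 hc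
    omega
  have hd : 2 ∣ Nat.card (Subgroup.center P) := by
    rw [hk]
    exact dvd_pow_self 2 hk0
  obtain ⟨z, hz⟩ := exists_prime_orderOf_dvd_card' 2 hd
  refine ⟨((z : P) : G), ?_, P, (z : P).2, ?_⟩
  · rw [Subgroup.orderOf_coe, Subgroup.orderOf_coe, hz]
  · intro x hx
    have := Subgroup.mem_center_iff.1 z.2 ⟨x, hx⟩
    exact congrArg Subtype.val this

end Cfsg.Agent.S0446
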