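import Cfsg.Statements.S0458
import Cfsg.Agent.Lib.Helper3.J3.Main

set_option autoImplicit false
open Cfsg

namespace Cfsg.Agent.S0458

set_option maxRecDepth 100000

/-- Janko's third group exists as a transitive permutation group of degree 6156 with point stabiliser of order 8160: a simple group of order 50232960. -/
theorem result : ∃ H : Subgroup (Equiv.Perm (Fin 6156)), Cfsg.IsJ3 H ∧ MulAction.IsPretransitive H (Fin 6156) ∧ Nat.card (MulAction.stabilizer H (0 : Fin 6156)) = 8160 := by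
  refine ⟨Cfsg.Agent.Lib.Helper3.lgrp (Cfsg.Agent.Lib.Helper3.vL Cfsg.Agent.Lib.Helper3.J3.ntl
    Cfsg.Agent.Lib.Helper3.J3.deg) [1, 2], ⟨Cfsg.Agent.Lib.Helper3.J3.simple,
    Cfsg.Agent.Lib.Helper3.J3.card_eq⟩, Cfsg.Agent.Lib.Helper3.J3.pretrans, ?_⟩
  have hpre := Cfsg.Agent.Lib.Helper3.J3.pretrans
  have h1 := MulAction.index_stabilizer_of_transitive
    (Cfsg.Agent.Lib.Helper3.lgrp (Cfsg.Agent.Lib.Helper3.vL Cfsg.Agent.Lib.Helper3.J3.ntl
    Cfsg.Agent.Lib.Helper3.J3.deg) [1, 2]) (0 : Fin 6156)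
  have h2 := (MulAction.stabilizer (Cfsg.Agent.Lib.Helper3.lgrp (Cfsg.Agent.Lib.Helper3.vL
    Cfsg.Agent.Lib.Helper3.J3.ntl Cfsg.Agent.Lib.Helper3.J3.deg) [1, 2]) (0 : Fin 6156)).card_mul_index
  have h3 : Nat.card (Fin 6156) = 6156 := Nat.card_fin 6156
  rw [h1, Cfsg.Agent.Lib.Helper3.J3.card_eq, h3] at h2
  have h4 : (50232960 : ℕ) = 8160 * 6156 := by norm_num
  exact Nat.eq_of_mul_eq_mul_right (m := 6156) (by norm_num) (h2.trans h4)

end Cfsg.Agent.S0458
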