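import Cfsg.Statements.S0459
import Cfsg.Agent.Lib.Helper3.TitR.Iso

set_option autoImplicit false
open Cfsg

namespace Cfsg.Agent.S0459

set_option maxRecDepth 100000

/-- The Rudvalis group exists as a transitive permutation group of degree 4060: simple of order 145926144000, with point stabiliser of order 35942400 containing a simple subgroup of order 17971200 (the order of the Tits group). -/
theorem result : ∃ H : Subgroup (Equiv.Perm (Fin 4060)), Cfsg.IsRu H ∧ MulAction.IsPretransitive H (Fin 4060) ∧ Nat.card (MulAction.stabilizer H (0 : Fin 4060)) = 35942400 ∧ ∃ T : Subgroup (MulAction.stabilizer H (0 : Fin 4060)), Cfsg.IsTits T := by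
  refine ⟨Cfsg.Agent.Lib.Helper3.TitR.HR, ⟨Cfsg.Agent.Lib.Helper3.Ru.simple,
    Cfsg.Agent.Lib.Helper3.Ru.card_eq⟩, Cfsg.Agent.Lib.Helper3.Ru.pretrans, ?_, ?_⟩
  · have hpre := Cfsg.Agent.Lib.Helper3.Ru.pretrans
    have h1 := MulAction.index_stabilizer_of_transitive Cfsg.Agent.Lib.Helper3.TitR.HR (0 : Fin 4060)
    have h2 := (MulAction.stabilizer Cfsg.Agent.Lib.Helper3.TitR.HR (0 : Fin 4060)).card_mul_index
    have h3 : Nat.card (Fin 4060) = 4060 := Nat.card_fin 4060
    rw [h1, Cfsg.Agent.Lib.Helper3.Ru.card_eq, h3] at h2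
    have h4 : (145926144000 : ℕ) = 35942400 * 4060 := by norm_num
    exact Nat.eq_of_mul_eq_mul_right (m := 4060) (by norm_num) (h2.trans h4)
  · have hle : Cfsg.Agent.Lib.Helper3.TitR.KT.subgroupOf Cfsg.Agent.Lib.Helper3.TitR.HR ≤
        MulAction.stabilizer Cfsg.Agent.Lib.Helper3.TitR.HR (0 : Fin 4060) := by
      intro g hg
      rw [MulAction.mem_stabilizer_iff]
      exact Cfsg.Agent.Lib.Helper3.TitR.KT_fix g.1 (Subgroup.mem_subgroupOf.1 hg)
    let e1 := Subgroup.subgroupOfEquivOfLe hle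
    let e2 := Subgroup.subgroupOfEquivOfLe Cfsg.Agent.Lib.Helper3.TitR.KT_le
    refine ⟨(Cfsg.Agent.Lib.Helper3.TitR.KT.subgroupOf Cfsg.Agent.Lib.Helper3.TitR.HR).subgroupOf _,
      ?_, ?_⟩
    · exact (e1.trans e2).isSimpleGroup_congr.2 Cfsg.Agent.Lib.Helper3.TitR.KT_simple
    · rw [Nat.card_congr (e1.trans e2).toEquiv, Cfsg.Agent.Lib.Helper3.TitR.KT_card]

end Cfsg.Agent.S0459
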