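import Cfsg.Statements.S0460
import Cfsg.Agent.Lib.Helper3.L37.ONH
import Cfsg.Agent.Lib.Helper3.J1o.ONK
import Cfsg.Agent.Lib.Helper3.M11o.ONK
import Cfsg.Agent.Lib.Helper3.PermRep

set_option autoImplicit false
open Cfsg

namespace Cfsg.Agent.S0460

/-- The O'Nan group exists as a transitive permutation group of degree 122760: simple of order 460815505920, point stabiliser of order 3753792, and containing simple subgroups of orders 175560 and 7920. -/
theorem result : ∃ H : Subgroup (Equiv.Perm (Fin 122760)), Cfsg.IsON H ∧ MulAction.IsPretransitive H (Fin 122760) ∧ Nat.card (MulAction.stabilizer H (0 : Fin 122760)) = 3753792 ∧ (∃ K : Subgroup H, Cfsg.IsJ1 K) ∧ (∃ K : Subgroup H, Cfsg.IsM11 K) := by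
  have hON := Cfsg.Agent.S1699.result
  obtain ⟨H, e, htr, hst⟩ := Cfsg.Agent.Lib.Helper3.exists_perm_rep hON.1
    Cfsg.Agent.Lib.Helper3.L37.HH 122760 Cfsg.Agent.S1692.result (by norm_num)
  obtain ⟨E⟩ := Cfsg.Agent.Lib.Helper3.stabilizer_equiv _ H e hst
  obtain ⟨K1, hK1s, hK1c⟩ := Cfsg.Agent.Lib.Helper3.J1o.exK
  obtain ⟨K2, hK2s, hK2c⟩ := Cfsg.Agent.Lib.Helper3.M11o.exK
  refine ⟨H, ⟨e.isSimpleGroup_congr.1 hON.1, ?_⟩, htr, ?_, ⟨K1.map e.toMonoidHom, ?_, ?_⟩,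
    ⟨K2.map e.toMonoidHom, ?_, ?_⟩⟩
  · rw [← Nat.card_congr e.toEquiv]
    exact hON.2
  · rw [← Nat.card_congr E.toEquiv, Cfsg.Agent.Lib.Helper3.L37.cardH]
  · exact (e.subgroupMap K1).isSimpleGroup_congr.1 hK1s
  · exact (Nat.card_congr (e.subgroupMap K1).toEquiv).symm.trans hK1c
  · exact (e.subgroupMap K2).isSimpleGroup_congr.1 hK2s
  · exact (Nat.card_congr (e.subgroupMap K2).toEquiv).symm.trans hK2c

end Cfsg.Agent.S0460
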