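import Cfsg.Statements.S0462
import Cfsg.Agent.Lib.Helper3.S44.HeH
import Cfsg.Agent.Lib.Helper3.PermRep

set_option autoImplicit false
open Cfsg

namespace Cfsg.Agent.S0462

/-- The Held group exists as a transitive permutation group of degree 2058: simple of order 4030387200, with point stabiliser containing, with index 2, a copy of the 4-dimensional symplectic group over the field with four elements. -/
theorem result : ∃ H : Subgroup (Equiv.Perm (Fin 2058)), Cfsg.IsHe H ∧ MulAction.IsPretransitive H (Fin 2058) ∧ ∃ (F : Type) (_ : Field F) (_ : Fintype F), Fintype.card F = 4 ∧ ∃ N : Subgroup (MulAction.stabilizer H (0 : Fin 2058)), N.index = 2 ∧ Nonempty (N ≃* Matrix.symplecticGroup (Fin 2) F) := by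
  have hHe := Cfsg.Agent.S1695.result
  obtain ⟨H, e, htr, hst⟩ := Cfsg.Agent.Lib.Helper3.exists_perm_rep hHe.1
    Cfsg.Agent.Lib.Helper3.S44.HH 2058 Cfsg.Agent.S1683.result.1 (by norm_num)
  obtain ⟨E⟩ := Cfsg.Agent.Lib.Helper3.stabilizer_equiv _ H e hst
  obtain ⟨K, _, hi, ⟨e1⟩⟩ := Cfsg.Agent.Lib.Helper3.S44.main
  obtain ⟨e2⟩ := Cfsg.Agent.Lib.Helper3.S44.sp_iso
  refine ⟨H, ⟨?_, ?_⟩, htr, Cfsg.Agent.Lib.Helper3.F4, inferInstance, inferInstance,
    Cfsg.Agent.Lib.Helper3.F4.card_eq, ?_⟩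
  · exact e.isSimpleGroup_congr.1 hHe.1
  · rw [← Nat.card_congr e.toEquiv]
    exact hHe.2
  · exact Cfsg.Agent.Lib.Helper3.transport_subgroup E 2 ⟨K, hi, ⟨e1.trans e2.symm⟩⟩

end Cfsg.Agent.S0462
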