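import Cfsg.Statements.S0471
import Cfsg.Agent.S1696
import Cfsg.Agent.Lib.Helper3.TTReal2
import Cfsg.Agent.Lib.Helper3.U62.Fi22H

set_option autoImplicit false
open Cfsg

namespace Cfsg.Agent.S0471

open Cfsg.Agent.Lib.Helper11 Cfsg.Agent.Lib.Helper3 Cfsg.Spor Cfsg.Spor.Fi22

set_option maxRecDepth 100000

set_option maxHeartbeats 0 in
theorem relOK : Fi22o.primL.all (fun x =>
    wordId (ntOf Fi22o.ntl) 12 ((WExp.pow (ttExp Fi22o.tE x.2.2.1) 2).letters Fi22o.INVm) ||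
    wordId (ntOf Fi22o.ntl) 12 ((WExp.pow (ttExp Fi22o.tE x.2.2.1) 3).letters Fi22o.INVm)) = true := by
  decide +kernel

theorem t_sq : (PresentedGroup.mk (coxRelators edges ∪ {r | r ∈ extra})) (Fi22o.tE.eval (fun l => Fi22o.LTFm.getD l 1)) *
    (PresentedGroup.mk (coxRelators edges ∪ {r | r ∈ extra})) (Fi22o.tE.eval (fun l => Fi22o.LTFm.getD l 1)) = 1 :=
  cox_sq edges extra .a (by decide)


/-- The Fischer group of order 64561751654400 exists as a 3-transposition group: a simple group of that order generated by a conjugacy class of 3510 3-transpositions, the centraliser of each being a non-split double cover of PSU(6, 2). -/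
theorem result : ∃ (G : Type) (_ : Group G) (_ : Finite G), Cfsg.IsFi22 G ∧ ∃ D : Set G, Cfsg.IsThreeTranspositionClass D ∧ Nat.card D = 3510 ∧ ∀ d ∈ D, ∃ (F : Type) (_ : Field F) (_ : Fintype F), Fintype.card F = 4 ∧ Cfsg.IsNonsplitDoubleCover (Subgroup.centralizer ({d} : Set G)) (Cfsg.PSU 6 F 2) := by
  obtain ⟨hcard, hbot⟩ := Fi22o.order Cfsg.Agent.S1696.card_le
  have hfin : Finite Cfsg.Spor.Fi22 := Nat.finite_of_card_ne_zero (by rw [hcard]; norm_num)
  obtain ⟨h1, h2, h3⟩ := model_threeTr (PresentedGroup.mk (coxRelators edges ∪ {r | r ∈ extra})) _ Fi22o.psi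
    (fun l => Fi22o.LTFm.getD l 1) Fi22o.INVm (ntOf Fi22o.ntl) 12 (ntOf_ok Fi22o.ntl _ Fi22o.netsOK)
    Fi22o.psi_eval Fi22o.hExps Fi22o.hS1 Fi22o.hS2 Fi22o.gExps Fi22o.hgen 3510 _ (by norm_num)
    Fi22a.upper Fi22o.hfix0 Fi22o.htr Fi22o.invnOK _ hbot Fi22o.hbn Fi22o.primL Fi22o.primOK
    Cfsg.Agent.S1696.perfect Fi22o.tE Fi22o.normOK Cfsg.Agent.S1696.ncl t_sq relOK
  refine ⟨Cfsg.Spor.Fi22, inferInstance, hfin, Cfsg.Agent.S1696.result, _, h1, h2, ?_⟩
  intro d hd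
  obtain ⟨e⟩ := h3 d hd
  exact ⟨F4, inferInstance, inferInstance, F4.card_eq,
    nonsplitDoubleCover_congr e U62.cover_psu⟩

end Cfsg.Agent.S0471
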