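import Cfsg.Statements.S0481
import Cfsg.Agent.Lib.Helper16.SPE
import Cfsg.Agent.Lib.Helper16.CharP

set_option autoImplicit false
open Cfsg

namespace Cfsg.Agent.S0481

open Cfsg.Agent.Lib.Helper16


/-- Large extraspecial subgroups: let z be an involution of a finite group G whose centraliser C contains a normal 2-subgroup Q with centre of order 2 and all squares central, such that every element of G centralising Q lies in Q. Then C contains a Sylow 2-subgroup of G, and any involution of G whose centraliser contains a Sylow 2-subgroup of G is conjugate to z. -/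
theorem result {G : Type*} [Group G] [Finite G] (z : G) (hz : orderOf z = 2) (Q : Subgroup G) (hQC : Q ≤ Subgroup.centralizer ({z} : Set G)) (hQn : ∀ g ∈ Subgroup.centralizer ({z} : Set G), ∀ q ∈ Q, g * q * g⁻¹ ∈ Q) (hQ2 : IsPGroup 2 Q) (hZ : Nat.card (Subgroup.center Q) = 2) (hsq : ∀ x : Q, x ^ 2 ∈ Subgroup.center Q) (hlarge : Subgroup.centralizer (Q : Set G) ≤ Q) : (∃ P : Sylow 2 G, (P : Subgroup G) ≤ Subgroup.centralizer ({z} : Set G)) ∧ ∀ u : G, orderOf u = 2 → (∃ P : Sylow 2 G, (P : Subgroup G) ≤ Subgroup.centralizer ({u} : Set G)) → IsConj z u := by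
  have : Fact (Nat.Prime 2) := ⟨Nat.prime_two⟩
  have hz1 : z ≠ 1 := by
    rintro rfl
    simp at hz
  have hQz : ∀ q ∈ Q, q * z = z * q := fun q hq => Subgroup.mem_centralizer_singleton_iff.mp (hQC hq)
  have hzQ : z ∈ Q := hlarge (mem_centralizer_iff_commute.mpr (fun q hq => (hQz q hq).symm))
  have key : ∀ w ∈ Subgroup.centralizer (Q : Set G), w ≠ 1 → w = z := by
    intro w hw hw1
    have hwQ : w ∈ Q := hlarge hw
    have hwc := mem_centralizer_iff_commute.mp hw
    obtain ⟨b, -, hb⟩ := (Nat.card_eq_two_iff' (1 : Subgroup.center ↥Q)).mp hZ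
    have h1 : (⟨⟨w, hwQ⟩, Subgroup.mem_center_iff.mpr (fun q => Subtype.ext (hwc q q.2).eq.symm)⟩ :
        Subgroup.center ↥Q) = b := hb _ (by
      intro e
      exact hw1 (congrArg (fun x : Subgroup.center ↥Q => ((x : Q) : G)) e))
    have h2 : (⟨⟨z, hzQ⟩, Subgroup.mem_center_iff.mpr (fun q => Subtype.ext (hQz q q.2))⟩ :
        Subgroup.center ↥Q) = b := hb _ (by
      intro e
      exact hz1 (congrArg (fun x : Subgroup.center ↥Q => ((x : Q) : G)) e))
    exact congrArg (fun x : Subgroup.center ↥Q => ((x : Q) : G)) (h1.trans h2.symm)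
  obtain ⟨P, hQP⟩ := hQ2.exists_le_sylow
  have hPz : z ∈ Subgroup.centralizer ((P : Subgroup G) : Set G) := by
    have hne : (P : Subgroup G) ≠ ⊥ := by
      intro e
      have := hQP hzQ
      rw [e] at this
      exact hz1 (Subgroup.mem_bot.mp this)
    have h0 := center_ne_bot P.2 hne
    obtain ⟨w, hw, hw1⟩ : ∃ w ∈ (P : Subgroup G) ⊓ Subgroup.centralizer ((P : Subgroup G) : Set G), w ≠ 1 := by
      by_contra hcon
      push Not at hcon
      exact h0 ((Subgroup.eq_bot_iff_forall _).mpr hcon)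
    have := key w (Subgroup.centralizer_le hQP hw.2) hw1
    rw [← this]
    exact hw.2
  refine ⟨⟨P, fun x hx => Subgroup.mem_centralizer_singleton_iff.mpr
    ((mem_centralizer_iff_commute.mp hPz) x hx).eq.symm⟩, ?_⟩
  rintro u hu ⟨P', hP'⟩
  have hu1 : u ≠ 1 := by
    rintro rfl
    simp at hu
  obtain ⟨g, -, hg⟩ := (sylIn_top P').exists_conj (sylIn_top P)
  have h1 : g * u * g⁻¹ ∈ Subgroup.centralizer ((P : Subgroup G) : Set G) := by
    rw [mem_centralizer_iff_commute]
    intro x hx
    rw [hg] at hx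
    obtain ⟨y, hy, rfl⟩ := hx
    have h2 : y * u = u * y := Subgroup.mem_centralizer_singleton_iff.mp (hP' hy)
    show g * u * g⁻¹ * (g * y * g⁻¹) = g * y * g⁻¹ * (g * u * g⁻¹)
    calc g * u * g⁻¹ * (g * y * g⁻¹) = g * (u * y) * g⁻¹ := by simp only [mul_assoc, inv_mul_cancel_left]
      _ = g * (y * u) * g⁻¹ := by rw [h2]
      _ = _ := by simp only [mul_assoc, inv_mul_cancel_left]
  have h3 := key _ (Subgroup.centralizer_le hQP h1) (by
    intro e
    exact hu1 (by simpa using e))
  rw [isConj_iff]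
  refine ⟨g⁻¹, ?_⟩
  rw [← h3]
  simp [mul_assoc]

end Cfsg.Agent.S0481
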