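import Mathlib
import Cfsg.Statements.S1785
import Cfsg.Agent.Lib.Helper4.Basic
import Cfsg.Agent.Lib.Helper1.Basic


set_option autoImplicit false
open Cfsg

namespace Cfsg.Agent.S1785


open Cfsg.Agent.Lib.Helper4

theorem num4 (d r : ℕ) (h : 4 = d * r) (h6 : 32 ≤ d ^ r) : False := by
  have hd4 : d ≤ 4 := Nat.le_of_dvd (by norm_num) ⟨r, h⟩
  have hr4 : r ≤ 4 := Nat.le_of_dvd (by norm_num) ⟨d, by rw [h, mul_comm]⟩
  interval_cases d <;> interval_cases r <;> first | omega | (norm_num at h6)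

theorem num8 (d r : ℕ) (h : 8 = d * r) (hd : d ≠ 8) (h6 : 32 ≤ d ^ r) : False := by
  have hd4 : d ≤ 8 := Nat.le_of_dvd (by norm_num) ⟨r, h⟩
  have hr4 : r ≤ 8 := Nat.le_of_dvd (by norm_num) ⟨d, by rw [h, mul_comm]⟩
  interval_cases d <;> interval_cases r <;> first | omega | (norm_num at h6)

variable {X : Type*} [Group X] [Finite X]

theorem card_le_sq (V : Subgroup X) (hV : IsElementaryAbelian 2 V) (t : X) (ht : t ^ 2 = 1)
    (hn : ∀ v ∈ V, t * v * t⁻¹ ∈ V) :
    Nat.card V ≤ Nat.card (V ⊓ Subgroup.centralizer {t} : Subgroup X) ^ 2 := by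
  have hc := (isMulCommutative_iff V).mp hV.1
  have htinv : t⁻¹ = t := by
    rw [inv_eq_iff_mul_eq_one, ← pow_two, ht]
  let φ : V →* V :=
    { toFun := fun v => ⟨v * (t * v * t⁻¹), V.mul_mem v.2 (hn v v.2)⟩
      map_one' := by ext; simp
      map_mul' := by
        intro a b
        ext
        simp only [Subgroup.coe_mul]
        have h1 := hc b b.2 (t * a * t⁻¹) (hn a a.2)
        calc (a : X) * b * (t * (a * b) * t⁻¹) = a * (b * (t * a * t⁻¹)) * (t * b * t⁻¹) := by group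
          _ = a * ((t * a * t⁻¹) * b) * (t * b * t⁻¹) := by rw [h1]
          _ = a * (t * a * t⁻¹) * (b * (t * b * t⁻¹)) := by group }
  have h1 := Subgroup.card_mul_index φ.ker
  rw [Subgroup.index_ker] at h1
  have hk : Nat.card φ.ker ≤ Nat.card (V ⊓ Subgroup.centralizer {t} : Subgroup X) := by
    have hmem : ∀ x : φ.ker, ((x : V) : X) ∈ V ⊓ Subgroup.centralizer {t} := by
      intro x
      refine Subgroup.mem_inf.mpr ⟨x.1.2, ?_⟩
      have h2 : ((x : V) : X) * (t * x * t⁻¹) = 1 := congrArg Subtype.val (MonoidHom.mem_ker.mp x.2)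
      have h3 : ((x : V) : X) * x = 1 := by rw [← pow_two]; exact hV.2 _ x.1.2
      have h4 : t * ((x : V) : X) * t⁻¹ = x := mul_left_cancel (h2.trans h3.symm)
      rw [Subgroup.mem_centralizer_singleton_iff]
      rw [mul_inv_eq_iff_eq_mul] at h4
      exact h4.symm
    apply Nat.card_le_card_of_injective (fun x : φ.ker =>
      (⟨((x : V) : X), hmem x⟩ : (V ⊓ Subgroup.centralizer {t} : Subgroup X)))
    intro a b hab
    have hab' := congrArg Subtype.val hab
    exact Subtype.ext (Subtype.ext hab')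
  have hr : Nat.card φ.range ≤ Nat.card (V ⊓ Subgroup.centralizer {t} : Subgroup X) := by
    have hmem : ∀ x : φ.range, ((x : V) : X) ∈ V ⊓ Subgroup.centralizer {t} := by
      rintro ⟨_, v, rfl⟩
      refine Subgroup.mem_inf.mpr ⟨(φ v).2, ?_⟩
      rw [Subgroup.mem_centralizer_singleton_iff]
      change (v : X) * (t * v * t⁻¹) * t = t * ((v : X) * (t * v * t⁻¹))
      have h5 := hc v v.2 (t * v * t⁻¹) (hn v v.2)
      rw [h5]
      have h6 : t * t = 1 := by rw [← pow_two, ht]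
      calc t * (v : X) * t⁻¹ * v * t = t * v * t⁻¹ * v * t := rfl
        _ = t * (v * (t⁻¹ * v * t)) := by group
        _ = t * (v * (t * v * t⁻¹)) := by rw [htinv]
        _ = t * (t * v * t⁻¹ * v) := by rw [h5]
    apply Nat.card_le_card_of_injective (fun x : φ.range =>
      (⟨((x : V) : X), hmem x⟩ : (V ⊓ Subgroup.centralizer {t} : Subgroup X)))
    intro a b hab
    have hab' := congrArg Subtype.val hab
    exact Subtype.ext (Subtype.ext hab')
  rw [← h1, pow_two]
  exact Nat.mul_le_mul hk hr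

theorem card_sup_zpowers (S : Subgroup X) (t : X) (ht : t ^ 2 = 1) (htS : t ∉ S)
    (hc : ∀ s ∈ S, s * t = t * s) : Nat.card (S ⊔ Subgroup.zpowers t : Subgroup X) = 2 * Nat.card S := by
  have ht1 : t ≠ 1 := fun h => htS (h ▸ S.one_mem)
  have ho : orderOf t = 2 := orderOf_eq_prime ht ht1
  have hn : S ≤ Subgroup.normalizer ((Subgroup.zpowers t : Subgroup X) : Set X) := by
    have : S ≤ Subgroup.centralizer ((Subgroup.zpowers t : Subgroup X) : Set X) := by
      intro s hs
      rw [Subgroup.mem_centralizer_iff]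
      intro z hz
      obtain ⟨j, rfl⟩ := Subgroup.mem_zpowers_iff.mp hz
      have : Commute s t := hc s hs
      exact (this.zpow_right j).eq.symm
    exact this.trans (Subgroup.centralizer_le_normalizer _)
  have h1 := card_mul_card_eq_of_le_normalizer S (Subgroup.zpowers t) hn
  have h2 : S ⊓ Subgroup.zpowers t = ⊥ := by
    by_contra hne
    have h3 : Nat.card (S ⊓ Subgroup.zpowers t : Subgroup X) ∣ 2 := by
      have := Subgroup.card_dvd_of_le (inf_le_right : S ⊓ Subgroup.zpowers t ≤ Subgroup.zpowers t)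
      rwa [Nat.card_zpowers, ho] at this
    have h4 : Nat.card (S ⊓ Subgroup.zpowers t : Subgroup X) ≠ 1 := by
      rw [Ne, Subgroup.card_eq_one]; exact hne
    have h5 : Nat.card (S ⊓ Subgroup.zpowers t : Subgroup X) = 2 :=
      ((Nat.dvd_prime Nat.prime_two).mp h3).resolve_left h4
    have h6 : S ⊓ Subgroup.zpowers t = Subgroup.zpowers t :=
      Subgroup.eq_of_le_of_card_ge inf_le_right (by rw [h5, Nat.card_zpowers, ho])
    have h7 : t ∈ S ⊓ Subgroup.zpowers t := by rw [h6]; exact Subgroup.mem_zpowers t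
    exact htS h7.1
  rw [h2, Subgroup.card_bot, mul_one, Nat.card_zpowers, ho] at h1
  omega

variable (E : Subgroup X) [hEn : E.Normal]

theorem step (hE : IsElementaryAbelian 2 E) (D : Subgroup X) (t : X) (ht : t ^ 2 = 1)
    (hc : ∀ s ∈ D, s * t = t * s) :
    Nat.card (E ⊓ Subgroup.centralizer (D : Set X) : Subgroup X) ≤
      Nat.card (E ⊓ Subgroup.centralizer ((D ⊔ Subgroup.zpowers t : Subgroup X) : Set X) : Subgroup X) ^ 2 := by
  have h1 := card_le_sq (E ⊓ Subgroup.centralizer (D : Set X)) (elemAb_of_le inf_le_left hE) t ht (by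
    intro v hv
    obtain ⟨hvE, hvD⟩ := Subgroup.mem_inf.mp hv
    refine Subgroup.mem_inf.mpr ⟨hEn.conj_mem v hvE t, ?_⟩
    rw [Subgroup.mem_centralizer_iff]
    intro d hd
    have h2 := Subgroup.mem_centralizer_iff.mp hvD d hd
    have h3 := hc d hd
    have h4 : d * t⁻¹ = t⁻¹ * d := by
      rw [eq_inv_mul_iff_mul_eq, ← mul_assoc, ← h3, mul_inv_cancel_right]
    calc d * (t * v * t⁻¹) = (d * t) * v * t⁻¹ := by group
      _ = t * (d * v) * t⁻¹ := by rw [h3]; group
      _ = t * v * (d * t⁻¹) := by rw [h2]; group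
      _ = t * v * t⁻¹ * d := by rw [h4]; group)
  refine h1.trans (Nat.pow_le_pow_left (Subgroup.card_le_of_le ?_) 2)
  intro x hx
  obtain ⟨hx1, hxt⟩ := Subgroup.mem_inf.mp hx
  obtain ⟨hxE, hxD⟩ := Subgroup.mem_inf.mp hx1
  refine Subgroup.mem_inf.mpr ⟨hxE, ?_⟩
  have h5 : D ⊔ Subgroup.zpowers t ≤ Subgroup.centralizer ({x} : Set X) := by
    apply sup_le
    · intro d hd
      rw [Subgroup.mem_centralizer_singleton_iff]
      exact Subgroup.mem_centralizer_iff.mp hxD d hd
    · rw [Subgroup.zpowers_le, Subgroup.mem_centralizer_singleton_iff]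
      exact (Subgroup.mem_centralizer_singleton_iff.mp hxt).symm
  rw [Subgroup.mem_centralizer_iff]
  intro y hy
  exact Subgroup.mem_centralizer_singleton_iff.mp (h5 hy)

theorem bound (hE : IsElementaryAbelian 2 E) (A : Subgroup X) (hA : IsElementaryAbelian 2 A) :
    ∀ (n : ℕ) (D : Subgroup X), D ≤ A → Nat.card A - Nat.card D ≤ n →
    Nat.card (E ⊓ Subgroup.centralizer (D : Set X) : Subgroup X) ≤
      Nat.card (E ⊓ Subgroup.centralizer (A : Set X) : Subgroup X) ^ (D.relIndex A) := by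
  intro n
  induction n with
  | zero =>
    intro D hDA hn
    have : D = A := Subgroup.eq_of_le_of_card_ge hDA (by omega)
    subst this
    rw [Subgroup.relIndex_self, pow_one]
  | succ n ih =>
    intro D hDA hn
    by_cases hD : D = A
    · subst hD
      rw [Subgroup.relIndex_self, pow_one]
    obtain ⟨t, htA, htD⟩ : ∃ t ∈ A, t ∉ D := by
      by_contra hcon
      push Not at hcon
      exact hD (le_antisymm hDA hcon)
    have ht2 := hA.2 t htA
    have hc : ∀ s ∈ D, s * t = t * s := fun s hs => (isMulCommutative_iff A).mp hA.1 s (hDA hs) t htA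
    have hD'A : D ⊔ Subgroup.zpowers t ≤ A := sup_le hDA (by rwa [Subgroup.zpowers_le])
    have hcard := card_sup_zpowers D t ht2 htD hc
    have hpos : 0 < Nat.card D := Nat.card_pos
    have h1 := ih (D ⊔ Subgroup.zpowers t) hD'A (by omega)
    have h2 := step E hE D t ht2 hc
    have h3 : D.relIndex (D ⊔ Subgroup.zpowers t) = 2 := by
      have := card_eq_mul_relIndex (le_sup_left : D ≤ D ⊔ Subgroup.zpowers t)
      rw [hcard, mul_comm] at this
      exact (Nat.eq_of_mul_eq_mul_left hpos this).symm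
    have h4 := Subgroup.relIndex_mul_relIndex D (D ⊔ Subgroup.zpowers t) A le_sup_left hD'A
    rw [h3] at h4
    rw [← h4, mul_comm, pow_mul]
    exact h2.trans (Nat.pow_le_pow_left h1 2)

theorem exists_z (hE : IsElementaryAbelian 2 E) (hE32 : 32 ≤ Nat.card E) (A : Subgroup X)
    (hA : IsElementaryAbelian 2 A) (hcard : Nat.card A = 4 ∨ (Nat.card A = 8 ∧ ¬ A ≤ E)) :
    ∃ z ∈ E, z ∈ Subgroup.centralizer (A : Set X) ∧ z ∉ A := by
  by_contra hcon
  push Not at hcon
  have h1 : E ⊓ Subgroup.centralizer (A : Set X) ≤ A ⊓ E := fun z hz => ⟨hcon z hz.1 hz.2, hz.1⟩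
  have h2 := bound E hE A hA _ (A ⊓ E) inf_le_left le_rfl
  have h3 : E ⊓ Subgroup.centralizer ((A ⊓ E : Subgroup X) : Set X) = E := by
    apply inf_eq_left.mpr
    intro x hx
    rw [Subgroup.mem_centralizer_iff]
    intro y hy
    exact (isMulCommutative_iff E).mp hE.1 y hy.2 x hx
  rw [h3] at h2
  have h4 := Subgroup.card_le_of_le h1
  have h5 := card_eq_mul_relIndex (inf_le_left : A ⊓ E ≤ A)
  set d := Nat.card (A ⊓ E : Subgroup X) with hd
  set r := (A ⊓ E).relIndex A with hr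
  have h6 : 32 ≤ d ^ r := hE32.trans (h2.trans (Nat.pow_le_pow_left h4 r))
  rcases hcard with h | ⟨h, hne⟩
  · rw [h] at h5
    exact num4 d r h5 h6
  · rw [h] at h5
    have hd8 : d ≠ 8 := by
      intro h8
      apply hne
      have : A ⊓ E = A := Subgroup.eq_of_le_of_card_ge inf_le_left (by rw [← hd, h8, h])
      exact inf_eq_left.mp this
    exact num8 d r h5 hd8 h6


open Cfsg.Agent.Lib.Helper4

variable {X : Type*} [Group X] [Finite X]

theorem hyperplane (A : Subgroup X) (hA : IsElementaryAbelian 2 A) :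
    ∀ (n : ℕ) (D : Subgroup X), D ≤ A → D ≠ A → Nat.card A - Nat.card D ≤ n →
    ∃ A₁ : Subgroup X, D ≤ A₁ ∧ A₁ ≤ A ∧ Nat.card A = 2 * Nat.card A₁ := by
  intro n
  induction n with
  | zero =>
    intro D hDA hne hn
    exact absurd (Subgroup.eq_of_le_of_card_ge hDA (by omega)) hne
  | succ n ih =>
    intro D hDA hne hn
    obtain ⟨t, htA, htD⟩ : ∃ t ∈ A, t ∉ D := by
      by_contra hcon
      push Not at hcon
      exact hne (le_antisymm hDA hcon)
    have ht2 := hA.2 t htA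
    have hc : ∀ s ∈ D, s * t = t * s := fun s hs => (isMulCommutative_iff A).mp hA.1 s (hDA hs) t htA
    have hD'A : D ⊔ Subgroup.zpowers t ≤ A := sup_le hDA (by rwa [Subgroup.zpowers_le])
    have hcard := card_sup_zpowers D t ht2 htD hc
    have hpos : 0 < Nat.card D := Nat.card_pos
    by_cases hD' : D ⊔ Subgroup.zpowers t = A
    · exact ⟨D, le_rfl, hDA, by rw [← hcard, hD']⟩
    · obtain ⟨A₁, h1, h2, h3⟩ := ih (D ⊔ Subgroup.zpowers t) hD'A hD' (by omega)
      exact ⟨A₁, le_sup_left.trans h1, h2, h3⟩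

theorem extend (S : Subgroup X) (hS : IsElementaryAbelian 2 S) (z : X) (hz2 : z ^ 2 = 1)
    (hzS : z ∉ S) (hzc : z ∈ Subgroup.centralizer (S : Set X)) :
    IsElementaryAbelian 2 (S ⊔ Subgroup.zpowers z : Subgroup X) ∧
      Nat.card (S ⊔ Subgroup.zpowers z : Subgroup X) = 2 * Nat.card S := by
  have hc : ∀ s ∈ S, s * z = z * s := fun s hs => Subgroup.mem_centralizer_iff.mp hzc s hs
  refine ⟨elemAb_sup hS (elemAb_zpowers hz2) ?_, card_sup_zpowers S z hz2 hzS hc⟩
  intro a ha b hb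
  obtain ⟨j, rfl⟩ := Subgroup.mem_zpowers_iff.mp hb
  have : Commute a z := hc a ha
  exact (this.zpow_right j).eq

variable (E : Subgroup X) [hEn : E.Normal]

abbrev R : Subgroup X → Subgroup X → Prop :=
  fun C D : Subgroup X => Cfsg.IsElementaryAbelian 2 C ∧ Nat.card ↥C = 8 ∧ Cfsg.IsElementaryAbelian 2 D ∧ Nat.card ↥D = 8 ∧ ⁅C, D⁆ = ⊥

theorem stepB (hE : IsElementaryAbelian 2 E) (hE32 : 32 ≤ Nat.card E) (A : Subgroup X)
    (hA : IsElementaryAbelian 2 A) (hA8 : Nat.card A = 8) (hAE : ¬ A ≤ E) :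
    ∃ B : Subgroup X, R A B ∧ Nat.card (A ⊓ E : Subgroup X) < Nat.card (B ⊓ E : Subgroup X) := by
  obtain ⟨A₁, h1, h2, h3⟩ := hyperplane A hA _ (A ⊓ E) inf_le_left
    (fun h => hAE (inf_eq_left.mp h)) le_rfl
  obtain ⟨z, hzE, hzc, hzA⟩ := exists_z E hE hE32 A hA (Or.inr ⟨hA8, hAE⟩)
  have hz2 := hE.2 z hzE
  have hzc1 : z ∈ Subgroup.centralizer (A₁ : Set X) := Subgroup.centralizer_le h2 hzc
  obtain ⟨hB, hBc⟩ := extend A₁ (elemAb_of_le h2 hA) z hz2 (fun h => hzA (h2 h)) hzc1
  refine ⟨A₁ ⊔ Subgroup.zpowers z, ⟨hA, hA8, hB, by omega, ?_⟩, ?_⟩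
  · rw [Subgroup.commutator_comm, Subgroup.commutator_eq_bot_iff_le_centralizer]
    apply sup_le
    · intro a ha
      rw [Subgroup.mem_centralizer_iff]
      intro b hb
      exact (isMulCommutative_iff A).mp hA.1 b hb a (h2 ha)
    · rw [Subgroup.zpowers_le]; exact hzc
  · apply Cfsg.Agent.Lib.Helper1.card_lt_of_lt
    refine lt_of_le_of_ne ?_ ?_
    · intro x hx
      exact ⟨(le_sup_left : A₁ ≤ _) (h1 hx), hx.2⟩
    · intro h
      have : z ∈ (A₁ ⊔ Subgroup.zpowers z) ⊓ E :=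
        ⟨(le_sup_right : Subgroup.zpowers z ≤ _) (Subgroup.mem_zpowers z), hzE⟩
      rw [← h] at this
      exact hzA this.1

theorem connect (hE : IsElementaryAbelian 2 E) (hE32 : 32 ≤ Nat.card E) :
    ∀ (n : ℕ) (A : Subgroup X), IsElementaryAbelian 2 A → Nat.card A = 8 →
    8 - Nat.card (A ⊓ E : Subgroup X) ≤ n →
    ∃ A' : Subgroup X, A' ≤ E ∧ IsElementaryAbelian 2 A' ∧ Nat.card A' = 8 ∧
      Relation.ReflTransGen R A A' := by
  intro n
  induction n with
  | zero =>
    intro A hA hA8 hn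
    have : A ⊓ E = A := Subgroup.eq_of_le_of_card_ge inf_le_left (by omega)
    exact ⟨A, inf_eq_left.mp this, hA, hA8, Relation.ReflTransGen.refl⟩
  | succ n ih =>
    intro A hA hA8 hn
    by_cases hAE : A ≤ E
    · exact ⟨A, hAE, hA, hA8, Relation.ReflTransGen.refl⟩
    obtain ⟨B, hR, hlt⟩ := stepB E hE hE32 A hA hA8 hAE
    obtain ⟨A', h1, h2, h3, h4⟩ := ih B hR.2.2.1 hR.2.2.2.1 (by omega)
    exact ⟨A', h1, h2, h3, Relation.ReflTransGen.head hR h4⟩

theorem final (hE : Cfsg.IsElementaryAbelian 2 E) (hE32 : 32 ≤ Nat.card ↥E) :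
    (∀ A B : Subgroup X, Cfsg.IsElementaryAbelian 2 A → Nat.card ↥A = 8 → Cfsg.IsElementaryAbelian 2 B → Nat.card ↥B = 8 →
        Relation.ReflTransGen
          (fun C D : Subgroup X => Cfsg.IsElementaryAbelian 2 C ∧ Nat.card ↥C = 8 ∧ Cfsg.IsElementaryAbelian 2 D ∧ Nat.card ↥D = 8 ∧ ⁅C, D⁆ = ⊥)
          A B) ∧
      (∀ V : Subgroup X, Cfsg.IsElementaryAbelian 2 V → Nat.card ↥V = 4 →
        ∃ A : Subgroup X, V ≤ A ∧ Cfsg.IsElementaryAbelian 2 A ∧ Nat.card ↥A = 8) := by
  constructor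
  · intro A B hA hA8 hB hB8
    obtain ⟨A', a1, a2, a3, a4⟩ := connect E hE hE32 _ A hA hA8 le_rfl
    obtain ⟨B', b1, b2, b3, b4⟩ := connect E hE hE32 _ B hB hB8 le_rfl
    haveI hsymm : Std.Symm (R (X := X)) := ⟨by
      rintro C D ⟨h1, h2, h3, h4, h5⟩
      exact ⟨h3, h4, h1, h2, by rw [Subgroup.commutator_comm]; exact h5⟩⟩
    have hAB : R A' B' := by
      refine ⟨a2, a3, b2, b3, ?_⟩
      rw [Subgroup.commutator_eq_bot_iff_le_centralizer]
      intro a ha
      rw [Subgroup.mem_centralizer_iff]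
      intro b hb
      exact (isMulCommutative_iff E).mp hE.1 b (b1 hb) a (a1 ha)
    exact (a4.tail hAB).trans ((Relation.ReflTransGen.stdSymm (r := R (X := X))).symm _ _ b4)
  · intro V hV hV4
    obtain ⟨z, hzE, hzc, hzV⟩ := exists_z E hE hE32 V hV (Or.inl hV4)
    obtain ⟨h1, h2⟩ := extend V hV z (hE.2 z hzE) hzV hzc
    exact ⟨_, le_sup_left, h1, by omega⟩



/-- Let X be a finite 2-group having a normal elementary abelian subgroup of order at least 32. Then (a) for any two elementary abelian subgroups A, B of X of order 8 there is a chain A = A₁, A₂, …, Aₙ = B of elementary abelian subgroups of order 8 in which consecutive members commute elementwise; and (b) every elementary abelian subgroup of X of order 4 is contained in an elementary abelian subgroup of order 8. -/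
theorem result {X : Type*} [Group X] [Finite X]
    (hX : IsPGroup 2 X) (E : Subgroup X) [E.Normal] (hE : Cfsg.IsElementaryAbelian 2 E) (hE32 : 32 ≤ Nat.card ↥E) :
    (∀ A B : Subgroup X, Cfsg.IsElementaryAbelian 2 A → Nat.card ↥A = 8 → Cfsg.IsElementaryAbelian 2 B → Nat.card ↥B = 8 →
        Relation.ReflTransGen
          (fun C D : Subgroup X => Cfsg.IsElementaryAbelian 2 C ∧ Nat.card ↥C = 8 ∧ Cfsg.IsElementaryAbelian 2 D ∧ Nat.card ↥D = 8 ∧ ⁅C, D⁆ = ⊥)
          A B) ∧
      (∀ V : Subgroup X, Cfsg.IsElementaryAbelian 2 V → Nat.card ↥V = 4 →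
        ∃ A : Subgroup X, V ≤ A ∧ Cfsg.IsElementaryAbelian 2 A ∧ Nat.card ↥A = 8) := by
  exact final E hE hE32

end Cfsg.Agent.S1785
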