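import Mathlib
import Cfsg.Statements.S0502
import Cfsg.Agent.S1785


set_option autoImplicit false
open Cfsg

namespace Cfsg.Agent.S0502


open Cfsg.Agent.Lib.Helper4 Cfsg.Agent.S1785

variable {X : Type*} [Group X] [Finite X]

theorem klein_iff (U : Subgroup X) : IsKleinFour U ↔ (IsElementaryAbelian 2 U ∧ Nat.card U = 4) := by
  constructor
  · intro h
    have hsq : ∀ a : U, a ^ 2 = 1 := by
      intro a
      rw [← h.exponent_two]
      exact Monoid.pow_exponent_eq_one a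
    refine ⟨⟨⟨⟨?_⟩⟩, ?_⟩, h.card_four⟩
    · intro a b
      exact mul_comm_of_exponent_two h.exponent_two a b
    · intro a ha
      exact congrArg Subtype.val (hsq ⟨a, ha⟩)
  · rintro ⟨h1, h2⟩
    refine ⟨h2, ?_⟩
    have hd : Monoid.exponent U ∣ 2 := by
      apply Monoid.exponent_dvd_of_forall_pow_eq_one
      intro a
      exact Subtype.ext (h1.2 a a.2)
    rcases (Nat.dvd_prime Nat.prime_two).mp hd with h | h
    · rw [Monoid.exp_eq_one_iff] at h
      have := Nat.card_eq_one_iff_unique.mpr ⟨h, ⟨1⟩⟩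
      omega
    · exact h

theorem num4' (d r : ℕ) (h : 4 = d * r) (hd : d ≠ 4) (h6 : 8 ≤ d ^ r) : False := by
  have hd4 : d ≤ 4 := Nat.le_of_dvd (by norm_num) ⟨r, h⟩
  have hr4 : r ≤ 4 := Nat.le_of_dvd (by norm_num) ⟨d, by rw [h, mul_comm]⟩
  interval_cases d <;> interval_cases r <;> first | omega | (norm_num at h6)

variable (E : Subgroup X) [hEn : E.Normal]

theorem exists_z4 (hE : IsElementaryAbelian 2 E) (hE8 : 8 ≤ Nat.card E) (A : Subgroup X)
    (hA : IsElementaryAbelian 2 A) (h : Nat.card A = 4) (hne : ¬ A ≤ E) :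
    ∃ z ∈ E, z ∈ Subgroup.centralizer (A : Set X) ∧ z ∉ A := by
  by_contra hcon
  push Not at hcon
  have h1 : E ⊓ Subgroup.centralizer (A : Set X) ≤ A ⊓ E := fun z hz => ⟨hcon z hz.1 hz.2, hz.1⟩
  have h2 := bound E hE A hA _ (A ⊓ E) inf_le_left le_rfl
  have h3 : E ⊓ Subgroup.centralizer ((A ⊓ E : Subgroup X) : Set X) = E := by
    apply inf_eq_left.mpr
    intro x hx
    rw [Subgroup.mem_centralizer_iff]
    intro y hy
    exact (isMulCommutative_iff E).mp hE.1 y hy.2 x hx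
  rw [h3] at h2
  have h4 := Subgroup.card_le_of_le h1
  have h5 := card_eq_mul_relIndex (inf_le_left : A ⊓ E ≤ A)
  set d := Nat.card (A ⊓ E : Subgroup X) with hd
  set r := (A ⊓ E).relIndex A with hr
  have h6 : 8 ≤ d ^ r := hE8.trans (h2.trans (Nat.pow_le_pow_left h4 r))
  rw [h] at h5
  have hd8 : d ≠ 4 := by
    intro h8
    apply hne
    have : A ⊓ E = A := Subgroup.eq_of_le_of_card_ge inf_le_left (by rw [← hd, h8, h])
    exact inf_eq_left.mp this
  exact num4' d r h5 hd8 h6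

abbrev R4 : Subgroup X → Subgroup X → Prop :=
  fun A B : Subgroup X => IsKleinFour A ∧ IsKleinFour B ∧ ∀ a ∈ A, ∀ b ∈ B, a * b = b * a

theorem stepB4 (hE : IsElementaryAbelian 2 E) (hE8 : 8 ≤ Nat.card E) (A : Subgroup X)
    (hA : IsElementaryAbelian 2 A) (hA4 : Nat.card A = 4) (hAE : ¬ A ≤ E) :
    ∃ B : Subgroup X, R4 A B ∧ Nat.card (A ⊓ E : Subgroup X) < Nat.card (B ⊓ E : Subgroup X) := by
  obtain ⟨A₁, h1, h2, h3⟩ := hyperplane A hA _ (A ⊓ E) inf_le_left
    (fun h => hAE (inf_eq_left.mp h)) le_rfl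
  obtain ⟨z, hzE, hzc, hzA⟩ := exists_z4 E hE hE8 A hA hA4 hAE
  have hz2 := hE.2 z hzE
  have hzc1 : z ∈ Subgroup.centralizer (A₁ : Set X) := Subgroup.centralizer_le h2 hzc
  obtain ⟨hB, hBc⟩ := extend A₁ (elemAb_of_le h2 hA) z hz2 (fun h => hzA (h2 h)) hzc1
  refine ⟨A₁ ⊔ Subgroup.zpowers z, ⟨(klein_iff A).mpr ⟨hA, hA4⟩, (klein_iff _).mpr ⟨hB, by omega⟩, ?_⟩, ?_⟩
  · have hle : A₁ ⊔ Subgroup.zpowers z ≤ Subgroup.centralizer (A : Set X) := by
      apply sup_le
      · intro a ha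
        rw [Subgroup.mem_centralizer_iff]
        intro b hb
        exact (isMulCommutative_iff A).mp hA.1 b hb a (h2 ha)
      · rw [Subgroup.zpowers_le]; exact hzc
    intro a ha b hb
    exact Subgroup.mem_centralizer_iff.mp (hle hb) a ha
  · apply Cfsg.Agent.Lib.Helper1.card_lt_of_lt
    refine lt_of_le_of_ne ?_ ?_
    · intro x hx
      exact ⟨(le_sup_left : A₁ ≤ _) (h1 hx), hx.2⟩
    · intro h
      have : z ∈ (A₁ ⊔ Subgroup.zpowers z) ⊓ E :=
        ⟨(le_sup_right : Subgroup.zpowers z ≤ _) (Subgroup.mem_zpowers z), hzE⟩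
      rw [← h] at this
      exact hzA this.1

theorem connect4 (hE : IsElementaryAbelian 2 E) (hE8 : 8 ≤ Nat.card E) :
    ∀ (n : ℕ) (A : Subgroup X), IsElementaryAbelian 2 A → Nat.card A = 4 →
    4 - Nat.card (A ⊓ E : Subgroup X) ≤ n →
    ∃ A' : Subgroup X, A' ≤ E ∧ IsElementaryAbelian 2 A' ∧ Nat.card A' = 4 ∧
      Relation.ReflTransGen R4 A A' := by
  intro n
  induction n with
  | zero =>
    intro A hA hA8 hn
    have : A ⊓ E = A := Subgroup.eq_of_le_of_card_ge inf_le_left (by omega)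
    exact ⟨A, inf_eq_left.mp this, hA, hA8, Relation.ReflTransGen.refl⟩
  | succ n ih =>
    intro A hA hA8 hn
    by_cases hAE : A ≤ E
    · exact ⟨A, hAE, hA, hA8, Relation.ReflTransGen.refl⟩
    obtain ⟨B, hR, hlt⟩ := stepB4 E hE hE8 A hA hA8 hAE
    obtain ⟨hB1, hB2⟩ := (klein_iff B).mp hR.2.1
    obtain ⟨A', h1, h2, h3, h4⟩ := ih B hB1 hB2 (by omega)
    exact ⟨A', h1, h2, h3, Relation.ReflTransGen.head hR h4⟩


/-- If a finite 2-group has a normal elementary abelian subgroup of order at least 8, then any two of its Klein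
four-subgroups are joined by a chain of Klein four-subgroups with consecutive members commuting elementwise. -/
theorem result {P : Type*} [Group P] [Finite P] (hP : IsPGroup 2 P)
    (E : Subgroup P) [E.Normal] (hE : IsMulCommutative E) (hE2 : ∀ e ∈ E, e ^ 2 = 1) (hE8 : 8 ≤ Nat.card E) :
    Cfsg.IsFourConnected P := by
  have hEe : IsElementaryAbelian 2 E := ⟨hE, hE2⟩
  intro A B hA hB
  obtain ⟨hA1, hA4⟩ := (klein_iff A).mp hA
  obtain ⟨hB1, hB4⟩ := (klein_iff B).mp hB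
  obtain ⟨A', a1, a2, a3, a4⟩ := connect4 E hEe hE8 _ A hA1 hA4 le_rfl
  obtain ⟨B', b1, b2, b3, b4⟩ := connect4 E hEe hE8 _ B hB1 hB4 le_rfl
  haveI hsymm : Std.Symm (R4 (X := P)) := ⟨by
    rintro C D ⟨h1, h2, h3⟩
    exact ⟨h2, h1, fun a ha b hb => (h3 b hb a ha).symm⟩⟩
  have hAB : R4 A' B' := by
    refine ⟨(klein_iff _).mpr ⟨a2, a3⟩, (klein_iff _).mpr ⟨b2, b3⟩, ?_⟩
    intro a ha b hb
    exact (isMulCommutative_iff E).mp hE a (a1 ha) b (b1 hb)
  exact (a4.tail hAB).trans ((Relation.ReflTransGen.stdSymm (r := R4 (X := P))).symm _ _ b4)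

end Cfsg.Agent.S0502
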