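import Mathlib
import Cfsg.Statements.S0646
import Cfsg.Agent.Lib.Helper8.CycMax

set_option autoImplicit false
open Cfsg
open Cfsg.Agent.Lib.Helper8

namespace Cfsg.Agent.S0646

/-- Classification of non-abelian 2-groups with a cyclic maximal subgroup: dihedral, generalized quaternion, and for order at least 16 the modular group and the semidihedral group, each given by generators a (of index 2) and b with the stated relations. -/
theorem result {G : Type*} [Group G] [Finite G] (n : ℕ) (hn : 3 ≤ n) (hG : Nat.card G = 2 ^ n) (C : Subgroup G) (hC : IsCyclic C) (hCi : C.index = 2) (hna : ∃ x y : G, x * y ≠ y * x) : ∃ a b : G, orderOf a = 2 ^ (n - 1) ∧ b ∉ Subgroup.zpowers a ∧ ((b ^ 2 = 1 ∧ b * a * b⁻¹ = a⁻¹) ∨ (b ^ 2 = a ^ (2 ^ (n - 2)) ∧ b * a * b⁻¹ = a⁻¹) ∨ (4 ≤ n ∧ b ^ 2 = 1 ∧ b * a * b⁻¹ = a ^ (1 + 2 ^ (n - 2))) ∨ (4 ≤ n ∧ b ^ 2 = 1 ∧ b * a * b⁻¹ = a ^ (2 ^ (n - 2) - 1))) := by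
  obtain ⟨l, rfl⟩ : ∃ l, n = l + 3 := ⟨n - 3, by omega⟩
  obtain ⟨⟨a, haC⟩, hgen⟩ := hC.exists_generator
  have hCeq : C = Subgroup.zpowers a := by
    apply le_antisymm
    · intro x hx
      obtain ⟨k, hk⟩ := Subgroup.mem_zpowers_iff.mp (hgen ⟨x, hx⟩)
      exact Subgroup.mem_zpowers_iff.mpr ⟨k, by simpa using congrArg Subtype.val hk⟩
    · exact Subgroup.zpowers_le.mpr haC
  subst hCeq
  have hoa : orderOf a = 2 ^ (l + 2) := by
    have h1 := (Subgroup.zpowers a).card_mul_index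
    rw [hCi, hG, Nat.card_zpowers] at h1
    have h2 : 2 ^ (l + 3) = 2 ^ (l + 2) * 2 := by ring
    rw [h2] at h1
    exact Nat.eq_of_mul_eq_mul_right (by norm_num) h1
  haveI hnorm : (Subgroup.zpowers a).Normal := Subgroup.normal_of_index_eq_two hCi
  obtain ⟨b, hb⟩ : ∃ b, b ∉ Subgroup.zpowers a := by
    by_contra hcon
    push Not at hcon
    have : Subgroup.zpowers a = ⊤ := (Subgroup.eq_top_iff' _).mpr hcon
    rw [this, Subgroup.index_top] at hCi
    omega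
  obtain ⟨r, hr⟩ := Subgroup.mem_zpowers_iff.mp (hnorm.conj_mem a (Subgroup.mem_zpowers a) b)
  obtain ⟨s, hs⟩ := Subgroup.mem_zpowers_iff.mp (Subgroup.mul_self_mem_of_index_two hCi b)
  have F1 : ∀ k : ℤ, b * a ^ k * b⁻¹ = a ^ (r * k) := by
    intro k
    rw [zpow_mul, hr, conj_zpow]
  have hdvd : ∀ e : ℤ, (2 : ℤ) ^ (l + 2) ∣ e ↔ a ^ e = 1 := by
    intro e
    rw [← orderOf_dvd_iff_zpow_eq_one, hoa]
    push_cast
    rfl
  have key : ∀ e f : ℤ, (2 : ℤ) ^ (l + 2) ∣ e - f → a ^ e = a ^ f := by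
    intro e f h
    rw [hdvd, zpow_sub, mul_inv_eq_one] at h
    exact h
  have h1 : (2 : ℤ) ^ (l + 2) ∣ r * r - 1 := by
    rw [hdvd, zpow_sub, mul_inv_eq_one, zpow_one, ← F1, hr]
    calc b * (b * a * b⁻¹) * b⁻¹ = (b * b) * a * (b * b)⁻¹ := by group
      _ = a := by rw [← hs]; group
  have h3 : (2 : ℤ) ^ (l + 2) ∣ s * r - s := by
    rw [hdvd, zpow_sub, mul_inv_eq_one, mul_comm, ← F1, hs]
    group
  have hdec : ∀ x : G, ∃ k : ℤ, x = a ^ k ∨ x = b * a ^ k := by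
    intro x
    by_cases hx : x ∈ Subgroup.zpowers a
    · obtain ⟨k, hk⟩ := Subgroup.mem_zpowers_iff.mp hx
      exact ⟨k, Or.inl hk.symm⟩
    · have h4 : b⁻¹ * x ∈ Subgroup.zpowers a := by
        rw [Subgroup.mul_mem_iff_of_index_two hCi, inv_mem_iff]
        exact ⟨fun h => absurd h hb, fun h => absurd h hx⟩
      obtain ⟨k, hk⟩ := Subgroup.mem_zpowers_iff.mp h4
      exact ⟨k, Or.inr (by rw [hk]; group)⟩
  have h2 : ¬ (2 : ℤ) ^ (l + 2) ∣ r - 1 := by
    intro h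
    have h4 := key _ _ h
    rw [hr, zpow_one] at h4
    have ca : Commute a b := by
      show a * b = b * a
      calc a * b = (b * a * b⁻¹) * b := by rw [h4]
        _ = b * a := by group
    have hcx : ∀ x : G, Commute x a ∧ Commute x b := by
      intro x
      obtain ⟨k, rfl | rfl⟩ := hdec x
      · exact ⟨(Commute.refl a).zpow_left k, ca.zpow_left k⟩
      · exact ⟨ca.symm.mul_left ((Commute.refl a).zpow_left k),
          (Commute.refl b).mul_left (ca.zpow_left k)⟩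
    obtain ⟨x, y, hxy⟩ := hna
    apply hxy
    obtain ⟨k, rfl | rfl⟩ := hdec y
    · exact ((hcx x).1.zpow_right k).eq
    · exact ((hcx x).2.mul_right ((hcx x).1.zpow_right k)).eq
  obtain ⟨j, hj⟩ := arith646 l r s h1 h2 h3
  have hb' : b * a ^ j ∉ Subgroup.zpowers a := by
    intro h
    apply hb
    have := Subgroup.mul_mem _ h (Subgroup.inv_mem _ (Subgroup.zpow_mem_zpowers a j))
    simpa using this
  have hconj : (b * a ^ j) * a * (b * a ^ j)⁻¹ = a ^ r := by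
    rw [hr]
    have : a ^ j * a * (a ^ j)⁻¹ = a := by
      rw [← zpow_add_one, ← zpow_neg, ← zpow_add]; simp
    calc (b * a ^ j) * a * (b * a ^ j)⁻¹ = b * (a ^ j * a * (a ^ j)⁻¹) * b⁻¹ := by group
      _ = b * a * b⁻¹ := by rw [this]
  have hsq : (b * a ^ j) ^ 2 = a ^ (r * j + s + j) := by
    rw [zpow_add, zpow_add, ← F1, hs, pow_two]
    group
  have e1 : ((2 ^ (l + 3 - 2) : ℕ) : ℤ) = 2 ^ (l + 1) := by
    push_cast
    rfl
  refine ⟨a, b * a ^ j, hoa, hb', ?_⟩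
  rw [hconj, hsq]
  rcases hj with ⟨hr1, hs1 | hs1⟩ | ⟨hl, hr1, hs1⟩ | ⟨hl, hr1, hs1⟩
  · left
    refine ⟨(hdvd _).mp hs1, ?_⟩
    rw [← zpow_neg_one]
    exact key _ _ (by simpa using hr1)
  · right; left
    refine ⟨?_, ?_⟩
    · rw [← zpow_natCast, e1]
      exact key _ _ hs1
    · rw [← zpow_neg_one]
      exact key _ _ (by simpa using hr1)
  · right; right; left
    refine ⟨by omega, (hdvd _).mp hs1, ?_⟩
    rw [← zpow_natCast]
    push_cast
    exact key _ _ hr1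
  · right; right; right
    refine ⟨by omega, (hdvd _).mp hs1, ?_⟩
    rw [← zpow_natCast, Nat.cast_sub Nat.one_le_two_pow]
    push_cast
    exact key _ _ hr1

end Cfsg.Agent.S0646
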