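import Cfsg.Statements.S0519
import Cfsg.Agent.S0646
import Cfsg.Agent.Lib.Helper4.NormalFour
import Cfsg.Agent.Lib.Helper17.NormalRankTwo
import Cfsg.Agent.Lib.Helper20.ConjClass
import Cfsg.Agent.Lib.Helper20.MaxAbelian
import Cfsg.Agent.Lib.Helper23.Recog

set_option autoImplicit false
open Cfsg

namespace Cfsg.Agent.S0519

open Subgroup

theorem exists_pow {G : Type*} [Group G] [Finite G] {a c : G} (h : c ∈ zpowers a) : ∃ k : ℕ, a ^ k = c := by
  rw [← mem_powers_iff_mem_zpowers] at h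
  exact Submonoid.mem_powers_iff _ _ |>.1 h

theorem exists_gen {G : Type*} [Group G] (A : Subgroup G) (hA : IsCyclic A) : ∃ a : G, A = zpowers a := by
  obtain ⟨g, hg⟩ := IsCyclic.exists_generator (α := A)
  refine ⟨g, le_antisymm ?_ (zpowers_le.2 g.2)⟩
  intro x hx
  obtain ⟨k, hk⟩ := hg ⟨x, hx⟩
  refine ⟨k, ?_⟩
  have := congrArg Subtype.val hk
  simpa using this

theorem involution_unique {G : Type*} [Group G] [Finite G] (a c d : G) (hc : c ∈ zpowers a) (hd : d ∈ zpowers a)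
    (hc2 : c ^ 2 = 1) (hd2 : d ^ 2 = 1) (hc1 : c ≠ 1) (hd1 : d ≠ 1) : c = d := by
  obtain ⟨k, rfl⟩ := exists_pow hc
  obtain ⟨l, rfl⟩ := exists_pow hd
  rw [← pow_mul] at hc2 hd2
  obtain ⟨t, ht⟩ := orderOf_dvd_of_pow_eq_one hc2
  obtain ⟨s, hs⟩ := orderOf_dvd_of_pow_eq_one hd2
  have hodd : ∀ (k t : ℕ), a ^ k ≠ 1 → k * 2 = orderOf a * t → Odd t := by
    intro k t hk ht
    by_contra hev
    rw [Nat.not_odd_iff_even] at hev
    obtain ⟨r, rfl⟩ := hev
    apply hk
    apply orderOf_dvd_iff_pow_eq_one.1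
    refine ⟨r, ?_⟩
    have : k * 2 = (orderOf a * r) * 2 := by rw [ht]; ring
    exact Nat.eq_of_mul_eq_mul_right (by norm_num) this
  obtain ⟨r, hr⟩ := (hodd k t hc1 ht).add_odd (hodd l s hd1 hs)
  have h1 : a ^ (k + l) = 1 := by
    apply orderOf_dvd_iff_pow_eq_one.1
    refine ⟨r, ?_⟩
    have : (k + l) * 2 = (orderOf a * r) * 2 := by
      rw [add_mul, ht, hs, ← mul_add, hr]; ring
    exact Nat.eq_of_mul_eq_mul_right (by norm_num) this
  rw [pow_add] at h1
  have h2 : a ^ l * a ^ l = 1 := by rw [← pow_add, ← two_mul, mul_comm]; exact hd2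
  exact mul_right_cancel (h1.trans h2.symm)

theorem mem_zpowers_of_pow_four {G : Type*} [Group G] [Finite G] (a : G) (m : ℕ) (hm : 2 ≤ m)
    (ha : orderOf a = 2 ^ m) (c : G) (hc : c ∈ zpowers a) (hc4 : c ^ 4 = 1) : c ∈ zpowers (a ^ 2 ^ (m - 2)) := by
  obtain ⟨k, rfl⟩ := exists_pow hc
  rw [← pow_mul] at hc4
  have h1 := orderOf_dvd_of_pow_eq_one hc4
  have h2 : (2 : ℕ) ^ m = 2 ^ (m - 2) * 4 := by
    have : (4 : ℕ) = 2 ^ 2 := by norm_num
    rw [this, ← pow_add]
    congr 1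
    omega
  rw [ha, h2] at h1
  obtain ⟨j, rfl⟩ := Nat.dvd_of_mul_dvd_mul_right (by norm_num) h1
  rw [pow_mul]
  exact pow_mem (mem_zpowers _) j

theorem orderOf_four {G : Type*} [Group G] (g : G) (j : ℕ) (hj : 2 ≤ j) (hg : orderOf g = 2 ^ j) :
    orderOf (g ^ 2 ^ (j - 2)) = 4 := by
  rw [orderOf_pow_of_dvd (by positivity) (by rw [hg]; exact pow_dvd_pow _ (Nat.sub_le _ _)), hg,
    Nat.pow_div (Nat.sub_le _ _) (by norm_num)]
  have : j - (j - 2) = 2 := by omega
  rw [this]

theorem closure_normal' {G : Type*} [Group G] {s : Set G} (hs : ∀ y ∈ s, ∀ g : G, g * y * g⁻¹ ∈ closure s) :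
    (closure s).Normal := by
  constructor
  intro n hn g
  refine closure_induction (p := fun n _ => g * n * g⁻¹ ∈ closure s) ?_ ?_ ?_ ?_ hn
  · intro y hy
    exact hs y hy g
  · simp
  · intro a b _ _ ha hb
    have : g * (a * b) * g⁻¹ = (g * a * g⁻¹) * (g * b * g⁻¹) := by group
    rw [this]; exact mul_mem ha hb
  · intro a _ ha
    have : g * a⁻¹ * g⁻¹ = (g * a * g⁻¹)⁻¹ := by group
    rw [this]; exact inv_mem ha

theorem sq_eq_one_of_eq_inv {G : Type*} [Group G] {c : G} (h : c = c⁻¹) : c ^ 2 = 1 := by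
  rw [pow_two]
  calc c * c = c * c⁻¹ := by rw [← h]
    _ = 1 := mul_inv_cancel c

theorem inv_eq_of_sq {G : Type*} [Group G] {c : G} (h : c ^ 2 = 1) : c⁻¹ = c := by
  rw [pow_two] at h
  exact inv_eq_of_mul_eq_one_left h

theorem index_two {P : Type*} [Group P] [Finite P] (hP : IsPGroup 2 P)
    (hn : ∀ A : Subgroup P, A.Normal → IsMulCommutative A → IsCyclic A) (hnc : ¬ IsCyclic P) :
    ∃ A : Subgroup P, IsCyclic A ∧ A.index = 2 := by
  classical
  have hnil : Group.IsNilpotent P := hP.isNilpotent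
  obtain ⟨A, hAn, hAc, -, hCA⟩ := Cfsg.Agent.Lib.Helper20.exists_normal_abelian_self_centralizing
    (⊥ : Subgroup P) inferInstance inferInstance
  have hAcyc := hn A hAn hAc
  obtain ⟨a, haA⟩ := exists_gen A hAcyc
  have hAne : A ≠ ⊤ := by
    intro h
    apply hnc
    rw [h] at hAcyc
    exact isCyclic_of_surjective (Subgroup.topEquiv : (⊤ : Subgroup P) ≃* P) Subgroup.topEquiv.surjective
  obtain ⟨m, hm⟩ : ∃ m, orderOf a = 2 ^ m := (IsPGroup.iff_orderOf.1 hP) a
  have haA' : a ∈ A := haA ▸ mem_zpowers a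
  have hcomm_mem : ∀ g : P, g * a = a * g → g ∈ A := by
    intro g hg
    rw [← hCA, haA, mem_centralizer_iff]
    intro h hh
    obtain ⟨k, rfl⟩ := hh
    exact ((Commute.zpow_right (show Commute g a from hg) k).eq).symm
  have hconjA : ∀ g c : P, c ∈ A → g * c * g⁻¹ ∈ A := fun g c hc => hAn.conj_mem c hc g
  have hAcomm : ∀ c ∈ A, ∀ d ∈ A, c * d = d * c := by
    intro c hc d hd
    rw [haA] at hc hd
    obtain ⟨i, rfl⟩ := hc
    obtain ⟨j, rfl⟩ := hd
    exact ((Commute.refl a).zpow_zpow i j).eq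
  have hm2 : 2 ≤ m := by
    by_contra hlt
    push Not at hlt
    apply hAne
    rw [eq_top_iff]
    intro g _
    apply hcomm_mem
    have ha2 : a ^ 2 = 1 := by
      apply orderOf_dvd_iff_pow_eq_one.1
      rw [hm]
      interval_cases m <;> norm_num
    by_cases ha1 : a = 1
    · rw [ha1]; simp
    · have h1 : g * a * g⁻¹ ∈ zpowers a := haA ▸ hconjA g a haA'
      have h2 := involution_unique a (g * a * g⁻¹) a h1 (mem_zpowers a) (by rw [conj_pow, ha2]; simp) ha2
        (by simpa using ha1) ha1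
      exact mul_inv_eq_iff_eq_mul.1 h2
  obtain ⟨u, hu⟩ : ∃ u, u = a ^ 2 ^ (m - 2) := ⟨_, rfl⟩
  obtain ⟨z, hz⟩ : ∃ z, z = u ^ 2 := ⟨_, rfl⟩
  have huo : orderOf u = 4 := hu ▸ orderOf_four a m hm2 hm
  have hu4 : u ^ 4 = 1 := by rw [← huo]; exact pow_orderOf_eq_one u
  have huA : u ∈ A := hu ▸ pow_mem haA' _
  have hzA : z ∈ A := hz ▸ pow_mem huA _
  have hz2 : z ^ 2 = 1 := by rw [hz, ← pow_mul]; exact hu4
  have hz1 : z ≠ 1 := by
    intro h
    rw [hz] at h
    have := orderOf_dvd_of_pow_eq_one h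
    rw [huo] at this
    omega
  have hzo : orderOf z = 2 := orderOf_eq_prime hz2 hz1
  have hA1 : ∀ c ∈ A, c ^ 2 = 1 → c = 1 ∨ c = z := by
    intro c hc hc2
    by_cases hc1 : c = 1
    · left; exact hc1
    · right
      exact involution_unique a c z (haA ▸ hc) (haA ▸ hzA) hc2 hz2 hc1 hz1
  have hA4 : ∀ c ∈ A, c ^ 4 = 1 → c ∈ zpowers u := by
    intro c hc hc4
    rw [hu]
    exact mem_zpowers_of_pow_four a m hm2 hm c (haA ▸ hc) hc4
  have hTcomm : ∀ x : P, x * u = u * x → ∀ c ∈ A, c ^ 4 = 1 → x * c = c * x := by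
    intro x hx c hc hc4
    obtain ⟨k, rfl⟩ := hA4 c hc hc4
    exact (Commute.zpow_right (show Commute x u from hx) k).eq
  have huconj : ∀ g : P, g * u * g⁻¹ = u ∨ g * u * g⁻¹ = u⁻¹ := by
    intro g
    have h1 : g * u * g⁻¹ ∈ zpowers u := hA4 _ (hconjA g u huA) (by rw [conj_pow, hu4]; simp)
    obtain ⟨j, hj⟩ := exists_pow h1
    have h2 : u ^ (j % 4) = g * u * g⁻¹ := by rw [← huo, pow_mod_orderOf, hj]
    have h3 : j % 4 < 4 := Nat.mod_lt _ (by norm_num)
    obtain ⟨r, hr⟩ : ∃ r, r = j % 4 := ⟨_, rfl⟩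
    rw [← hr] at h2 h3
    have hsq : (g * u * g⁻¹) ^ 2 ≠ 1 := by
      rw [conj_pow, ← hz]
      intro h
      apply hz1
      simpa using h
    interval_cases r
    · exfalso; apply hsq; rw [← h2]; simp
    · left; rw [← h2, pow_one]
    · exfalso; apply hsq; rw [← h2, ← pow_mul]; exact hu4
    · right
      rw [← h2]
      exact eq_inv_of_mul_eq_one_left (by rw [← pow_succ]; exact hu4)
  have hTidx : (centralizer ({u} : Set P)).index ≤ 2 := by
    rw [← Cfsg.Agent.Lib.Helper20.card_conjClass_eq_index u, Nat.card_coe_set_eq]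
    calc _ ≤ ({u, u⁻¹} : Set P).ncard := Set.ncard_le_ncard (fun y hy => by
            obtain ⟨g, rfl⟩ := isConj_iff.1 hy
            exact huconj g) (Set.toFinite _)
      _ ≤ 2 := (Set.ncard_insert_le _ _).trans (by rw [Set.ncard_singleton])
  have hzc : ∀ g : P, g * z = z * g := by
    intro g
    rcases hA1 (g * z * g⁻¹) (hconjA g z hzA) (by rw [conj_pow, hz2]; simp) with h1 | h1
    · exfalso; apply hz1; simpa using h1
    · exact mul_inv_eq_iff_eq_mul.1 h1
  have hpow : ∀ y : P, y * a * y⁻¹ = z * a → ∀ i : ℕ, y * a ^ i * y⁻¹ = z ^ i * a ^ i := by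
    intro y hy i
    rw [← conj_pow, hy, (show Commute z a from (hzc a).symm).mul_pow]
  have hTA : centralizer ({u} : Set P) ≤ A := by
    by_contra hcon
    obtain ⟨x0, hx0T, hx0A⟩ := SetLike.not_le_iff_exists.1 hcon
    rw [mem_centralizer_singleton_iff] at hx0T
    obtain ⟨x, hxT, hxA, hx2A⟩ : ∃ x, x * u = u * x ∧ x ∉ A ∧ x ^ 2 ∈ A := by
      obtain ⟨N, hN⟩ := hP x0
      have hex : ∃ j, x0 ^ 2 ^ j ∈ A := ⟨N, by rw [hN]; exact one_mem A⟩
      have hj0 : Nat.find hex ≠ 0 := by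
        intro h0
        have := Nat.find_spec hex
        rw [h0] at this
        simp at this
        exact hx0A this
      refine ⟨x0 ^ 2 ^ (Nat.find hex - 1), ?_, ?_, ?_⟩
      · exact (Commute.pow_left (show Commute x0 u from hx0T) _).eq
      · exact Nat.find_min hex (by omega)
      · rw [← pow_mul, ← pow_succ]
        have : Nat.find hex - 1 + 1 = Nat.find hex := by omega
        rw [this]
        exact Nat.find_spec hex
    obtain ⟨w, hw⟩ : ∃ w, w = x * a * x⁻¹ * a⁻¹ := ⟨_, rfl⟩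
    have hwA : w ∈ A := hw ▸ mul_mem (hconjA x a haA') (inv_mem haA')
    have hxa : x * a * x⁻¹ = w * a := by rw [hw]; group
    have hσσ : ∀ c ∈ A, x * (x * c * x⁻¹) * x⁻¹ = c := by
      intro c hc
      have : x * (x * c * x⁻¹) * x⁻¹ = x ^ 2 * c * (x ^ 2)⁻¹ := by
        rw [pow_two, mul_inv_rev]; simp only [mul_assoc]
      rw [this, hAcomm _ hx2A c hc, mul_inv_cancel_right]
    have hσw : x * w * x⁻¹ = w⁻¹ := by
      have h1 := hσσ a haA'
      rw [hxa] at h1
      have h2 : x * (w * a) * x⁻¹ = (x * w * x⁻¹) * (x * a * x⁻¹) := by group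
      rw [h2, hxa, ← mul_assoc] at h1
      exact eq_inv_of_mul_eq_one_left (mul_eq_right.1 h1)
    have hw1 : w ≠ 1 := by
      intro h
      apply hxA
      apply hcomm_mem
      rw [h, one_mul] at hxa
      exact mul_inv_eq_iff_eq_mul.1 hxa
    have hw2 : w ^ 2 = 1 := by
      by_contra hne
      obtain ⟨j, hj⟩ := (IsPGroup.iff_orderOf.1 hP) w
      have hj2 : 2 ≤ j := by
        by_contra hlt
        push Not at hlt
        apply hne
        apply orderOf_dvd_iff_pow_eq_one.1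
        rw [hj]
        interval_cases j <;> norm_num
      obtain ⟨c, hc⟩ : ∃ c, c = w ^ 2 ^ (j - 2) := ⟨_, rfl⟩
      have hco : orderOf c = 4 := hc ▸ orderOf_four w j hj2 hj
      have hcA : c ∈ A := hc ▸ pow_mem hwA _
      have hc4 : c ^ 4 = 1 := by rw [← hco]; exact pow_orderOf_eq_one c
      have h1 : x * c = c * x := hTcomm x hxT c hcA hc4
      have h2 : x * c * x⁻¹ = c⁻¹ := by rw [hc, ← conj_pow, hσw, inv_pow]
      have h3 : c = c⁻¹ := by rw [← h2, h1, mul_inv_cancel_right]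
      have h4 := orderOf_dvd_of_pow_eq_one (sq_eq_one_of_eq_inv h3)
      rw [hco] at h4
      omega
    have hwz : w = z := (hA1 w hwA hw2).resolve_left hw1
    rw [hwz] at hxa
    -- an involution outside `A`
    obtain ⟨y, hyA, hyu, hya, hy2⟩ : ∃ y, y ∉ A ∧ y * u = u * y ∧ y * a * y⁻¹ = z * a ∧
        (y ^ 2 = 1 ∨ y ^ 2 = z) := by
      obtain ⟨i, hi⟩ := exists_pow (haA ▸ hx2A : x ^ 2 ∈ zpowers a)
      have h1 : x * a ^ i * x⁻¹ = a ^ i := by rw [hi]; group
      rw [hpow x hxa i] at h1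
      have hzi : z ^ i = 1 := mul_eq_right.1 h1
      have hi2 : 2 ∣ i := by rw [← hzo]; exact orderOf_dvd_of_pow_eq_one hzi
      obtain ⟨l, rfl⟩ := hi2
      obtain ⟨d, hd⟩ : ∃ d, d = a ^ l := ⟨_, rfl⟩
      have hdA : d ∈ A := hd ▸ pow_mem haA' _
      obtain ⟨e, he⟩ : ∃ e, e = z ^ l := ⟨_, rfl⟩
      have hxd : x * d * x⁻¹ = e * d := by rw [hd, he]; exact hpow x hxa l
      have hx2 : x ^ 2 = d * d := by rw [← hi, hd, ← pow_add, two_mul]
      have hec : ∀ g : P, g * e = e * g := by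
        intro g
        rw [he]
        exact (Commute.pow_right (show Commute g z from hzc g) l).eq
      have heA : e ∈ A := he ▸ pow_mem hzA _
      have he2 : e ^ 2 = 1 := by rw [he, ← pow_mul, mul_comm, pow_mul, hz2, one_pow]
      refine ⟨x * d⁻¹, ?_, ?_, ?_, ?_⟩
      · intro h
        exact hxA ((mul_mem_cancel_right (inv_mem hdA)).1 h)
      · have h2 : d⁻¹ * u = u * d⁻¹ := hAcomm _ (inv_mem hdA) u huA
        rw [mul_assoc, h2, ← mul_assoc, hxT, mul_assoc]
      · have h2 : d⁻¹ * a * d = a := by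
          rw [hAcomm _ (inv_mem hdA) a haA', mul_assoc, inv_mul_cancel, mul_one]
        calc x * d⁻¹ * a * (x * d⁻¹)⁻¹ = x * (d⁻¹ * a * d) * x⁻¹ := by group
          _ = z * a := by rw [h2, hxa]
      · have h3 : (x * d⁻¹) ^ 2 = e⁻¹ := by
          calc (x * d⁻¹) ^ 2 = (x * d * x⁻¹)⁻¹ * x ^ 2 * d⁻¹ := by
                rw [pow_two, pow_two]; group
            _ = (e * d)⁻¹ * (d * d) * d⁻¹ := by rw [hxd, hx2]
            _ = d⁻¹ * e⁻¹ * d := by group
            _ = e⁻¹ := by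
                rw [mul_assoc, (show e⁻¹ * d = d * e⁻¹ from
                  ((show Commute d e from hec d).inv_right).eq.symm), ← mul_assoc, inv_mul_cancel, one_mul]
        rw [h3, inv_eq_of_sq he2]
        exact hA1 e heA he2
    obtain ⟨x', hx'A, hx'u, hx'a, hx'2⟩ : ∃ y, y ∉ A ∧ y * u = u * y ∧ y * a * y⁻¹ = z * a ∧ y ^ 2 = 1 := by
      rcases hy2 with hy2 | hy2
      · exact ⟨y, hyA, hyu, hya, hy2⟩
      · refine ⟨y * u, ?_, ?_, ?_, ?_⟩
        · intro h
          exact hyA ((mul_mem_cancel_right huA).1 h)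
        · rw [mul_assoc, ← mul_assoc u, ← hyu, mul_assoc]
        · have h2 : u * a * u⁻¹ = a := by rw [hAcomm u huA a haA', mul_inv_cancel_right]
          calc y * u * a * (y * u)⁻¹ = y * (u * a * u⁻¹) * y⁻¹ := by group
            _ = z * a := by rw [h2, hya]
        · rw [(show Commute y u from hyu).mul_pow, hy2, ← hz, ← pow_two, hz2]
    have hx'inv : x'⁻¹ = x' := inv_eq_of_sq hx'2
    have hconjx : ∀ g : P, g * x' * g⁻¹ = x' ∨ g * x' * g⁻¹ = z * x' := by
      intro g
      obtain ⟨c, hc⟩ : ∃ c, c = g * x' * g⁻¹ * x'⁻¹ := ⟨_, rfl⟩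
      have hcA : c ∈ A := by
        have := Cfsg.Agent.Lib.Helper4.commutator_centralizes_cyclic A g x'
        rw [hCA] at this
        exact hc ▸ this
      have hgx : g * x' * g⁻¹ = c * x' := by rw [hc]; group
      have h1 : (c * x') ^ 2 = 1 := by rw [← hgx, conj_pow, hx'2]; simp
      have h2 : x' * c * x'⁻¹ = c⁻¹ := by
        rw [hx'inv]
        have : c * (x' * c * x') = 1 := by rw [← h1, pow_two]; simp only [mul_assoc]
        exact eq_inv_of_mul_eq_one_right this
      obtain ⟨i, hi⟩ := exists_pow (haA ▸ hcA : c ∈ zpowers a)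
      have h3 : z ^ i * c = c⁻¹ := by rw [← h2, ← hi, hpow x' hx'a i]
      have h4 : c ^ 2 = (z ^ i)⁻¹ := by
        have : z ^ i * c ^ 2 = 1 := by rw [pow_two, ← mul_assoc, h3, inv_mul_cancel]
        exact eq_inv_of_mul_eq_one_right this
      have h5 : c ^ 4 = 1 := by
        have : c ^ 4 = (c ^ 2) ^ 2 := by rw [← pow_mul]
        rw [this, h4, inv_pow, ← pow_mul, mul_comm, pow_mul, hz2, one_pow, inv_one]
      have h6 : x' * c = c * x' := hTcomm x' hx'u c hcA h5
      have h7 : c = c⁻¹ := by rw [← h2, h6, mul_inv_cancel_right]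
      rcases hA1 c hcA (sq_eq_one_of_eq_inv h7) with h8 | h8
      · left; rw [hgx, h8, one_mul]
      · right; rw [hgx, h8]
    obtain ⟨V, hV⟩ : ∃ V, V = Subgroup.closure ({z, x'} : Set P) := ⟨_, rfl⟩
    have hzV : z ∈ V := hV ▸ subset_closure (by simp)
    have hx'V : x' ∈ V := hV ▸ subset_closure (by simp)
    have hVn : V.Normal := by
      rw [hV]
      apply closure_normal'
      rintro y (rfl | rfl) g
      · rw [hzc g, mul_inv_cancel_right, ← hV]; exact hzV
      · rw [← hV]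
        rcases hconjx g with h | h
        · rw [h]; exact hx'V
        · rw [h]; exact mul_mem hzV hx'V
    have hVc : IsMulCommutative V := by
      rw [hV]
      apply Subgroup.isMulCommutative_closure
      rintro y (rfl | rfl) y' (rfl | rfl)
      · rfl
      · exact (hzc _).symm
      · exact hzc _
      · rfl
    obtain ⟨v, hv⟩ := exists_gen V (hn V hVn hVc)
    have hx'1 : x' ≠ 1 := by
      rintro rfl
      exact hx'A (one_mem A)
    have := involution_unique v z x' (hv ▸ hzV) (hv ▸ hx'V) hz2 hx'2 hz1 hx'1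
    exact hx'A (this ▸ hzA)
  refine ⟨A, hAcyc, ?_⟩
  have h1 : A.index ≤ 2 := by
    have h2 : A.index ∣ (centralizer ({u} : Set P)).index := index_dvd_of_le hTA
    exact (Nat.le_of_dvd (Nat.pos_of_ne_zero index_ne_zero_of_finite) h2).trans hTidx
  have h2 : A.index ≠ 1 := fun h => hAne (index_eq_one.1 h)
  have h3 : A.index ≠ 0 := index_ne_zero_of_finite
  omega

theorem no_modular {P : Type*} [Group P] [Finite P]
    (hn : ∀ A : Subgroup P, A.Normal → IsMulCommutative A → IsCyclic A) (n : ℕ) (hn3 : 3 ≤ n)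
    (hcard : Nat.card P = 2 ^ n) (hna : ∃ x y : P, x * y ≠ y * x) (a b : P) (ha : orderOf a = 2 ^ (n - 1))
    (hb : b ∉ zpowers a) (hb2 : b ^ 2 = 1) (hcomm : b * a ^ 2 = a ^ 2 * b) : False := by
  obtain ⟨W, hW⟩ : ∃ W, W = Subgroup.closure ({a ^ 2, b} : Set P) := ⟨_, rfl⟩
  have haW : a ^ 2 ∈ W := hW ▸ subset_closure (by simp)
  have hbW : b ∈ W := hW ▸ subset_closure (by simp)
  have hWc : IsMulCommutative W := by
    rw [hW]
    apply Subgroup.isMulCommutative_closure
    rintro y (rfl | rfl) y' (rfl | rfl)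
    · rfl
    · exact hcomm.symm
    · exact hcomm
    · rfl
  have hWne : W ≠ ⊤ := by
    intro h
    obtain ⟨x, y, hxy⟩ := hna
    apply hxy
    have := hWc.is_comm.comm ⟨x, h ▸ mem_top x⟩ ⟨y, h ▸ mem_top y⟩
    exact congrArg Subtype.val this
  obtain ⟨j, hj, hWj⟩ := (Nat.dvd_prime_pow Nat.prime_two).1 (hcard ▸ W.card_subgroup_dvd_card)
  have hjn : j ≠ n := by
    rintro rfl
    apply hWne
    exact eq_top_of_card_eq W (by rw [hWj, hcard])
  have hle : zpowers (a ^ 2) ≤ W := zpowers_le.2 haW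
  have hne : zpowers (a ^ 2) ≠ W := by
    intro h
    apply hb
    have : b ∈ zpowers (a ^ 2) := h ▸ hbW
    exact (zpowers_le.2 (pow_mem (mem_zpowers a) 2)) this
  have ho2 : orderOf (a ^ 2) = 2 ^ (n - 2) := by
    rw [orderOf_pow_of_dvd (by norm_num) (by rw [ha]; exact dvd_pow_self 2 (by omega)), ha]
    have : (2 : ℕ) ^ (n - 1) = 2 ^ (n - 2) * 2 := by rw [← pow_succ]; congr 1; omega
    rw [this, Nat.mul_div_cancel _ (by norm_num)]
  have hcardlt : n - 2 < j := by
    by_contra hcon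
    push Not at hcon
    apply hne
    refine eq_of_le_of_card_ge hle ?_
    rw [Nat.card_zpowers, ho2, hWj]
    exact Nat.pow_le_pow_right (by norm_num) hcon
  have hj' : j = n - 1 := by omega
  have hidx : W.index = 2 := by
    have h1 := W.card_mul_index
    rw [hWj, hcard, hj'] at h1
    have h2 : (2 : ℕ) ^ n = 2 ^ (n - 1) * 2 := by rw [← pow_succ]; congr 1; omega
    rw [h2] at h1
    exact Nat.eq_of_mul_eq_mul_left (by positivity) h1
  have hWn : W.Normal := normal_of_index_eq_two hidx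
  obtain ⟨v, hv⟩ := exists_gen W (hn W hWn hWc)
  have he : a ^ 2 ^ (n - 2) ∈ W := by
    have : 2 ^ (n - 2) = 2 * 2 ^ (n - 3) := by rw [← pow_succ']; congr 1; omega
    rw [this, pow_mul]
    exact pow_mem haW _
  have he2 : (a ^ 2 ^ (n - 2)) ^ 2 = 1 := by
    rw [← pow_mul, ← pow_succ]
    have : n - 2 + 1 = n - 1 := by omega
    rw [this, ← ha]
    exact pow_orderOf_eq_one a
  have he1 : a ^ 2 ^ (n - 2) ≠ 1 := by
    intro h
    have h1 := orderOf_dvd_of_pow_eq_one h
    rw [ha] at h1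
    have := (Nat.pow_dvd_pow_iff_le_right (by norm_num)).1 h1
    omega
  have hb1 : b ≠ 1 := by
    rintro rfl
    exact hb (one_mem _)
  have := involution_unique v b (a ^ 2 ^ (n - 2)) (hv ▸ hbW) (hv ▸ he) hb2 he2 hb1 he1
  exact hb (this ▸ pow_mem (mem_zpowers a) _)

/-- Let P be a finite p-group in which every abelian normal subgroup is cyclic, but which has a non-cyclic abelian
subgroup. Then p = 2 and P is generalized quaternion, dihedral of order at least 16, or quasi-dihedral. -/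
theorem result {P : Type*} [Group P] [Finite P] (p : ℕ) [Fact p.Prime]
    (hP : IsPGroup p P) (hn : ∀ A : Subgroup P, A.Normal → IsMulCommutative A → IsCyclic A)
    (hm : ∃ B : Subgroup P, IsMulCommutative B ∧ ¬ IsCyclic B) :
    p = 2 ∧ ((∃ n : ℕ, Nonempty (P ≃* QuaternionGroup n)) ∨ (∃ n : ℕ, 8 ≤ n ∧ Nonempty (P ≃* DihedralGroup n)) ∨
      Cfsg.IsQuasiDihedral P) := by
  have hp : p.Prime := Fact.out
  obtain ⟨B, hBc, hBnc⟩ := hm
  have hnc : ¬ IsCyclic P := fun h => hBnc inferInstance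
  have hnctop : ¬ IsCyclic (⊤ : Subgroup P) := fun h => hnc
    (isCyclic_of_surjective (Subgroup.topEquiv : (⊤ : Subgroup P) ≃* P) Subgroup.topEquiv.surjective)
  by_cases hp2 : p = 2
  · subst hp2
    refine ⟨rfl, ?_⟩
    obtain ⟨A, hAcyc, hAidx⟩ := index_two hP hn hnc
    obtain ⟨n, hcard⟩ := hP.exists_card_eq
    have hna : ∃ x y : P, x * y ≠ y * x := by
      by_contra hcon
      push Not at hcon
      apply hnctop
      have h1 : IsMulCommutative (⊤ : Subgroup P) := ⟨⟨fun x y => Subtype.ext (hcon x y)⟩⟩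
      exact hn ⊤ inferInstance h1
    have hn3 : 3 ≤ n := by
      by_contra hlt
      push Not at hlt
      interval_cases n
      · apply hnc
        have : Subsingleton P := (Nat.card_eq_one_iff_unique.1 (by simpa using hcard)).1
        exact isCyclic_of_subsingleton
      · apply hnc
        exact isCyclic_of_prime_card (p := 2) (by simpa using hcard)
      · obtain ⟨x, y, hxy⟩ := hna
        exact hxy ((IsPGroup.isMulCommutative_of_card_eq_prime_sq hcard).is_comm.comm x y)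
    obtain ⟨a, b, ha, hb, hcases⟩ := Cfsg.Agent.S0646.result n hn3 hcard A hAcyc hAidx hna
    have hpow1 : (2 : ℕ) ^ n = 2 * 2 ^ (n - 1) := by rw [← pow_succ']; congr 1; omega
    have hpow2 : (2 : ℕ) ^ (n - 1) = 2 * 2 ^ (n - 2) := by rw [← pow_succ']; congr 1; omega
    rcases hcases with ⟨hb2, hba⟩ | ⟨hb2, hba⟩ | ⟨h4, hb2, hba⟩ | ⟨h4, hb2, hba⟩
    · by_cases hn3' : n = 3
      · exfalso
        subst hn3'
        refine no_modular hn 3 le_rfl hcard hna a b ha hb hb2 ?_
        have h1 : b * a ^ 2 * b⁻¹ = a ^ 2 := by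
          rw [← conj_pow, hba, inv_pow]
          have h4 : a ^ 4 = 1 := by
            have := pow_orderOf_eq_one a
            rw [ha] at this
            exact this
          refine inv_eq_of_mul_eq_one_left ?_
          rw [← pow_add]
          exact h4
        exact mul_inv_eq_iff_eq_mul.1 h1
      · right; left
        refine ⟨2 ^ (n - 1), ?_, ?_⟩
        · calc 8 = 2 ^ 3 := by norm_num
            _ ≤ 2 ^ (n - 1) := Nat.pow_le_pow_right (by norm_num) (by omega)
        · exact Cfsg.Agent.Lib.Helper23.nonempty_mulEquiv_dihedralGroup (2 ^ (n - 1)) a b ha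
            (by rw [← pow_two]; exact hb2) hba hb (by rw [hcard, hpow1])
    · left
      refine ⟨2 ^ (n - 2), ?_⟩
      exact Cfsg.Agent.Lib.Helper23.nonempty_mulEquiv_quaternionGroup (2 ^ (n - 2)) a b (by rw [ha, hpow2])
        (by rw [← pow_two]; exact hb2) hba hb (by rw [hcard, hpow1, hpow2]; ring)
    · exfalso
      refine no_modular hn n hn3 hcard hna a b ha hb hb2 ?_
      have h1 : b * a ^ 2 * b⁻¹ = a ^ 2 := by
        rw [← conj_pow, hba, ← pow_mul]
        have : (1 + 2 ^ (n - 2)) * 2 = 2 + 2 ^ (n - 1) := by rw [hpow2]; ring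
        rw [this, pow_add, ← ha, pow_orderOf_eq_one, mul_one]
      exact mul_inv_eq_iff_eq_mul.1 h1
    · right; right
      refine ⟨n - 1, by omega, ?_, a, b, ha, ?_, ?_⟩
      · rw [hcard]; congr 1; omega
      · refine orderOf_eq_prime hb2 ?_
        rintro rfl
        exact hb (one_mem _)
      · have : n - 1 - 1 = n - 2 := by omega
        rw [this]
        exact hba
  · exfalso
    obtain ⟨A', -, hA'n, hA'e, hA'card⟩ :=
      Cfsg.Agent.Lib.Helper17.exists_normal_rank_two hp2 hP ⊤ inferInstance hnctop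
    obtain ⟨v, hv⟩ := exists_gen A' (hn A' hA'n hA'e.1)
    have h1 : v ^ p = 1 := hA'e.2 v (hv ▸ mem_zpowers v)
    have h2 := orderOf_dvd_of_pow_eq_one h1
    rw [hv, Nat.card_zpowers] at hA'card
    rw [hA'card] at h2
    have h3 := Nat.le_of_dvd hp.pos h2
    have h4 := hp.one_lt
    nlinarith

end Cfsg.Agent.S0519
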