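import Cfsg.Statements.S0520
import Cfsg.Agent.Lib.Helper8.FourSub

set_option autoImplicit false
open Cfsg
open scoped Pointwise

namespace Cfsg.Agent.S0520

open Cfsg.Agent.Lib.Helper8

/-- the edge relation of the commuting graph of four-subgroups. -/
def E (X : Type*) [Group X] (A B : Subgroup X) : Prop :=
  IsKleinFour A ∧ IsKleinFour B ∧ ∀ a ∈ A, ∀ b ∈ B, a * b = b * a

/-- connectedness by a walk. -/
abbrev Conn (X : Type*) [Group X] (A B : Subgroup X) : Prop := Relation.ReflTransGen (E X) A B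

theorem kf_equiv {X Y : Type*} [Group X] [Group Y] (e : X ≃* Y) (h : IsKleinFour X) :
    IsKleinFour Y :=
  ⟨by rw [← Nat.card_congr e.toEquiv]; exact h.card_four,
   by rw [← Monoid.exponent_eq_of_mulEquiv e]; exact h.exponent_two⟩

theorem kf_map {X Y : Type*} [Group X] [Group Y] (f : X →* Y) (hf : Function.Injective f)
    (A : Subgroup X) (h : IsKleinFour A) : IsKleinFour (A.map f) :=
  kf_equiv (A.equivMapOfInjective f hf) h

theorem E_map {X Y : Type*} [Group X] [Group Y] (f : X →* Y) (hf : Function.Injective f)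
    {A B : Subgroup X} (h : E X A B) : E Y (A.map f) (B.map f) := by
  refine ⟨kf_map f hf A h.1, kf_map f hf B h.2.1, ?_⟩
  rintro _ ⟨a, ha, rfl⟩ _ ⟨b, hb, rfl⟩
  rw [← map_mul, ← map_mul, h.2.2 a ha b hb]

theorem Conn_map {X Y : Type*} [Group X] [Group Y] (f : X →* Y) (hf : Function.Injective f)
    {A B : Subgroup X} (h : Conn X A B) : Conn Y (A.map f) (B.map f) :=
  Relation.ReflTransGen.lift (r := E X) (p := E Y) (fun A : Subgroup X => A.map f)
    (fun _ _ h => E_map f hf h) _ _ h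

theorem Conn_symm {X : Type*} [Group X] {A B : Subgroup X} (h : Conn X A B) : Conn X B A := by
  induction h with
  | refl => exact Relation.ReflTransGen.refl
  | tail _ hbc ih =>
    exact Relation.ReflTransGen.head
      ⟨hbc.2.1, hbc.1, fun a ha b hb => (hbc.2.2 b hb a ha).symm⟩ ih

variable {G : Type*} [Group G]

theorem kf_smul (g : G) {A : Subgroup G} (h : IsKleinFour A) :
    IsKleinFour (MulAut.conj g • A : Subgroup G) :=
  kf_equiv (Subgroup.equivSMul (MulAut.conj g) A) h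

theorem E_smul (g : G) {A B : Subgroup G} (h : E G A B) :
    E G (MulAut.conj g • A) (MulAut.conj g • B) :=
  E_map (MulDistribMulAction.toMonoidEnd (MulAut G) G (MulAut.conj g))
    (MulAction.injective (MulAut.conj g)) h

theorem Conn_smul (g : G) {A B : Subgroup G} (h : Conn G A B) :
    Conn G (MulAut.conj g • A) (MulAut.conj g • B) :=
  Relation.ReflTransGen.lift (r := E G) (p := E G) (fun A : Subgroup G => MulAut.conj g • A)
    (fun _ _ h => E_smul g h) _ _ h

theorem mem_cj {g x : G} {Q : Subgroup G} : x ∈ MulAut.conj g • Q ↔ g⁻¹ * x * g ∈ Q := by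
  rw [Subgroup.mem_pointwise_smul_iff_inv_smul_mem, ← map_inv, MulAut.smul_def,
    MulAut.conj_apply, inv_inv]

/-- `Q` contains a four-group. -/
def HasFour (Q : Subgroup G) : Prop := ∃ U : Subgroup G, U ≤ Q ∧ IsKleinFour U

theorem HasFour.mono {Q R : Subgroup G} (h : HasFour Q) (hQR : Q ≤ R) : HasFour R := by
  obtain ⟨U, hU, hK⟩ := h
  exact ⟨U, hU.trans hQR, hK⟩

theorem HasFour.smul {Q : Subgroup G} (h : HasFour Q) (g : G) : HasFour (MulAut.conj g • Q) := by
  obtain ⟨U, hU, hK⟩ := h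
  exact ⟨MulAut.conj g • U, Subgroup.pointwise_smul_le_pointwise_smul_iff.2 hU, kf_smul g hK⟩

theorem exists_four_of_rank {X : Type*} [Group X] (h : ¬ PRankLE 2 1 X) :
    ∃ U : Subgroup X, IsKleinFour U := by
  unfold PRankLE at h
  push Not at h
  obtain ⟨A, hAc, hA2, hcard⟩ := h
  have hAbot : A ≠ ⊥ := by
    rintro rfl
    rw [Subgroup.card_bot] at hcard
    omega
  have h1 : ∃ a ∈ A, a ≠ 1 := by
    by_contra hcon
    push Not at hcon
    exact hAbot ((Subgroup.eq_bot_iff_forall A).2 hcon)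
  obtain ⟨a, haA, ha1⟩ := h1
  have h2 : ∃ b ∈ A, b ≠ 1 ∧ b ≠ a := by
    by_contra hcon
    push Not at hcon
    have hsub : (A : Set X) ⊆ {1, a} := by
      intro b hb
      by_cases hb1 : b = 1
      · left; exact hb1
      · right; exact hcon b hb hb1
    have hc : Nat.card A = (A : Set X).ncard := rfl
    have hle := Set.ncard_le_ncard hsub (Set.toFinite _)
    rw [Set.ncard_pair (Ne.symm ha1)] at hle
    omega
  obtain ⟨b, hbA, hb1, hba⟩ := h2
  have haa : a * a = 1 := by rw [← pow_two]; exact hA2 a haA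
  have hbb : b * b = 1 := by rw [← pow_two]; exact hA2 b hbA
  have hab : a * b = b * a := congrArg Subtype.val (hAc.is_comm.comm ⟨a, haA⟩ ⟨b, hbA⟩)
  exact ⟨fourSub a b haa hbb hab, isKleinFour_fourSub haa hbb hab ha1 hb1 (Ne.symm hba)⟩

theorem rank_of_four {X : Type*} [Group X] (U : Subgroup X) (hU : IsKleinFour U) :
    ¬ PRankLE 2 1 X := by
  intro h
  have h1 := h U (IsKleinFour.isMulCommutative (G := U))
    (fun a ha => by rw [pow_two]; exact kleinFour_sq hU a ha)
  rw [hU.card_four] at h1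
  omega

theorem hasFour_of_rank (Q : Subgroup G) (h : ¬ PRankLE 2 1 Q) : HasFour Q := by
  obtain ⟨U, hU⟩ := exists_four_of_rank h
  exact ⟨U.map Q.subtype, Subgroup.map_subtype_le U, kf_map Q.subtype Q.subtype_injective U hU⟩

theorem rank_of_hasFour (Q : Subgroup G) (h : HasFour Q) : ¬ PRankLE 2 1 Q := by
  obtain ⟨U, hUQ, hU⟩ := h
  exact rank_of_four (U.subgroupOf Q) (kf_equiv (Subgroup.subgroupOfEquivOfLe hUQ).symm hU)

theorem conn_of_le (S : Subgroup G) (hS : IsFourConnected S) {U V : Subgroup G}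
    (hU : IsKleinFour U) (hV : IsKleinFour V) (hUS : U ≤ S) (hVS : V ≤ S) : Conn G U V := by
  have h : Conn S (U.subgroupOf S) (V.subgroupOf S) :=
    hS (U.subgroupOf S) (V.subgroupOf S)
      (kf_equiv (Subgroup.subgroupOfEquivOfLe hUS).symm hU)
      (kf_equiv (Subgroup.subgroupOfEquivOfLe hVS).symm hV)
  have h2 := Conn_map S.subtype S.subtype_injective h
  rwa [Subgroup.map_subgroupOf_eq_of_le hUS, Subgroup.map_subgroupOf_eq_of_le hVS] at h2

theorem kf_pgroup {U : Subgroup G} (hU : IsKleinFour U) : IsPGroup 2 U :=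
  IsPGroup.of_card (n := 2) (by rw [hU.card_four]; norm_num)

theorem sylK [Finite G] (K : Subgroup G) (S : Sylow 2 G) (hSK : (S : Subgroup G) ≤ K)
    (R : Subgroup G) (hR : IsPGroup 2 R) (hRK : R ≤ K) :
    ∃ k ∈ K, MulAut.conj k • R ≤ (S : Subgroup G) := by
  have : Fact (Nat.Prime 2) := ⟨Nat.prime_two⟩
  have hR' : IsPGroup 2 (R.subgroupOf K) := hR.comap_subtype
  obtain ⟨P, hP⟩ := hR'.exists_le_sylow
  obtain ⟨k, hk⟩ := MulAction.exists_smul_eq K P (S.subtype hSK)
  refine ⟨k, k.2, ?_⟩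
  intro x hx
  rw [mem_cj] at hx
  have h1 : (⟨(k : G)⁻¹ * x * k, hRK hx⟩ : K) ∈ (P : Subgroup K) :=
    hP (by rw [Subgroup.mem_subgroupOf]; exact hx)
  have h2 : MulAut.conj k • (⟨(k : G)⁻¹ * x * k, hRK hx⟩ : K) ∈ ((k • P : Sylow 2 K) : Subgroup K) := by
    rw [Sylow.smul_def, Sylow.pointwise_smul_def]
    exact Subgroup.smul_mem_pointwise_smul _ _ _ h1
  rw [hk, Sylow.coe_subtype, Subgroup.mem_subgroupOf, MulAut.smul_def, MulAut.conj_apply] at h2
  have h3 : (k : G) * ((k : G)⁻¹ * x * k) * (k : G)⁻¹ = x := by group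
  have h4 : ((k * (⟨(k : G)⁻¹ * x * k, hRK hx⟩ : K) * k⁻¹ : K) : G) = x := h3
  rw [h4] at h2
  exact h2

theorem lt_inf_normalizer [Finite G] {S T : Subgroup G} (hS : IsPGroup 2 S) (hTS : T < S) :
    T < S ⊓ Subgroup.normalizer (T : Set G) := by
  have : Fact (Nat.Prime 2) := ⟨Nat.prime_two⟩
  have : Group.IsNilpotent S := hS.isNilpotent
  have hnc : NormalizerCondition S := Group.normalizerCondition_of_isNilpotent
  have h1 : T.subgroupOf S < ⊤ := by
    rw [lt_top_iff_ne_top]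
    intro h
    rw [Subgroup.subgroupOf_eq_top] at h
    exact absurd hTS (not_lt_of_ge h)
  have h2 := hnc _ h1
  rw [← Subgroup.subgroupOf_normalizer_eq hTS.le] at h2
  refine lt_of_le_of_ne (le_inf hTS.le Subgroup.le_normalizer) ?_
  intro h
  apply ne_of_lt h2
  ext x
  simp only [Subgroup.mem_subgroupOf]
  constructor
  · intro hx; exact Subgroup.le_normalizer hx
  · intro hx
    rw [h]; exact ⟨x.2, hx⟩

theorem norm_le_conj {S K : Subgroup G}
    (hKN : ∀ Q : Subgroup G, Q ≤ S → HasFour Q → Subgroup.normalizer (Q : Set G) ≤ K)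
    {k : G} (hk : k ∈ K) {Q : Subgroup G} (hQ : Q ≤ MulAut.conj k • S) (hF : HasFour Q) :
    Subgroup.normalizer (Q : Set G) ≤ K := by
  have h1 : MulAut.conj k⁻¹ • Q ≤ S := by
    rw [map_inv, ← Subgroup.subset_pointwise_smul_iff]
    exact hQ
  have h2 : HasFour (MulAut.conj k⁻¹ • Q) := hF.smul _
  intro n hn
  have h3 : k⁻¹ * n * k ∈ Subgroup.normalizer ((MulAut.conj k⁻¹ • Q : Subgroup G) : Set G) := by
    rw [Subgroup.mem_normalizer_iff] at hn ⊢
    intro x
    rw [mem_cj, mem_cj, inv_inv, hn (k * x * k⁻¹)]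
    have : n * (k * x * k⁻¹) * n⁻¹ = k * (k⁻¹ * n * k * x * (k⁻¹ * n * k)⁻¹) * k⁻¹ := by group
    rw [this]
  have h4 := hKN _ h1 h2 h3
  have : n = k * (k⁻¹ * n * k) * k⁻¹ := by group
  rw [this]
  exact K.mul_mem (K.mul_mem hk h4) (K.inv_mem hk)

theorem claimA [Finite G] (S : Sylow 2 G) (K : Subgroup G) (hSK : (S : Subgroup G) ≤ K)
    (hKN : ∀ Q : Subgroup G, Q ≤ (S : Subgroup G) → HasFour Q →
      Subgroup.normalizer (Q : Set G) ≤ K)
    {U W : Subgroup G} (hU : U ≤ (S : Subgroup G)) (h : Conn G U W) :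
    ∃ k ∈ K, MulAut.conj k • W ≤ (S : Subgroup G) := by
  induction h with
  | refl => exact ⟨1, K.one_mem, by simpa using hU⟩
  | @tail W' W _ hbc ih =>
    obtain ⟨k, hk, hkW⟩ := ih
    have hE := E_smul k hbc
    have hX : HasFour (MulAut.conj k • W') := ⟨_, le_rfl, hE.1⟩
    have hN := hKN _ hkW hX
    have h1 : MulAut.conj k • W ≤ K := by
      intro x hx
      apply hN
      apply Subgroup.centralizer_le_normalizer
      rw [Subgroup.mem_centralizer_iff]
      intro y hy
      exact hE.2.2 y hy x hx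
    obtain ⟨k2, hk2, h2⟩ := sylK K S hSK _ (kf_pgroup hE.2.1) h1
    exact ⟨k2 * k, K.mul_mem hk2 hk, by rw [map_mul, mul_smul]; exact h2⟩

theorem card_cj (k : G) (S : Subgroup G) :
    Nat.card (MulAut.conj k • S : Subgroup G) = Nat.card S :=
  (Nat.card_congr (Subgroup.equivSMul (MulAut.conj k) S).toEquiv).symm

theorem claimC [Finite G] (S : Sylow 2 G) (K : Subgroup G) (hSK : (S : Subgroup G) ≤ K)
    (hKN : ∀ Q : Subgroup G, Q ≤ (S : Subgroup G) → HasFour Q →
      Subgroup.normalizer (Q : Set G) ≤ K) :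
    ∀ (n : ℕ) (T : Subgroup G) (k : G), k ∈ K → Nat.card T = Nat.card (S : Subgroup G) →
      IsPGroup 2 T → HasFour ((MulAut.conj k • (S : Subgroup G)) ⊓ T) →
      Nat.card (S : Subgroup G) -
        Nat.card ((MulAut.conj k • (S : Subgroup G)) ⊓ T : Subgroup G) = n →
      ∃ k' ∈ K, T = MulAut.conj k' • (S : Subgroup G) := by
  intro n
  induction n using Nat.strong_induction_on with
  | _ n ih =>
    intro T k hk hcard hT hF hn
    obtain ⟨D, hD⟩ : ∃ D, D = (MulAut.conj k • (S : Subgroup G)) ⊓ T := ⟨_, rfl⟩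
    rw [← hD] at hF hn
    have hDT : D ≤ T := hD ▸ inf_le_right
    have hDS : D ≤ MulAut.conj k • (S : Subgroup G) := hD ▸ inf_le_left
    by_cases hEq : D = T
    · refine ⟨k, hk, ?_⟩
      have hle : T ≤ MulAut.conj k • (S : Subgroup G) := hEq ▸ hDS
      apply Subgroup.eq_of_le_of_card_ge hle
      rw [card_cj, hcard]
    · have hlt : D < T := lt_of_le_of_ne hDT hEq
      have hlt2 := lt_inf_normalizer hT hlt
      have hN := norm_le_conj hKN hk hDS hF
      obtain ⟨k2, hk2, h2⟩ := sylK K S hSK (T ⊓ Subgroup.normalizer (D : Set G))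
        (hT.to_le inf_le_left) (inf_le_right.trans hN)
      have h3 : T ⊓ Subgroup.normalizer (D : Set G) ≤ MulAut.conj k2⁻¹ • (S : Subgroup G) := by
        rw [map_inv, ← Subgroup.pointwise_smul_subset_iff]
        exact h2
      have h4 : T ⊓ Subgroup.normalizer (D : Set G) ≤
          (MulAut.conj k2⁻¹ • (S : Subgroup G)) ⊓ T := le_inf h3 inf_le_left
      have hlt3 : D < (MulAut.conj k2⁻¹ • (S : Subgroup G)) ⊓ T := lt_of_lt_of_le hlt2 h4
      have hc1 : Nat.card D < Nat.card ((MulAut.conj k2⁻¹ • (S : Subgroup G)) ⊓ T : Subgroup G) :=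
        Nat.lt_of_le_of_ne (Subgroup.card_le_of_le hlt3.le)
          (fun h => hlt3.ne (Subgroup.eq_of_le_of_card_ge hlt3.le h.ge))
      have hc2 : Nat.card ((MulAut.conj k2⁻¹ • (S : Subgroup G)) ⊓ T : Subgroup G) ≤ Nat.card T :=
        Subgroup.card_le_of_le inf_le_right
      exact ih _ (by omega) T k2⁻¹ (K.inv_mem hk2) hcard hT (hF.mono hlt3.le) rfl

/-- the stabiliser of the connected component of `U0`. -/
def Hsub (U0 : Subgroup G) : Subgroup G where
  carrier := {g | Conn G (MulAut.conj g • U0) U0}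
  one_mem' := by
    show Conn G (MulAut.conj 1 • U0) U0
    rw [map_one, one_smul]
  mul_mem' := by
    intro a b ha hb
    show Conn G (MulAut.conj (a * b) • U0) U0
    rw [map_mul, mul_smul]
    exact (Conn_smul a hb).trans ha
  inv_mem' := by
    intro a ha
    show Conn G (MulAut.conj a⁻¹ • U0) U0
    have h := Conn_smul a⁻¹ ha
    rw [map_inv, inv_smul_smul] at h
    rw [map_inv]
    exact Conn_symm h

/-- Let G be a finite group of 2-rank at least 2 and S a Sylow 2-subgroup whose commuting graph of Klein four-subgroups is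
connected. Then the commuting graph of Klein four-subgroups of G is disconnected if and only if the 2-generated core — the
subgroup generated by the normalizers N_G(Q) of the subgroups Q of S that contain a Klein four-group — is a proper
subgroup of G. -/
theorem result {G : Type*} [Group G] [Finite G] (h2 : ¬ Cfsg.PRankLE 2 1 G)
    (S : Sylow 2 G) (hS : Cfsg.IsFourConnected (S : Subgroup G)) :
    ¬ Cfsg.IsFourConnected G ↔
      (⨆ Q : {Q : Subgroup G // Q ≤ (S : Subgroup G) ∧ ¬ Cfsg.PRankLE 2 1 Q},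
          Subgroup.normalizer ((Q : Subgroup G) : Set G)) ≠ ⊤ := by
  classical
  have : Fact (Nat.Prime 2) := ⟨Nat.prime_two⟩
  obtain ⟨K, hKdef⟩ : ∃ K, K = (⨆ Q : {Q : Subgroup G // Q ≤ (S : Subgroup G) ∧ ¬ Cfsg.PRankLE 2 1 Q},
          Subgroup.normalizer ((Q : Subgroup G) : Set G)) := ⟨_, rfl⟩
  rw [← hKdef]
  have hKN : ∀ Q : Subgroup G, Q ≤ (S : Subgroup G) → HasFour Q →
      Subgroup.normalizer (Q : Set G) ≤ K := by
    intro Q hQS hF
    rw [hKdef]
    exact le_iSup (fun Q : {Q : Subgroup G // Q ≤ (S : Subgroup G) ∧ ¬ Cfsg.PRankLE 2 1 Q} =>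
      Subgroup.normalizer ((Q : Subgroup G) : Set G)) ⟨Q, hQS, rank_of_hasFour Q hF⟩
  obtain ⟨W, hW⟩ := exists_four_of_rank h2
  obtain ⟨g0, -, hg0⟩ := sylK ⊤ S le_top W (kf_pgroup hW) le_top
  obtain ⟨U0, hU0⟩ : ∃ U0, U0 = MulAut.conj g0 • W := ⟨_, rfl⟩
  have hU0S : U0 ≤ (S : Subgroup G) := hU0 ▸ hg0
  have hU0K : IsKleinFour U0 := hU0 ▸ kf_smul g0 hW
  have hSF : HasFour (S : Subgroup G) := ⟨U0, hU0S, hU0K⟩
  have hSK : (S : Subgroup G) ≤ K := Subgroup.le_normalizer.trans (hKN S le_rfl hSF)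
  show ¬ Cfsg.IsFourConnected G ↔ ¬ (K = ⊤)
  rw [not_iff_not]
  constructor
  · intro hconn
    rw [eq_top_iff]
    intro g _
    have h1 : Conn G U0 (MulAut.conj g • U0) := hconn U0 _ hU0K (kf_smul g hU0K)
    obtain ⟨k, hk, hk1⟩ := claimA S K hSK hKN hU0S h1
    have h2' : MulAut.conj g • U0 ≤ MulAut.conj k⁻¹ • (S : Subgroup G) := by
      rw [map_inv, ← Subgroup.pointwise_smul_subset_iff]
      exact hk1
    have h3 : MulAut.conj g • U0 ≤ MulAut.conj g • (S : Subgroup G) :=
      Subgroup.pointwise_smul_le_pointwise_smul_iff.2 hU0S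
    have hF : HasFour ((MulAut.conj k⁻¹ • (S : Subgroup G)) ⊓ (MulAut.conj g • (S : Subgroup G))) :=
      ⟨_, le_inf h2' h3, kf_smul g hU0K⟩
    have hpg : IsPGroup 2 (MulAut.conj g • (S : Subgroup G) : Subgroup G) :=
      S.2.of_equiv (Subgroup.equivSMul (MulAut.conj g) (S : Subgroup G))
    obtain ⟨k', hk', he⟩ := claimC S K hSK hKN _ (MulAut.conj g • (S : Subgroup G)) k⁻¹
      (K.inv_mem hk) (card_cj g _) hpg hF rfl
    have h4 : k'⁻¹ * g ∈ Subgroup.normalizer ((S : Subgroup G) : Set G) := by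
      rw [Subgroup.mem_normalizer_iff]
      intro x
      have e1 : g * x * g⁻¹ ∈ MulAut.conj g • (S : Subgroup G) ↔ x ∈ (S : Subgroup G) := by
        rw [mem_cj]
        have : g⁻¹ * (g * x * g⁻¹) * g = x := by group
        rw [this]
      have e2 : g * x * g⁻¹ ∈ MulAut.conj k' • (S : Subgroup G) ↔
          k'⁻¹ * g * x * (k'⁻¹ * g)⁻¹ ∈ (S : Subgroup G) := by
        rw [mem_cj]
        have : k'⁻¹ * (g * x * g⁻¹) * k' = k'⁻¹ * g * x * (k'⁻¹ * g)⁻¹ := by group
        rw [this]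
      rw [← e1, he, e2]
    have h5 := hKN S le_rfl hSF h4
    have : g = k' * (k'⁻¹ * g) := by group
    rw [this]
    exact K.mul_mem hk' h5
  · intro hKtop
    have hKH : K ≤ Hsub U0 := by
      rw [hKdef]
      apply iSup_le
      rintro ⟨Q, hQS, hQr⟩ n hn
      obtain ⟨U, hUQ, hU⟩ := hasFour_of_rank Q hQr
      have hnU : MulAut.conj n • U ≤ Q := by
        intro x hx
        rw [mem_cj] at hx
        have h6 := ((Subgroup.mem_normalizer_iff.1 hn) (n⁻¹ * x * n)).1 (hUQ hx)
        have : n * (n⁻¹ * x * n) * n⁻¹ = x := by group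
        rwa [this] at h6
      have c1 : Conn G (MulAut.conj n • U) U0 :=
        conn_of_le S hS (kf_smul n hU) hU0K (hnU.trans hQS) hU0S
      have c2 : Conn G U U0 := conn_of_le S hS hU hU0K (hUQ.trans hQS) hU0S
      have c3 : Conn G (MulAut.conj n • U0) (MulAut.conj n • U) := Conn_smul n (Conn_symm c2)
      exact c3.trans c1
    have hall : ∀ V : Subgroup G, IsKleinFour V → Conn G V U0 := by
      intro V hV
      obtain ⟨g, -, hg⟩ := sylK ⊤ S le_top V (kf_pgroup hV) le_top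
      have c1 : Conn G (MulAut.conj g • V) U0 := conn_of_le S hS (kf_smul g hV) hU0K hg hU0S
      have c2 := Conn_smul g⁻¹ c1
      rw [map_inv, inv_smul_smul, ← map_inv] at c2
      have c3 : Conn G (MulAut.conj g⁻¹ • U0) U0 := hKH (hKtop ▸ Subgroup.mem_top g⁻¹)
      exact c2.trans c3
    intro U V hU hV
    exact (hall U hU).trans (Conn_symm (hall V hV))

end Cfsg.Agent.S0520
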