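import Cfsg.Statements.S0626
import Cfsg.Agent.Lib.Helper9.PStable2

set_option autoImplicit false
open Cfsg

namespace Cfsg.Agent.S0626
open Cfsg.Agent.Lib.Helper9

theorem stableOn {G : Type*} [Group G] [Finite G] {p : ℕ} [Fact p.Prime] (hp : p ≠ 2)
    (hab : ∀ T : Sylow 2 G, IsMulCommutative T) (V : Subgroup G) [V.Normal] (hV : IsPGroup p V) :
    Cfsg.IsPStableOn p V := by
  intro a ha
  exact mk_mem_pCore_of_ab hab p hp V hV _ le_rfl a (quadOn_of_commutator ha (Subgroup.mem_zpowers a))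

theorem stableOnSection {G : Type*} [Group G] [Finite G] {p : ℕ} [Fact p.Prime] (hp : p ≠ 2)
    (hab : ∀ T : Sylow 2 G, IsMulCommutative T) (K N : Subgroup G) [K.Normal] [N.Normal] (hK : IsPGroup p K) :
    Cfsg.IsPStableOnSection p K N := by
  intro a ha
  have := Fact.mk Nat.prime_two
  set π := QuotientGroup.mk' N with hπ
  have hπs : Function.Surjective π := QuotientGroup.mk'_surjective N
  have habq : ∀ T : Sylow 2 (G ⧸ N), IsMulCommutative T := sylow_comm_of_surjective π hπs hab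
  have hKn : (K.map π).Normal := Subgroup.Normal.map inferInstance π hπs
  have hquad : ⁅⁅K.map π, Subgroup.zpowers (π a)⁆, Subgroup.zpowers (π a)⁆ = ⊥ := by
    rw [← MonoidHom.map_zpowers, ← Subgroup.map_commutator, ← Subgroup.map_commutator, eq_bot_iff]
    refine (Subgroup.map_mono ha).trans ?_
    rw [Subgroup.map_le_iff_le_comap]
    intro n hn
    rw [Subgroup.mem_comap, Subgroup.mem_bot]
    exact (QuotientGroup.eq_one_iff n).mpr hn
  have key := mk_mem_pCore_of_ab habq p hp (K.map π) (hK.map π)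
    (Subgroup.centralizer ((K.map π : Subgroup (G ⧸ N)) : Set (G ⧸ N))) le_rfl (π a)
    (quadOn_of_commutator hquad (Subgroup.mem_zpowers _))
  set C := Subgroup.centralizer ((K.map π : Subgroup (G ⧸ N)) : Set (G ⧸ N)) with hC
  have hOn : (Cfsg.pCore p ((G ⧸ N) ⧸ C)).Normal := Cfsg.Agent.Lib.Helper1.pCore_normal p
  have hOp : IsPGroup p (Cfsg.pCore p ((G ⧸ N) ⧸ C)) := Cfsg.Agent.Lib.Helper1.pCore_isPGroup p
  have hCle : C ≤ (Cfsg.pCore p ((G ⧸ N) ⧸ C)).comap (QuotientGroup.mk' C) := by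
    intro c hc
    rw [Subgroup.mem_comap]
    have h1 : QuotientGroup.mk' C c = 1 := (QuotientGroup.eq_one_iff c).mpr hc
    rw [h1]
    exact Subgroup.one_mem _
  refine ⟨((Cfsg.pCore p ((G ⧸ N) ⧸ C)).comap (QuotientGroup.mk' C)).comap π, (hOn.comap _).comap _,
    Subgroup.comap_mono hCle, ?_, key⟩
  obtain ⟨k, hk⟩ := hOp.exists_card_eq
  refine ⟨k, ?_⟩
  show (C.comap π).relIndex _ = _
  rw [Subgroup.relIndex_comap, Subgroup.map_comap_eq_self_of_surjective hπs]
  have hCker : (⊥ : Subgroup ((G ⧸ N) ⧸ C)).comap (QuotientGroup.mk' C) = C := by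
    rw [MonoidHom.comap_bot, QuotientGroup.ker_mk']
  have h5 := Subgroup.relIndex_comap (⊥ : Subgroup ((G ⧸ N) ⧸ C)) (QuotientGroup.mk' C)
    ((Cfsg.pCore p ((G ⧸ N) ⧸ C)).comap (QuotientGroup.mk' C))
  rw [hCker, Subgroup.map_comap_eq_self_of_surjective (QuotientGroup.mk'_surjective C),
    Subgroup.relIndex_bot_left, hk] at h5
  exact h5

/-- For odd p, groups whose Sylow 2-subgroups are abelian are p-stable in the action sense. -/
theorem result {G : Type*} [Group G] [Finite G] {p : ℕ} [Fact p.Prime] (hp : p ≠ 2) (hab : ∀ T : Sylow 2 G, IsMulCommutative T) : Cfsg.IsActionPStable p G := by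
  have := Fact.mk Nat.prime_two
  refine ⟨?_, ?_, ?_⟩
  · intro V _ hV
    exact stableOn hp hab V (fun v => ⟨1, Subtype.ext (by simpa using hV.2 v.1 v.2)⟩)
  · exact stableOnSection hp hab _ _ (Cfsg.Agent.Lib.Helper1.pCore_isPGroup p)
  · intro S V _ hV
    apply stableOn hp (sylow_comm_of_injective (Subgroup.subtype _) (Subgroup.subtype_injective _) hab)
    have h1 : IsPGroup p (V.map (Subgroup.normalizer (thompsonSubgroupOf p (S : Subgroup G) : Set G)).subtype) := by
      apply S.2.to_le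
      refine hV.trans ?_
      rintro _ ⟨x, _, rfl⟩
      exact x.2
    intro v
    obtain ⟨k, hk⟩ := h1 ⟨v.1.1, ⟨v.1, v.2, rfl⟩⟩
    refine ⟨k, Subtype.ext (Subtype.ext ?_)⟩
    simpa using congrArg Subtype.val hk

end Cfsg.Agent.S0626
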