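import Cfsg.Statements.S0521
import Cfsg.Agent.S0626
import Cfsg.Agent.S0029
import Cfsg.Agent.Lib.Helper22.Frat
import Cfsg.Agent.Lib.Helper1.Cores
import Cfsg.Agent.Lib.Helper1.Coprime
import Cfsg.Agent.Lib.Helper8.Cores
import Cfsg.Agent.Lib.Helper4.Basic
import Cfsg.Agent.Lib.Helper16.Cores

set_option autoImplicit false
open Cfsg

namespace Cfsg.Agent.S0521
open scoped commutatorElement

/-- a `p`-element normalizing a cyclic `p`-group `⟨t⟩` moves `t` by a `p`-th power -/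
theorem cyc {G : Type*} [Group G] {p : ℕ} [hp : Fact p.Prime] (t y : G) (hy : ∃ m : ℕ, y ^ (p ^ m) = 1)
    (ht : ∃ n : ℕ, t ^ (p ^ n) = 1) (hn : y * t * y⁻¹ ∈ Subgroup.zpowers t) :
    ∃ z ∈ Subgroup.zpowers t, y * t * y⁻¹ * t⁻¹ = z ^ p := by
  obtain ⟨k, hk⟩ := Subgroup.mem_zpowers_iff.mp hn
  obtain ⟨m, hm⟩ := hy
  obtain ⟨n, hn'⟩ := ht
  by_cases ht1 : t = 1
  · exact ⟨1, Subgroup.one_mem _, by rw [ht1]; simp⟩
  have hpow : ∀ j : ℕ, y ^ j * t * (y ^ j)⁻¹ = t ^ (k ^ j) := by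
    intro j
    induction j with
    | zero => simp
    | succ j ih =>
      have h1 : y ^ (j + 1) * t * (y ^ (j + 1))⁻¹ = y * (y ^ j * t * (y ^ j)⁻¹) * y⁻¹ := by
        rw [pow_succ']; group
      rw [h1, ih]
      have h2 : y * t ^ (k ^ j) * y⁻¹ = (y * t * y⁻¹) ^ (k ^ j) := by
        have := map_zpow (MulAut.conj y).toMonoidHom t (k ^ j)
        simpa using this
      rw [h2, ← hk, ← zpow_mul, pow_succ']
  have h1 := hpow (p ^ m)
  rw [hm] at h1
  simp only [one_mul, inv_one, mul_one] at h1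
  have h2 : t ^ (k ^ (p ^ m) - 1) = 1 := by
    rw [zpow_sub, ← h1, zpow_one, mul_inv_cancel]
  have h3 : (orderOf t : ℤ) ∣ k ^ (p ^ m) - 1 := orderOf_dvd_iff_zpow_eq_one.mpr h2
  have h4 : p ∣ orderOf t := by
    have h5 : orderOf t ∣ p ^ n := orderOf_dvd_of_pow_eq_one hn'
    obtain ⟨j, -, hj⟩ := (Nat.dvd_prime_pow hp.out).mp h5
    rw [hj]
    apply dvd_pow_self
    rintro rfl
    rw [pow_zero, orderOf_eq_one_iff] at hj
    exact ht1 hj
  have h5 : (p : ℤ) ∣ k ^ (p ^ m) - 1 := (Int.natCast_dvd_natCast.mpr h4).trans h3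
  have h6 : (p : ℤ) ∣ k - 1 := by
    rw [← ZMod.intCast_zmod_eq_zero_iff_dvd] at h5 ⊢
    push_cast at h5 ⊢
    rwa [ZMod.pow_card_pow] at h5
  obtain ⟨l, hl⟩ := h6
  refine ⟨t ^ l, Subgroup.zpow_mem_zpowers _ _, ?_⟩
  rw [← hk, ← zpow_natCast, ← zpow_mul, mul_comm l, ← hl, zpow_sub, zpow_one]


theorem core {G : Type*} [Group G] [Finite G] [Group.IsSolvable G] (hodd : Odd (Nat.card G)) (p : ℕ)
    [hp : Fact p.Prime] (hO : Cfsg.pPrimeCore p G = ⊥) (S : Sylow p G) (t₀ : G)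
    (hS : ⁅(S : Subgroup G), (S : Subgroup G)⁆ = Subgroup.zpowers t₀) :
    (S : Subgroup G) ≤ Cfsg.pCore p G := by
  by_cases hp2 : p = 2
  · intro x hx
    obtain ⟨k, hk⟩ := S.2 ⟨x, hx⟩
    have h1 : orderOf x ∣ p ^ k := orderOf_dvd_of_pow_eq_one (congrArg Subtype.val hk)
    have h2 : orderOf x ∣ Nat.card G := orderOf_dvd_natCard x
    have h3 : (p ^ k).Coprime (Nat.card G) := by
      rw [hp2]; exact (Nat.coprime_two_left.mpr hodd).pow_left k
    have h4 := Nat.eq_one_of_dvd_coprimes h3 h1 h2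
    rw [orderOf_eq_one_iff] at h4
    rw [h4]; exact Subgroup.one_mem _
  have hab : ∀ T : Sylow 2 G, IsMulCommutative T := by
    intro T
    have : Fact (Nat.Prime 2) := ⟨Nat.prime_two⟩
    obtain ⟨k, hk⟩ := IsPGroup.iff_card.mp T.2
    have h1 : Nat.card T ∣ Nat.card G := Subgroup.card_subgroup_dvd_card _
    have h2 : Nat.card T = 1 := by
      apply Nat.eq_one_of_dvd_coprimes ((Nat.coprime_two_left.mpr hodd).pow_left k) (hk ▸ dvd_rfl) h1
    have h3 : Subsingleton T := (Nat.card_eq_one_iff_unique.mp h2).1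
    exact ⟨⟨fun a b => Subsingleton.elim _ _⟩⟩
  have hPn : (Cfsg.pCore p G).Normal := Cfsg.Agent.Lib.Helper1.pCore_normal p
  have hPp : IsPGroup p (Cfsg.pCore p G) := Cfsg.Agent.Lib.Helper1.pCore_isPGroup p
  have hcen := Cfsg.Agent.Lib.Helper1.centralizer_pCore_le p hO
  obtain ⟨P, hP⟩ : ∃ P, P = Cfsg.pCore p G := ⟨_, rfl⟩
  rw [← hP] at hPn hPp hcen ⊢
  have hPS : P ≤ (S : Subgroup G) := by
    obtain ⟨S', hS'⟩ := hPp.exists_le_sylow
    obtain ⟨g, hg⟩ := MulAction.exists_smul_eq G S' S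
    intro x hx
    have h1 : g⁻¹ * x * g⁻¹⁻¹ ∈ P := hPn.conj_mem x hx g⁻¹
    have h2 := hS' h1
    rw [← hg, Sylow.smul_def, Sylow.pointwise_smul_def, Subgroup.mem_pointwise_smul_iff_inv_smul_mem]
    simpa [MulAut.smul_def] using h2
  have hΦn : ((frattini P).map P.subtype).Normal := ConjAct.normal_of_characteristic_of_normal
  obtain ⟨Φ, hΦ⟩ : ∃ Φ, Φ = (frattini P).map P.subtype := ⟨_, rfl⟩
  rw [← hΦ] at hΦn
  have hpowΦ : ∀ z ∈ P, z ^ p ∈ Φ := by
    intro z hz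
    rw [hΦ]
    exact ⟨⟨z, hz⟩ ^ p, Cfsg.Agent.Lib.Helper22.pow_mem_frattini hPp _, rfl⟩
  -- the section kernel is a p-group
  have hCmem : ∀ c ∈ Cfsg.sectionKernel P Φ, ∀ k ∈ P, c * k * c⁻¹ * k⁻¹ ∈ Φ := by
    intro c hc k hk
    have h1 : QuotientGroup.mk' Φ c ∈ Subgroup.centralizer ((P.map (QuotientGroup.mk' Φ) : Subgroup (G ⧸ Φ)) : Set (G ⧸ Φ)) := hc
    have h2 := Subgroup.mem_centralizer_iff.mp h1 (QuotientGroup.mk' Φ k) ⟨k, hk, rfl⟩
    rw [← QuotientGroup.eq_one_iff]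
    have h3 : ((c * k * c⁻¹ * k⁻¹ : G) : G ⧸ Φ) = QuotientGroup.mk' Φ c * QuotientGroup.mk' Φ k *
      (QuotientGroup.mk' Φ c)⁻¹ * (QuotientGroup.mk' Φ k)⁻¹ := rfl
    rw [h3, ← h2]; group
  have hC1 : ∀ c ∈ Cfsg.sectionKernel P Φ, (orderOf c).Coprime p → c = 1 := by
    intro c hc hco
    have h1 : Subgroup.zpowers c ≤ Subgroup.centralizer (P : Set G) := by
      apply Cfsg.Agent.S0029.result
      · rw [Subgroup.normalizer_eq_top_iff.mpr hPn]; exact le_top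
      · rw [Nat.card_zpowers]
        obtain ⟨k, hk⟩ := (hPp.to_subgroup (frattini P)).exists_card_eq
        rw [hk]; exact hco.pow_right k
      · intro a ha k hk
        rw [← hΦ]
        exact hCmem a ((Subgroup.zpowers_le.mpr hc) ha) k hk
    have h2 : c ∈ P := hcen (h1 (Subgroup.mem_zpowers c))
    obtain ⟨k, hk⟩ := hPp ⟨c, h2⟩
    have h3 : orderOf c ∣ p ^ k := orderOf_dvd_of_pow_eq_one (congrArg Subtype.val hk)
    have h4 := Nat.eq_one_of_dvd_coprimes (hco.pow_right k) dvd_rfl h3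
    exact orderOf_eq_one_iff.mp h4
  have hCp : IsPGroup p (Cfsg.sectionKernel P Φ) := by
    rintro ⟨c, hc⟩
    obtain ⟨e, m, hm, hem⟩ := Nat.exists_eq_pow_mul_and_not_dvd (orderOf_pos c).ne' p hp.out.ne_one
    refine ⟨e, Subtype.ext ?_⟩
    apply hC1 _ (Subgroup.pow_mem _ hc _)
    rw [orderOf_pow_of_dvd (pow_ne_zero _ hp.out.ne_zero) (hem ▸ Dvd.intro _ rfl), hem,
      Nat.mul_div_cancel_left _ (pow_pos hp.out.pos _)]
    exact ((Nat.Prime.coprime_iff_not_dvd hp.out).mpr hm).symm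
  intro a ha
  have hquad : ⁅⁅P, Subgroup.zpowers a⁆, Subgroup.zpowers a⁆ ≤ Φ := by
    have haS : Subgroup.zpowers a ≤ (S : Subgroup G) := Subgroup.zpowers_le.mpr ha
    have h1 : ⁅P, Subgroup.zpowers a⁆ ≤ Subgroup.zpowers t₀ := hS ▸ Subgroup.commutator_mono hPS haS
    have h2 : ⁅P, Subgroup.zpowers a⁆ ≤ P := Subgroup.commutator_le_left P _
    rw [Subgroup.commutator_le]
    intro x hx y hy
    obtain ⟨i, hi⟩ := Subgroup.mem_zpowers_iff.mp (h1 hx)
    have hyS := haS hy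
    have h3 : y * t₀ * y⁻¹ ∈ Subgroup.zpowers t₀ := by
      rw [← hS]
      have h4 : t₀ ∈ ⁅(S : Subgroup G), (S : Subgroup G)⁆ := hS ▸ Subgroup.mem_zpowers t₀
      have h5 : (S : Subgroup G) ≤ Subgroup.normalizer ((⁅(S : Subgroup G), (S : Subgroup G)⁆ : Subgroup G) : Set G) :=
        Cfsg.Agent.Lib.Helper1.le_normalizer_commutator_left _ _
      exact Cfsg.Agent.Lib.Helper1.conj_mem_of_mem_normalizer (h5 hyS) h4
    obtain ⟨k, hk⟩ := Subgroup.mem_zpowers_iff.mp h3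
    have h4 : y * x * y⁻¹ ∈ Subgroup.zpowers x := by
      refine Subgroup.mem_zpowers_iff.mpr ⟨k, ?_⟩
      have h5 : y * t₀ ^ i * y⁻¹ = (y * t₀ * y⁻¹) ^ i := by
        have := map_zpow (MulAut.conj y).toMonoidHom t₀ i
        simpa using this
      rw [← hi, h5, ← hk, ← zpow_mul, ← zpow_mul, mul_comm]
    have hyp : ∃ m : ℕ, y ^ (p ^ m) = 1 := by
      obtain ⟨m, hm⟩ := S.2 ⟨y, hyS⟩
      exact ⟨m, congrArg Subtype.val hm⟩
    have hxp : ∃ m : ℕ, x ^ (p ^ m) = 1 := by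
      obtain ⟨m, hm⟩ := hPp ⟨x, h2 hx⟩
      exact ⟨m, congrArg Subtype.val hm⟩
    obtain ⟨z, hz, hzz⟩ := cyc x y hyp hxp h4
    have h6 : ⁅x, y⁆ = (z ^ p)⁻¹ := by
      rw [← hzz, commutatorElement_def]; group
    rw [h6]
    exact Subgroup.inv_mem _ (hpowΦ z ((Subgroup.zpowers_le.mpr (h2 hx)) hz))
  obtain ⟨D, hDn, hCD, ⟨k, hk⟩, haD⟩ := Cfsg.Agent.S0626.stableOnSection hp2 hab P Φ hPp a hquad
  have hDp : IsPGroup p D := by
    obtain ⟨j, hj⟩ := hCp.exists_card_eq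
    apply IsPGroup.of_card (n := k + j)
    rw [Cfsg.Agent.Lib.Helper4.card_eq_mul_relIndex hCD, hk, hj, pow_add, mul_comm]
  rw [hP]
  exact Cfsg.Agent.Lib.Helper8.le_pCore_of_normal hDn hDp haD


/-- Let X be a finite solvable group of odd order, p a prime and S a Sylow p-subgroup of X whose commutator subgroup is
cyclic. Then the product of the largest normal subgroup of X of order prime to p with S is a normal subgroup of X. -/
theorem result {X : Type*} [Group X] [Finite X] [Group.IsSolvable X]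
    (hX : Odd (Nat.card X)) (p : ℕ) [Fact p.Prime] (S : Sylow p X) (hS : IsCyclic (commutator (S : Subgroup X))) :
    (Cfsg.pPrimeCore p X ⊔ (S : Subgroup X)).Normal := by
  have hOn : (Cfsg.pPrimeCore p X).Normal := (Cfsg.Agent.Lib.Helper1.pPrimeCore_spec p).1
  obtain ⟨g, hg⟩ := hS
  have h1 : ⁅(S : Subgroup X), (S : Subgroup X)⁆ = Subgroup.zpowers ((g : (S : Subgroup X)) : X) := by
    have h2 : ⁅(S : Subgroup X), (S : Subgroup X)⁆ = (commutator (S : Subgroup X)).map (S : Subgroup X).subtype := by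
      rw [commutator_def, Subgroup.map_commutator, ← MonoidHom.range_eq_map, Subgroup.range_subtype]
    rw [h2]
    apply le_antisymm
    · rintro _ ⟨x, hx, rfl⟩
      obtain ⟨k, hk⟩ := Subgroup.mem_zpowers_iff.mp (hg ⟨x, hx⟩)
      refine Subgroup.mem_zpowers_iff.mpr ⟨k, ?_⟩
      have := congrArg (fun w : commutator (S : Subgroup X) => ((w : (S : Subgroup X)) : X)) hk
      simpa using this
    · rw [Subgroup.zpowers_le]
      exact ⟨g.1, g.2, rfl⟩
  let π := QuotientGroup.mk' (Cfsg.pPrimeCore p X)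
  have hπ : Function.Surjective π := QuotientGroup.mk'_surjective _
  have hodd : Odd (Nat.card (X ⧸ Cfsg.pPrimeCore p X)) :=
    Odd.of_dvd_nat hX (Subgroup.card_quotient_dvd_card _)
  have h3 : ⁅((S.mapSurjective hπ : Sylow p _) : Subgroup (X ⧸ Cfsg.pPrimeCore p X)),
      ((S.mapSurjective hπ : Sylow p _) : Subgroup (X ⧸ Cfsg.pPrimeCore p X))⁆ =
      Subgroup.zpowers (π ((g : (S : Subgroup X)) : X)) := by
    rw [Sylow.coe_mapSurjective, ← Subgroup.map_commutator, h1, MonoidHom.map_zpowers]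
  have h4 := core hodd p (Cfsg.Agent.Lib.Helper1.pPrimeCore_quotient_eq_bot p) (S.mapSurjective hπ) _ h3
  have h5 : ((S.mapSurjective hπ : Sylow p _) : Subgroup (X ⧸ Cfsg.pPrimeCore p X)) =
      Cfsg.pCore p (X ⧸ Cfsg.pPrimeCore p X) := by
    apply le_antisymm h4
    exact Cfsg.Agent.Lib.Helper16.pCore_le_sylow _
  have h6 : ((S : Subgroup X).map π).Normal := by
    rw [← Sylow.coe_mapSurjective hπ, h5]; exact Cfsg.Agent.Lib.Helper1.pCore_normal p
  have h7 := h6.comap π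
  rw [Subgroup.comap_map_eq, QuotientGroup.ker_mk', sup_comm] at h7
  exact h7

end Cfsg.Agent.S0521
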