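import Cfsg.Statements.S0522
import Cfsg.Agent.S1480
import Cfsg.Agent.Lib.Helper16.PCon

set_option autoImplicit false
open Cfsg

namespace Cfsg.Agent.S0522
open Cfsg.Agent.Lib.Helper16 Cfsg.Agent.Lib.Helper8


/-- Transitivity Theorem (odd-order setting). Let X be a finite group of odd order in which the normalizer of every
nontrivial p-subgroup is solvable, P a Sylow p-subgroup, and B an abelian subgroup of P, normalized by P, with
C_P(B) = B and containing an elementary abelian subgroup of order p^3. Then for every prime q ≠ p, any two q-subgroups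
that are maximal among the q-subgroups normalized by B are conjugate by an element of the centralizer of B. -/
theorem result {X : Type*} [Group X] [Finite X] (hX : Odd (Nat.card X)) (p : ℕ)
    [Fact p.Prime] (hloc : ∀ T : Subgroup X, IsPGroup p T → T ≠ ⊥ → Group.IsSolvable (Subgroup.normalizer (T : Set X)))
    (P : Sylow p X) (B : Subgroup X) (hBP : B ≤ (P : Subgroup X))
    (hBn : ∀ x ∈ (P : Subgroup X), ∀ b ∈ B, x * b * x⁻¹ ∈ B) (hBa : IsMulCommutative B)
    (hBc : (P : Subgroup X) ⊓ Subgroup.centralizer (B : Set X) = B)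
    (hB3 : ∃ E : Subgroup X, E ≤ B ∧ (∀ e ∈ E, e ^ p = 1) ∧ p ^ 3 ≤ Nat.card E)
    (q : ℕ) [Fact q.Prime] (hqp : q ≠ p) (Q₁ Q₂ : Subgroup X)
    (h₁ : IsPGroup q Q₁ ∧ B ≤ Subgroup.normalizer (Q₁ : Set X) ∧
      ∀ R : Subgroup X, IsPGroup q R → B ≤ Subgroup.normalizer (R : Set X) → Q₁ ≤ R → R = Q₁)
    (h₂ : IsPGroup q Q₂ ∧ B ≤ Subgroup.normalizer (Q₂ : Set X) ∧
      ∀ R : Subgroup X, IsPGroup q R → B ≤ Subgroup.normalizer (R : Set X) → Q₂ ≤ R → R = Q₂) :
    ∃ c ∈ Subgroup.centralizer (B : Set X), Q₂ = Q₁.map (MulAut.conj c).toMonoidHom := by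
  have hp : p.Prime := Fact.out
  have hq : q.Prime := Fact.out
  have hBp : IsPGroup p B := P.2.to_le hBP
  -- p-constrained locals
  have hloc' : ∀ T : Subgroup X, IsPGroup p T → T ≠ ⊥ →
      Cfsg.IsPConstrained p ↥(Subgroup.normalizer (T : Set X)) := by
    intro T hT hT1
    rw [isPConstrained_iff]
    intro W hW hpq
    have := hloc T hT hT1
    exact hpq.not_isSolvable
      (Group.isSolvable_of_isSolvable_injective (Subgroup.inclusion_injective hW.1))
  have hp2 : p ≠ 2 := by
    rintro rfl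
    obtain ⟨E, hEB, _, hE3⟩ := hB3
    have h1 : Nat.card (P : Subgroup X) = 1 := by
      obtain ⟨n, hn⟩ := P.2.exists_card_eq
      have h2 : Nat.card (P : Subgroup X) ∣ Nat.card X := Subgroup.card_subgroup_dvd_card _
      rcases n with _ | n
      · simpa using hn
      · exfalso
        rw [hn] at h2
        have : 2 ∣ Nat.card X := (Dvd.intro_left (2 ^ n) (by ring)).trans h2
        exact (Nat.not_even_iff_odd.mpr hX) (even_iff_two_dvd.mpr this)
    have h3 : Nat.card E ≤ Nat.card (P : Subgroup X) := Subgroup.card_le_of_le (hEB.trans hBP)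
    omega
  have hE3 : ¬ Cfsg.PRankLE p 2 B := by
    intro h
    obtain ⟨E, hEB, hEp, hE3⟩ := hB3
    have h1 := h (E.subgroupOf B) (by
      refine ⟨⟨fun a b => ?_⟩⟩
      apply Subtype.ext
      exact hBa.is_comm.comm a.1 b.1) (by
      intro a ha
      apply Subtype.ext
      simpa using hEp a ha)
    rw [Nat.card_congr (Subgroup.subgroupOfEquivOfLe hEB).toEquiv] at h1
    have : p ^ 2 < p ^ 3 := Nat.pow_lt_pow_right hp.one_lt (by norm_num)
    omega
  have hfull : ∀ x ∈ Subgroup.centralizer (B : Set X), IsPGroup p (Subgroup.zpowers x) → x ∈ B := by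
    intro x hx hxp
    -- `B ⊔ zpowers x` is a `p`-group normalizing... use Sylow in the normalizer of `B`
    have hxN : x ∈ Subgroup.normalizer (B : Set X) := Subgroup.centralizer_le_normalizer _ hx
    have hPN : (P : Subgroup X) ≤ Subgroup.normalizer (B : Set X) := by
      intro y hy
      rw [Subgroup.mem_normalizer_iff]
      intro b
      constructor
      · exact fun hb => hBn y hy b hb
      · intro hb
        have := hBn y⁻¹ (inv_mem hy) _ hb
        simpa [mul_assoc] using this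
    have hs : SylIn p (P : Subgroup X) (Subgroup.normalizer (B : Set X)) :=
      (sylIn_top P).mono hPN le_top
    obtain ⟨n, hn, hle⟩ := hs.exists_conj_le hxp (by
      rw [Subgroup.zpowers_le]; exact hxN)
    have h1 : n * x * n⁻¹ ∈ (P : Subgroup X) :=
      hle ⟨x, Subgroup.mem_zpowers x, by simp [MulAut.conj_apply]⟩
    have h2 : n * x * n⁻¹ ∈ Subgroup.centralizer (B : Set X) := by
      rw [Subgroup.mem_centralizer_iff]
      intro b hb
      have hb' : n⁻¹ * b * n ∈ B := by
        have := (Subgroup.mem_normalizer_iff.mp (inv_mem hn) b).mp hb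
        simpa using this
      have h3 := (Subgroup.mem_centralizer_iff.mp hx) _ hb'
      calc b * (n * x * n⁻¹) = n * ((n⁻¹ * b * n) * x) * n⁻¹ := by group
        _ = n * (x * (n⁻¹ * b * n)) * n⁻¹ := by rw [h3]
        _ = n * x * n⁻¹ * b := by group
    have h3 : n * x * n⁻¹ ∈ B := hBc ▸ Subgroup.mem_inf.mpr ⟨h1, h2⟩
    exact (Subgroup.mem_normalizer_iff.mp hn x).mpr h3
  have hmem : ∀ Q : Subgroup X, (IsPGroup q Q ∧ B ≤ Subgroup.normalizer (Q : Set X) ∧
      ∀ R : Subgroup X, IsPGroup q R → B ≤ Subgroup.normalizer (R : Set X) → Q ≤ R → R = Q) →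
      Q ∈ Cfsg.maxInvSubgroups ⊤ B {q} := by
    intro Q hQ
    refine ⟨⟨le_top, ?_, hQ.2.1⟩, ?_⟩
    · intro r hr hdvd
      obtain ⟨n, hn⟩ := hQ.1.exists_card_eq
      rw [hn] at hdvd
      exact (Nat.prime_dvd_prime_iff_eq hr hq).mp (hr.dvd_of_dvd_pow hdvd)
    · intro R hR hle
      refine hQ.2.2 R ?_ hR.2.2 hle
      apply IsPGroup.of_card (n := (Nat.card R).primeFactorsList.length)
      exact Nat.eq_prime_pow_of_unique_prime_dvd Nat.card_pos.ne' (fun {d} hd hdvd => hR.2.1 d hd hdvd)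
  obtain ⟨k, hk, hk'⟩ := Cfsg.Agent.S1480.result p hloc' (fun h => absurd h hp2) B hBp hBa hE3 hfull q hqp
    Q₁ (hmem Q₁ h₁) Q₂ (hmem Q₂ h₂)
  refine ⟨k, ?_, hk'⟩
  exact Subgroup.map_subtype_le _ hk

end Cfsg.Agent.S0522
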