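import Mathlib
import Cfsg.Statements.S0529
import Cfsg.Agent.Lib.Helper4.Supersolvable2


set_option autoImplicit false
open Cfsg

namespace Cfsg.Agent.S0529

open Cfsg.Agent.Lib.Helper4

universe u

theorem aux (m : ℕ) : ∀ {G : Type u} [Group G] [Finite G], Nat.card G = m →
    Cfsg.IsSupersolvable G → ∃ (n : ℕ) (H : Fin (n + 1) → Subgroup G), H 0 = ⊥ ∧ H (Fin.last n) = ⊤ ∧ (∀ i, (H i).Normal) ∧ (∀ i : Fin n, H i.castSucc ≤ H i.succ ∧ ((H i.castSucc).relIndex (H i.succ)).Prime) ∧ ∀ i j : Fin n, i ≤ j → (H j.castSucc).relIndex (H j.succ) ≤ (H i.castSucc).relIndex (H i.succ) := by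
  induction m using Nat.strong_induction_on with
  | _ m ih =>
    intro G _ _ hm hG
    rcases subsingleton_or_nontrivial G with hs | hnt
    · exact ⟨0, fun _ => ⊥, rfl, Subsingleton.elim _ _, fun _ => inferInstance, fun i => i.elim0,
        fun i => i.elim0⟩
    · obtain ⟨p, hp, hpG, hmax⟩ := exists_max_prime_dvd (Nat.card G) Finite.one_lt_card
      obtain ⟨N, hN, hNp⟩ := exists_normal_card_eq_maxPrime _ rfl hG p hp hpG hmax
      obtain ⟨n, H, h0, hn, hnorm, hstep, hmono⟩ :=
        ih _ (hm ▸ card_quotient_lt N (hNp ▸ hp.one_lt)) rfl (supersolvable_quotient N hG)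
      have hrel : ∀ A B : Subgroup (G ⧸ N), (A.comap (QuotientGroup.mk' N)).relIndex
          (B.comap (QuotientGroup.mk' N)) = A.relIndex B := by
        intro A B
        rw [Subgroup.relIndex_comap, Subgroup.map_comap_eq_self_of_surjective
          (QuotientGroup.mk'_surjective N)]
      have hker : (H 0).comap (QuotientGroup.mk' N) = N := by
        rw [h0, MonoidHom.comap_bot, QuotientGroup.ker_mk']
      have e0 : ((Fin.cons ⊥ (fun i => (H i).comap (QuotientGroup.mk' N)) :
          Fin (n + 1 + 1) → Subgroup G) (0 : Fin (n + 1)).castSucc).relIndex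
          ((Fin.cons ⊥ (fun i => (H i).comap (QuotientGroup.mk' N)) :
          Fin (n + 1 + 1) → Subgroup G) (0 : Fin (n + 1)).succ) = p := by
        rw [Fin.cons_succ, Fin.castSucc_zero, Fin.cons_zero, hker, Subgroup.relIndex_bot_left, hNp]
      have es : ∀ j : Fin n, ((Fin.cons ⊥ (fun i => (H i).comap (QuotientGroup.mk' N)) :
          Fin (n + 1 + 1) → Subgroup G) j.succ.castSucc).relIndex
          ((Fin.cons ⊥ (fun i => (H i).comap (QuotientGroup.mk' N)) :
          Fin (n + 1 + 1) → Subgroup G) j.succ.succ) = (H j.castSucc).relIndex (H j.succ) := by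
        intro j
        rw [Fin.cons_succ, ← Fin.succ_castSucc, Fin.cons_succ, hrel]
      refine ⟨n + 1, Fin.cons ⊥ (fun i => (H i).comap (QuotientGroup.mk' N)), by simp, ?_, ?_, ?_, ?_⟩
      · rw [← Fin.succ_last, Fin.cons_succ, hn, Subgroup.comap_top]
      · intro i
        refine Fin.cases ?_ (fun j => ?_) i
        · simp only [Fin.cons_zero]; infer_instance
        · simp only [Fin.cons_succ]
          exact (hnorm j).comap _
      · intro i
        refine Fin.cases ?_ (fun j => ?_) i
        · rw [e0]
          refine ⟨?_, hp⟩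
          rw [Fin.castSucc_zero, Fin.cons_zero]
          exact bot_le
        · rw [es]
          refine ⟨?_, (hstep j).2⟩
          rw [Fin.cons_succ, ← Fin.succ_castSucc, Fin.cons_succ]
          exact Subgroup.comap_mono (hstep j).1
      · intro i j
        refine Fin.cases ?_ (fun i' => ?_) i
        · intro _
          rw [e0]
          refine Fin.cases ?_ (fun j' => ?_) j
          · rw [e0]
          · rw [es]
            apply hmax _ (hstep j').2
            refine (Subgroup.relIndex_dvd_card _ _).trans ?_
            refine (Subgroup.card_subgroup_dvd_card _).trans ?_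
            exact ⟨_, card_eq_card_quotient_mul N⟩
        · refine Fin.cases ?_ (fun j' => ?_) j
          · intro h
            exact absurd h (by simp)
          · intro h
            rw [es, es]
            exact hmono i' j' (by simpa using h)

/-- A finite supersolvable group has a chain of normal subgroups, from the trivial subgroup to the whole group, in which every step has prime index and the primes occurring are non-increasing as one goes up the chain. -/
theorem result {G : Type*} [Group G] [Finite G] (hG : Cfsg.IsSupersolvable G) : ∃ (n : ℕ) (H : Fin (n + 1) → Subgroup G), H 0 = ⊥ ∧ H (Fin.last n) = ⊤ ∧ (∀ i, (H i).Normal) ∧ (∀ i : Fin n, H i.castSucc ≤ H i.succ ∧ ((H i.castSucc).relIndex (H i.succ)).Prime) ∧ ∀ i j : Fin n, i ≤ j → (H j.castSucc).relIndex (H j.succ) ≤ (H i.castSucc).relIndex (H i.succ) := by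
  exact aux _ rfl hG

end Cfsg.Agent.S0529
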