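import Mathlib
import Cfsg.Statements.S0530
import Cfsg.Agent.Lib.Helper4.Supersolvable2


set_option autoImplicit false
open Cfsg

namespace Cfsg.Agent.S0530

open Cfsg.Agent.Lib.Helper4

universe u

theorem mem_normalizer_of_conj_mem {G : Type u} [Group G] [Finite G] (J : Subgroup G) (k : G)
    (h : ∀ x ∈ J, k * x * k⁻¹ ∈ J) : k ∈ Subgroup.normalizer (J : Set G) := by
  rw [Subgroup.mem_normalizer_iff_map_conj_eq]
  apply Subgroup.eq_of_le_of_card_ge
  · rintro _ ⟨x, hx, rfl⟩
    exact h x hx
  · exact (Subgroup.card_map_of_injective (MulAut.conj k).injective).ge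

theorem aux (p : ℕ) (hp : p.Prime) (hp2 : p ≠ 2) (n : ℕ) : ∀ {G : Type u} [Group G] [Finite G],
    Nat.card G = 2 * p ^ n → Cfsg.IsSupersolvable G := by
  induction n using Nat.strong_induction_on with
  | _ n ih =>
    intro G _ _ hG
    rcases Nat.eq_zero_or_pos n with rfl | hn
    · have : Fact (Nat.Prime 2) := ⟨Nat.prime_two⟩
      have : IsCyclic G := isCyclic_of_prime_card (p := 2) (by simpa using hG)
      exact supersolvable_of_isCyclic
    have : Fact p.Prime := ⟨hp⟩
    have hcop : Nat.Coprime 2 p := (Nat.coprime_primes Nat.prime_two hp).mpr (Ne.symm hp2)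
    obtain ⟨P⟩ : Nonempty (Sylow p G) := inferInstance
    have hPc : Nat.card (P : Subgroup G) = p ^ n := by
      rw [P.card_eq_multiplicity, hG, Nat.factorization_mul two_ne_zero (pow_ne_zero _ hp.ne_zero)]
      have h2 : (Nat.factorization 2) p = 0 := Nat.factorization_eq_zero_of_not_dvd
        (fun h => hp2 ((Nat.prime_dvd_prime_iff_eq hp Nat.prime_two).mp h))
      simp [hp.factorization_self, h2]
    have hPi : (P : Subgroup G).index = 2 := by
      have := Subgroup.card_mul_index (P : Subgroup G)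
      rw [hPc, hG, mul_comm] at this
      exact Nat.eq_of_mul_eq_mul_right (pow_pos hp.pos n) this
    have hPn : (P : Subgroup G).Normal := Subgroup.normal_of_index_eq_two hPi
    have hPnt : Nontrivial (P : Subgroup G) := by
      rw [← Finite.one_lt_card_iff_nontrivial, hPc]
      exact Nat.one_lt_pow hn.ne' hp.one_lt
    have := P.2.center_nontrivial
    obtain ⟨z, hz⟩ := exists_ne (1 : Subgroup.center (P : Subgroup G))
    set Z : Subgroup G := (Subgroup.center (P : Subgroup G)).map (P : Subgroup G).subtype with hZ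
    have hZn : Z.Normal := ConjAct.normal_of_characteristic_of_normal
    have hZP : ∀ x ∈ Z, ∀ y ∈ (P : Subgroup G), x * y = y * x := by
      rintro _ ⟨c, hc, rfl⟩ y hy
      have := Subgroup.mem_center_iff.mp hc ⟨y, hy⟩
      exact (congrArg Subtype.val this).symm
    have hZleP : Z ≤ P := Subgroup.map_subtype_le _
    obtain ⟨t, ht⟩ := exists_prime_orderOf_dvd_card' 2 (hG ▸ dvd_mul_right 2 _)
    set v : G := ((z : (P : Subgroup G)) : G) with hv
    have hvZ : v ∈ Z := ⟨z, z.2, rfl⟩
    have hv1 : v ≠ 1 := by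
      intro h
      apply hz
      ext
      exact h
    have htt : t * t = 1 := by rw [← pow_two, ← ht, pow_orderOf_eq_one]
    have hv'Z : t * v * t⁻¹ ∈ Z := hZn.conj_mem v hvZ t
    obtain ⟨u, hu1, huZ, htu⟩ : ∃ u, u ≠ 1 ∧ u ∈ Z ∧ t * u * t⁻¹ ∈ Subgroup.zpowers u := by
      by_cases hw : v * (t * v * t⁻¹) = 1
      · refine ⟨v, hv1, hvZ, ?_⟩
        have : t * v * t⁻¹ = v⁻¹ := (inv_eq_of_mul_eq_one_right hw).symm
        rw [this]
        exact Subgroup.inv_mem _ (Subgroup.mem_zpowers v)
      · refine ⟨v * (t * v * t⁻¹), hw, Z.mul_mem hvZ hv'Z, ?_⟩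
        have : t * (v * (t * v * t⁻¹)) * t⁻¹ = v * (t * v * t⁻¹) := by
          have e : t * (v * (t * v * t⁻¹)) * t⁻¹ = (t * v * t⁻¹) * ((t * t) * v * (t * t)⁻¹) := by
            group
          rw [e, htt]
          simp only [one_mul, inv_one, mul_one]
          exact (hZP _ hv'Z v (hZleP hvZ))
        rw [this]
        exact Subgroup.mem_zpowers _
    set N := Subgroup.zpowers u with hN
    have hNP : N ≤ P := by
      rw [hN, Subgroup.zpowers_le]
      exact hZleP huZ
    have hK : Subgroup.normalizer (N : Set G) = ⊤ := by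
      apply Subgroup.eq_top_of_le_card
      have h1 : (P : Subgroup G) ≤ Subgroup.normalizer (N : Set G) := by
        intro y hy
        apply mem_normalizer_of_conj_mem
        intro x hx
        obtain ⟨k, rfl⟩ := Subgroup.mem_zpowers_iff.mp hx
        have hc : Commute y u := (hZP u huZ y hy).symm
        have : y * u ^ k * y⁻¹ = u ^ k := by
          rw [(hc.zpow_right k).eq, mul_inv_cancel_right]
        rw [this]
        exact hx
      have h2 : t ∈ Subgroup.normalizer (N : Set G) := by
        apply mem_normalizer_of_conj_mem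
        intro x hx
        obtain ⟨k, rfl⟩ := Subgroup.mem_zpowers_iff.mp hx
        rw [← conj_zpow]
        exact Subgroup.zpow_mem _ htu k
      have h3 : p ^ n ∣ Nat.card (Subgroup.normalizer (N : Set G)) :=
        hPc ▸ Subgroup.card_dvd_of_le h1
      have h4 : 2 ∣ Nat.card (Subgroup.normalizer (N : Set G)) :=
        ht ▸ Subgroup.orderOf_dvd_natCard _ h2
      have h5 : 2 * p ^ n ∣ Nat.card (Subgroup.normalizer (N : Set G)) :=
        Nat.Coprime.mul_dvd_of_dvd_of_dvd (Nat.Coprime.pow_right n hcop) h4 h3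
      rw [hG]
      exact Nat.le_of_dvd Nat.card_pos h5
    have hNn : N.Normal := Subgroup.normalizer_eq_top_iff.mp hK
    have hNd : Nat.card N ∣ p ^ n := hPc ▸ Subgroup.card_dvd_of_le hNP
    obtain ⟨j, hjn, hj⟩ := (Nat.dvd_prime_pow hp).mp hNd
    have hj0 : j ≠ 0 := by
      rintro rfl
      rw [pow_zero, hN, Nat.card_zpowers, orderOf_eq_one_iff] at hj
      exact hu1 hj
    have hcard : Nat.card (G ⧸ N) = 2 * p ^ (n - j) := by
      have h1 := card_eq_card_quotient_mul N
      rw [hG, hj] at h1
      have h2 : p ^ n = p ^ (n - j) * p ^ j := by rw [← pow_add, Nat.sub_add_cancel hjn]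
      rw [h2, ← mul_assoc] at h1
      exact (Nat.eq_of_mul_eq_mul_right (pow_pos hp.pos j) h1).symm
    exact supersolvable_of_cyclic_normal N (ih (n - j) (by omega) hcard)


/-- A finite group whose order is twice a prime power is supersolvable. -/
theorem result {G : Type*} [Group G] [Finite G] (p n : ℕ) (hp : p.Prime) (hG : Nat.card G = 2 * p ^ n) : Cfsg.IsSupersolvable G := by
  by_cases hp2 : p = 2
  · subst hp2
    have : Fact (Nat.Prime 2) := ⟨Nat.prime_two⟩
    apply supersolvable_of_isPGroup 2
    exact IsPGroup.of_card (n := n + 1) (by rw [hG, pow_succ, mul_comm])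
  · exact aux p hp hp2 n hG

end Cfsg.Agent.S0530
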