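import Mathlib
import Cfsg.Statements.S0531
import Cfsg.Agent.Lib.Helper4.Supersolvable2


set_option autoImplicit false
open Cfsg

namespace Cfsg.Agent.S0531

open Cfsg.Agent.Lib.Helper4

universe u

theorem aux (m : ℕ) : ∀ {G : Type u} [Group G] [Finite G], Nat.card G = m →
    Cfsg.IsSupersolvable G → Cfsg.HasSubgroupOfEveryOrder G := by
  induction m using Nat.strong_induction_on with
  | _ m ih =>
    intro G _ _ hm hG d hd
    rcases subsingleton_or_nontrivial G with hs | hnt
    · refine ⟨⊥, ?_⟩
      rw [Nat.card_eq_one_iff_unique.mpr ⟨hs, ⟨1⟩⟩, Nat.dvd_one] at hd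
      rw [hd, Subgroup.card_bot]
    · obtain ⟨N, hN, hp⟩ := exists_normal_prime_card hG
      have hIH := ih _ (hm ▸ card_quotient_lt N hp.one_lt) rfl (supersolvable_quotient N hG)
      have hcard := card_eq_card_quotient_mul N
      by_cases hpd : Nat.card N ∣ d
      · obtain ⟨d', rfl⟩ := hpd
        have hd' : d' ∣ Nat.card (G ⧸ N) := by
          rw [hcard, mul_comm] at hd
          exact Nat.dvd_of_mul_dvd_mul_right hp.pos hd
        obtain ⟨K, hK⟩ := hIH d' hd'
        exact ⟨K.comap (QuotientGroup.mk' N), by rw [card_comap_mk, hK, mul_comm]⟩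
      · have hcop : Nat.Coprime d (Nat.card N) := ((Nat.Prime.coprime_iff_not_dvd hp).mpr hpd).symm
        have hd' : d ∣ Nat.card (G ⧸ N) := by
          rw [hcard] at hd
          exact hcop.dvd_of_dvd_mul_right hd
        obtain ⟨K, hK⟩ := hIH d hd'
        set M := K.comap (QuotientGroup.mk' N) with hM
        have hMc : Nat.card M = d * Nat.card N := by rw [hM, card_comap_mk, hK]
        have hNM : N ≤ M := by
          conv_lhs => rw [← QuotientGroup.ker_mk' N]
          exact Subgroup.ker_le_comap _ _
        have hN' : (N.subgroupOf M).Normal := hN.subgroupOf M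
        have hN'c : Nat.card (N.subgroupOf M) = Nat.card N := card_subgroupOf_of_le hNM
        have hN'i : (N.subgroupOf M).index = d := by
          have := Subgroup.card_mul_index (N.subgroupOf M)
          rw [hN'c, hMc, mul_comm] at this
          exact Nat.eq_of_mul_eq_mul_right hp.pos this
        obtain ⟨C, hC⟩ := Subgroup.exists_left_complement'_of_coprime (N := N.subgroupOf M)
          (by rw [hN'c, hN'i]; exact hcop.symm)
        refine ⟨C.map M.subtype, ?_⟩
        rw [card_map_subtype]
        have := hC.card_mul_card
        rw [hN'c, hMc] at this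
        exact Nat.eq_of_mul_eq_mul_right hp.pos this


/-- A finite supersolvable group has a subgroup of each order dividing its order. -/
theorem result {G : Type*} [Group G] [Finite G] (hG : Cfsg.IsSupersolvable G) : Cfsg.HasSubgroupOfEveryOrder G := by
  exact aux _ rfl hG

end Cfsg.Agent.S0531
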