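import Mathlib
import Cfsg.Statements.S0534
import Cfsg.Agent.Lib.Helper4.Supersolvable2
import Cfsg.Agent.S0531
import Cfsg.Agent.Lib.Helper1.Hall


set_option autoImplicit false
open Cfsg

namespace Cfsg.Agent.S0534

universe u

open Cfsg.Agent.Lib.Helper4

theorem supersolvable_of_comm_aux (n : ℕ) :
    ∀ {A : Type u} [CommGroup A] [Finite A], Nat.card A = n → IsSupersolvable A := by
  induction n using Nat.strong_induction_on with
  | _ n ih =>
    intro A _ _ hn
    rcases subsingleton_or_nontrivial A with hs | hnt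
    · exact supersolvable_of_subsingleton
    · obtain ⟨z, hz⟩ := exists_ne (1 : A)
      apply supersolvable_of_cyclic_normal (Subgroup.zpowers z)
      apply ih _ _ rfl
      rw [← hn]
      apply card_quotient_lt
      rw [Nat.card_zpowers]
      have h0 : 0 < orderOf z := orderOf_pos _
      have h1 : orderOf z ≠ 1 := by rwa [Ne, orderOf_eq_one_iff]
      omega

/-- the largest unitary divisor of `n` dividing `d` -/
theorem exists_unitary (n d : ℕ) (hn : 0 < n) : ∃ m k, n = m * k ∧ m.Coprime k ∧ m ∣ d ∧
    ∀ p : ℕ, p.Prime → p ∣ k → ¬ p ^ (n.factorization p) ∣ d := by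
  classical
  have hex : ∃ j, ∃ m k, j = n - m ∧ n = m * k ∧ m.Coprime k ∧ m ∣ d :=
    ⟨n - 1, 1, n, rfl, by simp, by simp, by simp⟩
  obtain ⟨m, k, hj, hmk, hc, hd⟩ := Nat.find_spec hex
  refine ⟨m, k, hmk, hc, hd, ?_⟩
  intro p hp hpk hpd
  have hk0 : k ≠ 0 := by
    rintro rfl
    simp at hmk
    omega
  have hm0 : m ≠ 0 := by
    rintro rfl
    simp at hmk
    omega
  have hpm : ¬ p ∣ m := fun h => (Nat.Prime.coprime_iff_not_dvd hp).mp
    ((Nat.Coprime.coprime_dvd_left h hc)) hpk
  have hfac : n.factorization p = k.factorization p := by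
    rw [hmk, Nat.factorization_mul hm0 hk0]
    simp [Nat.factorization_eq_zero_of_not_dvd hpm]
  obtain ⟨k', hk'⟩ : p ^ (k.factorization p) ∣ k := Nat.ordProj_dvd k p
  have hk'c : (p ^ (k.factorization p)).Coprime k' := by
    apply Nat.Coprime.pow_left
    rw [Nat.Prime.coprime_iff_not_dvd hp]
    have h1 := Nat.not_dvd_ordCompl hp hk0
    have h2 : k / p ^ (k.factorization p) = k' :=
      Nat.div_eq_of_eq_mul_right (pow_pos hp.pos _) hk'
    rwa [h2] at h1
  have hpos : 1 ≤ k.factorization p := (hp.dvd_iff_one_le_factorization hk0).mp hpk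
  have hgt : 1 < p ^ (k.factorization p) := Nat.one_lt_pow (by omega) hp.one_lt
  have hmin := Nat.find_min hex (m := n - m * p ^ (k.factorization p)) (by
    rw [hj]
    have h1 : m * p ^ (k.factorization p) ≤ n := by
      rw [hmk]
      exact Nat.mul_le_mul_left _ (Nat.le_of_dvd (Nat.pos_of_ne_zero hk0) (Nat.ordProj_dvd k p))
    have h2 : m < m * p ^ (k.factorization p) := by
      have : 0 < m := Nat.pos_of_ne_zero hm0
      nlinarith
    omega)
  apply hmin
  refine ⟨m * p ^ (k.factorization p), k', rfl, ?_, ?_, ?_⟩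
  · rw [mul_assoc, ← hk', hmk]
  · apply Nat.Coprime.mul_left
    · exact Nat.Coprime.coprime_dvd_right (Dvd.intro_left _ hk'.symm) hc
    · exact hk'c
  · apply Nat.Coprime.mul_dvd_of_dvd_of_dvd _ hd (hfac ▸ hpd)
    apply Nat.Coprime.pow_right
    rw [Nat.coprime_comm]
    exact (Nat.Prime.coprime_iff_not_dvd hp).mpr hpm


/-- Let G be a finite solvable group and A a finite abelian group such that every prime dividing the order of A divides the order of G and, for each prime p dividing the order of G, the exponent of p in the order of A is one less than its exponent in the order of G. Then G × A has a subgroup of every order dividing its order. -/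
theorem result {G A : Type*} [Group G] [CommGroup A] [Finite G] [Finite A] [Group.IsSolvable G] (hA : ∀ p : ℕ, p.Prime → p ∣ Nat.card A → p ∣ Nat.card G) (hexp : ∀ p : ℕ, p.Prime → p ∣ Nat.card G → (Nat.card A).factorization p + 1 = (Nat.card G).factorization p) : Cfsg.HasSubgroupOfEveryOrder (G × A) := by
  intro d hd
  rw [Nat.card_prod] at hd
  have hG0 : Nat.card G ≠ 0 := (Nat.card_pos).ne'
  have hA0 : Nat.card A ≠ 0 := (Nat.card_pos).ne'
  have hd0 : d ≠ 0 := by
    rintro rfl
    rw [zero_dvd_iff] at hd
    exact (mul_ne_zero hG0 hA0) hd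
  obtain ⟨m, k, hmk, hc, hmd, hk⟩ := exists_unitary (Nat.card G) d Nat.card_pos
  obtain ⟨H, hH⟩ := Cfsg.Agent.Lib.Helper1.hall_exists m k hmk hc
  obtain ⟨e, rfl⟩ := hmd
  have hm0 : m ≠ 0 := fun h => hd0 (by rw [h, zero_mul])
  have he0 : e ≠ 0 := fun h => hd0 (by rw [h, mul_zero])
  have hk0 : k ≠ 0 := by
    rintro rfl
    simp at hmk
    exact hG0 hmk
  have heA : e ∣ Nat.card A := by
    rw [← Nat.factorization_prime_le_iff_dvd he0 hA0]
    intro p hp
    have h1 : (m * e).factorization p ≤ (Nat.card G * Nat.card A).factorization p :=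
      (Nat.factorization_prime_le_iff_dvd hd0 (mul_ne_zero hG0 hA0)).mpr hd p hp
    rw [Nat.factorization_mul hm0 he0, Nat.factorization_mul hG0 hA0] at h1
    simp only [Finsupp.coe_add, Pi.add_apply] at h1
    have h2 : (Nat.card G).factorization p = m.factorization p + k.factorization p := by
      rw [hmk, Nat.factorization_mul hm0 hk0]
      simp
    by_cases hpm : p ∣ m
    · have hpk : ¬ p ∣ k := fun h => (Nat.Prime.coprime_iff_not_dvd hp).mp
        ((Nat.Coprime.coprime_dvd_left hpm hc)) h
      have h3 := Nat.factorization_eq_zero_of_not_dvd hpk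
      have h4 := hexp p hp (hpm.trans (Dvd.intro _ hmk.symm))
      omega
    · have h3 := Nat.factorization_eq_zero_of_not_dvd hpm
      by_cases hpk : p ∣ k
      · have h4 := hexp p hp (hpk.trans (Dvd.intro_left _ hmk.symm))
        have h5 := hk p hp hpk
        rw [hp.pow_dvd_iff_le_factorization hd0, Nat.factorization_mul hm0 he0] at h5
        simp only [Finsupp.coe_add, Pi.add_apply] at h5
        omega
      · have h4 := Nat.factorization_eq_zero_of_not_dvd hpk
        have h5 : ¬ p ∣ Nat.card A := by
          intro h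
          have := hA p hp h
          rw [hmk] at this
          rcases (Nat.Prime.dvd_mul hp).mp this with h | h
          · exact hpm h
          · exact hpk h
        have h6 := Nat.factorization_eq_zero_of_not_dvd h5
        omega
  obtain ⟨C, hC⟩ := Cfsg.Agent.S0531.result (supersolvable_of_comm_aux _ (A := A) rfl) e heA
  refine ⟨H.prod C, ?_⟩
  rw [Nat.card_congr (Subgroup.prodEquiv H C).toEquiv, Nat.card_prod, hH, hC]

end Cfsg.Agent.S0534
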