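import Mathlib
import Cfsg.Statements.S0535
import Cfsg.Agent.Lib.Helper4.SysNorm2
import Cfsg.Agent.S0006


set_option autoImplicit false
open Cfsg

namespace Cfsg.Agent.S0535

open Cfsg.Agent.Lib.Helper4


/-- Suppose that for every nontrivial subgroup H of a finite group and every prime p dividing the order of H there is a proper subgroup of H whose index in H is a power of p. Then the group is solvable. -/
theorem result {G : Type*} [Group G] [Finite G] (h : ∀ H : Subgroup G, H ≠ ⊥ → ∀ p : ℕ, p.Prime → p ∣ Nat.card H → ∃ K : Subgroup H, K ≠ ⊤ ∧ ∃ k : ℕ, K.index = p ^ k) : Group.IsSolvable G := by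
  have key : ∀ p : ℕ, p.Prime → ∀ n : ℕ, ∀ H : Subgroup G, Nat.card H = n →
      ∃ K : Subgroup G, K ≤ H ∧ ¬ p ∣ Nat.card K ∧ ∃ j : ℕ, K.relIndex H = p ^ j := by
    intro p hp n
    induction n using Nat.strong_induction_on with
    | _ n ih =>
      intro H hH
      by_cases hd : p ∣ Nat.card H
      · have hne : H ≠ ⊥ := by
          rintro rfl
          rw [Subgroup.card_bot] at hd
          exact hp.one_lt.ne' (Nat.dvd_one.mp hd)
        obtain ⟨K0, hK0, k, hk⟩ := h H hne p hp hd
        have hlt : Nat.card (K0.map H.subtype) < n := by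
          rw [card_map_subtype, ← hH]
          have h1 := K0.card_mul_index
          have h2 : K0.index ≠ 1 := fun h => hK0 (Subgroup.index_eq_one.mp h)
          have h3 : K0.index ≠ 0 := Subgroup.index_ne_zero_of_finite
          have h4 : 0 < Nat.card K0 := Nat.card_pos
          nlinarith [show 2 ≤ K0.index by omega]
        obtain ⟨K, hK, hpK, j, hj⟩ := ih _ hlt (K0.map H.subtype) rfl
        have hle : K0.map H.subtype ≤ H := Subgroup.map_subtype_le K0
        refine ⟨K, hK.trans hle, hpK, j + k, ?_⟩
        rw [← Subgroup.relIndex_mul_relIndex K _ H hK hle, hj, pow_add]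
        congr 1
        rw [Subgroup.relIndex, ← hk]
        congr 1
        ext x
        simp [Subgroup.mem_subgroupOf]
      · exact ⟨H, le_rfl, hd, 0, by simp⟩
  choose M hM1 hM2 hM3 using fun p : Nat.Primes => key p p.2 _ ⊤ rfl
  have hsys : IsComplementSystem M := by
    apply isComplementSystem_of_index_pow M
    · intro p
      obtain ⟨j, hj⟩ := hM3 p
      exact ⟨j, by rwa [Subgroup.relIndex_top_right] at hj⟩
    · exact hM2
  exact Cfsg.Agent.S0006.result (fun p hp => ⟨M ⟨p, hp⟩, hsys ⟨p, hp⟩⟩)

end Cfsg.Agent.S0535
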