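import Mathlib
import Cfsg.Statements.S0537
import Cfsg.Agent.Lib.Helper4.Schmidt3


set_option autoImplicit false
open Cfsg

namespace Cfsg.Agent.S0537

open Cfsg.Agent.Lib.Helper4


/-- A finite non-abelian group in which every proper subgroup is abelian is either of prime-power order, or is generated by a cyclic Sylow p-subgroup and a normal Sylow q-subgroup that is elementary abelian, for distinct primes p and q. -/
theorem result {G : Type*} [Group G] [Finite G] (hna : ¬ IsMulCommutative G) (h : ∀ H : Subgroup G, H ≠ ⊤ → IsMulCommutative H) : (∃ p : ℕ, p.Prime ∧ IsPGroup p G) ∨ ∃ p q : ℕ, p.Prime ∧ q.Prime ∧ p ≠ q ∧ ∃ (P : Sylow p G) (Q : Sylow q G), IsCyclic P ∧ (Q : Subgroup G).Normal ∧ Cfsg.IsElementaryAbelian q (Q : Subgroup G) ∧ (P : Subgroup G) ⊔ Q = ⊤ := by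
  classical
  by_cases hnil : Group.IsNilpotent G
  · left
    by_contra hno
    push Not at hno
    apply hna
    apply comm_of_nilpotent_of_sylow_comm
    intro p hp P
    apply h
    intro htop
    exact hno p hp.out (isPGroup_of_sylow_eq_top P htop)
  · right
    have hG : IsMinimalNonNilpotent G :=
      ⟨hnil, fun H hH => isNilpotent_of_isMulCommutative (h H hH)⟩
    obtain ⟨p, q, hp, hq, hpq, P, Q, hPc, hQn, hPQ, hPn⟩ := schmidt_structure hG
    have hpF : Fact p.Prime := ⟨hp⟩
    have hqF : Fact q.Prime := ⟨hq⟩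
    refine ⟨p, q, hp, hq, hpq, P, Q, hPc, hQn, ?_, hPQ⟩
    have hQtop : (Q : Subgroup G) ≠ ⊤ := by
      intro htop
      exact hnil (isPGroup_of_sylow_eq_top Q htop).isNilpotent
    have hPtop : (P : Subgroup G) ≠ ⊤ := by
      intro htop
      exact hnil (isPGroup_of_sylow_eq_top P htop).isNilpotent
    have hQc : IsMulCommutative (Q : Subgroup G) := h _ hQtop
    have hPcm : IsMulCommutative (P : Subgroup G) := h _ hPtop
    refine ⟨hQc, ?_⟩
    by_contra hne
    push Not at hne
    obtain ⟨y₀, hy₀, hy₀q⟩ := hne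
    have hΩn : (omegaAb q (Q : Subgroup G) hQc).Normal := omegaAb_normal q _ hQc
    have hΩQ : omegaAb q (Q : Subgroup G) hQc ≤ Q := fun x hx => hx.1
    have hdisj : (Q : Subgroup G) ⊓ P = ⊥ :=
      (IsPGroup.disjoint_of_ne q p (Ne.symm hpq) _ _ Q.2 P.2).eq_bot
    have hX : omegaAb q (Q : Subgroup G) hQc ⊔ (P : Subgroup G) ≠ ⊤ := by
      intro htop
      have hded := inf_sup_eq_of_le_of_normal (omegaAb q (Q : Subgroup G) hQc) (Q : Subgroup G)
        (P : Subgroup G) hΩQ
      rw [htop, inf_top_eq, hdisj, sup_bot_eq] at hded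
      have : y₀ ∈ omegaAb q (Q : Subgroup G) hQc := hded ▸ hy₀
      exact hy₀q this.2
    have hXc := (isMulCommutative_iff _).mp (h _ hX)
    apply hna
    have hcomm : ∀ g ∈ (P : Subgroup G), ∀ y ∈ (Q : Subgroup G), g * y = y * g := by
      intro g hg y hy
      obtain ⟨k, hk⟩ := (IsPGroup.iff_orderOf.mp P.2) ⟨g, hg⟩
      have hgn : g ^ (p ^ k) = 1 := by
        have h1 : (⟨g, hg⟩ : (P : Subgroup G)) ^ (p ^ k) = 1 := by
          rw [← hk]; exact pow_orderOf_eq_one _
        exact congrArg Subtype.val h1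
      obtain ⟨j, hj⟩ := Q.2 ⟨y, hy⟩
      have hyj : y ^ (q ^ j) = 1 := congrArg Subtype.val hj
      have hgQ : g ∈ Subgroup.normalizer ((Q : Subgroup G) : Set G) := by
        rw [Subgroup.normalizer_eq_top_iff.mpr hQn]; trivial
      have h2 := conj_eq_of_centralizes_omega hQc hgQ hgn
        (Nat.Coprime.pow_left k ((Nat.coprime_primes hp hq).mpr hpq))
        (fun z hz hzq => by
          have h3 := hXc g ((le_sup_right : (P : Subgroup G) ≤ _) hg) z
            ((le_sup_left : omegaAb q (Q : Subgroup G) hQc ≤ _) ⟨hz, hzq⟩)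
          rw [h3]; group) j y hy hyj
      calc g * y = (g * y * g⁻¹) * g := by group
        _ = y * g := by rw [h2]
    have htopc := isMulCommutative_sup hPcm hQc hcomm
    rw [hPQ] at htopc
    have h4 := (isMulCommutative_iff _).mp htopc
    exact ⟨⟨fun a b => h4 a (Subgroup.mem_top a) b (Subgroup.mem_top b)⟩⟩

end Cfsg.Agent.S0537
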