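import Mathlib
import Cfsg.Statements.S0541
import Cfsg.Agent.Lib.Helper4.Subnormal
import Cfsg.Agent.S0540


set_option autoImplicit false
open Pointwise
open Cfsg

namespace Cfsg.Agent.S0541

open Cfsg.Agent.Lib.Helper4

open scoped Pointwise

theorem isSubnormal_of_nilpotent {G : Type*} [Group G] [Finite G] [Group.IsNilpotent G]
    (H : Subgroup G) : H.IsSubnormal := by
  have hnc : NormalizerCondition G := Group.normalizerCondition_of_isNilpotent
  induction H using (wellFounded_gt (α := Subgroup G)).induction with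
  | _ H ih =>
    by_cases hH : H = ⊤
    · rw [hH]; exact Subgroup.IsSubnormal.top
    · have h1 := hnc H (lt_top_iff_ne_top.mpr hH)
      exact Subgroup.IsSubnormal.step _ _ h1.le (ih _ h1)
        ((Subgroup.normal_subgroupOf_iff_le_normalizer h1.le).mpr le_rfl)

theorem le_normalizer_iSup {G : Type*} [Group G] [Finite G] (Z Y : Subgroup G) (g : G) :
    Y ≤ Subgroup.normalizer ((⨆ y ∈ Y, MulAut.conj (y * g) • Z : Subgroup G) : Set G) := by
  intro y' hy'
  rw [Subgroup.mem_normalizer_iff_map_conj_eq]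
  apply Subgroup.eq_of_le_of_card_ge
  · rw [Subgroup.map_le_iff_le_comap]
    apply iSup₂_le
    intro y hy
    rw [← Subgroup.map_le_iff_le_comap]
    have h1 : (MulAut.conj (y * g) • Z).map (MulAut.conj y' : G →* G) = MulAut.conj (y' * y * g) • Z := by
      change MulAut.conj y' • MulAut.conj (y * g) • Z = _
      rw [← mul_smul, ← map_mul, mul_assoc]
    rw [h1]
    exact le_iSup₂ (f := fun y (_ : y ∈ Y) => MulAut.conj (y * g) • Z) (y' * y) (Y.mul_mem hy' hy)
  · exact (Subgroup.card_map_of_injective (MulAut.conj y').injective).ge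


/-- Let Z and Y be subgroups of a finite group G and p a prime. Suppose that for every g in G the subgroup generated by the conjugates of g Z g⁻¹ under Y is a p-group. Then there is a Sylow p-subgroup P of G such that Y normalizes the subgroup generated by all conjugates of Z contained in P. -/
theorem result {G : Type*} [Group G] [Finite G] (p : ℕ) [Fact p.Prime] (Z Y : Subgroup G) (h : ∀ g : G, IsPGroup p ↥(⨆ y ∈ Y, MulAut.conj (y * g) • Z)) : ∃ P : Sylow p G, Y ≤ Subgroup.normalizer ((⨆ g ∈ {g : G | MulAut.conj g • Z ≤ (P : Subgroup G)}, MulAut.conj g • Z : Subgroup G) : Set G) := by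
  classical
  -- the family of admissible subgroups
  let C : Subgroup G → Set (Subgroup G) := fun T => {B | (∃ g : G, B = MulAut.conj g • Z) ∧ B ≤ T}
  have hCmono : ∀ {T T' : Subgroup G}, T ≤ T' → sSup (C T) ≤ sSup (C T') := by
    intro T T' hTT'
    exact sSup_le_sSup (fun B hB => ⟨hB.1, hB.2.trans hTT'⟩)
  have hRC : ∀ g : G, ∀ T : Subgroup G, (⨆ y ∈ Y, MulAut.conj (y * g) • Z) ≤ T →
      (⨆ y ∈ Y, MulAut.conj (y * g) • Z) ≤ sSup (C T) := by
    intro g T hT
    apply iSup₂_le
    intro y hy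
    exact le_sSup ⟨⟨_, rfl⟩, (le_iSup₂ (f := fun y (_ : y ∈ Y) => MulAut.conj (y * g) • Z) y hy).trans hT⟩
  let F : Set (Subgroup G) := {T | IsPGroup p T ∧ Y ≤ Subgroup.normalizer (T : Set G) ∧ T ≤ sSup (C T)}
  have hF1 : (⨆ y ∈ Y, MulAut.conj (y * 1) • Z) ∈ F :=
    ⟨h 1, le_normalizer_iSup Z Y 1, hRC 1 _ le_rfl⟩
  obtain ⟨T, hT⟩ := (Set.toFinite F).exists_maximal ⟨_, hF1⟩
  obtain ⟨hTp, hTY, hTC⟩ := hT.1
  have hTC' : sSup (C T) = T := le_antisymm (sSup_le fun B hB => hB.2) hTC
  obtain ⟨P, hP⟩ := hTp.exists_le_sylow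
  refine ⟨P, ?_⟩
  have hW : (⨆ g ∈ {g : G | MulAut.conj g • Z ≤ (P : Subgroup G)}, MulAut.conj g • Z : Subgroup G)
      = sSup (C P) := by
    apply le_antisymm
    · apply iSup₂_le
      intro g hg
      exact le_sSup ⟨⟨g, rfl⟩, hg⟩
    · apply sSup_le
      rintro _ ⟨⟨g, rfl⟩, hg⟩
      exact le_iSup₂ (f := fun g (_ : g ∈ {g : G | MulAut.conj g • Z ≤ (P : Subgroup G)}) =>
        MulAut.conj g • Z) g hg
  rw [hW]
  suffices hCC : C P = C T by rw [hCC, hTC']; exact hTY
  by_contra hne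
  have hss : C T ⊂ C P :=
    lt_of_le_of_ne (fun B hB => ⟨hB.1, hB.2.trans hP⟩) (fun h => hne h.symm)
  have hnil : Group.IsNilpotent (P : Subgroup G) := P.2.isNilpotent
  obtain ⟨X, hXP, hXT, hXn⟩ := Cfsg.Agent.S0540.exists_normalizing_member_rel (P : Subgroup G)
    (C P) (C T) (fun B hB => hB.2) (fun B _ => isSubnormal_of_nilpotent _)
    (by
      rintro _ ⟨⟨g', rfl⟩, hB⟩ g hg
      refine ⟨⟨g * g', by rw [map_mul, mul_smul]⟩, ?_⟩
      intro x hx
      rw [mem_conj_smul] at hx
      have := (P : Subgroup G).mul_mem ((P : Subgroup G).mul_mem hg (hB hx))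
        ((P : Subgroup G).inv_mem hg)
      simpa [mul_assoc] using this) hss
  rw [hTC'] at hXn
  obtain ⟨⟨g, rfl⟩, -⟩ := hXP
  set R : Subgroup G := ⨆ y ∈ Y, MulAut.conj (y * g) • Z with hR
  have hRn : R ≤ Subgroup.normalizer (T : Set G) := by
    apply iSup₂_le
    intro y hy
    rw [map_mul, mul_smul]
    have hyN := hTY hy
    intro x hx
    rw [mem_conj_smul] at hx
    have := (Subgroup.normalizer (T : Set G)).mul_mem
      ((Subgroup.normalizer (T : Set G)).mul_mem hyN (hXn hx))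
      ((Subgroup.normalizer (T : Set G)).inv_mem hyN)
    simpa [mul_assoc] using this
  have hmem : T ⊔ R ∈ F := by
    refine ⟨IsPGroup.to_sup_of_normal_left' hTp (h g) hRn, ?_, ?_⟩
    · exact le_trans (le_inf hTY (le_normalizer_iSup Z Y g)) (normalizer_inf_le_normalizer_sup T R)
    · exact sup_le (hTC.trans (hCmono le_sup_left)) (hRC g _ le_sup_right)
  have hle : T ⊔ R ≤ T := hT.2 hmem le_sup_left
  apply hXT
  refine ⟨⟨g, rfl⟩, le_trans ?_ (le_sup_right.trans hle)⟩
  have := le_iSup₂ (f := fun y (_ : y ∈ Y) => MulAut.conj (y * g) • Z) 1 Y.one_mem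
  rw [one_mul] at this
  exact this

end Cfsg.Agent.S0541
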