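import Mathlib
import Cfsg.Statements.S0542
import Cfsg.Agent.Lib.Helper4.Basic


set_option autoImplicit false
open Cfsg

namespace Cfsg.Agent.S0542

open Cfsg.Agent.Lib.Helper4

/-- A Sylow p-subgroup of a finite group meets every subnormal subgroup H in a Sylow p-subgroup of H. -/
theorem result {G : Type*} [Group G] [Finite G] (p : ℕ) [Fact p.Prime] (H : Subgroup G) (hH : H.IsSubnormal) (S : Sylow p G) : ∃ Q : Sylow p H, (Q : Subgroup H) = (S : Subgroup G).subgroupOf H := by
  have key : ¬ p ∣ (S : Subgroup G).relIndex H := by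
    induction hH with
    | top => rw [Subgroup.relIndex_top_right]; exact S.not_dvd_index
    | step H K hHK _ hN ih =>
      intro hp
      apply ih
      refine hp.trans ?_
      set T : Subgroup G := K ⊓ S with hT
      have hTn : T ≤ Subgroup.normalizer (H : Set G) :=
        inf_le_left.trans ((Subgroup.normal_subgroupOf_iff_le_normalizer hHK).mp hN)
      have h1 := card_mul_card_eq_of_le_normalizer T H hTn
      have h2 : T ⊓ H = H ⊓ S := by
        rw [hT, inf_comm, ← inf_assoc, inf_eq_left.mpr hHK]
      have h3 := card_eq_inf_mul_relIndex H (S : Subgroup G)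
      have h4 := card_eq_inf_mul_relIndex K (S : Subgroup G)
      have h5 : Nat.card (T ⊔ H : Subgroup G) ∣ Nat.card K :=
        Subgroup.card_dvd_of_le (sup_le inf_le_left hHK)
      obtain ⟨e, he⟩ := h5
      rw [h2, h3] at h1
      have hpos : 0 < Nat.card (H ⊓ S : Subgroup G) := Nat.card_pos
      have h6 : Nat.card T * (S : Subgroup G).relIndex H = Nat.card (T ⊔ H : Subgroup G) := by
        apply Nat.eq_of_mul_eq_mul_left hpos
        linarith [h1]
      refine ⟨e, ?_⟩
      have hposT : 0 < Nat.card T := Nat.card_pos
      apply Nat.eq_of_mul_eq_mul_left hposT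
      rw [← mul_assoc, h6, ← he, h4]
  exact ⟨(S.2.comap_of_injective H.subtype H.subtype_injective).toSylow key, rfl⟩

end Cfsg.Agent.S0542
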