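import Mathlib
import Cfsg.Statements.S0543
import Cfsg.Agent.Lib.Helper4.SysNorm
import Cfsg.Agent.Lib.Helper1.Hall


set_option autoImplicit false
open Pointwise
open Cfsg

namespace Cfsg.Agent.S0543

open Cfsg.Agent.Lib.Helper4


/-- In a finite solvable group any two Hall complement systems are simultaneously conjugate: one element conjugates every member of the first system to the corresponding member of the second. -/
theorem result {G : Type*} [Group G] [Finite G] [Group.IsSolvable G] (K L : Nat.Primes → Subgroup G) (hK : Cfsg.IsComplementSystem K) (hL : Cfsg.IsComplementSystem L) : ∃ g : G, ∀ p : Nat.Primes, MulAut.conj g • K p = L p := by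
  have hconj : ∀ p, ∃ n ∈ (⊤ : Subgroup G), MulAut.conj n • K p = L p := by
    intro p
    have hc : Nat.card (K p) * (K p).index = Nat.card G := (K p).card_mul_index
    have hc' : Nat.card (L p) * (L p).index = Nat.card G := (L p).card_mul_index
    have hidx : (L p).index = (K p).index := by rw [hK p, hL p]
    have hpos : 0 < (K p).index := Nat.pos_of_ne_zero (Subgroup.index_ne_zero_of_finite)
    have hcard : Nat.card (L p) = Nat.card (K p) := by
      rw [hidx, ← hc] at hc'
      exact Nat.eq_of_mul_eq_mul_right hpos hc'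
    obtain ⟨g, hg⟩ := Cfsg.Agent.Lib.Helper1.hall_conj (Nat.card (K p)) (K p).index hc.symm
      (compl_coprime hK p) (K p) (L p) rfl hcard
    exact ⟨g, Subgroup.mem_top g, hg⟩
  obtain ⟨n, -, h⟩ := simul_conj_all ⊤ K L hconj (by
    intro p
    rw [Subgroup.relIndex_top_right]
    have hd : (Subgroup.normalizer (L p : Set G)).index ∣ (p : ℕ) ^ (Nat.card G).factorization p := by
      rw [← hL p]
      exact Subgroup.index_dvd_of_le Subgroup.le_normalizer
    obtain ⟨k, -, hk⟩ := (Nat.dvd_prime_pow p.2).mp hd
    exact ⟨k, hk⟩) (fun p hp => ⟨compl_eq_top_of_not_dvd hK p hp, compl_eq_top_of_not_dvd hL p hp⟩)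
  exact ⟨n, h⟩

end Cfsg.Agent.S0543
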