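import Mathlib
import Cfsg.Statements.S0544
import Cfsg.Agent.Lib.Helper4.SysNorm


set_option autoImplicit false
open Cfsg

namespace Cfsg.Agent.S0544

open Cfsg.Agent.Lib.Helper4


/-- In a finite solvable group the intersection of the normalizers of the members of a Hall complement system is a nilpotent subgroup. -/
theorem result {G : Type*} [Group G] [Finite G] [Group.IsSolvable G] (K : Nat.Primes → Subgroup G) (hK : Cfsg.IsComplementSystem K) : Group.IsNilpotent (Cfsg.systemNormalizer K) := by
  have hle : ∀ q : Nat.Primes, systemNormalizer K ≤ Subgroup.normalizer (K q : Set G) :=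
    fun q => iInf_le _ q
  apply isNilpotent_of_normal_complements (fun q => (K q).subgroupOf (systemNormalizer K))
  · intro q
    exact Subgroup.normal_subgroupOf_of_le_normalizer (hle q)
  · intro q
    have h1 : (K q).relIndex (systemNormalizer K) ∣ (q : ℕ) ^ (Nat.card G).factorization q := by
      rw [← hK q]
      exact relIndex_dvd_index_of_le_normalizer _ _ (hle q)
    obtain ⟨k, -, hk⟩ := (Nat.dvd_prime_pow q.2).mp h1
    exact ⟨k, hk⟩
  · intro q hd
    apply compl_not_dvd_card hK q
    exact hd.trans (Subgroup.card_comap_dvd_of_injective (K q) (systemNormalizer K).subtype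
      (Subgroup.subtype_injective _))

end Cfsg.Agent.S0544
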