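import Mathlib
import Cfsg.Statements.S0546
import Cfsg.Agent.Lib.Helper4.SysNorm2


set_option autoImplicit false
open Cfsg

namespace Cfsg.Agent.S0546

open Cfsg.Agent.Lib.Helper4


/-- The normal closure of a system normalizer of a finite solvable group is the whole group. -/
theorem result {G : Type*} [Group G] [Finite G] [Group.IsSolvable G] (K : Nat.Primes → Subgroup G) (hK : Cfsg.IsComplementSystem K) : Subgroup.normalClosure ((Cfsg.systemNormalizer K : Subgroup G) : Set G) = ⊤ := by
  by_contra hne
  obtain ⟨M, hM⟩ : ∃ M : Subgroup G,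
    M = Subgroup.normalClosure ((Cfsg.systemNormalizer K : Subgroup G) : Set G) := ⟨_, rfl⟩
  rw [← hM] at hne
  have hMn : M.Normal := hM ▸ Subgroup.normalClosure_normal
  have hDM : Cfsg.systemNormalizer K ≤ M := hM ▸ Subgroup.le_normalClosure
  have hnt : Nontrivial (G ⧸ M) := by
    rw [← Finite.one_lt_card_iff_nontrivial, ← Subgroup.index_eq_card]
    have h0 : M.index ≠ 0 := Subgroup.index_ne_zero_of_finite
    have h1 : M.index ≠ 1 := fun h => hne (Subgroup.index_eq_one.mp h)
    omega
  have hlt : commutator (G ⧸ M) < ⊤ := Group.IsSolvable.commutator_lt_top_of_nontrivial _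
  obtain ⟨T, hT⟩ : ∃ T : Subgroup G, T = M ⊔ commutator G := ⟨_, rfl⟩
  have hTn : T.Normal := hT ▸ inferInstance
  have hTne : T ≠ ⊤ := by
    intro hTt
    apply hlt.ne
    have h1 : (T.map (QuotientGroup.mk' M)) = ⊤ := by
      rw [hTt, ← MonoidHom.range_eq_map, MonoidHom.range_eq_top]
      exact QuotientGroup.mk'_surjective M
    rw [hT, Subgroup.map_sup, (Subgroup.map_eq_bot_iff M).mpr (by rw [QuotientGroup.ker_mk']),
      bot_sup_eq] at h1
    rw [← h1, commutator_def, commutator_def, Subgroup.map_commutator, ← MonoidHom.range_eq_map,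
      MonoidHom.range_eq_top.mpr (QuotientGroup.mk'_surjective M)]
  have hcomm : IsMulCommutative (G ⧸ T) :=
    Subgroup.Normal.quotient_commutative_iff_commutator_le.mpr (hT ▸ le_sup_right)
  have h2 := systemNormalizer_map hK T
  have h3 : (Cfsg.systemNormalizer K).map (QuotientGroup.mk' T) = ⊥ := by
    rw [Subgroup.map_eq_bot_iff, QuotientGroup.ker_mk']
    exact hDM.trans (hT ▸ le_sup_left)
  have h4 : Cfsg.systemNormalizer (fun p => (K p).map (QuotientGroup.mk' T)) = ⊤ := by
    rw [eq_top_iff]
    intro x _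
    refine Subgroup.mem_iInf.mpr (fun p => ?_)
    rw [Subgroup.mem_normalizer_iff]
    intro h
    have : x * h * x⁻¹ = h := by
      rw [hcomm.is_comm.comm x h]; group
    show h ∈ _ ↔ x * h * x⁻¹ ∈ _
    rw [this]
  rw [h3, h4] at h2
  apply hTne
  rw [← Subgroup.index_eq_one, Subgroup.index_eq_card]
  have h5 : Subsingleton (G ⧸ T) := by
    exact subsingleton_of_bot_eq_top (α := Subgroup (G ⧸ T)) h2.symm |> fun h =>
      (Subgroup.subsingleton_iff.mp h)
  exact Nat.card_of_subsingleton 1

end Cfsg.Agent.S0546
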