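import Mathlib
import Cfsg.Statements.S0547
import Cfsg.Agent.Lib.Helper4.Complement


set_option autoImplicit false
open Cfsg

namespace Cfsg.Agent.S0547

open Cfsg.Agent.Lib.Helper4

theorem regular_aux {G : Type*} [Group G] {Ω : Type*} [MulAction G Ω] [FaithfulSMul G Ω]
    (hprim : MulAction.IsPreprimitive G Ω) (M : Subgroup G) [M.Normal] (hM : M ≠ ⊥)
    (hc : IsMulCommutative M) :
    MulAction.IsPretransitive M Ω ∧ (∀ ω : Ω, MulAction.stabilizer M ω = ⊥) := by
  have htr : MulAction.IsPretransitive M Ω := by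
    apply MulAction.IsQuasiPreprimitive.isPretransitive_of_normal (G := G)
    intro h
    apply hM
    rw [eq_bot_iff]
    intro m hm
    rw [Subgroup.mem_bot]
    apply FaithfulSMul.eq_of_smul_eq_smul (α := Ω)
    intro ω
    have : ω ∈ MulAction.fixedPoints M Ω := h ▸ Set.mem_univ ω
    rw [one_smul]
    exact this ⟨m, hm⟩
  refine ⟨htr, fun ω => ?_⟩
  rw [eq_bot_iff]
  intro m hm
  rw [Subgroup.mem_bot]
  have hm' : m • ω = ω := hm
  have : (m : G) = 1 := by
    apply FaithfulSMul.eq_of_smul_eq_smul (α := Ω)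
    intro ω'
    obtain ⟨k, rfl⟩ := MulAction.exists_smul_eq M ω ω'
    rw [one_smul]
    change m • k • ω = k • ω
    rw [← mul_smul, mul_comm' m k, mul_smul, hm']
  exact Subtype.ext this


/-- Let a finite solvable group G act faithfully and primitively on a set, and let M be a minimal normal subgroup of G. Then M is transitive with trivial point stabilizers, and the number of points equals the order of M, which is a prime power p ^ d with d ≥ 1. -/
theorem result {G : Type*} [Group G] [Finite G] [Group.IsSolvable G] {Ω : Type*} [Nonempty Ω] [MulAction G Ω] [FaithfulSMul G Ω] (hprim : MulAction.IsPreprimitive G Ω) (M : Subgroup G) [M.Normal] (hM : M ≠ ⊥) (hmin : ∀ K : Subgroup G, K.Normal → K ≤ M → K = ⊥ ∨ K = M) : MulAction.IsPretransitive M Ω ∧ (∀ ω : Ω, MulAction.stabilizer M ω = ⊥) ∧ ∃ p d : ℕ, p.Prime ∧ 0 < d ∧ Nat.card Ω = p ^ d ∧ Nat.card M = p ^ d := by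
  have hMmin : IsMinNormal M := ⟨inferInstance, hM, hmin⟩
  obtain ⟨htr, hreg⟩ := regular_aux hprim M hM hMmin.isMulCommutative
  refine ⟨htr, hreg, ?_⟩
  obtain ⟨p, hp, hE⟩ := hMmin.elemAb
  have : Fact p.Prime := ⟨hp⟩
  obtain ⟨d, hd⟩ := IsPGroup.iff_card.mp (elemAb_isPGroup hE)
  obtain ⟨ω⟩ := (inferInstance : Nonempty Ω)
  have hcard : Nat.card Ω = Nat.card M := by
    have h1 := MulAction.index_stabilizer_of_transitive M ω
    rw [hreg ω, Subgroup.index_bot] at h1
    exact h1.symm
  refine ⟨p, d, hp, ?_, by rw [hcard, hd], hd⟩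
  rcases Nat.eq_zero_or_pos d with h0 | h0
  · exfalso
    rw [h0, pow_zero] at hd
    exact hM (Subgroup.card_eq_one.mp hd)
  · exact h0

end Cfsg.Agent.S0547
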