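import Mathlib
import Cfsg.Statements.S0548
import Cfsg.Agent.Lib.Helper4.Complement
import Cfsg.Agent.S0547


set_option autoImplicit false
open Cfsg

namespace Cfsg.Agent.S0548

open Cfsg.Agent.Lib.Helper4

/-- Let a finite solvable group G act faithfully and primitively on a set, let M be a minimal normal subgroup and H the stabilizer of a point. Then H is a complement to M, no non-identity element of H centralizes M, and the only subgroups of M normalized by H are the trivial subgroup and M. -/
theorem result {G : Type*} [Group G] [Finite G] [Group.IsSolvable G] {Ω : Type*} [MulAction G Ω] [FaithfulSMul G Ω] (hprim : MulAction.IsPreprimitive G Ω) (M : Subgroup G) [M.Normal] (hM : M ≠ ⊥) (hmin : ∀ K : Subgroup G, K.Normal → K ≤ M → K = ⊥ ∨ K = M) (ω : Ω) : Subgroup.IsComplement' M (MulAction.stabilizer G ω) ∧ MulAction.stabilizer G ω ⊓ Subgroup.centralizer (M : Set G) = ⊥ ∧ ∀ K : Subgroup G, K ≤ M → MulAction.stabilizer G ω ≤ Subgroup.normalizer (K : Set G) → K = ⊥ ∨ K = M := by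
  have hMmin : IsMinNormal M := ⟨inferInstance, hM, hmin⟩
  have hc := hMmin.isMulCommutative
  obtain ⟨htr, hreg⟩ := Cfsg.Agent.S0547.regular_aux hprim M hM hc
  have h1 : M ⊓ MulAction.stabilizer G ω = ⊥ := by
    rw [eq_bot_iff]
    rintro x ⟨hxM, hxs⟩
    have : (⟨x, hxM⟩ : M) ∈ MulAction.stabilizer M ω := hxs
    rw [hreg ω, Subgroup.mem_bot] at this
    exact congrArg Subtype.val this
  have h2 : M ⊔ MulAction.stabilizer G ω = ⊤ := by
    rw [eq_top_iff]
    intro g _
    obtain ⟨m, hm⟩ := MulAction.exists_smul_eq M ω (g • ω)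
    have hm' : (m : G) • ω = g • ω := hm
    have h3 : (m : G)⁻¹ * g ∈ MulAction.stabilizer G ω := by
      rw [MulAction.mem_stabilizer_iff, mul_smul, ← hm', inv_smul_smul]
    have : g = (m : G) * ((m : G)⁻¹ * g) := by group
    rw [this]
    exact Subgroup.mul_mem _ (Subgroup.mem_sup_left m.2) (Subgroup.mem_sup_right h3)
  refine ⟨isComplement'_of_normal_left M _ h1 h2, ?_, ?_⟩
  · rw [eq_bot_iff]
    rintro h ⟨hs, hcen⟩
    rw [Subgroup.mem_bot]
    apply FaithfulSMul.eq_of_smul_eq_smul (α := Ω)
    intro ω'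
    obtain ⟨m, rfl⟩ := MulAction.exists_smul_eq M ω ω'
    have hs' : h • ω = ω := hs
    have hcm : (m : G) * h = h * (m : G) := Subgroup.mem_centralizer_iff.mp hcen m m.2
    change h • (m : G) • ω = (1 : G) • (m : G) • ω
    rw [one_smul, ← mul_smul, ← hcm, mul_smul, hs']
  · intro K hKM hK
    apply hmin K _ hKM
    apply normal_of_normalizer_ge (A := M) (B := MulAction.stabilizer G ω) _ hK h2
    refine le_trans ?_ (Subgroup.centralizer_le_normalizer _)
    intro m hm
    rw [Subgroup.mem_centralizer_iff]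
    intro k hk
    exact (isMulCommutative_iff M).mp hc k (hKM hk) m hm

end Cfsg.Agent.S0548
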