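import Mathlib
import Cfsg.Statements.S0549
import Cfsg.Agent.Lib.Helper4.MinNormal
import Cfsg.Agent.Lib.Helper4.Supersolvable2


set_option autoImplicit false
open Cfsg

namespace Cfsg.Agent.S0549

open Cfsg.Agent.Lib.Helper4

theorem corefree_aux {G : Type*} [Group G] (U : Subgroup G) (hU : IsCoatom U) (hcore : U.normalCore = ⊥) (N : Subgroup G) [N.Normal] (hN : N ≠ ⊥) : Subgroup.centralizer (N : Set G) ⊓ U = ⊥ ∧ (Subgroup.centralizer (N : Set G) = ⊥ ∨ (Subgroup.centralizer (N : Set G) ≠ ⊥ ∧ ∀ K : Subgroup G, K.Normal → K ≤ Subgroup.centralizer (N : Set G) → K = ⊥ ∨ K = Subgroup.centralizer (N : Set G))) := by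
  have hNU : U ⊔ N = ⊤ := sup_eq_top_of_coatom hU (not_le_of_normalCore_eq_bot hcore hN)
  have hCn : (Subgroup.centralizer (N : Set G)).Normal := inferInstance
  have h1 : Subgroup.centralizer (N : Set G) ⊓ U = ⊥ := by
    have hn : (Subgroup.centralizer (N : Set G) ⊓ U).Normal := by
      apply normal_of_normalizer_ge (A := U) (B := N) _ _ hNU
      · refine le_trans ?_ Subgroup.inf_normalizer_le_normalizer_inf
        exact le_inf Subgroup.le_normalizer_of_normal Subgroup.le_normalizer
      · have : N ≤ Subgroup.centralizer ((Subgroup.centralizer (N : Set G) ⊓ U : Subgroup G) : Set G) := by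
          rw [Subgroup.le_centralizer_iff]
          exact inf_le_left
        exact this.trans (Subgroup.centralizer_le_normalizer _)
    rw [eq_bot_iff, ← hcore]
    exact Subgroup.normal_le_normalCore.mpr inf_le_right
  refine ⟨h1, ?_⟩
  by_cases hC : Subgroup.centralizer (N : Set G) = ⊥
  · exact Or.inl hC
  · refine Or.inr ⟨hC, fun K hK hKC => ?_⟩
    by_cases hK1 : K = ⊥
    · exact Or.inl hK1
    · right
      have hKU : K ⊔ U = ⊤ := by
        rw [sup_comm]
        exact sup_eq_top_of_coatom hU (not_le_of_normalCore_eq_bot hcore hK1)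
      have := inf_sup_eq_of_le_of_normal K (Subgroup.centralizer (N : Set G)) U hKC
      rw [hKU, h1, inf_top_eq, sup_bot_eq] at this
      exact this.symm


/-- Let U be a maximal subgroup of a finite group G whose normal core is trivial, and N a nontrivial normal subgroup with centralizer C. Then C ∩ U = 1, and either C = 1 or C is a minimal normal subgroup of G. -/
theorem result {G : Type*} [Group G] [Finite G] (U : Subgroup G) (hU : IsCoatom U) (hcore : U.normalCore = ⊥) (N : Subgroup G) [N.Normal] (hN : N ≠ ⊥) : Subgroup.centralizer (N : Set G) ⊓ U = ⊥ ∧ (Subgroup.centralizer (N : Set G) = ⊥ ∨ (Subgroup.centralizer (N : Set G) ≠ ⊥ ∧ ∀ K : Subgroup G, K.Normal → K ≤ Subgroup.centralizer (N : Set G) → K = ⊥ ∨ K = Subgroup.centralizer (N : Set G))) := by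
  exact corefree_aux U hU hcore N hN

end Cfsg.Agent.S0549
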