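import Mathlib
import Cfsg.Statements.S0550
import Cfsg.Agent.Lib.Helper4.Complement
import Cfsg.Agent.S0549


set_option autoImplicit false
open Cfsg

namespace Cfsg.Agent.S0550

open Cfsg.Agent.Lib.Helper4

/-- Let U be a maximal subgroup with trivial normal core in a finite group G, and A ≠ B two minimal normal subgroups. Then A is the centralizer of B and B that of A, U complements each of them, A and B are non-abelian, and A, B and (A ⊔ B) ∩ U are pairwise isomorphic. -/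
theorem result {G : Type*} [Group G] [Finite G] (U : Subgroup G) (hU : IsCoatom U) (hcore : U.normalCore = ⊥) (A B : Subgroup G) [A.Normal] [B.Normal] (hA : A ≠ ⊥) (hB : B ≠ ⊥) (hAmin : ∀ K : Subgroup G, K.Normal → K ≤ A → K = ⊥ ∨ K = A) (hBmin : ∀ K : Subgroup G, K.Normal → K ≤ B → K = ⊥ ∨ K = B) (hAB : A ≠ B) : Subgroup.centralizer (B : Set G) = A ∧ Subgroup.centralizer (A : Set G) = B ∧ Subgroup.IsComplement' A U ∧ Subgroup.IsComplement' B U ∧ ¬ IsMulCommutative A ∧ Nonempty (A ≃* B) ∧ Nonempty (A ≃* ↥((A ⊔ B) ⊓ U)) := by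
  have hAB0 : A ⊓ B = ⊥ := by
    rcases hAmin (A ⊓ B) inferInstance inf_le_left with h | h
    · exact h
    · have hle : A ≤ B := h ▸ inf_le_right
      rcases hBmin A inferInstance hle with h' | h'
      · exact absurd h' hA
      · exact absurd h' hAB
  have hcomm : ⁅A, B⁆ = ⊥ := eq_bot_iff.mpr (hAB0 ▸ Subgroup.commutator_le_inf A B)
  have hA_le : A ≤ Subgroup.centralizer (B : Set G) :=
    Subgroup.commutator_eq_bot_iff_le_centralizer.mp hcomm
  have hB_le : B ≤ Subgroup.centralizer (A : Set G) := by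
    rw [Subgroup.commutator_comm] at hcomm
    exact Subgroup.commutator_eq_bot_iff_le_centralizer.mp hcomm
  obtain ⟨hB1, hB2⟩ := Cfsg.Agent.S0549.corefree_aux U hU hcore B hB
  obtain ⟨hA1, hA2⟩ := Cfsg.Agent.S0549.corefree_aux U hU hcore A hA
  have hCB : Subgroup.centralizer (B : Set G) = A := by
    rcases hB2 with h | ⟨_, h⟩
    · exact absurd (le_bot_iff.mp (h ▸ hA_le)) hA
    · exact ((h A inferInstance hA_le).resolve_left hA).symm
  have hCA : Subgroup.centralizer (A : Set G) = B := by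
    rcases hA2 with h | ⟨_, h⟩
    · exact absurd (le_bot_iff.mp (h ▸ hB_le)) hB
    · exact ((h B inferInstance hB_le).resolve_left hB).symm
  have hAU : A ⊓ U = ⊥ := hCB ▸ hB1
  have hBU : B ⊓ U = ⊥ := hCA ▸ hA1
  have hAUt : A ⊔ U = ⊤ := by
    rw [sup_comm]; exact sup_eq_top_of_coatom hU (not_le_of_normalCore_eq_bot hcore hA)
  have hBUt : B ⊔ U = ⊤ := by
    rw [sup_comm]; exact sup_eq_top_of_coatom hU (not_le_of_normalCore_eq_bot hcore hB)
  have hDB : ((A ⊔ B) ⊓ U) ⊔ B = A ⊔ B := by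
    have := inf_sup_eq_of_le_of_normal B (A ⊔ B) U le_sup_right
    rw [hBUt, inf_top_eq] at this
    rw [sup_comm, ← this]
  have hDA : ((A ⊔ B) ⊓ U) ⊔ A = B ⊔ A := by
    have := inf_sup_eq_of_le_of_normal A (A ⊔ B) U le_sup_left
    rw [hAUt, inf_top_eq] at this
    rw [sup_comm, ← this, sup_comm]
  have hD1 : ((A ⊔ B) ⊓ U) ⊓ B = ⊥ := by
    rw [eq_bot_iff, ← hBU]
    exact le_inf inf_le_right (inf_le_left.trans inf_le_right)
  have hD2 : ((A ⊔ B) ⊓ U) ⊓ A = ⊥ := by
    rw [eq_bot_iff, ← hAU]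
    exact le_inf inf_le_right (inf_le_left.trans inf_le_right)
  obtain ⟨e1⟩ := nonempty_mulEquiv_of_sup_eq B A ((A ⊔ B) ⊓ U) hAB0 hD1 hDB.symm
  obtain ⟨e2⟩ := nonempty_mulEquiv_of_sup_eq A B ((A ⊔ B) ⊓ U) (by rw [inf_comm]; exact hAB0) hD2
    hDA.symm
  refine ⟨hCB, hCA, isComplement'_of_normal_left A U hAU hAUt,
    isComplement'_of_normal_left B U hBU hBUt, ?_, ⟨e1.trans e2.symm⟩, ⟨e1⟩⟩
  intro hc
  have h1 : A ≤ Subgroup.centralizer (A : Set G) := by
    intro a ha
    rw [Subgroup.mem_centralizer_iff]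
    intro b hb
    exact (isMulCommutative_iff A).mp hc b hb a ha
  rw [hCA] at h1
  apply hA
  rw [eq_bot_iff, ← hAB0]
  exact le_inf le_rfl h1

end Cfsg.Agent.S0550
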