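import Mathlib
import Cfsg.Statements.S0583


set_option autoImplicit false
open Cfsg

namespace Cfsg.Agent.S0583

/-- In a finite group the Fitting subgroup is contained in the centralizer of each minimal normal subgroup. -/
theorem result {G : Type*} [Group G] [Finite G] (M : Subgroup G) [M.Normal] (hM : M ≠ ⊥) (hmin : ∀ K : Subgroup G, K.Normal → K ≤ M → K = ⊥ ∨ K = M) : Cfsg.fittingSubgroup G ≤ Subgroup.centralizer (M : Set G) := by
  apply sSup_le
  rintro N ⟨hN, hnil⟩
  have hK : (N ⊓ M).Normal := inferInstance
  rcases hmin (N ⊓ M) hK inf_le_right with h | h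
  · rw [← Subgroup.commutator_eq_bot_iff_le_centralizer, eq_bot_iff, ← h]
    exact Subgroup.commutator_le_inf N M
  · have hMN : M ≤ N := by rw [← h]; exact inf_le_left
    have hc : (⁅M, N⁆ : Subgroup G).Normal := inferInstance
    have hcM : ⁅M, N⁆ ≤ M := Subgroup.commutator_le_left M N
    rcases hmin _ hc hcM with h' | h'
    · rw [← Subgroup.commutator_eq_bot_iff_le_centralizer, Subgroup.commutator_comm]
      exact h'
    · exfalso
      obtain ⟨n, hn⟩ := (Subgroup.isNilpotent_iff_lowerCentralSeries N).mp hnil
      have key : ∀ k, M ≤ N.lowerCentralSeries k := by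
        intro k
        induction k with
        | zero => simpa using hMN
        | succ k ih =>
          rw [Subgroup.lowerCentralSeries_succ]
          calc M = ⁅M, N⁆ := h'.symm
            _ ≤ _ := Subgroup.commutator_mono ih le_rfl
      have := key n
      rw [hn, le_bot_iff] at this
      exact hM this

end Cfsg.Agent.S0583
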