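import Mathlib
import Cfsg.Statements.S0551
import Cfsg.Agent.Lib.Helper4.Complement
import Cfsg.Agent.Lib.Helper4.Supersolvable2
import Cfsg.Agent.S0549
import Cfsg.Agent.S0583


set_option autoImplicit false
open Pointwise
open Cfsg

namespace Cfsg.Agent.S0551

open Cfsg.Agent.Lib.Helper4

open scoped Pointwise

/-- In a finite solvable group all core-free maximal subgroups are conjugate. -/
theorem result {G : Type*} [Group G] [Finite G] [Group.IsSolvable G] (U V : Subgroup G) (hU : IsCoatom U) (hV : IsCoatom V) (hUc : U.normalCore = ⊥) (hVc : V.normalCore = ⊥) : ∃ g : G, MulAut.conj g • U = V := by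
  have hnt : Nontrivial G := by
    by_contra hnt
    rw [not_nontrivial_iff_subsingleton] at hnt
    exact hU.1 (Subsingleton.elim _ _)
  obtain ⟨N, hN, -⟩ := exists_minNormal_le (⊤ : Subgroup G) inferInstance top_ne_bot
  have hNn := hN.1
  have hNc := hN.isMulCommutative
  obtain ⟨p, hp, hNE⟩ := hN.elemAb
  have hfp : Fact p.Prime := ⟨hp⟩
  have hNleC : N ≤ Subgroup.centralizer (N : Set G) := by
    intro a ha
    rw [Subgroup.mem_centralizer_iff]
    intro b hb
    exact (isMulCommutative_iff N).mp hNc b hb a ha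
  -- facts for a core-free maximal subgroup
  have facts : ∀ W : Subgroup G, IsCoatom W → W.normalCore = ⊥ →
      Subgroup.centralizer (N : Set G) = N ∧ N ⊓ W = ⊥ ∧ N ⊔ W = ⊤ := by
    intro W hW hWc
    obtain ⟨h1, h2⟩ := Cfsg.Agent.S0549.corefree_aux W hW hWc N hN.2.1
    have hC : Subgroup.centralizer (N : Set G) = N := by
      rcases h2 with h | ⟨_, h⟩
      · exact absurd (le_bot_iff.mp (h ▸ hNleC)) hN.2.1
      · exact ((h N hNn hNleC).resolve_left hN.2.1).symm
    refine ⟨hC, hC ▸ h1, ?_⟩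
    rw [sup_comm]
    exact sup_eq_top_of_coatom hW (not_le_of_normalCore_eq_bot hWc hN.2.1)
  obtain ⟨hCN, hNU, hNUt⟩ := facts U hU hUc
  obtain ⟨-, hNV, hNVt⟩ := facts V hV hVc
  by_cases hNtop : N = ⊤
  · refine ⟨1, ?_⟩
    rw [hNtop, top_inf_eq] at hNU hNV
    rw [hNU, hNV]
    simp
  have hQnt : Nontrivial (G ⧸ N) := by
    rw [← Finite.one_lt_card_iff_nontrivial]
    have h1 : Nat.card (G ⧸ N) ≠ 1 := by
      intro h
      apply hNtop
      exact Subgroup.index_eq_one.mp h
    have h0 : 0 < Nat.card (G ⧸ N) := Nat.card_pos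
    omega
  obtain ⟨L', hL', -⟩ := exists_minNormal_le (⊤ : Subgroup (G ⧸ N)) inferInstance top_ne_bot
  obtain ⟨q, hq, hL'E⟩ := hL'.elemAb
  have hfq : Fact q.Prime := ⟨hq⟩
  set L := L'.comap (QuotientGroup.mk' N) with hL
  have hLn : L.Normal := hL'.1.comap _
  have hNL : N ≤ L := by
    conv_lhs => rw [← QuotientGroup.ker_mk' N]
    exact Subgroup.ker_le_comap _ _
  have hLc : Nat.card L = Nat.card L' * Nat.card N := card_comap_mk N L'
  obtain ⟨a, ha⟩ := IsPGroup.iff_card.mp (elemAb_isPGroup hNE)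
  obtain ⟨b, hb⟩ := IsPGroup.iff_card.mp (elemAb_isPGroup hL'E)
  have hLN : L ≠ N := by
    intro h
    rw [h] at hLc
    have h0 : 0 < Nat.card N := Nat.card_pos
    have h1 : Nat.card L' = 1 := by nlinarith
    exact hL'.2.1 (Subgroup.card_eq_one.mp h1)
  have hqp : q ≠ p := by
    rintro rfl
    have hLp : IsPGroup q L := IsPGroup.of_card (n := b + a) (by rw [hLc, ha, hb, pow_add])
    have hLnil : Group.IsNilpotent L := hLp.isNilpotent
    have h1 : L ≤ Cfsg.fittingSubgroup G := le_sSup ⟨hLn, hLnil⟩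
    have h2 := Cfsg.Agent.S0583.result N hN.2.1 hN.2.2
    rw [hCN] at h2
    exact hLN (le_antisymm (h1.trans h2) hNL)
  -- properties of `L ⊓ W`
  have facts2 : ∀ W : Subgroup G, IsCoatom W → W.normalCore = ⊥ → N ⊓ W = ⊥ → N ⊔ W = ⊤ →
      Nat.card (L ⊓ W : Subgroup G) = q ^ b ∧ Subgroup.normalizer ((L ⊓ W : Subgroup G) : Set G) = W := by
    intro W hW hWc h1 h2
    have h3 := inf_sup_eq_of_le_of_normal N L W hNL
    rw [h2, inf_top_eq] at h3
    have h4 := card_mul_card_eq_of_le_normalizer (L ⊓ W) N Subgroup.le_normalizer_of_normal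
    have h5 : (L ⊓ W) ⊓ N = ⊥ := by
      rw [eq_bot_iff, ← h1]
      exact le_inf inf_le_right (inf_le_left.trans inf_le_right)
    rw [h5, Subgroup.card_bot, mul_one, sup_comm, ← h3, hLc] at h4
    have h6 : Nat.card (L ⊓ W : Subgroup G) = q ^ b := by
      rw [← hb]
      exact Nat.eq_of_mul_eq_mul_right Nat.card_pos h4
    refine ⟨h6, ?_⟩
    have h7 : W ≤ Subgroup.normalizer ((L ⊓ W : Subgroup G) : Set G) := by
      refine le_trans ?_ Subgroup.inf_normalizer_le_normalizer_inf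
      exact le_inf Subgroup.le_normalizer_of_normal Subgroup.le_normalizer
    rcases hW.le_iff.mp h7 with h8 | h8
    · exfalso
      have h9 : (L ⊓ W).Normal := Subgroup.normalizer_eq_top_iff.mp h8
      have h10 : L ⊓ W = ⊥ := by
        rw [eq_bot_iff, ← hWc]
        exact Subgroup.normal_le_normalCore.mpr inf_le_right
      rw [h10, sup_bot_eq] at h3
      exact hLN h3
    · exact h8
  obtain ⟨hUc1, hUn⟩ := facts2 U hU hUc hNU hNUt
  obtain ⟨hVc1, hVn⟩ := facts2 V hV hVc hNV hNVt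
  -- Sylow subgroups of `L`
  have hsyl : ∀ W : Subgroup G, Nat.card (L ⊓ W : Subgroup G) = q ^ b →
      ∃ S : Sylow q L, (S : Subgroup L) = (L ⊓ W).subgroupOf L := by
    intro W hWc
    have h1 : Nat.card ((L ⊓ W).subgroupOf L) = q ^ b := by
      rw [card_subgroupOf_of_le inf_le_left, hWc]
    have h2 : IsPGroup q ((L ⊓ W).subgroupOf L) := IsPGroup.of_card h1
    have h3 : ¬ q ∣ ((L ⊓ W).subgroupOf L).index := by
      have h4 := Subgroup.card_mul_index ((L ⊓ W).subgroupOf L)
      rw [h1, hLc, hb] at h4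
      have h5 : ((L ⊓ W).subgroupOf L).index = Nat.card N :=
        Nat.eq_of_mul_eq_mul_left (pow_pos hq.pos b) h4
      rw [h5, ha]
      intro hd
      exact hqp ((Nat.prime_dvd_prime_iff_eq hq hp).mp (hq.dvd_of_dvd_pow hd))
    exact ⟨h2.toSylow h3, rfl⟩
  obtain ⟨SU, hSU⟩ := hsyl U hUc1
  obtain ⟨SV, hSV⟩ := hsyl V hVc1
  obtain ⟨x, hx⟩ := MulAction.exists_smul_eq L SU SV
  refine ⟨(x : G), ?_⟩
  have hx' : MulAut.conj x • (SU : Subgroup L) = (SV : Subgroup L) := by
    rw [← hx]; rfl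
  rw [hSU, hSV] at hx'
  have hconj : MulAut.conj (x : G) • (L ⊓ U) = L ⊓ V := by
    have h1 := congrArg (Subgroup.map L.subtype) hx'
    rw [Subgroup.map_subgroupOf_eq_of_le inf_le_left] at h1
    rw [← h1]
    ext y
    rw [mem_conj_smul]
    constructor
    · intro hy
      have hyL : y ∈ L := by
        have := L.mul_mem (L.mul_mem x.2 hy.1) (L.inv_mem x.2)
        simpa [mul_assoc] using this
      refine ⟨⟨y, hyL⟩, ?_, rfl⟩
      rw [SetLike.mem_coe, mem_conj_smul, Subgroup.mem_subgroupOf]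
      exact hy
    · rintro ⟨z, hz, rfl⟩
      rw [SetLike.mem_coe, mem_conj_smul, Subgroup.mem_subgroupOf] at hz
      exact hz
  rw [← hUn, ← hVn, ← hconj]
  exact Subgroup.map_equiv_normalizer_eq (L ⊓ U) (MulAut.conj (x : G))

end Cfsg.Agent.S0551
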