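import Mathlib
import Cfsg.Statements.S0552
import Cfsg.Agent.S0044
import Cfsg.Agent.Lib.Helper1.Fitting


set_option autoImplicit false
open Cfsg

namespace Cfsg.Agent.S0552




/-- Let σ be an automorphism of a finite solvable group G fixing every element of the Fitting subgroup. If σ is not the identity then the order of σ and the order of G have a common prime factor. -/
theorem result {G : Type*} [Group G] [Finite G] [Group.IsSolvable G] (σ : G ≃* G) (hσ : ∀ x ∈ Cfsg.fittingSubgroup G, σ x = x) (hne : σ ≠ MulEquiv.refl G) : ¬ (orderOf σ).Coprime (Nat.card G) := by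
  intro hcop
  apply hne
  have hF : (Cfsg.fittingSubgroup G).Normal := Cfsg.Agent.Lib.Helper1.fitting_normal
  -- z = x⁻¹ σ x is fixed by σ
  have hz : ∀ x : G, σ (x⁻¹ * σ x) = x⁻¹ * σ x := by
    intro x
    apply hσ
    apply Cfsg.Agent.S0044.result
    rw [Subgroup.mem_centralizer_iff]
    intro f hf
    have h1 : σ (x * f * x⁻¹) = x * f * x⁻¹ := hσ _ (hF.conj_mem f hf x)
    rw [map_mul, map_mul, map_inv, hσ f hf] at h1
    -- σ x * f * (σ x)⁻¹ = x * f * x⁻¹
    have h2 : σ x * f = x * f * x⁻¹ * σ x := by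
      rw [← h1]; group
    calc f * (x⁻¹ * σ x) = x⁻¹ * (x * f * x⁻¹ * σ x) := by group
      _ = x⁻¹ * (σ x * f) := by rw [h2]
      _ = x⁻¹ * σ x * f := by group
  have hpow : ∀ (k : ℕ) (x : G), (σ ^ k) x = x * (x⁻¹ * σ x) ^ k := by
    intro k
    induction k with
    | zero => intro x; simp
    | succ k ih =>
      intro x
      rw [pow_succ', MulAut.mul_apply, ih, map_mul, map_pow, hz x, pow_succ', ← mul_assoc,
        mul_inv_cancel_left]
  ext x
  have h1 := hpow (orderOf σ) x
  rw [pow_orderOf_eq_one] at h1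
  have h2 : (x⁻¹ * σ x) ^ orderOf σ = 1 := by
    have : x * 1 = x * (x⁻¹ * σ x) ^ orderOf σ := by simpa using h1
    exact (mul_left_cancel this).symm
  have d1 := orderOf_dvd_of_pow_eq_one h2
  have d2 := orderOf_dvd_natCard (x⁻¹ * σ x)
  have d3 : orderOf (x⁻¹ * σ x) ∣ 1 := hcop ▸ Nat.dvd_gcd d1 d2
  have h5 := orderOf_eq_one_iff.mp (Nat.dvd_one.mp d3)
  have : σ x = x := by
    have := congrArg (fun t => x * t) h5
    simpa using this
  simpa using this

end Cfsg.Agent.S0552
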