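import Mathlib
import Cfsg.Statements.S0553
import Cfsg.Agent.Lib.Helper4.MinNormal
import Cfsg.Agent.Lib.Helper4.Supersolvable2


set_option autoImplicit false
open Cfsg

namespace Cfsg.Agent.S0553

open Cfsg.Agent.Lib.Helper4

universe u

theorem aux (n : ℕ) : ∀ {G : Type u} [Group G] [Finite G] [Group.IsSolvable G] [Nontrivial G],
    Nat.card G = n → (∀ M : Subgroup G, IsCoatom M → (Nat.card M).Coprime M.index) →
    ∃ p : ℕ, p.Prime ∧ p ∣ Nat.card G ∧ ∀ P : Sylow p G, (P : Subgroup G).Normal := by
  induction n using Nat.strong_induction_on with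
  | _ n ih =>
    intro G _ _ _ _ hn h
    obtain ⟨N, hN, -⟩ := exists_minNormal_le (⊤ : Subgroup G) inferInstance top_ne_bot
    have hNn := hN.1
    obtain ⟨p, hp, hNe⟩ := hN.elemAb
    have : Fact p.Prime := ⟨hp⟩
    have hNp : IsPGroup p N := elemAb_isPGroup hNe
    obtain ⟨k, hk⟩ := IsPGroup.iff_card.mp hNp
    have hN1 : 1 < Nat.card N := by
      rw [Subgroup.one_lt_card_iff_ne_bot]; exact hN.2.1
    have hk0 : k ≠ 0 := by
      rintro rfl
      rw [hk] at hN1
      simp at hN1
    have hpN : p ∣ Nat.card N := by rw [hk]; exact dvd_pow_self p hk0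
    have hpG : p ∣ Nat.card G := hpN.trans (Subgroup.card_subgroup_dvd_card N)
    by_cases hcase : ∃ M : Subgroup G, IsCoatom M ∧ ¬ N ≤ M
    · obtain ⟨M, hM, hNM⟩ := hcase
      have hsup : M ⊔ N = ⊤ := sup_eq_top_of_coatom hM hNM
      have hc := card_mul_card_eq_of_le_normalizer M N
        (by rw [Subgroup.normalizer_eq_top_iff.mpr hNn]; exact le_top)
      rw [hsup, Subgroup.card_top] at hc
      have hMpos : 0 < Nat.card M := Nat.card_pos
      have hNpos : 0 < Nat.card N := Nat.card_pos
      have h1 : M.index * Nat.card (M ⊓ N : Subgroup G) = Nat.card N := by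
        have h0 := M.card_mul_index
        rw [← h0, mul_assoc] at hc
        exact (Nat.eq_of_mul_eq_mul_left hMpos hc).symm
      have h2 : p ∣ M.index := by
        have hd : M.index ∣ p ^ k := by rw [← hk, ← h1]; exact dvd_mul_right _ _
        obtain ⟨j, -, hj⟩ := (Nat.dvd_prime_pow hp).mp hd
        have hj0 : j ≠ 0 := by
          rintro rfl
          rw [pow_zero, Subgroup.index_eq_one] at hj
          exact hM.1 hj
        rw [hj]; exact dvd_pow_self p hj0
      have h3 : ¬ p ∣ Nat.card M := by
        intro hd
        have := Nat.dvd_gcd hd h2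
        rw [h M hM] at this
        exact hp.one_lt.ne' (Nat.dvd_one.mp this)
      have h4 : ¬ p ∣ N.index := by
        intro hd
        apply h3
        have h0 := N.card_mul_index
        rw [← h0] at hc
        have h5 : Nat.card M = N.index * Nat.card (M ⊓ N : Subgroup G) := by
          have : Nat.card N * Nat.card M = Nat.card N * (N.index * Nat.card (M ⊓ N : Subgroup G)) := by
            rw [mul_comm, hc, mul_assoc]
          exact Nat.eq_of_mul_eq_mul_left hNpos this
        rw [h5]; exact hd.mul_right _
      exact ⟨p, hp, hpG, fun P => by rw [sylow_eq_of_normal N hNn hNp h4 P]; exact hNn⟩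
    · push Not at hcase
      by_cases hNtop : N = ⊤
      · have h4 : ¬ p ∣ N.index := by
          rw [hNtop, Subgroup.index_top]
          exact fun hd => hp.one_lt.ne' (Nat.dvd_one.mp hd)
        exact ⟨p, hp, hpG, fun P => by rw [sylow_eq_of_normal N hNn hNp h4 P]; exact hNn⟩
      have hnt : Nontrivial (G ⧸ N) := QuotientGroup.nontrivial_iff.mpr hNtop
      obtain ⟨q, hq, hqd, hqn⟩ := ih (Nat.card (G ⧸ N)) (hn ▸ card_quotient_lt N hN1) rfl
        (fun K hK => by
          have h1 := h _ (isCoatom_comap_mk' N K hK)
          rw [card_comap_mk, Subgroup.index_comap_of_surjective _ (QuotientGroup.mk'_surjective N)] at h1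
          exact h1.coprime_mul_right)
      have : Fact q.Prime := ⟨hq⟩
      have hqG : q ∣ Nat.card G := by
        rw [card_eq_card_quotient_mul N]; exact hqd.mul_right _
      obtain ⟨T⟩ : Nonempty (Sylow q G) := inferInstance
      have hTbar := hqn (T.mapSurjective (QuotientGroup.mk'_surjective N))
      rw [Sylow.coe_mapSurjective] at hTbar
      have hQn : ((T : Subgroup G) ⊔ N).Normal := by
        have h1 : (((T : Subgroup G).map (QuotientGroup.mk' N)).comap (QuotientGroup.mk' N)) =
            (T : Subgroup G) ⊔ N := by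
          rw [Subgroup.comap_map_eq, QuotientGroup.ker_mk']
        rw [← h1]
        exact hTbar.comap _
      have hfr := Sylow.normalizer_sup_eq_top' (N := (T : Subgroup G) ⊔ N) T le_sup_left
      have hfr2 : Subgroup.normalizer ((T : Subgroup G) : Set G) ⊔ N = ⊤ := by
        rw [eq_top_iff, ← hfr]
        refine sup_le le_sup_left (sup_le ?_ le_sup_right)
        exact le_trans Subgroup.le_normalizer le_sup_left
      have hTn : (T : Subgroup G).Normal := by
        rw [← Subgroup.normalizer_eq_top_iff]
        by_contra hne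
        obtain ⟨M, hM, hle⟩ := exists_le_coatom _ hne
        apply hM.1
        rw [eq_top_iff, ← hfr2]
        exact sup_le hle (hcase M hM)
      exact ⟨q, hq, hqG, fun P => by
        rw [sylow_eq_of_normal (T : Subgroup G) hTn T.2 T.not_dvd_index P]; exact hTn⟩


/-- Let G be a nontrivial finite solvable group in which every maximal subgroup has order coprime to its index. Then for some prime p dividing the order of G the Sylow p-subgroups of G are normal. -/
theorem result {G : Type*} [Group G] [Finite G] [Group.IsSolvable G] [Nontrivial G] (h : ∀ M : Subgroup G, IsCoatom M → (Nat.card M).Coprime M.index) : ∃ p : ℕ, p.Prime ∧ p ∣ Nat.card G ∧ ∀ P : Sylow p G, (P : Subgroup G).Normal := by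
  exact aux _ rfl h

end Cfsg.Agent.S0553
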