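import Mathlib
import Cfsg.Statements.S0554
import Cfsg.Agent.Lib.Helper4.Cores
import Cfsg.Agent.Lib.Helper4.MinNormal
import Cfsg.Agent.Lib.Helper4.Complement
import Cfsg.Agent.Lib.Helper4.Supersolvable


set_option autoImplicit false
open Cfsg

namespace Cfsg.Agent.S0554

universe u

open Cfsg.Agent.Lib.Helper4

/-- `Cover L g`: `g` is an ordered product of elements of the subgroups in the list `L`. -/
def Cover {G : Type*} [Group G] : List (Subgroup G) → G → Prop
  | [], g => g = 1
  | (T :: L), g => ∃ a ∈ T, ∃ g', Cover L g' ∧ g = a * g'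

theorem cover_mul_normal {G : Type*} [Group G] (N : Subgroup G) [hN : N.Normal] :
    ∀ (L : List (Subgroup G)), (∃ T ∈ L, N ≤ T) → ∀ g : G, Cover L g → ∀ n ∈ N, Cover L (g * n) := by
  intro L
  induction L with
  | nil =>
    rintro ⟨T, hT, -⟩
    simp at hT
  | cons T L ih =>
    rintro ⟨T', hT', hNT'⟩ g ⟨a, ha, g', hg', rfl⟩ n hn
    by_cases hNT : N ≤ T
    · refine ⟨a * (g' * n * g'⁻¹), T.mul_mem ha (hNT (hN.conj_mem n hn g')), g', hg', ?_⟩
      group
    · have hmem : T' ∈ L := by
        rcases List.mem_cons.mp hT' with h | h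
        · exact absurd (h ▸ hNT') hNT
        · exact h
      exact ⟨a, ha, g' * n, ih ⟨T', hmem, hNT'⟩ g' hg' n hn, by group⟩

theorem cover_ofFn {G : Type*} [Group G] : ∀ (t : ℕ) (T : Fin t → Subgroup G) (g : G),
    Cover (List.ofFn T) g ↔ ∃ s : Fin t → G, (∀ i, s i ∈ T i) ∧ g = (List.ofFn s).prod := by
  intro t
  induction t with
  | zero =>
    intro T g
    simp [Cover]
  | succ t ih =>
    intro T g
    rw [List.ofFn_succ]
    constructor
    · rintro ⟨a, ha, g', hg', rfl⟩
      obtain ⟨s, hs, rfl⟩ := (ih _ _).mp hg'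
      refine ⟨Fin.cons a s, ?_, ?_⟩
      · intro i
        refine Fin.cases ?_ (fun j => ?_) i
        · simpa using ha
        · simpa using hs j
      · rw [List.ofFn_succ]
        simp
    · rintro ⟨s, hs, rfl⟩
      refine ⟨s 0, hs 0, (List.ofFn (fun i : Fin t => s i.succ)).prod,
        (ih _ _).mpr ⟨fun i => s i.succ, fun i => hs i.succ, rfl⟩, ?_⟩
      rw [List.ofFn_succ]
      simp

theorem main (n : ℕ) : ∀ (G : Type u) [Group G] [Finite G] [Group.IsSolvable G], Nat.card G = n →
    ∀ (t : ℕ) (p : Fin t → ℕ) (_ : ∀ i, (p i).Prime)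
    (_ : ∀ q : ℕ, q.Prime → q ∣ Nat.card G → ∃ i, p i = q) (S : (i : Fin t) → Sylow (p i) G),
    ∀ g : G, ∃ s : (i : Fin t) → G, (∀ i, s i ∈ (S i : Subgroup G)) ∧ g = (List.ofFn s).prod := by
  induction n using Nat.strong_induction_on with
  | _ n ih =>
    intro G _ _ _ hn t p hp hall S g
    by_cases htriv : (⊤ : Subgroup G) = ⊥
    · refine ⟨fun _ => 1, fun i => Subgroup.one_mem _, ?_⟩
      have hg : g = 1 := by
        have : g ∈ (⊤ : Subgroup G) := Subgroup.mem_top g
        rw [htriv] at this
        exact Subgroup.mem_bot.mp this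
      rw [hg]
      simp
    · obtain ⟨N, hN, -⟩ := exists_minNormal_le (⊤ : Subgroup G) inferInstance htriv
      obtain ⟨q, hq, hNq⟩ := hN.elemAb
      have hNn : N.Normal := hN.1
      have hqN : IsPGroup q N := by
        intro x
        refine ⟨1, ?_⟩
        apply Subtype.ext
        simpa using hNq.2 x x.2
      have hqd : q ∣ Nat.card G := by
        have hq' : Fact q.Prime := ⟨hq⟩
        obtain ⟨k, hk⟩ := (IsPGroup.iff_card).mp hqN
        have hk0 : k ≠ 0 := by
          rintro rfl
          rw [pow_zero] at hk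
          exact hN.2.1 ((Subgroup.card_eq_one).mp hk)
        exact (dvd_pow_self q hk0).trans (hk ▸ Subgroup.card_subgroup_dvd_card N)
      obtain ⟨j, hj⟩ := hall q hq hqd
      have hfact : ∀ i, Fact (p i).Prime := fun i => ⟨hp i⟩
      have hNS : N ≤ (S j : Subgroup G) := by
        have : IsPGroup (p j) N := hj ▸ hqN
        exact this.le_sylow_of_normal (S j)
      have hlt : Nat.card (G ⧸ N) < n := by
        rw [← hn]
        exact card_quotient_lt N ((Subgroup.one_lt_card_iff_ne_bot N).mpr hN.2.1)
      obtain ⟨s', hs', hg'⟩ := ih _ hlt (G ⧸ N) rfl t p hp (by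
        intro r hr hrd
        apply hall r hr
        refine hrd.trans ?_
        rw [← Subgroup.index_eq_card]
        exact Subgroup.index_dvd_card N)
        (fun i => (S i).mapSurjective (QuotientGroup.mk'_surjective N)) (QuotientGroup.mk' N g)
      have hs'' : ∀ i, ∃ x ∈ (S i : Subgroup G), QuotientGroup.mk' N x = s' i := by
        intro i
        have := hs' i
        rw [Sylow.coe_mapSurjective] at this
        exact this
      choose s hs hss using hs''
      have hprod : QuotientGroup.mk' N (List.ofFn s).prod = QuotientGroup.mk' N g := by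
        rw [hg', map_list_prod, List.map_ofFn]
        congr 1
        apply congrArg
        funext i
        exact hss i
      have hmem : (List.ofFn s).prod⁻¹ * g ∈ N := by
        rw [← QuotientGroup.eq_one_iff, ← QuotientGroup.mk'_apply, map_mul, map_inv, hprod]
        simp
      have hc : Cover (List.ofFn (fun i => (S i : Subgroup G))) ((List.ofFn s).prod) :=
        (cover_ofFn _ _ _).mpr ⟨s, hs, rfl⟩
      have hc2 := cover_mul_normal N _ ⟨(S j : Subgroup G), by
        rw [List.mem_ofFn]; exact ⟨j, rfl⟩, hNS⟩ _ hc _ hmem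
      rw [mul_inv_cancel_left] at hc2
      exact (cover_ofFn _ _ _).mp hc2


/-- Let G be a finite solvable group and let S assign to each of t distinct primes, including every prime divisor of the order of G, a Sylow subgroup of G. Then every element of G is a product s_0 s_1 ⋯ s_(t-1) with s_i in S i, the factors taken in the given order. -/
theorem result {G : Type*} [Group G] [Finite G] [Group.IsSolvable G] (t : ℕ) (p : Fin t → ℕ) (hp : ∀ i, (p i).Prime) (hinj : Function.Injective p) (hall : ∀ q : ℕ, q.Prime → q ∣ Nat.card G → ∃ i, p i = q) (S : (i : Fin t) → Sylow (p i) G) : ∀ g : G, ∃ s : (i : Fin t) → G, (∀ i, s i ∈ (S i : Subgroup G)) ∧ g = (List.ofFn s).prod := by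
  exact main _ G rfl t p hp hall S

end Cfsg.Agent.S0554
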