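import Cfsg.Statements.S0555

set_option autoImplicit false
open Cfsg

namespace Cfsg.Agent.S0555

open scoped commutatorElement

theorem conj_pow_of {Q : Type*} [Group Q] {a : Q} (hN : ∀ g : Q, g * a * g⁻¹ ∈ Subgroup.zpowers a) (g : Q) :
    ∃ r : ℤ, ∀ x ∈ Subgroup.zpowers a, g * x * g⁻¹ = x ^ r := by
  obtain ⟨r, hr⟩ := Subgroup.mem_zpowers_iff.mp (hN g)
  refine ⟨r, ?_⟩
  rintro x ⟨j, rfl⟩
  show g * a ^ j * g⁻¹ = (a ^ j) ^ r
  rw [← conj_zpow, ← hr, ← zpow_mul, ← zpow_mul, mul_comm]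

theorem comm_centralizes {Q : Type*} [Group Q] {a : Q} (hN : ∀ g : Q, g * a * g⁻¹ ∈ Subgroup.zpowers a)
    (g h : Q) : ⁅g, h⁆ * a = a * ⁅g, h⁆ := by
  obtain ⟨r, hr⟩ := conj_pow_of hN g
  obtain ⟨s, hs⟩ := conj_pow_of hN h
  have hsame : ∀ x ∈ Subgroup.zpowers a, (g * h) * x * (g * h)⁻¹ = (h * g) * x * (h * g)⁻¹ := by
    intro x hx
    have h1 : (g * h) * x * (g * h)⁻¹ = g * (h * x * h⁻¹) * g⁻¹ := by group
    have h2 : (h * g) * x * (h * g)⁻¹ = h * (g * x * g⁻¹) * h⁻¹ := by group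
    rw [h1, h2, hs x hx, hr x hx, hr _ (Subgroup.zpow_mem _ hx s), hs _ (Subgroup.zpow_mem _ hx r),
      ← zpow_mul, ← zpow_mul, mul_comm]
  have hw : (h * g)⁻¹ * a * (h * g) ∈ Subgroup.zpowers a := by
    have := hN (h * g)⁻¹
    rwa [inv_inv] at this
  have h3 := hsame _ hw
  have h4 : (h * g) * ((h * g)⁻¹ * a * (h * g)) * (h * g)⁻¹ = a := by group
  rw [h4] at h3
  have h5 : ⁅g, h⁆ * a * ⁅g, h⁆⁻¹ = (g * h) * ((h * g)⁻¹ * a * (h * g)) * (g * h)⁻¹ := by
    rw [commutatorElement_def]; group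
  rw [h3] at h5
  calc ⁅g, h⁆ * a = (⁅g, h⁆ * a * ⁅g, h⁆⁻¹) * ⁅g, h⁆ := by group
    _ = a * ⁅g, h⁆ := by rw [h5]

theorem gen_of_cyclic {G : Type*} [Group G] (D E : Subgroup G) [(E.subgroupOf D).Normal]
    (h : IsCyclic (↥D ⧸ E.subgroupOf D)) : ∃ a ∈ D, ∀ u ∈ D, ∃ k : ℤ, (a ^ k)⁻¹ * u ∈ E := by
  obtain ⟨g, hg⟩ := h.exists_generator
  obtain ⟨a, rfl⟩ := QuotientGroup.mk_surjective g
  refine ⟨a.1, a.2, ?_⟩
  intro u hu
  obtain ⟨k, hk⟩ := Subgroup.mem_zpowers_iff.mp (hg (QuotientGroup.mk ⟨u, hu⟩))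
  refine ⟨k, ?_⟩
  rw [← QuotientGroup.mk_zpow, QuotientGroup.eq, Subgroup.mem_subgroupOf] at hk
  simpa using hk


/-- Let i ≥ 1. If in the derived series of a group the quotient of the i-th term by the (i+1)-st and the quotient of the (i+1)-st by the (i+2)-nd are both cyclic, then the (i+1)-st and (i+2)-nd terms coincide. -/
theorem result {G : Type*} [Group G] (i : ℕ) (hi : 1 ≤ i) (h₁ : IsCyclic (↥(derivedSeries G i) ⧸ (derivedSeries G (i + 1)).subgroupOf (derivedSeries G i))) (h₂ : IsCyclic (↥(derivedSeries G (i + 1)) ⧸ (derivedSeries G (i + 2)).subgroupOf (derivedSeries G (i + 1)))) : derivedSeries G (i + 1) = derivedSeries G (i + 2) := by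
  apply le_antisymm _ (derivedSeries_antitone G (by omega))
  obtain ⟨a, haD, ha⟩ := gen_of_cyclic _ _ h₂
  obtain ⟨b, hbD, hb⟩ := gen_of_cyclic _ _ h₁
  haveI hn2 : (derivedSeries G (i + 2)).Normal := derivedSeries_normal G _
  haveI hn1 : (derivedSeries G (i + 1)).Normal := derivedSeries_normal G _
  obtain ⟨π, hπ⟩ : ∃ π : G →* G ⧸ derivedSeries G (i + 2), π = QuotientGroup.mk' _ := ⟨_, rfl⟩
  have hker : ∀ x : G, π x = 1 ↔ x ∈ derivedSeries G (i + 2) := by
    intro x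
    rw [hπ]
    exact QuotientGroup.eq_one_iff x
  have hsurj : Function.Surjective π := by
    rw [hπ]; exact QuotientGroup.mk'_surjective _
  have ha' : ∀ u ∈ derivedSeries G (i + 1), ∃ k : ℤ, π u = π a ^ k := by
    intro u hu
    obtain ⟨k, hk⟩ := ha u hu
    refine ⟨k, ?_⟩
    have := (hker _).mpr hk
    rw [map_mul, map_inv, map_zpow, inv_mul_eq_one] at this
    exact this.symm
  have hN : ∀ g : G ⧸ derivedSeries G (i + 2), g * π a * g⁻¹ ∈ Subgroup.zpowers (π a) := by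
    intro g
    obtain ⟨g, rfl⟩ := hsurj g
    obtain ⟨k, hk⟩ := ha' (g * a * g⁻¹) (hn1.conj_mem a haD g)
    rw [map_mul, map_mul, map_inv] at hk
    rw [hk]
    exact Subgroup.zpow_mem_zpowers _ _
  have hD0 : derivedSeries G i ≤ (Subgroup.centralizer {π a}).comap π := by
    calc derivedSeries G i ≤ derivedSeries G 1 := derivedSeries_antitone G hi
      _ = ⁅(⊤ : Subgroup G), ⊤⁆ := by rw [derivedSeries_one, commutator_def]
      _ ≤ _ := by
        rw [Subgroup.commutator_le]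
        intro g _ h _
        rw [Subgroup.mem_comap, Subgroup.mem_centralizer_singleton_iff, map_commutatorElement]
        exact comm_centralizes hN _ _
  have hba : Commute (π b) (π a) := by
    have := hD0 hbD
    rw [Subgroup.mem_comap, Subgroup.mem_centralizer_singleton_iff] at this
    exact this
  have hform : ∀ v ∈ derivedSeries G i, ∃ m k : ℤ, π v = π b ^ m * π a ^ k := by
    intro v hv
    obtain ⟨m, hm⟩ := hb v hv
    obtain ⟨k, hk⟩ := ha' _ hm
    refine ⟨m, k, ?_⟩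
    rw [map_mul, map_inv, map_zpow] at hk
    rw [← hk]; group
  rw [show i + 1 = i + 1 from rfl, derivedSeries_succ, Subgroup.commutator_le]
  intro v hv w hw
  rw [← hker, map_commutatorElement, commutatorElement_eq_one_iff_commute]
  obtain ⟨m, k, h1⟩ := hform v hv
  obtain ⟨m', k', h2⟩ := hform w hw
  rw [h1, h2]
  have c1 : Commute (π b ^ m) (π b ^ m') := (Commute.refl _).zpow_zpow _ _
  have c2 : Commute (π b ^ m) (π a ^ k') := hba.zpow_zpow _ _
  have c3 : Commute (π a ^ k) (π b ^ m') := hba.symm.zpow_zpow _ _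
  have c4 : Commute (π a ^ k) (π a ^ k') := (Commute.refl _).zpow_zpow _ _
  exact (c1.mul_right c2).mul_left (c3.mul_right c4)

end Cfsg.Agent.S0555
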