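import Mathlib
import Cfsg.Statements.S0556
import Cfsg.Agent.Lib.Helper4.Schmidt3
import Cfsg.Agent.Lib.Helper4.Conj
import Cfsg.Agent.S0023
import Cfsg.Agent.S0034
import Cfsg.Agent.S0035


set_option autoImplicit false
open Cfsg

namespace Cfsg.Agent.S0556

open Cfsg.Agent.Lib.Helper4
open scoped commutatorElement
open scoped Pointwise

theorem commutator_le_of_normal_coatom {G : Type*} [Group G] {A : Subgroup G} (hA : IsCoatom A)
    (hAn : A.Normal) : commutator G ≤ A := by
  obtain ⟨x, hx⟩ : ∃ x, x ∉ A := by
    by_contra hno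
    push Not at hno
    exact hA.1 (eq_top_iff.mpr fun x _ => hno x)
  have hsup : A ⊔ Subgroup.zpowers x = ⊤ :=
    sup_eq_top_of_coatom hA (by intro hle; exact hx (hle (Subgroup.mem_zpowers x)))
  exact Subgroup.Normal.commutator_le_of_self_sup_commutative_eq_top hsup inferInstance

theorem derived_two_of_normal_comm {G : Type*} [Group G] (A : Subgroup G)
    (hAc : IsMulCommutative A) (h : commutator G ≤ A) : derivedSeries G 2 = ⊥ := by
  rw [derivedSeries_succ, derivedSeries_one, eq_bot_iff]
  refine (Subgroup.commutator_mono h h).trans ?_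
  rw [le_bot_iff, Subgroup.commutator_self_eq_bot_iff]
  exact hAc

/-- an abelian maximal subgroup `A` with a normal complement `N` of coprime order: any nontrivial
`A`-invariant subgroup of `N` is `N` -/
theorem eq_of_invariant {G : Type*} [Group G] [Finite G] {A N X : Subgroup G} (hA : IsCoatom A)
    (hc : Subgroup.IsComplement' N A) (hXN : X ≤ N) (hX : X ≠ ⊥)
    (hAX : A ≤ Subgroup.normalizer (X : Set G)) : X = N := by
  have hdisj : N ⊓ A = ⊥ := hc.disjoint.eq_bot
  have hsup : A ⊔ X = ⊤ := by
    apply sup_eq_top_of_coatom hA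
    intro hle
    apply hX
    rw [eq_bot_iff, ← hdisj]
    exact le_inf hXN hle
  have h1 := card_mul_card_eq_of_le_normalizer A X hAX
  have h2 : A ⊓ X = ⊥ := by
    rw [eq_bot_iff, ← hdisj, inf_comm]
    exact inf_le_inf_right _ hXN
  rw [hsup, h2, Subgroup.card_top, Subgroup.card_bot, mul_one, ← hc.card_mul_card, mul_comm] at h1
  have h3 : Nat.card X = Nat.card N := Nat.eq_of_mul_eq_mul_right Nat.card_pos h1
  exact Subgroup.eq_of_le_of_card_ge hXN h3.ge

theorem complement_comm {G : Type*} [Group G] [Finite G] {A N : Subgroup G} (hA : IsCoatom A)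
    (hAc : IsMulCommutative A) [hNn : N.Normal] (hc : Subgroup.IsComplement' N A)
    (hcop : (Nat.card A).Coprime (Nat.card N)) : IsMulCommutative N := by
  have hN1 : N ≠ ⊥ := by
    rintro rfl
    exact hA.1 (Subgroup.isComplement'_bot_left.mp hc)
  have hN1' : Nat.card N ≠ 1 := by
    rw [Ne, Subgroup.card_eq_one]; exact hN1
  obtain ⟨q, hq, hqd⟩ := Nat.exists_prime_and_dvd hN1'
  have hqF : Fact q.Prime := ⟨hq⟩
  have hAN : A ≤ Subgroup.normalizer (N : Set G) := by
    rw [Subgroup.normalizer_eq_top_iff.mpr hNn]; exact le_top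
  have hAsol : Group.IsSolvable A := by
    have := isNilpotent_of_isMulCommutative hAc
    infer_instance
  obtain ⟨Q, hQ⟩ := Cfsg.Agent.S0023.result A N hAN hcop (Or.inl hAsol) q
  have hQ1 : (Q : Subgroup N).map N.subtype ≠ ⊥ := by
    intro h
    rw [Subgroup.map_eq_bot_iff_of_injective _ N.subtype_injective] at h
    have h2 := Q.not_dvd_index
    rw [h, Subgroup.index_bot] at h2
    exact h2 hqd
  have hQN := eq_of_invariant hA hc (Subgroup.map_subtype_le _) hQ1 hQ
  have hNq : IsPGroup q N := by
    have := Q.2.map N.subtype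
    rwa [hQN] at this
  have hNnt : Nontrivial N := (Subgroup.nontrivial_iff_ne_bot N).mpr hN1
  have hZ1 : (Subgroup.center N).map N.subtype ≠ ⊥ := by
    intro h
    rw [Subgroup.map_eq_bot_iff_of_injective _ N.subtype_injective] at h
    exact (hNq.bot_lt_center).ne' h
  have hZn : ((Subgroup.center N).map N.subtype).Normal :=
    ConjAct.normal_of_characteristic_of_normal
  have hZN := eq_of_invariant hA hc (Subgroup.map_subtype_le _) hZ1
    (by rw [Subgroup.normalizer_eq_top_iff.mpr hZn]; exact le_top)
  rw [Cfsg.Agent.Lib.Helper4.isMulCommutative_iff]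
  intro a ha b hb
  have ha' : a ∈ (Subgroup.center N).map N.subtype := by rw [hZN]; exact ha
  obtain ⟨z, hz, rfl⟩ := ha'
  have := (Subgroup.mem_center_iff.mp hz) ⟨b, hb⟩
  exact (congrArg Subtype.val this).symm


/-- If a finite group has a maximal subgroup that is abelian, then the third term of its derived series is trivial (so the group is solvable of derived length at most three). -/
theorem result {G : Type*} [Group G] [Finite G] (A : Subgroup G) (hA : IsCoatom A) [IsMulCommutative A] : derivedSeries G 3 = ⊥ := by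
  classical
  have hAc : IsMulCommutative A := inferInstance
  by_cases hAn : A.Normal
  · have h2 := derived_two_of_normal_comm A hAc (commutator_le_of_normal_coatom hA hAn)
    rw [derivedSeries_succ, h2]
    exact Subgroup.commutator_bot_left _
  have hNA : Subgroup.normalizer (A : Set G) = A := by
    by_contra hne
    have h1 : A < Subgroup.normalizer (A : Set G) :=
      lt_of_le_of_ne Subgroup.le_normalizer (Ne.symm hne)
    exact hAn (Subgroup.normalizer_eq_top_iff.mp (hA.2 _ h1))
  have hZN : Subgroup.center G ≤ Subgroup.normalizer (A : Set G) :=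
    (Subgroup.center_le_centralizer _).trans (Subgroup.centralizer_le_normalizer _)
  have hZA : Subgroup.center G ≤ A := hNA ▸ hZN
  have hAcc := (Cfsg.Agent.Lib.Helper4.isMulCommutative_iff A).mp hAc
  have hTI : ∀ g : G, g ∉ A → A ⊓ MulAut.conj g • A ≤ Subgroup.center G := by
    intro g hg x hx
    have hsup : A ⊔ MulAut.conj g • A = ⊤ := by
      apply sup_eq_top_of_coatom hA
      intro hle
      apply hg
      rw [← hNA]
      have heq : MulAut.conj g • A = A :=
        Subgroup.eq_of_le_of_card_ge hle (by rw [card_conj_smul])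
      exact Subgroup.mem_normalizer_iff_map_conj_eq.mpr heq
    have h1 : A ⊔ MulAut.conj g • A ≤ Subgroup.centralizer ({x} : Set G) := by
      refine sup_le ?_ ?_
      · intro a ha
        rw [Subgroup.mem_centralizer_iff]
        intro y hy
        rw [Set.mem_singleton_iff] at hy
        subst hy
        exact hAcc y hx.1 a ha
      · intro a ha
        rw [Subgroup.mem_centralizer_iff]
        intro y hy
        rw [Set.mem_singleton_iff] at hy
        subst hy
        have h2 := (mem_conj_smul g y A).mp hx.2
        have h3 := (mem_conj_smul g a A).mp ha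
        have h4 := hAcc _ h2 _ h3
        calc y * a = g * ((g⁻¹ * y * g) * (g⁻¹ * a * g)) * g⁻¹ := by group
          _ = g * ((g⁻¹ * a * g) * (g⁻¹ * y * g)) * g⁻¹ := by rw [h4]
          _ = a * y := by group
    rw [hsup] at h1
    rw [Subgroup.mem_center_iff]
    intro y
    exact (Subgroup.mem_centralizer_iff.mp (h1 (Subgroup.mem_top y)) x rfl).symm
  have hAZ : ¬ A ≤ Subgroup.center G := by
    intro hle
    apply hAn
    rw [le_antisymm hle hZA]
    infer_instance
  have hcm := comap_map_mk'_of_le hZA
  have hfrob : IsFrobeniusComplement (A.map (QuotientGroup.mk' (Subgroup.center G))) := by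
    refine ⟨?_, ?_, ?_⟩
    · intro h
      rw [Subgroup.map_eq_bot_iff, QuotientGroup.ker_mk'] at h
      exact hAZ h
    · intro h
      rw [h, Subgroup.comap_top] at hcm
      exact hA.1 hcm.symm
    · intro gb hgb
      obtain ⟨g, rfl⟩ := QuotientGroup.mk'_surjective _ gb
      have hg : g ∉ A := fun h => hgb ⟨g, h, rfl⟩
      rw [eq_bot_iff]
      rintro xb ⟨⟨a, ha, rfl⟩, hx2⟩
      have hx2' := (mem_conj_smul _ _ _).mp hx2
      rw [← map_inv, ← map_mul, ← map_mul, ← Subgroup.mem_comap, hcm] at hx2'
      have h5 : a ∈ A ⊓ MulAut.conj g • A := ⟨ha, (mem_conj_smul g a A).mpr hx2'⟩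
      rw [Subgroup.mem_bot, QuotientGroup.mk'_apply, QuotientGroup.eq_one_iff]
      exact hTI g hg h5
  obtain ⟨N, -, hNn, hc⟩ := Cfsg.Agent.S0035.result _ hfrob
  obtain ⟨-, hmod⟩ := Cfsg.Agent.S0034.result _ hfrob
  have hcop : (Nat.card (A.map (QuotientGroup.mk' (Subgroup.center G)))).Coprime (Nat.card N) := by
    rw [← hc.index_eq_card, Nat.coprime_comm]
    have h6 : (A.map (QuotientGroup.mk' (Subgroup.center G))).index ≡ 1
        [MOD Nat.card (A.map (QuotientGroup.mk' (Subgroup.center G)))] := hmod
    have h7 := h6.gcd_eq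
    rw [Nat.gcd_one_left] at h7
    exact h7
  have hAbc : IsMulCommutative (A.map (QuotientGroup.mk' (Subgroup.center G))) := inferInstance
  have hNc := complement_comm (isCoatom_map_mk' _ A hZA hA) hAbc hc hcop
  have h2 := derived_two_of_normal_comm N hNc
    (Subgroup.Normal.commutator_le_of_self_sup_commutative_eq_top hc.sup_eq_top hAbc)
  have h3 : derivedSeries G 2 ≤ Subgroup.center G := by
    have h4 := map_derivedSeries_eq (QuotientGroup.mk'_surjective (Subgroup.center G)) 2
    rw [h2, Subgroup.map_eq_bot_iff, QuotientGroup.ker_mk'] at h4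
    exact h4
  rw [derivedSeries_succ, eq_bot_iff]
  refine (Subgroup.commutator_mono h3 le_top).trans ?_
  rw [Subgroup.commutator_le]
  intro z hz g _
  rw [Subgroup.mem_bot, commutatorElement_eq_one_iff_mul_comm]
  exact ((Subgroup.mem_center_iff.mp hz) g).symm

end Cfsg.Agent.S0556
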