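import Mathlib
import Cfsg.Statements.S0559

set_option autoImplicit false
open Cfsg

namespace Cfsg.Agent.S0559

open scoped Pointwise

theorem mem_conj_smul {G : Type*} [Group G] (g x : G) (H : Subgroup G) :
    x ∈ MulAut.conj g • H ↔ g⁻¹ * x * g ∈ H := by
  rw [Subgroup.mem_pointwise_smul_iff_inv_smul_mem]
  simp [MulAut.smul_def]

/-- Let G = HK be a finite group (every element a product of an element of H and an element of K), and let A and B be conjugates of H and K. Then every element is a product of an element of A and one of B, and there is g with A = gHg⁻¹ and B = gKg⁻¹ simultaneously. -/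
theorem result {G : Type*} [Group G] [Finite G] (H K A B : Subgroup G) (hHK : ∀ g : G, ∃ h ∈ H, ∃ k ∈ K, g = h * k) (hA : ∃ x : G, A = MulAut.conj x • H) (hB : ∃ y : G, B = MulAut.conj y • K) : (∀ g : G, ∃ a ∈ A, ∃ b ∈ B, g = a * b) ∧ ∃ g : G, A = MulAut.conj g • H ∧ B = MulAut.conj g • K := by
  obtain ⟨x, rfl⟩ := hA
  obtain ⟨y, rfl⟩ := hB
  obtain ⟨h, hh, k, hk, hxy⟩ := hHK (x⁻¹ * y)
  have hy : y = x * h * k := by rw [mul_assoc, ← hxy]; group
  have key : ∃ g : G, MulAut.conj x • H = MulAut.conj g • H ∧ MulAut.conj y • K = MulAut.conj g • K := by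
    refine ⟨x * h, ?_, ?_⟩
    · ext w
      rw [mem_conj_smul, mem_conj_smul]
      have : (x * h)⁻¹ * w * (x * h) = h⁻¹ * (x⁻¹ * w * x) * h := by group
      rw [this]
      constructor
      · intro hw; exact H.mul_mem (H.mul_mem (H.inv_mem hh) hw) hh
      · intro hw
        have := H.mul_mem (H.mul_mem hh hw) (H.inv_mem hh)
        simpa [mul_assoc] using this
    · ext w
      rw [mem_conj_smul, mem_conj_smul, hy]
      have : (x * h * k)⁻¹ * w * (x * h * k) = k⁻¹ * ((x * h)⁻¹ * w * (x * h)) * k := by group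
      rw [this]
      constructor
      · intro hw
        have := K.mul_mem (K.mul_mem hk hw) (K.inv_mem hk)
        simpa [mul_assoc] using this
      · intro hw; exact K.mul_mem (K.mul_mem (K.inv_mem hk) hw) hk
  refine ⟨?_, key⟩
  obtain ⟨g, h1, h2⟩ := key
  rw [h1, h2]
  intro w
  obtain ⟨a, ha, b, hb, hab⟩ := hHK (g⁻¹ * w * g)
  refine ⟨g * a * g⁻¹, ?_, g * b * g⁻¹, ?_, ?_⟩
  · rw [mem_conj_smul]; simpa [mul_assoc] using ha
  · rw [mem_conj_smul]; simpa [mul_assoc] using hb
  · have : g * a * g⁻¹ * (g * b * g⁻¹) = g * (a * b) * g⁻¹ := by group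
    rw [this, ← hab]; group

end Cfsg.Agent.S0559
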