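import Mathlib
import Cfsg.Statements.S0560
import Cfsg.Agent.Lib.Helper17.CD
import Cfsg.Agent.Lib.Helper4.Basic


set_option autoImplicit false
open Pointwise
open Cfsg Cfsg.Agent.Lib.Helper4
open scoped Pointwise

namespace Cfsg.Agent.S0560


theorem map_smul_le {G : Type*} [Group G] [Finite G] {p : ℕ} [Fact p.Prime] (H : Subgroup G)
    (P1 : Sylow p H) (R0 : Sylow p G) (a : G)
    (hA : (P1 : Subgroup H).map H.subtype ≤ ((a • R0 : Sylow p G) : Subgroup G)) (h : H) :
    ((h • P1 : Sylow p H) : Subgroup H).map H.subtype ≤ (((h : G) * a) • R0 : Sylow p G) := by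
  rintro _ ⟨y, hy, rfl⟩
  have hy' : y ∈ ((h • P1 : Sylow p H) : Subgroup H) := hy
  rw [Sylow.coe_subgroup_smul, mem_conj_smul] at hy'
  have h1 : ((h⁻¹ * y * h : H) : G) ∈ ((a • R0 : Sylow p G) : Subgroup G) :=
    hA ⟨_, hy', rfl⟩
  rw [Sylow.coe_subgroup_smul, mem_conj_smul] at h1
  show (y : G) ∈ ((((h : G) * a) • R0 : Sylow p G) : Subgroup G)
  rw [Sylow.coe_subgroup_smul, mem_conj_smul]
  have : ((h : G) * a)⁻¹ * (y : G) * ((h : G) * a) = a⁻¹ * ((h⁻¹ * y * h : H) : G) * a := by
    simp only [Subgroup.coe_mul, Subgroup.coe_inv]; group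
  rw [this]; exact h1

theorem exists_smul_ge {G : Type*} [Group G] [Finite G] {p : ℕ} [Fact p.Prime] (R0 : Sylow p G)
    (A : Subgroup G) (hA : IsPGroup p A) : ∃ a : G, A ≤ ((a • R0 : Sylow p G) : Subgroup G) := by
  obtain ⟨S, hS⟩ := hA.exists_le_sylow
  obtain ⟨a, ha⟩ := MulAction.exists_smul_eq G R0 S
  exact ⟨a, by rw [ha]; exact hS⟩



/-- Let the finite group G be the product HK of two subgroups and p a prime. Then there are Sylow p-subgroups P of H and Q of K and a Sylow p-subgroup R of G whose underlying set is the product set of P and Q. -/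
theorem result {G : Type*} [Group G] [Finite G] (H K : Subgroup G) (hHK : ∀ g : G, ∃ h ∈ H, ∃ k ∈ K, g = h * k) (p : ℕ) [Fact p.Prime] : ∃ (P : Sylow p H) (Q : Sylow p K) (R : Sylow p G), ((R : Subgroup G) : Set G) = (((P : Subgroup H).map H.subtype : Subgroup G) : Set G) * (((Q : Subgroup K).map K.subtype : Subgroup G) : Set G) := by
  classical
  have hp : p.Prime := Fact.out
  obtain ⟨R0⟩ : Nonempty (Sylow p G) := inferInstance
  obtain ⟨P1⟩ : Nonempty (Sylow p H) := inferInstance
  obtain ⟨Q1⟩ : Nonempty (Sylow p K) := inferInstance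
  obtain ⟨a, ha⟩ := exists_smul_ge R0 _ (P1.2.map H.subtype)
  obtain ⟨b, hb⟩ := exists_smul_ge R0 _ (Q1.2.map K.subtype)
  obtain ⟨h, hh, k, hk, hab⟩ := hHK (a * b⁻¹)
  have hg : h⁻¹ * a = k * b := by
    have : a = h * k * b := by rw [← hab]; group
    rw [this]; group
  set P : Sylow p H := (⟨h⁻¹, H.inv_mem hh⟩ : H) • P1 with hP
  set Q : Sylow p K := (⟨k, hk⟩ : K) • Q1 with hQ
  set R : Sylow p G := (k * b) • R0 with hR
  have hPR : (P : Subgroup H).map H.subtype ≤ (R : Subgroup G) := by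
    have := map_smul_le H P1 R0 a ha ⟨h⁻¹, H.inv_mem hh⟩
    simp only at this
    rw [hg] at this
    exact this
  have hQR : (Q : Subgroup K).map K.subtype ≤ (R : Subgroup G) :=
    map_smul_le K Q1 R0 b hb ⟨k, hk⟩
  refine ⟨P, Q, R, ?_⟩
  set PA := (P : Subgroup H).map H.subtype with hPA
  set QB := (Q : Subgroup K).map K.subtype with hQB
  have hsub : (PA : Set G) * (QB : Set G) ⊆ ((R : Subgroup G) : Set G) := by
    rintro _ ⟨x, hx, y, hy, rfl⟩
    exact (R : Subgroup G).mul_mem (hPR hx) (hQR hy)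
  have c1 := Cfsg.Agent.Lib.Helper17.card_mul_set PA QB
  have c2 := Cfsg.Agent.Lib.Helper17.card_mul_set H K
  have huniv : ((H : Set G) * (K : Set G) : Set G) = Set.univ := by
    ext g
    simp only [Set.mem_univ, iff_true]
    obtain ⟨x, hx, y, hy, rfl⟩ := hHK g
    exact Set.mul_mem_mul hx hy
  rw [huniv, Nat.card_coe_set_eq, Set.ncard_univ] at c2
  have cP : Nat.card PA = p ^ (Nat.card H).factorization p := by
    rw [hPA, Subgroup.card_map_of_injective H.subtype_injective]
    exact P.card_eq_multiplicity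
  have cQ : Nat.card QB = p ^ (Nat.card K).factorization p := by
    rw [hQB, Subgroup.card_map_of_injective K.subtype_injective]
    exact Q.card_eq_multiplicity
  have cR : Nat.card (R : Subgroup G) = p ^ (Nat.card G).factorization p := R.card_eq_multiplicity
  have hfac : (Nat.card G).factorization p + (Nat.card (H ⊓ K : Subgroup G)).factorization p =
      (Nat.card H).factorization p + (Nat.card K).factorization p := by
    have := congrArg (fun n => n.factorization p) c2
    rw [Nat.factorization_mul Nat.card_pos.ne' Nat.card_pos.ne',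
      Nat.factorization_mul Nat.card_pos.ne' Nat.card_pos.ne'] at this
    simpa using this
  have hIp : IsPGroup p (PA ⊓ QB : Subgroup G) := (R.2.to_le hPR).to_le inf_le_left
  obtain ⟨e, he⟩ := hIp.exists_card_eq
  have hle : PA ⊓ QB ≤ H ⊓ K := by
    refine inf_le_inf ?_ ?_
    · rintro _ ⟨y, -, rfl⟩; exact y.2
    · rintro _ ⟨y, -, rfl⟩; exact y.2
  have hdvd : p ^ e ∣ Nat.card (H ⊓ K : Subgroup G) := by
    rw [← he]; exact Subgroup.card_dvd_of_le hle
  have hec : e ≤ (Nat.card (H ⊓ K : Subgroup G)).factorization p :=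
    (hp.pow_dvd_iff_le_factorization Nat.card_pos.ne').mp hdvd
  rw [he, cP, cQ, ← pow_add, ← hfac] at c1
  have hcard : Nat.card (R : Subgroup G) ≤ Nat.card ((PA : Set G) * (QB : Set G) : Set G) := by
    rw [cR]
    obtain ⟨f, hf⟩ := Nat.exists_eq_add_of_le hec
    rw [hf, ← add_assoc, add_right_comm, pow_add] at c1
    have h3 := Nat.eq_of_mul_eq_mul_right (pow_pos hp.pos e) c1
    rw [h3, pow_add]
    exact Nat.le_mul_of_pos_right _ (pow_pos hp.pos f)
  symm
  apply Set.eq_of_subset_of_ncard_le hsub _ (Set.toFinite _)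
  rw [← Nat.card_coe_set_eq, ← Nat.card_coe_set_eq]
  exact hcard

end Cfsg.Agent.S0560
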