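import Mathlib
import Cfsg.Statements.S0561
import Cfsg.Agent.Lib.Helper4.Permute
import Cfsg.Agent.Lib.Helper4.Complement
import Cfsg.Agent.Lib.Helper1.Hall
import Cfsg.Agent.Lib.Helper1.SylowSystem


set_option autoImplicit false
open Pointwise
open Cfsg

namespace Cfsg.Agent.S0561

open Cfsg.Agent.Lib.Helper4

theorem arith {n a a' b b' : ℕ} (h1 : n = a * a') (h2 : n = b * b') (c1 : a.Coprime a')
    (c2 : b.Coprime b') :
    ∃ m c r s, n = m * c ∧ m.Coprime c ∧ m = a * r ∧ m = b * s ∧ r.Coprime s := by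
  have ea : a = Nat.gcd a b * Nat.gcd a b' := by
    rw [← Nat.Coprime.gcd_mul a c2, ← h2, h1]
    exact (Nat.gcd_eq_left (Dvd.intro _ rfl)).symm
  have ea' : a' = Nat.gcd a' b * Nat.gcd a' b' := by
    rw [← Nat.Coprime.gcd_mul a' c2, ← h2, h1]
    exact (Nat.gcd_eq_left (Dvd.intro_left _ rfl)).symm
  have eb : b = Nat.gcd b a * Nat.gcd b a' := by
    rw [← Nat.Coprime.gcd_mul b c1, ← h1, h2]
    exact (Nat.gcd_eq_left (Dvd.intro _ rfl)).symm
  refine ⟨a * Nat.gcd a' b, Nat.gcd a' b', Nat.gcd a' b, Nat.gcd a b', ?_, ?_, rfl, ?_, ?_⟩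
  · rw [mul_assoc, ← ea', h1]
  · apply Nat.Coprime.mul_left
    · exact Nat.Coprime.coprime_dvd_right (Nat.gcd_dvd_left a' b') c1
    · exact Nat.Coprime.coprime_dvd_left (Nat.gcd_dvd_right a' b)
        (Nat.Coprime.coprime_dvd_right (Nat.gcd_dvd_right a' b') c2)
  · conv_lhs => rw [ea]
    conv_rhs => rw [eb]
    rw [Nat.gcd_comm b a, Nat.gcd_comm b a']
    ring
  · exact Nat.Coprime.coprime_dvd_left (Nat.gcd_dvd_left a' b)
      (Nat.Coprime.coprime_dvd_right (Nat.gcd_dvd_left a b') c1.symm)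

theorem conj_smul_eq_of_normal_subgroupOf {G : Type*} [Group G] {A H : Subgroup G} (hA : A ≤ H)
    (hn : (A.subgroupOf H).Normal) {h : G} (hh : h ∈ H) : MulAut.conj h • A = A := by
  have h1 := (Subgroup.normal_subgroupOf_iff_le_normalizer hA).mp hn hh
  exact Subgroup.mem_normalizer_iff_map_conj_eq.mp h1

theorem relIndex_of_card {G : Type*} [Group G] [Finite G] {A W : Subgroup G} (hAW : A ≤ W) {r : ℕ}
    (h : Nat.card W = Nat.card A * r) : (A.subgroupOf W).index = r := by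
  have h1 := (A.subgroupOf W).card_mul_index
  rw [card_subgroupOf_of_le hAW, h] at h1
  exact Nat.eq_of_mul_eq_mul_left Nat.card_pos h1

theorem permLe_AB {G : Type*} [Group G] [Finite G] [Group.IsSolvable G] (H K A B : Subgroup G)
    (hHK : ∀ g : G, ∃ h ∈ H, ∃ k ∈ K, g = h * k) (hA : A ≤ H) (hAn : (A.subgroupOf H).Normal)
    (hB : B ≤ K) (hBn : (B.subgroupOf K).Normal) (hAh : (Nat.card A).Coprime A.index)
    (hBh : (Nat.card B).Coprime B.index) : PermLe A B := by
  obtain ⟨m, c, r, s, hn, hmc, hma, hmb, hrs⟩ := arith A.card_mul_index.symm B.card_mul_index.symm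
    hAh hBh
  obtain ⟨X, hX, hAX⟩ := Cfsg.Agent.Lib.Helper1.hall_dominance m c hn hmc A
    (Nat.Coprime.coprime_dvd_left (Dvd.intro _ hma.symm) hmc)
  obtain ⟨Y, hY, hBY⟩ := Cfsg.Agent.Lib.Helper1.hall_dominance m c hn hmc B
    (Nat.Coprime.coprime_dvd_left (Dvd.intro _ hmb.symm) hmc)
  obtain ⟨g, hg⟩ := Cfsg.Agent.Lib.Helper1.hall_conj m c hn hmc X Y hX hY
  obtain ⟨h0, hh0, k0, hk0, e⟩ := hHK g⁻¹
  have eg : g = k0⁻¹ * h0⁻¹ := by
    rw [← inv_inv g, e]; group
  obtain ⟨W, hW⟩ : ∃ W : Subgroup G, W = MulAut.conj h0⁻¹ • X := ⟨_, rfl⟩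
  have hAW : A ≤ W := by
    rw [hW, ← conj_smul_eq_of_normal_subgroupOf hA hAn (H.inv_mem hh0)]
    exact Subgroup.pointwise_smul_le_pointwise_smul_iff.mpr hAX
  have hWY : W = MulAut.conj k0 • Y := by
    rw [← hg, eg, hW, ← mul_smul, ← map_mul]
    congr 2
    group
  have hBW : B ≤ W := by
    rw [hWY, ← conj_smul_eq_of_normal_subgroupOf hB hBn hk0]
    exact Subgroup.pointwise_smul_le_pointwise_smul_iff.mpr hBY
  have hWc : Nat.card W = m := by rw [hW, card_conj_smul, hX]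
  have i1 : (A.subgroupOf W).index = r := relIndex_of_card hAW (by rw [hWc, hma])
  have i2 : (B.subgroupOf W).index = s := relIndex_of_card hBW (by rw [hWc, hmb])
  intro k hk h hh
  obtain ⟨x, hx, y, hy, e2⟩ := Cfsg.Agent.Lib.Helper1.exists_mul_of_coprime_index
    (A.subgroupOf W) (B.subgroupOf W) (by rw [i1, i2]; exact hrs)
    ⟨k * h, W.mul_mem (hBW hk) (hAW hh)⟩
  exact ⟨x, Subgroup.mem_subgroupOf.mp hx, y, Subgroup.mem_subgroupOf.mp hy,
    congrArg Subtype.val e2⟩


/-- Let the finite solvable group G be the product HK of subgroups, and let A be normal in H and B normal in K, where A and B are Hall subgroups of G (order coprime to index). Then for all x, y the product set of xAx⁻¹ and yBy⁻¹ is a subgroup of G. -/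
theorem result {G : Type*} [Group G] [Finite G] [Group.IsSolvable G] (H K A B : Subgroup G) (hHK : ∀ g : G, ∃ h ∈ H, ∃ k ∈ K, g = h * k) (hA : A ≤ H) (hAn : (A.subgroupOf H).Normal) (hB : B ≤ K) (hBn : (B.subgroupOf K).Normal) (hAh : (Nat.card A).Coprime A.index) (hBh : (Nat.card B).Coprime B.index) (x y : G) : ∃ S : Subgroup G, (S : Set G) = ((MulAut.conj x • A : Subgroup G) : Set G) * ((MulAut.conj y • B : Subgroup G) : Set G) := by
  have h0 := permLe_AB H K A B hHK hA hAn hB hBn hAh hBh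
  obtain ⟨h, hh, k, hk, e⟩ := hHK (x⁻¹ * y)
  have e1 : MulAut.conj x • A = MulAut.conj (x * h) • A := by
    rw [map_mul, mul_smul, conj_smul_eq_of_normal_subgroupOf hA hAn hh]
  have e2 : MulAut.conj y • B = MulAut.conj (x * h) • B := by
    have ey : y = (x * h) * k := by
      rw [mul_assoc, ← e]; group
    rw [ey, map_mul, mul_smul, conj_smul_eq_of_normal_subgroupOf hB hBn hk]
  rw [e1, e2]
  exact ⟨_, (h0.conj (x * h)).coe_sup⟩

end Cfsg.Agent.S0561
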