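import Mathlib
import Cfsg.Statements.S0562

set_option autoImplicit false
open Cfsg

namespace Cfsg.Agent.S0562

theorem mem_normalizer_of_le_map {G : Type*} [Group G] [Finite G] (J : Subgroup G) (k : G)
    (h : J ≤ J.map (MulAut.conj k).toMonoidHom) : k ∈ Subgroup.normalizer (J : Set G) := by
  rw [Subgroup.mem_normalizer_iff_map_conj_eq]
  symm
  apply Subgroup.eq_of_le_of_card_ge h
  rw [Subgroup.card_map_of_injective (MulAut.conj k).injective]

theorem map_conj_eq_of_normal {G : Type*} [Group G] (H A : Subgroup G) (hA : A ≤ H)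
    (hAn : (A.subgroupOf H).Normal) (h : G) (hh : h ∈ H) : A.map (MulAut.conj h).toMonoidHom = A := by
  exact Subgroup.mem_normalizer_iff_map_conj_eq.mp
    ((Subgroup.normal_subgroupOf_iff_le_normalizer hA).mp hAn hh)

/-- Let the finite group G be the product HK of subgroups, A normal in H, B normal in K, and L the normalizer of the subgroup generated by A and B. Then every element of L is a product of an element of L ∩ H and an element of L ∩ K. -/
theorem result {G : Type*} [Group G] [Finite G] (H K A B : Subgroup G) (hHK : ∀ g : G, ∃ h ∈ H, ∃ k ∈ K, g = h * k) (hA : A ≤ H) (hAn : (A.subgroupOf H).Normal) (hB : B ≤ K) (hBn : (B.subgroupOf K).Normal) : ∀ g ∈ Subgroup.normalizer ((A ⊔ B : Subgroup G) : Set G), ∃ h ∈ Subgroup.normalizer ((A ⊔ B : Subgroup G) : Set G) ⊓ H, ∃ k ∈ Subgroup.normalizer ((A ⊔ B : Subgroup G) : Set G) ⊓ K, g = h * k := by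
  intro g hg
  obtain ⟨h, hh, k, hk, rfl⟩ := hHK g
  have hg' := Subgroup.mem_normalizer_iff_map_conj_eq.mp hg
  have e1 : (A ⊔ B).map (MulAut.conj k).toMonoidHom = (A ⊔ B).map (MulAut.conj h⁻¹).toMonoidHom := by
    conv_rhs => rw [← hg']
    rw [Subgroup.map_map]
    congr 1
    ext x
    simp [mul_assoc]
  have hkN : k ∈ Subgroup.normalizer ((A ⊔ B : Subgroup G) : Set G) := by
    apply mem_normalizer_of_le_map
    apply sup_le
    · rw [e1, Subgroup.map_sup, map_conj_eq_of_normal H A hA hAn _ (H.inv_mem hh)]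
      exact le_sup_left
    · rw [Subgroup.map_sup, map_conj_eq_of_normal K B hB hBn _ hk]
      exact le_sup_right
  refine ⟨h, ⟨?_, hh⟩, k, ⟨hkN, hk⟩, rfl⟩
  have := (Subgroup.normalizer ((A ⊔ B : Subgroup G) : Set G)).mul_mem hg (inv_mem hkN)
  simpa using this

end Cfsg.Agent.S0562
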