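import Mathlib
import Cfsg.Statements.S0566
import Cfsg.Agent.Lib.Helper4.Permute


set_option autoImplicit false
open Pointwise
open Cfsg

namespace Cfsg.Agent.S0566

open Cfsg.Agent.Lib.Helper4


/-- Let A and B be nontrivial subgroups of a finite group G such that for every x the product set of A and xBx⁻¹ is a proper subgroup of G. Then there is a proper normal subgroup of G containing A or containing B. -/
theorem result {G : Type*} [Group G] [Finite G] (A B : Subgroup G) (hA : A ≠ ⊥) (hB : B ≠ ⊥) (h : ∀ x : G, ∃ S : Subgroup G, S ≠ ⊤ ∧ (S : Set G) = (A : Set G) * ((MulAut.conj x • B : Subgroup G) : Set G)) : ∃ N : Subgroup G, N.Normal ∧ N ≠ ⊤ ∧ (A ≤ N ∨ B ≤ N) := by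
  classical
  by_contra hcon
  push Not at hcon
  let P : Subgroup G → Prop := fun A' =>
    A ≤ A' ∧ ∀ x : G, PermLe A' (MulAut.conj x • B) ∧ A' ⊔ MulAut.conj x • B ≠ ⊤
  have hPA : P A := ⟨le_rfl, fun x => by
    obtain ⟨S, hS, e⟩ := h x
    exact ⟨permLe_of_coe_eq e, by rw [← eq_sup_of_coe_eq e]; exact hS⟩⟩
  obtain ⟨A', hAA', hmax⟩ := Finite.exists_le_maximal hPA
  have hA'P : P A' := hmax.prop
  have hA'ne : A' ≠ ⊤ := by
    intro e; apply (hA'P.2 1).2; rw [e]; simp
  have hA'nn : ¬ A'.Normal := fun hn => (hcon A' hn hA'ne).1 hAA'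
  have hex : ∃ x : G, ∃ b ∈ MulAut.conj x • B, b ∉ Subgroup.normalizer (A' : Set G) := by
    by_contra hno
    push Not at hno
    have h1 : Subgroup.normalClosure (B : Set G) ≤ Subgroup.normalizer (A' : Set G) := by
      unfold Subgroup.normalClosure
      rw [Subgroup.closure_le]
      intro y hy
      rw [Group.mem_conjugatesOfSet_iff] at hy
      obtain ⟨b, hb, hconj⟩ := hy
      rw [isConj_iff] at hconj
      obtain ⟨c, rfl⟩ := hconj
      apply hno c
      rw [mem_conj_smul]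
      simpa [mul_assoc] using hb
    have h2 : Subgroup.normalClosure (B : Set G) = ⊤ := by
      by_contra hne
      exact (hcon _ Subgroup.normalClosure_normal hne).2 Subgroup.le_normalClosure
    rw [h2, top_le_iff] at h1
    exact hA'nn (Subgroup.normalizer_eq_top_iff.mp h1)
  obtain ⟨x, b, hb, hbn⟩ := hex
  obtain ⟨A₁, hA₁⟩ : ∃ A₁, A₁ = A' ⊔ MulAut.conj b • A' := ⟨_, rfl⟩
  have hlt : A' < A₁ := by
    refine lt_of_le_of_ne (hA₁ ▸ le_sup_left) ?_
    intro e
    have hle : MulAut.conj b • A' ≤ A' := by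
      have : MulAut.conj b • A' ≤ A₁ := hA₁ ▸ le_sup_right
      rwa [← e] at this
    have heq : MulAut.conj b • A' = A' :=
      Subgroup.eq_of_le_of_card_ge hle (by rw [card_conj_smul])
    apply hbn
    exact Subgroup.mem_normalizer_iff_map_conj_eq.mpr heq
  have hperm : ∀ y : G, PermLe A₁ (MulAut.conj y • B) := by
    intro y
    rw [hA₁]
    refine PermLe.sup_left (hA'P.2 y).1 ?_
    have := ((hA'P.2 (b⁻¹ * y)).1).conj b
    rwa [← mul_smul, ← map_mul, mul_inv_cancel_left] at this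
  have hnotP : ¬ P A₁ := fun hP => absurd (hmax.le_of_ge hP hlt.le) (not_le_of_gt hlt)
  have hy : ∃ y : G, A₁ ⊔ MulAut.conj y • B = ⊤ := by
    by_contra hno
    push Not at hno
    exact hnotP ⟨hAA'.trans hlt.le, fun y => ⟨hperm y, hno y⟩⟩
  obtain ⟨y, hy⟩ := hy
  obtain ⟨a₁, ha₁, c, hc, e⟩ := (hperm y).exists_of_mem_sup (g := x * y⁻¹) (by rw [hy]; trivial)
  have hBx : MulAut.conj x • B = MulAut.conj a₁ • (MulAut.conj y • B) := by
    have h1 : MulAut.conj c • (MulAut.conj y • B) = MulAut.conj y • B :=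
      Subgroup.conj_smul_eq_self_of_mem hc
    have h2 : x = a₁ * c * y := by rw [← e]; group
    rw [h2, map_mul, map_mul, mul_smul, mul_smul, h1]
  have hA₁a : MulAut.conj a₁ • A₁ = A₁ := Subgroup.conj_smul_eq_self_of_mem ha₁
  have htop : A₁ ⊔ MulAut.conj x • B = ⊤ := by
    rw [hBx]
    nth_rewrite 1 [← hA₁a]
    rw [← Subgroup.smul_sup, hy]
    ext z
    simp [mem_conj_smul]
  have hle : A₁ ⊔ MulAut.conj x • B ≤ A' ⊔ MulAut.conj x • B := by
    rw [hA₁]
    refine sup_le (sup_le le_sup_left ?_) le_sup_right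
    intro z hz
    rw [mem_conj_smul] at hz
    have hb' : b ∈ A' ⊔ MulAut.conj x • B := (le_sup_right : _ ≤ A' ⊔ MulAut.conj x • B) hb
    have hz' : b⁻¹ * z * b ∈ A' ⊔ MulAut.conj x • B :=
      (le_sup_left : A' ≤ A' ⊔ MulAut.conj x • B) hz
    have : z = b * (b⁻¹ * z * b) * b⁻¹ := by group
    rw [this]
    exact mul_mem (mul_mem hb' hz') (inv_mem hb')
  exact (hA'P.2 x).2 (top_le_iff.mp (htop ▸ hle))

end Cfsg.Agent.S0566
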