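import Mathlib
import Cfsg.Statements.S0567
import Cfsg.Agent.Lib.Helper4.Basic


set_option autoImplicit false
open Cfsg

namespace Cfsg.Agent.S0567

open Cfsg.Agent.Lib.Helper4

open scoped commutatorElement

theorem iter_mono {G : Type*} [Group G] {H K : Subgroup G} (h : H ≤ K) (m : ℕ) :
    (fun L : Subgroup G => ⁅L, H⁆)^[m] ⊤ ≤ (fun L : Subgroup G => ⁅L, K⁆)^[m] ⊤ := by
  induction m with
  | zero => exact le_rfl
  | succ m ih =>
    rw [Function.iterate_succ_apply', Function.iterate_succ_apply']
    exact Subgroup.commutator_mono ih h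

theorem normalizer_inf_le_sup {G : Type*} [Group G] (A B : Subgroup G) :
    Subgroup.normalizer (A : Set G) ⊓ Subgroup.normalizer (B : Set G) ≤
      Subgroup.normalizer ((A ⊔ B : Subgroup G) : Set G) := by
  intro g hg
  rw [Subgroup.mem_normalizer_iff_map_conj_eq, Subgroup.map_sup,
    Subgroup.mem_normalizer_iff_map_conj_eq.mp hg.1, Subgroup.mem_normalizer_iff_map_conj_eq.mp hg.2]

theorem aux {G : Type*} [Group G] (H : Subgroup G) (m : ℕ) : ∀ X : Subgroup G,
    (H ⊔ X).IsSubnormal → (fun K : Subgroup G => ⁅K, H⁆)^[m] X ≤ H → H.IsSubnormal := by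
  induction m with
  | zero =>
    intro X hX h
    have : X ≤ H := h
    rwa [sup_eq_left.mpr this] at hX
  | succ m ih =>
    intro X hX h
    rw [Function.iterate_succ_apply] at h
    apply ih ⁅X, H⁆ _ h
    have hle : H ⊔ ⁅X, H⁆ ≤ H ⊔ X :=
      sup_le le_sup_left ((Subgroup.commutator_le_sup X H).trans (by rw [sup_comm]))
    refine Subgroup.IsSubnormal.step _ _ hle hX ?_
    rw [Subgroup.normal_subgroupOf_iff_le_normalizer hle]
    apply sup_le
    · refine le_trans ?_ (normalizer_inf_le_sup _ _)
      exact le_inf Subgroup.le_normalizer (Subgroup.normalizer_commutator_ge_right X H)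
    · rw [Subgroup.le_normalizer_iff]
      intro x hx k hk
      have hmap : (H ⊔ ⁅X, H⁆).map (MulAut.conj x).toMonoidHom ≤ H ⊔ ⁅X, H⁆ := by
        rw [Subgroup.map_sup]
        apply sup_le
        · rintro _ ⟨h', hh', rfl⟩
          have : (MulAut.conj x).toMonoidHom h' = ⁅x, h'⁆ * h' := by
            simp [commutatorElement_def]
          rw [this]
          exact Subgroup.mul_mem _ (Subgroup.mem_sup_right (Subgroup.commutator_mem_commutator hx hh'))
            (Subgroup.mem_sup_left hh')
        · have hxn : x ∈ Subgroup.normalizer ((⁅X, H⁆ : Subgroup G) : Set G) :=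
            Subgroup.normalizer_commutator_ge_left X H hx
          have := Subgroup.mem_normalizer_iff_map_conj_eq.mp hxn
          exact (le_of_eq this).trans le_sup_right
      exact hmap ⟨k, hk, rfl⟩


/-- A subgroup H of a group G is subnormal exactly when, for some m, the subgroup obtained from G by taking the commutator with H m times in succession is contained in H. -/
theorem result {G : Type*} [Group G] (H : Subgroup G) : H.IsSubnormal ↔ ∃ m : ℕ, (fun K : Subgroup G => ⁅K, H⁆)^[m] ⊤ ≤ H := by
  constructor
  · intro h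
    induction h with
    | top => exact ⟨0, le_top⟩
    | step H K hHK _ hN ih =>
      obtain ⟨m, hm⟩ := ih
      refine ⟨m + 1, ?_⟩
      rw [Function.iterate_succ_apply']
      have h1 : K ≤ Subgroup.normalizer (H : Set G) :=
        (Subgroup.normal_subgroupOf_iff_le_normalizer hHK).mp hN
      refine le_trans ?_ (Subgroup.le_normalizer_iff_commutator_le_right.mp h1)
      exact Subgroup.commutator_mono ((iter_mono hHK m).trans hm) le_rfl
  · rintro ⟨m, hm⟩
    exact aux H m ⊤ (by simp) hm

end Cfsg.Agent.S0567
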