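import Mathlib
import Cfsg.Statements.S0568
import Cfsg.Agent.Lib.Helper4.CoverAvoid


set_option autoImplicit false
open Cfsg

namespace Cfsg.Agent.S0568

open Cfsg.Agent.Lib.Helper4
open scoped commutatorElement


/-- Let D be the system normalizer of a Hall complement system of a finite solvable group G, and let A < B be normal subgroups with no normal subgroup of G strictly between them (a chief factor). If G centralizes B modulo A then B ≤ A ⊔ D (D covers the factor); otherwise B ∩ D ≤ A (D avoids it). -/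
theorem result {G : Type*} [Group G] [Finite G] [Group.IsSolvable G] (K : Nat.Primes → Subgroup G) (hK : Cfsg.IsComplementSystem K) (A B : Subgroup G) [A.Normal] [B.Normal] (hAB : A < B) (hchief : ∀ N : Subgroup G, N.Normal → A ≤ N → N ≤ B → N = A ∨ N = B) : (⁅B, (⊤ : Subgroup G)⁆ ≤ A → B ≤ A ⊔ Cfsg.systemNormalizer K) ∧ (¬ ⁅B, (⊤ : Subgroup G)⁆ ≤ A → B ⊓ Cfsg.systemNormalizer K ≤ A) := by
  have hs := QuotientGroup.mk'_surjective A
  have hK' := compl_map hK A
  have hD := systemNormalizer_map hK A
  have hcm : (B.map (QuotientGroup.mk' A)).comap (QuotientGroup.mk' A) = B := by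
    rw [Subgroup.comap_map_eq, QuotientGroup.ker_mk', sup_eq_left.mpr hAB.le]
  have hBmin : IsMinNormal (B.map (QuotientGroup.mk' A)) := by
    refine ⟨Subgroup.Normal.map inferInstance _ hs, ?_, ?_⟩
    · intro h
      rw [Subgroup.map_eq_bot_iff, QuotientGroup.ker_mk'] at h
      exact hAB.not_ge h
    · intro N hN hNB
      have h1 : A ≤ N.comap (QuotientGroup.mk' A) := by
        conv_lhs => rw [← QuotientGroup.ker_mk' A]
        exact Subgroup.ker_le_comap _ _
      have h2 : N.comap (QuotientGroup.mk' A) ≤ B := by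
        rw [← hcm]
        exact Subgroup.comap_mono hNB
      rcases hchief _ (hN.comap _) h1 h2 with h | h
      · left
        rw [← Subgroup.map_comap_eq_self_of_surjective hs N, h, Subgroup.map_eq_bot_iff,
          QuotientGroup.ker_mk']
      · right
        rw [← Subgroup.map_comap_eq_self_of_surjective hs N, h]
  have hcen : B.map (QuotientGroup.mk' A) ≤ Subgroup.center (G ⧸ A) ↔ ⁅B, (⊤ : Subgroup G)⁆ ≤ A := by
    rw [Subgroup.commutator_le]
    constructor
    · intro h b hb g _
      have h1 := h (Subgroup.mem_map_of_mem _ hb)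
      rw [Subgroup.mem_center_iff] at h1
      have h2 := h1 (QuotientGroup.mk' A g)
      rw [← QuotientGroup.eq_one_iff, commutatorElement_def]
      have h3 : ((b * g * b⁻¹ * g⁻¹ : G) : G ⧸ A) =
        (QuotientGroup.mk' A b * QuotientGroup.mk' A g) * (QuotientGroup.mk' A b)⁻¹ *
          (QuotientGroup.mk' A g)⁻¹ := by simp
      rw [h3, ← h2]
      group
    · rintro h _ ⟨b, hb, rfl⟩
      rw [Subgroup.mem_center_iff]
      intro y
      obtain ⟨g, rfl⟩ := hs y
      have h1 := h b hb g (Subgroup.mem_top g)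
      rw [← QuotientGroup.eq_one_iff, commutatorElement_def] at h1
      have h3 : ((b * g * b⁻¹ * g⁻¹ : G) : G ⧸ A) =
        (QuotientGroup.mk' A b * QuotientGroup.mk' A g) * (QuotientGroup.mk' A b)⁻¹ *
          (QuotientGroup.mk' A g)⁻¹ := by simp
      rw [h3] at h1
      have h4 : QuotientGroup.mk' A b * QuotientGroup.mk' A g =
          ((QuotientGroup.mk' A b * QuotientGroup.mk' A g) * (QuotientGroup.mk' A b)⁻¹ *
          (QuotientGroup.mk' A g)⁻¹) * (QuotientGroup.mk' A g * QuotientGroup.mk' A b) := by group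
      rw [h1, one_mul] at h4
      exact h4.symm
  obtain ⟨c1, c2⟩ := sysnorm_minNormal _ hK' _ hBmin
  constructor
  · intro h
    have h1 := c1 (hcen.mpr h)
    rw [hD] at h1
    have h2 := Subgroup.comap_mono (f := QuotientGroup.mk' A) h1
    rw [hcm, Subgroup.comap_map_eq, QuotientGroup.ker_mk', sup_comm] at h2
    exact h2
  · intro h
    have h1 := c2 (fun h' => h (hcen.mp h'))
    rw [hD] at h1
    rintro x ⟨hxB, hxD⟩
    have h2 : QuotientGroup.mk' A x ∈ B.map (QuotientGroup.mk' A) ⊓
        (Cfsg.systemNormalizer K).map (QuotientGroup.mk' A) :=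
      ⟨Subgroup.mem_map_of_mem _ hxB, Subgroup.mem_map_of_mem _ hxD⟩
    rw [h1, Subgroup.mem_bot] at h2
    exact (QuotientGroup.eq_one_iff x).mp h2

end Cfsg.Agent.S0568
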