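import Mathlib
import Cfsg.Statements.S0569
import Cfsg.Agent.Lib.Helper4.CarterSys
import Cfsg.Agent.S0543


set_option autoImplicit false
open Cfsg

namespace Cfsg.Agent.S0569

open Cfsg.Agent.Lib.Helper4 Cfsg.Agent.Lib.Helper1 Pointwise


/-- In a finite solvable group: each nilpotent self-normalizing subgroup contains the system normalizer of some Hall complement system, and the system normalizer of any Hall complement system lies in some nilpotent self-normalizing subgroup. -/
theorem result {G : Type*} [Group G] [Finite G] [Group.IsSolvable G] : (∀ C : Subgroup G, Cfsg.IsCarterSubgroup C → ∃ K : Nat.Primes → Subgroup G, Cfsg.IsComplementSystem K ∧ Cfsg.systemNormalizer K ≤ C) ∧ ∀ K : Nat.Primes → Subgroup G, Cfsg.IsComplementSystem K → ∃ C : Subgroup G, Cfsg.IsCarterSubgroup C ∧ Cfsg.systemNormalizer K ≤ C := by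
  constructor
  · intro C hC
    obtain ⟨K, hK, hR⟩ := exists_complementSystem_reducing C
    exact ⟨K, hK, systemNormalizer_le_carter _ G rfl C K hC hK hR⟩
  · intro K hK
    obtain ⟨C₀, hC₀⟩ := (carter_all _ G rfl).1
    obtain ⟨K₀, hK₀, hR⟩ := exists_complementSystem_reducing C₀
    have hle := systemNormalizer_le_carter _ G rfl C₀ K₀ hC₀ hK₀ hR
    obtain ⟨g, hg⟩ := Cfsg.Agent.S0543.result K₀ K hK₀ hK
    refine ⟨MulAut.conj g • C₀, hC₀.conj g, ?_⟩
    intro x hx
    rw [Cfsg.Agent.Lib.Helper1.mem_conj_smul]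
    apply hle
    rw [Cfsg.systemNormalizer, Subgroup.mem_iInf]
    intro p
    have h1 := (Subgroup.mem_iInf.mp hx) p
    rw [← hg p, mem_normalizer_conj_smul] at h1
    exact h1

end Cfsg.Agent.S0569
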