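import Mathlib
import Cfsg.Statements.S0570
import Cfsg.Agent.Lib.Helper4.CarterSys
import Cfsg.Agent.S0569


set_option autoImplicit false
open Cfsg

namespace Cfsg.Agent.S0570

open Cfsg.Agent.Lib.Helper4 Cfsg.Agent.Lib.Helper1 Pointwise


/-- Let G be a finite group with a nilpotent normal subgroup F such that G modulo F is nilpotent (nilpotent length at most two). Then a subgroup of G is a Carter subgroup if and only if it is the system normalizer of some Hall complement system. -/
theorem result {G : Type*} [Group G] [Finite G] (F : Subgroup G) [F.Normal] (hF : Group.IsNilpotent F) (hGF : Group.IsNilpotent (G ⧸ F)) (C : Subgroup G) : Cfsg.IsCarterSubgroup C ↔ ∃ K : Nat.Primes → Subgroup G, Cfsg.IsComplementSystem K ∧ C = Cfsg.systemNormalizer K := by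
  haveI : Group.IsSolvable G :=
    solvable_of_ker_le_range F.subtype (QuotientGroup.mk' F) (by
      rw [QuotientGroup.ker_mk', Subgroup.range_subtype])
  constructor
  · intro hC
    obtain ⟨K, hK, hle⟩ := (Cfsg.Agent.S0569.result (G := G)).1 C hC
    exact ⟨K, hK, le_antisymm (carter_le_systemNormalizer F hF hGF K hK C hC hle) hle⟩
  · rintro ⟨K, hK, rfl⟩
    obtain ⟨C', hC', hle⟩ := (Cfsg.Agent.S0569.result (G := G)).2 K hK
    have := le_antisymm (carter_le_systemNormalizer F hF hGF K hK C' hC' hle) hle
    rw [← this]
    exact hC'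

end Cfsg.Agent.S0570
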