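import Mathlib
import Cfsg.Statements.S0572

set_option autoImplicit false
open Cfsg
open scoped commutatorElement

namespace Cfsg.Agent.S0572

/-- Itô's Theorem: if a group G is the product AB of two abelian subgroups, then the commutator subgroup of G is abelian, i.e. the second term of the derived series is trivial. -/
theorem result {G : Type*} [Group G] (A B : Subgroup G) [IsMulCommutative A] [IsMulCommutative B] (hAB : ∀ g : G, ∃ a ∈ A, ∃ b ∈ B, g = a * b) : derivedSeries G 2 = ⊥ := by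
  have hA : ∀ x ∈ A, ∀ y ∈ A, x * y = y * x := fun x hx y hy =>
    congrArg Subtype.val (mul_comm' (⟨x, hx⟩ : A) ⟨y, hy⟩)
  have hB : ∀ x ∈ B, ∀ y ∈ B, x * y = y * x := fun x hx y hy =>
    congrArg Subtype.val (mul_comm' (⟨x, hx⟩ : B) ⟨y, hy⟩)
  have hBA : ∀ g : G, ∃ b ∈ B, ∃ a ∈ A, g = b * a := by
    intro g
    obtain ⟨a, ha, b, hb, h⟩ := hAB g⁻¹
    refine ⟨b⁻¹, B.inv_mem hb, a⁻¹, A.inv_mem ha, ?_⟩
    rw [← mul_inv_rev, ← h, inv_inv]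
  -- key commutation
  have key : ∀ a ∈ A, ∀ b ∈ B, ∀ a1 ∈ A, ∀ b1 ∈ B,
      (b1 * a1) * (a * b * a⁻¹ * b⁻¹) * (b1 * a1)⁻¹ = (a1 * b1) * (a * b * a⁻¹ * b⁻¹) * (a1 * b1)⁻¹ := by
    intro a ha b hb a1 ha1 b1 hb1
    obtain ⟨b2, hb2, a2, ha2, h2⟩ := hBA (a1 * b * a1⁻¹)
    obtain ⟨a3, ha3, b3, hb3, h3⟩ := hAB (b1 * a * b1⁻¹)
    have e1 : a1 * a * a1⁻¹ = a := by rw [hA a1 ha1 a ha]; group
    have e2 : b1 * b * b1⁻¹ = b := by rw [hB b1 hb1 b hb]; group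
    have e3 : a2 * a⁻¹ * a2⁻¹ = a⁻¹ := by rw [hA a2 ha2 a⁻¹ (A.inv_mem ha)]; group
    have e4 : b1 * b2 * b1⁻¹ = b2 := by rw [hB b1 hb1 b2 hb2]; group
    have e5 : b3 * b2 * b3⁻¹ = b2 := by rw [hB b3 hb3 b2 hb2]; group
    have e6 : b3 * b * b3⁻¹ = b := by rw [hB b3 hb3 b hb]; group
    have e7 : a1 * a3 * a1⁻¹ = a3 := by rw [hA a1 ha1 a3 ha3]; group
    have e8 : a2 * a3⁻¹ * a2⁻¹ = a3⁻¹ := by rw [hA a2 ha2 a3⁻¹ (A.inv_mem ha3)]; group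
    have L : (b1 * a1) * (a * b * a⁻¹ * b⁻¹) * (b1 * a1)⁻¹ = a3 * b2 * a3⁻¹ * b2⁻¹ := by
      calc (b1 * a1) * (a * b * a⁻¹ * b⁻¹) * (b1 * a1)⁻¹
          = b1 * ((a1 * a * a1⁻¹) * (a1 * b * a1⁻¹) * (a1 * a * a1⁻¹)⁻¹ * (a1 * b * a1⁻¹)⁻¹) * b1⁻¹ := by group
        _ = b1 * (a * (b2 * a2) * a⁻¹ * (b2 * a2)⁻¹) * b1⁻¹ := by rw [e1, h2]
        _ = b1 * (a * b2 * (a2 * a⁻¹ * a2⁻¹) * b2⁻¹) * b1⁻¹ := by group
        _ = b1 * (a * b2 * a⁻¹ * b2⁻¹) * b1⁻¹ := by rw [e3]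
        _ = (b1 * a * b1⁻¹) * (b1 * b2 * b1⁻¹) * (b1 * a * b1⁻¹)⁻¹ * (b1 * b2 * b1⁻¹)⁻¹ := by group
        _ = (a3 * b3) * b2 * (a3 * b3)⁻¹ * b2⁻¹ := by rw [h3, e4]
        _ = a3 * (b3 * b2 * b3⁻¹) * a3⁻¹ * b2⁻¹ := by group
        _ = a3 * b2 * a3⁻¹ * b2⁻¹ := by rw [e5]
    have R : (a1 * b1) * (a * b * a⁻¹ * b⁻¹) * (a1 * b1)⁻¹ = a3 * b2 * a3⁻¹ * b2⁻¹ := by
      calc (a1 * b1) * (a * b * a⁻¹ * b⁻¹) * (a1 * b1)⁻¹
          = a1 * ((b1 * a * b1⁻¹) * (b1 * b * b1⁻¹) * (b1 * a * b1⁻¹)⁻¹ * (b1 * b * b1⁻¹)⁻¹) * a1⁻¹ := by group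
        _ = a1 * ((a3 * b3) * b * (a3 * b3)⁻¹ * b⁻¹) * a1⁻¹ := by rw [h3, e2]
        _ = a1 * (a3 * (b3 * b * b3⁻¹) * a3⁻¹ * b⁻¹) * a1⁻¹ := by group
        _ = a1 * (a3 * b * a3⁻¹ * b⁻¹) * a1⁻¹ := by rw [e6]
        _ = (a1 * a3 * a1⁻¹) * (a1 * b * a1⁻¹) * (a1 * a3 * a1⁻¹)⁻¹ * (a1 * b * a1⁻¹)⁻¹ := by group
        _ = a3 * (b2 * a2) * a3⁻¹ * (b2 * a2)⁻¹ := by rw [e7, h2]
        _ = a3 * b2 * (a2 * a3⁻¹ * a2⁻¹) * b2⁻¹ := by group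
        _ = a3 * b2 * a3⁻¹ * b2⁻¹ := by rw [e8]
    rw [L, R]
  have key2 : ∀ a ∈ A, ∀ b ∈ B, ∀ a1 ∈ A, ∀ b1 ∈ B, Commute ⁅a1, b1⁆ ⁅a, b⁆ := by
    intro a ha b hb a1 ha1 b1 hb1
    have h := key a ha b hb a1⁻¹ (A.inv_mem ha1) b1⁻¹ (B.inv_mem hb1)
    rw [commutatorElement_def, commutatorElement_def]
    set c := a * b * a⁻¹ * b⁻¹ with hc
    show a1 * b1 * a1⁻¹ * b1⁻¹ * c = c * (a1 * b1 * a1⁻¹ * b1⁻¹)
    calc a1 * b1 * a1⁻¹ * b1⁻¹ * c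
        = a1 * b1 * ((a1⁻¹ * b1⁻¹) * c * (a1⁻¹ * b1⁻¹)⁻¹) * (a1⁻¹ * b1⁻¹) := by group
      _ = a1 * b1 * ((b1⁻¹ * a1⁻¹) * c * (b1⁻¹ * a1⁻¹)⁻¹) * (a1⁻¹ * b1⁻¹) := by rw [h]
      _ = c * (a1 * b1 * a1⁻¹ * b1⁻¹) := by group
  set N : Subgroup G := ⁅A, B⁆ with hN
  have hNcomm : ∀ x ∈ N, ∀ y ∈ N, x * y = y * x := by
    have h1 : N ≤ Subgroup.centralizer (N : Set G) := by
      rw [hN, Subgroup.commutator_le]
      intro a ha b hb
      rw [Subgroup.mem_centralizer_iff]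
      intro y hy
      have h2 : ⁅A, B⁆ ≤ Subgroup.centralizer {⁅a, b⁆} := by
        rw [Subgroup.commutator_le]
        intro a1 ha1 b1 hb1
        rw [Subgroup.mem_centralizer_singleton_iff]
        exact key2 a ha b hb a1 ha1 b1 hb1
      have := h2 hy
      rw [Subgroup.mem_centralizer_singleton_iff] at this
      exact this
    intro x hx y hy
    exact ((Subgroup.mem_centralizer_iff.mp (h1 hx)) y hy).symm
  have htop : A ⊔ B = ⊤ := by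
    rw [eq_top_iff]
    intro g _
    obtain ⟨a, ha, b, hb, rfl⟩ := hAB g
    exact Subgroup.mul_mem_sup ha hb
  have hNn : N.Normal := by
    rw [← Subgroup.normalizer_eq_top_iff, eq_top_iff, ← htop]
    exact sup_le (Subgroup.normalizer_commutator_ge_left A B) (Subgroup.normalizer_commutator_ge_right A B)
  have hq : ∀ x y : G ⧸ N, x * y = y * x := by
    have hab : ∀ a ∈ A, ∀ b ∈ B, (a : G ⧸ N) * (b : G ⧸ N) = (b : G ⧸ N) * (a : G ⧸ N) := by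
      intro a ha b hb
      have : ⁅a, b⁆ ∈ N := Subgroup.commutator_mem_commutator ha hb
      rw [commutatorElement_def] at this
      have h2 : ((a * b * a⁻¹ * b⁻¹ : G) : G ⧸ N) = 1 := (QuotientGroup.eq_one_iff _).mpr this
      have h3 : ((a * b : G) : G ⧸ N) = ((b * a : G) : G ⧸ N) := by
        calc ((a * b : G) : G ⧸ N) = ((a * b * a⁻¹ * b⁻¹ : G) : G ⧸ N) * ((b * a : G) : G ⧸ N) := by
              rw [← QuotientGroup.mk_mul]; congr 1; group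
          _ = _ := by rw [h2, one_mul]
      simpa using h3
    intro x y
    obtain ⟨x, rfl⟩ := QuotientGroup.mk_surjective x
    obtain ⟨y, rfl⟩ := QuotientGroup.mk_surjective y
    obtain ⟨a, ha, b, hb, rfl⟩ := hAB x
    obtain ⟨a', ha', b', hb', rfl⟩ := hAB y
    have haa : (a : G ⧸ N) * (a' : G ⧸ N) = (a' : G ⧸ N) * (a : G ⧸ N) := by
      rw [← QuotientGroup.mk_mul, hA a ha a' ha', QuotientGroup.mk_mul]
    have hbb : (b : G ⧸ N) * (b' : G ⧸ N) = (b' : G ⧸ N) * (b : G ⧸ N) := by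
      rw [← QuotientGroup.mk_mul, hB b hb b' hb', QuotientGroup.mk_mul]
    simp only [QuotientGroup.mk_mul]
    calc (a : G ⧸ N) * b * (a' * b') = a * (b * a') * b' := by group
      _ = a * (a' * b) * b' := by rw [hab a' ha' b hb]
      _ = (a * a') * (b * b') := by group
      _ = (a' * a) * (b' * b) := by rw [haa, hbb]
      _ = a' * (a * b') * b := by group
      _ = a' * (b' * a) * b := by rw [hab a ha b' hb']
      _ = a' * b' * (a * b) := by group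
  have h1 : derivedSeries G 1 ≤ N := by
    rw [derivedSeries_one, commutator_eq_closure, Subgroup.closure_le]
    rintro _ ⟨x, y, rfl⟩
    rw [commutatorElement_def]
    apply (QuotientGroup.eq_one_iff _).mp
    simp only [QuotientGroup.mk_mul, QuotientGroup.mk_inv]
    rw [hq x y]
    group
  have h2 : ⁅N, N⁆ = ⊥ := by
    rw [Subgroup.commutator_eq_bot_iff_le_centralizer]
    intro x hx
    rw [Subgroup.mem_centralizer_iff]
    intro y hy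
    exact hNcomm y hy x hx
  rw [derivedSeries_succ, eq_bot_iff, ← h2]
  exact Subgroup.commutator_mono h1 h1

end Cfsg.Agent.S0572
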