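import Mathlib
import Cfsg.Statements.S0575

set_option autoImplicit false
open Cfsg

namespace Cfsg.Agent.S0575

/-- If H is a normal subgroup of a finite group G, then the Frattini subgroup of H, viewed in G, lies in the Frattini subgroup of G. -/
theorem result {G : Type*} [Group G] [Finite G] (H : Subgroup G) [H.Normal] : (frattini ↥H).map H.subtype ≤ frattini G := by
  haveI hFn : ((frattini ↥H).map H.subtype).Normal := ConjAct.normal_of_characteristic_of_normal
  refine le_iInf₂ fun M hM => ?_
  by_contra hFM
  have htop : M ⊔ (frattini ↥H).map H.subtype = ⊤ := by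
    apply hM.2
    apply lt_of_le_of_ne le_sup_left
    intro h
    apply hFM
    rw [h]
    exact le_sup_right
  have h2 : M.subgroupOf H ⊔ frattini H = ⊤ := by
    rw [eq_top_iff]
    intro x _
    have hx : (x : G) ∈ M ⊔ (frattini ↥H).map H.subtype := htop ▸ Subgroup.mem_top _
    rw [Subgroup.mem_sup_of_normal_right] at hx
    obtain ⟨m, hm, f, hf, hmf⟩ := hx
    obtain ⟨f', hf', rfl⟩ := hf
    have hmH : m ∈ H := by
      have : m = x * (f' : G)⁻¹ := by rw [← hmf]; simp
      rw [this]
      exact H.mul_mem x.2 (H.inv_mem f'.2)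
    have : x = (⟨m, hmH⟩ : H) * f' := by
      ext; simp [← hmf]
    rw [this]
    exact Subgroup.mul_mem _ (Subgroup.mem_sup_left (by simpa [Subgroup.mem_subgroupOf] using hm))
      (Subgroup.mem_sup_right hf')
  have h3 := frattini_nongenerating h2
  rw [Subgroup.subgroupOf_eq_top] at h3
  exact hFM ((Subgroup.map_subtype_le _).trans h3)

end Cfsg.Agent.S0575
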