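import Mathlib
import Cfsg.Statements.S0576


set_option autoImplicit false
open Cfsg

namespace Cfsg.Agent.S0576

/-- Let H be a normal subgroup of a finite group G with H contained in the Frattini subgroup of G. Then the group of inner automorphisms of H is contained in the Frattini subgroup of the automorphism group of H. -/
theorem result {G : Type*} [Group G] [Finite G] (H : Subgroup G) [H.Normal] (hH : H ≤ frattini G) : (MulAut.conj : ↥H →* MulAut ↥H).range ≤ frattini (MulAut ↥H) := by
  classical
  have hInnN : ((MulAut.conj : ↥H →* MulAut ↥H).range).Normal := by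
    constructor
    rintro _ ⟨h, rfl⟩ φ
    refine ⟨φ h, ?_⟩
    ext x
    simp [MulAut.conj_apply]
  unfold frattini Order.radical
  refine le_iInf fun M => le_iInf fun hM => ?_
  by_contra hnot
  have hsup : (MulAut.conj : ↥H →* MulAut ↥H).range ⊔ M = ⊤ := by
    by_contra hne
    have h1 : M < (MulAut.conj : ↥H →* MulAut ↥H).range ⊔ M := by
      refine lt_of_le_of_ne le_sup_right ?_
      intro heq
      apply hnot
      rw [heq]
      exact le_sup_left
    exact hne (hM.2 _ h1)
  let θ : G →* MulAut ↥H := MulAut.conjNormal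
  have hK : H ⊔ M.comap θ = ⊤ := by
    rw [eq_top_iff]
    intro g _
    have hg : θ g ∈ (MulAut.conj : ↥H →* MulAut ↥H).range ⊔ M := by rw [hsup]; trivial
    rw [Subgroup.mem_sup_of_normal_left] at hg
    obtain ⟨_, ⟨h, rfl⟩, m, hm, hmul⟩ := hg
    have h2 : θ ((h : G)⁻¹ * g) = m := by
      rw [map_mul, map_inv, ← hmul]
      have : θ (h : G) = MulAut.conj h := MulAut.conjNormal_val
      rw [this]
      group
    have h3 : (h : G)⁻¹ * g ∈ M.comap θ := by
      rw [Subgroup.mem_comap, h2]; exact hm
    have h4 : g = (h : G) * ((h : G)⁻¹ * g) := by group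
    rw [h4]
    exact Subgroup.mul_mem_sup h.2 h3
  have hK2 : M.comap θ ⊔ frattini G = ⊤ := by
    rw [eq_top_iff, ← hK, sup_comm]
    exact sup_le_sup_left hH _
  have hK3 : M.comap θ = ⊤ := frattini_nongenerating hK2
  apply hnot
  rintro _ ⟨h, rfl⟩
  have h5 : (h : G) ∈ M.comap θ := by rw [hK3]; trivial
  rw [Subgroup.mem_comap] at h5
  have : θ (h : G) = MulAut.conj h := MulAut.conjNormal_val
  rwa [this] at h5

end Cfsg.Agent.S0576
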