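import Mathlib
import Cfsg.Statements.S0577
import Cfsg.Agent.Lib.Helper4.Schmidt3
import Cfsg.Agent.S0575


set_option autoImplicit false
open Cfsg

namespace Cfsg.Agent.S0577

open Cfsg.Agent.Lib.Helper4
open scoped commutatorElement

theorem commutator_le_frattini_of_nilpotent {N : Type*} [Group N] [Finite N]
    [hnil : Group.IsNilpotent N] : commutator N ≤ frattini N := by
  unfold frattini Order.radical
  refine le_iInf fun M => le_iInf fun hM => ?_
  have hMn : M.Normal :=
    ((Group.isNilpotent_of_finite_tfae (G := N)).out 0 2 rfl rfl).mp hnil M hM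
  obtain ⟨x, hx⟩ : ∃ x, x ∉ M := by
    by_contra hno
    push Not at hno
    exact hM.1 (eq_top_iff.mpr fun x _ => hno x)
  have hsup : M ⊔ Subgroup.zpowers x = ⊤ :=
    sup_eq_top_of_coatom hM (by intro hle; exact hx (hle (Subgroup.mem_zpowers x)))
  exact Subgroup.Normal.commutator_le_of_self_sup_commutative_eq_top hsup inferInstance


/-- Let G be a finite minimal non-nilpotent group and Q a normal Sylow q-subgroup of G, and let D be the commutator subgroup of Q regarded in G (a normal subgroup). Then G modulo D is non-abelian and all its proper subgroups are abelian. -/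
theorem result {G : Type*} [Group G] [Finite G] (hG : Cfsg.IsMinimalNonNilpotent G) (q : ℕ) [Fact q.Prime] (hq : q ∣ Nat.card G) (Q : Sylow q G) (hQ : (Q : Subgroup G).Normal) (D : Subgroup G) [D.Normal] (hD : D = (commutator ↥(Q : Subgroup G)).map (Q : Subgroup G).subtype) : ¬ IsMulCommutative (G ⧸ D) ∧ ∀ K : Subgroup (G ⧸ D), K ≠ ⊤ → IsMulCommutative K := by
  classical
  obtain ⟨p₀, q₀, hp₀, hq₀, hpq, P₀, Q₀, hPc, hQ₀n, hPQ, hPn⟩ := schmidt_structure hG
  have hp₀F : Fact p₀.Prime := ⟨hp₀⟩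
  have hq₀F : Fact q₀.Prime := ⟨hq₀⟩
  have hqP : q.Prime := Fact.out
  -- identify `q`
  have hq' : q = q₀ := by
    have hc := card_mul_card_eq_of_le_normalizer (P₀ : Subgroup G) (Q₀ : Subgroup G)
      (by rw [Subgroup.normalizer_eq_top_iff.mpr hQ₀n]; exact le_top)
    rw [hPQ, Subgroup.card_top] at hc
    have hd : q ∣ Nat.card (P₀ : Subgroup G) * Nat.card (Q₀ : Subgroup G) := by
      rw [hc]; exact hq.mul_right _
    rcases (Nat.Prime.dvd_mul hqP).mp hd with h1 | h1
    · exfalso
      obtain ⟨a, ha⟩ := IsPGroup.iff_card.mp P₀.2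
      rw [ha] at h1
      have h2 : q = p₀ := (Nat.prime_dvd_prime_iff_eq hqP hp₀).mp (hqP.dvd_of_dvd_pow h1)
      subst h2
      apply hPn
      rw [sylow_eq_of_normal (Q : Subgroup G) hQ Q.2 Q.not_dvd_index P₀]
      exact hQ
    · obtain ⟨a, ha⟩ := IsPGroup.iff_card.mp Q₀.2
      rw [ha] at h1
      exact (Nat.prime_dvd_prime_iff_eq hqP hq₀).mp (hqP.dvd_of_dvd_pow h1)
  subst hq'
  have hQQ : (Q₀ : Subgroup G) = Q := sylow_eq_of_normal (Q : Subgroup G) hQ Q.2 Q.not_dvd_index Q₀
  rw [hQQ] at hPQ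
  have hPcomm : IsMulCommutative (P₀ : Subgroup G) := by
    let _ : CommGroup (P₀ : Subgroup G) := IsCyclic.commGroup
    exact ⟨⟨fun a b => mul_comm a b⟩⟩
  have hGQ : commutator G ≤ Q :=
    Subgroup.Normal.commutator_le_of_self_sup_commutative_eq_top (by rw [sup_comm]; exact hPQ) hPcomm
  have hmemD : ∀ x ∈ (Q : Subgroup G), ∀ y ∈ (Q : Subgroup G), ⁅x, y⁆ ∈ D := by
    intro x hx y hy
    rw [hD]
    exact ⟨⁅(⟨x, hx⟩ : (Q : Subgroup G)), ⟨y, hy⟩⁆,
      Subgroup.commutator_mem_commutator (Subgroup.mem_top _) (Subgroup.mem_top _), rfl⟩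
  constructor
  · intro hab
    apply hG.1
    have h1 : commutator G ≤ D := by
      apply Subgroup.Normal.quotient_commutative_iff_commutator_le.mp
      exact hab
    have hQnil : Group.IsNilpotent (Q : Subgroup G) := Q.2.isNilpotent
    have h2 : D ≤ frattini G := by
      rw [hD]
      exact (Subgroup.map_mono commutator_le_frattini_of_nilpotent).trans
        (Cfsg.Agent.S0575.result (Q : Subgroup G))
    refine ((Group.isNilpotent_of_finite_tfae (G := G)).out 0 2 rfl rfl).mpr (fun M hM => ?_)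
    exact normal_of_commutator_le ((h1.trans h2).trans (frattini_le_coatom hM))
  · intro K hK
    have hKnil : Group.IsNilpotent K :=
      isNilpotent_of_comap_mk' D K (hG.2 _ (comap_mk'_ne_top D hK))
    apply comm_of_nilpotent_of_sylow_comm
    intro r hr R
    rw [Cfsg.Agent.Lib.Helper4.isMulCommutative_iff]
    intro a ha b hb
    apply Subtype.ext
    have hR₀ : IsPGroup r ((R : Subgroup K).map K.subtype) := R.2.map _
    have haR : (a : G ⧸ D) ∈ (R : Subgroup K).map K.subtype := ⟨a, ha, rfl⟩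
    have hbR : (b : G ⧸ D) ∈ (R : Subgroup K).map K.subtype := ⟨b, hb, rfl⟩
    have hQbar : ((Q : Subgroup G).map (QuotientGroup.mk' D)).Normal :=
      hQ.map _ (QuotientGroup.mk'_surjective D)
    change (a : G ⧸ D) * (b : G ⧸ D) = (b : G ⧸ D) * (a : G ⧸ D)
    by_cases hrq : r = q
    · subst hrq
      have hle : (R : Subgroup K).map K.subtype ≤ (Q : Subgroup G).map (QuotientGroup.mk' D) := by
        have h3 := sylow_eq_of_normal _ hQbar (Q.2.map _)
          (Q.mapSurjective (QuotientGroup.mk'_surjective D)).not_dvd_index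
        obtain ⟨S, hS⟩ := hR₀.exists_le_sylow
        rw [← h3 S]
        exact hS
      obtain ⟨x, hx, ex⟩ := hle haR
      obtain ⟨y, hy, ey⟩ := hle hbR
      rw [← ex, ← ey, ← commutatorElement_eq_one_iff_mul_comm, ← map_commutatorElement,
        QuotientGroup.mk'_apply, QuotientGroup.eq_one_iff]
      exact hmemD x hx y hy
    · obtain ⟨x, ex⟩ := QuotientGroup.mk'_surjective D (a : G ⧸ D)
      obtain ⟨y, ey⟩ := QuotientGroup.mk'_surjective D (b : G ⧸ D)
      have h4 : ⁅(a : G ⧸ D), (b : G ⧸ D)⁆ ∈ (Q : Subgroup G).map (QuotientGroup.mk' D) := by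
        rw [← ex, ← ey, ← map_commutatorElement]
        exact ⟨_, hGQ (Subgroup.commutator_mem_commutator (Subgroup.mem_top x) (Subgroup.mem_top y)),
          rfl⟩
      have h5 : ⁅(a : G ⧸ D), (b : G ⧸ D)⁆ ∈ (R : Subgroup K).map K.subtype := by
        rw [commutatorElement_def]
        exact mul_mem (mul_mem (mul_mem haR hbR) (inv_mem haR)) (inv_mem hbR)
      have h6 := (IsPGroup.disjoint_of_ne r q hrq _ _ hR₀ (Q.2.map _)).le_bot ⟨h5, h4⟩
      exact commutatorElement_eq_one_iff_mul_comm.mp h6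

end Cfsg.Agent.S0577
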