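import Mathlib
import Cfsg.Statements.S0578
import Cfsg.Agent.Lib.Helper4.SysNorm
import Cfsg.Agent.Lib.Helper4.Schmidt3


set_option autoImplicit false
open Cfsg

namespace Cfsg.Agent.S0578

open Cfsg.Agent.Lib.Helper4

theorem sylow_comm {G : Type*} [Group G] [Finite G]
    (h : ∀ A : Subgroup G, IsMulCommutative A →
      Subgroup.normalizer (A : Set G) = Subgroup.centralizer (A : Set G))
    (p : ℕ) [Fact p.Prime] (P : Sylow p G) : IsMulCommutative (P : Subgroup G) := by
  have hfin : {A : Subgroup G | IsMulCommutative A ∧ A ≤ (P : Subgroup G)}.Finite := Set.toFinite _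
  obtain ⟨A, hA⟩ := hfin.exists_maximal ⟨⊥, inferInstance, bot_le⟩
  obtain ⟨⟨hAc, hAP⟩, hmax⟩ := hA
  by_cases hAeq : A = P
  · exact hAeq ▸ hAc
  exfalso
  have hnil : Group.IsNilpotent (P : Subgroup G) := P.2.isNilpotent
  have hlt : A.subgroupOf (P : Subgroup G) < ⊤ := by
    rw [lt_top_iff_ne_top]
    intro htop
    rw [Subgroup.subgroupOf_eq_top] at htop
    exact hAeq (le_antisymm hAP htop)
  have hnc := Group.normalizerCondition_of_isNilpotent (G := (P : Subgroup G)) _ hlt
  obtain ⟨y, hyN, hyA⟩ := SetLike.exists_of_lt hnc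
  have hy1 : (y : G) ∉ A := fun hh => hyA (Subgroup.mem_subgroupOf.mpr hh)
  have hy2 : (y : G) ∈ Subgroup.normalizer (A : Set G) := by
    rw [Subgroup.mem_normalizer_iff]
    intro a
    rw [Subgroup.mem_normalizer_iff] at hyN
    constructor
    · intro ha
      have := (hyN ⟨a, hAP ha⟩).mp (Subgroup.mem_subgroupOf.mpr ha)
      exact Subgroup.mem_subgroupOf.mp this
    · intro ha
      have haP : a ∈ (P : Subgroup G) := by
        have h1 := (P : Subgroup G).mul_mem ((P : Subgroup G).mul_mem
          ((P : Subgroup G).inv_mem y.2) (hAP ha)) y.2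
        simpa [mul_assoc] using h1
      have := (hyN ⟨a, haP⟩).mpr (Subgroup.mem_subgroupOf.mpr ha)
      exact Subgroup.mem_subgroupOf.mp this
  rw [h A hAc] at hy2
  have hsup : IsMulCommutative (A ⊔ Subgroup.zpowers (y : G) : Subgroup G) := by
    apply isMulCommutative_sup hAc inferInstance
    intro a ha b hb
    obtain ⟨k, rfl⟩ := Subgroup.mem_zpowers_iff.mp hb
    have h1 : Commute a (y : G) := ((Subgroup.mem_centralizer_iff.mp hy2) a ha)
    exact (h1.zpow_right k)
  have hle : A ⊔ Subgroup.zpowers (y : G) ≤ A :=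
    hmax ⟨hsup, sup_le hAP (by rw [Subgroup.zpowers_le]; exact y.2)⟩ le_sup_left
  exact hy1 (hle (Subgroup.mem_sup_right (Subgroup.mem_zpowers _)))


/-- If in a finite group the normalizer of each abelian subgroup coincides with its centralizer, then the group is abelian. -/
theorem result {G : Type*} [Group G] [Finite G] (h : ∀ A : Subgroup G, IsMulCommutative A → Subgroup.normalizer (A : Set G) = Subgroup.centralizer (A : Set G)) : IsMulCommutative G := by
  have hnil : Group.IsNilpotent G := by
    have hex : ∀ q : Nat.Primes, ∃ N : Subgroup G, N.Normal ∧ (∃ k, N.index = (q : ℕ) ^ k) ∧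
        ¬ (q : ℕ) ∣ Nat.card N := by
      intro q
      have hq : Fact (q : ℕ).Prime := ⟨q.2⟩
      obtain ⟨P⟩ : Nonempty (Sylow (q : ℕ) G) := inferInstance
      have hPc := sylow_comm h q P
      have hP : Subgroup.normalizer ((P : Subgroup G) : Set G) ≤
          Subgroup.centralizer ((P : Subgroup G) : Set G) := (h P hPc).le
      refine ⟨(MonoidHom.transferSylow P hP).ker, inferInstance, ?_,
        MonoidHom.not_dvd_card_ker_transferSylow P hP⟩
      obtain ⟨k, hk⟩ := (IsPGroup.iff_card).mp P.2
      exact ⟨k, by rw [← hk]; exact (MonoidHom.ker_transferSylow_isComplement' P hP).symm.index_eq_card⟩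
    choose N hN1 hN2 hN3 using hex
    exact isNilpotent_of_normal_complements N hN1 hN2 hN3
  exact comm_of_nilpotent_of_sylow_comm (fun p hp P => sylow_comm h p P)

end Cfsg.Agent.S0578
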