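import Mathlib
import Cfsg.Statements.S0581
import Cfsg.Agent.Lib.Helper4.Schmidt3
import Cfsg.Agent.Lib.Helper4.Conj


set_option autoImplicit false
open Pointwise
open Cfsg

namespace Cfsg.Agent.S0581

open Cfsg.Agent.Lib.Helper4
open scoped Pointwise

theorem isNilpotent_of_le {G : Type*} [Group G] {A B : Subgroup G} (h : A ≤ B)
    (hB : Group.IsNilpotent B) : Group.IsNilpotent A :=
  Group.nilpotent_of_mulEquiv (Subgroup.subgroupOfEquivOfLe h)

theorem isNilpotent_conj_smul {G : Type*} [Group G] (g : G) (H : Subgroup G)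
    (hH : Group.IsNilpotent H) : Group.IsNilpotent (MulAut.conj g • H : Subgroup G) :=
  Group.nilpotent_of_mulEquiv
    (Subgroup.equivMapOfInjective H (MulAut.conj g).toMonoidHom (MulAut.conj g).injective)

theorem isNilpotent_of_map_subtype {G : Type*} [Group G] {K : Subgroup G} (L : Subgroup K)
    (h : Group.IsNilpotent (L.map K.subtype)) : Group.IsNilpotent L :=
  Group.nilpotent_of_mulEquiv (Subgroup.equivMapOfInjective L K.subtype K.subtype_injective).symm

theorem key_step {G : Type*} [Group G] [Finite G] {H₁ K : Subgroup G}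
    (hH₁ : Group.IsNilpotent H₁) (hHall : (Nat.card H₁).Coprime H₁.index) {p : ℕ} [hp : Fact p.Prime]
    (hpH : p ∣ Nat.card H₁) (M' : Subgroup K) [M'.Normal] (hM'i : M'.index = p)
    (hM : M'.map K.subtype ≤ H₁) : ∃ x : G, K ≤ MulAut.conj x • H₁ := by
  classical
  obtain ⟨T, hT⟩ : ∃ T : Subgroup K,
      T = ⨆ (r : ℕ) (_ : r.Prime ∧ r ≠ p) (R : Sylow r K), (R : Subgroup K) := ⟨_, rfl⟩
  have hRM : ∀ r : ℕ, r.Prime → r ≠ p → ∀ R : Sylow r K, (R : Subgroup K) ≤ M' := by
    intro r hr hrp R y hy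
    obtain ⟨k, hk⟩ := R.2 ⟨y, hy⟩
    have hk' : y ^ (r ^ k) = 1 := congrArg Subtype.val hk
    have d1 : orderOf (QuotientGroup.mk' M' y) ∣ r ^ k := by
      apply orderOf_dvd_of_pow_eq_one
      rw [← map_pow, hk', map_one]
    have d2 : orderOf (QuotientGroup.mk' M' y) ∣ p := by
      rw [← hM'i, Subgroup.index_eq_card]
      exact orderOf_dvd_natCard _
    have hc : Nat.Coprime (r ^ k) p := Nat.Coprime.pow_left k ((Nat.coprime_primes hr hp.out).mpr hrp)
    have d3 : orderOf (QuotientGroup.mk' M' y) ∣ 1 := hc ▸ Nat.dvd_gcd d1 d2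
    have h1 := orderOf_eq_one_iff.mp (Nat.dvd_one.mp d3)
    rwa [QuotientGroup.mk'_apply, QuotientGroup.eq_one_iff] at h1
  have hRT : ∀ r : ℕ, r.Prime → r ≠ p → ∀ R : Sylow r K, (R : Subgroup K) ≤ T := by
    intro r hr hrp R
    rw [hT]
    exact le_iSup_of_le r (le_iSup_of_le ⟨hr, hrp⟩
      (le_iSup (fun R : Sylow r K => (R : Subgroup K)) R))
  have hTM : T ≤ M' := by
    rw [hT]
    exact iSup_le fun r => iSup_le fun hr => iSup_le fun R => hRM r hr.1 hr.2 R
  have hTn : T.Normal := by
    constructor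
    intro y hy k
    have h1 : T.map (MulAut.conj k).toMonoidHom ≤ T := by
      conv_lhs => rw [hT]
      rw [Subgroup.map_iSup]
      refine iSup_le fun r => ?_
      rw [Subgroup.map_iSup]
      refine iSup_le fun hr => ?_
      rw [Subgroup.map_iSup]
      refine iSup_le fun R => ?_
      exact hRT r hr.1 hr.2 (k • R)
    exact h1 ⟨y, hy, rfl⟩
  obtain ⟨K₁⟩ : Nonempty (Sylow p K) := inferInstance
  have htop : (K₁ : Subgroup K) ⊔ T = ⊤ := by
    rw [← Subgroup.index_eq_one]
    by_contra hne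
    obtain ⟨r, hr, hrd⟩ := Nat.exists_prime_and_dvd hne
    by_cases hrp : r = p
    · subst hrp
      exact K₁.not_dvd_index (hrd.trans (Subgroup.index_dvd_of_le le_sup_left))
    · have hrF : Fact r.Prime := ⟨hr⟩
      obtain ⟨R⟩ : Nonempty (Sylow r K) := inferInstance
      exact R.not_dvd_index (hrd.trans (Subgroup.index_dvd_of_le
        ((hRT r hr hrp R).trans le_sup_right)))
  have hT₀H : T.map K.subtype ≤ H₁ := (Subgroup.map_mono hTM).trans hM
  have hKT : K ≤ Subgroup.normalizer ((T.map K.subtype : Subgroup G) : Set G) := by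
    rw [← Subgroup.normal_subgroupOf_iff_le_normalizer (Subgroup.map_subtype_le _)]
    have : (T.map K.subtype).subgroupOf K = T :=
      Subgroup.comap_map_eq_self_of_injective K.subtype_injective _
    rw [this]
    exact hTn
  obtain ⟨P'⟩ : Nonempty (Sylow p H₁) := inferInstance
  obtain ⟨Hp, hHpdef⟩ : ∃ Hp : Subgroup G, Hp = (P' : Subgroup H₁).map H₁.subtype := ⟨_, rfl⟩
  have hHp : IsPGroup p Hp := hHpdef ▸ P'.2.map _
  have hHpH : Hp ≤ H₁ := hHpdef ▸ Subgroup.map_subtype_le _
  have hHpi : ¬ p ∣ Hp.index := by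
    rw [hHpdef, Subgroup.index_map_subtype]
    refine hp.out.not_dvd_mul P'.not_dvd_index ?_
    intro hd
    have := Nat.dvd_gcd hpH hd
    rw [hHall] at this
    exact hp.out.one_lt.ne' (Nat.dvd_one.mp this)
  have hcent : Hp ≤ Subgroup.centralizer ((T.map K.subtype : Subgroup G) : Set G) := by
    rw [Subgroup.le_centralizer_iff, hT, Subgroup.map_iSup]
    refine iSup_le fun r => ?_
    rw [Subgroup.map_iSup]
    refine iSup_le fun hr => ?_
    rw [Subgroup.map_iSup]
    refine iSup_le fun R => ?_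
    intro y hy
    rw [Subgroup.mem_centralizer_iff]
    intro x hx
    have hrF : Fact r.Prime := ⟨hr.1⟩
    have hyH : y ∈ H₁ := hT₀H (Subgroup.map_mono (hRT r hr.1 hr.2 R) hy)
    exact commute_of_mem_nilpotent hH₁ (Ne.symm hr.2) hHp (R.2.map K.subtype) hx hy (hHpH hx) hyH
  have hHpL : Hp ≤ Subgroup.normalizer ((T.map K.subtype : Subgroup G) : Set G) :=
    hcent.trans (Subgroup.centralizer_le_normalizer _)
  obtain ⟨L, hL⟩ : ∃ L : Subgroup G,
      L = Subgroup.normalizer ((T.map K.subtype : Subgroup G) : Set G) := ⟨_, rfl⟩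
  rw [← hL] at hHpL hKT
  have hK₁L : (K₁ : Subgroup K).map K.subtype ≤ L := (Subgroup.map_subtype_le _).trans hKT
  have hK₁p : IsPGroup p (((K₁ : Subgroup K).map K.subtype).subgroupOf L) :=
    (K₁.2.map K.subtype).comap_subtype
  obtain ⟨S, hS⟩ := hK₁p.exists_le_sylow
  obtain ⟨PG, hPG⟩ : ∃ PG : Sylow p G, (PG : Subgroup G) = Hp :=
    ⟨hHp.toSylow hHpi, IsPGroup.toSylow_coe hHp hHpi⟩
  have hPGL : (PG : Subgroup G) ≤ L := by rw [hPG]; exact hHpL
  obtain ⟨x, hx⟩ := MulAction.exists_smul_eq L (PG.subtype hPGL) S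
  have hScoe : (S : Subgroup L) = (MulAut.conj (x : G) • Hp).subgroupOf L := by
    rw [← hx, Sylow.coe_subgroup_smul, Sylow.coe_subtype, hPG, conj_smul_subgroupOf']
  refine ⟨x, ?_⟩
  have hK : K = (K₁ : Subgroup K).map K.subtype ⊔ T.map K.subtype := by
    rw [← Subgroup.map_sup, htop, ← MonoidHom.range_eq_map, Subgroup.range_subtype]
  conv_lhs => rw [hK]
  refine sup_le ?_ ?_
  · intro y hy
    have h1 : (⟨y, hK₁L hy⟩ : L) ∈ (S : Subgroup L) := hS hy
    rw [hScoe, Subgroup.mem_subgroupOf] at h1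
    exact (Subgroup.map_mono hHpH : MulAut.conj (x : G) • Hp ≤ MulAut.conj (x : G) • H₁) h1
  · have hxn : (x : G) ∈ Subgroup.normalizer ((T.map K.subtype : Subgroup G) : Set G) := hL ▸ x.2
    have h2 : MulAut.conj (x : G) • (T.map K.subtype) = T.map K.subtype :=
      Subgroup.mem_normalizer_iff_map_conj_eq.mp hxn
    rw [← h2]
    exact (Subgroup.map_mono hT₀H :
      MulAut.conj (x : G) • (T.map K.subtype) ≤ MulAut.conj (x : G) • H₁)

theorem aux {G : Type*} [Group G] [Finite G] (H : Subgroup G) (hH : Group.IsNilpotent H)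
    (hHall : (Nat.card H).Coprime H.index) (n : ℕ) : ∀ K : Subgroup G, Nat.card K = n →
    (∀ p : ℕ, p.Prime → p ∣ Nat.card K → p ∣ Nat.card H) → ∃ x : G, K ≤ MulAut.conj x • H := by
  induction n using Nat.strong_induction_on with
  | _ n ih =>
    intro K hn hK
    by_cases hK1 : K = ⊥
    · exact ⟨1, by rw [hK1]; exact bot_le⟩
    have hlt : ∀ L : Subgroup K, L ≠ ⊤ → Nat.card (L.map K.subtype) < n := by
      intro L hL
      rw [card_map_subtype, ← hn]
      have h1 := L.card_mul_index
      have h2 : L.index ≠ 1 := by rwa [Ne, Subgroup.index_eq_one]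
      have h3 : L.index ≠ 0 := Subgroup.index_ne_zero_of_finite
      have h4 : 0 < Nat.card L := Nat.card_pos
      have h5 : 2 ≤ L.index := by omega
      nlinarith
    have hsub : ∀ L : Subgroup K, L ≠ ⊤ → ∃ x : G, L.map K.subtype ≤ MulAut.conj x • H := by
      intro L hL
      refine ih _ (hlt L hL) _ rfl (fun r hr hrd => hK r hr ?_)
      exact hrd.trans (Subgroup.card_dvd_of_le (Subgroup.map_subtype_le _))
    have hKsol : Group.IsSolvable K := by
      apply isSolvable_of_proper_nilpotent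
      intro L hL
      obtain ⟨x, hx⟩ := hsub L hL
      exact isNilpotent_of_map_subtype L (isNilpotent_of_le hx (isNilpotent_conj_smul x H hH))
    have hKnt : Nontrivial K := (Subgroup.nontrivial_iff_ne_bot K).mpr hK1
    obtain ⟨M', hM'n, hM'p⟩ := exists_normal_prime_index (G := K)
    have hM'top : M' ≠ ⊤ := by
      intro h
      rw [h, Subgroup.index_top] at hM'p
      exact Nat.not_prime_one hM'p
    obtain ⟨g, hg⟩ := hsub M' hM'top
    have hpF : Fact M'.index.Prime := ⟨hM'p⟩
    have hcard : Nat.card (MulAut.conj g • H : Subgroup G) = Nat.card H := card_conj_smul g H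
    have hidx : (MulAut.conj g • H : Subgroup G).index = H.index := by
      have h1 := (MulAut.conj g • H : Subgroup G).card_mul_index
      have h2 := H.card_mul_index
      rw [← h2, hcard] at h1
      exact Nat.eq_of_mul_eq_mul_left Nat.card_pos h1
    obtain ⟨x, hx⟩ := key_step (isNilpotent_conj_smul g H hH) (by rw [hcard, hidx]; exact hHall)
      (p := M'.index) (by
        rw [hcard]
        exact hK _ hM'p (Subgroup.index_dvd_card M')) M' rfl hg
    exact ⟨x * g, by rw [map_mul, mul_smul]; exact hx⟩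


/-- Let H be a nilpotent subgroup of a finite group G whose order is coprime to its index, and K a subgroup every prime divisor of whose order divides the order of H. Then K lies in some conjugate of H. -/
theorem result {G : Type*} [Group G] [Finite G] (H K : Subgroup G) (hH : Group.IsNilpotent H) (hHall : (Nat.card H).Coprime H.index) (hK : ∀ p : ℕ, p.Prime → p ∣ Nat.card K → p ∣ Nat.card H) : ∃ x : G, K ≤ MulAut.conj x • H := by
  exact aux H hH hHall _ K rfl hK

end Cfsg.Agent.S0581
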