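import Mathlib
import Cfsg.Statements.S0582
import Cfsg.Agent.Lib.Helper4.Conj


set_option autoImplicit false
open Pointwise
open Cfsg

namespace Cfsg.Agent.S0582

open Cfsg.Agent.Lib.Helper4
open scoped Pointwise

universe u

theorem aux (n : ℕ) : ∀ {G : Type u} [Group G] [Finite G], Nat.card G = n →
    ∀ H K : Subgroup G, IsSupersolvable H → IsSupersolvable K → Nat.card H = Nat.card K →
    (Nat.card H).Coprime H.index → ∃ x : G, MulAut.conj x • H = K := by
  induction n using Nat.strong_induction_on with
  | _ n ih =>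
    intro G _ _ hn H K hH hK hcard hHall
    by_cases hH1 : Nat.card H = 1
    · have e1 : H = ⊥ := Subgroup.card_eq_one.mp hH1
      have e2 : K = ⊥ := Subgroup.card_eq_one.mp (hcard ▸ hH1)
      exact ⟨1, by rw [e1, e2]; simp⟩
    have hH2 : 1 < Nat.card H := by
      have := Nat.card_pos (α := H)
      omega
    obtain ⟨p, hp, hpH, hmax⟩ := exists_max_prime_dvd _ hH2
    have : Fact p.Prime := ⟨hp⟩
    have hidx : ∀ X : Subgroup G, Nat.card X = Nat.card H → X.index = H.index := by
      intro X hX
      have h1 := X.card_mul_index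
      have h2 := H.card_mul_index
      rw [← h2, hX] at h1
      exact Nat.eq_of_mul_eq_mul_left (by omega) h1
    have hpi : ¬ p ∣ H.index := by
      intro hd
      have := Nat.dvd_gcd hpH hd
      rw [hHall] at this
      exact hp.one_lt.ne' (Nat.dvd_one.mp this)
    have key : ∀ X : Subgroup G, IsSupersolvable X → Nat.card X = Nat.card H →
        ∃ P : Subgroup G, P ≤ X ∧ X ≤ Subgroup.normalizer (P : Set G) ∧ IsPGroup p P ∧
          ¬ p ∣ P.index ∧ P ≠ ⊥ := by
      intro X hX hXc
      obtain ⟨P', hP'n, hP'p, hP'i⟩ := exists_normal_sylow_maxPrime _ rfl hX p hp (hXc ▸ hpH)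
        (fun q hq hqd => hmax q hq (hXc ▸ hqd))
      have hi : ¬ p ∣ (P'.map X.subtype).index := by
        rw [Subgroup.index_map_subtype, hidx X hXc]
        exact hp.not_dvd_mul hP'i hpi
      refine ⟨P'.map X.subtype, Subgroup.map_subtype_le _, ?_, hP'p.map _, hi, ?_⟩
      · rw [← Subgroup.normal_subgroupOf_iff_le_normalizer (Subgroup.map_subtype_le _)]
        have : (P'.map X.subtype).subgroupOf X = P' :=
          Subgroup.comap_map_eq_self_of_injective X.subtype_injective _
        rw [this]; exact hP'n
      · intro hbot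
        rw [hbot, Subgroup.index_bot] at hi
        exact hi (hpH.trans (Subgroup.card_subgroup_dvd_card H))
    obtain ⟨P, hPH, hHP, hPp, hPi, hP1⟩ := key H hH rfl
    obtain ⟨Q, hQK, hKQ, hQp, hQi, hQ1⟩ := key K hK hcard.symm
    obtain ⟨g, hg⟩ := MulAction.exists_smul_eq G (hPp.toSylow hPi) (hQp.toSylow hQi)
    have hg' : MulAut.conj g • P = Q := by
      have h1 : ((g • hPp.toSylow hPi : Sylow p G) : Subgroup G) = (hQp.toSylow hQi : Sylow p G) := by
        rw [hg]
      exact h1
    obtain ⟨H₁, hH₁⟩ : ∃ H₁ : Subgroup G, H₁ = MulAut.conj g • H := ⟨_, rfl⟩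
    have hH₁s : IsSupersolvable H₁ := hH₁ ▸ supersolvable_conj_smul g H hH
    have hH₁c : Nat.card H₁ = Nat.card H := by rw [hH₁, card_conj_smul]
    have hQH₁ : Q ≤ H₁ := by
      rw [hH₁, ← hg']
      exact Subgroup.map_mono hPH
    have hH₁Q : H₁ ≤ Subgroup.normalizer (Q : Set G) := by
      have h1 : MulAut.conj g • Subgroup.normalizer (P : Set G) =
          Subgroup.normalizer ((MulAut.conj g • P : Subgroup G) : Set G) :=
        Subgroup.map_equiv_normalizer_eq P (MulAut.conj g)
      rw [hH₁, ← hg', ← h1]
      exact Subgroup.map_mono hHP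
    have hH₁i : H₁.index = H.index := hidx H₁ hH₁c
    have hQ1' : 1 < Nat.card Q := by
      rw [Subgroup.one_lt_card_iff_ne_bot]; exact hQ1
    have fin : ∃ x : G, MulAut.conj x • H₁ = K := by
      by_cases hL : Subgroup.normalizer (Q : Set G) = ⊤
      · have hQn : Q.Normal := Subgroup.normalizer_eq_top_iff.mp hL
        have c1 := card_map_mk'_mul hQH₁
        have c2 := card_map_mk'_mul hQK
        obtain ⟨xb, hxb⟩ := ih (Nat.card (G ⧸ Q)) (hn ▸ card_quotient_lt Q hQ1') rfl
          (H₁.map (QuotientGroup.mk' Q)) (K.map (QuotientGroup.mk' Q))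
          (supersolvable_map _ _ hH₁s) (supersolvable_map _ _ hK)
          (by
            have : Nat.card (H₁.map (QuotientGroup.mk' Q)) * Nat.card Q =
                Nat.card (K.map (QuotientGroup.mk' Q)) * Nat.card Q := by
              rw [c1, c2, hH₁c, hcard]
            exact Nat.eq_of_mul_eq_mul_right (by omega) this)
          (by
            rw [index_map_mk' hQH₁, hH₁i]
            refine Nat.Coprime.coprime_dvd_left ?_ hHall
            rw [← hH₁c, ← c1]
            exact dvd_mul_right _ _)
        obtain ⟨x, rfl⟩ := QuotientGroup.mk'_surjective Q xb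
        exact ⟨x, conj_of_map_mk' hQH₁ hQK x hxb⟩
      · have hlt : Nat.card (Subgroup.normalizer (Q : Set G)) < Nat.card G := by
          have h1 := (Subgroup.normalizer (Q : Set G)).card_mul_index
          have h2 : (Subgroup.normalizer (Q : Set G)).index ≠ 1 := by
            rwa [Ne, Subgroup.index_eq_one]
          have h3 : (Subgroup.normalizer (Q : Set G)).index ≠ 0 := Subgroup.index_ne_zero_of_finite
          have h4 : 0 < Nat.card (Subgroup.normalizer (Q : Set G)) := Nat.card_pos
          have h5 : 2 ≤ (Subgroup.normalizer (Q : Set G)).index := by omega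
          nlinarith
        obtain ⟨x, hx⟩ := ih _ (hn ▸ hlt) rfl
          (H₁.subgroupOf (Subgroup.normalizer (Q : Set G)))
          (K.subgroupOf (Subgroup.normalizer (Q : Set G)))
          (supersolvable_subgroupOf hH₁Q hH₁s) (supersolvable_subgroupOf hKQ hK)
          (by rw [card_subgroupOf_of_le hH₁Q, card_subgroupOf_of_le hKQ, hH₁c, hcard])
          (by
            rw [card_subgroupOf_of_le hH₁Q, hH₁c]
            refine Nat.Coprime.coprime_dvd_right ?_ hHall
            rw [← hH₁i]
            exact Dvd.intro _ (Subgroup.relIndex_mul_index hH₁Q))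
        exact ⟨x, conj_of_subgroupOf hH₁Q hKQ x hx⟩
    obtain ⟨x, hx⟩ := fin
    exact ⟨x * g, by rw [map_mul, mul_smul, ← hH₁, hx]⟩


/-- Let H and K be supersolvable subgroups of a finite group G of the same order, that order being coprime to their index. Then H and K are conjugate in G. -/
theorem result {G : Type*} [Group G] [Finite G] (H K : Subgroup G) (hH : Cfsg.IsSupersolvable H) (hK : Cfsg.IsSupersolvable K) (hcard : Nat.card H = Nat.card K) (hHall : (Nat.card H).Coprime H.index) : ∃ x : G, MulAut.conj x • H = K := by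
  exact aux _ rfl H K hH hK hcard hHall

end Cfsg.Agent.S0582
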