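import Mathlib
import Cfsg.Statements.S0585
import Cfsg.Agent.Lib.Helper4.MinNormal
import Cfsg.Agent.Lib.Helper4.Complement


set_option autoImplicit false
open Cfsg

namespace Cfsg.Agent.S0585

open Cfsg.Agent.Lib.Helper4


/-- If the Frattini subgroup of a finite group G is trivial, then every abelian normal subgroup of G has a complement in G. -/
theorem result {G : Type*} [Group G] [Finite G] (hΦ : frattini G = ⊥) (A : Subgroup G) [A.Normal] [IsMulCommutative A] : ∃ H : Subgroup G, Subgroup.IsComplement' A H := by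
  classical
  have hA : IsMulCommutative A := inferInstance
  obtain ⟨H, hH⟩ := (Set.toFinite {H : Subgroup G | A ⊔ H = ⊤}).exists_minimal ⟨⊤, by simp⟩
  have hAH : A ⊔ H = ⊤ := hH.prop
  refine ⟨H, isComplement'_of_normal_left A H ?_ hAH⟩
  by_contra hD
  have hDn : (A ⊓ H).Normal := by
    refine normal_of_normalizer_ge (A := A) (B := H) ?_ ?_ hAH
    · intro a ha
      rw [Subgroup.mem_normalizer_iff]
      intro x
      have hcomm : ∀ y ∈ A, a * y * a⁻¹ = y := by
        intro y hy
        rw [(isMulCommutative_iff A).mp hA a ha y hy]; group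
      constructor
      · intro hx
        have hx' : x ∈ A ⊓ H := hx
        have : a * x * a⁻¹ = x := hcomm x hx'.1
        rw [this]; exact hx
      · intro hx
        have hx' : a * x * a⁻¹ ∈ A ⊓ H := hx
        have hxA : x ∈ A := by
          have := A.mul_mem (A.mul_mem (A.inv_mem ha) hx'.1) ha
          simpa [mul_assoc] using this
        have : a * x * a⁻¹ = x := hcomm x hxA
        rw [this] at hx; exact hx
    · intro b hb
      rw [Subgroup.mem_normalizer_iff]
      intro x
      have hAn : A.Normal := inferInstance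
      constructor
      · intro hx
        have hx' : x ∈ A ⊓ H := hx
        exact ⟨hAn.conj_mem x hx'.1 b, H.mul_mem (H.mul_mem hb hx'.2) (H.inv_mem hb)⟩
      · intro hx
        have hx' : b * x * b⁻¹ ∈ A ⊓ H := hx
        have e : x = b⁻¹ * (b * x * b⁻¹) * b⁻¹⁻¹ := by group
        have h1 : x ∈ A := by rw [e]; exact hAn.conj_mem _ hx'.1 b⁻¹
        have h2 : x ∈ H := by
          rw [e]; exact H.mul_mem (H.mul_mem (H.inv_mem hb) hx'.2) (H.inv_mem (H.inv_mem hb))
        exact ⟨h1, h2⟩
  have hex : ∃ M : Subgroup G, IsCoatom M ∧ ¬ (A ⊓ H) ≤ M := by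
    by_contra hno
    push Not at hno
    apply hD
    rw [eq_bot_iff, ← hΦ]
    unfold frattini Order.radical
    exact le_iInf fun M => le_iInf fun hM => hno M hM
  obtain ⟨M, hM, hDM⟩ := hex
  have hsup : M ⊔ (A ⊓ H) = ⊤ := sup_eq_top_of_coatom hM hDM
  have hded := inf_sup_eq_of_le_of_normal (A ⊓ H) H M inf_le_right
  rw [sup_comm, hsup, inf_top_eq] at hded
  have h1 : A ⊔ (H ⊓ M) = ⊤ := by
    rw [eq_top_iff, ← hAH]
    refine sup_le le_sup_left ?_
    conv_lhs => rw [hded]
    exact sup_le (le_trans inf_le_left le_sup_left) le_sup_right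
  have h2 : H ≤ H ⊓ M := hH.le_of_le h1 inf_le_left
  exact hDM (le_trans inf_le_right (le_trans h2 inf_le_right))

end Cfsg.Agent.S0585
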