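import Mathlib
import Cfsg.Statements.S0586
import Cfsg.Agent.Lib.Helper4.MinNormal
import Cfsg.Agent.Lib.Helper4.Complement
import Cfsg.Agent.S0575
import Cfsg.Agent.S0585


set_option autoImplicit false
open Cfsg

namespace Cfsg.Agent.S0586

open Cfsg.Agent.Lib.Helper4
open scoped commutatorElement

theorem comm_of_nilpotent_of_frattini_eq_bot {N : Type*} [Group N] [Finite N]
    [hnil : Group.IsNilpotent N] (h : frattini N = ⊥) : ∀ a b : N, a * b = b * a := by
  have h1 : commutator N ≤ frattini N := by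
    unfold frattini Order.radical
    refine le_iInf fun M => le_iInf fun hM => ?_
    have hMn : M.Normal :=
      ((Group.isNilpotent_of_finite_tfae (G := N)).out 0 2 rfl rfl).mp hnil M hM
    obtain ⟨x, hx⟩ : ∃ x, x ∉ M := by
      by_contra hno
      push Not at hno
      exact hM.1 (eq_top_iff.mpr fun x _ => hno x)
    have hsup : M ⊔ Subgroup.zpowers x = ⊤ :=
      sup_eq_top_of_coatom hM (by intro hle; exact hx (hle (Subgroup.mem_zpowers x)))
    exact Subgroup.Normal.commutator_le_of_self_sup_commutative_eq_top hsup inferInstance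
  rw [h, le_bot_iff] at h1
  intro a b
  have h2 : ⁅a, b⁆ ∈ commutator N :=
    Subgroup.commutator_mem_commutator (Subgroup.mem_top a) (Subgroup.mem_top b)
  rw [h1, Subgroup.mem_bot] at h2
  exact commutatorElement_eq_one_iff_mul_comm.mp h2

theorem inf_normal_of_comm {G : Type*} [Group G] {N S H : Subgroup G} [hNn : N.Normal]
    (hN : IsMulCommutative N) (hSN : S ≤ N) (hSH : S ⊔ H = ⊤) : (N ⊓ H).Normal := by
  refine normal_of_normalizer_ge (A := S) (B := H) ?_ ?_ hSH
  · intro a ha'
    have ha : a ∈ N := hSN ha'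
    rw [Subgroup.mem_normalizer_iff]
    intro x
    have hcomm : ∀ y ∈ N, a * y * a⁻¹ = y := by
      intro y hy
      rw [(isMulCommutative_iff N).mp hN a ha y hy]; group
    constructor
    · intro hx
      have hx' : x ∈ N ⊓ H := hx
      have : a * x * a⁻¹ = x := hcomm x hx'.1
      rw [this]; exact hx
    · intro hx
      have hx' : a * x * a⁻¹ ∈ N ⊓ H := hx
      have hxA : x ∈ N := by
        have := N.mul_mem (N.mul_mem (N.inv_mem ha) hx'.1) ha
        simpa [mul_assoc] using this
      have : a * x * a⁻¹ = x := hcomm x hxA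
      rw [this] at hx; exact hx
  · intro b hb
    rw [Subgroup.mem_normalizer_iff]
    intro x
    constructor
    · intro hx
      have hx' : x ∈ N ⊓ H := hx
      exact ⟨hNn.conj_mem x hx'.1 b, H.mul_mem (H.mul_mem hb hx'.2) (H.inv_mem hb)⟩
    · intro hx
      have hx' : b * x * b⁻¹ ∈ N ⊓ H := hx
      have e : x = b⁻¹ * (b * x * b⁻¹) * b⁻¹⁻¹ := by group
      have h1 : x ∈ N := by rw [e]; exact hNn.conj_mem _ hx'.1 b⁻¹
      have h2 : x ∈ H := by
        rw [e]; exact H.mul_mem (H.mul_mem (H.inv_mem hb) hx'.2) (H.inv_mem (H.inv_mem hb))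
      exact ⟨h1, h2⟩


/-- If the Frattini subgroup of a finite group G is trivial, then the Fitting subgroup of G equals the join of all abelian minimal normal subgroups of G. -/
theorem result {G : Type*} [Group G] [Finite G] (hΦ : frattini G = ⊥) : Cfsg.fittingSubgroup G = sSup {N : Subgroup G | N.Normal ∧ N ≠ ⊥ ∧ IsMulCommutative N ∧ ∀ K : Subgroup G, K.Normal → K ≤ N → K = ⊥ ∨ K = N} := by
  classical
  apply le_antisymm
  · unfold fittingSubgroup
    apply sSup_le
    rintro N ⟨hNn, hNnil⟩
    have hΦN : frattini ↥N = ⊥ := by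
      have := Cfsg.Agent.S0575.result N
      rw [hΦ, le_bot_iff] at this
      exact (Subgroup.map_eq_bot_iff_of_injective _ N.subtype_injective).mp this
    have hNc : IsMulCommutative N := (isMulCommutative_iff N).mpr (fun a ha b hb => by
      have := comm_of_nilpotent_of_frattini_eq_bot hΦN ⟨a, ha⟩ ⟨b, hb⟩
      exact congrArg Subtype.val this)
    obtain ⟨S, hSdef⟩ : ∃ S : Subgroup G, S = sSup {L : Subgroup G | IsMinNormal L ∧ L ≤ N} :=
      ⟨_, rfl⟩
    have hSN : S ≤ N := by rw [hSdef]; exact sSup_le fun L hL => hL.2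
    have hSn : S.Normal := by
      rw [hSdef]; exact Subgroup.sSup_normal _ (fun L hL => hL.1.1)
    have hSc : IsMulCommutative S := isMulCommutative_of_le hSN hNc
    obtain ⟨H, hH⟩ := Cfsg.Agent.S0585.result hΦ S
    have h1 : S ⊓ H = ⊥ := hH.disjoint.eq_bot
    have h2 : S ⊔ H = ⊤ := hH.sup_eq_top
    have hDn : (N ⊓ H).Normal := inf_normal_of_comm hNc hSN h2
    have hD : N ⊓ H = ⊥ := by
      by_contra hne
      obtain ⟨L, hL, hLle⟩ := exists_minNormal_le _ hDn hne
      apply hL.2.1
      rw [eq_bot_iff, ← h1]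
      refine le_inf ?_ (hLle.trans inf_le_right)
      rw [hSdef]
      exact le_sSup ⟨hL, hLle.trans inf_le_left⟩
    have hded := inf_sup_eq_of_le_of_normal S N H hSN
    rw [h2, inf_top_eq, hD, sup_bot_eq] at hded
    rw [hded, hSdef]
    apply sSup_le_sSup
    rintro L ⟨hL, hLN⟩
    exact ⟨hL.1, hL.2.1, isMulCommutative_of_le hLN hNc, hL.2.2⟩
  · apply sSup_le
    rintro N ⟨hNn, -, hNc, -⟩
    unfold fittingSubgroup
    apply le_sSup
    refine ⟨hNn, ?_⟩
    let _ : CommGroup ↥N := { (inferInstance : Group ↥N) with mul_comm := fun a b => mul_comm' a b }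
    exact CommGroup.isNilpotent

end Cfsg.Agent.S0586
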