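import Cfsg.Statements.S0587
import Cfsg.Agent.Lib.Helper4.MinNormal
import Cfsg.Agent.Lib.Helper12.Rel
import Cfsg.Agent.Lib.Helper17.Cores
import Cfsg.Agent.Lib.Helper17.SylGraph

set_option autoImplicit false
open Cfsg

namespace Cfsg.Agent.S0587

open Cfsg.Agent.Lib.Helper4 Cfsg.Agent.Lib.Helper17

theorem main {G : Type*} [Group G] [Finite G] (p : ℕ) [Fact p.Prime] (L M : Subgroup G) [hLn : L.Normal]
    (hLp : IsPGroup p L) (hLmax : ∀ N : Subgroup G, N.Normal → IsPGroup p N → N ≤ L) (hL : L ≠ ⊥)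
    (hM : IsCoatom M) (hcore : M.normalCore = ⊥) :
    Cfsg.IsElementaryAbelian p L ∧ Subgroup.IsComplement' L M ∧
    (∀ K : Subgroup G, K.Normal → K ≤ L → K = ⊥ ∨ K = L) ∧
    Subgroup.centralizer (L : Set G) = L ∧
    ∀ (q : ℕ) [Fact q.Prime] (Q : Subgroup G), Q ≠ ⊥ → IsPGroup q Q → Q ≤ M →
      M ≤ Subgroup.normalizer (Q : Set G) → Nat.card L % q = 1 % q ∧ q ≠ p := by
  have hLM : ¬ L ≤ M := not_le_of_normalCore_eq_bot hcore hL
  have hsup : M ⊔ L = ⊤ := sup_eq_top_of_coatom hM hLM
  have htriv : ∀ D : Subgroup G, D.Normal → D ≤ M → D = ⊥ := by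
    intro D hD hDM
    rw [eq_bot_iff, ← hcore]; exact Subgroup.normal_le_normalCore.mpr hDM
  have hinf : L ⊓ M = ⊥ := by
    have h1 : M ≤ Subgroup.normalizer ((L ⊓ M : Subgroup G) : Set G) := by
      intro m hm
      apply mem_normalizer_of_map_conj_le
      rintro _ ⟨y, hy, rfl⟩
      exact Subgroup.mem_inf.mpr ⟨hLn.conj_mem y (Subgroup.mem_inf.mp hy).1 m,
        M.mul_mem (M.mul_mem hm (Subgroup.mem_inf.mp hy).2) (M.inv_mem hm)⟩
    by_contra hnb
    have hnn : ¬ (L ⊓ M).Normal := fun h => hnb (htriv _ h inf_le_right)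
    have h2 : Subgroup.normalizer ((L ⊓ M : Subgroup G) : Set G) = M := by
      by_contra hne
      exact hnn (Subgroup.normalizer_eq_top_iff.mp (hM.2 _ (lt_of_le_of_ne h1 (Ne.symm hne))))
    have h3 : L ⊓ M = L := by
      apply eq_of_inf_normalizer_le hLp inf_le_left
      rw [h2]
    exact hLM (h3 ▸ inf_le_right)
  have hmin : ∀ K : Subgroup G, K.Normal → K ≤ L → K = ⊥ ∨ K = L := by
    intro K hK hKL
    by_cases hK1 : K = ⊥
    · left; exact hK1
    · right
      haveI := hK
      have h1 : ¬ K ≤ M := not_le_of_normalCore_eq_bot hcore hK1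
      have h2 : M ⊔ K = ⊤ := sup_eq_top_of_coatom hM h1
      have h3 := inf_sup_eq_of_le_of_normal K L M hKL
      rw [sup_comm K M, h2, inf_top_eq, hinf, sup_bot_eq] at h3
      exact h3.symm
  have hcomm : IsMulCommutative L := by
    rw [← Subgroup.commutator_self_eq_bot_iff]
    rcases hmin ⁅L, L⁆ inferInstance (Subgroup.commutator_le_self L) with h | h
    · exact h
    · exfalso
      haveI : Nontrivial L := (Subgroup.nontrivial_iff_ne_bot L).mpr hL
      haveI : Group.IsNilpotent L := hLp.isNilpotent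
      have h1 := Group.IsSolvable.commutator_lt_top_of_nontrivial ↥L
      have h2 : (commutator L).map L.subtype = ⁅L, L⁆ := Subgroup.map_subtype_commutator L
      rw [h] at h2
      apply h1.ne
      rw [eq_top_iff]
      intro x _
      have h3 : (x : G) ∈ (commutator L).map L.subtype := by rw [h2]; exact x.2
      obtain ⟨y, hy, hyx⟩ := h3
      have h4 : y = x := Subtype.ext hyx
      rwa [← h4]
  have hcc := (Cfsg.Agent.Lib.Helper4.isMulCommutative_iff L).mp hcomm
  have hminN : IsMinNormal L := ⟨hLn, hL, hmin⟩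
  have helem : Cfsg.IsElementaryAbelian p L := by
    obtain ⟨q, hq, hqe⟩ := hminN.elemAb_of_comm hcomm
    have hqp : q = p := by
      obtain ⟨x, hx, hx1⟩ := exists_ne_one_of_ne_bot hL
      have h1 : orderOf x ∣ q := orderOf_dvd_of_pow_eq_one (hqe.2 x hx)
      have h2 : orderOf x = q :=
        ((Nat.dvd_prime hq).mp h1).resolve_left (fun h => hx1 (orderOf_eq_one_iff.mp h))
      obtain ⟨k, hk⟩ := exists_pow_eq_one_of_isPGroup hLp hx
      have h3 : q ∣ p ^ k := h2 ▸ orderOf_dvd_of_pow_eq_one hk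
      exact (Nat.prime_dvd_prime_iff_eq hq Fact.out).mp (hq.dvd_of_dvd_pow h3)
    rw [hqp] at hqe
    exact hqe
  have hcompl : Subgroup.IsComplement' L M := by
    apply Subgroup.isComplement'_of_disjoint_and_mul_eq_univ (disjoint_iff.mpr hinf)
    rw [← Subgroup.normal_mul, sup_comm, hsup]; rfl
  have hLC : L ≤ Subgroup.centralizer (L : Set G) := by
    intro x hx
    rw [Subgroup.mem_centralizer_iff]
    intro y hy
    exact hcc y hy x hx
  have hCn : (Subgroup.centralizer (L : Set G)).Normal := inferInstance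
  have hcent : Subgroup.centralizer (L : Set G) = L := by
    have h3 := inf_sup_eq_of_le_of_normal L (Subgroup.centralizer (L : Set G)) M hLC
    have h4 : Subgroup.centralizer (L : Set G) ⊓ M = ⊥ := by
      apply htriv _ _ inf_le_right
      apply normal_of_normalizer_ge (A := M) (B := L) _ _ hsup
      · intro m hm
        apply mem_normalizer_of_map_conj_le
        rintro _ ⟨y, hy, rfl⟩
        exact Subgroup.mem_inf.mpr ⟨hCn.conj_mem y (Subgroup.mem_inf.mp hy).1 m,
          M.mul_mem (M.mul_mem hm (Subgroup.mem_inf.mp hy).2) (M.inv_mem hm)⟩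
      · intro l hl
        apply mem_normalizer_of_map_conj_le
        rintro _ ⟨y, hy, rfl⟩
        have h5 : l * y = y * l := Subgroup.mem_centralizer_iff.mp (Subgroup.mem_inf.mp hy).1 l hl
        have h6 : (MulAut.conj l).toMonoidHom y = y := by
          change l * y * l⁻¹ = y
          rw [h5]; group
        rw [h6]; exact hy
    rw [sup_comm L M, hsup, inf_top_eq, h4, sup_bot_eq] at h3
    exact h3
  refine ⟨helem, hcompl, hmin, hcent, ?_⟩
  intro q _ Q hQ1 hQq hQM hMQ
  have hQL : ¬ Q ≤ L := fun h => hQ1 (eq_bot_iff.mpr (hinf ▸ le_inf h hQM))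
  have hqp : q ≠ p := by
    rintro rfl
    apply hQL
    have hn : (L ⊔ Q).Normal := by
      apply normal_of_normalizer_ge (A := M) (B := L) _ _ hsup
      · intro m hm
        apply mem_normalizer_of_map_conj_le
        rw [Subgroup.map_sup]
        apply sup_le_sup
        · rintro _ ⟨y, hy, rfl⟩
          exact hLn.conj_mem y hy m
        · exact (Cfsg.Agent.Lib.Helper12.mem_normalizer_iff_cj.mp (hMQ hm)).le
      · exact le_sup_left.trans Subgroup.le_normalizer
    have hpg : IsPGroup q ↥(L ⊔ Q) := hLp.to_sup_of_normal_left hQq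
    exact le_sup_right.trans (hLmax _ hn hpg)
  refine ⟨?_, hqp⟩
  have hF : L ⊓ Subgroup.centralizer (Q : Set G) = ⊥ := by
    have hn : (L ⊓ Subgroup.centralizer (Q : Set G)).Normal := by
      apply normal_of_normalizer_ge (A := M) (B := L) _ _ hsup
      · intro m hm
        apply mem_normalizer_of_map_conj_le
        rintro _ ⟨y, hy, rfl⟩
        refine Subgroup.mem_inf.mpr ⟨hLn.conj_mem y (Subgroup.mem_inf.mp hy).1 m, ?_⟩
        rw [Subgroup.mem_centralizer_iff]
        intro x hx
        have hx' : m⁻¹ * x * m ∈ Q := by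
          have := (Subgroup.mem_normalizer_iff.mp (Subgroup.inv_mem _ (hMQ hm)) x).mp hx
          simpa using this
        have h5 := Subgroup.mem_centralizer_iff.mp (Subgroup.mem_inf.mp hy).2 _ hx'
        change x * (m * y * m⁻¹) = (m * y * m⁻¹) * x
        calc x * (m * y * m⁻¹) = m * ((m⁻¹ * x * m) * y) * m⁻¹ := by group
          _ = m * (y * (m⁻¹ * x * m)) * m⁻¹ := by rw [h5]
          _ = (m * y * m⁻¹) * x := by group
      · intro l hl
        apply mem_normalizer_of_map_conj_le
        rintro _ ⟨y, hy, rfl⟩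
        have h5 : l * y = y * l := hcc l hl y (Subgroup.mem_inf.mp hy).1
        have h6 : (MulAut.conj l).toMonoidHom y = y := by
          change l * y * l⁻¹ = y
          rw [h5]; group
        rw [h6]; exact hy
    rcases hmin _ hn inf_le_left with h | h
    · exact h
    · exfalso
      apply hQL
      have h1 : L ≤ Subgroup.centralizer (Q : Set G) := h ▸ inf_le_right
      rw [← hcent]
      exact Subgroup.le_centralizer_iff.mp h1
  let _ : MulAction ↥Q ↥L := MulAction.compHom ↥L ((MulAut.conjNormal (H := L)).comp Q.subtype)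
  have hsmul : ∀ (g : ↥Q) (n : ↥L), ((g • n : ↥L) : G) = g * n * (g : G)⁻¹ := fun g n => rfl
  have hmod := hQq.card_modEq_card_fixedPoints ↥L
  have hone : ∀ a : ↥L, a ∈ MulAction.fixedPoints ↥Q ↥L → a = 1 := by
    intro a ha
    have h1 : (a : G) ∈ L ⊓ Subgroup.centralizer (Q : Set G) := by
      refine Subgroup.mem_inf.mpr ⟨a.2, ?_⟩
      rw [Subgroup.mem_centralizer_iff]
      intro x hx
      have h2 := congrArg Subtype.val (ha ⟨x, hx⟩)
      rw [hsmul] at h2
      calc x * (a : G) = (x * a * x⁻¹) * x := by group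
        _ = a * x := by rw [h2]
    rw [hF, Subgroup.mem_bot] at h1
    exact Subtype.ext h1
  have hfix : Nat.card (MulAction.fixedPoints ↥Q ↥L) = 1 := by
    rw [Nat.card_eq_one_iff_unique]
    refine ⟨⟨?_⟩, ⟨⟨1, ?_⟩⟩⟩
    · rintro ⟨a, ha⟩ ⟨b, hb⟩
      apply Subtype.ext
      exact (hone a ha).trans (hone b hb).symm
    · intro g
      apply Subtype.ext
      rw [hsmul]; simp
  rw [hfix] at hmod
  exact hmod

/-- Let G be a finite group whose largest normal p-subgroup L is nontrivial, and M a maximal subgroup of G with trivial normal core. Then L is elementary abelian, M is a complement to L, L is a minimal normal subgroup of G, the centralizer of L is L, and for every prime q such that the largest normal q-subgroup of M is nontrivial, the order of L is congruent to 1 modulo q and q ≠ p. -/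
theorem result {G : Type*} [Group G] [Finite G] (p : ℕ) [Fact p.Prime] (hL : Cfsg.pCore p G ≠ ⊥) (M : Subgroup G) (hM : IsCoatom M) (hcore : M.normalCore = ⊥) : Cfsg.IsElementaryAbelian p (Cfsg.pCore p G) ∧ Subgroup.IsComplement' (Cfsg.pCore p G) M ∧ (∀ K : Subgroup G, K.Normal → K ≤ Cfsg.pCore p G → K = ⊥ ∨ K = Cfsg.pCore p G) ∧ Subgroup.centralizer ((Cfsg.pCore p G : Subgroup G) : Set G) = Cfsg.pCore p G ∧ ∀ (q : ℕ) [Fact q.Prime], Cfsg.pCore q ↥M ≠ ⊥ → Nat.card (Cfsg.pCore p G) % q = 1 % q ∧ q ≠ p := by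
  haveI hLn : (Cfsg.pCore p G).Normal :=
    haveI := pCore_characteristic (G := G) p
    inferInstance
  obtain ⟨h1, h2, h3, h4, h5⟩ := main p (Cfsg.pCore p G) M (pCore_isPGroup p)
    (fun N hN hNp => le_pCore hN hNp) hL hM hcore
  refine ⟨h1, h2, h3, h4, ?_⟩
  intro q _ hq
  apply h5 q ((Cfsg.pCore q ↥M).map M.subtype)
  · intro h
    exact hq ((Subgroup.map_eq_bot_iff_of_injective _ M.subtype_injective).mp h)
  · exact (pCore_isPGroup q).map _
  · exact Subgroup.map_subtype_le _
  · exact Cfsg.Agent.Lib.Helper12.le_normalizer_pCoreOf q M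

end Cfsg.Agent.S0587
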