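import Mathlib
import Cfsg.Statements.S0590
import Cfsg.Agent.Lib.Helper4.Quad


set_option autoImplicit false
open Cfsg

namespace Cfsg.Agent.S0590

open Cfsg.Agent.Lib.Helper4
open scoped commutatorElement


/-- Quadratic action on an elementary abelian p-group forces the acting group modulo the kernel of the action to be elementary abelian. -/
theorem result {G : Type*} [Group G] [Finite G] {p : ℕ} [Fact p.Prime] (V H : Subgroup G) (hV : Cfsg.IsElementaryAbelian p V) (hHV : H ≤ Subgroup.normalizer (V : Set G)) (hq : ⁅⁅V, H⁆, H⁆ = ⊥) : ⁅H, H⁆ ≤ Subgroup.centralizer (V : Set G) ∧ ∀ a ∈ H, a ^ p ∈ Subgroup.centralizer (V : Set G) := by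
  have hVc := (isMulCommutative_iff V).mp hV.1
  have hD : ∀ d ∈ ⁅V, H⁆, ∀ a ∈ H, a * d = d * a :=
    fun d hd a ha => commute_of_commutator_eq_bot hq hd ha
  have hDV : ⁅V, H⁆ ≤ V := commutator_le_of_le_normalizer le_rfl hHV
  have key : ∀ a ∈ H, ∀ v ∈ V, ∃ d ∈ ⁅V, H⁆, a * v * a⁻¹ = d * v := by
    intro a ha v hv
    exact ⟨⁅v, a⁆⁻¹, inv_mem (Subgroup.commutator_mem_commutator hv ha), conj_eq_comm_inv_mul v a⟩
  have key2 : ∀ a ∈ H, ∀ b ∈ H, ∀ v ∈ V, (a * b) * v * (a * b)⁻¹ = (b * a) * v * (b * a)⁻¹ := by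
    intro a ha b hb v hv
    obtain ⟨da, hda, ea⟩ := key a ha v hv
    obtain ⟨db, hdb, eb⟩ := key b hb v hv
    have e1 : (a * b) * v * (a * b)⁻¹ = a * (b * v * b⁻¹) * a⁻¹ := by group
    have e2 : (b * a) * v * (b * a)⁻¹ = b * (a * v * a⁻¹) * b⁻¹ := by group
    have e3 : a * (db * v) * a⁻¹ = (a * db) * a⁻¹ * (a * v * a⁻¹) := by group
    have e4 : b * (da * v) * b⁻¹ = (b * da) * b⁻¹ * (b * v * b⁻¹) := by group
    rw [e1, e2, ea, eb, e3, e4, hD db hdb a ha, hD da hda b hb, ea, eb]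
    simp only [mul_inv_cancel_right]
    rw [← mul_assoc, ← mul_assoc, hVc db (hDV hdb) da (hDV hda)]
  constructor
  · rw [Subgroup.commutator_le]
    intro a ha b hb
    rw [Subgroup.mem_centralizer_iff]
    intro v hv
    have hban : (b * a)⁻¹ ∈ Subgroup.normalizer (V : Set G) := inv_mem (hHV (H.mul_mem hb ha))
    have hw : (b * a)⁻¹ * v * (b * a)⁻¹⁻¹ ∈ V := conj_mem_of_mem_normalizer hban hv
    have h1 := key2 a ha b hb _ hw
    have h2 : (b * a) * ((b * a)⁻¹ * v * (b * a)⁻¹⁻¹) * (b * a)⁻¹ = v := by group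
    rw [h2] at h1
    have h3 : ⁅a, b⁆ * v * ⁅a, b⁆⁻¹ = (a * b) * ((b * a)⁻¹ * v * (b * a)⁻¹⁻¹) * (a * b)⁻¹ := by
      rw [commutatorElement_def]; group
    rw [h1] at h3
    calc v * ⁅a, b⁆ = (⁅a, b⁆ * v * ⁅a, b⁆⁻¹) * ⁅a, b⁆ := by rw [h3]
      _ = ⁅a, b⁆ * v := by group
  · intro a ha
    rw [Subgroup.mem_centralizer_iff]
    intro v hv
    obtain ⟨d, hd, e⟩ := key a ha v hv
    have hpow : ∀ n : ℕ, a ^ n * v * (a ^ n)⁻¹ = d ^ n * v := by
      intro n
      induction n with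
      | zero => simp
      | succ n ih =>
        have e1 : a ^ (n + 1) * v * (a ^ (n + 1))⁻¹ = a * (a ^ n * v * (a ^ n)⁻¹) * a⁻¹ := by
          rw [pow_succ']; group
        have hdn : a * d ^ n = d ^ n * a := hD _ (pow_mem hd n) a ha
        have e2 : a * (d ^ n * v) * a⁻¹ = (a * d ^ n) * a⁻¹ * (a * v * a⁻¹) := by group
        rw [e1, ih, e2, hdn, e, pow_succ]
        group
    have h1 := hpow p
    rw [hV.2 d (hDV hd), one_mul] at h1
    calc v * a ^ p = (a ^ p * v * (a ^ p)⁻¹) * a ^ p := by rw [h1]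
      _ = a ^ p * v := by group

end Cfsg.Agent.S0590
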