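import Mathlib
import Cfsg.Statements.S0591
import Cfsg.Agent.Lib.Helper4.Quad


set_option autoImplicit false
open Cfsg

namespace Cfsg.Agent.S0591

open Cfsg.Agent.Lib.Helper4
open scoped commutatorElement


/-- For a quadratically acting element a on an elementary abelian p-group V, the fixed points C_V(a) have order at least the square root of the order of V. -/
theorem result {G : Type*} [Group G] [Finite G] {p : ℕ} [Fact p.Prime] (V : Subgroup G) (hV : Cfsg.IsElementaryAbelian p V) (a : G) (ha : a ∈ Subgroup.normalizer (V : Set G)) (hq : ⁅⁅V, Subgroup.zpowers a⁆, Subgroup.zpowers a⁆ = ⊥) : Nat.card V ≤ Nat.card ↥(V ⊓ Subgroup.centralizer (Subgroup.zpowers a : Set G)) ^ 2 := by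
  classical
  have hza : Subgroup.zpowers a ≤ Subgroup.normalizer (V : Set G) := by
    rw [Subgroup.zpowers_le]; exact ha
  have hD : ∀ d ∈ ⁅V, Subgroup.zpowers a⁆, ∀ b ∈ Subgroup.zpowers a, b * d = d * b :=
    fun d hd b hb => commute_of_commutator_eq_bot hq hd hb
  have hmem : ∀ v : V, ⁅(v : G), a⁆ ∈ V ⊓ Subgroup.centralizer (Subgroup.zpowers a : Set G) := by
    intro v
    refine mem_cv_iff.mpr ⟨comm_mem_of_mem_normalizer ha v.2, ?_⟩
    intro b hb
    exact hD _ (Subgroup.commutator_mem_commutator v.2 (Subgroup.mem_zpowers a)) b hb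
  let φ : ↥V →* ↥(V ⊓ Subgroup.centralizer (Subgroup.zpowers a : Set G)) :=
    { toFun := fun v => ⟨⁅(v : G), a⁆, hmem v⟩
      map_one' := by
        ext; simp
      map_mul' := by
        intro v w
        ext
        exact comm_mul_left_of_comm hV.1 ha v.2 w.2 }
  have hker : φ.ker.map V.subtype = V ⊓ Subgroup.centralizer (Subgroup.zpowers a : Set G) := by
    ext x
    constructor
    · rintro ⟨v, hv, rfl⟩
      refine mem_cv_iff.mpr ⟨v.2, ?_⟩
      have h1 : φ v = 1 := hv
      have h2 : ⁅(v : G), a⁆ = 1 := congrArg Subtype.val h1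
      have h3 : (v : G) * a = a * v := commutatorElement_eq_one_iff_mul_comm.mp h2
      intro b hb
      obtain ⟨k, rfl⟩ := Subgroup.mem_zpowers_iff.mp hb
      exact ((Commute.zpow_right (show Commute (v : G) a from h3) k).eq).symm
    · intro hx
      obtain ⟨hxV, hxC⟩ := mem_cv_iff.mp hx
      refine ⟨⟨x, hxV⟩, ?_, rfl⟩
      have h3 := hxC a (Subgroup.mem_zpowers a)
      have h2 : ⁅x, a⁆ = 1 := commutatorElement_eq_one_iff_mul_comm.mpr h3.symm
      rw [SetLike.mem_coe, MonoidHom.mem_ker]
      ext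
      exact h2
  have h1 : Nat.card φ.ker * φ.ker.index = Nat.card V := φ.ker.card_mul_index
  rw [Subgroup.index_ker, ← card_map_subtype, hker] at h1
  rw [← h1, sq]
  exact Nat.mul_le_mul_left _ (Subgroup.card_le_card_group _)

end Cfsg.Agent.S0591
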