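import Cfsg.Statements.S0592
import Mathlib
import Cfsg.Agent.Lib.Helper5.Qd11

set_option autoImplicit false
open Cfsg

namespace Cfsg.Agent.S0592

open Cfsg.Agent.Lib.Helper5.Dk Cfsg.Agent.Lib.Helper9

/-- Two quadratically acting generators of a linear group that is not a p-group, with the p'-part of the order of their product dividing q - 1, give a homomorphism onto a subgroup of SL(2, q) that is not a p-group. -/
theorem result {K : Type*} [Field K] [Fintype K] {p : ℕ} [Fact p.Prime] [CharP K p] {W : Type*} [AddCommGroup W] [Module K W] [FiniteDimensional K W] [Finite W] [Nontrivial W] (H : Subgroup (W ≃ₗ[K] W)) (a b : W ≃ₗ[K] W) (hH : H = Subgroup.closure {a, b}) (ha : ∀ w : W, a (a w - w) = a w - w) (hb : ∀ w : W, b (b w - w) = b w - w) (hnp : ¬ IsPGroup p H) (hk : ∃ e k : ℕ, orderOf (a * b) = p ^ e * k ∧ k ∣ Fintype.card K - 1) : ∃ φ : H →* Matrix.SpecialLinearGroup (Fin 2) K, ¬ IsPGroup p φ.range :=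 by
  classical
  have hpp : p.Prime := Fact.out
  have hfin : Finite (W ≃ₗ[K] W) :=
    Finite.of_injective (fun e : W ≃ₗ[K] W => (e : W → W)) DFunLike.coe_injective
  let ρ : (W ≃ₗ[K] W) →* Module.End K W := LinearEquiv.automorphismGroup.toLinearMapMonoidHom
  have hρ : ∀ (g : W ≃ₗ[K] W) (w : W), ρ g w = g w := fun _ _ => rfl
  have hx : (ρ a - 1) * (ρ a - 1) = 0 := by
    ext w
    simp only [Module.End.mul_apply, LinearMap.sub_apply, Module.End.one_apply, hρ,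
      LinearMap.zero_apply]
    rw [ha w, sub_self]
  have hy : (ρ b - 1) * (ρ b - 1) = 0 := by
    ext w
    simp only [Module.End.mul_apply, LinearMap.sub_apply, Module.End.one_apply, hρ,
      LinearMap.zero_apply]
    rw [hb w, sub_self]
  have hnil : ¬ IsNilpotent ((ρ a - 1) * (ρ b - 1) + (ρ b - 1) * (ρ a - 1)) := by
    intro hn
    apply hnp
    have key : ∀ h ∈ H, (orderOf h).Coprime p → h = 1 := by
      intro h hh hcop
      have h1 := quad_unipotent p ρ a b hx hy hn h (hH ▸ hh) hcop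
      ext w
      have := congrArg (fun f => f w) h1
      simpa [hρ] using this
    intro g
    obtain ⟨j, m, hm, hjm⟩ := Nat.exists_eq_pow_mul_and_not_dvd (orderOf_pos (g : W ≃ₗ[K] W)).ne' p
      hpp.ne_one
    refine ⟨j, ?_⟩
    apply Subtype.ext
    rw [Subgroup.coe_pow, Subgroup.coe_one]
    apply key _ (H.pow_mem g.2 _)
    have h1 : orderOf ((g : W ≃ₗ[K] W) ^ p ^ j) ∣ m := by
      apply orderOf_dvd_of_pow_eq_one
      rw [← pow_mul, ← hjm, pow_orderOf_eq_one]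
    exact Nat.Coprime.coprime_dvd_left h1 ((Nat.Prime.coprime_iff_not_dvd hpp).mpr hm).symm
  obtain ⟨e, k, ho, hkd⟩ := hk
  obtain ⟨X, hX⟩ : ∃ X, X = ρ a - 1 := ⟨_, rfl⟩
  obtain ⟨Y, hY⟩ : ∃ Y, Y = ρ b - 1 := ⟨_, rfl⟩
  rw [← hX] at hx
  rw [← hY] at hy
  rw [← hX, ← hY] at hnil
  have hc : ρ (a * b) = (1 + X) * (1 + Y) := by rw [map_mul, hX, hY]; congr 1 <;> abel
  have hcpow : ρ (a * b) ^ (p ^ e * k) = 1 := by rw [← map_pow, ← ho, pow_orderOf_eq_one, map_one]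
  have hA1 := alg1 X Y hx hy
  have hA2 := alg2 X Y hx hy
  rw [← hc] at hA1 hA2
  have hnu : (ρ (a * b) - 1) ^ (p ^ e) ≠ 0 := by
    intro h0
    apply hnil
    refine ⟨p ^ e, ?_⟩
    have hcomm : Commute (X * Y + Y * X) (ρ (a * b)) := hA2
    have h1 : ((X * Y + Y * X) * ρ (a * b)) ^ (p ^ e) = 0 := by
      rw [hA1, (Commute.refl _).mul_pow, h0, zero_mul]
    rw [hcomm.mul_pow] at h1
    have h2 : ρ (a * b) ^ (p ^ e) * ρ ((a * b)⁻¹) ^ (p ^ e) = 1 := by
      rw [← map_pow, ← map_pow, ← map_mul, inv_pow, mul_inv_cancel, map_one]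
    calc (X * Y + Y * X) ^ (p ^ e) = (X * Y + Y * X) ^ (p ^ e) * (ρ (a * b) ^ (p ^ e) *
          ρ ((a * b)⁻¹) ^ (p ^ e)) := by rw [h2, mul_one]
      _ = 0 := by rw [← mul_assoc, h1, zero_mul]
  obtain ⟨ζ, hζ1, w, hw, hcw⟩ := exists_eig (p := p) (ρ (a * b)) e k hcpow hkd hnu
  have hζ0 : ζ ≠ 0 := by
    rintro rfl
    rw [zero_smul, hρ] at hcw
    exact hw ((a * b).map_eq_zero_iff.mp hcw)
  have hLw : (X * Y + Y * X) w = ((ζ - 1) ^ 2 / ζ) • w := by
    have h1 := congrArg (fun f => f w) hA1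
    simp only [Module.End.mul_apply, LinearMap.sub_apply, Module.End.one_apply, hcw, map_smul,
      map_sub] at h1
    have h2 : ζ • (X * Y + Y * X) w = ((ζ - 1) ^ 2) • w := by
      rw [h1]; module
    calc (X * Y + Y * X) w = ζ⁻¹ • (ζ • (X * Y + Y * X) w) := by rw [smul_smul, inv_mul_cancel₀ hζ0, one_smul]
      _ = ((ζ - 1) ^ 2 / ζ) • w := by rw [h2, smul_smul]; congr 1; field_simp
  have hμ : (ζ - 1) ^ 2 / ζ ≠ 0 := div_ne_zero (pow_ne_zero 2 (sub_ne_zero.mpr hζ1)) hζ0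
  rw [hX] at hx
  rw [hY] at hy
  rw [hX, hY] at hLw
  obtain ⟨u, w', hconf⟩ := conf_of_eigen ρ a b hx hy hμ hw hLw
  obtain ⟨K₀, f, hK₀, hf⟩ := exists_hom_of_rel (relSub ρ u w') (relSub_fun hconf.ind)
  have haK : a ∈ K₀ := (hK₀ a).mpr ⟨_, hconf.x_mem⟩
  have hbK : b ∈ K₀ := (hK₀ b).mpr ⟨_, hconf.y_mem⟩
  have hHK : H ≤ K₀ := by
    rw [hH, Subgroup.closure_le]
    rintro _ (rfl | rfl)
    · exact haK
    · exact hbK
  have haH : a ∈ H := by rw [hH]; exact Subgroup.subset_closure (by simp)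
  have hbH : b ∈ H := by rw [hH]; exact Subgroup.subset_closure (by simp)
  refine ⟨f.comp (Subgroup.inclusion hHK), ?_⟩
  intro hP
  have fa : f ⟨a, haK⟩ = xx ((ζ - 1) ^ 2 / ζ) := relSub_fun hconf.ind _ _ _ (hf ⟨a, haK⟩) hconf.x_mem
  have fb : f ⟨b, hbK⟩ = yy 1 := relSub_fun hconf.ind _ _ _ (hf ⟨b, hbK⟩) hconf.y_mem
  have hmem : xx ((ζ - 1) ^ 2 / ζ) * yy 1 ∈ (f.comp (Subgroup.inclusion hHK)).range := by
    refine ⟨⟨a, haH⟩ * ⟨b, hbH⟩, ?_⟩
    rw [map_mul, ← fa, ← fb]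
    rfl
  obtain ⟨j, hj⟩ := hP ⟨_, hmem⟩
  have htr := tr_eq_two_of_pow (p := p) j (by simpa using congrArg Subtype.val hj)
  simp [tr] at htr
  apply hμ
  linear_combination htr

end Cfsg.Agent.S0592
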