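import Cfsg.Statements.S0593
import Cfsg.Agent.Lib.Helper9.PStable2

set_option autoImplicit false
open Cfsg

namespace Cfsg.Agent.S0593
open Cfsg.Agent.Lib.Helper9

/-- For odd p, a faithful group on an elementary abelian p-group generated by two quadratically acting elements is a p-group or has non-abelian Sylow 2-subgroups. -/
theorem result {G : Type*} [Group G] [Finite G] {p : ℕ} [Fact p.Prime] (hp : p ≠ 2) (V H : Subgroup G) (hV : Cfsg.IsElementaryAbelian p V) (hHV : H ≤ Subgroup.normalizer (V : Set G)) (hf : H ⊓ Subgroup.centralizer (V : Set G) = ⊥) (a b : G) (hab : H = Subgroup.closure {a, b}) (ha : ⁅⁅V, Subgroup.zpowers a⁆, Subgroup.zpowers a⁆ = ⊥) (hb : ⁅⁅V, Subgroup.zpowers b⁆, Subgroup.zpowers b⁆ = ⊥) (hnp : ¬ IsPGroup p H) (T : Sylow 2 H) : ¬ IsMulCommutative T := by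
  intro hT
  apply hnp
  have := Fact.mk Nat.prime_two
  have habH : ∀ T' : Sylow 2 H, IsMulCommutative T' := sylow_comm_of_one T hT
  have hVp : IsPGroup p V := fun v => ⟨1, Subtype.ext (by simpa using hV.2 v.1 v.2)⟩
  have haH : a ∈ H := hab ▸ Subgroup.subset_closure (by simp)
  have hbH : b ∈ H := hab ▸ Subgroup.subset_closure (by simp)
  have hqa : QuadAct (actOn V H hHV) ⟨a, haH⟩ :=
    quadAct_actOn V H hHV _ (quadOn_of_commutator ha (Subgroup.mem_zpowers a))
  have hqb : QuadAct (actOn V H hHV) ⟨b, hbH⟩ :=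
    quadAct_actOn V H hHV _ (quadOn_of_commutator hb (Subgroup.mem_zpowers b))
  have htop : Subgroup.closure ({⟨a, haH⟩, ⟨b, hbH⟩} : Set H) = ⊤ := by
    rw [eq_top_iff]
    intro x _
    have h1 : (x : G) ∈ (Subgroup.closure ({⟨a, haH⟩, ⟨b, hbH⟩} : Set H)).map H.subtype := by
      rw [MonoidHom.map_closure]
      have h2 : H.subtype '' ({⟨a, haH⟩, ⟨b, hbH⟩} : Set H) = {a, b} := by
        rw [Set.image_pair]; rfl
      rw [h2, ← hab]
      exact x.2
    obtain ⟨y, hy, hyx⟩ := h1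
    have : y = x := Subtype.ext hyx
    exact this ▸ hy
  intro x
  obtain ⟨k, hk⟩ := exists_pow_mem_of_key p (⊤ : Subgroup H) ⊥ (by
    intro h _ hcop
    have h1 := quad_act p hp hVp (actOn V H hHV) habH _ _ hqa hqb h (htop ▸ Subgroup.mem_top h) hcop
    have h2 := mem_centralizer_of_mem_ker_actOn V H hHV (MonoidHom.mem_ker.mpr h1)
    have h3 : (h : G) ∈ H ⊓ Subgroup.centralizer (V : Set G) := Subgroup.mem_inf.mpr ⟨h.2, h2⟩
    rw [hf, Subgroup.mem_bot] at h3
    exact Subgroup.mem_bot.mpr (Subtype.ext h3)) x (Subgroup.mem_top x)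
  exact ⟨k, Subgroup.mem_bot.mp hk⟩

end Cfsg.Agent.S0593
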