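import Cfsg.Statements.S0596
import Mathlib
import Cfsg.Agent.Lib.Helper5.Qd3
import Cfsg.Agent.Lib.Helper9.SL2NotPSol
-- import your own Cfsg.Agent.* helpers here

set_option autoImplicit false
open Cfsg

namespace Cfsg.Agent.S0596

open Cfsg.Agent.Lib.Helper5.Dk

/-- For odd p, a p-separable group with a faithful action on an elementary abelian p-group that is not p-stable has p = 3 and involves SL(2,3). -/
theorem result {G : Type*} [Group G] [Finite G] {p : ℕ} [Fact p.Prime] (hp : p ≠ 2) (V H : Subgroup G) (hV : Cfsg.IsElementaryAbelian p V) (hHV : H ≤ Subgroup.normalizer (V : Set G)) (hf : H ⊓ Subgroup.centralizer (V : Set G) = ⊥) (hsep : Cfsg.IsPSolvable p H) (a : G) (haH : a ∈ H) (hq : ⁅⁅V, Subgroup.zpowers a⁆, Subgroup.zpowers a⁆ = ⊥) (hna : a ∉ (Cfsg.pCore p H).map H.subtype) : p = 3 ∧ ∃ (K L : Subgroup G) (hL : (L.subgroupOf K).Normal), K ≤ H ∧ Nonempty ((K ⧸ L.subgroupOf K) ≃* Matrix.SpecialLinearGroup (Fin 2) (ZMod 3)) := by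
  classical
  set α := Cfsg.Agent.Lib.Helper9.actOn V H hHV with hα
  have hVp : IsPGroup p V := by
    intro v
    refine ⟨1, Subtype.ext ?_⟩
    rw [pow_one]
    exact hV.2 v v.2
  have hker : α.ker = ⊥ := by
    rw [eq_bot_iff]
    intro h hh
    have h1 := Cfsg.Agent.Lib.Helper9.mem_centralizer_of_mem_ker_actOn V H hHV hh
    have h2 : (h : G) ∈ H ⊓ Subgroup.centralizer (V : Set G) := ⟨h.2, h1⟩
    rw [hf, Subgroup.mem_bot] at h2
    exact Subgroup.mem_bot.mpr (Subtype.ext h2)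
  have hquad : Cfsg.Agent.Lib.Helper9.QuadAct α ⟨a, haH⟩ :=
    Cfsg.Agent.Lib.Helper9.quadAct_actOn V H hHV ⟨a, haH⟩
      (Cfsg.Agent.Lib.Helper9.quadOn_of_commutator hq (Subgroup.mem_zpowers a))
  rcases mk_mem_pCore_or_conf hp hVp α α.ker le_rfl ⟨a, haH⟩ hquad with h1 | ⟨x, y, u₀, w₀, κ₀, hc⟩
  · exfalso
    set D := (Cfsg.pCore p (H ⧸ α.ker)).comap (QuotientGroup.mk' α.ker) with hD
    have hDn : D.Normal := (Cfsg.Agent.Lib.Helper1.pCore_normal p).comap _
    have hDp : IsPGroup p D := by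
      intro d
      obtain ⟨k, hk⟩ := (Cfsg.Agent.Lib.Helper1.pCore_isPGroup p) ⟨_, d.2⟩
      refine ⟨k, Subtype.ext ?_⟩
      have h1 : (QuotientGroup.mk' α.ker (d : H)) ^ p ^ k = 1 := congrArg Subtype.val hk
      rw [← map_pow] at h1
      have h2 := (QuotientGroup.eq_one_iff _).mp h1
      rw [hker, Subgroup.mem_bot] at h2
      exact h2
    have h3 : (⟨a, haH⟩ : H) ∈ Cfsg.pCore p H := Cfsg.Agent.Lib.Helper1.le_pCore hDn hDp h1
    exact hna ⟨⟨a, haH⟩, h3, rfl⟩
  · obtain ⟨K₁, σ, hσ, -⟩ := hc.exists_hom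
    have hp3 : p = 3 := by
      by_contra hne
      have hpp : p.Prime := Fact.out
      have h5 : 5 ≤ p := by
        have h2 := hpp.two_le
        by_contra hlt
        have : p = 4 := by omega
        subst this
        exact absurd hpp (by norm_num)
      exact Cfsg.Agent.Lib.Helper9.not_psol_sl2 h5
        (Cfsg.Agent.Lib.Helper29.psol_of_surjective (Cfsg.Agent.Lib.Helper29.psol_subgroup hsep K₁) σ hσ)
    subst hp3
    exact ⟨rfl, sec_format H K₁ σ hσ⟩

end Cfsg.Agent.S0596
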