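import Cfsg.Statements.S0594
import Mathlib
import Cfsg.Agent.S0596
import Cfsg.Agent.Lib.Helper16.Comm
-- import your own Cfsg.Agent.* helpers here

set_option autoImplicit false
open Cfsg

namespace Cfsg.Agent.S0594

open scoped commutatorElement

/-- For odd p, two quadratic generators of a faithful group that is not a p-group, one of which acts nontrivially on a normal subgroup of order prime to p, force p = 3 and a section isomorphic to SL(2,3). -/
theorem result {G : Type*} [Group G] [Finite G] {p : ℕ} [Fact p.Prime] (hp : p ≠ 2) (V H : Subgroup G) (hV : Cfsg.IsElementaryAbelian p V) (hHV : H ≤ Subgroup.normalizer (V : Set G)) (hf : H ⊓ Subgroup.centralizer (V : Set G) = ⊥) (a b : G) (hab : H = Subgroup.closure {a, b}) (ha : ⁅⁅V, Subgroup.zpowers a⁆, Subgroup.zpowers a⁆ = ⊥) (hb : ⁅⁅V, Subgroup.zpowers b⁆, Subgroup.zpowers b⁆ = ⊥) (hnp : ¬ IsPGroup p H) (Q : Subgroup G) (hQH : Q ≤ H) (hQn : H ≤ Subgroup.normalizer (Q : Set G)) (hQ : (Nat.card Q).Coprime p) (hQa : ⁅Q, Subgroup.zpowers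 a⁆ ≠ ⊥) : p = 3 ∧ ∃ (K L : Subgroup G) (hL : (L.subgroupOf K).Normal), K ≤ H ∧ Nonempty ((K ⧸ L.subgroupOf K) ≃* Matrix.SpecialLinearGroup (Fin 2) (ZMod 3)) := by
  classical
  have hpp : p.Prime := Fact.out
  have haH : a ∈ H := by rw [hab]; exact Subgroup.subset_closure (by simp)
  have haV : a ∈ Subgroup.normalizer (V : Set G) := hHV haH
  -- `a ^ p = 1`
  have hap : a ^ p = 1 := by
    have h1 : a ^ p ∈ H ⊓ Subgroup.centralizer (V : Set G) := by
      refine Subgroup.mem_inf.mpr ⟨H.pow_mem haH p, ?_⟩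
      rw [Subgroup.mem_centralizer_iff]
      intro v hv
      set w := v * a * v⁻¹ * a⁻¹ with hw
      have hwV : w ∈ V := by
        have h2 : a * v⁻¹ * a⁻¹ ∈ V := (Subgroup.mem_normalizer_iff.mp haV _).mp (V.inv_mem hv)
        have h3 : w = v * (a * v⁻¹ * a⁻¹) := by rw [hw]; group
        rw [h3]; exact V.mul_mem hv h2
      have hwa : w * a = a * w := by
        have h2 : ⁅⁅v, a⁆, a⁆ ∈ ⁅⁅V, Subgroup.zpowers a⁆, Subgroup.zpowers a⁆ :=
          Subgroup.commutator_mem_commutator
            (Subgroup.commutator_mem_commutator hv (Subgroup.mem_zpowers a)) (Subgroup.mem_zpowers a)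
        rw [ha, Subgroup.mem_bot, commutatorElement_eq_one_iff_mul_comm] at h2
        exact h2
      have hind : ∀ n : ℕ, v * a ^ n = w ^ n * (a ^ n * v) := by
        intro n
        induction n with
        | zero => simp
        | succ n ih =>
          have hwan : ∀ m : ℕ, w * a ^ m = a ^ m * w := fun m => (Commute.pow_right hwa m)
          have hva : v * a = w * (a * v) := by rw [hw]; group
          calc v * a ^ (n + 1) = (v * a ^ n) * a := by rw [pow_succ, mul_assoc]
            _ = w ^ n * (a ^ n * (v * a)) := by rw [ih]; simp only [mul_assoc]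
            _ = w ^ n * (a ^ n * w * (a * v)) := by rw [hva]; simp only [mul_assoc]
            _ = w ^ n * (w * a ^ n * (a * v)) := by rw [hwan n]
            _ = w ^ (n + 1) * (a ^ (n + 1) * v) := by rw [pow_succ, pow_succ]; simp only [mul_assoc]
      rw [hind p, hV.2 w hwV, one_mul]
    rw [hf, Subgroup.mem_bot] at h1
    exact h1
  set H' : Subgroup G := Subgroup.zpowers a ⊔ Q with hH'
  have hH'H : H' ≤ H := sup_le (Subgroup.zpowers_le.mpr haH) hQH
  have hzQ : Subgroup.zpowers a ≤ Subgroup.normalizer (Q : Set G) := Subgroup.zpowers_le.mpr (hQn haH)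
  have hQH' : Q ≤ H' := le_sup_right
  have haH' : a ∈ H' := (le_sup_left : Subgroup.zpowers a ≤ H') (Subgroup.mem_zpowers a)
  have hQ'n : (Q.subgroupOf H').Normal := by
    apply Subgroup.normal_subgroupOf_of_le_normalizer
    exact hH'H.trans hQn
  have hidx : ∃ m : ℕ, (Q.subgroupOf H').index = p ^ m := by
    have hpg : IsPGroup p (H' ⧸ Q.subgroupOf H') := by
      intro x
      obtain ⟨y, rfl⟩ := QuotientGroup.mk'_surjective _ x
      obtain ⟨z, hz, q, hq, hy⟩ := Cfsg.Agent.Lib.Helper16.exists_mul_of_mem_sup' hzQ y.2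
      refine ⟨1, ?_⟩
      rw [pow_one]
      have hzH' : z ∈ H' := (le_sup_left : Subgroup.zpowers a ≤ H') hz
      have h1 : QuotientGroup.mk' (Q.subgroupOf H') y = QuotientGroup.mk' (Q.subgroupOf H') ⟨z, hzH'⟩ := by
        symm
        apply QuotientGroup.eq.mpr
        show ((⟨z, hzH'⟩ : H')⁻¹ * y : H').1 ∈ Q
        simp only [Subgroup.coe_mul, Subgroup.coe_inv]
        rw [hy]; simpa using hq
      rw [h1, ← map_pow]
      obtain ⟨k, rfl⟩ := Subgroup.mem_zpowers_iff.mp hz
      have h2 : (⟨a ^ k, hzH'⟩ : H') ^ p = 1 := by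
        apply Subtype.ext
        show (a ^ k) ^ p = 1
        rw [← zpow_natCast, ← zpow_mul, mul_comm, zpow_mul, zpow_natCast, hap, one_zpow]
      rw [h2, map_one]
    obtain ⟨m, hm⟩ := hpg.exists_card_eq
    exact ⟨m, by rw [Subgroup.index_eq_card, hm]⟩
  have hsep : Cfsg.IsPSolvable p H' := by
    refine ⟨2, ![⊥, Q.subgroupOf H', ⊤], rfl, rfl, ?_, ?_, ?_⟩
    · rw [Fin.monotone_iff_le_succ]
      intro i
      fin_cases i
      · exact bot_le
      · exact le_top
    · intro i
      fin_cases i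
      · exact (inferInstance : (⊥ : Subgroup H').Normal)
      · exact hQ'n
      · exact (inferInstance : (⊤ : Subgroup H').Normal)
    · intro i
      fin_cases i
      · right
        show ((⊥ : Subgroup H').relIndex (Q.subgroupOf H')).Coprime p
        rw [Subgroup.relIndex_bot_left, Nat.card_congr (Subgroup.subgroupOfEquivOfLe hQH').toEquiv]
        exact hQ
      · left
        obtain ⟨m, hm⟩ := hidx
        exact ⟨m, by
          show (Q.subgroupOf H').relIndex ⊤ = p ^ m
          rw [Subgroup.relIndex_top_right, hm]⟩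
  have hna : a ∉ (Cfsg.pCore p H').map H'.subtype := by
    rintro ⟨a', ha', haa'⟩
    apply hQa
    rw [eq_bot_iff, Subgroup.commutator_le]
    intro q hq z hz
    -- the commutator lies in `Q` and in `O_p(H')`
    have hOn : (Cfsg.pCore p H').Normal := Cfsg.Agent.Lib.Helper1.pCore_normal p
    have hOp : IsPGroup p (Cfsg.pCore p H') := Cfsg.Agent.Lib.Helper1.pCore_isPGroup p
    have hzO : ∃ z' : H', z' ∈ Cfsg.pCore p H' ∧ (z' : G) = z := by
      obtain ⟨k, rfl⟩ := Subgroup.mem_zpowers_iff.mp hz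
      exact ⟨a' ^ k, Subgroup.zpow_mem _ ha' k, by
        rw [Subgroup.coe_zpow]
        exact congrArg (· ^ k) haa'⟩
    obtain ⟨z', hz', rfl⟩ := hzO
    set q' : H' := ⟨q, hQH' hq⟩ with hq'
    have h1 : ⁅q', z'⁆ ∈ Cfsg.pCore p H' := by
      rw [commutatorElement_def]
      have := hOn.conj_mem z' hz' q'
      exact Subgroup.mul_mem _ this (Subgroup.inv_mem _ hz')
    have h2 : ⁅q', z'⁆ ∈ Q.subgroupOf H' := by
      rw [commutatorElement_def]
      have hq'Q : q' ∈ Q.subgroupOf H' := hq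
      have := hQ'n.conj_mem q'⁻¹ (Subgroup.inv_mem _ hq'Q) z'
      have e : q' * z' * q'⁻¹ * z'⁻¹ = q' * (z' * q'⁻¹ * z'⁻¹) := by group
      rw [e]
      exact Subgroup.mul_mem _ hq'Q this
    have h3 : ⁅q', z'⁆ = 1 := by
      obtain ⟨k, hk⟩ := hOp ⟨_, h1⟩
      have hk' : ⁅q', z'⁆ ^ p ^ k = 1 := congrArg Subtype.val hk
      have h4 : orderOf ⁅q', z'⁆ ∣ Nat.card (Q.subgroupOf H') := by
        rw [← Subgroup.orderOf_mk _ h2]
        exact orderOf_dvd_natCard _
      rw [Nat.card_congr (Subgroup.subgroupOfEquivOfLe hQH').toEquiv] at h4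
      rw [← orderOf_eq_one_iff]
      exact Nat.Coprime.eq_one_of_dvd ((hQ.coprime_dvd_left h4).pow_right k)
        (orderOf_dvd_of_pow_eq_one hk')
    rw [Subgroup.mem_bot]
    exact congrArg Subtype.val h3
  obtain ⟨h3, K, L, hL, hK, hiso⟩ := Cfsg.Agent.S0596.result hp V H' hV (hH'H.trans hHV)
    (by rw [eq_bot_iff, ← hf]; exact inf_le_inf_right _ hH'H) hsep a haH' ha hna
  exact ⟨h3, K, L, hL, hK.trans hH'H, hiso⟩

end Cfsg.Agent.S0594
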