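import Cfsg.Statements.S0595
import Cfsg.Agent.Lib.Helper9.PStable2

set_option autoImplicit false
open Cfsg

namespace Cfsg.Agent.S0595
open Cfsg.Agent.Lib.Helper9

/-- For odd p, a faithful action on an elementary abelian p-group that is not p-stable forces non-abelian Sylow 2-subgroups. -/
theorem result {G : Type*} [Group G] [Finite G] {p : ℕ} [Fact p.Prime] (hp : p ≠ 2) (V H : Subgroup G) (hV : Cfsg.IsElementaryAbelian p V) (hHV : H ≤ Subgroup.normalizer (V : Set G)) (hf : H ⊓ Subgroup.centralizer (V : Set G) = ⊥) (a : G) (haH : a ∈ H) (hq : ⁅⁅V, Subgroup.zpowers a⁆, Subgroup.zpowers a⁆ = ⊥) (hna : a ∉ (Cfsg.pCore p H).map H.subtype) (T : Sylow 2 H) : ¬ IsMulCommutative T := by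
  intro hT
  apply hna
  have := Fact.mk Nat.prime_two
  have habH : ∀ T' : Sylow 2 H, IsMulCommutative T' := sylow_comm_of_one T hT
  have hVp : IsPGroup p V := fun v => ⟨1, Subtype.ext (by simpa using hV.2 v.1 v.2)⟩
  have hqa : QuadAct (actOn V H hHV) ⟨a, haH⟩ :=
    quadAct_actOn V H hHV _ (quadOn_of_commutator hq (Subgroup.mem_zpowers a))
  obtain ⟨D, hDn, haD, _, hD⟩ := pstable_act p hp hVp (actOn V H hHV) habH _ hqa
  have hDp : IsPGroup p D := by
    rintro ⟨d, hd⟩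
    obtain ⟨k, hk⟩ := hD d hd
    refine ⟨k, Subtype.ext ?_⟩
    have h2 := mem_centralizer_of_mem_ker_actOn V H hHV hk
    have h3 : ((d ^ p ^ k : H) : G) ∈ H ⊓ Subgroup.centralizer (V : Set G) :=
      Subgroup.mem_inf.mpr ⟨(d ^ p ^ k : H).2, h2⟩
    rw [hf, Subgroup.mem_bot] at h3
    exact Subtype.ext h3
  exact ⟨⟨a, haH⟩, Cfsg.Agent.Lib.Helper1.le_pCore hDn hDp haD, rfl⟩

end Cfsg.Agent.S0595
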