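import Mathlib
import Cfsg.Statements.S0597
import Cfsg.Agent.Lib.Helper4.Quad
import Cfsg.Agent.Lib.Helper4.Subnormal
import Cfsg.Agent.Lib.Helper8.Cores
import Cfsg.Agent.S0590


set_option autoImplicit false
open Cfsg

namespace Cfsg.Agent.S0597

open Cfsg.Agent.Lib.Helper4


/-- If two subnormal subgroups of a faithful group on an elementary abelian p-group satisfy [V, E₁, E₂] = 1, then their commutator lies in the largest normal p-subgroup. -/
theorem result {G : Type*} [Group G] [Finite G] {p : ℕ} [Fact p.Prime] (V H : Subgroup G) (hV : Cfsg.IsElementaryAbelian p V) (hHV : H ≤ Subgroup.normalizer (V : Set G)) (hf : H ⊓ Subgroup.centralizer (V : Set G) = ⊥) (E₁ E₂ : Subgroup G) (h₁ : E₁ ≤ H) (h₂ : E₂ ≤ H) (hs₁ : (E₁.subgroupOf H).IsSubnormal) (hs₂ : (E₂.subgroupOf H).IsSubnormal) (hc : ⁅⁅V, E₁⁆, E₂⁆ = ⊥) : ⁅E₁, E₂⁆ ≤ (Cfsg.pCore p H).map H.subtype := by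
  have hq := quadratic_commutator (h₁.trans hHV) (h₂.trans hHV) hc
  have hDH : ⁅E₁, E₂⁆ ≤ H := (Subgroup.commutator_mono h₁ h₂).trans (Subgroup.commutator_le_self H)
  obtain ⟨-, hpow⟩ := Cfsg.Agent.S0590.result V ⁅E₁, E₂⁆ hV (hDH.trans hHV) hq
  have hDp : ∀ d ∈ ⁅E₁, E₂⁆, d ^ p = 1 := by
    intro d hd
    have h3 : d ^ p ∈ H ⊓ Subgroup.centralizer (V : Set G) :=
      Subgroup.mem_inf.mpr ⟨H.pow_mem (hDH hd) p, hpow d hd⟩
    rw [hf] at h3
    exact h3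
  have hmap : (⁅E₁.subgroupOf H, E₂.subgroupOf H⁆).map H.subtype = ⁅E₁, E₂⁆ := by
    rw [Subgroup.map_commutator, Subgroup.map_subgroupOf_eq_of_le h₁,
      Subgroup.map_subgroupOf_eq_of_le h₂]
  have hsub : (⁅E₁.subgroupOf H, E₂.subgroupOf H⁆).IsSubnormal := by
    refine Subgroup.IsSubnormal.step _ (E₁.subgroupOf H ⊔ E₂.subgroupOf H) (commutator_le_sup _ _)
      (isSubnormal_sup hs₁ hs₂) ?_
    rw [Subgroup.normal_subgroupOf_iff_le_normalizer (commutator_le_sup _ _)]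
    exact sup_le_normalizer_commutator _ _
  have hp : IsPGroup p ↥(⁅E₁.subgroupOf H, E₂.subgroupOf H⁆ : Subgroup ↥H) := by
    intro d
    refine ⟨1, ?_⟩
    have h4 : ((d : ↥H) : G) ∈ ⁅E₁, E₂⁆ := hmap ▸ ⟨(d : ↥H), d.2, rfl⟩
    have h5 := hDp _ h4
    rw [pow_one]
    ext
    exact h5
  rw [← hmap]
  exact Subgroup.map_mono (Cfsg.Agent.Lib.Helper8.le_pCore_of_isSubnormal hsub hp)

end Cfsg.Agent.S0597
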