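import Mathlib
import Cfsg.Statements.S0599
import Cfsg.Agent.Lib.Helper4.Offender
import Cfsg.Agent.Lib.Helper4.NilAction


set_option autoImplicit false
open Cfsg

namespace Cfsg.Agent.S0599

open Cfsg.Agent.Lib.Helper4


/-- The Timmesfeld replacement Theorem: replacing a best offender A by C_A([U, A]) gives a best offender with fixed points [U, A]C_V(A), still nontrivial on V if A was. -/
theorem result {G : Type*} [Group G] [Finite G] {p : ℕ} [Fact p.Prime] (V A : Subgroup G) (hV : Cfsg.IsElementaryAbelian p V) (hAV : A ≤ Subgroup.normalizer (V : Set G)) (hA : Cfsg.IsBestOffenderOn p V A) (U : Subgroup G) (hU : U ≤ V) : Cfsg.IsBestOffenderOn p V (A ⊓ Subgroup.centralizer ((⁅U, A⁆ : Subgroup G) : Set G)) ∧ V ⊓ Subgroup.centralizer ((A ⊓ Subgroup.centralizer ((⁅U, A⁆ : Subgroup G) : Set G) : Subgroup G) : Set G) = ⁅U, A⁆ ⊔ (V ⊓ Subgroup.centralizer (A : Set G)) ∧ (⁅V, A⁆ ≠ ⊥ → ⁅V, A ⊓ Subgroup.centralizer ((⁅U, A⁆ : Subgroup G) : Set G)⁆ ≠ ⊥)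 := by
  obtain ⟨hmax, hab, hpow⟩ := hA
  obtain ⟨h1, h2⟩ := replacement hV.1 hAV hab hmax U hU
  refine ⟨⟨?_, ?_, ?_⟩, h1, ?_⟩
  · intro B hB
    rw [← h2]
    exact hmax B (hB.trans inf_le_left)
  · exact (Subgroup.commutator_mono inf_le_left inf_le_left).trans hab
  · intro a ha
    exact hpow a ha.1
  · intro hne hbot
    apply hne
    refine commutator_eq_bot_of_eq_sup hV hAV hpow (W := ⁅U, A⁆)
      (Subgroup.commutator_mono hU le_rfl) ?_
    rw [← h1]
    refine le_inf le_rfl ?_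
    rw [Subgroup.le_centralizer_iff]
    exact commutator_eq_bot_iff_le_centralizer'.mp hbot

end Cfsg.Agent.S0599
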