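import Mathlib
import Cfsg.Statements.S0600
import Cfsg.Agent.Lib.Helper4.Quad
import Cfsg.Agent.Lib.Helper4.Cores


set_option autoImplicit false
open Cfsg

namespace Cfsg.Agent.S0600

open Cfsg.Agent.Lib.Helper4


/-- A normal elementary abelian p-subgroup generated by the fixed points of the Sylow p-subgroups admits no nontrivial normal p-subgroup of G modulo its centralizer. -/
theorem result {G : Type*} [Group G] [Finite G] {p : ℕ} [Fact p.Prime] (V : Subgroup G) [V.Normal] (hV : Cfsg.IsElementaryAbelian p V) (hgen : V = ⨆ S : Sylow p G, V ⊓ Subgroup.centralizer ((S : Subgroup G) : Set G)) : Cfsg.pCore p (G ⧸ Subgroup.centralizer (V : Set G)) = ⊥ := by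
  rw [eq_bot_iff]
  intro q hq
  obtain ⟨x, rfl⟩ := QuotientGroup.mk'_surjective _ q
  rw [Subgroup.mem_bot, QuotientGroup.mk'_apply, QuotientGroup.eq_one_iff]
  have hV' : V ≤ Subgroup.centralizer ({x} : Set G) := by
    conv_lhs => rw [hgen]
    apply iSup_le
    intro S v hv
    obtain ⟨hvV, hvS⟩ := mem_cv_iff.mp hv
    have h1 := pCore_le_sylow' (S.mapSurjective
      (QuotientGroup.mk'_surjective (Subgroup.centralizer (V : Set G)))) hq
    rw [Sylow.coe_mapSurjective] at h1
    obtain ⟨s, hs, e⟩ := h1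
    have h2 : s⁻¹ * x ∈ Subgroup.centralizer (V : Set G) := by
      rw [← QuotientGroup.eq]; exact e
    have h3 := Subgroup.mem_centralizer_iff.mp h2 v hvV
    have h4 := hvS s hs
    rw [Subgroup.mem_centralizer_iff]
    intro y hy
    rw [Set.mem_singleton_iff] at hy
    subst hy
    calc y * v = s * ((s⁻¹ * y) * v) := by group
      _ = s * (v * (s⁻¹ * y)) := by rw [h3]
      _ = (s * v) * (s⁻¹ * y) := by group
      _ = (v * s) * (s⁻¹ * y) := by rw [h4]
      _ = v * y := by group
  rw [Subgroup.mem_centralizer_iff]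
  intro v hv
  exact (Subgroup.mem_centralizer_iff.mp (hV' hv) x rfl).symm

end Cfsg.Agent.S0600
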