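import Mathlib
import Cfsg.Statements.S0601
import Cfsg.Agent.Lib.Helper4.Quad
import Cfsg.Agent.Lib.Helper4.Cores
import Cfsg.Agent.Lib.Helper4.Conj
import Cfsg.Agent.S0600


set_option autoImplicit false
open Cfsg

namespace Cfsg.Agent.S0601

open Cfsg.Agent.Lib.Helper4


/-- When O_p(G) contains its centralizer, the normal closure of Ω₁(Z(S)) is elementary abelian and G has no nontrivial normal p-subgroup modulo its centralizer. -/
theorem result {G : Type*} [Group G] [Finite G] {p : ℕ} [Fact p.Prime] (hc : Subgroup.centralizer (Cfsg.pCore p G : Set G) ≤ Cfsg.pCore p G) : (⨆ S : Sylow p G, Cfsg.omegaOne p (((S : Subgroup G)) ⊓ Subgroup.centralizer ((S : Subgroup G) : Set G))).Normal ∧ Cfsg.IsElementaryAbelian p (⨆ S : Sylow p G, Cfsg.omegaOne p (((S : Subgroup G)) ⊓ Subgroup.centralizer ((S : Subgroup G) : Set G))) ∧ ∀ D : Subgroup G, D.Normal → Subgroup.centralizer ((⨆ S : Sylow p G, Cfsg.omegaOne p (((S : Subgroup G)) ⊓ Subgroup.centralizer ((S : Subgroup G) : Set G)) : Subgroup G) : Set G)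 ≤ D → (∃ k : ℕ, (Subgroup.centralizer ((⨆ S : Sylow p G, Cfsg.omegaOne p (((S : Subgroup G)) ⊓ Subgroup.centralizer ((S : Subgroup G) : Set G)) : Subgroup G) : Set G)).relIndex D = p ^ k) → D = Subgroup.centralizer ((⨆ S : Sylow p G, Cfsg.omegaOne p (((S : Subgroup G)) ⊓ Subgroup.centralizer ((S : Subgroup G) : Set G)) : Subgroup G) : Set G) := by
  have hVn := iSup_omegaOne_center_sylow_normal p G
  obtain ⟨V, hVdef⟩ : ∃ V : Subgroup G, V = ⨆ S : Sylow p G, Cfsg.omegaOne p
      (((S : Subgroup G)) ⊓ Subgroup.centralizer ((S : Subgroup G) : Set G)) := ⟨_, rfl⟩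
  rw [← hVdef] at hVn ⊢
  have hle : ∀ S : Sylow p G, Cfsg.omegaOne p
      (((S : Subgroup G)) ⊓ Subgroup.centralizer ((S : Subgroup G) : Set G)) ≤ V := by
    intro S
    rw [hVdef]
    exact le_iSup (fun S : Sylow p G => Cfsg.omegaOne p
      (((S : Subgroup G)) ⊓ Subgroup.centralizer ((S : Subgroup G) : Set G))) S
  have hVe : IsElementaryAbelian p V := by
    have h1 : V ≤ omegaOne p (pCore p G ⊓ Subgroup.centralizer (pCore p G : Set G)) := by
      rw [hVdef]
      apply iSup_le
      intro S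
      apply omegaOne_mono
      have h2 : Subgroup.centralizer ((S : Subgroup G) : Set G) ≤
          Subgroup.centralizer (pCore p G : Set G) :=
        Subgroup.centralizer_le (SetLike.coe_subset_coe.mpr (pCore_le_sylow' S))
      exact le_inf ((inf_le_right.trans h2).trans hc) (inf_le_right.trans h2)
    exact elemAb_of_le h1 (omegaOne_elemAb_of_comm (isMulCommutative_inf_centralizer _))
  refine ⟨hVn, hVe, ?_⟩
  intro D hDn hCD hk
  obtain ⟨k, hk⟩ := hk
  have hgen : V = ⨆ S : Sylow p G, V ⊓ Subgroup.centralizer ((S : Subgroup G) : Set G) := by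
    apply le_antisymm
    · conv_lhs => rw [hVdef]
      apply iSup_le
      intro S
      refine le_trans ?_ (le_iSup _ S)
      exact le_inf (hle S) ((omegaOne_le _).trans inf_le_right)
    · exact iSup_le fun S => inf_le_left
  have hcore := Cfsg.Agent.S0600.result V hVe hgen
  have hcard : Nat.card (D.map (QuotientGroup.mk' (Subgroup.centralizer (V : Set G)))) = p ^ k := by
    have h1 := card_map_mk'_mul hCD
    rw [card_eq_mul_relIndex hCD, hk, mul_comm] at h1
    exact Nat.eq_of_mul_eq_mul_left Nat.card_pos h1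
  have hmap : D.map (QuotientGroup.mk' (Subgroup.centralizer (V : Set G))) ≤
      pCore p (G ⧸ Subgroup.centralizer (V : Set G)) :=
    le_pCore' (hDn.map _ (QuotientGroup.mk'_surjective _)) (IsPGroup.of_card hcard)
  rw [hcore, le_bot_iff, Subgroup.map_eq_bot_iff, QuotientGroup.ker_mk'] at hmap
  exact le_antisymm hmap hCD

end Cfsg.Agent.S0601
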