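import Mathlib
import Cfsg.Statements.S0602
import Cfsg.Agent.Lib.Helper4.Basic


set_option autoImplicit false
open Cfsg

namespace Cfsg.Agent.S0602

open Cfsg.Agent.Lib.Helper4

/-- The Thompson subgroup is characteristic, and nontrivial as soon as p divides the group order. -/
theorem result {G : Type*} [Group G] [Finite G] {p : ℕ} [Fact p.Prime] : (Cfsg.thompsonSubgroup p G).Characteristic ∧ (p ∣ Nat.card G → Cfsg.thompsonSubgroup p G ≠ ⊥) := by
  constructor
  · rw [Subgroup.characteristic_iff_map_le]
    intro φ
    rw [Subgroup.map_le_iff_le_comap]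
    apply sSup_le
    intro A hA
    rw [← Subgroup.map_le_iff_le_comap]
    apply le_sSup
    refine ⟨elemAb_map _ hA.1, fun B hB => ?_⟩
    rw [Subgroup.card_map_of_injective φ.injective]
    exact hA.2 B hB
  · intro hp h
    obtain ⟨x, hx⟩ := exists_prime_orderOf_dvd_card' p hp
    obtain ⟨A, hA⟩ := exists_maxElemAb (G := G) p
    have h1 := hA.2 _ (elemAb_zpowers (p := p) (x := x) (by rw [← hx]; exact pow_orderOf_eq_one x))
    rw [Nat.card_zpowers, hx] at h1
    have h2 : A = ⊥ := by rw [eq_bot_iff, ← h]; exact le_thompson hA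
    rw [h2, Subgroup.card_bot] at h1
    exact absurd h1 (by have := (Fact.out : p.Prime).one_lt; omega)

end Cfsg.Agent.S0602
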