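import Mathlib
import Cfsg.Statements.S0603
import Cfsg.Agent.Lib.Helper4.Basic


set_option autoImplicit false
open Cfsg

namespace Cfsg.Agent.S0603

open Cfsg.Agent.Lib.Helper4

/-- The Thompson subgroup of any subgroup containing J(G) is J(G) itself. -/
theorem result {G : Type*} [Group G] [Finite G] {p : ℕ} [Fact p.Prime] (U : Subgroup G) (hU : Cfsg.thompsonSubgroup p G ≤ U) : Cfsg.thompsonSubgroupOf p U = Cfsg.thompsonSubgroup p G := by
  obtain ⟨A₀, hA₀⟩ := exists_maxElemAb (G := G) p
  have hA₀U : A₀ ≤ U := (le_thompson hA₀).trans hU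
  apply le_antisymm
  · unfold thompsonSubgroupOf
    rw [Subgroup.map_le_iff_le_comap]
    apply sSup_le
    intro B hB
    rw [← Subgroup.map_le_iff_le_comap]
    apply le_sSup
    refine ⟨elemAb_map _ hB.1, fun C hC => ?_⟩
    rw [card_map_subtype]
    calc Nat.card C ≤ Nat.card A₀ := hA₀.2 C hC
      _ = Nat.card (A₀.subgroupOf U) := (card_subgroupOf_of_le hA₀U).symm
      _ ≤ Nat.card B := hB.2 _ (elemAb_subgroupOf U hA₀.1)
  · apply sSup_le
    intro A hA
    have hAU : A ≤ U := (le_thompson hA).trans hU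
    unfold thompsonSubgroupOf
    rw [← Subgroup.map_subgroupOf_eq_of_le hAU]
    apply Subgroup.map_mono
    apply le_sSup
    refine ⟨elemAb_subgroupOf U hA.1, fun B hB => ?_⟩
    rw [card_subgroupOf_of_le hAU, ← card_map_subtype]
    exact hA.2 _ (elemAb_map _ hB)

end Cfsg.Agent.S0603
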