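import Mathlib
import Cfsg.Statements.S0604
import Cfsg.Agent.Lib.Helper4.Basic


set_option autoImplicit false
open Cfsg

namespace Cfsg.Agent.S0604

open Cfsg.Agent.Lib.Helper4

/-- The Thompson subgroup of G is the join of the Thompson subgroups of its Sylow p-subgroups. -/
theorem result {G : Type*} [Group G] [Finite G] {p : ℕ} [Fact p.Prime] : Cfsg.thompsonSubgroup p G = ⨆ S : Sylow p G, Cfsg.thompsonSubgroupOf p (S : Subgroup G) := by
  apply le_antisymm
  · apply sSup_le
    intro A hA
    obtain ⟨S, hS⟩ := (elemAb_isPGroup hA.1).exists_le_sylow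
    refine le_trans ?_ (le_iSup _ S)
    unfold thompsonSubgroupOf
    rw [← Subgroup.map_subgroupOf_eq_of_le hS]
    apply Subgroup.map_mono
    apply le_sSup
    refine ⟨elemAb_subgroupOf _ hA.1, fun B hB => ?_⟩
    rw [card_subgroupOf_of_le hS, ← card_map_subtype]
    exact hA.2 _ (elemAb_map _ hB)
  · apply iSup_le
    intro S
    obtain ⟨A₀, hA₀⟩ := exists_maxElemAb (G := G) p
    obtain ⟨S', hS'⟩ := (elemAb_isPGroup hA₀.1).exists_le_sylow
    obtain ⟨g, hg⟩ := MulAction.exists_smul_eq G S' S
    have hA₁ : A₀.map (MulAut.conj g).toMonoidHom ≤ (S : Subgroup G) := by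
      rw [← hg]
      exact Subgroup.map_mono hS'
    unfold thompsonSubgroupOf
    rw [Subgroup.map_le_iff_le_comap]
    apply sSup_le
    intro B hB
    rw [← Subgroup.map_le_iff_le_comap]
    apply le_sSup
    refine ⟨elemAb_map _ hB.1, fun C hC => ?_⟩
    rw [card_map_subtype]
    calc Nat.card C ≤ Nat.card A₀ := hA₀.2 C hC
      _ = Nat.card (A₀.map (MulAut.conj g).toMonoidHom) :=
          (Subgroup.card_map_of_injective (MulAut.conj g).injective).symm
      _ = Nat.card ((A₀.map (MulAut.conj g).toMonoidHom).subgroupOf (S : Subgroup G)) :=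
          (card_subgroupOf_of_le hA₁).symm
      _ ≤ Nat.card B := hB.2 _ (elemAb_subgroupOf _ (elemAb_map _ hA₀.1))

end Cfsg.Agent.S0604
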