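import Mathlib
import Cfsg.Statements.S0606
import Cfsg.Agent.Lib.Helper4.Basic


set_option autoImplicit false
open Cfsg

namespace Cfsg.Agent.S0606

open Cfsg.Agent.Lib.Helper4

/-- Elementary abelian p-subgroups of maximal order are best offenders on any normal elementary abelian p-subgroup. -/
theorem result {G : Type*} [Group G] [Finite G] {p : ℕ} [Fact p.Prime] (V : Subgroup G) [V.Normal] (hV : Cfsg.IsElementaryAbelian p V) (A : Subgroup G) (hA : A ∈ Cfsg.maxElementaryAbelianSubgroups p G) : Cfsg.IsBestOffenderOn p V A := by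
  have hAc := (isMulCommutative_iff A).mp hA.1.1
  refine ⟨fun B hB => ?_, ?_, ?_⟩
  · have hE : IsElementaryAbelian p (B ⊔ (V ⊓ Subgroup.centralizer (B : Set G)) : Subgroup G) := by
      apply elemAb_sup (elemAb_of_le hB hA.1) (elemAb_of_le inf_le_left hV)
      intro a ha b hb
      exact (Subgroup.mem_centralizer_iff.mp hb.2 a ha)
    have h1 := hA.2 _ hE
    have h2 : B ⊓ (V ⊓ Subgroup.centralizer (B : Set G)) ≤ V ⊓ Subgroup.centralizer (A : Set G) := by
      intro x hx
      refine Subgroup.mem_inf.mpr ⟨hx.2.1, ?_⟩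
      rw [Subgroup.mem_centralizer_iff]
      intro a ha
      exact hAc a ha x (hB hx.1)
    calc Nat.card B * Nat.card ↥(V ⊓ Subgroup.centralizer (B : Set G))
        ≤ Nat.card (B ⊔ (V ⊓ Subgroup.centralizer (B : Set G)) : Subgroup G) *
          Nat.card (B ⊓ (V ⊓ Subgroup.centralizer (B : Set G)) : Subgroup G) := card_mul_card_le _ _
      _ ≤ _ := Nat.mul_le_mul h1 (Subgroup.card_le_of_le h2)
  · rw [Subgroup.commutator_le]
    intro a ha b hb
    rw [commutatorElement_def, hAc a ha b hb]
    simp
  · intro a ha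
    rw [hA.1.2 a ha]
    exact Subgroup.one_mem _

end Cfsg.Agent.S0606
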