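import Mathlib
import Cfsg.Statements.S0607
import Cfsg.Agent.Lib.Helper4.Offender
import Cfsg.Agent.Lib.Helper4.NilAction
import Cfsg.Agent.S0599
import Cfsg.Agent.S0606


set_option autoImplicit false
open Cfsg

namespace Cfsg.Agent.S0607

open Cfsg.Agent.Lib.Helper4
open scoped commutatorElement


/-- The replacement Theorem for the Thompson subgroup: from A of maximal order among elementary abelian p-subgroups one obtains A₀ = [V, A] C_A([V, A]) of the same kind, quadratic on V and nontrivial on V when A is. -/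
theorem result {G : Type*} [Group G] [Finite G] {p : ℕ} [Fact p.Prime] (V : Subgroup G) [V.Normal] (hV : Cfsg.IsElementaryAbelian p V) (A : Subgroup G) (hA : A ∈ Cfsg.maxElementaryAbelianSubgroups p G) : (⁅V, A⁆ ⊔ (A ⊓ Subgroup.centralizer ((⁅V, A⁆ : Subgroup G) : Set G))) ∈ Cfsg.maxElementaryAbelianSubgroups p G ∧ ⁅⁅V, ⁅V, A⁆ ⊔ (A ⊓ Subgroup.centralizer ((⁅V, A⁆ : Subgroup G) : Set G))⁆, ⁅V, A⁆ ⊔ (A ⊓ Subgroup.centralizer ((⁅V, A⁆ : Subgroup G) : Set G))⁆ = ⊥ ∧ (⁅V, A⁆ ≠ ⊥ → ⁅V, ⁅V, A⁆ ⊔ (A ⊓ Subgroup.centralizer ((⁅V, A⁆ : Subgroup G) : Set G))⁆ ≠ ⊥) := by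
  have hVn : V.Normal := inferInstance
  have hAV : A ≤ Subgroup.normalizer (V : Set G) := by
    rw [Subgroup.normalizer_eq_top_iff.mpr hVn]; exact le_top
  have hbo := Cfsg.Agent.S0606.result V hV A hA
  obtain ⟨-, hCB, hne⟩ := Cfsg.Agent.S0599.result V A hV hAV hbo V le_rfl
  obtain ⟨-, hf⟩ := replacement hV.1 hAV hbo.2.1 hbo.1 V le_rfl
  obtain ⟨W, hW⟩ : ∃ W : Subgroup G, W = ⁅V, A⁆ := ⟨_, rfl⟩
  rw [← hW] at hCB hne hf ⊢
  obtain ⟨B, hB⟩ : ∃ B : Subgroup G, B = A ⊓ Subgroup.centralizer (W : Set G) := ⟨_, rfl⟩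
  rw [← hB] at hCB hne hf ⊢
  have hVc := (isMulCommutative_iff V).mp hV.1
  have hAc := (isMulCommutative_iff A).mp hA.1.1
  have hWV : W ≤ V := hW ▸ commutator_le_of_le_normalizer le_rfl hAV
  have hBA : B ≤ A := hB ▸ inf_le_left
  have hBW : B ≤ Subgroup.centralizer (W : Set G) := hB ▸ inf_le_right
  have hcomm : ∀ w ∈ W, ∀ b ∈ B, w * b = b * w := fun w hw b hb =>
    Subgroup.mem_centralizer_iff.mp (hBW hb) w hw
  have hE : IsElementaryAbelian p (W ⊔ B : Subgroup G) :=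
    elemAb_sup (elemAb_of_le hWV hV) (elemAb_of_le hBA hA.1) hcomm
  -- `C_V(A) ≤ A`
  have hCA : V ⊓ Subgroup.centralizer (A : Set G) ≤ A := by
    have hE2 : IsElementaryAbelian p (A ⊔ (V ⊓ Subgroup.centralizer (A : Set G)) : Subgroup G) := by
      apply elemAb_sup hA.1 (elemAb_of_le inf_le_left hV)
      intro a ha c hc
      exact (mem_cv_iff.mp hc).2 a ha
    have h1 := hA.2 _ hE2
    have h2 : A = A ⊔ (V ⊓ Subgroup.centralizer (A : Set G)) :=
      Subgroup.eq_of_le_of_card_ge le_sup_left h1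
    calc V ⊓ Subgroup.centralizer (A : Set G) ≤ A ⊔ (V ⊓ Subgroup.centralizer (A : Set G)) :=
          le_sup_right
      _ = A := h2.symm
  have hCB' : V ⊓ Subgroup.centralizer (A : Set G) ≤ B := by
    rw [hB]
    refine le_inf hCA ?_
    intro c hc
    rw [Subgroup.mem_centralizer_iff]
    intro w hw
    exact hVc w (hWV hw) c hc.1
  have hA₀ : W ⊔ B = B ⊔ (V ⊓ Subgroup.centralizer (B : Set G)) := by
    rw [hCB]
    apply le_antisymm
    · exact sup_le (le_trans le_sup_left le_sup_right) le_sup_left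
    · exact sup_le le_sup_right (sup_le le_sup_left (hCB'.trans le_sup_right))
  have hnorm : B ≤ Subgroup.normalizer ((V ⊓ Subgroup.centralizer (B : Set G) : Subgroup G) : Set G) := by
    refine le_trans ?_ (Subgroup.centralizer_le_normalizer _)
    rw [Subgroup.le_centralizer_iff]
    exact inf_le_right
  have hcard := card_mul_card_eq_of_le_normalizer B (V ⊓ Subgroup.centralizer (B : Set G)) hnorm
  rw [← hf, ← hA₀] at hcard
  have hle : B ⊓ (V ⊓ Subgroup.centralizer (B : Set G)) ≤ V ⊓ Subgroup.centralizer (A : Set G) := by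
    intro x hx
    refine mem_cv_iff.mpr ⟨hx.2.1, ?_⟩
    intro a ha
    exact hAc a ha x (hBA hx.1)
  have hle' := Subgroup.card_le_of_le hle
  have hpos : 0 < Nat.card ↥(B ⊓ (V ⊓ Subgroup.centralizer (B : Set G))) := Nat.card_pos
  have hge : Nat.card A ≤ Nat.card ↥(W ⊔ B) := by
    have h3 : Nat.card A * Nat.card ↥(B ⊓ (V ⊓ Subgroup.centralizer (B : Set G))) ≤
        Nat.card ↥(W ⊔ B) * Nat.card ↥(B ⊓ (V ⊓ Subgroup.centralizer (B : Set G))) := by
      rw [← hcard]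
      exact Nat.mul_le_mul_left _ hle'
    exact Nat.le_of_mul_le_mul_right h3 hpos
  have hVA₀ : ⁅V, W ⊔ B⁆ ≤ W := by
    rw [Subgroup.commutator_le]
    intro v hv g hg
    have hp : PermLe W B := fun b hb w hw => ⟨w, hw, b, hb, (hcomm w hw b hb).symm⟩
    obtain ⟨w, hw, b, hb, rfl⟩ := hp.exists_of_mem_sup hg
    have h1 : ⁅v, w⁆ = 1 := commutatorElement_eq_one_iff_mul_comm.mpr (hVc v hv w (hWV hw))
    have h2 : ⁅v, b⁆ ∈ W := hW ▸ Subgroup.commutator_mem_commutator hv (hBA hb)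
    rw [comm_mul_right, h1, one_mul, hVc w (hWV hw) _ (hWV h2)]
    simpa using h2
  refine ⟨⟨hE, fun E hE' => (hA.2 E hE').trans hge⟩, ?_, ?_⟩
  · rw [eq_bot_iff]
    refine (Subgroup.commutator_mono hVA₀ le_rfl).trans ?_
    rw [le_bot_iff, commutator_eq_bot_iff_le_centralizer']
    refine sup_le ?_ hBW
    intro w hw
    rw [Subgroup.mem_centralizer_iff]
    intro w' hw'
    exact hVc w' (hWV hw') w (hWV hw)
  · intro h1 h2
    apply hne h1
    rw [eq_bot_iff, ← h2]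
    exact Subgroup.commutator_mono le_rfl le_sup_right

end Cfsg.Agent.S0607
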