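import Cfsg.Statements.S0615
import Cfsg.Agent.Lib.Helper1.SubIrr

set_option autoImplicit false
open Cfsg

namespace Cfsg.Agent.S0615

/-- Two subnormal subgroups acting irreducibly on their incomparable commutator modules, in a faithful group with trivial largest normal p-subgroup, generate their direct product, and the commutator module splits accordingly. -/
theorem result {G : Type*} [Group G] [Finite G] {p : ℕ} [Fact p.Prime] (V E E₁ E₂ : Subgroup G) (hV : Cfsg.IsElementaryAbelian p V) (hEV : E ≤ Subgroup.normalizer (V : Set G)) (hf : E ⊓ Subgroup.centralizer (V : Set G) = ⊥) (hgen : E = E₁ ⊔ E₂) (hs₁ : (E₁.subgroupOf E).IsSubnormal) (hs₂ : (E₂.subgroupOf E).IsSubnormal) (hOp : Cfsg.pCore p ↥E = ⊥) (hirr₁ : (∀ U : Subgroup G, U ≤ ⁅V, E₁⁆ → E₁ ≤ Subgroup.normalizer (U : Set G) → U = ⊥ ∨ U = ⁅V, E₁⁆)) (hirr₂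 : (∀ U : Subgroup G, U ≤ ⁅V, E₂⁆ → E₂ ≤ Subgroup.normalizer (U : Set G) → U = ⊥ ∨ U = ⁅V, E₂⁆)) (h12 : ¬ ⁅V, E₁⁆ ≤ ⁅V, E₂⁆) (h21 : ¬ ⁅V, E₂⁆ ≤ ⁅V, E₁⁆) (hc₁ : 2 < Nat.card E₁) (hc₂ : 2 < Nat.card E₂) : ⁅E₁, E₂⁆ = ⊥ ∧ E₁ ⊓ E₂ = ⊥ ∧ ⁅V, E₁⁆ ⊓ ⁅V, E₂⁆ = ⊥ ∧ ⁅V, E⁆ = ⁅V, E₁⁆ ⊔ ⁅V, E₂⁆ := by
  have hE₁ : E₁ ≤ E := by rw [hgen]; exact le_sup_left
  have hE₂ : E₂ ≤ E := by rw [hgen]; exact le_sup_right
  have h : Cfsg.Agent.Lib.Helper1.SI p V E E₁ E₂ := by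
    refine ⟨(Cfsg.Agent.Lib.Helper4.isMulCommutative_iff V).mp hV.1, hV.2, hEV, hf, hgen, ⟨hE₁, hs₁⟩,
      ⟨hE₂, hs₂⟩, ?_, hirr₁, hirr₂, h12, h21, hc₁, hc₂⟩
    intro R hR hp
    have h1 : R.subgroupOf E ≤ Cfsg.pCore p ↥E :=
      Cfsg.Agent.Lib.Helper8.le_pCore_of_isSubnormal hR.2 (hp.comap_subtype)
    rw [hOp, le_bot_iff, Subgroup.subgroupOf_eq_bot, disjoint_iff, inf_eq_left.mpr hR.1] at h1
    exact h1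
  exact h.main

end Cfsg.Agent.S0615
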