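import Cfsg.Statements.S0630
import Cfsg.Agent.Lib.Helper16.PCon

set_option autoImplicit false
open Cfsg

namespace Cfsg.Agent.S0630

open Cfsg.Agent.Lib.Helper16
open Cfsg.Agent.Lib.Helper8 (SubnIn subnIn_top)
open scoped commutatorElement


/-- p-constraint passes to and from the quotient by the largest normal subgroup of order prime to p. -/
theorem result {G : Type*} [Group G] [Finite G] {p : ℕ} [Fact p.Prime] : Cfsg.IsPConstrained p G ↔ Cfsg.IsPConstrained p (G ⧸ Cfsg.pPrimeCore p G) := by
  rw [isPConstrained_iff_top, isPConstrained_iff_top]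
  constructor
  · intro h W hW
    exact (Cfsg.Agent.Lib.Helper8.charIn_quotient_of_pLayer_eq_bot p (pLayer_eq_bot_iff_top.mpr h)).not_pqs hW
  · intro h W hW hq
    have hsub : (W.map (QuotientGroup.mk' (pPrimeCore p G))).IsSubnormal :=
      (subnIn_top.mp hW).map (QuotientGroup.mk'_surjective _)
    rcases hq.map (QuotientGroup.mk' (pPrimeCore p G)) with h1 | h1
    · have h2 := Cfsg.Agent.Lib.Helper8.le_pPrimeCore_of_isSubnormal hsub h1
      rw [Cfsg.Agent.Lib.Helper8.pPrimeCore_quotient_eq_bot, le_bot_iff,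
        Cfsg.Agent.Lib.Helper8.map_mk'_eq_bot_iff] at h2
      exact hq.2.1 (Cfsg.Agent.Lib.Helper8.coprime_card_of_le_pPrimeCore h2)
    · exact h _ (subnIn_top.mpr hsub) h1

end Cfsg.Agent.S0630
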