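import Cfsg.Statements.S0634
import Cfsg.Agent.Lib.Helper29.PSolvable2

set_option autoImplicit false
open Cfsg

namespace Cfsg.Agent.S0634

open Cfsg.Agent.Lib.Helper29

theorem result {G : Type*} [Group G] [Finite G] {p : ℕ} [Fact p.Prime] (hsol : Cfsg.IsPSolvable p G) (k : ℕ) : Subgroup.centralizer ((((Cfsg.upperPSeries p G (2 * k + 2)).1.map (QuotientGroup.mk' (Cfsg.upperPSeries p G (2 * k + 1)).1)) : Subgroup (G ⧸ (Cfsg.upperPSeries p G (2 * k + 1)).1)) : Set (G ⧸ (Cfsg.upperPSeries p G (2 * k + 1)).1)) ≤ (Cfsg.upperPSeries p G (2 * k + 2)).1.map (QuotientGroup.mk' (Cfsg.upperPSeries p G (2 * k + 1)).1) := by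
  have h0 : pPrimeCore p (G ⧸ (Cfsg.upperPSeries p G (2 * k + 1)).1) = ⊥ :=
    pPrimeCore_quotient_eq_bot_of_eq (Cfsg.upperPSeries p G (2 * k)).1 _
      (upperPSeries_succ_of_even p G (even_two_mul k))
  have h1 : (Cfsg.upperPSeries p G (2 * k + 2)).1.map (QuotientGroup.mk' (Cfsg.upperPSeries p G (2 * k + 1)).1)
      = pCore p (G ⧸ (Cfsg.upperPSeries p G (2 * k + 1)).1) := by
    have h2 : ¬ Even (2 * k + 1) := by
      rw [Nat.not_even_iff_odd]; exact odd_two_mul_add_one k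
    rw [show 2 * k + 2 = (2 * k + 1) + 1 from rfl,
      upperPSeries_succ_of_not_even p G (n := 2 * k + 1) h2]
    exact Subgroup.map_comap_eq_self_of_surjective (QuotientGroup.mk'_surjective _) _
  rw [h1]
  exact centralizer_pCore_le (psol_quotient hsol _) h0

end Cfsg.Agent.S0634
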