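import Cfsg.Statements.S0635
import Cfsg.Agent.Lib.Helper29.PLength

set_option autoImplicit false
open Cfsg

namespace Cfsg.Agent.S0635

open Cfsg.Agent.Lib.Helper29 Cfsg.Agent.Lib.Helper8

universe u

theorem main (p : ℕ) [hp : Fact p.Prime] (c : ℕ) : ∀ (G : Type u) [Group G] [Finite G],
    Cfsg.IsPSolvable p G → ∀ S : Sylow p G, Group.nilpotencyClass ↥(S : Subgroup G) ≤ c →
    Cfsg.PLengthLE p c G := by
  induction c with
  | zero =>
    intro G _ _ _ S hS
    haveI : Group.IsNilpotent ↥(S : Subgroup G) := S.isPGroup'.isNilpotent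
    have h1 : Subsingleton ↥(S : Subgroup G) :=
      Group.nilpotencyClass_zero_iff_subsingleton.mp (Nat.le_zero.mp hS)
    apply pLengthLE_zero_of_coprime
    rw [Nat.coprime_comm, Nat.Prime.coprime_iff_not_dvd hp.out]
    intro hd
    have h2 := S.card_eq_multiplicity
    have h3 : Nat.card ↥(S : Subgroup G) = 1 := Nat.card_eq_one_iff_unique.mpr ⟨h1, ⟨1⟩⟩
    rw [h3] at h2
    have h4 : (Nat.card G).factorization p ≠ 0 := by
      rw [← Nat.pos_iff_ne_zero]
      exact hp.out.factorization_pos_of_dvd Nat.card_pos.ne' hd
    exact absurd h2.symm (Nat.one_lt_pow h4 hp.out.one_lt).ne'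
  | succ c ih =>
    intro G _ _ hsol S hS
    haveI : Group.IsNilpotent ↥(S : Subgroup G) := S.isPGroup'.isNilpotent
    set K := pPrimeCore p G with hK
    set L := pPrimePCore p G with hL
    have hLn : L.Normal := inferInstance
    let πK := QuotientGroup.mk' K
    let π := QuotientGroup.mk' L
    have hπ : Function.Surjective π := QuotientGroup.mk'_surjective L
    -- the centre of `S` lies in `L`
    have hZ : ∀ z : ↥(S : Subgroup G), z ∈ Subgroup.center ↥(S : Subgroup G) → (z : G) ∈ L := by
      intro z hz
      show πK z ∈ pCore p (G ⧸ K)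
      apply centralizer_pCore_quotient_le hsol
      rw [Subgroup.mem_centralizer_iff]
      intro v hv
      have hVS : pCore p (G ⧸ K) ≤ (S : Subgroup G).map πK := by
        have := (isPGroup_pCore p (G := G ⧸ K)).le_sylow_of_normal
          (S.mapSurjective (QuotientGroup.mk'_surjective K))
        rwa [Sylow.coe_mapSurjective] at this
      obtain ⟨s, hs, rfl⟩ := hVS hv
      have h1 := Subgroup.mem_center_iff.mp hz ⟨s, hs⟩
      have h2 : s * (z : G) = z * s := congrArg Subtype.val h1
      rw [← map_mul, ← map_mul, h2]
    -- the Sylow subgroup of the quotient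
    set S' : Sylow p (G ⧸ L) := S.mapSurjective hπ with hS'
    have hclass : Group.nilpotencyClass ↥(S' : Subgroup (G ⧸ L)) ≤ c := by
      let f : ↥(S : Subgroup G) →* ↥((S : Subgroup G).map π) := π.subgroupMap (S : Subgroup G)
      have hf : Function.Surjective f := π.subgroupMap_surjective _
      have hker : Subgroup.center ↥(S : Subgroup G) ≤ f.ker := by
        intro z hz
        rw [MonoidHom.mem_ker]
        apply Subtype.ext
        show π z = 1
        exact (QuotientGroup.eq_one_iff (z : G)).mpr (hZ z hz)
      let g : (↥(S : Subgroup G) ⧸ Subgroup.center ↥(S : Subgroup G)) →* ↥((S : Subgroup G).map π) :=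
        QuotientGroup.lift _ f hker
      have hg : Function.Surjective g := by
        intro y
        obtain ⟨x, rfl⟩ := hf y
        exact ⟨QuotientGroup.mk x, rfl⟩
      have h1 := Group.nilpotencyClass_le_of_surjective g hg
      rw [Group.nilpotencyClass_quotient_center] at h1
      have h2 : Group.nilpotencyClass ↥((S : Subgroup G).map π) ≤ c := by omega
      exact h2
    have h1 := ih (G ⧸ L) (psol_quotient hsol L) S' hclass
    exact PLengthLE.of_quotient (k := 1) L (pPrimePCore_le_upper_two p) h1

/-- The p-length of a p-soluble group is at most the nilpotency class of its Sylow p-subgroups. -/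
theorem result {G : Type*} [Group G] [Finite G] {p : ℕ} [Fact p.Prime] (hsol : Cfsg.IsPSolvable p G) (S : Sylow p G) : Cfsg.PLengthLE p (Group.nilpotencyClass ↥(S : Subgroup G)) G := by
  exact main p _ G hsol S le_rfl

end Cfsg.Agent.S0635
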