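import Mathlib
import Cfsg.Statements.S0640
import Cfsg.Agent.Lib.Helper4.Basic
import Cfsg.Agent.Lib.Helper1.OmegaAut
import Cfsg.Agent.Lib.Helper1.RankTwo
import Cfsg.Agent.Lib.Helper1.PGrp
import Cfsg.Agent.Lib.Helper20.Fitting
import Cfsg.Agent.S0093
import Cfsg.Agent.S0121


set_option autoImplicit false
open Cfsg

namespace Cfsg.Agent.S0640

open Cfsg.Agent.Lib.Helper4

/-- fixed points of an automorphism -/
def fixSub {R : Type*} [Group R] (α : MulAut R) : Subgroup R where
  carrier := {x | α x = x}
  one_mem' := map_one α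
  mul_mem' := by
    intro a b ha hb
    show α (a * b) = a * b
    rw [map_mul, ha, hb]
  inv_mem' := by
    intro a ha
    show α a⁻¹ = a⁻¹
    rw [map_inv, ha]

theorem card_modEq_fix {R : Type*} [Group R] [Finite R] (α : MulAut R) {q : ℕ} [Fact q.Prime]
    (hα : α ^ q = 1) (K : Subgroup R) (hK : ∀ x ∈ K, α x ∈ K) :
    Nat.card K ≡ Nat.card (K ⊓ fixSub α : Subgroup R) [MOD q] := by
  classical
  have : Fintype K := Fintype.ofFinite _
  let f : Function.End K := fun x => ⟨α x, hK x x.2⟩
  have hpow : ∀ (j : ℕ) (x : K), (((f ^ j) x : K) : R) = (α ^ j) x := by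
    intro j
    induction j with
    | zero => intro x; simp only [pow_zero]; rfl
    | succ j ih =>
      intro x
      rw [pow_succ', pow_succ']
      show α ((f ^ j) x : K) = α ((α ^ j) x)
      rw [ih]
  have hf : f ^ q ^ 1 = 1 := by
    funext x
    apply Subtype.ext
    rw [pow_one, hpow, hα]
    rfl
  have h1 := Equiv.Perm.card_fixedPoints_modEq hf
  rw [← Nat.card_eq_fintype_card, ← Nat.card_eq_fintype_card] at h1
  have h2 : Nat.card (Function.fixedPoints f) = Nat.card (K ⊓ fixSub α : Subgroup R) := by
    apply Nat.card_congr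
    exact
      { toFun := fun x => ⟨x.1.1, x.1.2, congrArg Subtype.val x.2⟩
        invFun := fun x => ⟨⟨x.1, x.2.1⟩, Subtype.ext x.2.2⟩
        left_inv := fun x => rfl
        right_inv := fun x => rfl }
  rw [h2] at h1
  exact h1

theorem dvd_of_pow_modEq {p q a b : ℕ} (hq : q.Prime) (hp : p.Prime) (hqp : q ≠ p) (hab : b < a)
    (h : p ^ a ≡ p ^ b [MOD q]) : q ∣ p ^ (a - b) - 1 := by
  have h1 : q ∣ p ^ a - p ^ b :=
    (Nat.modEq_iff_dvd' (Nat.pow_le_pow_right hp.pos hab.le)).mp h.symm
  have h2 : p ^ a - p ^ b = p ^ b * (p ^ (a - b) - 1) := by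
    rw [Nat.mul_sub, ← pow_add, mul_one]
    congr 2
    omega
  rw [h2] at h1
  exact (Nat.Coprime.pow_right b ((Nat.coprime_primes hq hp).mpr hqp)).dvd_of_dvd_mul_left h1

theorem dvd_sq_sub_one {p q k : ℕ} (hk1 : 1 ≤ k) (hk : k ≤ 2) (h : q ∣ p ^ k - 1) : q ∣ p ^ 2 - 1 := by
  have : k = 1 ∨ k = 2 := by omega
  rcases this with rfl | rfl
  · rw [pow_one] at h
    have : p ^ 2 - 1 = (p - 1) * (p + 1) := by
      rcases p with _ | p
      · simp
      · simp only [Nat.add_sub_cancel]
        have : (p + 1) ^ 2 = p * (p + 1 + 1) + 1 := by ring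
        omega
    rw [this]
    exact h.mul_right _
  · exact h


/-- For odd p, a prime q ≠ p dividing the order of the automorphism group of a p-group of rank at most 2 divides p² - 1 and is less than p. -/
theorem result {R : Type*} [Group R] [Finite R] {p : ℕ} [Fact p.Prime] (hp : p ≠ 2) (hR : IsPGroup p R) (hrk : Cfsg.PRankLE p 2 R) (q : ℕ) (hq : q.Prime) (hqp : q ≠ p) (hdvd : q ∣ Nat.card (MulAut R)) : q ∣ p ^ 2 - 1 ∧ q < p := by
  have hpp : p.Prime := Fact.out
  have : Fact q.Prime := ⟨hq⟩
  have hmain : q ∣ p ^ 2 - 1 := by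
    obtain ⟨α, hαo⟩ := exists_prime_orderOf_dvd_card' q hdvd
    have hαq : α ^ q = 1 := by rw [← hαo, pow_orderOf_eq_one]
    obtain ⟨H, hHch, h1, h2, h3⟩ := Cfsg.Agent.S0093.result hR
    have hαH : ∀ x, x ∈ H → α x ∈ H := by
      intro x hx
      have := hHch.fixed α
      rw [← this] at hx
      exact hx
    have hHp : IsPGroup p H := hR.to_subgroup H
    obtain ⟨hf1, hf2⟩ := Cfsg.Agent.Lib.Helper1.pgroup_frattini hHp
    have hfc : frattini H ≤ Subgroup.center H := by
      intro z hz
      rw [Subgroup.mem_center_iff]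
      intro g
      have h4 : (z : R) ∈ Subgroup.centralizer (H : Set R) := h1 ⟨z, hz, rfl⟩
      exact Subtype.ext ((Subgroup.mem_centralizer_iff.mp h4) g g.2)
    have hc2 : Cfsg.Agent.Lib.Helper1.Class2 H :=
      Cfsg.Agent.Lib.Helper1.class2_of_commutator_le_center (hf1.trans hfc)
    -- an element of order p moved by α
    obtain ⟨x0, hx0H, hx0p, hx0α⟩ : ∃ x0 ∈ H, x0 ^ p = 1 ∧ α x0 ≠ x0 := by
      by_contra hcon
      push Not at hcon
      let a : H →* H := (α.toMonoidHom.comp H.subtype).codRestrict H (fun x => hαH x x.2)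
      have hiter : ∀ (j : ℕ) (x : H), ((a^[j] x : H) : R) = (α ^ j) x := by
        intro j
        induction j with
        | zero => intro x; simp
        | succ j ih =>
          intro x
          rw [Function.iterate_succ_apply', pow_succ']
          show α (a^[j] x : H) = α ((α ^ j) x)
          rw [ih]
      have hfix := Cfsg.Agent.Lib.Helper1.fixed_of_class2 hpp hp hHp hc2 (fun x => hfc (hf2 x)) a
        (m := q) ((Nat.coprime_primes hq hpp).mpr hqp)
        (fun x => Subtype.ext (by rw [hiter, hαq]; rfl))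
        (fun x hx => Subtype.ext (hcon x x.2 (by simpa using congrArg Subtype.val hx)))
      have hα1 : α = 1 := Cfsg.Agent.S0121.result hR H hHch h1 h2 h3 α
        (by rw [hαo]; exact (Nat.coprime_primes hq hpp).mpr hqp)
        (fun x hx => congrArg Subtype.val (hfix ⟨x, hx⟩))
      rw [hα1, orderOf_one] at hαo
      exact hq.one_lt.ne hαo
    set D : Subgroup R := Subgroup.closure {x : R | x ∈ H ∧ x ^ p = 1} with hD
    have hDexp : ∀ g ∈ D, g ^ p = 1 := by
      have key : ∀ g ∈ D, ∃ hg : g ∈ H, (⟨g, hg⟩ : H) ∈ Subgroup.closure {x : H | x ^ p = 1} := by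
        intro g hg
        induction hg using Subgroup.closure_induction with
        | mem x hx => exact ⟨hx.1, Subgroup.subset_closure (Subtype.ext (by simpa using hx.2))⟩
        | one => exact ⟨H.one_mem, Subgroup.one_mem _⟩
        | mul a b _ _ iha ihb =>
          obtain ⟨ha, ha'⟩ := iha
          obtain ⟨hb, hb'⟩ := ihb
          exact ⟨H.mul_mem ha hb, Subgroup.mul_mem _ ha' hb'⟩
        | inv a _ iha =>
          obtain ⟨ha, ha'⟩ := iha
          exact ⟨H.inv_mem ha, Subgroup.inv_mem _ ha'⟩
      intro g hg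
      obtain ⟨hgH, hg'⟩ := key g hg
      have := hc2.pow_eq_one_of_mem_closure hpp hp hg'
      simpa using congrArg Subtype.val this
    have hαD : ∀ x ∈ D, α x ∈ D := by
      have hle : D ≤ D.comap α.toMonoidHom := by
        rw [hD, Subgroup.closure_le]
        intro x hx
        apply Subgroup.subset_closure
        exact ⟨hαH x hx.1, by
          show (α x) ^ p = 1
          rw [← map_pow, hx.2, map_one]⟩
      intro x hx
      exact hle hx
    have hx0D : x0 ∈ D := Subgroup.subset_closure ⟨hx0H, hx0p⟩
    have hrk' : Cfsg.Agent.Lib.Helper1.RankLeTwo p R := fun E hE => hrk E hE.1 hE.2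
    have hDcard : Nat.card D ≤ p ^ 3 := Cfsg.Agent.Lib.Helper1.card_le_cube_of_exponent
      (hrk'.subgroup D) (fun x => Subtype.ext (by simpa using hDexp x x.2))
    obtain ⟨a, ha⟩ := (hR.to_subgroup D).exists_card_eq
    obtain ⟨b, hb⟩ := (hR.to_subgroup (D ⊓ fixSub α)).exists_card_eq
    have ha3 : a ≤ 3 := by
      rw [ha] at hDcard
      exact (Nat.pow_le_pow_iff_right hpp.one_lt).mp hDcard
    have hba : b < a := by
      by_contra hge
      push Not at hge
      have heq : D ⊓ fixSub α = D := Subgroup.eq_of_le_of_card_ge inf_le_left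
        (by rw [ha, hb]; exact Nat.pow_le_pow_right hpp.pos hge)
      have : x0 ∈ D ⊓ fixSub α := by rw [heq]; exact hx0D
      exact hx0α this.2
    have hmod := card_modEq_fix α hαq D hαD
    rw [ha, hb] at hmod
    have hd := dvd_of_pow_modEq hq hpp hqp hba hmod
    by_cases hab : a - b ≤ 2
    · exact dvd_sq_sub_one (by omega) hab hd
    · have ha3' : a = 3 := by omega
      have hb0 : b = 0 := by omega
      have hfixbot : D ⊓ fixSub α = ⊥ := by
        rw [← Subgroup.card_eq_one, hb, hb0, pow_zero]
      set Z := D ⊓ Subgroup.centralizer (D : Set R) with hZ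
      have hαZ : ∀ x ∈ Z, α x ∈ Z := by
        intro x hx
        refine ⟨hαD x hx.1, ?_⟩
        show α x ∈ Subgroup.centralizer (D : Set R)
        rw [Subgroup.mem_centralizer_iff]
        intro d hd'
        -- d = α d' with d' ∈ D
        have hd'' : α.symm d ∈ D := by
          have hinv : α.symm = α ^ (q - 1) := by
            have : α ^ (q - 1) * α = 1 := by
              rw [← pow_succ, Nat.sub_add_cancel hq.one_lt.le, hαq]
            have h6 : α⁻¹ = α ^ (q - 1) := (eq_inv_of_mul_eq_one_left this).symm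
            rw [← h6]; rfl
          rw [hinv]
          have hpowD : ∀ j : ℕ, ∀ y ∈ D, (α ^ j) y ∈ D := by
            intro j
            induction j with
            | zero => intro y hy; simpa using hy
            | succ j ih =>
              intro y hy
              rw [pow_succ']
              exact hαD _ (ih y hy)
          exact hpowD _ d hd'
        have h7 := (Subgroup.mem_centralizer_iff.mp hx.2) _ hd''
        have h8 := congrArg α h7
        rw [map_mul, map_mul, MulEquiv.apply_symm_apply] at h8
        exact h8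
      obtain ⟨c, hc⟩ := (hR.to_subgroup Z).exists_card_eq
      have hZfix : Z ⊓ fixSub α = ⊥ := by
        rw [eq_bot_iff, ← hfixbot]
        exact inf_le_inf_right _ inf_le_left
      have hmodZ := card_modEq_fix α hαq Z hαZ
      rw [hZfix, Subgroup.card_bot, hc] at hmodZ
      have hDne : D ≠ ⊥ := by
        intro h
        rw [h, Subgroup.card_bot, ha3'] at ha
        have := Nat.one_lt_pow (n := 3) (by norm_num) hpp.one_lt
        omega
      have hc1 : 1 ≤ c := by
        obtain ⟨z, hzD, hzc, hz1⟩ := Cfsg.Agent.Lib.Helper20.inf_centralizer_ne_bot D D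
          (hR.to_subgroup D).isNilpotent le_rfl hDne Subgroup.le_normalizer
        by_contra hlt
        have hc0 : c = 0 := by omega
        rw [hc0, pow_zero, Subgroup.card_eq_one] at hc
        have : z ∈ Z := ⟨hzD, hzc⟩
        rw [hc, Subgroup.mem_bot] at this
        exact hz1 this
      have hc2' : c ≤ 2 := by
        have hZe : Cfsg.IsElementaryAbelian p Z := by
          refine ⟨(isMulCommutative_iff Z).mpr ?_, fun z hz => hDexp z hz.1⟩
          intro x hx y hy
          exact (Subgroup.mem_centralizer_iff.mp hy.2) x hx.1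
        have := hrk Z hZe.1 hZe.2
        rw [hc] at this
        exact (Nat.pow_le_pow_iff_right hpp.one_lt).mp this
      have hd2 := dvd_of_pow_modEq (a := c) (b := 0) hq hpp hqp (by omega) (by simpa using hmodZ)
      exact dvd_sq_sub_one hc1 hc2' (by simpa using hd2)
  refine ⟨hmain, ?_⟩
  have h3 : 3 ≤ p := by
    have := hpp.two_le
    omega
  have hfac : p ^ 2 - 1 = (p - 1) * (p + 1) := by
    obtain ⟨k, rfl⟩ : ∃ k, p = k + 1 := ⟨p - 1, by omega⟩
    simp only [Nat.add_sub_cancel]
    have : (k + 1) ^ 2 = k * (k + 1 + 1) + 1 := by ring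
    omega
  rw [hfac] at hmain
  rcases (Nat.Prime.dvd_mul hq).mp hmain with h | h
  · have := Nat.le_of_dvd (by omega) h
    omega
  · have hle := Nat.le_of_dvd (by omega) h
    have hne : q ≠ p + 1 := by
      intro heq
      rcases hpp.eq_two_or_odd' with h2 | hodd
      · exact hp h2
      · have heven : Even (p + 1) := hodd.add_one
        rw [← heq] at heven
        have := (Nat.Prime.even_iff hq).mp heven
        omega
    omega

end Cfsg.Agent.S0640
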