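import Cfsg.Statements.S0642
import Mathlib

set_option autoImplicit false
open Cfsg

namespace Cfsg.Agent.S0642

open scoped commutatorElement

/-- Among finite 2-groups the regular ones are exactly the abelian ones. -/
theorem result {G : Type*} [Group G] [Finite G] (hG : IsPGroup 2 G) : Cfsg.IsRegularPGroup 2 G ↔ ∀ a b : G, a * b = b * a := by
  classical
  haveI : Fact (Nat.Prime 2) := ⟨Nat.prime_two⟩
  constructor
  swap
  · intro hcomm
    refine ⟨hG, fun a b n => ⟨1, Subgroup.one_mem _, ?_⟩⟩
    rw [mul_one, (show Commute a b from hcomm a b).mul_pow]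
  intro hreg
  by_contra hcon
  have hcen : Subgroup.center G ≠ ⊤ := by
    intro h
    apply hcon
    intro a b
    have : b ∈ Subgroup.center G := by rw [h]; trivial
    exact Subgroup.mem_center_iff.mp this a
  haveI : Nontrivial (G ⧸ Subgroup.center G) := by
    rw [← Finite.one_lt_card_iff_nontrivial]
    have h1 : (Subgroup.center G).index ≠ 1 := fun h => hcen (Subgroup.index_eq_one.mp h)
    have h2 : (Subgroup.center G).index ≠ 0 := Subgroup.index_ne_zero_of_finite
    show 1 < (Subgroup.center G).index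
    omega
  have hQ : IsPGroup 2 (G ⧸ Subgroup.center G) := hG.to_quotient _
  haveI := hQ.center_nontrivial
  obtain ⟨⟨q, hq⟩, hne⟩ := exists_ne (1 : Subgroup.center (G ⧸ Subgroup.center G))
  obtain ⟨x, rfl⟩ := QuotientGroup.mk_surjective q
  have hx : x ∉ Subgroup.center G := by
    intro h
    apply hne
    apply Subtype.ext
    exact (QuotientGroup.eq_one_iff x).mpr h
  have hxy : ∀ y : G, ⁅x, y⁆ ∈ Subgroup.center G := by
    intro y
    rw [← QuotientGroup.eq_one_iff]
    have h1 : ((⁅x, y⁆ : G) : G ⧸ Subgroup.center G) = ⁅(x : G ⧸ Subgroup.center G), (y : G ⧸ Subgroup.center G)⁆ := rfl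
    rw [h1, commutatorElement_eq_one_iff_mul_comm]
    exact (Subgroup.mem_center_iff.mp hq y).symm
  obtain ⟨y, hy⟩ : ∃ y, y * x ≠ x * y := by
    by_contra h
    push Not at h
    exact hx (Subgroup.mem_center_iff.mpr h)
  set z := ⁅x, y⁆ with hz
  have hz1 : z ≠ 1 := by
    intro h
    rw [hz, commutatorElement_eq_one_iff_mul_comm] at h
    exact hy h.symm
  have hzc : ∀ g : G, g * z = z * g := Subgroup.mem_center_iff.mp (hxy y)
  haveI hN : (Subgroup.zpowers z).Normal := by
    constructor
    intro n hn g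
    obtain ⟨k, rfl⟩ := Subgroup.mem_zpowers_iff.mp hn
    have : g * z ^ k * g⁻¹ = z ^ k := by
      have hc : Commute g z := hzc g
      rw [(hc.zpow_right k).eq, mul_inv_cancel_right]
    rw [this]
    exact Subgroup.zpow_mem_zpowers z k
  set H := Subgroup.closure ({x, y} : Set G) with hH
  have hder : ⁅H, H⁆ ≤ Subgroup.zpowers z := by
    have h1 : (⁅H, H⁆).map (QuotientGroup.mk' (Subgroup.zpowers z)) = ⊥ := by
      rw [Subgroup.map_commutator, Subgroup.commutator_eq_bot_iff_le_centralizer, hH, MonoidHom.map_closure,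
        Set.image_pair]
      haveI : IsMulCommutative (Subgroup.closure ({QuotientGroup.mk' (Subgroup.zpowers z) x, QuotientGroup.mk' (Subgroup.zpowers z) y} : Set (G ⧸ Subgroup.zpowers z))) := by
        apply Subgroup.isMulCommutative_closure
        have h2 : QuotientGroup.mk' (Subgroup.zpowers z) x * QuotientGroup.mk' (Subgroup.zpowers z) y =
            QuotientGroup.mk' (Subgroup.zpowers z) y * QuotientGroup.mk' (Subgroup.zpowers z) x := by
          rw [← commutatorElement_eq_one_iff_mul_comm, ← map_commutatorElement, ← MonoidHom.mem_ker,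
            QuotientGroup.ker_mk']
          exact Subgroup.mem_zpowers z
        intro u hu v hv
        rcases hu with rfl | rfl <;> rcases hv with rfl | rfl
        · rfl
        · exact h2
        · exact h2.symm
        · rfl
      exact Subgroup.le_centralizer _
    rw [Subgroup.map_eq_bot_iff, QuotientGroup.ker_mk'] at h1
    exact h1
  obtain ⟨c, hc, hceq⟩ := hreg.2 x y 1
  have hc2 : c ∈ Subgroup.zpowers (z ^ 2) := by
    have : Cfsg.powerClosure 2 1 ⁅H, H⁆ ≤ Subgroup.zpowers (z ^ 2) := by
      unfold Cfsg.powerClosure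
      rw [Subgroup.closure_le]
      rintro _ ⟨w, hw, rfl⟩
      obtain ⟨k, rfl⟩ := Subgroup.mem_zpowers_iff.mp (hder hw)
      rw [SetLike.mem_coe, Subgroup.mem_zpowers_iff]
      refine ⟨k, ?_⟩
      rw [pow_one, ← zpow_natCast, ← zpow_natCast, ← zpow_mul, ← zpow_mul, mul_comm]
    exact this hc
  obtain ⟨k, hk⟩ := Subgroup.mem_zpowers_iff.mp hc2
  have hcz : c = z⁻¹ := by
    rw [pow_one, pow_two, pow_two, pow_two] at hceq
    have h1 : x * y = z * (y * x) := by rw [hz]; simp [commutatorElement_def]
    have h2 : x * y * (x * y) = x * x * (y * y) * z⁻¹ := by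
      have h3 : y * x = z⁻¹ * (x * y) := by rw [h1]; group
      calc x * y * (x * y) = x * (y * x) * y := by group
        _ = x * (z⁻¹ * (x * y)) * y := by rw [h3]
        _ = x * x * (y * y) * z⁻¹ := by
          have h4 : ∀ g : G, g * z⁻¹ = z⁻¹ * g := fun g => by
            have := hzc g
            calc g * z⁻¹ = z⁻¹ * (z * g) * z⁻¹ := by group
              _ = z⁻¹ * (g * z) * z⁻¹ := by rw [this]
              _ = z⁻¹ * g := by group
          rw [h4 (x * x * (y * y)), ← mul_assoc x z⁻¹, h4 x]
          group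
    rw [h2] at hceq
    exact (mul_left_cancel hceq).symm
  have hpow : z ^ (2 * k + 1) = 1 := by
    rw [zpow_add, zpow_one, zpow_mul]
    have : (z ^ (2 : ℤ)) = z ^ 2 := by norm_cast
    rw [this, hk, hcz, inv_mul_cancel]
  have hord : (orderOf z : ℤ) ∣ 2 * k + 1 := orderOf_dvd_iff_zpow_eq_one.mpr hpow
  obtain ⟨j, hj⟩ := hG z
  obtain ⟨i, _, hi⟩ := (Nat.dvd_prime_pow Nat.prime_two).mp (orderOf_dvd_of_pow_eq_one hj)
  rcases Nat.eq_zero_or_pos i with h0 | h0
  · rw [h0, pow_zero, orderOf_eq_one_iff] at hi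
    exact hz1 hi
  · have h2 : (2 : ℤ) ∣ (orderOf z : ℤ) := by
      rw [hi]
      push_cast
      exact dvd_pow_self 2 (by omega)
    have := h2.trans hord
    omega

end Cfsg.Agent.S0642
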