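import Mathlib
import Cfsg.Statements.S0643
import Cfsg.Agent.Lib.Helper4.RegK


set_option autoImplicit false
open Cfsg Cfsg.Agent.Lib.Helper4.RegK

namespace Cfsg.Agent.S0643

/-- Kemhadze's criterion: a finite p-group is regular exactly when (ab)^p = a^p b^p c^p always holds for some c in the derived subgroup of the subgroup generated by a and b. -/
theorem result {G : Type*} [Group G] [Finite G] {p : ℕ} [Fact p.Prime] (hG : IsPGroup p G) : Cfsg.IsRegularPGroup p G ↔ ∀ a b : G, ∃ c ∈ ⁅Subgroup.closure ({a, b} : Set G), Subgroup.closure ({a, b} : Set G)⁆, (a * b) ^ p = a ^ p * b ^ p * c ^ p := by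
  constructor
  · intro hR a b
    have hR1 : RegK p 1 G := ⟨hR.1, fun a b => hR.2 a b 1⟩
    obtain ⟨c, hc, h⟩ := hR.2 a b 1
    obtain ⟨w, hw, rfl⟩ := hR1.exists_pow _ c hc
    exact ⟨w, hw, by simpa using h⟩
  · intro hw
    have hR1 : RegK p 1 G := by
      refine ⟨hG, fun a b => ?_⟩
      obtain ⟨c, hc, h⟩ := hw a b
      exact ⟨c ^ p ^ 1, pow_mem_powerClosure p 1 hc, by simpa using h⟩
    refine ⟨hG, fun a b n => ?_⟩
    induction n generalizing a b with
    | zero => exact ⟨1, one_mem _, by simp⟩
    | succ n ih =>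
      set H := Subgroup.closure ({a, b} : Set G) with hH
      have haH : a ∈ H := Subgroup.subset_closure (by simp)
      have hbH : b ∈ H := Subgroup.subset_closure (by simp)
      obtain ⟨c, hc, h1⟩ := hw a b
      rw [← hH] at hc
      have hcH : c ∈ H := (Subgroup.commutator_le.mpr fun x hx y hy => by
        rw [commutatorElement_def]
        exact mul_mem (mul_mem (mul_mem hx hy) (inv_mem hx)) (inv_mem hy)) hc
      -- key inclusion
      have key : ∀ u ∈ Cfsg.powerClosure p 1 H, ∀ v ∈ Cfsg.powerClosure p 1 H,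
          Cfsg.powerClosure p n ⁅Subgroup.closure ({u, v} : Set G), Subgroup.closure ({u, v} : Set G)⁆
            ≤ Cfsg.powerClosure p (n + 1) ⁅H, H⁆ := by
        intro u hu v hv
        have h2 : Subgroup.closure ({u, v} : Set G) ≤ Cfsg.powerClosure p 1 H := by
          rw [Subgroup.closure_le]
          rintro x (rfl | rfl)
          · exact hu
          · exact hv
        have h3 : ⁅Subgroup.closure ({u, v} : Set G), Subgroup.closure ({u, v} : Set G)⁆
            ≤ Cfsg.powerClosure p 1 ⁅H, H⁆ :=
          le_trans (Subgroup.commutator_mono h2 h2) (hR1.comm_le H)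
        refine le_trans (powerClosure_mono p n h3) ?_
        refine (Subgroup.closure_le _).mpr ?_
        rintro _ ⟨x, hx, rfl⟩
        obtain ⟨w, hw', rfl⟩ := hR1.exists_pow _ x hx
        have : (w ^ p ^ 1) ^ p ^ n = w ^ p ^ (n + 1) := by
          rw [← pow_mul, pow_one, pow_succ']
        rw [this]
        exact pow_mem_powerClosure p (n + 1) hw'
      have hap : a ^ p ∈ Cfsg.powerClosure p 1 H := by
        have := pow_mem_powerClosure p 1 haH
        simpa using this
      have hbp : b ^ p ∈ Cfsg.powerClosure p 1 H := by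
        have := pow_mem_powerClosure p 1 hbH
        simpa using this
      have hcp : c ^ p ∈ Cfsg.powerClosure p 1 H := by
        have := pow_mem_powerClosure p 1 hcH
        simpa using this
      obtain ⟨d, hd, h4⟩ := ih (a ^ p) (b ^ p * c ^ p)
      obtain ⟨e, he, h5⟩ := ih (b ^ p) (c ^ p)
      have hd' := key _ hap _ (mul_mem hbp hcp) hd
      have he' := key _ hbp _ hcp he
      refine ⟨c ^ p ^ (n + 1) * e * d, mul_mem (mul_mem (pow_mem_powerClosure p (n + 1) hc) he') hd', ?_⟩
      have e1 : ∀ x : G, x ^ p ^ (n + 1) = (x ^ p) ^ p ^ n := by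
        intro x
        rw [← pow_mul, pow_succ']
      rw [e1 (a * b), h1, mul_assoc, h4, h5, e1 a, e1 b, e1 c]
      group

end Cfsg.Agent.S0643
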