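import Cfsg.Statements.S0645
import Mathlib

set_option autoImplicit false
open Cfsg

namespace Cfsg.Agent.S0645

theorem mul_pow_aux {G : Type*} [Group G] (c y w : G) (h : y * c = w * (c * y))
    (hwy : w * y = y * w) (hwc : w * c = c * w) (k : ℕ) :
    (c * y) ^ k = c ^ k * y ^ k * w ^ (k.choose 2) := by
  have Cy : Commute w y := hwy
  have Cc : Commute w c := hwc
  have e1 : ∀ n : ℕ, y ^ n * c = w ^ n * (c * y ^ n) := by
    intro n
    induction n with
    | zero => simp
    | succ n ih =>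
      calc y ^ (n + 1) * c = y ^ n * (y * c) := by rw [pow_succ, mul_assoc]
        _ = y ^ n * w * (c * y) := by rw [h, mul_assoc]
        _ = w * (y ^ n * c) * y := by rw [← (Cy.pow_right n).eq]; simp only [mul_assoc]
        _ = w * (w ^ n * (c * y ^ n)) * y := by rw [ih]
        _ = w ^ (n + 1) * (c * y ^ (n + 1)) := by rw [pow_succ', pow_succ]; simp only [mul_assoc]
  induction k with
  | zero => simp
  | succ n ih =>
    have e2 : (n + 1).choose 2 = n.choose 2 + n := by
      rw [Nat.choose_succ_succ' n 1, Nat.choose_one_right, add_comm]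
    have c1 : Commute (w ^ (n.choose 2)) (c * y) := (Cc.mul_right Cy).pow_left _
    have c2 : Commute (w ^ n) (c * y ^ n) := (Cc.mul_right (Cy.pow_right n)).pow_left _
    have c3 : Commute (w ^ n) y := Cy.pow_left _
    calc (c * y) ^ (n + 1) = (c * y) ^ n * (c * y) := pow_succ _ _
      _ = c ^ n * y ^ n * w ^ (n.choose 2) * (c * y) := by rw [ih]
      _ = c ^ n * y ^ n * ((c * y) * w ^ (n.choose 2)) := by rw [← c1.eq]; simp only [mul_assoc]
      _ = c ^ n * (y ^ n * c) * y * w ^ (n.choose 2) := by simp only [mul_assoc]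
      _ = c ^ n * ((c * y ^ n) * w ^ n) * y * w ^ (n.choose 2) := by rw [e1, c2.eq]
      _ = c ^ n * c * y ^ n * (w ^ n * y) * w ^ (n.choose 2) := by simp only [mul_assoc]
      _ = c ^ n * c * y ^ n * (y * w ^ n) * w ^ (n.choose 2) := by rw [c3.eq]
      _ = c ^ n * c * (y ^ n * y) * (w ^ n * w ^ (n.choose 2)) := by simp only [mul_assoc]
      _ = c ^ (n + 1) * y ^ (n + 1) * w ^ ((n + 1).choose 2) := by
        rw [e2, pow_add w, pow_succ c, pow_succ y, ((Commute.refl w).pow_pow n _).eq]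

theorem eq_top_aux {G : Type*} [Group G] [Finite G] {p : ℕ} (hpp : p.Prime) (C K : Subgroup G)
    (hCi : C.index = p) (hCK : C ≤ K) (x : G) (hxK : x ∈ K) (hxC : x ∉ C) : K = ⊤ := by
  have h1 : C.relIndex K * K.index = C.index := Subgroup.relIndex_mul_index hCK
  rw [hCi] at h1
  have h2 : K.index ∣ p := ⟨_, by rw [← h1, mul_comm]⟩
  rcases (Nat.dvd_prime hpp).mp h2 with h3 | h3
  · exact Subgroup.index_eq_one.mp h3
  · exfalso
    rw [h3] at h1
    have h4 : C.relIndex K = 1 := by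
      have := hpp.pos
      nlinarith [Nat.eq_of_mul_eq_mul_right this (by rw [one_mul]; exact h1 : C.relIndex K * p = 1 * p)]
    exact hxC (Subgroup.relIndex_eq_one.mp h4 hxK)

theorem nt_aux {p : ℕ} [Fact p.Prime] (hp : p ≠ 2) (n : ℕ) (hn : 3 ≤ n) (r : ℕ)
    (h1 : r ^ p ≡ 1 [MOD p ^ (n - 1)]) (h2 : ¬ r ≡ 1 [MOD p ^ (n - 1)]) :
    ∃ k, r = 1 + k * p ^ (n - 2) := by
  have hpp : p.Prime := Fact.out
  have hodd : Odd p := hpp.odd_of_ne_two hp
  have hr1 : r ≡ 1 [MOD p] := by
    have a1 : r ^ p ≡ 1 [MOD p] := h1.of_dvd (dvd_pow_self p (by omega))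
    have a2 : ((r : ZMod p)) ^ p = r := ZMod.pow_card _
    have a3 : ((r ^ p : ℕ) : ZMod p) = ((1 : ℕ) : ZMod p) := (ZMod.natCast_eq_natCast_iff _ _ _).mpr a1
    apply (ZMod.natCast_eq_natCast_iff _ _ _).mp
    rw [← a3]; push_cast; exact a2.symm
  have hr0 : r ≠ 0 := by
    rintro rfl
    have := (Nat.modEq_zero_iff_dvd.mp hr1.symm)
    exact hpp.one_lt.ne' (Nat.dvd_one.mp this)
  have hr1' : r ≠ 1 := by
    rintro rfl; exact h2 rfl
  have hlt : 1 < r := by omega
  have hd : p ∣ r - 1 := (Nat.modEq_iff_dvd' hlt.le).mp hr1.symm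
  have hnd : ¬ p ∣ r := by
    intro h
    have : p ∣ 1 := by
      have := Nat.dvd_sub h hd
      rwa [show r - (r - 1) = 1 by omega] at this
    exact hpp.one_lt.ne' (Nat.dvd_one.mp this)
  have lte := padicValNat.pow_sub_pow (p := p) hodd hlt hd hnd (n := p) hpp.ne_zero
  rw [one_pow, padicValNat_self] at lte
  have hpow : 1 < r ^ p := Nat.one_lt_pow hpp.ne_zero hlt
  have hd2 : p ^ (n - 1) ∣ r ^ p - 1 := (Nat.modEq_iff_dvd' hpow.le).mp h1.symm
  have h3 : n - 1 ≤ padicValNat p (r ^ p - 1) := (padicValNat_dvd_iff_le (by omega)).mp hd2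
  have h4 : n - 2 ≤ padicValNat p (r - 1) := by omega
  obtain ⟨k, hk⟩ := (padicValNat_dvd_iff_le (by omega)).mpr h4
  exact ⟨k, by rw [mul_comm]; omega⟩

/-- Classification of p-groups with a cyclic maximal subgroup, odd p: a non-abelian one of order p^n has generators a of order p^(n-1) and b of order p, b outside the cyclic subgroup generated by a, with b a b⁻¹ = a^(1 + p^(n-2)). -/
theorem result {G : Type*} [Group G] [Finite G] {p : ℕ} [Fact p.Prime] (hp : p ≠ 2) (n : ℕ) (hn : 3 ≤ n) (hG : Nat.card G = p ^ n) (C : Subgroup G) (hC : IsCyclic C) (hCi : C.index = p) (hna : ∃ x y : G, x * y ≠ y * x) : ∃ a b : G, orderOf a = p ^ (n - 1) ∧ orderOf b = p ∧ b ∉ Subgroup.zpowers a ∧ b * a * b⁻¹ = a ^ (1 + p ^ (n - 2)) := by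
  classical
  have hpp : p.Prime := Fact.out
  have hCn : C.Normal := by
    apply Subgroup.normal_of_index_eq_minFac_card
    rw [hCi, hG, hpp.pow_minFac (by omega)]
  have hcardC : Nat.card C = p ^ (n - 1) := by
    have h := C.card_mul_index
    rw [hCi, hG] at h
    have : p ^ n = p ^ (n - 1) * p := by rw [← pow_succ]; congr 1; omega
    rw [this] at h
    exact Nat.eq_of_mul_eq_mul_right hpp.pos h
  obtain ⟨g, hg⟩ := hC.exists_generator
  set a : G := (g : G) with ha
  have hoa : orderOf a = p ^ (n - 1) := by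
    rw [ha, Subgroup.orderOf_coe, orderOf_eq_card_of_forall_mem_zpowers hg, hcardC]
  have hCa : ∀ c ∈ C, ∃ i : ℕ, c = a ^ i := by
    intro c hc
    have h1 := hg ⟨c, hc⟩
    rw [← mem_powers_iff_mem_zpowers] at h1
    obtain ⟨i, hi⟩ := h1
    exact ⟨i, by have := congrArg Subtype.val hi; simpa using this.symm⟩
  have haC : a ∈ C := g.2
  obtain ⟨x, hx⟩ : ∃ x, x ∉ C := by
    by_contra h; push Not at h
    have : C = ⊤ := (Subgroup.eq_top_iff' C).mpr h
    rw [this, Subgroup.index_top] at hCi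
    exact hpp.one_lt.ne hCi
  obtain ⟨r, hr⟩ := hCa (x * a * x⁻¹) (hCn.conj_mem a haC x)
  have hconj : ∀ k : ℕ, x ^ k * a * (x ^ k)⁻¹ = a ^ (r ^ k) := by
    intro k
    induction k with
    | zero => simp
    | succ k ih =>
      calc x ^ (k+1) * a * (x ^ (k+1))⁻¹ = x * (x ^ k * a * (x ^ k)⁻¹) * x⁻¹ := by
            rw [pow_succ']; group
        _ = x * a ^ (r ^ k) * x⁻¹ := by rw [ih]
        _ = (x * a * x⁻¹) ^ (r ^ k) := by rw [conj_pow]
        _ = a ^ (r ^ (k+1)) := by rw [hr, ← pow_mul, pow_succ']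
  have hxp : x ^ p ∈ C := by rw [← hCi]; exact C.pow_index_mem x
  obtain ⟨s0, hs0⟩ := hCa _ hxp
  have h1 : r ^ p ≡ 1 [MOD p ^ (n - 1)] := by
    rw [← hoa, ← pow_eq_pow_iff_modEq, pow_one, ← hconj p, hs0]
    rw [← pow_succ, pow_succ', mul_inv_cancel_right]
  have h2 : ¬ r ≡ 1 [MOD p ^ (n - 1)] := by
    intro h
    rw [← hoa, ← pow_eq_pow_iff_modEq, pow_one] at h
    rw [h] at hr
    have hxa : x * a = a * x := by
      calc x * a = x * a * x⁻¹ * x := by group
        _ = a * x := by rw [hr]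
    have t1 : Subgroup.centralizer {a} = ⊤ := eq_top_aux hpp C _ hCi (by
      intro c hc
      obtain ⟨i, rfl⟩ := hCa c hc
      rw [Subgroup.mem_centralizer_singleton_iff]
      rw [← pow_succ, pow_succ']) x (Subgroup.mem_centralizer_singleton_iff.mpr hxa) hx
    have t2 : ∀ g, g * a = a * g := fun g =>
      Subgroup.mem_centralizer_singleton_iff.mp (t1 ▸ Subgroup.mem_top g)
    have t3 : Subgroup.centralizer {x} = ⊤ := eq_top_aux hpp C _ hCi (by
      intro c hc
      obtain ⟨i, rfl⟩ := hCa c hc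
      rw [Subgroup.mem_centralizer_singleton_iff]
      exact ((show Commute a x from (t2 x).symm).pow_left i).eq) x
        (Subgroup.mem_centralizer_singleton_iff.mpr rfl) hx
    have t4 : ∀ g, g * x = x * g := fun g =>
      Subgroup.mem_centralizer_singleton_iff.mp (t3 ▸ Subgroup.mem_top g)
    have t5 : Subgroup.center G = ⊤ := eq_top_aux hpp C _ hCi (by
      intro c hc
      obtain ⟨i, rfl⟩ := hCa c hc
      rw [Subgroup.mem_center_iff]; intro g
      exact ((show Commute g a from t2 g).pow_right i).eq) x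
        (Subgroup.mem_center_iff.mpr (fun g => t4 g)) hx
    obtain ⟨u, v, huv⟩ := hna
    exact huv ((Subgroup.mem_center_iff.mp (t5 ▸ Subgroup.mem_top v) u))
  obtain ⟨k, hk⟩ := nt_aux hp n hn r h1 h2
  set m := p ^ (n - 2) with hm
  have hm0 : 0 < m := by rw [hm]; exact pow_pos hpp.pos _
  have hmp : m * p = p ^ (n - 1) := by rw [hm, ← pow_succ]; congr 1; omega
  have hmm : p ^ (n - 1) ∣ m * m := by rw [hm, ← pow_add]; exact pow_dvd_pow p (by omega)
  set z := a ^ m with hz
  have hzp : z ^ p = 1 := by rw [hz, ← pow_mul, hmp, ← hoa, pow_orderOf_eq_one]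
  have hz1 : z ≠ 1 := by
    rw [hz]; apply pow_ne_one_of_lt_orderOf hm0.ne'
    rw [hoa, ← hmp]; nlinarith [hpp.one_lt]
  have hoz : orderOf z = p := orderOf_eq_prime hzp hz1
  have hza : Commute z a := (Commute.refl a).pow_left m
  have hzm : z ^ m = 1 := by rw [hz, ← pow_mul]; exact orderOf_dvd_iff_pow_eq_one.mp (hoa ▸ hmm)
  have hxa : x * a * x⁻¹ = a * z ^ k := by
    rw [hr, hk, pow_add, pow_one, hz, ← pow_mul, mul_comm k]
  have hzx : x * z * x⁻¹ = z := by
    conv_lhs => rw [hz, ← conj_pow, hxa, (hza.symm.pow_right k).mul_pow m, ← pow_mul, mul_comm k m,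
      pow_mul, hzm, one_pow, mul_one]
  have hzx' : Commute x z := by
    show x * z = z * x
    calc x * z = x * z * x⁻¹ * x := by group
      _ = z * x := by rw [hzx]
  have hconj2 : ∀ j : ℕ, x ^ j * a * (x ^ j)⁻¹ = a * z ^ (k * j) := by
    intro j
    induction j with
    | zero => simp
    | succ j ih =>
      calc x ^ (j+1) * a * (x ^ (j+1))⁻¹ = x * (x ^ j * a * (x ^ j)⁻¹) * x⁻¹ := by
            rw [pow_succ']; group
        _ = x * (a * z ^ (k * j)) * x⁻¹ := by rw [ih]
        _ = (x * a * x⁻¹) * (x * z ^ (k*j) * x⁻¹) := by group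
        _ = a * z ^ k * z ^ (k * j) := by rw [hxa, ← conj_pow, hzx]
        _ = a * z ^ (k * (j+1)) := by rw [mul_assoc, ← pow_add]; congr 2; ring
  have hpk : ¬ p ∣ k := by
    rintro ⟨l, hl⟩
    apply h2
    rw [hk, hl]
    have : p * l * m = l * p ^ (n - 1) := by rw [← hmp]; ring
    rw [this]
    simp [Nat.ModEq]
  obtain ⟨j, _, hj⟩ := Nat.exists_mul_mod_eq_one_of_coprime
    ((Nat.Prime.coprime_iff_not_dvd hpp).mpr hpk).symm hpp.one_lt
  set y := x ^ j with hy
  have hya : y * a * y⁻¹ = a * z := by rw [hy, hconj2, ← pow_mod_orderOf, hoz, hj, pow_one]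
  have hyz : Commute y z := hzx'.pow_left j
  have hyC : y ∉ C := by
    intro h
    obtain ⟨i, hi⟩ := hCa y h
    rw [hi] at hya
    rw [← pow_succ, pow_succ', mul_inv_cancel_right] at hya
    exact hz1 (by simpa using hya.symm)
  have hyp : y ^ p ∈ C := by rw [← hCi]; exact C.pow_index_mem y
  obtain ⟨s, hs⟩ := hCa _ hyp
  have hps : p ∣ s := by
    rw [← hoz, orderOf_dvd_iff_pow_eq_one]
    have e : y * a ^ s * y⁻¹ = a ^ s * z ^ s := by rw [← conj_pow, hya, hza.symm.mul_pow]
    rw [← hs] at e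
    rw [← pow_succ', pow_succ, mul_inv_cancel_right] at e
    simpa using e.symm
  obtain ⟨s', rfl⟩ := hps
  set c := (a ^ s')⁻¹ with hc
  have hca : Commute c a := ((Commute.refl a).pow_left s').inv_left
  have hcz : Commute z c := (hza.pow_right s').inv_right
  set w := (z ^ s')⁻¹ with hw
  have hyc : y * c = w * (c * y) := by
    have e : y * a ^ s' * y⁻¹ = a ^ s' * z ^ s' := by rw [← conj_pow, hya, hza.symm.mul_pow]
    have e2 : y * c * y⁻¹ = w * c := by
      rw [hc, hw, ← mul_inv_rev, ← e]; group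
    calc y * c = y * c * y⁻¹ * y := by group
      _ = w * (c * y) := by rw [e2, mul_assoc]
  have hwy : w * y = y * w := ((hyz.pow_right s').inv_right).eq.symm
  have hwc : w * c = c * w := ((hcz.pow_left s').inv_left).eq
  have hwp : w ^ p = 1 := by rw [hw, inv_pow, ← pow_mul, mul_comm, pow_mul, hzp, one_pow, inv_one]
  have hbp : (c * y) ^ p = 1 := by
    rw [mul_pow_aux c y w hyc hwy hwc p]
    obtain ⟨l, hl⟩ := hpp.dvd_choose_self (by norm_num) (lt_of_le_of_ne hpp.two_le (Ne.symm hp))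
    rw [hl, pow_mul, hwp, one_pow, mul_one, hs, hc, inv_pow, ← pow_mul, mul_comm s' p, inv_mul_cancel]
  have hcC : c ∈ C := C.inv_mem (C.pow_mem haC s')
  have hbC : c * y ∉ C := fun h => hyC ((Subgroup.mul_mem_cancel_left C hcC).mp h)
  refine ⟨a, c * y, hoa, orderOf_eq_prime hbp (fun h => hbC (h ▸ C.one_mem)), ?_, ?_⟩
  · intro h
    apply hbC
    exact (Subgroup.zpowers_le.mpr haC) h
  · calc c * y * a * (c * y)⁻¹ = c * (y * a * y⁻¹) * c⁻¹ := by group
      _ = c * (a * z) * c⁻¹ := by rw [hya]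
      _ = a * z := by rw [((hca.mul_right hcz.symm)).eq, mul_inv_cancel_right]
      _ = a ^ (1 + p ^ (n - 2)) := by rw [pow_add, pow_one]

end Cfsg.Agent.S0645
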