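import Cfsg.Statements.S0657
import Mathlib
import Cfsg.Agent.Lib.Helper5.Qd4

set_option autoImplicit false
open Cfsg

namespace Cfsg.Agent.S0657

open Cfsg.Agent.Lib.Helper5.Dk

/-- For odd p, a group that fails to be p-stable modulo its largest normal subgroup of order prime to p, and whose upper p-series does not stop there, has a section isomorphic to SL(2, p). -/
theorem result {G : Type*} [Group G] [Finite G] {p : ℕ} [Fact p.Prime] (hp : p ≠ 2) (hO : Cfsg.pPrimeCore p G < Cfsg.pPrimePCore p G) (hns : ¬ Cfsg.IsPStable p (G ⧸ Cfsg.pPrimeCore p G)) : ∃ (K L : Subgroup G) (hL : (L.subgroupOf K).Normal), K ≤ ⊤ ∧ Nonempty ((K ⧸ L.subgroupOf K) ≃* Matrix.SpecialLinearGroup (Fin 2) (ZMod p)) := by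
  classical
  have hodd : Odd p := (Fact.out : p.Prime).odd_of_ne_two hp
  have hcore : Cfsg.pCore p (G ⧸ Cfsg.pPrimeCore p G) ≠ ⊥ := by
    intro h
    have h1 : Cfsg.pPrimePCore p G = Cfsg.pPrimeCore p G := by
      unfold Cfsg.pPrimePCore
      rw [h, MonoidHom.comap_bot]
      exact QuotientGroup.ker_mk' _
    rw [h1] at hO
    exact lt_irrefl _ hO
  unfold Cfsg.IsPStable at hns
  push Not at hns
  obtain ⟨A, P, hA, hP, hAP, hPle, hn, hq, hnot⟩ := hns hodd hcore
  rw [SetLike.not_le_iff_exists] at hnot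
  obtain ⟨_, ⟨a, ha, rfl⟩, hnot⟩ := hnot
  rcases nps_or_sec hp P hP a a.2 (Cfsg.Agent.Lib.Helper9.quadOn_of_commutator hq ha) with h | ⟨_, hs⟩
  · exact absurd h hnot
  · have h2 := (hs.of_subgroup).of_surjective (QuotientGroup.mk' (Cfsg.pPrimeCore p G))
      (QuotientGroup.mk'_surjective _)
    obtain ⟨K, L, hL, e⟩ := h2.format
    exact ⟨K, L, hL, le_top, e⟩

end Cfsg.Agent.S0657
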