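import Cfsg.Statements.S0660
import Mathlib

set_option autoImplicit false
open Cfsg

namespace Cfsg.Agent.S0660

open scoped IsMulCommutative

theorem maschke_ab {V A : Type*} [CommGroup V] [Finite V] [Group A] [Fintype A] (φ : A →* MulAut V)
    (hcop : (Fintype.card A).Coprime (Nat.card V)) (U W : Subgroup V)
    (hU : ∀ a, ∀ u ∈ U, φ a u ∈ U) (hUW : U ⊓ W = ⊥) (hUWV : U ⊔ W = ⊤) :
    ∃ W' : Subgroup V, (∀ a, ∀ w ∈ W', φ a w ∈ W') ∧ U ⊓ W' = ⊥ ∧ U ⊔ W' = ⊤ := by
  classical
  let f : U × W →* V := MonoidHom.coprod U.subtype W.subtype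
  have hf : Function.Bijective f := by
    constructor
    · rw [injective_iff_map_eq_one]
      rintro ⟨u, w⟩ h
      have h' : (u : V) * (w : V) = 1 := h
      have hu : (u : V) ∈ U ⊓ W := by
        refine ⟨u.2, ?_⟩
        rw [eq_inv_of_mul_eq_one_left h']
        exact W.inv_mem w.2
      rw [hUW, Subgroup.mem_bot] at hu
      have hw : (w : V) = 1 := by rwa [hu, one_mul] at h'
      ext <;> simp [hu, hw]
    · intro v
      have hv : v ∈ U ⊔ W := by rw [hUWV]; trivial
      obtain ⟨u, hu, w, hw, rfl⟩ := Subgroup.mem_sup.mp hv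
      exact ⟨(⟨u, hu⟩, ⟨w, hw⟩), rfl⟩
  let e : U × W ≃* V := MulEquiv.ofBijective f hf
  let π : V →* V := U.subtype.comp ((MonoidHom.fst U W).comp e.symm.toMonoidHom)
  have hπU : ∀ v, π v ∈ U := fun v => (e.symm v).1.2
  have hπu : ∀ u ∈ U, π u = u := by
    intro u hu
    have : e.symm u = (⟨u, hu⟩, 1) := by
      rw [MulEquiv.symm_apply_eq]
      show u = u * 1
      rw [mul_one]
    show ((e.symm u).1 : V) = u
    rw [this]
  let P : V →* V := ∏ a : A, (φ a).toMonoidHom.comp (π.comp (φ a⁻¹).toMonoidHom)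
  have hP : ∀ v, P v = ∏ a : A, φ a (π (φ a⁻¹ v)) := by
    intro v
    show (∏ a : A, (φ a).toMonoidHom.comp (π.comp (φ a⁻¹).toMonoidHom)) v = _
    rw [MonoidHom.finset_prod_apply]
    rfl
  have hPU : ∀ v, P v ∈ U := by
    intro v
    rw [hP]
    exact Subgroup.prod_mem _ fun a _ => hU a _ (hπU _)
  have hPu : ∀ u ∈ U, P u = u ^ Fintype.card A := by
    intro u hu
    rw [hP]
    have : ∀ a : A, φ a (π (φ a⁻¹ u)) = u := by
      intro a
      rw [hπu _ (hU _ _ hu), ← MulAut.mul_apply, ← map_mul, mul_inv_cancel, map_one, MulAut.one_apply]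
    simp only [this, Finset.prod_const, Finset.card_univ]
  have hPeq : ∀ b v, P (φ b v) = φ b (P v) := by
    intro b v
    rw [hP, hP, map_prod]
    refine (Fintype.prod_equiv (Equiv.mulLeft b) _ _ ?_).symm
    intro a
    show φ b (φ a (π (φ a⁻¹ v))) = φ (b * a) (π (φ (b * a)⁻¹ (φ b v)))
    have e1 : φ (b * a)⁻¹ (φ b v) = φ a⁻¹ v := by
      rw [← MulAut.mul_apply, ← map_mul]
      congr 2
      group
    rw [e1, map_mul φ b a, MulAut.mul_apply]
  have hcopV : (Nat.card V).Coprime (Fintype.card A) := hcop.symm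
  refine ⟨P.ker, ?_, ?_, ?_⟩
  · intro a w hw
    rw [MonoidHom.mem_ker] at hw ⊢
    rw [hPeq, hw, map_one]
  · rw [eq_bot_iff]
    rintro u ⟨hu, hu2⟩
    have hu2' : P u = 1 := hu2
    rw [hPu u hu] at hu2'
    rw [Subgroup.mem_bot]
    apply (powCoprime hcopV).injective
    show u ^ Fintype.card A = 1 ^ Fintype.card A
    rw [hu2', one_pow]
  · rw [eq_top_iff]
    intro v _
    have hcopU : (Nat.card U).Coprime (Fintype.card A) :=
      Nat.Coprime.coprime_dvd_left (Subgroup.card_subgroup_dvd_card U) hcopV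
    set u : U := (powCoprime hcopU).symm ⟨P v, hPU v⟩ with hu
    have hu' : u ^ Fintype.card A = ⟨P v, hPU v⟩ := by
      have := (powCoprime hcopU).apply_symm_apply ⟨P v, hPU v⟩
      exact this
    have hu'' : (u : V) ^ Fintype.card A = P v := by
      have := congrArg Subtype.val hu'
      simpa using this
    have : v = (u : V) * ((u : V)⁻¹ * v) := by group
    rw [this]
    apply Subgroup.mul_mem_sup u.2
    rw [MonoidHom.mem_ker, map_mul, map_inv, hPu _ u.2, hu'', inv_mul_cancel]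

/-- Under a coprime action on an abelian group, an invariant subgroup that is complemented admits an invariant complement. -/
theorem result {G : Type*} [Group G] [Finite G] (V A U : Subgroup G) (hVab : IsMulCommutative V) (hAV : A ≤ Subgroup.normalizer (V : Set G)) (hcop : (Nat.card A).Coprime (Nat.card V)) (hUV : U ≤ V) (hAU : A ≤ Subgroup.normalizer (U : Set G)) (W : Subgroup G) (hWV : W ≤ V) (hUW : U ⊓ W = ⊥) (hUWV : U ⊔ W = V) : ∃ W' : Subgroup G, W' ≤ V ∧ A ≤ Subgroup.normalizer (W' : Set G) ∧ U ⊓ W' = ⊥ ∧ U ⊔ W' = V := by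
  classical
  haveI : Fintype A := Fintype.ofFinite A
  let φ : A →* MulAut V := V.normalizerMonoidHom.comp (Subgroup.inclusion hAV)
  have hφ : ∀ (a : A) (v : V), ((φ a v : V) : G) = (a : G) * v * (a : G)⁻¹ := fun a v => rfl
  have hconjU : ∀ a ∈ A, ∀ u ∈ U, a * u * a⁻¹ ∈ U := by
    intro a ha u hu
    exact (Subgroup.mem_normalizer_iff.mp (hAU ha) u).mp hu
  obtain ⟨W', h1, h2, h3⟩ := maschke_ab φ (by rw [← Nat.card_eq_fintype_card]; exact hcop)
    (U.subgroupOf V) (W.subgroupOf V)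
    (by
      intro a u hu
      rw [Subgroup.mem_subgroupOf] at hu ⊢
      rw [hφ]
      exact hconjU a a.2 _ hu)
    (by
      rw [eq_bot_iff]
      rintro x ⟨hx1, hx2⟩
      have : (x : G) ∈ U ⊓ W := ⟨hx1, hx2⟩
      rw [hUW, Subgroup.mem_bot] at this
      rw [Subgroup.mem_bot]
      exact Subtype.ext this)
    (by
      rw [eq_top_iff]
      intro x _
      have hx : (x : G) ∈ U ⊔ W := by rw [hUWV]; exact x.2
      have hnorm : W ≤ Subgroup.normalizer (U : Set G) := by
        intro w hw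
        rw [Subgroup.mem_normalizer_iff]
        intro u
        constructor
        · intro hu
          have : w * u * w⁻¹ = u := by
            have := setLike_mul_comm (hWV hw) (hUV hu)
            rw [this, mul_inv_cancel_right]
          rwa [this]
        · intro hu
          have h1 : w * u * w⁻¹ ∈ V := hUV hu
          have h2 : u ∈ V := by
            have := V.mul_mem (V.mul_mem (V.inv_mem (hWV hw)) h1) (hWV hw)
            have e : w⁻¹ * (w * u * w⁻¹) * w = u := by group
            rwa [e] at this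
          have : w * u * w⁻¹ = u := by
            have := setLike_mul_comm (hWV hw) h2
            rw [this, mul_inv_cancel_right]
          rwa [this] at hu
      rw [← SetLike.mem_coe, Subgroup.coe_mul_of_right_le_normalizer_left U W hnorm] at hx
      obtain ⟨u, hu, w, hw, huw⟩ := hx
      have : x = (⟨u, hUV hu⟩ : V) * (⟨w, hWV hw⟩ : V) := Subtype.ext huw.symm
      rw [this]
      exact Subgroup.mul_mem_sup (by rw [Subgroup.mem_subgroupOf]; exact hu) (by rw [Subgroup.mem_subgroupOf]; exact hw))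
  have hmem : ∀ x : G, x ∈ W'.map V.subtype ↔ ∃ h : x ∈ V, (⟨x, h⟩ : V) ∈ W' := by
    intro x
    constructor
    · rintro ⟨y, hy, rfl⟩
      exact ⟨y.2, hy⟩
    · rintro ⟨h, hx⟩
      exact ⟨_, hx, rfl⟩
  have hconjW : ∀ a ∈ A, ∀ x ∈ W'.map V.subtype, a * x * a⁻¹ ∈ W'.map V.subtype := by
    intro a ha x hx
    obtain ⟨y, hy, rfl⟩ := hx
    exact ⟨φ ⟨a, ha⟩ y, h1 _ _ hy, rfl⟩
  refine ⟨W'.map V.subtype, ?_, ?_, ?_, ?_⟩
  · rintro x ⟨y, _, rfl⟩
    exact y.2
  · intro a ha
    rw [Subgroup.mem_normalizer_iff]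
    intro x
    refine ⟨hconjW a ha x, fun hx => ?_⟩
    have := hconjW a⁻¹ (A.inv_mem ha) _ hx
    have e : a⁻¹ * (a * x * a⁻¹) * a⁻¹⁻¹ = x := by group
    rwa [e] at this
  · rw [eq_bot_iff]
    rintro x ⟨hx1, hx2⟩
    obtain ⟨y, hy, rfl⟩ := hx2
    have : y ∈ U.subgroupOf V ⊓ W' := ⟨hx1, hy⟩
    rw [h2, Subgroup.mem_bot] at this
    rw [this]
    exact Subgroup.one_mem _
  · apply le_antisymm
    · apply sup_le hUV
      rintro x ⟨y, _, rfl⟩
      exact y.2
    · intro x hx
      have : (⟨x, hx⟩ : V) ∈ U.subgroupOf V ⊔ W' := by rw [h3]; trivial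
      obtain ⟨u, hu, w, hw, huw⟩ := Subgroup.mem_sup.mp this
      have e : x = (u : G) * (w : G) := by
        have := congrArg Subtype.val huw
        exact this.symm
      rw [e]
      exact Subgroup.mul_mem_sup (Subgroup.mem_subgroupOf.mp hu) ⟨w, hw, rfl⟩

end Cfsg.Agent.S0660
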