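import Cfsg.Statements.S0662

set_option autoImplicit false
open Cfsg
open scoped commutatorElement

namespace Cfsg.Agent.S0662

/-- the lower central series of the whole group. -/
abbrev LL (Q : Type*) [Group Q] (i : ℕ) : Subgroup Q := (⊤ : Subgroup Q).lowerCentralSeries i

variable {Q : Type*} [Group Q]

theorem const_of_eq {i : ℕ} (h : LL Q (i + 1) = LL Q i) : ∀ j, LL Q (i + j) = LL Q i := by
  intro j
  induction j with
  | zero => rfl
  | succ j ih =>
    show (⊤ : Subgroup Q).lowerCentralSeries (i + j + 1) = _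
    rw [Subgroup.lowerCentralSeries_succ]
    have h1 : (⊤ : Subgroup Q).lowerCentralSeries (i + j) = LL Q i := ih
    rw [h1]
    exact h

theorem lt_of_ne_bot [Group.IsNilpotent Q] {i : ℕ} (h : LL Q i ≠ ⊥) : LL Q (i + 1) < LL Q i := by
  refine lt_of_le_of_ne (Subgroup.lowerCentralSeries_antitone _ (Nat.le_succ i)) ?_
  intro heq
  apply h
  have h1 := const_of_eq heq (Group.nilpotencyClass Q)
  rw [← h1, eq_bot_iff]
  calc LL Q (i + Group.nilpotencyClass Q) ≤ LL Q (Group.nilpotencyClass Q) :=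
        Subgroup.lowerCentralSeries_antitone _ (Nat.le_add_left _ _)
    _ = ⊥ := Subgroup.lowerCentralSeries_nilpotencyClass

theorem not_cyclic [Group.IsNilpotent Q] (h : LL Q 1 ≠ ⊥) : ¬ IsCyclic (Q ⧸ LL Q 1) := by
  intro hc
  have hlt := lt_of_ne_bot h
  apply hlt.not_ge
  obtain ⟨f, hf⟩ : ∃ f : Q ⧸ LL Q 2 →* Q ⧸ LL Q 1, ∀ a : Q, f (a : Q ⧸ LL Q 2) = (a : Q ⧸ LL Q 1) :=
    ⟨QuotientGroup.map (LL Q 2) (LL Q 1) (MonoidHom.id Q) (by
      intro x hx
      exact hlt.le hx), fun a => rfl⟩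
  have hker : f.ker ≤ Subgroup.center (Q ⧸ LL Q 2) := by
    intro y hy
    obtain ⟨a, rfl⟩ := QuotientGroup.mk_surjective y
    have ha : a ∈ LL Q 1 := by
      rw [MonoidHom.mem_ker, hf, QuotientGroup.eq_one_iff] at hy
      exact hy
    rw [Subgroup.mem_center_iff]
    intro z
    obtain ⟨b, rfl⟩ := QuotientGroup.mk_surjective z
    rw [← QuotientGroup.mk_mul, ← QuotientGroup.mk_mul, QuotientGroup.eq]
    have h1 : ⁅a⁻¹, b⁻¹⁆ ∈ ⁅LL Q 1, (⊤ : Subgroup Q)⁆ :=
      Subgroup.commutator_mem_commutator ((LL Q 1).inv_mem ha) (Subgroup.mem_top _)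
    have h2 : (b * a)⁻¹ * (a * b) = ⁅a⁻¹, b⁻¹⁆ := by
      rw [commutatorElement_def]
      group
    rw [h2]
    exact h1
  have hcomm := (f.isMulCommutative_of_isCyclic_of_ker_le_center hker).is_comm.comm
  show ⁅(⊤ : Subgroup Q).lowerCentralSeries 0, (⊤ : Subgroup Q)⁆ ≤ _
  rw [Subgroup.commutator_le]
  intro a _ b _
  have h3 := hcomm (a : Q ⧸ LL Q 2) b
  rw [← QuotientGroup.eq_one_iff, commutatorElement_def]
  have h4 : ((a * b * a⁻¹ * b⁻¹ : Q) : Q ⧸ LL Q 2) =
      (a : Q ⧸ LL Q 2) * b * (a : Q ⧸ LL Q 2)⁻¹ * (b : Q ⧸ LL Q 2)⁻¹ := rfl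
  rw [h4, h3]
  group

/-- the exponents of the orders of the lower central terms, and their basic inequalities. -/
theorem exists_exp {p : ℕ} [hp : Fact p.Prime] [Finite Q] {r : ℕ} (hQ : Nat.card Q = p ^ r) :
    ∃ e : ℕ → ℕ, (∀ i, Nat.card (LL Q i) = p ^ e i) ∧ e 0 = r ∧ (∀ i, e (i + 1) ≤ e i) ∧
      (∀ i, e i ≠ 0 → e (i + 1) < e i) ∧ (e 1 ≠ 0 → e 1 + 2 ≤ e 0) := by
  have hpp := hp.out
  have hnil : Group.IsNilpotent Q := (IsPGroup.of_card hQ).isNilpotent
  have hex : ∀ i, ∃ k, Nat.card (LL Q i) = p ^ k := by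
    intro i
    have h1 : Nat.card (LL Q i) ∣ p ^ r := hQ ▸ Subgroup.card_subgroup_dvd_card _
    obtain ⟨k, -, hk⟩ := (Nat.dvd_prime_pow hpp).1 h1
    exact ⟨k, hk⟩
  choose e he using hex
  have hinj : ∀ a b, p ^ a = p ^ b → a = b := fun a b h => Nat.pow_right_injective hpp.two_le h
  have h0 : e 0 = r := by
    apply hinj
    rw [← he 0, ← hQ]
    exact Subgroup.card_top
  have hmono : ∀ i, e (i + 1) ≤ e i := by
    intro i
    have h1 : Nat.card (LL Q (i + 1)) ≤ Nat.card (LL Q i) :=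
      Subgroup.card_le_of_le (Subgroup.lowerCentralSeries_antitone _ (Nat.le_succ i))
    rw [he, he] at h1
    exact (Nat.pow_le_pow_iff_right hpp.one_lt).1 h1
  have hne : ∀ i, e i ≠ 0 → LL Q i ≠ ⊥ := by
    intro i hi hbot
    have h1 := he i
    rw [hbot, Subgroup.card_bot] at h1
    exact hi (hinj _ _ (by rw [pow_zero]; exact h1.symm))
  have hstrict : ∀ i, e i ≠ 0 → e (i + 1) < e i := by
    intro i hi
    have hlt := lt_of_ne_bot (hne i hi)
    refine lt_of_le_of_ne (hmono i) ?_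
    intro heq
    apply hlt.ne
    apply Subgroup.eq_of_le_of_card_ge hlt.le
    rw [he, he, heq]
  refine ⟨e, he, h0, hmono, hstrict, ?_⟩
  intro h1
  have hnc := not_cyclic (hne 1 h1)
  have h00 : e 1 ≤ e 0 := hmono 0
  have h01 : e 1 < e 0 := hstrict 0 (by omega)
  by_contra hcon
  have h2 : e 0 = e 1 + 1 := by omega
  apply hnc
  have h3 := Subgroup.card_mul_index (LL Q 1)
  rw [he 1, hQ, ← h0, h2, pow_succ] at h3
  have h4 : (LL Q 1).index = p := Nat.eq_of_mul_eq_mul_left (pow_pos hpp.pos _) h3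
  exact isCyclic_of_prime_card (p := p) (by rw [← h4]; rfl)

theorem bound {e : ℕ → ℕ} {r : ℕ} (h0 : e 0 = r) (hmono : ∀ i, e (i + 1) ≤ e i)
    (hstrict : ∀ i, e i ≠ 0 → e (i + 1) < e i) (h1 : e 1 ≠ 0 → e 1 + 2 ≤ e 0) :
    ∀ i, e (i + 1) ≤ r - 1 - (i + 1) := by
  intro i
  induction i with
  | zero =>
    by_cases h : e 1 = 0
    · simp only [zero_add]; omega
    · have := h1 h
      simp only [zero_add]; omega
  | succ i ih =>
    by_cases h : e (i + 1) = 0
    · have := hmono (i + 1)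
      omega
    · have := hstrict (i + 1) h
      omega

theorem normal_of_comm_le {H : Subgroup Q} (h : LL Q 1 ≤ H) : H.Normal := by
  constructor
  intro n hn g
  have h1 : ⁅g, n⁆ ∈ LL Q 1 :=
    Subgroup.commutator_mem_commutator (H₁ := (⊤ : Subgroup Q).lowerCentralSeries 0)
      (H₂ := (⊤ : Subgroup Q)) (Subgroup.mem_top g) (Subgroup.mem_top n)
  have h2 : g * n * g⁻¹ = ⁅g, n⁆ * n := by
    rw [commutatorElement_def]
    group
  rw [h2]
  exact H.mul_mem (h h1) hn

theorem comm_le_of_index_prime {p : ℕ} [hp : Fact p.Prime] (B : Subgroup Q) (hB : B.Normal)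
    (hi : B.index = p) : LL Q 1 ≤ B := by
  have hc : IsCyclic (Q ⧸ B) := isCyclic_of_prime_card (p := p) (by rw [← hi]; rfl)
  show ⁅(⊤ : Subgroup Q).lowerCentralSeries 0, (⊤ : Subgroup Q)⁆ ≤ _
  rw [Subgroup.commutator_le]
  intro a _ b _
  have h3 := hc.isMulCommutative.is_comm.comm (a : Q ⧸ B) b
  rw [← QuotientGroup.eq_one_iff, commutatorElement_def]
  have h4 : ((a * b * a⁻¹ * b⁻¹ : Q) : Q ⧸ B) =
      (a : Q ⧸ B) * b * (a : Q ⧸ B)⁻¹ * (b : Q ⧸ B)⁻¹ := rfl
  rw [h4, h3]
  group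

theorem count {S : Type*} [Group S] [Finite S] (p : ℕ) [hp : Fact p.Prime] (Z : Subgroup S)
    (hZ : Z.index = p ^ 2) (P : Subgroup S → Prop)
    (hP1 : ∀ x, x ∉ Z → P (Z ⊔ Subgroup.zpowers x))
    (hnt : ∀ x, Z ⊔ Subgroup.zpowers x ≠ ⊤)
    (hP2 : ∀ B, P B → B.index = p → Z ≤ B) :
    Nat.card {B : Subgroup S // P B ∧ B.index = p} = p + 1 := by
  classical
  have hpp := hp.out
  have : Fintype S := Fintype.ofFinite S
  have : Fintype (Subgroup S) := Fintype.ofFinite _
  have hcardS : Nat.card S = Nat.card Z * p ^ 2 := by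
    rw [← hZ]; exact (Subgroup.card_mul_index Z).symm
  have hcardB : ∀ B : Subgroup S, B.index = p → Nat.card B = p * Nat.card Z := by
    intro B hB
    have h1 := Subgroup.card_mul_index B
    rw [hB, hcardS] at h1
    have h2 : Nat.card B * p = (p * Nat.card Z) * p := by rw [h1]; ring
    exact Nat.eq_of_mul_eq_mul_right hpp.pos h2
  have hmem : ∀ x, x ∉ Z →
      P (Z ⊔ Subgroup.zpowers x) ∧ (Z ⊔ Subgroup.zpowers x).index = p := by
    intro x hx
    refine ⟨hP1 x hx, ?_⟩
    have h1 : (Z ⊔ Subgroup.zpowers x).index ∣ p ^ 2 := hZ ▸ Subgroup.index_dvd_of_le le_sup_left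
    obtain ⟨i, hi, hic⟩ := (Nat.dvd_prime_pow hpp).mp h1
    have hi0 : i ≠ 0 := by
      rintro rfl
      rw [pow_zero, Subgroup.index_eq_one] at hic
      exact hnt x hic
    have hi2 : i ≠ 2 := by
      rintro rfl
      apply hx
      have h2 := Subgroup.card_mul_index (Z ⊔ Subgroup.zpowers x)
      rw [hic, hcardS] at h2
      have h3 := Nat.eq_of_mul_eq_mul_right (pow_pos hpp.pos 2) h2
      have h4 : Z = Z ⊔ Subgroup.zpowers x := Subgroup.eq_of_le_of_card_ge le_sup_left h3.le
      rw [h4]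
      exact (le_sup_right : Subgroup.zpowers x ≤ _) (Subgroup.mem_zpowers x)
    have hi1 : i = 1 := by omega
    rw [hic, hi1, pow_one]
  have hf : ∀ B : Subgroup S, P B → B.index = p → ∀ x, x ∉ Z →
      (Z ⊔ Subgroup.zpowers x = B ↔ x ∈ B) := by
    intro B hBc hBi x hx
    constructor
    · rintro rfl
      exact (le_sup_right : Subgroup.zpowers x ≤ _) (Subgroup.mem_zpowers x)
    · intro hxB
      have hZB : Z ≤ B := hP2 B hBc hBi
      apply Subgroup.eq_of_le_of_card_ge (sup_le hZB (Subgroup.zpowers_le.mpr hxB))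
      rw [hcardB B hBi, hcardB _ (hmem x hx).2]
  have ht : Nat.card {B : Subgroup S // P B ∧ B.index = p}
      = (Finset.univ.filter (fun B : Subgroup S => P B ∧ B.index = p)).card := by
    rw [Nat.card_eq_fintype_card, Fintype.card_subtype]
  have hcz : ∀ H : Subgroup S, (Finset.univ.filter (fun x => x ∈ H)).card = Nat.card H := by
    intro H; rw [Nat.card_eq_fintype_card, Fintype.card_subtype]
  have hs : (Finset.univ.filter (fun x => ¬ x ∈ Z)).card + Nat.card Z = Nat.card S := by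
    have h1 := Finset.card_filter_add_card_filter_not (s := (Finset.univ : Finset S))
      (fun x => x ∈ Z)
    rw [hcz, Finset.card_univ, ← Nat.card_eq_fintype_card] at h1
    omega
  have hsum := Finset.card_eq_sum_card_fiberwise (f := fun x => Z ⊔ Subgroup.zpowers x)
    (s := Finset.univ.filter (fun x => ¬ x ∈ Z))
    (t := Finset.univ.filter (fun B : Subgroup S => P B ∧ B.index = p)) (by
      intro x hx
      have hx' : ¬ x ∈ Z := (Finset.mem_filter.mp hx).2
      exact Finset.mem_coe.mpr (Finset.mem_filter.mpr ⟨Finset.mem_univ _, hmem x hx'⟩))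
  have hfib : ∀ B ∈ Finset.univ.filter (fun B : Subgroup S => P B ∧ B.index = p),
      ((Finset.univ.filter (fun x => ¬ x ∈ Z)).filter (fun x => Z ⊔ Subgroup.zpowers x = B)).card
        = p * Nat.card Z - Nat.card Z := by
    intro B hB
    obtain ⟨hBc, hBi⟩ := (Finset.mem_filter.mp hB).2
    have hZB : Z ≤ B := hP2 B hBc hBi
    have h1 : (Finset.univ.filter (fun x => ¬ x ∈ Z)).filter (fun x => Z ⊔ Subgroup.zpowers x = B)
        = (Finset.univ.filter (fun x => x ∈ B)).filter (fun x => ¬ x ∈ Z) := by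
      ext x
      simp only [Finset.mem_filter, Finset.mem_univ, true_and]
      constructor
      · rintro ⟨hx, hxB⟩; exact ⟨(hf B hBc hBi x hx).mp hxB, hx⟩
      · rintro ⟨hxB, hx⟩; exact ⟨hx, (hf B hBc hBi x hx).mpr hxB⟩
    have h2 : (Finset.univ.filter (fun x => x ∈ B)).filter (fun x => x ∈ Z)
        = Finset.univ.filter (fun x => x ∈ Z) := by
      ext x
      simp only [Finset.mem_filter, Finset.mem_univ, true_and]
      exact ⟨fun h => h.2, fun h => ⟨hZB h, h⟩⟩
    have h3 := Finset.card_filter_add_card_filter_not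
      (s := Finset.univ.filter (fun x => x ∈ B)) (fun x => x ∈ Z)
    rw [h2, hcz, hcz, hcardB B hBi] at h3
    rw [h1]; omega
  rw [Finset.sum_const_nat hfib] at hsum
  rw [ht]
  obtain ⟨n, hn⟩ : ∃ n, n = (Finset.univ.filter
    (fun B : Subgroup S => P B ∧ B.index = p)).card := ⟨_, rfl⟩
  obtain ⟨z, hz⟩ : ∃ z, z = Nat.card Z := ⟨_, rfl⟩
  obtain ⟨c, hc0⟩ : ∃ c, c = p * z - z := ⟨_, rfl⟩
  have hzpos : 0 < z := hz ▸ Nat.card_pos
  rw [← hn, ← hz, ← hc0] at hsum
  rw [hsum, hcardS, ← hz] at hs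
  rw [← hn]
  have hle : z ≤ p * z := Nat.le_mul_of_pos_left z hpp.pos
  have hc : c + z = p * z := by omega
  have h2 : (p + 1) * c + z = z * p ^ 2 := by
    calc (p + 1) * c + z = p * c + (c + z) := by ring
      _ = p * c + p * z := by rw [hc]
      _ = p * (c + z) := by ring
      _ = p * (p * z) := by rw [hc]
      _ = z * p ^ 2 := by ring
  have h3 : n * c = (p + 1) * c := by omega
  have hcpos : 0 < c := by
    have : 2 * z ≤ p * z := Nat.mul_le_mul_right z hpp.two_le
    omega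
  exact Nat.eq_of_mul_eq_mul_right hcpos h3

/-- In a p-group of maximal class of order at least p³ the normal subgroups of index at least p² are exactly the terms of the lower central series, and there are exactly p + 1 normal subgroups of index p. -/
theorem result {G : Type*} [Group G] [Finite G] {p : ℕ} [Fact p.Prime] (n : ℕ) (hG : Nat.card G = p ^ n) (hcl : Group.nilpotencyClass G = n - 1) (hn : 3 ≤ n) : (∀ (N : Subgroup G) [N.Normal] (r : ℕ), 2 ≤ r → N.index = p ^ r → N = (⊤ : Subgroup G).lowerCentralSeries (r - 1)) ∧ Nat.card {N : Subgroup G // N.Normal ∧ N.index = p} = p + 1 := by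
  have hpp : p.Prime := Fact.out
  have hnil : Group.IsNilpotent G := (IsPGroup.of_card hG).isNilpotent
  obtain ⟨e, he, h0, hmono, hstrict, h1⟩ := exists_exp (Q := G) hG
  have hup := bound h0 hmono hstrict h1
  have hinj : ∀ a b, p ^ a = p ^ b → a = b := fun a b h => Nat.pow_right_injective hpp.two_le h
  -- `L (n-2) ≠ ⊥`
  have hlast : e (n - 2) ≠ 0 := by
    intro hz
    have h2 : LL G (n - 2) = ⊥ := by
      apply Subgroup.eq_bot_of_card_eq
      rw [he, hz, pow_zero]
    have h3 := Subgroup.lowerCentralSeries_eq_bot_iff_nilpotencyClass_le.1 h2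
    omega
  have hlow : ∀ j, j ≤ n - 2 → j + 1 ≤ e (n - 2 - j) := by
    intro j
    induction j with
    | zero => intro _; simp only [Nat.sub_zero]; omega
    | succ j ih =>
      intro hj
      have h2 := ih (by omega)
      have h3 : n - 2 - (j + 1) + 1 = n - 2 - j := by omega
      have h4 := hmono (n - 2 - (j + 1))
      rw [h3] at h4
      have h5 := hstrict (n - 2 - (j + 1)) (by omega)
      rw [h3] at h5
      omega
  have hexact : ∀ i, 1 ≤ i → i ≤ n - 1 → e i = n - 1 - i := by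
    intro i hi1 hi2
    obtain ⟨k, rfl⟩ : ∃ k, i = k + 1 := ⟨i - 1, by omega⟩
    have h2 := hup k
    by_cases h3 : k + 1 = n - 1
    · omega
    · have h4 := hlow (n - 2 - (k + 1)) (by omega)
      have h5 : n - 2 - (n - 2 - (k + 1)) = k + 1 := by omega
      rw [h5] at h4
      omega
  constructor
  · intro N hN r hr hNi
    have hrn : r ≤ n := by
      have h2 : p ^ r ∣ p ^ n := by
        rw [← hNi, ← hG]
        exact Subgroup.index_dvd_card N
      exact (Nat.pow_dvd_pow_iff_le_right hpp.one_lt).1 h2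
    have hQc : Nat.card (G ⧸ N) = p ^ r := hNi
    obtain ⟨e', he', h0', hmono', hstrict', h1'⟩ := exists_exp (Q := G ⧸ N) hQc
    have hup' := bound h0' hmono' hstrict' h1' (r - 2)
    have h2 : r - 2 + 1 = r - 1 := by omega
    rw [h2] at hup'
    have h3 : e' (r - 1) = 0 := by omega
    have h4 : LL (G ⧸ N) (r - 1) = ⊥ := by
      apply Subgroup.eq_bot_of_card_eq
      rw [he', h3, pow_zero]
    have h5 : (LL G (r - 1)).map (QuotientGroup.mk' N) = ⊥ := by
      rw [Subgroup.map_lowerCentralSeries,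
        Subgroup.map_top_of_surjective _ (QuotientGroup.mk'_surjective N)]
      exact h4
    have h6 : LL G (r - 1) ≤ N := by
      have h7 := (Subgroup.map_eq_bot_iff _).1 h5
      rwa [QuotientGroup.ker_mk'] at h7
    symm
    apply Subgroup.eq_of_le_of_card_ge h6
    have h8 := Subgroup.card_mul_index N
    rw [hNi, hG] at h8
    have h9 : p ^ n = p ^ (n - r) * p ^ r := by rw [← pow_add]; congr 1; omega
    rw [h9] at h8
    have h10 := Nat.eq_of_mul_eq_mul_right (pow_pos hpp.pos r) h8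
    rw [h10]
    show _ ≤ Nat.card (LL G (r - 1))
    rw [he, hexact (r - 1) (by omega) (by omega)]
    apply le_of_eq
    congr 1
    omega
  · have he1 : e 1 = n - 2 := by
      rw [hexact 1 le_rfl (by omega)]
      omega
    have hD : (LL G 1).index = p ^ 2 := by
      have h2 := Subgroup.card_mul_index (LL G 1)
      rw [he, he1, hG] at h2
      have h3 : p ^ n = p ^ (n - 2) * p ^ 2 := by rw [← pow_add]; congr 1; omega
      rw [h3] at h2
      exact Nat.eq_of_mul_eq_mul_left (pow_pos hpp.pos _) h2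
    have hDne : LL G 1 ≠ ⊥ := by
      intro hb
      have h2 := he 1
      rw [hb, Subgroup.card_bot, he1] at h2
      have h3 := hinj 0 (n - 2) (by rw [pow_zero]; exact h2)
      omega
    have hnc := not_cyclic hDne
    apply count p (LL G 1) hD (fun B => B.Normal)
    · intro x _
      exact normal_of_comm_le le_sup_left
    · intro x htop
      apply hnc
      refine ⟨⟨(x : G ⧸ LL G 1), ?_⟩⟩
      intro y
      obtain ⟨g, rfl⟩ := QuotientGroup.mk_surjective y
      have hg : g ∈ LL G 1 ⊔ Subgroup.zpowers x := htop ▸ Subgroup.mem_top g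
      rw [Subgroup.mem_sup_of_normal_left] at hg
      obtain ⟨d, hd, z, hz, rfl⟩ := hg
      obtain ⟨k, rfl⟩ := Subgroup.mem_zpowers_iff.1 hz
      refine ⟨k, ?_⟩
      show (x : G ⧸ LL G 1) ^ k = ((d * x ^ k : G) : G ⧸ LL G 1)
      rw [QuotientGroup.mk_mul, (QuotientGroup.eq_one_iff d).2 hd, one_mul, QuotientGroup.mk_zpow]
    · intro B hB hBi
      exact comm_le_of_index_prime B hB hBi

end Cfsg.Agent.S0662
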