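import Mathlib
import Cfsg.Statements.S0663
import Cfsg.Agent.Lib.Helper4.Quad
import Cfsg.Agent.Lib.Helper4.Basic
import Cfsg.Agent.Lib.Helper1.Nilp


set_option autoImplicit false
open Cfsg

namespace Cfsg.Agent.S0663


open Cfsg.Agent.Lib.Helper1 Cfsg.Agent.Lib.Helper4
open scoped commutatorElement

section aux

variable {L : Type*} [Group L] [Finite L] {p : ℕ} [Fact p.Prime] (N G : Subgroup L)

omit [Finite L] [Fact p.Prime] in
theorem basicA (hGN : G ≤ Subgroup.normalizer (N : Set L)) (i : ℕ) :
    Cfsg.iterCommutator N G i ≤ N ∧ G ≤ Subgroup.normalizer (Cfsg.iterCommutator N G i : Set L) := by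
  induction i with
  | zero => exact ⟨le_rfl, hGN⟩
  | succ i ih =>
    exact ⟨(Cfsg.Agent.Lib.Helper1.commutator_le_of_le_normalizer ih.2).trans ih.1, right_le_normalizer_commutator _ _⟩

omit [Finite L] [Fact p.Prime] in
theorem succ_le (hGN : G ≤ Subgroup.normalizer (N : Set L)) (i : ℕ) :
    Cfsg.iterCommutator N G (i + 1) ≤ Cfsg.iterCommutator N G i :=
  Cfsg.Agent.Lib.Helper1.commutator_le_of_le_normalizer (basicA N G hGN i).2

omit [Finite L] [Fact p.Prime] in
theorem anti (hGN : G ≤ Subgroup.normalizer (N : Set L)) {i j : ℕ} (h : i ≤ j) :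
    Cfsg.iterCommutator N G j ≤ Cfsg.iterCommutator N G i := by
  induction j, h using Nat.le_induction with
  | base => exact le_rfl
  | succ j _ ih => exact (succ_le N G hGN j).trans ih

/-- a `p`-group strictly between orders `p^k` and `p^(k+1)`... -/
theorem card_eq_of_between {A B : Subgroup L} (hB : IsPGroup p B) {k : ℕ}
    (h1 : p ^ k < Nat.card B) (hBA : B ≤ A) (hA : Nat.card A = p ^ (k + 1)) : B = A := by
  have hp : p.Prime := Fact.out
  obtain ⟨e, he⟩ := IsPGroup.iff_card.mp hB
  apply Subgroup.eq_of_le_of_card_ge hBA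
  rw [hA, he]
  rw [he] at h1
  have : k < e := (Nat.pow_lt_pow_iff_right hp.one_lt).mp h1
  exact Nat.pow_le_pow_right hp.pos this

theorem chain_of_U (hGN : G ≤ Subgroup.normalizer (N : Set L)) (n : ℕ) (hn : Nat.card N = p ^ n)
    (hU : ∀ H : Subgroup L, H ≤ N → G ≤ Subgroup.normalizer (H : Set L) → H ≠ ⊥ →
      (⁅H, G⁆).relIndex H = p) :
    ∀ i ≤ n, Nat.card (Cfsg.iterCommutator N G i) = p ^ (n - i) := by
  have hp : p.Prime := Fact.out
  intro i
  induction i with
  | zero => intro _; exact hn
  | succ i ih =>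
    intro hi
    have h1 := ih (by omega)
    have hne : Cfsg.iterCommutator N G i ≠ ⊥ := by
      intro h
      rw [h, Subgroup.card_bot] at h1
      have : 1 < p ^ (n - i) := Nat.one_lt_pow (by omega) hp.one_lt
      omega
    have h2 := hU _ (basicA N G hGN i).1 (basicA N G hGN i).2 hne
    have h3 := card_eq_mul_relIndex (succ_le N G hGN i)
    change Nat.card _ = Nat.card _ * (⁅Cfsg.iterCommutator N G i, G⁆).relIndex _ at h3
    rw [h2, h1] at h3
    have h4 : p ^ (n - i) = p ^ (n - (i + 1)) * p := by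
      rw [← pow_succ]; congr 1; omega
    rw [h4] at h3
    exact (Nat.eq_of_mul_eq_mul_right hp.pos h3).symm

theorem chain_of_ne_bot (hN : IsPGroup p N) (hG : IsPGroup p G)
    (hGN : G ≤ Subgroup.normalizer (N : Set L)) (n : ℕ) (hn : Nat.card N = p ^ n) (hn1 : 1 ≤ n)
    (hne : Cfsg.iterCommutator N G (n - 1) ≠ ⊥) :
    ∀ i ≤ n, Nat.card (Cfsg.iterCommutator N G i) = p ^ (n - i) := by
  have hp : p.Prime := Fact.out
  have hpg : ∀ i, IsPGroup p (Cfsg.iterCommutator N G i) := fun i => hN.to_le (basicA N G hGN i).1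
  have hex : ∀ i, ∃ e, Nat.card (Cfsg.iterCommutator N G i) = p ^ e :=
    fun i => IsPGroup.iff_card.mp (hpg i)
  choose e he using hex
  have he0 : e 0 = n := by
    have := he 0
    change Nat.card N = _ at this
    rw [hn] at this
    exact (Nat.pow_right_injective hp.two_le this).symm
  have hstrict : ∀ i < n, e (i + 1) < e i := by
    intro i hi
    have hnei : Cfsg.iterCommutator N G i ≠ ⊥ := by
      intro h
      apply hne
      rw [eq_bot_iff, ← h]
      exact anti N G hGN (by omega)
    have hlt := commutator_lt_of_pgroups (hpg i) hG (basicA N G hGN i).2 hnei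
    have hc : Nat.card (Cfsg.iterCommutator N G (i + 1)) < Nat.card (Cfsg.iterCommutator N G i) :=
      Cfsg.Agent.Lib.Helper1.card_lt_of_lt hlt
    rw [he, he] at hc
    exact (Nat.pow_lt_pow_iff_right hp.one_lt).mp hc
  have hup : ∀ i ≤ n, e i + i ≤ n := by
    intro i
    induction i with
    | zero => intro _; omega
    | succ i ih =>
      intro hi
      have := ih (by omega)
      have := hstrict i (by omega)
      omega
  have hlow : ∀ j i, i + j = n → n ≤ e i + i := by
    intro j
    induction j with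
    | zero => intro i hi; omega
    | succ j ih =>
      intro i hi
      have := ih (i + 1) (by omega)
      have := hstrict i (by omega)
      omega
  intro i hi
  rw [he]
  congr 1
  have := hup i hi
  have := hlow (n - i) i (by omega)
  omega

theorem normal_of_chain (hN : IsPGroup p N) (hG : IsPGroup p G)
    (hGN : G ≤ Subgroup.normalizer (N : Set L)) (n : ℕ)
    (hch : ∀ i ≤ n, Nat.card (Cfsg.iterCommutator N G i) = p ^ (n - i)) :
    ∀ i ≤ n, N ⊔ G ≤ Subgroup.normalizer (Cfsg.iterCommutator N G i : Set L) := by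
  have hp : p.Prime := Fact.out
  have hΓ : IsPGroup p (N ⊔ G : Subgroup L) := hN.to_sup_of_normal_left' hG hGN
  intro i
  induction i with
  | zero => intro _; exact sup_le Subgroup.le_normalizer hGN
  | succ i ih =>
    intro hi
    have h1 := ih (by omega)
    have hA := hch i (by omega)
    have hne : Cfsg.iterCommutator N G i ≠ ⊥ := by
      intro h
      rw [h, Subgroup.card_bot] at hA
      have : 1 < p ^ (n - i) := Nat.one_lt_pow (by omega) hp.one_lt
      omega
    have hpgA : IsPGroup p (Cfsg.iterCommutator N G i) := hN.to_le (basicA N G hGN i).1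
    have hlt := commutator_lt_of_pgroups hpgA hΓ h1 hne
    have hle : Cfsg.iterCommutator N G (i + 1) ≤ ⁅Cfsg.iterCommutator N G i, N ⊔ G⁆ :=
      Subgroup.commutator_mono le_rfl le_sup_right
    have heq : Cfsg.iterCommutator N G (i + 1) = ⁅Cfsg.iterCommutator N G i, N ⊔ G⁆ := by
      apply Subgroup.eq_of_le_of_card_ge hle
      obtain ⟨e, he⟩ := IsPGroup.iff_card.mp (hpgA.to_le hlt.le)
      have hc := Cfsg.Agent.Lib.Helper1.card_lt_of_lt hlt
      rw [he, hA] at hc
      have h2 : e < n - i := (Nat.pow_lt_pow_iff_right hp.one_lt).mp hc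
      rw [he, hch (i + 1) hi]
      exact Nat.pow_le_pow_right hp.pos (by omega)
    rw [heq]
    exact right_le_normalizer_commutator _ _

theorem step_of_chain (hN : IsPGroup p N) (hG : IsPGroup p G)
    (hGN : G ≤ Subgroup.normalizer (N : Set L)) (n : ℕ)
    (hch : ∀ i ≤ n, Nat.card (Cfsg.iterCommutator N G i) = p ^ (n - i))
    (H : Subgroup L) (hHN : H ≤ N) (hGH : G ≤ Subgroup.normalizer (H : Set L))
    (i : ℕ) (hi : i < n) (hHi : H ≤ Cfsg.iterCommutator N G i) :
    H = Cfsg.iterCommutator N G i ∨ H ≤ Cfsg.iterCommutator N G (i + 1) := by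
  have hp : p.Prime := Fact.out
  by_cases hc : H ≤ Cfsg.iterCommutator N G (i + 1)
  · exact Or.inr hc
  left
  have hnorm := normal_of_chain N G hN hG hGN n hch
  have hsup : Cfsg.iterCommutator N G (i + 1) ⊔ H = Cfsg.iterCommutator N G i := by
    have hle : Cfsg.iterCommutator N G (i + 1) ⊔ H ≤ Cfsg.iterCommutator N G i :=
      sup_le (succ_le N G hGN i) hHi
    apply card_eq_of_between (p := p) (k := n - (i + 1))
      (hN.to_le (hle.trans (basicA N G hGN i).1)) ?_ hle
      (by rw [hch i hi.le]; congr 1; omega)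
    rw [← hch (i + 1) hi]
    apply Cfsg.Agent.Lib.Helper1.card_lt_of_lt
    apply lt_of_le_of_ne le_sup_left
    intro h
    apply hc
    rw [h]; exact le_sup_right
  have key : ∀ j, i + 1 ≤ j → j ≤ n →
      Cfsg.iterCommutator N G i ≤ H ⊔ Cfsg.iterCommutator N G j := by
    intro j hj
    induction j, hj using Nat.le_induction with
    | base => intro _; rw [← hsup, sup_comm]
    | succ j hj ih =>
      intro hjn
      have h1 := ih (by omega)
      have h2 : Cfsg.iterCommutator N G (i + 1) ≤ H ⊔ Cfsg.iterCommutator N G (j + 1) := by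
        change ⁅Cfsg.iterCommutator N G i, G⁆ ≤ _
        rw [Subgroup.commutator_le]
        intro x hx g hg
        have hx' := h1 hx
        rw [← SetLike.mem_coe, Subgroup.coe_mul_of_left_le_normalizer_right H _
          (hHN.trans (le_sup_left.trans (hnorm j (by omega))))] at hx'
        obtain ⟨h, hh, d, hd, hhd⟩ := hx'
        have hhd : h * d = x := hhd
        have e1 : ⁅x, g⁆ = (h * ⁅d, g⁆ * h⁻¹) * ⁅h, g⁆ := by
          rw [← hhd]; simp only [commutatorElement_def]; group
        rw [e1]
        apply (H ⊔ Cfsg.iterCommutator N G (j + 1)).mul_mem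
        · apply Subgroup.mem_sup_right
          have hdg : ⁅d, g⁆ ∈ Cfsg.iterCommutator N G (j + 1) :=
            Subgroup.commutator_mem_commutator hd hg
          exact Cfsg.Agent.Lib.Helper1.conj_mem_of_mem_normalizer (hnorm (j + 1) hjn (Subgroup.mem_sup_left (hHN hh))) hdg
        · apply Subgroup.mem_sup_left
          exact Cfsg.Agent.Lib.Helper1.commutator_le_of_le_normalizer hGH (Subgroup.commutator_mem_commutator hh hg)
      rw [← hsup]
      exact sup_le h2 le_sup_left
  have hbot : Cfsg.iterCommutator N G n = ⊥ := by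
    rw [← Subgroup.card_eq_one, hch n le_rfl]; simp
  have := key n hi le_rfl
  rw [hbot, sup_bot_eq] at this
  exact le_antisymm hHi this

theorem exists_eq_of_chain (hN : IsPGroup p N) (hG : IsPGroup p G)
    (hGN : G ≤ Subgroup.normalizer (N : Set L)) (n : ℕ)
    (hch : ∀ i ≤ n, Nat.card (Cfsg.iterCommutator N G i) = p ^ (n - i))
    (H : Subgroup L) (hHN : H ≤ N) (hGH : G ≤ Subgroup.normalizer (H : Set L)) :
    ∃ i ≤ n, H = Cfsg.iterCommutator N G i := by
  by_contra hcon
  push Not at hcon
  have hall : ∀ i ≤ n, H ≤ Cfsg.iterCommutator N G i := by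
    intro i
    induction i with
    | zero => intro _; exact hHN
    | succ i ih =>
      intro hi
      rcases step_of_chain N G hN hG hGN n hch H hHN hGH i (by omega) (ih (by omega)) with h | h
      · exact absurd h (hcon i (by omega))
      · exact h
  have hbot : Cfsg.iterCommutator N G n = ⊥ := by
    rw [← Subgroup.card_eq_one, hch n le_rfl]; simp
  apply hcon n le_rfl
  rw [hbot, eq_bot_iff, ← hbot]
  exact hall n le_rfl

theorem U_of_chain (hN : IsPGroup p N) (hG : IsPGroup p G)
    (hGN : G ≤ Subgroup.normalizer (N : Set L)) (n : ℕ)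
    (hch : ∀ i ≤ n, Nat.card (Cfsg.iterCommutator N G i) = p ^ (n - i))
    (H : Subgroup L) (hHN : H ≤ N) (hGH : G ≤ Subgroup.normalizer (H : Set L)) (hne : H ≠ ⊥) :
    (⁅H, G⁆).relIndex H = p := by
  have hp : p.Prime := Fact.out
  obtain ⟨i, hi, rfl⟩ := exists_eq_of_chain N G hN hG hGN n hch H hHN hGH
  have hbot : Cfsg.iterCommutator N G n = ⊥ := by
    rw [← Subgroup.card_eq_one, hch n le_rfl]; simp
  have hin : i < n := by
    rcases Nat.lt_or_ge i n with h | h
    · exact h
    · have : i = n := le_antisymm hi h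
      rw [this] at hne
      exact absurd hbot hne
  have h3 := card_eq_mul_relIndex (succ_le N G hGN i)
  rw [hch i hi, hch (i + 1) hin] at h3
  have h4 : p ^ (n - i) = p ^ (n - (i + 1)) * p := by
    rw [← pow_succ]; congr 1; omega
  rw [h4] at h3
  exact (Nat.eq_of_mul_eq_mul_left (pow_pos hp.pos _) h3).symm

end aux


/-- A p-group acts uniserially on a p-group N of order p^n exactly when the iterated commutator chain from N has length n; in that case the chain terms are all the invariant subgroups of N and they are normal in N. -/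
theorem result {L : Type*} [Group L] [Finite L] {p : ℕ} [Fact p.Prime] (N G : Subgroup L) (hN : IsPGroup p N) (hG : IsPGroup p G) (hGN : G ≤ Subgroup.normalizer (N : Set L)) (n : ℕ) (hn : Nat.card N = p ^ n) : ((∀ H : Subgroup L, H ≤ N → G ≤ Subgroup.normalizer (H : Set L) → H ≠ ⊥ → (⁅H, G⁆).relIndex H = p) ↔ Cfsg.iterCommutator N G (n - 1) ≠ ⊥ ∨ n = 0) ∧ ((∀ H : Subgroup L, H ≤ N → G ≤ Subgroup.normalizer (H : Set L) → H ≠ ⊥ → (⁅H, G⁆).relIndex H = p) → ∀ H : Subgroup L, H ≤ N → G ≤ Subgroup.normalizer (H : Set L) → (∃ i ≤ n, H = Cfsg.iterCommutator N G i) ∧ N ≤ Subgroup.normalizer (H : Set L)) := by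

  have hp : p.Prime := Fact.out
  refine ⟨⟨?_, ?_⟩, ?_⟩
  · intro hU
    by_cases h0 : n = 0
    · exact Or.inr h0
    left
    have hch := chain_of_U N G hGN n hn hU (n - 1) (by omega)
    intro h
    rw [h, Subgroup.card_bot] at hch
    have : 1 < p ^ (n - (n - 1)) := Nat.one_lt_pow (by omega) hp.one_lt
    omega
  · intro h H hHN hGH hne
    have hn0 : n ≠ 0 := by
      intro h0
      have hNb : N = ⊥ := by
        rw [← Subgroup.card_eq_one, hn, h0, pow_zero]
      apply hne
      rw [eq_bot_iff, ← hNb]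
      exact hHN
    rcases h with h | h
    · exact U_of_chain N G hN hG hGN n
        (chain_of_ne_bot N G hN hG hGN n hn (by omega) h) H hHN hGH hne
    · exact absurd h hn0
  · intro hU H hHN hGH
    have hch := chain_of_U N G hGN n hn hU
    obtain ⟨i, hi, hH⟩ := exists_eq_of_chain N G hN hG hGN n hch H hHN hGH
    refine ⟨⟨i, hi, hH⟩, ?_⟩
    rw [hH]
    exact le_sup_left.trans (normal_of_chain N G hN hG hGN n hch i hi)

end Cfsg.Agent.S0663
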