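import Cfsg.Statements.S0667
import Cfsg.Agent.Lib.Helper9.ZJQuot

set_option autoImplicit false
open Cfsg

namespace Cfsg.Agent.S0667
open Cfsg.Agent.Lib.Helper9

/-- Glauberman's Theorem in the p-constrained, p-stable vocabulary: for odd p such a group is the product of its largest normal subgroup of order prime to p with the normalizer of Z(J(P)), and Z(J(P)) is normal when that p'-subgroup is trivial. -/
theorem result {G : Type*} [Group G] [Finite G] {p : ℕ} [Fact p.Prime] (hp : p ≠ 2) (hc : Cfsg.IsPConstrained p G) (hs : Cfsg.IsPStable p G) (P : Sylow p G) : Cfsg.pPrimeCore p G ⊔ Subgroup.normalizer (Cfsg.centerThompsonAOf ((P : Subgroup G)) : Set G) = ⊤ ∧ (Cfsg.pPrimeCore p G = ⊥ → (Cfsg.centerThompsonAOf ((P : Subgroup G))).Normal) := by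
  have h1 := zj_factor_A hp P P (isStronglyClosed_self _) (relStable_of_isPStable hs P) hc
  refine ⟨h1, fun h0 => ?_⟩
  rw [h0, bot_sup_eq] at h1
  exact Subgroup.normalizer_eq_top_iff.mp h1

end Cfsg.Agent.S0667
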