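import Cfsg.Statements.S0668
import Mathlib

set_option autoImplicit false
open Cfsg

namespace Cfsg.Agent.S0668

/-- The equivariant linear maps between the permutation modules of two finite `G`-sets form a space whose dimension is the number of `G`-orbits on the product of the two sets. -/
theorem result {G : Type*} [Group G] {K : Type*} [Field K] {Ω₁ Ω₂ : Type*} [Fintype Ω₁] [Fintype Ω₂] [MulAction G Ω₁] [MulAction G Ω₂] : Module.finrank K ((Cfsg.permRep K G Ω₁).linHom (Cfsg.permRep K G Ω₂)).invariants = Nat.card (MulAction.orbitRel.Quotient G (Ω₁ × Ω₂)) := by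
  classical
  set Q := MulAction.orbitRel.Quotient G (Ω₁ × Ω₂) with hQ
  haveI : Finite Q := Quotient.finite _
  haveI : Fintype Q := Fintype.ofFinite Q
  let mkQ : Ω₁ × Ω₂ → Q := Quotient.mk''
  have hmk : ∀ (g : G) (x : Ω₁) (y : Ω₂), mkQ (g • x, g • y) = mkQ (x, y) := by
    intro g x y
    apply Quotient.sound'
    exact ⟨g, rfl⟩
  let Φ : (Q → K) →ₗ[K] ((Ω₁ → K) →ₗ[K] (Ω₂ → K)) :=
    { toFun := fun c => Matrix.toLin' (Matrix.of fun y x => c (mkQ (x, y)))
      map_add' := by
        intro c d
        rw [← map_add]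
        rfl
      map_smul' := by
        intro r c
        rw [RingHom.id_apply, ← map_smul]
        rfl }
  have hΦ : ∀ c f y, Φ c f y = ∑ x, c (mkQ (x, y)) * f x := by
    intro c f y
    rfl
  have hinj : Function.Injective Φ := by
    intro c d hcd
    funext q
    induction q using Quotient.inductionOn' with | _ z => ?_
    obtain ⟨x, y⟩ := z
    have := congrFun (congrArg (fun T => T (Pi.single x 1)) hcd) y
    simp only [hΦ, Pi.single_apply, mul_ite, mul_one, mul_zero, Finset.sum_ite_eq', Finset.mem_univ, if_true] at this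
    exact this
  have hrange : LinearMap.range Φ = ((Cfsg.permRep K G Ω₁).linHom (Cfsg.permRep K G Ω₂)).invariants := by
    apply le_antisymm
    · rintro _ ⟨c, rfl⟩
      rw [Representation.mem_invariants]
      intro g
      rw [Representation.linHom_apply]
      apply LinearMap.ext
      intro f
      funext y
      show Φ c (fun x => f ((g⁻¹)⁻¹ • x)) (g⁻¹ • y) = Φ c f y
      rw [hΦ, hΦ, inv_inv]
      refine Fintype.sum_equiv (MulAction.toPerm g) _ _ ?_
      intro x
      show c (mkQ (x, g⁻¹ • y)) * f (g • x) = c (mkQ (g • x, y)) * f (g • x)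
      rw [← hmk g x (g⁻¹ • y), smul_inv_smul]
    · intro T hT
      rw [Representation.mem_invariants] at hT
      have hT' : ∀ (g : G) (x : Ω₁) (y : Ω₂), T (Pi.single (g • x) 1) (g • y) = T (Pi.single x 1) y := by
        intro g x y
        have := hT g⁻¹
        rw [Representation.linHom_apply] at this
        have h2 := congrFun (congrArg (fun S => S (Pi.single x 1)) this) y
        rw [← h2]
        show _ = T (fun z => (Pi.single x 1 : Ω₁ → K) (((g⁻¹)⁻¹)⁻¹ • z)) ((g⁻¹)⁻¹ • y)
        rw [inv_inv, inv_inv]
        have e : (Pi.single (g • x) 1 : Ω₁ → K) = fun z => (Pi.single x 1 : Ω₁ → K) (g⁻¹ • z) := by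
          funext z
          simp only [Pi.single_apply]
          congr 1
          rw [eq_iff_iff, inv_smul_eq_iff]
        rw [e]
      let c : Q → K := Quotient.lift (s := MulAction.orbitRel G (Ω₁ × Ω₂)) (fun z => T (Pi.single z.1 1) z.2) (by
        rintro ⟨x, y⟩ ⟨x', y'⟩ ⟨g, hg⟩
        have hg' : (g • x', g • y') = (x, y) := hg
        obtain ⟨h1, h2⟩ := Prod.mk.inj hg'
        show T (Pi.single x 1) y = T (Pi.single x' 1) y'
        rw [← h1, ← h2, hT'])
      refine ⟨c, ?_⟩
      apply LinearMap.pi_ext'
      intro x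
      apply LinearMap.ext_ring
      funext y
      show Φ c (Pi.single x 1) y = T (Pi.single x 1) y
      rw [hΦ]
      simp only [Pi.single_apply, mul_ite, mul_one, mul_zero, Finset.sum_ite_eq', Finset.mem_univ, if_true]
      rfl
  rw [← hrange, LinearMap.finrank_range_of_inj hinj, Module.finrank_fintype_fun_eq_card, Nat.card_eq_fintype_card]

end Cfsg.Agent.S0668
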