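import Cfsg.Statements.S0669
import Mathlib

set_option autoImplicit false
open Cfsg

namespace Cfsg.Agent.S0669

/-- The rank of a transitive action: orbits on ordered pairs correspond to orbits of a point stabiliser. -/
theorem result {G : Type*} [Group G] {Ω : Type*} [Finite Ω] [MulAction G Ω] [MulAction.IsPretransitive G Ω] (a : Ω) : Nat.card (MulAction.orbitRel.Quotient G (Ω × Ω)) = Nat.card (MulAction.orbitRel.Quotient (MulAction.stabilizer G a) Ω) := by
  classical
  symm
  let f : MulAction.orbitRel.Quotient (MulAction.stabilizer G a) Ω → MulAction.orbitRel.Quotient G (Ω × Ω) :=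
    Quotient.map' (s₁ := MulAction.orbitRel (MulAction.stabilizer G a) Ω) (s₂ := MulAction.orbitRel G (Ω × Ω))
      (fun x => (a, x)) (by
        intro x y hxy
        obtain ⟨g, hg⟩ := hxy
        refine ⟨g.1, ?_⟩
        have h1 : g.1 • a = a := g.2
        have h2 : g.1 • y = x := hg
        show (g.1 • a, g.1 • y) = (a, x)
        rw [h1, h2])
  apply Nat.card_congr (Equiv.ofBijective f ⟨?_, ?_⟩)
  · intro x y
    induction x using Quotient.inductionOn' with | _ x => ?_
    induction y using Quotient.inductionOn' with | _ y => ?_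
    intro h
    have h' := Quotient.exact' h
    obtain ⟨g, hg⟩ := h'
    have hg' : (g • a, g • y) = (a, x) := hg
    apply Quotient.sound'
    refine ⟨⟨g, (Prod.mk.inj hg').1⟩, (Prod.mk.inj hg').2⟩
  · intro z
    induction z using Quotient.inductionOn' with | _ z => ?_
    obtain ⟨u, v⟩ := z
    obtain ⟨g, hg⟩ := MulAction.exists_smul_eq G u a
    refine ⟨Quotient.mk'' (g • v), ?_⟩
    apply Quotient.sound'
    refine ⟨g, ?_⟩
    show (g • u, g • v) = (a, g • v)
    rw [hg]

end Cfsg.Agent.S0669
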