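import Cfsg.Statements.S0670
import Mathlib
import Cfsg.Agent.Lib.Helper1.SylowSystem

set_option autoImplicit false
open Cfsg

namespace Cfsg.Agent.S0670

/-- In characteristic `p`, the permutation module of a transitive action of degree `p ^ f` has the line of constant functions as its only irreducible submodule: every non-zero subrepresentation contains it. -/
theorem result {G : Type*} [Group G] [Finite G] {K : Type*} [Field K] {p f : ℕ} [Fact p.Prime] [CharP K p] {Ω : Type*} [Fintype Ω] [MulAction G Ω] [MulAction.IsPretransitive G Ω] (hf : 1 ≤ f) (hcard : Fintype.card Ω = p ^ f) (W : Subrepresentation (Cfsg.permRep K G Ω)) (hW : W.toSubmodule ≠ ⊥) : (Cfsg.permConstants K G Ω).toSubmodule ≤ W.toSubmodule := by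
  classical
  obtain ⟨P⟩ : Nonempty (Sylow p G) := inferInstance
  let ρ := Cfsg.permRep K G Ω
  -- P is transitive
  have htrans : ∀ x y : Ω, ∃ g ∈ (P : Subgroup G), g • x = y := by
    intro x y
    obtain ⟨g, hg⟩ := MulAction.exists_smul_eq G x y
    have hidx : (MulAction.stabilizer G x).index = p ^ f := by
      rw [MulAction.index_stabilizer, MulAction.orbit_eq_univ, Set.ncard_univ, Nat.card_eq_fintype_card, hcard]
    have hcop : (P : Subgroup G).index.Coprime (MulAction.stabilizer G x).index := by
      rw [hidx]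
      apply Nat.Coprime.pow_right
      rw [Nat.coprime_comm, Nat.Prime.coprime_iff_not_dvd Fact.out]
      exact P.not_dvd_index
    obtain ⟨a, ha, b, hb, hab⟩ := Cfsg.Agent.Lib.Helper1.exists_mul_of_coprime_index _ _ hcop g
    refine ⟨a, ha, ?_⟩
    rw [← hg, hab, mul_smul]
    congr 1
    exact hb.symm
  obtain ⟨w, hw, hw0⟩ := (Submodule.ne_bot_iff _).mp hW
  letI act : MulAction P (Ω → K) := MulAction.compHom (Ω → K) (ρ.comp (P : Subgroup G).subtype)
  have hact : ∀ (g : P) (v : Ω → K), g • v = ρ g.1 v := fun g v => rfl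
  let S : Set (Ω → K) := Set.range fun g : P => g • w
  let M : AddSubgroup (Ω → K) := AddSubgroup.closure S
  have hMW : ∀ m ∈ M, m ∈ W.toSubmodule := by
    intro m hm
    have : M ≤ W.toSubmodule.toAddSubgroup := by
      rw [AddSubgroup.closure_le]
      rintro _ ⟨g, rfl⟩
      exact W.apply_mem_toSubmodule g.1 hw
    exact this hm
  have hMinv : ∀ (g : P), ∀ m ∈ M, g • m ∈ M := by
    intro g m hm
    induction hm using AddSubgroup.closure_induction with
    | mem x hx =>
      obtain ⟨h, rfl⟩ := hx
      apply AddSubgroup.subset_closure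
      exact ⟨g * h, mul_smul g h w⟩
    | zero => rw [hact, map_zero]; exact M.zero_mem
    | add x y _ _ hx hy => rw [hact, map_add]; exact M.add_mem hx hy
    | neg x _ hx => rw [hact, map_neg]; exact M.neg_mem hx
  let M' : SubMulAction P (Ω → K) := { carrier := M, smul_mem' := fun g m hm => hMinv g m hm }
  have hpz : ∀ v : Ω → K, p • v = 0 := by
    intro v
    funext x
    simp [CharP.cast_eq_zero K p]
  haveI hfin : Finite M := by
    haveI : AddGroup.FG M := by
      rw [AddGroup.fg_iff_addSubgroup_fg]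
      have hSfin : S.Finite := Set.finite_range _
      exact ⟨hSfin.toFinset, by rw [Set.Finite.coe_toFinset]⟩
    apply AddCommGroup.finite_of_fg_torsion
    intro m
    rw [isOfFinAddOrder_iff_nsmul_eq_zero]
    exact ⟨p, (Fact.out : p.Prime).pos, Subtype.ext (hpz m.1)⟩
  haveI hfin' : Finite M' := hfin
  have hwM : w ∈ M := AddSubgroup.subset_closure ⟨1, one_smul _ w⟩
  have hdvd : p ∣ Nat.card M' := by
    have h1 : addOrderOf (⟨w, hwM⟩ : M) = p := by
      apply addOrderOf_eq_prime
      · exact Subtype.ext (hpz w)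
      · intro h
        exact hw0 (congrArg Subtype.val h)
    have h2 := addOrderOf_dvd_natCard (⟨w, hwM⟩ : M)
    rw [h1] at h2
    exact h2
  have hzero : (⟨0, M.zero_mem⟩ : M') ∈ MulAction.fixedPoints P M' := by
    intro g
    apply Subtype.ext
    show g • (0 : Ω → K) = 0
    rw [hact, map_zero]
  obtain ⟨b, hb, hb0⟩ := P.isPGroup'.exists_fixed_point_of_prime_dvd_card_of_fixed_point M' hdvd hzero
  have hbfix : ∀ g ∈ (P : Subgroup G), ρ g b.1 = b.1 := by
    intro g hg
    exact congrArg Subtype.val (hb ⟨g, hg⟩)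
  have hbne : b.1 ≠ 0 := fun h => hb0 (Subtype.ext h.symm)
  have hbconst : ∀ x y, b.1 x = b.1 y := by
    intro x y
    obtain ⟨g, hg, hgxy⟩ := htrans x y
    have := congrFun (hbfix g hg) y
    have h2 : ρ g b.1 y = b.1 (g⁻¹ • y) := rfl
    rw [h2, ← hgxy, inv_smul_smul] at this
    rw [← hgxy]; exact this
  obtain ⟨a, ha⟩ : ∃ a, b.1 a ≠ 0 := by
    by_contra hcon
    push Not at hcon
    exact hbne (funext hcon)
  show Submodule.span K {fun _ => 1} ≤ W.toSubmodule
  rw [Submodule.span_singleton_le_iff_mem]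
  have : (fun _ => 1 : Ω → K) = (b.1 a)⁻¹ • b.1 := by
    funext x
    simp [hbconst x a, ha]
  rw [this]
  exact W.toSubmodule.smul_mem _ (hMW _ b.2)

end Cfsg.Agent.S0670
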