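import Cfsg.Statements.S0671
import Cfsg.Agent.S0670
import Mathlib

set_option autoImplicit false
open Cfsg

namespace Cfsg.Agent.S0671

theorem permRep_apply {K : Type*} [CommSemiring K] {G : Type*} [Group G] {Ω : Type*} [MulAction G Ω]
    (g : G) (f : Ω → K) (x : Ω) : permRep K G Ω g f x = f (g⁻¹ • x) := rfl

/-- an invariant subspace containing a vector with nonzero sum is everything. -/
theorem top_of_sum_ne {G : Type*} [Group G] [Finite G] {K : Type*} [Field K] {p f : ℕ}
    [Fact p.Prime] [CharP K p] {Ω : Type*} [Fintype Ω] [MulAction G Ω]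
    [MulAction.IsPretransitive G Ω] (hf : 1 ≤ f) (hcard : Fintype.card Ω = p ^ f)
    (N : Submodule K (Ω → K)) (hN : ∀ g : G, ∀ v ∈ N, permRep K G Ω g v ∈ N) (m : Ω → K)
    (hm : m ∈ N) (hs : ∑ x, m x ≠ 0) : N = ⊤ := by
  classical
  by_contra hne
  obtain ⟨φ, hφ0, hφ⟩ := Submodule.exists_le_ker_of_lt_top N (lt_top_iff_ne_top.mpr hne)
  let Np : Subrepresentation (permRep K G Ω) :=
    { toSubmodule :=
        { carrier := {l | ∀ w ∈ N, ∑ x, l x * w x = 0}
          add_mem' := by
            intro a b ha hb w hw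
            simp only [Pi.add_apply, add_mul, Finset.sum_add_distrib]
            rw [ha w hw, hb w hw, add_zero]
          zero_mem' := by intro w _; simp
          smul_mem' := by
            intro c a ha w hw
            simp only [Pi.smul_apply, smul_eq_mul, mul_assoc, ← Finset.mul_sum]
            rw [ha w hw, mul_zero] }
      apply_mem_toSubmodule := by
        intro g l hl w hw
        have h1 := hl _ (hN g⁻¹ w hw)
        rw [← h1]
        exact Fintype.sum_equiv (MulAction.toPerm g⁻¹) _ _ (fun x => by simp [permRep_apply]) }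
  have hexp : ∀ w : Ω → K, φ w = ∑ x, (φ fun j => if x = j then 1 else 0) * w x := by
    intro w
    rw [LinearMap.pi_apply_eq_sum_univ φ w]
    exact Finset.sum_congr rfl (fun x _ => by rw [smul_eq_mul, mul_comm])
  have hl : (fun x => φ fun j => if x = j then 1 else 0) ∈ Np.toSubmodule := by
    intro w hw
    have := hφ hw
    rw [LinearMap.mem_ker, hexp w] at this
    exact this
  have hNp : Np.toSubmodule ≠ ⊥ := by
    intro hbot
    rw [hbot, Submodule.mem_bot] at hl
    apply hφ0
    refine LinearMap.ext fun w => ?_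
    rw [hexp w]
    simp only [LinearMap.zero_apply]
    apply Finset.sum_eq_zero
    intro x _
    rw [congrFun hl x]; simp
  have hC := Cfsg.Agent.S0670.result hf hcard Np hNp
  have h1 : (fun _ : Ω => (1 : K)) ∈ Np.toSubmodule := hC (Submodule.mem_span_singleton_self _)
  have h2 := h1 m hm
  simp only [one_mul] at h2
  exact hs h2



/-- If the heart of the permutation module in characteristic `p` of a transitive action of degree `p ^ f` has no trivial composition factor, the action is doubly transitive. The hypothesis is phrased without composition series: no invariant subspaces `W < W'` between the constants and the sum-zero functions with trivial action on the quotient. -/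
theorem result {G : Type*} [Group G] [Finite G] {K : Type*} [Field K] {p f : ℕ} [Fact p.Prime] [CharP K p] {Ω : Type*} [Fintype Ω] [MulAction G Ω] [MulAction.IsPretransitive G Ω] (hf : 1 ≤ f) (hcard : Fintype.card Ω = p ^ f) (h : ∀ W W' : Subrepresentation (Cfsg.permRep K G Ω), (Cfsg.permConstants K G Ω).toSubmodule ≤ W.toSubmodule → W.toSubmodule < W'.toSubmodule → W'.toSubmodule ≤ (Cfsg.permSumZero K G Ω).toSubmodule → ∃ g : G, ∃ v ∈ W'.toSubmodule, Cfsg.permRep K G Ω g v - v ∉ W.toSubmodule) : MulAction.IsMultiplyPretransitive G Ω 2 := by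
  classical
  by_contra h2
  rw [MulAction.is_two_pretransitive_iff] at h2
  push Not at h2
  obtain ⟨a, b, c, d, hab, hcd, hno⟩ := h2
  obtain ⟨R, hR⟩ : ∃ R : Ω → Ω → Prop, R = fun x y => ∃ g : G, g • a = x ∧ g • b = y := ⟨_, rfl⟩
  have hRinv : ∀ (g : G) x y, R (g • x) (g • y) ↔ R x y := by
    intro g x y
    rw [hR]
    constructor
    · rintro ⟨k, h1, h2⟩
      exact ⟨g⁻¹ * k, by rw [mul_smul, h1, inv_smul_smul], by rw [mul_smul, h2, inv_smul_smul]⟩
    · rintro ⟨k, h1, h2⟩
      exact ⟨g * k, by rw [mul_smul, h1], by rw [mul_smul, h2]⟩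
  have hRab : R a b := by rw [hR]; exact ⟨1, one_smul _ _, one_smul _ _⟩
  have hRcd : ¬ R c d := by
    rw [hR]; rintro ⟨g, h1, h2⟩; exact hno g h1 h2
  obtain ⟨deg, hdegdef⟩ : ∃ deg : Ω → K, deg = fun y => ∑ x, if R x y then 1 else 0 := ⟨_, rfl⟩
  have hdeg : ∀ (g : G) y, deg (g • y) = deg y := by
    intro g y
    rw [hdegdef]
    symm
    exact Fintype.sum_equiv (MulAction.toPerm g) _ _ (fun x => by simp [hRinv])
  have hdegc : ∀ y, deg y = deg a := by
    intro y
    obtain ⟨g, rfl⟩ := MulAction.exists_smul_eq G a y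
    exact hdeg g a
  let φ : (Ω → K) →ₗ[K] (Ω → K) :=
    { toFun := fun v x => (∑ y, if R x y then v y else 0) - deg a * v x
      map_add' := by
        intro v w
        ext x
        simp only [Pi.add_apply]
        have : ∀ y, (if R x y then v y + w y else 0) = (if R x y then v y else 0) + (if R x y then w y else 0) := by
          intro y; split_ifs <;> simp
        simp only [this, Finset.sum_add_distrib]
        ring
      map_smul' := by
        intro r v
        ext x
        simp only [Pi.smul_apply, smul_eq_mul, RingHom.id_apply]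
        have : ∀ y, (if R x y then r * v y else 0) = r * (if R x y then v y else 0) := by
          intro y; split_ifs <;> simp
        simp only [this, ← Finset.mul_sum]
        ring }
  have hφ : ∀ v x, φ v x = (∑ y, if R x y then v y else 0) - deg a * v x := fun _ _ => rfl
  have hφsum : ∀ v, ∑ x, φ v x = 0 := by
    intro v
    simp only [hφ, Finset.sum_sub_distrib]
    rw [Finset.sum_comm, ← Finset.mul_sum, sub_eq_zero, Finset.mul_sum]
    apply Finset.sum_congr rfl
    intro y _
    rw [← hdegc y, hdegdef]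
    simp only [Finset.sum_mul]
    apply Finset.sum_congr rfl
    intro x _
    split_ifs <;> simp
  have hφeq : ∀ (g : G) v, φ (permRep K G Ω g v) = permRep K G Ω g (φ v) := by
    intro g v
    ext x
    rw [permRep_apply, hφ, hφ, permRep_apply]
    congr 1
    exact Fintype.sum_equiv (MulAction.toPerm g⁻¹) _ _ (fun y => by simp [hRinv, permRep_apply])
  have hmemS : ∀ v : Ω → K, v ∈ (permSumZero K G Ω).toSubmodule ↔ ∑ x, v x = 0 := fun _ => Iff.rfl
  have hsumρ : ∀ (g : G) (v : Ω → K), ∑ x, permRep K G Ω g v x = ∑ x, v x := by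
    intro g v
    exact Fintype.sum_equiv (MulAction.toPerm g⁻¹) _ _ (fun x => by simp [permRep_apply])
  have hCS : (permConstants K G Ω).toSubmodule ≤ (permSumZero K G Ω).toSubmodule := by
    change Submodule.span K {fun _ => 1} ≤ _
    rw [Submodule.span_le, Set.singleton_subset_iff, SetLike.mem_coe, hmemS]
    simp only [Finset.sum_const, Finset.card_univ, hcard, nsmul_eq_mul, mul_one, Nat.cast_pow,
      CharP.cast_eq_zero]
    exact zero_pow (by omega)
  have hCfix : ∀ (g : G) w, w ∈ (permConstants K G Ω).toSubmodule → permRep K G Ω g w = w := by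
    intro g w hw
    obtain ⟨r, rfl⟩ := Submodule.mem_span_singleton.mp hw
    ext x
    simp [permRep_apply]
  let W' : Subrepresentation (permRep K G Ω) :=
    { toSubmodule := LinearMap.range φ ⊔ (permConstants K G Ω).toSubmodule
      apply_mem_toSubmodule := by
        intro g v hv
        obtain ⟨_, ⟨m, rfl⟩, w, hw, rfl⟩ := Submodule.mem_sup.mp hv
        rw [map_add, ← hφeq]
        exact Submodule.add_mem_sup ⟨_, rfl⟩ ((permConstants K G Ω).apply_mem_toSubmodule g hw) }
  let W : Subrepresentation (permRep K G Ω) :=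
    { toSubmodule := (permSumZero K G Ω).toSubmodule.map φ ⊔ (permConstants K G Ω).toSubmodule
      apply_mem_toSubmodule := by
        intro g v hv
        obtain ⟨_, ⟨m, hm, rfl⟩, w, hw, rfl⟩ := Submodule.mem_sup.mp hv
        rw [map_add, ← hφeq]
        exact Submodule.add_mem_sup ⟨_, (permSumZero K G Ω).apply_mem_toSubmodule g hm, rfl⟩
          ((permConstants K G Ω).apply_mem_toSubmodule g hw) }
  have hWW' : W.toSubmodule ≤ W'.toSubmodule :=
    sup_le_sup_right (LinearMap.map_le_range) _
  have hW'S : W'.toSubmodule ≤ (permSumZero K G Ω).toSubmodule := by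
    refine sup_le ?_ hCS
    rintro _ ⟨m, rfl⟩
    exact (hmemS _).mpr (hφsum m)
  have hnlt : ¬ W.toSubmodule < W'.toSubmodule := by
    intro hlt
    obtain ⟨g, v, hv, hnot⟩ := h W W' le_sup_right hlt hW'S
    apply hnot
    obtain ⟨_, ⟨m, rfl⟩, w, hw, rfl⟩ := Submodule.mem_sup.mp hv
    rw [map_add, hCfix g w hw, ← hφeq, add_sub_add_right_eq_sub, ← map_sub]
    refine Submodule.mem_sup_left ⟨_, ?_, rfl⟩
    rw [SetLike.mem_coe, hmemS]
    simp only [Pi.sub_apply, Finset.sum_sub_distrib, hsumρ, sub_self]
  have hW'W : W'.toSubmodule ≤ W.toSubmodule := by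
    by_contra hcon
    exact hnlt (lt_of_le_not_ge hWW' hcon)
  have h3 : φ (Pi.single a 1) ∈ W.toSubmodule := hW'W (Submodule.mem_sup_left ⟨_, rfl⟩)
  obtain ⟨_, ⟨s, hs, rfl⟩, w, hw, heq⟩ := Submodule.mem_sup.mp h3
  obtain ⟨c0, rfl⟩ := Submodule.mem_span_singleton.mp hw
  rw [SetLike.mem_coe, hmemS] at hs
  let J : (Ω → K) →ₗ[K] (Ω → K) :=
    { toFun := fun v _ => ∑ y, v y
      map_add' := by intro v w; ext x; simp [Finset.sum_add_distrib]
      map_smul' := by intro r v; ext x; simp [Finset.mul_sum] }
  have hJ : ∀ v x, J v x = ∑ y, v y := fun _ _ => rfl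
  have hker : LinearMap.ker (φ - c0 • J) = ⊤ := by
    apply top_of_sum_ne (G := G) hf hcard _ _ (Pi.single a 1 - s)
    · rw [LinearMap.mem_ker]
      ext x
      simp only [LinearMap.sub_apply, LinearMap.smul_apply, map_sub, Pi.sub_apply, Pi.smul_apply,
        hJ, smul_eq_mul, Pi.zero_apply, hs, sub_zero]
      rw [← heq]
      simp
    · simp only [Pi.sub_apply, Finset.sum_sub_distrib, hs, sub_zero]
      simp
    · intro g v hv
      rw [LinearMap.mem_ker] at hv ⊢
      ext x
      have h4 := congrFun hv (g⁻¹ • x)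
      simp only [LinearMap.sub_apply, LinearMap.smul_apply, Pi.sub_apply, Pi.smul_apply, hJ,
        smul_eq_mul, Pi.zero_apply] at h4 ⊢
      rw [hφeq, permRep_apply, hsumρ]
      exact h4
  have hzero : ∀ v x, φ v x - c0 * ∑ y, v y = 0 := by
    intro v x
    have h4 : v ∈ LinearMap.ker (φ - c0 • J) := by rw [hker]; trivial
    rw [LinearMap.mem_ker] at h4
    have h5 := congrFun h4 x
    simpa only [LinearMap.sub_apply, LinearMap.smul_apply, Pi.sub_apply, Pi.smul_apply, hJ,
      smul_eq_mul, Pi.zero_apply] using h5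
  have e1 := hzero (Pi.single b 1) a
  have e2 := hzero (Pi.single d 1) c
  rw [hφ] at e1 e2
  have s1 : (∑ y, if R a y then (Pi.single b (1 : K) : Ω → K) y else 0) = 1 := by
    rw [Finset.sum_eq_single b]
    · simp [hRab]
    · intro y _ hy; simp [Pi.single_eq_of_ne hy]
    · intro hb; exact absurd (Finset.mem_univ b) hb
  have s2 : (∑ y, if R c y then (Pi.single d (1 : K) : Ω → K) y else 0) = 0 := by
    apply Finset.sum_eq_zero
    intro y _
    by_cases hy : y = d
    · subst hy; simp [hRcd]
    · simp [Pi.single_eq_of_ne hy]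
  rw [s1, Pi.single_eq_of_ne hab] at e1
  rw [s2, Pi.single_eq_of_ne hcd] at e2
  simp at e1 e2
  rw [e2] at e1
  simp at e1

end Cfsg.Agent.S0671
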