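import Cfsg.Statements.S0672
import Mathlib
import Cfsg.Agent.Lib.Helper5.Heart3

set_option autoImplicit false
open Cfsg

namespace Cfsg.Agent.S0672

open MulAction Pointwise Cfsg.Agent.H5Heart3

/-- Let a finite group act faithfully and doubly transitively with point stabilisers of even order, and let `K` have characteristic `p` dividing the degree. If the heart of the permutation module admits no non-zero equivariant map to the permutation module on unordered pairs (phrased: every intertwining map from the sum-zero functions vanishing on the constants is zero), the action is triply transitive. -/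
theorem result {G : Type*} [Group G] [Finite G] {K : Type*} [Field K] {p : ℕ} [Fact p.Prime] [CharP K p] {Ω : Type*} [Fintype Ω] [DecidableEq Ω] [MulAction G Ω] [FaithfulSMul G Ω] (h2 : MulAction.IsMultiplyPretransitive G Ω 2) (hp : p ∣ Fintype.card Ω) (heven : ∀ a : Ω, Even (Nat.card (MulAction.stabilizer G a))) (h : ∀ f : Representation.IntertwiningMap (Cfsg.permSumZero K G Ω).toRepresentation (Cfsg.permRep K G (Set.powersetCard Ω 2)), (∀ v : (Cfsg.permSumZero K G Ω).toSubmodule, (v : Ω → K) ∈ (Cfsg.permConstants K G Ω).toSubmodule → f v = 0) → f = 0) : MulAction.IsMultiplyPretransitive G Ω 3 := by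
  classical
  have htr : IsPretransitive G (Set.powersetCard Ω 2) :=
    Set.powersetCard.isPretransitive_of_isMultiplyPretransitive G h2
  have hk := kernel_const (G := G) (K := K) (Ω := Ω) h
  have hpp := trans_point_pair (G := G) (K := K) (Ω := Ω) htr hk
  refine ⟨fun x y => ?_⟩
  obtain ⟨a, ha⟩ : ∃ a, a = x 0 := ⟨_, rfl⟩
  haveI : Fact (Nat.Prime 2) := ⟨Nat.prime_two⟩
  obtain ⟨t, ht⟩ := exists_prime_orderOf_dvd_card' (G := stabilizer G a) 2 (heven a).two_dvd
  have hta : (t : G) • a = a := t.2
  have ht1 : (t : G) ≠ 1 := by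
    intro h1
    have : t = 1 := Subtype.ext h1
    rw [this, orderOf_one] at ht
    norm_num at ht
  have ht2 : (t : G) * (t : G) = 1 := by
    have : t ^ 2 = 1 := by rw [← ht]; exact pow_orderOf_eq_one t
    have h2' := congrArg Subtype.val this
    rw [pow_two] at h2'
    exact h2'
  obtain ⟨c, hc⟩ : ∃ c : Ω, (t : G) • c ≠ c := by
    by_contra hcon
    push Not at hcon
    exact ht1 (FaithfulSMul.eq_of_smul_eq_smul (α := Ω) (fun z => by rw [hcon z, one_smul]))
  obtain ⟨d, hd⟩ : ∃ d, d = (t : G) • c := ⟨_, rfl⟩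
  have htd : (t : G) • d = c := by rw [hd, ← mul_smul, ht2, one_smul]
  have hcd : c ≠ d := by rw [hd]; exact hc.symm
  have hac : a ≠ c := by
    intro h1; apply hc; rw [← h1]; exact hta
  have had : a ≠ d := by
    intro h1
    apply hac
    rw [← htd, ← h1, hta]
  let P0 : Set.powersetCard Ω 2 := ⟨{c, d}, Finset.card_pair hcd⟩
  have h0 : a ∉ P0.val := by
    show a ∉ ({c, d} : Finset Ω)
    simp [hac, had]
  have key : ∀ z : Fin 3 ↪ Ω, ∃ g : G, g • a = z 0 ∧ g • c = z 1 ∧ g • d = z 2 := by
    intro z
    have z01 : z 0 ≠ z 1 := fun h1 => by simpa using z.injective h1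
    have z02 : z 0 ≠ z 2 := fun h1 => by simpa using z.injective h1
    have z12 : z 1 ≠ z 2 := fun h1 => by simpa using z.injective h1
    let P1 : Set.powersetCard Ω 2 := ⟨{z 1, z 2}, Finset.card_pair z12⟩
    have h1 : z 0 ∉ P1.val := by
      show z 0 ∉ ({z 1, z 2} : Finset Ω)
      simp [z01, z02]
    obtain ⟨g, g1, g2⟩ := hpp a P0 h0 (z 0) P1 h1
    have g3 : g • ({c, d} : Finset Ω) = {z 1, z 2} := by
      have := congrArg Subtype.val g2
      rw [Set.powersetCard.coe_smul] at this
      exact this
    have gc : g • c ∈ ({z 1, z 2} : Finset Ω) := by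
      rw [← g3]; exact Finset.smul_mem_smul_finset (by simp)
    have gd : g • d ∈ ({z 1, z 2} : Finset Ω) := by
      rw [← g3]; exact Finset.smul_mem_smul_finset (by simp)
    simp only [Finset.mem_insert, Finset.mem_singleton] at gc gd
    have gne : g • c ≠ g • d := fun h => hcd (smul_left_cancel g h)
    rcases gc with gc | gc <;> rcases gd with gd | gd
    · exact absurd (gc.trans gd.symm) gne
    · exact ⟨g, g1, gc, gd⟩
    · refine ⟨g * t, ?_, ?_, ?_⟩
      · rw [mul_smul, hta, g1]
      · rw [mul_smul, ← hd, gd]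
      · rw [mul_smul, htd, gc]
    · exact absurd (gc.trans gd.symm) gne
  obtain ⟨gx, x0, x1, x2⟩ := key x
  obtain ⟨gy, y0, y1, y2⟩ := key y
  refine ⟨gy * gx⁻¹, ?_⟩
  ext i
  show (gy * gx⁻¹) • x i = y i
  rw [mul_smul]
  fin_cases i
  · show gy • gx⁻¹ • x 0 = y 0
    rw [← x0, inv_smul_smul, y0]
  · show gy • gx⁻¹ • x 1 = y 1
    rw [← x1, inv_smul_smul, y1]
  · show gy • gx⁻¹ • x 2 = y 2
    rw [← x2, inv_smul_smul, y2]

end Cfsg.Agent.S0672
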