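import Cfsg.Statements.S0673
import Mathlib
import Cfsg.Agent.Lib.Helper14.Nilp

set_option autoImplicit false
open Cfsg

namespace Cfsg.Agent.S0673

open Polynomial in
theorem deg_shift {K : Type*} [Field K] (P : K[X]) (r : ℕ) (h : P.degree < (r + 1 : ℕ)) :
    (P.comp (X - 1) - P).degree < (r : ℕ) := by
  by_cases hP : P = 0
  · subst hP
    simp only [zero_comp, sub_zero, degree_zero]
    exact WithBot.bot_lt_coe r
  have hX : (X - 1 : K[X]).natDegree = 1 := by
    have : (X - 1 : K[X]) = X - C 1 := by simp
    rw [this, natDegree_X_sub_C]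
  have hXl : (X - 1 : K[X]).leadingCoeff = 1 := by
    have : (X - 1 : K[X]) = X - C 1 := by simp
    rw [this, leadingCoeff_X_sub_C]
  have h1 : (P.comp (X - 1)).natDegree = P.natDegree := by
    rw [natDegree_comp, hX, mul_one]
  have h2 : (P.comp (X - 1)).leadingCoeff = P.leadingCoeff := by
    rw [leadingCoeff_comp (by rw [hX]; exact one_ne_zero), hXl, one_pow, mul_one]
  have h0 : P.comp (X - 1) ≠ 0 := by
    intro h
    rw [h, leadingCoeff_zero] at h2
    exact hP (leadingCoeff_eq_zero.mp h2.symm)
  have h3 : (P.comp (X - 1)).degree = P.degree := by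
    rw [degree_eq_natDegree h0, degree_eq_natDegree hP, h1]
  have h4 := degree_sub_lt h3 h0 h2
  rw [h3] at h4
  have h5 : P.degree ≤ (r : ℕ) := by
    rw [degree_eq_natDegree hP] at h ⊢
    have h6 : P.natDegree < r + 1 := by exact_mod_cast h
    have h7 : P.natDegree ≤ r := by omega
    exact_mod_cast h7
  exact lt_of_lt_of_le h4 h5

/-- In characteristic `p`, the translation-invariant subspaces of the space of functions on `ZMod p` are exactly the spaces of polynomial functions of degree less than `r`, one for each `r ≤ p`, of dimension `r`. -/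
theorem result {p : ℕ} [Fact p.Prime] {K : Type*} [Field K] [CharP K p] (W : Submodule K (ZMod p → K)) (hW : ∀ f ∈ W, (fun j => f (j - 1)) ∈ W) : ∃ r : ℕ, r ≤ p ∧ Module.finrank K W = r ∧ ∀ f : ZMod p → K, f ∈ W ↔ ∃ P : Polynomial K, P.degree < r ∧ ∀ j : ZMod p, f j = P.eval (ZMod.cast j : K) := by
  classical
  let φ : ZMod p →+* K := ZMod.castHom (dvd_refl p) K
  have hφ : ∀ j : ZMod p, φ j = (ZMod.cast j : K) := fun j => rfl
  have hφinj : Function.Injective φ := ZMod.castHom_injective K
  let T : Module.End K (ZMod p → K) :=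
    { toFun := fun f j => f (j - 1)
      map_add' := fun _ _ => rfl
      map_smul' := fun _ _ => rfl }
  let N : Module.End K (ZMod p → K) := T - 1
  have hN : ∀ f j, N f j = f (j - 1) - f j := fun f j => rfl
  let ev : Polynomial K →ₗ[K] (ZMod p → K) :=
    { toFun := fun P j => P.eval (φ j)
      map_add' := by intro P Q; funext j; simp
      map_smul' := by intro c P; funext j; simp }
  have hev : ∀ P j, ev P j = P.eval (φ j) := fun P j => rfl
  let PP : ℕ → Submodule K (ZMod p → K) := fun r => LinearMap.range (ev ∘ₗ (Polynomial.degreeLT K r).subtype)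
  have hPPmem : ∀ r f, f ∈ PP r ↔ ∃ P : Polynomial K, P.degree < r ∧ ∀ j : ZMod p, f j = P.eval (ZMod.cast j : K) := by
    intro r f
    constructor
    · rintro ⟨⟨P, hP⟩, rfl⟩
      exact ⟨P, Polynomial.mem_degreeLT.mp hP, fun j => rfl⟩
    · rintro ⟨P, hP, hf⟩
      exact ⟨⟨P, Polynomial.mem_degreeLT.mpr hP⟩, funext fun j => (hf j).symm⟩
  have hPPrank : ∀ r, r ≤ p → Module.finrank K (PP r) = r := by
    intro r hr
    have hinj : Function.Injective (ev ∘ₗ (Polynomial.degreeLT K r).subtype) := by
      rw [← LinearMap.ker_eq_bot, LinearMap.ker_eq_bot']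
      rintro ⟨P, hP⟩ h0
      apply Subtype.ext
      show P = 0
      by_contra hP0
      have hdeg : P.natDegree < Fintype.card (ZMod p) := by
        rw [ZMod.card]
        have h1 := Polynomial.mem_degreeLT.mp hP
        rw [Polynomial.degree_eq_natDegree hP0] at h1
        have h2 : P.natDegree < r := by exact_mod_cast h1
        omega
      exact hP0 (Polynomial.eq_zero_of_natDegree_lt_card_of_eval_eq_zero P hφinj
        (fun j => congrFun h0 j) hdeg)
    rw [LinearMap.finrank_range_of_inj hinj, (Polynomial.degreeLTEquiv K r).finrank_eq, Module.finrank_fin_fun]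
  have hstep : ∀ r, ∀ f ∈ PP (r + 1), N f ∈ PP r := by
    intro r f hf
    obtain ⟨⟨P, hP⟩, rfl⟩ := hf
    refine ⟨⟨P.comp (Polynomial.X - 1) - P, Polynomial.mem_degreeLT.mpr (deg_shift P r (Polynomial.mem_degreeLT.mp hP))⟩, ?_⟩
    funext j
    show (P.comp (Polynomial.X - 1) - P).eval (φ j) = P.eval (φ (j - 1)) - P.eval (φ j)
    simp [Polynomial.eval_comp]
  have hle : ∀ r, PP r ≤ LinearMap.ker (N ^ r) := by
    intro r
    induction r with
    | zero =>
      rintro _ ⟨⟨P, hP⟩, rfl⟩
      have h1 := Polynomial.mem_degreeLT.mp hP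
      have : P = 0 := by
        rw [← Polynomial.degree_eq_bot]
        by_contra hne
        rw [Polynomial.degree_eq_bot] at hne
        rw [Polynomial.degree_eq_natDegree hne] at h1
        have h2 : P.natDegree < 0 := by exact_mod_cast h1
        omega
      subst this
      simp
    | succ r ih =>
      intro f hf
      rw [LinearMap.mem_ker, pow_succ, Module.End.mul_apply]
      exact ih (hstep r f hf)
  have hker : Module.finrank K (LinearMap.ker N) ≤ 1 := by
    have h1 : LinearMap.ker N ≤ Submodule.span K {(fun _ => 1 : ZMod p → K)} := by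
      intro f hf
      rw [LinearMap.mem_ker] at hf
      have h2 : ∀ j, f (j - 1) = f j := fun j => sub_eq_zero.mp (congrFun hf j)
      have h3 : ∀ n : ℕ, f (n : ZMod p) = f 0 := by
        intro n
        induction n with
        | zero => simp
        | succ n ih =>
          rw [← ih, ← h2 ((n + 1 : ℕ) : ZMod p)]
          congr 1
          push_cast
          ring
      rw [Submodule.mem_span_singleton]
      refine ⟨f 0, funext fun j => ?_⟩
      have := h3 j.val
      rw [ZMod.natCast_zmod_val] at this
      simp [this]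
    calc _ ≤ Module.finrank K (Submodule.span K {(fun _ => 1 : ZMod p → K)}) := Submodule.finrank_mono h1
      _ ≤ 1 := by
        have := finrank_span_le_card (R := K) ({(fun _ => 1 : ZMod p → K)} : Set (ZMod p → K))
        simpa using this
  have heq : ∀ r, r ≤ p → PP r = LinearMap.ker (N ^ r) := by
    intro r hr
    apply Submodule.eq_of_le_of_finrank_le (hle r)
    rw [hPPrank r hr]
    calc _ ≤ r * Module.finrank K (LinearMap.ker N) := Cfsg.Agent.Lib.Helper14.finrank_ker_pow_le N r
      _ ≤ r * 1 := Nat.mul_le_mul_left _ hker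
      _ = r := mul_one r
  have hV : Module.finrank K (ZMod p → K) = p := by
    rw [Module.finrank_fintype_fun_eq_card, ZMod.card]
  have hnil : IsNilpotent N := by
    refine ⟨p, ?_⟩
    have h1 : LinearMap.ker (N ^ p) = ⊤ := by
      apply Submodule.eq_top_of_finrank_eq
      rw [← heq p le_rfl, hPPrank p le_rfl, hV]
    exact LinearMap.ker_eq_top.mp h1
  have hWN : ∀ v ∈ W, N v ∈ W := by
    intro v hv
    exact W.sub_mem (hW v hv) hv
  have hWeq := Cfsg.Agent.Lib.Helper14.eq_ker_pow_finrank_of_invariant N hnil hker W hWN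
  have hr : Module.finrank K W ≤ p := by
    exact le_trans (Submodule.finrank_le W) (le_of_eq hV)
  refine ⟨Module.finrank K W, hr, rfl, ?_⟩
  intro f
  rw [← hPPmem, heq _ hr, ← hWeq]

end Cfsg.Agent.S0673
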