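import Cfsg.Statements.S0681
import Mathlib
import Cfsg.Agent.Lib.Helper5.NearF

set_option autoImplicit false
open Cfsg

namespace Cfsg.Agent.S0681

open Cfsg.Agent.Lib.Helper5

def affH (F : Type*) [Cfsg.NearField F] : Subgroup (Equiv.Perm F) where
  carrier := {σ | ∃ a b : F, a ≠ 0 ∧ ∀ x : F, σ x = x * a + b}
  one_mem' := ⟨1, 0, nf_zero_ne_one.symm, fun x => by simp⟩
  mul_mem' := by
    rintro σ τ ⟨a, b, ha, hσ⟩ ⟨c, d, hc, hτ⟩
    refine ⟨c * a, d * a + b, nf_mul_ne_zero hc ha, fun x => ?_⟩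
    rw [Equiv.Perm.mul_apply, hτ, hσ, nf_add_mul, mul_assoc, add_assoc]
  inv_mem' := by
    rintro σ ⟨a, b, ha, hσ⟩
    obtain ⟨a', h1, h2⟩ := Cfsg.NearField.exists_inv a ha
    have ha' : a' ≠ 0 := by
      intro h
      rw [h, nf_mul_zero] at h1
      exact nf_zero_ne_one h1
    refine ⟨a', (-b) * a', ha', fun x => ?_⟩
    apply σ.injective
    rw [Equiv.Perm.inv_def, Equiv.apply_symm_apply, hσ, ← nf_add_mul, mul_assoc, h2, mul_one, neg_add_cancel_right]

/-- The affine maps `x ↦ x * a + b`, `a ≠ 0`, of a near-field form a sharply doubly transitive permutation group. -/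
theorem result {F : Type*} [Cfsg.NearField F] : ∃ H : Subgroup (Equiv.Perm F), (∀ σ : Equiv.Perm F, σ ∈ H ↔ ∃ a b : F, a ≠ 0 ∧ ∀ x : F, σ x = x * a + b) ∧ MulAction.IsMultiplyPretransitive H F 2 ∧ ∀ x : Fin 2 ↪ F, MulAction.stabilizer H x = ⊥ := by
  refine ⟨affH F, fun σ => Iff.rfl, ?_, ?_⟩
  · rw [MulAction.is_two_pretransitive_iff]
    intro x0 x1 y0 y1 hx hy
    have hd : x0 - x1 ≠ 0 := sub_ne_zero.mpr hx
    have he : y0 - y1 ≠ 0 := sub_ne_zero.mpr hy
    obtain ⟨a, ha⟩ := nf_exists_mul_eq hd (y0 - y1)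
    have ha0 : a ≠ 0 := by
      intro h
      rw [h, nf_mul_zero] at ha
      exact he ha.symm
    refine ⟨⟨nfAff a (-(x0 * a) + y0) ha0, a, _, ha0, fun x => rfl⟩, ?_, ?_⟩
    · show x0 * a + (-(x0 * a) + y0) = y0
      rw [add_neg_cancel_left]
    · show x1 * a + (-(x0 * a) + y0) = y1
      rw [nf_sub_mul] at ha
      rw [← add_assoc, ← sub_eq_add_neg]
      have : x1 * a - x0 * a = y1 - y0 := by
        rw [← neg_sub, ha, neg_sub]
      rw [this, sub_add_cancel]
  · intro x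
    rw [eq_bot_iff]
    rintro ⟨σ, a, b, ha, hσ⟩ hs
    rw [MulAction.mem_stabilizer_iff] at hs
    have h0 : σ (x 0) = x 0 := congrArg (fun f : Fin 2 ↪ F => f 0) hs
    have h1 : σ (x 1) = x 1 := congrArg (fun f : Fin 2 ↪ F => f 1) hs
    have hx : x 0 ≠ x 1 := fun h => by simpa using x.injective h
    have hd : x 0 - x 1 ≠ 0 := sub_ne_zero.mpr hx
    rw [hσ] at h0 h1
    have h2 : (x 0 - x 1) * a = x 0 - x 1 := by
      rw [nf_sub_mul]
      conv_rhs => rw [← h0, ← h1]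
      rw [add_sub_add_right_eq_sub]
    obtain ⟨d', -, hd'⟩ := Cfsg.NearField.exists_inv _ hd
    have ha1 : a = 1 := by
      have := congrArg (fun t => d' * t) h2
      simp only [← mul_assoc, hd', one_mul] at this
      exact this
    rw [ha1, mul_one] at h0
    have hb : b = 0 := left_eq_add.mp h0.symm
    rw [Subgroup.mem_bot]
    apply Subtype.ext
    ext y
    show σ y = y
    rw [hσ, ha1, hb, mul_one, add_zero]

end Cfsg.Agent.S0681
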