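import Cfsg.Statements.S0682
import Mathlib
import Cfsg.Agent.Lib.Helper5.NearF

set_option autoImplicit false
open Cfsg

namespace Cfsg.Agent.S0682

open Cfsg.Agent.Lib.Helper5

/-- A finite near-field has prime-power order; its additive group is commutative of prime exponent. -/
theorem result {F : Type*} [Cfsg.NearField F] [Finite F] : ∃ p j : ℕ, p.Prime ∧ 1 ≤ j ∧ Nat.card F = p ^ j ∧ (∀ x y : F, x + y = y + x) ∧ ∀ x : F, p • x = 0 := by
  classical
  haveI : Nontrivial F := ⟨0, 1, nf_zero_ne_one⟩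
  have hcard : Nat.card F ≠ 1 := by
    have := Finite.one_lt_card (α := F)
    omega
  obtain ⟨p, hp, hpn⟩ := Nat.exists_prime_and_dvd hcard
  haveI := Fact.mk hp
  obtain ⟨u, hu⟩ := exists_prime_addOrderOf_dvd_card' (G := F) p hpn
  have hu0 : u ≠ 0 := by
    intro h
    rw [h, addOrderOf_zero] at hu
    exact hp.one_lt.ne hu
  have hexp : ∀ x : F, p • x = 0 := by
    intro x
    obtain ⟨c, rfl⟩ := nf_exists_mul_eq hu0 x
    rw [← nf_nsmul_mul, ← hu, addOrderOf_nsmul_eq_zero, nf_zero_mul]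
  have hP : IsPGroup p (Multiplicative F) := fun g => ⟨1, by
    rw [pow_one]
    exact congrArg Multiplicative.ofAdd (hexp (Multiplicative.toAdd g))⟩
  obtain ⟨j, hj⟩ := IsPGroup.iff_card.mp hP
  have hj' : Nat.card F = p ^ j := hj
  have hj1 : 1 ≤ j := by
    rcases Nat.eq_zero_or_pos j with h | h
    · rw [h, pow_zero] at hj'; exact absurd hj' hcard
    · exact h
  refine ⟨p, j, hp, hj1, hj', ?_, hexp⟩
  haveI : Nontrivial (Multiplicative F) := ⟨Multiplicative.ofAdd 0, Multiplicative.ofAdd 1, fun h => nf_zero_ne_one (F := F) h⟩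
  haveI : Finite (Multiplicative F) := ‹Finite F›
  haveI := hP.center_nontrivial
  obtain ⟨⟨z, hz⟩, hz1⟩ := exists_ne (1 : Subgroup.center (Multiplicative F))
  rw [Subgroup.mem_center_iff] at hz
  have hz' : ∀ y : F, y + Multiplicative.toAdd z = Multiplicative.toAdd z + y := fun y => hz (Multiplicative.ofAdd y)
  have hz0 : Multiplicative.toAdd z ≠ 0 := fun h => hz1 (Subtype.ext h)
  intro x y
  by_cases hx : x = 0
  · rw [hx, zero_add, add_zero]
  obtain ⟨c, hc⟩ := nf_exists_mul_eq hz0 x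
  have hc0 : c ≠ 0 := by
    intro h
    rw [h, nf_mul_zero] at hc
    exact hx hc.symm
  obtain ⟨c', -, hc'⟩ := Cfsg.NearField.exists_inv c hc0
  have hy : y = (y * c') * c := by rw [mul_assoc, hc', mul_one]
  rw [hy, ← hc, ← nf_add_mul, ← nf_add_mul, hz']

end Cfsg.Agent.S0682
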