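import Cfsg.Statements.S0683
import Mathlib
import Cfsg.Agent.S0680

set_option autoImplicit false
open Cfsg

namespace Cfsg.Agent.S0683

theorem nearfield_of_data {α : Type*} [DecidableEq α] (t m : α → Equiv.Perm α) (o e : α)
    (hoe : e ≠ o) (t_o : ∀ a, t a o = a) (t_mul : ∀ a b, t a * t b = t (t a b))
    (m_o : ∀ a, a ≠ o → m a o = o) (m_e : ∀ a, a ≠ o → m a e = a)
    (m_mul : ∀ a b, a ≠ o → b ≠ o → m b * m a = m (m b a))
    (conj : ∀ a c, c ≠ o → m c * t a = t (m c a) * m c) :
    ∃ N : Cfsg.NearField α, (∀ a b : α, a + b = t b a) ∧ (∀ x a : α, a ≠ o → x * a = m a x) ∧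
      (0 : α) = o := by
  have t_one : t o = 1 := by
    have := t_mul o o
    rw [t_o] at this
    exact mul_eq_left.mp this
  have m_one : m e = 1 := by
    have := m_mul e e hoe hoe
    rw [m_e e hoe] at this
    exact mul_eq_left.mp this
  have m_ne : ∀ a b, a ≠ o → b ≠ o → m b a ≠ o := by
    intro a b ha hb h
    apply ha
    apply (m b).injective
    rw [h, m_o b hb]
  letI i1 : Add α := ⟨fun a b => t b a⟩
  letI i2 : Zero α := ⟨o⟩
  letI i3 : Neg α := ⟨fun a => (t a)⁻¹ o⟩
  let A : AddGroup α := AddGroup.ofLeftAxioms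
      (fun a b c => by
        show t c (t b a) = t (t c b) a
        rw [← t_mul]; rfl)
      (fun a => t_o a)
      (fun a => by
        show t a ((t a)⁻¹ o) = o
        simp)
  let N : Cfsg.NearField α :=
    { toAddGroup := A
      mul := fun x a => if a = o then o else m a x
      one := e
      one_mul := fun a => by
        show (if a = o then o else m a e) = a
        by_cases h : a = o
        · rw [if_pos h, h]
        · rw [if_neg h, m_e a h]
      mul_one := fun a => by
        show (if e = o then o else m e a) = a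
        rw [if_neg hoe, m_one]; rfl
      mul_assoc := fun x a b => by
        show (if b = o then o else m b (if a = o then o else m a x)) =
          (if (if b = o then o else m b a) = o then o else m (if b = o then o else m b a) x)
        by_cases hb : b = o
        · simp [hb]
        · by_cases ha : a = o
          · simp [hb, ha, m_o b hb]
          · rw [if_neg hb, if_neg ha, if_neg hb, if_neg (m_ne a b ha hb), ← m_mul a b ha hb]; rfl
      right_distrib := fun a b c => by
        show (if c = o then o else m c (t b a)) =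
          t (if c = o then o else m c b) (if c = o then o else m c a)
        by_cases hc : c = o
        · simp [hc, t_o]
        · rw [if_neg hc, if_neg hc, if_neg hc]
          exact congrArg (fun f : Equiv.Perm α => f a) (conj b c hc)
      mul_zero := fun a => if_pos rfl
      zero_ne_one := hoe.symm
      exists_inv := fun a ha => by
        have ha' : a ≠ o := ha
        have hb : (m a)⁻¹ e ≠ o := by
          intro h
          apply hoe
          rw [Equiv.Perm.inv_eq_iff_eq] at h
          rw [h, m_o a ha']
        have h1 : m a * m ((m a)⁻¹ e) = 1 := by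
          rw [m_mul _ _ hb ha']
          simp [m_one]
        refine ⟨(m a)⁻¹ e, ?_, ?_⟩
        · show (if (m a)⁻¹ e = o then o else m ((m a)⁻¹ e) a) = e
          rw [if_neg hb, eq_inv_of_mul_eq_one_right h1, Equiv.Perm.inv_eq_iff_eq, m_e a ha']
        · show (if a = o then o else m a ((m a)⁻¹ e)) = e
          rw [if_neg ha']; simp }
  exact ⟨N, fun a b => rfl, fun x a ha => if_neg ha, rfl⟩

/-- A finite sharply doubly transitive permutation group is the affine group of a near-field: the permuted set carries a near-field structure for which the group consists exactly of the maps `x ↦ x * a + b` with `a ≠ 0`. -/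
theorem result {α : Type*} [Fintype α] [DecidableEq α] (H : Subgroup (Equiv.Perm α)) [MulAction.IsMultiplyPretransitive H α 2] (hsharp : ∀ x : Fin 2 ↪ α, MulAction.stabilizer H x = ⊥) (h2 : 2 ≤ Fintype.card α) : ∃ _ : Cfsg.NearField α, ∀ σ : Equiv.Perm α, σ ∈ H ↔ ∃ a b : α, a ≠ 0 ∧ ∀ x : α, σ x = x * a + b := by
  classical
  obtain ⟨p, j, hp, -, -, hP⟩ := Cfsg.Agent.S0680.result H hsharp h2
  haveI := Fact.mk hp
  obtain ⟨hN, -, -, hT, hS, -⟩ := hP ⟨hp⟩ (default : Sylow p H)
  set P : Subgroup H := ((default : Sylow p H) : Subgroup H) with hPdef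
  obtain ⟨o, e, hoe'⟩ := Fintype.exists_pair_of_one_lt_card (show 1 < Fintype.card α by omega)
  have hoe : e ≠ o := hoe'.symm
  have F1 : ∀ g : H, ∀ a b : α, a ≠ b → g • a = a → g • b = b → g = 1 := by
    intro g a b hab ha hb
    have : g ∈ MulAction.stabilizer H (Function.Embedding.embFinTwo hab) := by
      rw [MulAction.mem_stabilizer_iff]
      ext i
      fin_cases i
      · show g • (Function.Embedding.embFinTwo hab 0) = Function.Embedding.embFinTwo hab 0
        rw [Function.Embedding.embFinTwo_apply_zero]; exact ha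
      · show g • (Function.Embedding.embFinTwo hab 1) = Function.Embedding.embFinTwo hab 1
        rw [Function.Embedding.embFinTwo_apply_one]; exact hb
    rw [hsharp] at this
    exact Subgroup.mem_bot.mp this
  have F2 : ∀ g g' : H, ∀ a b : α, a ≠ b → g • a = g' • a → g • b = g' • b → g = g' := by
    intro g g' a b hab ha hb
    have := F1 (g'⁻¹ * g) a b hab (by rw [mul_smul, ha, inv_smul_smul])
      (by rw [mul_smul, hb, inv_smul_smul])
    exact (inv_mul_eq_one.mp this).symm
  have U : ∀ k k' : H, k ∈ P → k' ∈ P → ∀ a : α, k • a = k' • a → k = k' := by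
    intro k k' hk hk' a h
    have h1 : (⟨k'⁻¹ * k, P.mul_mem (P.inv_mem hk') hk⟩ : P) ∈ MulAction.stabilizer P a := by
      rw [MulAction.mem_stabilizer_iff]
      show (k'⁻¹ * k) • a = a
      rw [mul_smul, h, inv_smul_smul]
    rw [hS a, Subgroup.mem_bot] at h1
    have h2 : k'⁻¹ * k = 1 := congrArg Subtype.val h1
    exact (inv_mul_eq_one.mp h2).symm
  have ht : ∀ a : α, ∃ k : H, k ∈ P ∧ k • o = a := by
    intro a
    obtain ⟨k, hk⟩ := hT.exists_smul_eq o a
    exact ⟨k.1, k.2, hk⟩
  choose t htP hto using ht
  have hm : ∀ a : α, ∃ h : H, a ≠ o → h • o = o ∧ h • e = a := by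
    intro a
    by_cases ha : a = o
    · exact ⟨1, fun h => absurd ha h⟩
    · obtain ⟨h, h1, h2⟩ := (MulAction.is_two_pretransitive_iff (G := H) (α := α)).mp inferInstance
        hoe' (Ne.symm ha)
      exact ⟨h, fun _ => ⟨h1, h2⟩⟩
  choose m hm using hm
  obtain ⟨N, hadd, hmul, hzero⟩ := nearfield_of_data (fun a => (t a : Equiv.Perm α))
    (fun a => (m a : Equiv.Perm α)) o e hoe hto
    (fun a b => by
      have : t a * t b = t (t a • b) := U _ _ (P.mul_mem (htP a) (htP b)) (htP _) o (by
        rw [mul_smul, hto, hto])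
      exact congrArg Subtype.val this)
    (fun a ha => (hm a ha).1) (fun a ha => (hm a ha).2)
    (fun a b ha hb => by
      have hne : m b • a ≠ o := by
        intro h
        apply ha
        rw [← (hm b hb).1] at h
        exact smul_left_cancel _ h
      have : m b * m a = m (m b • a) := F2 _ _ o e hoe'
        (by rw [mul_smul, (hm a ha).1, (hm b hb).1, (hm _ hne).1])
        (by rw [mul_smul, (hm a ha).2, (hm _ hne).2])
      exact congrArg Subtype.val this)
    (fun a c hc => by
      have h1 : m c * t a * (m c)⁻¹ = t (m c • a) := U _ _ (hN.conj_mem _ (htP a) _) (htP _) o (by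
        have : (m c)⁻¹ • o = o := by
          rw [inv_smul_eq_iff, (hm c hc).1]
        rw [mul_smul, mul_smul, this, hto, hto])
      have : m c * t a = t (m c • a) * m c := by rw [← h1]; group
      exact congrArg Subtype.val this)
  refine ⟨N, fun σ => ?_⟩
  constructor
  · intro hσ
    set s : H := ⟨σ, hσ⟩ with hs
    set b := s • o with hb
    set τ : H := (t b)⁻¹ * s with hτ
    have hτo : τ • o = o := by
      rw [hτ, mul_smul, ← hb, inv_smul_eq_iff, hto]
    have hτe : τ • e ≠ o := by
      intro h
      rw [← hτo] at h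
      exact hoe (smul_left_cancel _ h)
    have hτm : τ = m (τ • e) := F2 _ _ o e hoe' (by rw [hτo, (hm _ hτe).1]) (by rw [(hm _ hτe).2])
    refine ⟨τ • e, b, by rw [hzero]; exact hτe, fun x => ?_⟩
    rw [hadd, hmul _ _ hτe]
    show s • x = t b • (m (τ • e) • x)
    rw [← hτm, hτ, mul_smul, smul_inv_smul]
  · rintro ⟨a, b, ha, h⟩
    rw [hzero] at ha
    have : σ = ((t b * m a : H) : Equiv.Perm α) := by
      ext x
      rw [h, hadd, hmul _ _ ha]
      rfl
    rw [this]
    exact (t b * m a).2

end Cfsg.Agent.S0683
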