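import Cfsg.Statements.S0684
import Mathlib
import Cfsg.Agent.Lib.Helper5.LinReg

set_option autoImplicit false
open Cfsg

namespace Cfsg.Agent.S0684

open Cfsg.Agent.Lib.Helper5

/-- Point stabiliser of a sharply doubly transitive group not of semilinear type: a maximal normal abelian subgroup `A` of a linear group `H` that is regular on non-zero vectors and has no irreducible cyclic normal subgroup is cyclic and reducible, and the order of `A` divides `p ^ k - 1` for `k` the dimension of a minimal `A`-invariant subspace. -/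
theorem result {p : ℕ} [Fact p.Prime] {V : Type*} [AddCommGroup V] [Module (ZMod p) V] [Finite V] (H : Subgroup (V ≃ₗ[ZMod p] V)) (hreg : ∀ v w : V, v ≠ 0 → w ≠ 0 → ∃! h : H, (h : V ≃ₗ[ZMod p] V) v = w) (hI : ∀ A : Subgroup H, A.Normal → IsCyclic A → ∃ W : Submodule (ZMod p) V, W ≠ ⊥ ∧ W ≠ ⊤ ∧ ∀ a ∈ A, ∀ v ∈ W, ((a : H) : V ≃ₗ[ZMod p] V) v ∈ W) (A : Subgroup H) (hAn : A.Normal) (hAc : IsMulCommutative A) (hAmax : ∀ B : Subgroup H, B.Normal → IsMulCommutative B → A ≤ B → B = A) : IsCyclic A ∧ ∃ W : Submodule (ZMod p) V, W ≠ ⊥ ∧ W ≠ ⊤ ∧ (∀ a ∈ A, ∀ v ∈ W, ((a : H) : V ≃ₗ[ZMod p] V) v ∈ W) ∧ (∀ W' : Submodule (ZMod p) V, W' ≤ W → (∀ a ∈ A, ∀ v ∈ W', ((a : H) : V ≃ₗ[ZMod p] V) v ∈ W') → W' = ⊥ ∨ W' = W) ∧ Nat.card A ∣ p ^ Module.finrank (ZMod p) W - 1 := by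
  have hfree : ∀ a ∈ A, ∀ v : V, v ≠ 0 → ((a : H) : V ≃ₗ[ZMod p] V) v = v → a = 1 := by
    intro a _ v hv h
    exact (hreg v v hv hv).unique h rfl
  obtain ⟨W00, h1, h2, -⟩ := hI ⊥ inferInstance inferInstance
  have htop : (⊤ : Submodule (ZMod p) V) ≠ ⊥ := by
    intro h
    apply h1
    rw [eq_bot_iff, ← h]
    exact le_top
  obtain ⟨W1, -, hW1, hinv1, hmin1⟩ := exists_min_inv A ⊤ htop (fun _ _ _ _ => trivial)
  have hcyc : IsCyclic A := cyclic_of_min_inv A hfree W1 hW1 hinv1 hmin1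
  obtain ⟨W0, h0b, h0t, h0inv⟩ := hI A hAn hcyc
  obtain ⟨W, hle, hW, hinv, hmin⟩ := exists_min_inv A W0 h0b h0inv
  refine ⟨hcyc, W, hW, ?_, hinv, hmin, card_dvd_of_inv A hfree W hinv⟩
  rintro rfl
  exact h0t (top_le_iff.mp hle)

end Cfsg.Agent.S0684
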