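import Cfsg.Statements.S0685
import Mathlib
import Cfsg.Agent.S0684
import Cfsg.Agent.Lib.Helper5.LinReg

set_option autoImplicit false
open Cfsg

namespace Cfsg.Agent.S0685

open Cfsg.Agent.Lib.Helper5

/-- In a linear group over the prime field that is regular on non-zero vectors and has no irreducible cyclic normal subgroup, a maximal normal abelian subgroup is properly contained in its centraliser, which is non-abelian. -/
theorem result {p : ℕ} [Fact p.Prime] {V : Type*} [AddCommGroup V] [Module (ZMod p) V] [Finite V] (H : Subgroup (V ≃ₗ[ZMod p] V)) (hreg : ∀ v w : V, v ≠ 0 → w ≠ 0 → ∃! h : H, (h : V ≃ₗ[ZMod p] V) v = w) (hI : ∀ A : Subgroup H, A.Normal → IsCyclic A → ∃ W : Submodule (ZMod p) V, W ≠ ⊥ ∧ W ≠ ⊤ ∧ ∀ a ∈ A, ∀ v ∈ W, ((a : H) : V ≃ₗ[ZMod p] V) v ∈ W) (A : Subgroup H) (hAn : A.Normal) (hAc : IsMulCommutative A) (hAmax : ∀ B : Subgroup H, B.Normal → IsMulCommutative B → A ≤ B → B = A) : A < Subgroup.centralizer (A : Set H) ∧ ¬ IsMulCommutative (Subgroup.centralizer (A : Set H)) := by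
  classical
  obtain ⟨hcyc, W, hW, hWt, hinv, hmin, hdvd⟩ := Cfsg.Agent.S0684.result H hreg hI A hAn hAc hAmax
  haveI : Finite (V ≃ₗ[ZMod p] V) := Finite.of_injective (fun e => (e : V → V)) DFunLike.coe_injective
  have hp := (Fact.out : p.Prime)
  set k := Module.finrank (ZMod p) W with hk
  set n := Module.finrank (ZMod p) V with hn
  have hle : A ≤ Subgroup.centralizer (A : Set H) := Subgroup.le_centralizer A
  have hlt : A < Subgroup.centralizer (A : Set H) := by
    refine lt_of_le_of_ne hle ?_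
    intro heq
    obtain ⟨w, hwW, hw0⟩ := (Submodule.ne_bot_iff W).mp hW
    -- order of H
    have hH : Nat.card H = p ^ n - 1 := by
      have hbij : Function.Bijective (fun h : H => (⟨(h : V ≃ₗ[ZMod p] V) w, by
          simpa using hw0⟩ : {v : V // v ≠ 0})) := by
        constructor
        · intro h h' hh
          have h1 : (h : V ≃ₗ[ZMod p] V) w = (h' : V ≃ₗ[ZMod p] V) w := congrArg Subtype.val hh
          have hne : (h' : V ≃ₗ[ZMod p] V) w ≠ 0 := by simpa using hw0
          exact (hreg w _ hw0 hne).unique h1 rfl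
        · rintro ⟨v, hv⟩
          obtain ⟨h, hh, -⟩ := hreg w v hw0 hv
          exact ⟨h, Subtype.ext hh⟩
      rw [Nat.card_congr (Equiv.ofBijective _ hbij)]
      have := Fintype.ofFinite V
      rw [Nat.card_eq_fintype_card, Fintype.card_subtype_compl, Fintype.card_subtype_eq,
        Module.card_eq_pow_finrank (K := ZMod p) (V := V), ZMod.card]
    -- 2k ≤ n
    have h2k : 2 * k ≤ n := by
      obtain ⟨v, hv⟩ : ∃ v : V, v ∉ W := by
        by_contra hcon
        push Not at hcon
        exact hWt (eq_top_iff.mpr fun x _ => hcon x)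
      have hv0 : v ≠ 0 := fun h => hv (h ▸ W.zero_mem)
      obtain ⟨h, hh, -⟩ := hreg w v hw0 hv0
      set W' := W.map ((h : V ≃ₗ[ZMod p] V) : V →ₗ[ZMod p] V) with hW'
      have hinv' : InvSub A W' := by
        rintro a ha _ ⟨x, hx, rfl⟩
        refine ⟨((h⁻¹ * a * h : H) : V ≃ₗ[ZMod p] V) x, hinv _ ?_ x hx, ?_⟩
        · have := hAn.conj_mem a ha h⁻¹
          rwa [inv_inv] at this
        · show (h : V ≃ₗ[ZMod p] V) ((h : V ≃ₗ[ZMod p] V)⁻¹ ((a : V ≃ₗ[ZMod p] V) ((h : V ≃ₗ[ZMod p] V) x))) = _
          exact LinearEquiv.apply_symm_apply _ _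
      have hfr : Module.finrank (ZMod p) W' = k := LinearEquiv.finrank_map_eq _ W
      have hinf : W ⊓ W' = ⊥ := by
        rcases hmin (W ⊓ W') inf_le_left (fun a ha x hx => ⟨hinv a ha x hx.1, hinv' a ha x hx.2⟩) with h1 | h1
        · exact h1
        · exfalso
          have h2 : W ≤ W' := inf_eq_left.mp h1
          have h3 : W = W' := Submodule.eq_of_le_of_finrank_eq h2 hfr.symm
          apply hv
          rw [h3, ← hh]
          exact ⟨w, hwW, rfl⟩
      have h4 := Submodule.finrank_sup_add_finrank_inf_eq W W'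
      rw [hinf, finrank_bot, add_zero, hfr] at h4
      have h5 := Submodule.finrank_le (W ⊔ W')
      omega
    -- |H| ≤ |A|^2
    obtain ⟨g, hg⟩ := hcyc.exists_generator
    have hcent : Subgroup.centralizer {(g : H)} = A := by
      apply le_antisymm
      · intro c hc
        rw [Subgroup.mem_centralizer_singleton_iff] at hc
        refine heq.symm ▸ ?_
        rw [Subgroup.mem_centralizer_iff]
        intro a ha
        obtain ⟨i, hi⟩ := Subgroup.mem_zpowers_iff.mp (hg ⟨a, ha⟩)
        have hi' : (g : H) ^ i = a := congrArg Subtype.val hi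
        rw [← hi']
        exact ((Commute.zpow_right (show Commute c (g : H) from hc) i).eq).symm
      · exact hle.trans (Subgroup.centralizer_le (by simpa using g.2))
    have h1 := Subgroup.card_mul_index (MulAction.stabilizer (ConjAct H) (g : H))
    rw [MulAction.index_stabilizer, ← Subgroup.nat_card_centralizer_nat_card_stabilizer, hcent] at h1
    have h2 : Nat.card (ConjAct H) = p ^ n - 1 := hH
    rw [h2] at h1
    have h3 : (MulAction.orbit (ConjAct H) (g : H)).ncard ≤ Nat.card A := by
      have e0 : Nat.card A = (A : Set H).ncard := Nat.card_coe_set_eq (A : Set H)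
      rw [e0]
      apply Set.ncard_le_ncard _ (Set.toFinite _)
      rintro _ ⟨c, rfl⟩
      exact hAn.conj_mem _ g.2 _
    have hpk : 0 < p ^ k - 1 := by
      have hk0 : k ≠ 0 := by
        intro h0
        exact hW (Submodule.finrank_eq_zero.mp h0)
      have := Nat.one_lt_pow hk0 hp.one_lt
      omega
    have h4 : Nat.card A ≤ p ^ k - 1 := Nat.le_of_dvd hpk hdvd
    have h5 : p ^ n - 1 ≤ (p ^ k - 1) * (p ^ k - 1) := by
      rw [← h1]
      exact Nat.mul_le_mul h4 (h3.trans h4)
    have h6 : p ^ (2 * k) ≤ p ^ n := Nat.pow_le_pow_right hp.pos h2k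
    have h7 : p ^ (2 * k) = p ^ k * p ^ k := by rw [two_mul, pow_add]
    set q := p ^ k with hq
    obtain ⟨r, hr⟩ : ∃ r, q = r + 2 := ⟨q - 2, by omega⟩
    rw [h7, hr] at h6
    rw [hr] at h5
    have h8 : r + 2 - 1 = r + 1 := by omega
    rw [h8] at h5
    have h9 : p ^ n ≤ (r + 1) * (r + 1) + 1 := by omega
    nlinarith
  refine ⟨hlt, fun hcom => ?_⟩
  have := hAmax _ inferInstance hcom hle
  exact hlt.ne this.symm

end Cfsg.Agent.S0685
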