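import Cfsg.Statements.S0691
import Mathlib
import Cfsg.Agent.Lib.Helper5.RegTable

set_option autoImplicit false
open Cfsg

namespace Cfsg.Agent.S0691

open Cfsg.Agent.Lib.Helper5 Matrix

def tab : ℕ := 0x300408304101084040c30810204108202002100020410430304404403082041030c20420300408004083103020401040200210104104102010010c0030c00c3030820c4030440c1010010c2000000400300400102040003020020020100100400000000
def ent (a b : ZMod 5) : ℕ := (tab >>> (32 * (a.val * 5 + b.val))) % 4294967296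
def f0 (a b : ZMod 5) : ZMod 5 := ((ent a b % 64 : ℕ) : ZMod 5)
def f1 (a b : ZMod 5) : ZMod 5 := (((ent a b >>> 6) % 64 : ℕ) : ZMod 5)
def pa (a b : ZMod 5) : ZMod 5 := (((ent a b >>> 12) % 64 : ℕ) : ZMod 5)
def pb (a b : ZMod 5) : ZMod 5 := (((ent a b >>> 18) % 64 : ℕ) : ZMod 5)
def dep (a b : ZMod 5) : ℕ := ent a b >>> 24

theorem chkA : ∀ a b : ZMod 5, (a ≠ 0 ∨ b ≠ 0) →
    f0 (2 * a + 0 * b) (0 * a + (-2) * b) = 2 * f0 a b + 0 * f1 a b ∧
    f1 (2 * a + 0 * b) (0 * a + (-2) * b) = 0 * f0 a b + (-2) * f1 a b := by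
  decide +kernel

theorem chkB : ∀ a b : ZMod 5, (a ≠ 0 ∨ b ≠ 0) →
    f0 (0 * a + (-1) * b) (1 * a + 0 * b) = 0 * f0 a b + (-1) * f1 a b ∧
    f1 (0 * a + (-1) * b) (1 * a + 0 * b) = 1 * f0 a b + 0 * f1 a b := by
  decide +kernel

theorem chkC : ∀ a b : ZMod 5, (a ≠ 0 ∨ b ≠ 0) →
    f0 (1 * a + 2 * b) (1 * a + (-2) * b) = 1 * f0 a b + 2 * f1 a b ∧
    f1 (1 * a + 2 * b) (1 * a + (-2) * b) = 1 * f0 a b + (-2) * f1 a b := by
  decide +kernel

theorem chkR : ∀ a b : ZMod 5, (a ≠ 0 ∨ b ≠ 0) → (a = 1 ∧ b = 0) ∨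
    (dep (pa a b) (pb a b) < dep a b ∧ ((2 * pa a b + 0 * pb a b = a ∧ 0 * pa a b + (-2) * pb a b = b) ∨ (0 * pa a b + (-1) * pb a b = a ∧ 1 * pa a b + 0 * pb a b = b) ∨ (1 * pa a b + 2 * pb a b = a ∧ 1 * pa a b + (-2) * pb a b = b))) := by
  decide +kernel

theorem chk1 : f0 1 0 = 0 ∧ f1 1 0 = 1 := by decide +kernel

/-- An exceptional sharply doubly transitive group of degree 5^2: the listed matrices generate a subgroup of GL(2,5) of order 24 acting regularly on the non-zero vectors. -/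
theorem result (A : Matrix.GeneralLinearGroup (Fin 2) (ZMod 5)) (B : Matrix.GeneralLinearGroup (Fin 2) (ZMod 5)) (C : Matrix.GeneralLinearGroup (Fin 2) (ZMod 5)) (hA : (A : Matrix (Fin 2) (Fin 2) (ZMod 5)) = !![2, 0; 0, -2]) (hB : (B : Matrix (Fin 2) (Fin 2) (ZMod 5)) = !![0, -1; 1, 0]) (hC : (C : Matrix (Fin 2) (Fin 2) (ZMod 5)) = !![1, 2; 1, -2]) : Nat.card (Subgroup.closure ({A, B, C} : Set (Matrix.GeneralLinearGroup (Fin 2) (ZMod 5)))) = 24 ∧ ∀ v w : Fin 2 → ZMod 5, v ≠ 0 → w ≠ 0 → ∃! h : Subgroup.closure ({A, B, C} : Set (Matrix.GeneralLinearGroup (Fin 2) (ZMod 5))), Matrix.mulVec ((h : Matrix.GeneralLinearGroup (Fin 2) (ZMod 5)) : Matrix (Fin 2) (Fin 2) (ZMod 5)) v = w := by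
  haveI : Fact (Nat.Prime 5) := ⟨by norm_num⟩
  have key := regular_of_table ({A, B, C} : Set (Matrix.GeneralLinearGroup (Fin 2) (ZMod 5))) f0 f1 pa pb dep chk1 ?_ ?_
  · exact key
  · rintro g hg a b hab
    simp only [Set.mem_insert_iff, Set.mem_singleton_iff] at hg
    rcases hg with rfl | rfl | rfl
    · rw [hA]; exact chkA a b hab
    · rw [hB]; exact chkB a b hab
    · rw [hC]; exact chkC a b hab
  · intro a b hab
    rcases chkR a b hab with h | ⟨hd, h⟩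
    · exact Or.inl h
    · refine Or.inr ⟨hd, ?_⟩
      rcases h with h | h | h
      · exact ⟨A, by simp, by rw [hA]; exact h⟩
      · exact ⟨B, by simp, by rw [hB]; exact h⟩
      · exact ⟨C, by simp, by rw [hC]; exact h⟩

end Cfsg.Agent.S0691
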