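import Mathlib
import Cfsg.Statements.S0694

set_option autoImplicit false
open Cfsg

namespace Cfsg.Agent.S0694

lemma dvd_iff_val {a b : ℕ} (ha : a ≠ 0) (hb : b ≠ 0) :
    a ∣ b ↔ ∀ s : ℕ, s.Prime → padicValNat s a ≤ padicValNat s b := by
  rw [← Nat.factorization_prime_le_iff_dvd ha hb]
  constructor
  · intro h s hs
    have := h s hs
    rwa [Nat.factorization_def _ hs, Nat.factorization_def _ hs] at this
  · intro h s hs
    rw [Nat.factorization_def _ hs, Nat.factorization_def _ hs]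
    exact h s hs

lemma val_mono {s a b : ℕ} (hs : s.Prime) (hb : b ≠ 0) (h : a ∣ b) :
    padicValNat s a ≤ padicValNat s b := by
  have ha : a ≠ 0 := by
    rintro rfl
    exact hb (Nat.eq_zero_of_zero_dvd h)
  exact (dvd_iff_val ha hb).1 h s hs

lemma pow_sub_one_ne {q i : ℕ} (hq : 1 < q) (hi : i ≠ 0) : q ^ i - 1 ≠ 0 := by
  have : 1 < q ^ i := Nat.one_lt_pow hi hq
  omega

lemma not_dvd_q {s q : ℕ} (hs : s.Prime) (hq : 1 < q) (h : s ∣ q - 1) : ¬ s ∣ q := by
  intro h2
  have h4 : s ∣ q - (q - 1) := Nat.dvd_sub h2 h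
  have h3 : q - (q - 1) = 1 := by omega
  rw [h3] at h4
  exact hs.one_lt.ne' (Nat.dvd_one.1 h4)

lemma sub_one_dvd (q i : ℕ) : q - 1 ∣ q ^ i - 1 := by
  simpa using Nat.sub_dvd_pow_sub_pow q 1 i

lemma lte_ge {s q i : ℕ} (hs : s.Prime) (hq : 1 < q) (h : s ∣ q - 1) (hi : i ≠ 0) :
    padicValNat s (q - 1) + padicValNat s i ≤ padicValNat s (q ^ i - 1) := by
  have := Fact.mk hs
  have hnq := not_dvd_q hs hq h
  rcases hs.eq_two_or_odd' with rfl | hodd
  · by_cases hev : Even i
    · have := padicValNat.pow_two_sub_one hq hnq hi hev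
      have h1 : 1 ≤ padicValNat 2 (q + 1) := one_le_padicValNat_of_dvd (by omega) (by omega)
      omega
    · have h0 : padicValNat 2 i = 0 :=
        padicValNat.eq_zero_of_not_dvd (by rwa [← even_iff_two_dvd])
      rw [h0, add_zero]
      exact val_mono hs (pow_sub_one_ne hq hi) (sub_one_dvd q i)
  · have := padicValNat.pow_sub_pow hodd hq h hnq hi
    rw [one_pow] at this
    omega

lemma lte_odd {s q i : ℕ} (hs : s.Prime) (hodd : Odd s) (hq : 1 < q) (h : s ∣ q - 1)
    (hi : i ≠ 0) :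
    padicValNat s (q ^ i - 1) = padicValNat s (q - 1) + padicValNat s i := by
  have := Fact.mk hs
  have := padicValNat.pow_sub_pow hodd hq h (not_dvd_q hs hq h) hi
  rwa [one_pow] at this

lemma geom (m i : ℕ) : m * (∑ j ∈ Finset.range i, (m + 1) ^ j) + 1 = (m + 1) ^ i := by
  induction i with
  | zero => simp
  | succ k ih =>
    rw [Finset.sum_range_succ, mul_add, pow_succ]
    have : m * (∑ j ∈ Finset.range k, (m + 1) ^ j) + m * (m + 1) ^ k + 1
        = (m * (∑ j ∈ Finset.range k, (m + 1) ^ j) + 1) + m * (m + 1) ^ k := by ring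
    rw [this, ih]
    ring

lemma even_geom (m i : ℕ) (hm : Even m) :
    Even (∑ j ∈ Finset.range i, (m + 1) ^ j) ↔ Even i := by
  induction i with
  | zero => simp
  | succ k ih =>
    rw [Finset.sum_range_succ, Nat.even_add, ih, Nat.even_add_one]
    have : ¬ Even ((m + 1) ^ k) := by
      rw [Nat.not_even_iff_odd]
      exact (hm.add_one).pow
    tauto

lemma even_of_dvd {q i : ℕ} (hq : 1 < q) (h2 : 2 ∣ q - 1) (h : 2 * (q - 1) ∣ q ^ i - 1) :
    Even i := by
  obtain ⟨m, rfl⟩ : ∃ m, q = m + 1 := ⟨q - 1, by omega⟩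
  simp only [Nat.add_sub_cancel] at h h2
  have hg := geom m i
  have h3 : (m + 1) ^ i - 1 = m * ∑ j ∈ Finset.range i, (m + 1) ^ j := by omega
  rw [h3, mul_comm 2 m] at h
  have hm : 0 < m := by omega
  have h5 := Nat.dvd_of_mul_dvd_mul_left hm h
  exact (even_geom m i (even_iff_two_dvd.2 h2)).1 (even_iff_two_dvd.2 h5)

lemma modEq_iff_dvd {q M i : ℕ} (hq : 1 < q) : q ^ i ≡ 1 [MOD M] ↔ M ∣ q ^ i - 1 := by
  rw [Nat.ModEq.comm, Nat.modEq_iff_dvd' (Nat.one_le_pow _ _ (by omega))]

lemma D_iff {q n i : ℕ} (hq : 1 < q) (hn : n ≠ 0) (hi : i ≠ 0) :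
    q ^ i ≡ 1 [MOD n * (q - 1)] ↔ ∀ s : ℕ, s.Prime →
      padicValNat s n + padicValNat s (q - 1) ≤ padicValNat s (q ^ i - 1) := by
  rw [modEq_iff_dvd hq, dvd_iff_val (Nat.mul_ne_zero hn (by omega)) (pow_sub_one_ne hq hi)]
  refine forall_congr' fun s => forall_congr' fun hs => ?_
  have := Fact.mk hs
  rw [padicValNat.mul hn (by omega)]

lemma forward {q n : ℕ} (hq : 1 < q) (hn : 1 < n)
    (h1 : ∀ r : ℕ, r.Prime → r ∣ n → r ∣ q - 1) (h4 : 4 ∣ n → 4 ∣ q - 1) :
    q ^ n ≡ 1 [MOD n * (q - 1)] ∧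
      ∀ i : ℕ, 0 < i → i < n → ¬ q ^ i ≡ 1 [MOD n * (q - 1)] := by
  constructor
  · rw [D_iff hq (by omega) (by omega)]
    intro s hs
    by_cases hsn : s ∣ n
    · have := lte_ge hs hq (h1 s hs hsn) (i := n) (by omega)
      omega
    · rw [padicValNat.eq_zero_of_not_dvd hsn, zero_add]
      exact val_mono hs (pow_sub_one_ne hq (by omega)) (sub_one_dvd q n)
  · intro i hi hin hD
    have hD' := hD
    rw [D_iff hq (by omega) (by omega)] at hD
    have hni : n ∣ i := by
      rw [dvd_iff_val (by omega) (by omega)]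
      intro s hs
      have := Fact.mk hs
      by_cases hsn : s ∣ n
      · have hsq := h1 s hs hsn
        rcases hs.eq_two_or_odd' with rfl | hodd
        · have hev : Even i := by
            apply even_of_dvd hq hsq
            have h5 : n * (q - 1) ∣ q ^ i - 1 := (modEq_iff_dvd hq).1 hD'
            exact (Nat.mul_dvd_mul_right hsn _).trans h5
          by_cases h4q : 4 ∣ q - 1
          · have e := padicValNat.pow_two_sub_one hq (not_dvd_q hs hq hsq) (by omega : i ≠ 0) hev
            have h1' : padicValNat 2 (q + 1) ≤ 1 := by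
              by_contra hc
              have h6 : 2 ^ 2 ∣ q + 1 := (padicValNat_dvd_iff_le (by omega)).2 (by omega)
              omega
            have := hD 2 hs
            omega
          · have h4n : ¬ 4 ∣ n := fun h => h4q (h4 h)
            have h7 : padicValNat 2 n ≤ 1 := by
              by_contra hc
              apply h4n
              have h6 : 2 ^ 2 ∣ n := (padicValNat_dvd_iff_le (by omega)).2 (by omega)
              simpa using h6
            have h8 : 1 ≤ padicValNat 2 i := one_le_padicValNat_of_dvd (by omega) hev.two_dvd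
            omega
        · have := hD s hs
          rw [lte_odd hs hodd hq hsq (by omega)] at this
          omega
      · rw [padicValNat.eq_zero_of_not_dvd hsn]
        exact Nat.zero_le _
    exact absurd (Nat.le_of_dvd hi hni) (by omega)

lemma val_div_ne {s r n : ℕ} (hs : s.Prime) (hr : r.Prime) (hne : s ≠ r) (hrn : r ∣ n) :
    padicValNat s (n / r) = padicValNat s n := by
  have := Fact.mk hs
  have := Fact.mk hr
  rw [padicValNat.div_of_dvd hrn, padicValNat_primes hne, Nat.sub_zero]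

lemma dvd_div_of_val_lt {g n r : ℕ} (hn : n ≠ 0) (hr : r.Prime) (hrn : r ∣ n) (hg : g ∣ n)
    (hv : padicValNat r g < padicValNat r n) : g ∣ n / r := by
  have hg0 : g ≠ 0 := by
    rintro rfl
    exact hn (Nat.eq_zero_of_zero_dvd hg)
  have hnr : n / r ≠ 0 := by
    have := Nat.div_pos (Nat.le_of_dvd (Nat.pos_of_ne_zero hn) hrn) hr.pos
    omega
  rw [dvd_iff_val hg0 hnr]
  intro t ht
  by_cases htr : t = r
  · subst htr
    have := Fact.mk ht
    rw [padicValNat.div hrn]
    omega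
  · rw [val_div_ne ht hr htr hrn]
    exact val_mono ht hn hg

lemma pow_sub_one_dvd_of_dvd (q : ℕ) {g i : ℕ} (h : g ∣ i) : q ^ g - 1 ∣ q ^ i - 1 := by
  obtain ⟨k, rfl⟩ := h
  rw [pow_mul]
  simpa using Nat.sub_dvd_pow_sub_pow (q ^ g) 1 k

lemma bad_case {q n r s : ℕ} (hq : 1 < q) (hn : 1 < n)
    (hD : n * (q - 1) ∣ q ^ n - 1) (hr : r.Prime) (hrn : r ∣ n)
    (hs : s.Prime) (hsn : s ∣ n) (hsr : s ≤ r) :
    padicValNat s n ≤ padicValNat s (q ^ (n / r) - 1) := by
  have := Fact.mk hs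
  have := Fact.mk hr
  have hi0 : n / r ≠ 0 := by
    have := Nat.div_pos (Nat.le_of_dvd (by omega) hrn) hr.pos
    omega
  set a := padicValNat s n with ha
  have ha1 : 1 ≤ a := one_le_padicValNat_of_dvd (by omega) hsn
  rw [← padicValNat_dvd_iff_le (pow_sub_one_ne hq hi0)]
  have hsa : s ^ a ∣ n := pow_padicValNat_dvd
  have h1 : s ^ a ∣ q ^ n - 1 := (hsa.trans (Dvd.intro _ rfl)).trans hD
  have hsq : ¬ s ∣ q := by
    intro h
    have h2 : s ∣ q ^ n := dvd_pow h (by omega)
    have h3 : s ∣ q ^ n - 1 := (dvd_pow_self s (by omega)).trans h1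
    have h4 : s ∣ q ^ n - (q ^ n - 1) := Nat.dvd_sub h2 h3
    have h5 : 1 ≤ q ^ n := Nat.one_le_pow _ _ (by omega)
    have h6 : q ^ n - (q ^ n - 1) = 1 := by omega
    rw [h6] at h4
    exact hs.one_lt.ne' (Nat.dvd_one.1 h4)
  have hcop : Nat.Coprime q (s ^ a) :=
    Nat.Coprime.pow_right _ ((Nat.Prime.coprime_iff_not_dvd hs).2 hsq).symm
  have h2 : s ^ a ∣ q ^ (Nat.totient (s ^ a)) - 1 :=
    (modEq_iff_dvd hq).1 (Nat.ModEq.pow_totient hcop)
  have h3 : s ^ a ∣ q ^ (Nat.gcd n (Nat.totient (s ^ a))) - 1 := by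
    rw [← Nat.pow_sub_one_gcd_pow_sub_one]
    exact Nat.dvd_gcd h1 h2
  refine h3.trans (pow_sub_one_dvd_of_dvd q ?_)
  apply dvd_div_of_val_lt (by omega) hr hrn (Nat.gcd_dvd_left _ _)
  have htot : Nat.totient (s ^ a) ≠ 0 := by
    have := Nat.totient_pos.2 (pow_pos hs.pos a)
    omega
  have h4 : padicValNat r (Nat.gcd n (Nat.totient (s ^ a))) ≤ padicValNat r (Nat.totient (s ^ a)) :=
    val_mono hr htot (Nat.gcd_dvd_right _ _)
  have hs1 : s - 1 ≠ 0 := by
    have := hs.one_lt
    omega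
  have h5 : padicValNat r (s - 1) = 0 := by
    apply padicValNat.eq_zero_of_not_dvd
    intro h
    have := Nat.le_of_dvd (by omega) h
    omega
  have h6 : padicValNat r (Nat.totient (s ^ a)) = padicValNat r (s ^ (a - 1)) := by
    rw [Nat.totient_prime_pow hs (by omega), padicValNat.mul (pow_ne_zero _ hs.ne_zero) hs1, h5,
      add_zero]
  have hrn1 : 1 ≤ padicValNat r n := one_le_padicValNat_of_dvd (by omega) hrn
  by_cases hsr' : s = r
  · subst hsr'
    rw [padicValNat.prime_pow] at h6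
    omega
  · have h7 : padicValNat r (s ^ (a - 1)) = 0 := by
      rw [padicValNat.pow, padicValNat_primes (Ne.symm hsr'), mul_zero]
    omega

lemma backward {q n : ℕ} (hq : 1 < q) (hn : 1 < n) (hD : q ^ n ≡ 1 [MOD n * (q - 1)])
    (hmin : ∀ i : ℕ, 0 < i → i < n → ¬ q ^ i ≡ 1 [MOD n * (q - 1)]) :
    (∀ r : ℕ, r.Prime → r ∣ n → r ∣ q - 1) ∧ (4 ∣ n → 4 ∣ q - 1) := by
  have hD' : n * (q - 1) ∣ q ^ n - 1 := (modEq_iff_dvd hq).1 hD
  have step1 : ∀ r : ℕ, r.Prime → r ∣ n → r ∣ q - 1 := by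
    by_contra hcon
    push Not at hcon
    obtain ⟨r0, hr0, hr0n, hr0q⟩ := hcon
    set B := n.primeFactors.filter (fun r => ¬ r ∣ q - 1) with hB
    have hBne : B.Nonempty := ⟨r0, by
      simp only [hB, Finset.mem_filter, Nat.mem_primeFactors]
      exact ⟨⟨hr0, hr0n, by omega⟩, hr0q⟩⟩
    obtain ⟨r, hrB, hmax⟩ := Finset.exists_max_image B id hBne
    simp only [hB, Finset.mem_filter, Nat.mem_primeFactors] at hrB
    obtain ⟨⟨hr, hrn, -⟩, hrq⟩ := hrB
    have hi0 : 0 < n / r := Nat.div_pos (Nat.le_of_dvd (by omega) hrn) hr.pos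
    have hin : n / r < n := Nat.div_lt_self (by omega) hr.one_lt
    apply hmin (n / r) hi0 hin
    rw [D_iff hq (by omega) (by omega)]
    intro s hs
    by_cases hsn : s ∣ n
    · by_cases hsq : s ∣ q - 1
      · have hne : s ≠ r := by
          rintro rfl
          exact hrq hsq
        have := lte_ge hs hq hsq (i := n / r) (by omega)
        rw [val_div_ne hs hr hne hrn] at this
        omega
      · have hsB : s ∈ B := by
          simp only [hB, Finset.mem_filter, Nat.mem_primeFactors]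
          exact ⟨⟨hs, hsn, by omega⟩, hsq⟩
        have hsr : s ≤ r := hmax s hsB
        rw [padicValNat.eq_zero_of_not_dvd hsq, add_zero]
        exact bad_case hq hn hD' hr hrn hs hsn hsr
    · rw [padicValNat.eq_zero_of_not_dvd hsn, zero_add]
      exact val_mono hs (pow_sub_one_ne hq (by omega)) (sub_one_dvd q _)
  refine ⟨step1, ?_⟩
  intro h4n
  by_contra h4q
  have h2n : 2 ∣ n := by omega
  have h2q : 2 ∣ q - 1 := step1 2 Nat.prime_two h2n
  have hi0 : 0 < n / 2 := by omega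
  have hin : n / 2 < n := by omega
  apply hmin (n / 2) hi0 hin
  rw [D_iff hq (by omega) (by omega)]
  intro s hs
  have := Fact.mk hs
  by_cases hsn : s ∣ n
  · by_cases hs2 : s = 2
    · subst hs2
      have hev : Even (n / 2) := by
        rw [even_iff_two_dvd]
        omega
      have e := padicValNat.pow_two_sub_one hq (not_dvd_q hs hq h2q) (by omega : n / 2 ≠ 0) hev
      have h5 : 2 ≤ padicValNat 2 (q + 1) := by
        rw [← padicValNat_dvd_iff_le (by omega)]
        omega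
      have h6 : padicValNat 2 (n / 2) = padicValNat 2 n - 1 := padicValNat.div h2n
      have h7 : 1 ≤ padicValNat 2 n := one_le_padicValNat_of_dvd (by omega) h2n
      omega
    · have := lte_ge hs hq (step1 s hs hsn) (i := n / 2) (by omega)
      rw [val_div_ne hs Nat.prime_two hs2 h2n] at this
      omega
  · rw [padicValNat.eq_zero_of_not_dvd hsn, zero_add]
    exact val_mono hs (pow_sub_one_ne hq (by omega)) (sub_one_dvd q _)

/-- The Dickson pair condition: for a prime power `q` and `n > 1`, (every prime factor of `n` divides `q - 1`, and `4 ∣ n → 4 ∣ q - 1`) holds exactly when `q ^ n ≡ 1` modulo `n * (q - 1)` but `q ^ i` is not, for `0 < i < n`. -/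
theorem result (q n : ℕ) (hq : IsPrimePow q) (hn : 1 < n) : ((∀ r : ℕ, r.Prime → r ∣ n → r ∣ q - 1) ∧ (4 ∣ n → 4 ∣ q - 1)) ↔ (q ^ n ≡ 1 [MOD n * (q - 1)] ∧ ∀ i : ℕ, 0 < i → i < n → ¬ q ^ i ≡ 1 [MOD n * (q - 1)]) := by
  have hq1 : 1 < q := hq.one_lt
  exact ⟨fun h => forward hq1 hn h.1 h.2, fun h => backward hq1 hn h.1 h.2⟩

end Cfsg.Agent.S0694
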