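import Cfsg.Statements.S0695
import Mathlib
import Cfsg.Agent.Lib.Helper5.RegNormal

set_option autoImplicit false
open Cfsg

namespace Cfsg.Agent.S0695

open Cfsg.Agent.Lib.Helper5

/-- A regular normal subgroup of a doubly primitive group of finite degree at least 2 is an elementary abelian 2-group (and the degree is a power of 2), unless the degree is 3. -/
theorem result {G : Type*} [Group G] {X : Type*} [Fintype X] [MulAction G X] (hX : 2 ≤ Fintype.card X) (h2 : MulAction.IsMultiplyPreprimitive G X 2) (N : Subgroup G) [N.Normal] (htrans : MulAction.IsPretransitive N X) (hreg : ∀ x : X, MulAction.stabilizer N x = ⊥) : Fintype.card X = 3 ∨ (IsMulCommutative N ∧ (∀ n ∈ N, n ^ 2 = 1) ∧ ∃ m : ℕ, Fintype.card X = 2 ^ m) := by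
  classical
  haveI : Nonempty X := Fintype.card_pos_iff.mp (by omega)
  obtain ⟨x⟩ : Nonempty X := inferInstance
  have hprim : MulAction.IsPreprimitive (fixingSubgroup G ({x} : Set X)) (SubMulAction.ofFixingSubgroup G ({x} : Set X)) :=
    h2.isPreprimitive_ofFixingSubgroup (s := {x}) (by rw [Set.encard_singleton]; norm_num)
  have key : ∀ n ∈ N, n ≠ 1 → n ^ 2 = 1 ∨ ({n • x, n⁻¹ • x} : Set X) = {x}ᶜ := by
    intro n hn hn1
    have hne : ∀ m ∈ N, m ≠ 1 → m • x ≠ x := by
      intro m hm hm1 h
      apply hm1
      exact reg_inj hreg hm N.one_mem (x := x) (by rw [h, one_smul])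
    have h3 := trivial_of_block_compl ({x} : Set X) hprim {n • x, n⁻¹ • x}
      (by
        rintro y (rfl | hy)
        · exact hne n hn hn1
        · rw [Set.mem_singleton_iff] at hy
          rw [hy]
          exact hne _ (N.inv_mem hn) (inv_ne_one.mpr hn1))
      (by
        intro g hg hex
        have hgx : g • x = x := hg x rfl
        have hn' : g * n * g⁻¹ ∈ N := ‹N.Normal›.conj_mem n hn g
        have e1 : g • n • x = (g * n * g⁻¹) • x := smul_smul_conj g n hgx
        have e2 : g • n⁻¹ • x = (g * n * g⁻¹)⁻¹ • x := by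
          rw [smul_smul_conj g n⁻¹ hgx]; congr 1; group
        have hcase : g * n * g⁻¹ = n ∨ g * n * g⁻¹ = n⁻¹ := by
          obtain ⟨y, hy, hgy⟩ := hex
          rcases hy with rfl | hy
          · rw [e1] at hgy
            rcases hgy with h | h
            · exact Or.inl (reg_inj hreg hn' hn h)
            · exact Or.inr (reg_inj hreg hn' (N.inv_mem hn) h)
          · rw [Set.mem_singleton_iff] at hy
            rw [hy, e2] at hgy
            rcases hgy with h | h
            · right
              have := reg_inj hreg (N.inv_mem hn') hn h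
              exact inv_eq_iff_eq_inv.mp this
            · left
              have := reg_inj hreg (N.inv_mem hn') (N.inv_mem hn) h
              exact inv_injective this
        rintro y (rfl | hy)
        · rw [e1]
          rcases hcase with h | h <;> rw [h] <;> simp
        · rw [Set.mem_singleton_iff] at hy
          rw [hy, e2]
          rcases hcase with h | h <;> rw [h] <;> simp)
    rcases h3 with h3 | h3
    · left
      have h4 := h3 (Set.mem_insert _ _) (Set.mem_insert_of_mem _ rfl)
      have h5 := reg_inj hreg hn (N.inv_mem hn) h4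
      rw [pow_two]
      nth_rewrite 1 [h5]
      exact inv_mul_cancel n
    · exact Or.inr h3
  by_cases hall : ∀ n ∈ N, n ^ 2 = 1
  · right
    refine ⟨comm_of_sq hall, hall, ?_⟩
    have hc := reg_card htrans hreg x
    haveI : Finite N := Nat.finite_of_card_ne_zero (by rw [hc, Nat.card_eq_fintype_card]; omega)
    haveI : Fact (Nat.Prime 2) := ⟨Nat.prime_two⟩
    have hp : IsPGroup 2 N := fun g => ⟨1, by rw [pow_one]; exact Subtype.ext (hall g.1 g.2)⟩
    obtain ⟨m, hm⟩ := IsPGroup.iff_card.mp hp
    exact ⟨m, by rw [← Nat.card_eq_fintype_card, ← hc, hm]⟩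
  · left
    push Not at hall
    obtain ⟨n, hn, hn2⟩ := hall
    have hn1 : n ≠ 1 := fun h => hn2 (by rw [h, one_pow])
    have h3 := (key n hn hn1).resolve_left hn2
    have h4 : (Finset.univ : Finset X) = {x, n • x, n⁻¹ • x} := by
      symm
      rw [Finset.eq_univ_iff_forall]
      intro y
      by_cases hy : y = x
      · simp [hy]
      · have : y ∈ ({n • x, n⁻¹ • x} : Set X) := by rw [h3]; exact hy
        simp only [Set.mem_insert_iff, Set.mem_singleton_iff] at this
        simp [this]
    rw [← Finset.card_univ, h4]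
    have d1 : x ≠ n • x := fun h => hn1 (reg_inj hreg hn N.one_mem (x := x) (by rw [← h, one_smul]))
    have d2 : x ≠ n⁻¹ • x := fun h => (inv_ne_one.mpr hn1) (reg_inj hreg (N.inv_mem hn) N.one_mem (x := x) (by rw [← h, one_smul]))
    have d3 : n • x ≠ n⁻¹ • x := by
      intro h
      have h5 := reg_inj hreg hn (N.inv_mem hn) h
      apply hn2
      rw [pow_two]
      nth_rewrite 1 [h5]
      exact inv_mul_cancel n
    exact Finset.card_eq_three.mpr ⟨_, _, _, d1, d2, d3, rfl⟩

end Cfsg.Agent.S0695
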