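import Cfsg.Statements.S0696
import Mathlib
import Cfsg.Agent.Lib.Helper5.RegNormal
import Cfsg.Agent.S0695

set_option autoImplicit false
open Cfsg

namespace Cfsg.Agent.S0696

open Cfsg.Agent.Lib.Helper5

/-- A triply primitive group of degree at least 3 having a regular normal subgroup has degree 3 or 4. -/
theorem result {G : Type*} [Group G] {X : Type*} [Fintype X] [MulAction G X] (hX : 3 ≤ Fintype.card X) (h3 : MulAction.IsMultiplyPreprimitive G X 3) (N : Subgroup G) [N.Normal] (htrans : MulAction.IsPretransitive N X) (hreg : ∀ x : X, MulAction.stabilizer N x = ⊥) : Fintype.card X = 3 ∨ Fintype.card X = 4 := by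
  classical
  have h2 : MulAction.IsMultiplyPreprimitive G X 2 :=
    MulAction.isMultiplyPreprimitive_of_le G X h3 (by norm_num) (by
      rw [ENat.card_eq_coe_fintype_card]; exact_mod_cast hX)
  rcases Cfsg.Agent.S0695.result (by omega) h2 N htrans hreg with h | ⟨hcomm, hsq, _⟩
  · exact Or.inl h
  right
  haveI : Nonempty X := Fintype.card_pos_iff.mp (by omega)
  obtain ⟨x⟩ : Nonempty X := inferInstance
  have hex : ∀ s : Finset X, s.card < Fintype.card X → ∃ y, y ∉ s := by
    intro s hs
    by_contra hcon
    push Not at hcon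
    have : s = Finset.univ := Finset.eq_univ_iff_forall.mpr hcon
    rw [this, Finset.card_univ] at hs
    exact lt_irrefl _ hs
  obtain ⟨y, hy⟩ := hex {x} (by rw [Finset.card_singleton]; omega)
  obtain ⟨w, hw⟩ := hex {x, y} (lt_of_le_of_lt Finset.card_le_two (by omega))
  simp only [Finset.mem_insert, Finset.mem_singleton, not_or] at hy hw
  obtain ⟨n, hn⟩ := htrans.exists_smul_eq x y
  obtain ⟨m, hm⟩ := htrans.exists_smul_eq x w
  have hn' : n.1 • x = y := hn
  have hm' : m.1 • x = w := hm
  have hprim : MulAction.IsPreprimitive (fixingSubgroup G ({x, y} : Set X)) (SubMulAction.ofFixingSubgroup G ({x, y} : Set X)) :=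
    h3.isPreprimitive_ofFixingSubgroup (s := {x, y}) (by
      rw [Set.encard_pair (Ne.symm hy)]; norm_num)
  have hinv : ∀ a ∈ N, a⁻¹ = a := by
    intro a ha
    have := hsq a ha
    rw [pow_two] at this
    exact inv_eq_of_mul_eq_one_left this
  have hn1 : n.1 ≠ 1 := by
    intro h; rw [h, one_smul] at hn'; exact hy hn'.symm
  have hmn : (m.1 * n.1) ∈ N := N.mul_mem m.2 n.2
  have hcm : ∀ a ∈ N, ∀ b ∈ N, a * b = b * a := fun a ha b hb =>
    congrArg Subtype.val (hcomm.is_comm.comm ⟨a, ha⟩ ⟨b, hb⟩)
  have d1 : (m.1 * n.1) • x ≠ x := by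
    intro h
    have h5 := reg_inj hreg hmn N.one_mem (x := x) (by rw [h, one_smul])
    have h6 : m.1 = n.1 := by
      rw [← hinv n.1 n.2]; exact eq_inv_of_mul_eq_one_left h5
    apply hw.2
    rw [← hm', h6, hn']
  have d2 : (m.1 * n.1) • x ≠ y := by
    intro h
    rw [← hn'] at h
    have h5 := reg_inj hreg hmn n.2 h
    have h6 : m.1 = 1 := by simpa using h5
    apply hw.1
    rw [← hm', h6, one_smul]
  have h4 := trivial_of_block_compl ({x, y} : Set X) hprim {m.1 • x, (m.1 * n.1) • x}
    (by
      rintro z (rfl | hz)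
      · rw [hm']
        simp only [Set.mem_insert_iff, Set.mem_singleton_iff, not_or]
        exact hw
      · rw [Set.mem_singleton_iff] at hz
        rw [hz]
        simp only [Set.mem_insert_iff, Set.mem_singleton_iff, not_or]
        exact ⟨d1, d2⟩)
    (by
      intro g hg hex
      have hgx : g • x = x := hg x (Set.mem_insert _ _)
      have hgy : g • y = y := hg y (Set.mem_insert_of_mem _ rfl)
      have hgn : g * n.1 * g⁻¹ = n.1 := by
        apply reg_inj hreg (‹N.Normal›.conj_mem n.1 n.2 g) n.2 (x := x)
        rw [← smul_smul_conj g n.1 hgx, hn', hgy]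
      set m' := g * m.1 * g⁻¹ with hm'def
      have hm'N : m' ∈ N := ‹N.Normal›.conj_mem m.1 m.2 g
      have e1 : g • m.1 • x = m' • x := smul_smul_conj g m.1 hgx
      have e2 : g • (m.1 * n.1) • x = (m' * n.1) • x := by
        rw [smul_smul_conj g _ hgx]
        congr 1
        nth_rewrite 2 [← hgn]
        rw [hm'def]; group
      have hnn : n.1 * n.1 = 1 := by have := hsq n.1 n.2; rwa [pow_two] at this
      have hcase : m' = m.1 ∨ m' = m.1 * n.1 := by
        obtain ⟨z, hz, hgz⟩ := hex
        rcases hz with rfl | hz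
        · rw [e1] at hgz
          rcases hgz with h | h
          · exact Or.inl (reg_inj hreg hm'N m.2 h)
          · exact Or.inr (reg_inj hreg hm'N hmn h)
        · rw [Set.mem_singleton_iff] at hz
          rw [hz, e2] at hgz
          rcases hgz with h | h
          · right
            have := reg_inj hreg (N.mul_mem hm'N n.2) m.2 h
            rw [← this, mul_assoc, hnn, mul_one]
          · left
            have := reg_inj hreg (N.mul_mem hm'N n.2) hmn h
            exact mul_right_cancel this
      rintro z (rfl | hz)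
      · rw [e1]
        rcases hcase with h | h <;> rw [h] <;> simp
      · rw [Set.mem_singleton_iff] at hz
        rw [hz, e2]
        rcases hcase with h | h
        · rw [h]; simp
        · rw [h, mul_assoc, hnn, mul_one]; simp)
  have d3 : m.1 • x ≠ (m.1 * n.1) • x := by
    intro h
    have h5 := reg_inj hreg m.2 hmn h
    apply hn1
    simpa using h5.symm
  rcases h4 with h4 | h4
  · exact absurd (h4 (Set.mem_insert _ _) (Set.mem_insert_of_mem _ rfl)) d3
  · have h5 : (Finset.univ : Finset X) = {x, y, m.1 • x, (m.1 * n.1) • x} := by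
      symm
      rw [Finset.eq_univ_iff_forall]
      intro z
      by_cases hz : z ∈ ({x, y} : Set X)
      · simp only [Set.mem_insert_iff, Set.mem_singleton_iff] at hz
        rcases hz with hz | hz <;> simp [hz]
      · have : z ∈ ({m.1 • x, (m.1 * n.1) • x} : Set X) := by rw [h4]; exact hz
        simp only [Set.mem_insert_iff, Set.mem_singleton_iff] at this
        rcases this with hz | hz <;> simp [hz]
    rw [← Finset.card_univ, h5]
    rw [Finset.card_insert_of_notMem, Finset.card_insert_of_notMem, Finset.card_pair d3]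
    · simp only [Finset.mem_insert, Finset.mem_singleton, not_or]
      exact ⟨by rw [hm']; exact Ne.symm hw.2, Ne.symm d2⟩
    · simp only [Finset.mem_insert, Finset.mem_singleton, not_or]
      exact ⟨Ne.symm hy, by rw [hm']; exact Ne.symm hw.1, Ne.symm d1⟩

end Cfsg.Agent.S0696
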