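import Cfsg.Statements.S0698
import Mathlib
import Cfsg.Agent.Lib.Helper5.MinDeg

set_option autoImplicit false
open Cfsg

namespace Cfsg.Agent.S0698

open Equiv Equiv.Perm MulAction
open Cfsg.Agent.Lib.Helper5.MinDeg

section J
variable {α : Type*} [Fintype α] [DecidableEq α]

def Fx (F : Finset α) (t : Perm α) : Prop := ∀ x ∈ F, t x = x

lemma Fx.mul {F : Finset α} {s t : Perm α} (hs : Fx F s) (ht : Fx F t) : Fx F (s * t) := by
  intro x hx
  rw [Perm.mul_apply, ht x hx, hs x hx]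

lemma Fx.inv {F : Finset α} {t : Perm α} (ht : Fx F t) : Fx F t⁻¹ := by
  intro x hx
  rw [Perm.inv_eq_iff_eq, ht x hx]

lemma Fx.notin {F : Finset α} {t : Perm α} (ht : Fx F t) {y : α} (hy : y ∉ F) : t y ∉ F := by
  intro h
  have := ht _ h
  exact hy (t.injective this ▸ h)

lemma Fx.ins {F : Finset α} {t : Perm α} (ht : Fx F t) {c : α} (hc : t c = c) :
    Fx (insert c F) t := by
  intro x hx
  rcases Finset.mem_insert.1 hx with rfl | h
  · exact hc
  · exact ht x h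

lemma Fx.of_insert {F : Finset α} {t : Perm α} {c : α} (ht : Fx (insert c F) t) :
    Fx F t ∧ t c = c :=
  ⟨fun x hx => ht x (Finset.mem_insert_of_mem hx), ht c (Finset.mem_insert_self _ _)⟩

lemma ex_notin (S : Finset α) (h : S.card < Fintype.card α) : ∃ d, d ∉ S := by
  by_contra hc
  push Not at hc
  have : S = Finset.univ := Finset.eq_univ_iff_forall.2 hc
  rw [this, Finset.card_univ] at h
  exact lt_irrefl _ h

lemma inv_app (t : Perm α) (x : α) : t⁻¹ (t x) = x := by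
  rw [← Perm.mul_apply, inv_mul_cancel, Perm.one_apply]

variable (G N : Subgroup (Perm α)) (k : ℕ)

def TG : Prop := ∀ F : Finset α, F.card + 1 ≤ k → ∀ b b', b ∉ F → b' ∉ F →
  ∃ t ∈ G, Fx F t ∧ t b = b'

variable {G N k}

lemma two (hT : TG G k) {F : Finset α} (hF : F.card + 2 ≤ k) {a a' b b' : α} (ha : a ∉ F)
    (ha' : a' ∉ F) (hb : b ∉ F) (hb' : b' ∉ F) (haa : a ≠ a') (hbb : b ≠ b') :
    ∃ g ∈ G, Fx F g ∧ g a = b ∧ g a' = b' := by
  obtain ⟨t1, h1G, h1F, h1⟩ := hT F (by omega) a b ha hb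
  have hc : (insert b F).card + 1 ≤ k := by
    have := Finset.card_insert_le b F
    omega
  have hn1 : t1 a' ∉ insert b F := by
    rw [Finset.mem_insert]
    rintro (h | h)
    · exact haa (t1.injective (h1.trans h.symm))
    · exact h1F.notin ha' h
  have hn2 : b' ∉ insert b F := by
    rw [Finset.mem_insert]
    rintro (h | h)
    · exact hbb h.symm
    · exact hb' h
  obtain ⟨t2, h2G, h2F, h2⟩ := hT _ hc _ _ hn1 hn2
  obtain ⟨h2F', h2b⟩ := h2F.of_insert
  refine ⟨t2 * t1, G.mul_mem h2G h1G, h2F'.mul h1F, ?_, ?_⟩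
  · rw [Perm.mul_apply, h1, h2b]
  · rw [Perm.mul_apply, h2]

lemma trans' (hT : TG G k) (hn : ∀ g ∈ G, ∀ t ∈ N, g * t * g⁻¹ ∈ N) {F : Finset α}
    (hF : F.card + 2 ≤ k) (hm : ∃ m ∈ N, Fx F m ∧ m ≠ 1) {b b' : α} (hb : b ∉ F) (hb' : b' ∉ F) :
    ∃ t ∈ N, Fx F t ∧ t b = b' := by
  obtain ⟨m, hmN, hmF, hm1⟩ := hm
  by_cases hbb : b = b'
  · exact ⟨1, N.one_mem, fun _ _ => rfl, hbb⟩
  obtain ⟨a, ha⟩ : ∃ a, m a ≠ a := by
    by_contra hc
    push Not at hc
    exact hm1 (Equiv.ext hc)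
  have haF : a ∉ F := fun h => ha (hmF a h)
  obtain ⟨g, hgG, hgF, hg1, hg2⟩ := two hT hF haF (hmF.notin haF) hb hb' (Ne.symm ha) hbb
  refine ⟨g * m * g⁻¹, hn g hgG m hmN, (hgF.mul hmF).mul hgF.inv, ?_⟩
  rw [Perm.mul_apply, Perm.mul_apply, ← hg1, inv_app, hg2]

/-- commuting lemma -/
lemma comm' (hn : ∀ g ∈ G, ∀ t ∈ N, g * t * g⁻¹ ∈ N) {F : Finset α}
    (hsr : ∀ r ∈ N, Fx F r → ∀ x, x ∉ F → r x = x → r = 1)
    {g r : Perm α} (hg : g ∈ G) (hgF : Fx F g) (hr : r ∈ N) (hrF : Fx F r) {a : α} (ha : a ∉ F)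
    (hga : g a = a) (hgb : g (r a) = r a) : g * r = r * g := by
  have h1 : r⁻¹ * (g * r * g⁻¹) = 1 := by
    apply hsr _ (N.mul_mem (N.inv_mem hr) (hn g hg r hr))
      (hrF.inv.mul ((hgF.mul hrF).mul hgF.inv)) a ha
    have : g⁻¹ a = a := by rw [Perm.inv_eq_iff_eq, hga]
    rw [Perm.mul_apply, Perm.mul_apply, Perm.mul_apply, this, hgb, inv_app]
  have h2 : g * r * g⁻¹ = r := by
    have := congrArg (fun z => r * z) h1
    simpa [mul_assoc] using this
  calc g * r = g * r * g⁻¹ * g := by group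
    _ = r * g := by rw [h2]

lemma sq' (hT : TG G k) (hn : ∀ g ∈ G, ∀ t ∈ N, g * t * g⁻¹ ∈ N) (hk : k < Fintype.card α)
    {F : Finset α} (hF : F.card + 3 ≤ k)
    (hsr : ∀ r ∈ N, Fx F r → ∀ x, x ∉ F → r x = x → r = 1)
    {r : Perm α} (hr : r ∈ N) (hrF : Fx F r) : r * r = 1 := by
  by_contra hne
  have hr1 : r ≠ 1 := by rintro rfl; exact hne (one_mul 1)
  obtain ⟨a, ha⟩ := ex_notin F (by omega)
  have hb : r a ∉ F := hrF.notin ha
  have hc : r⁻¹ a ∉ F := hrF.inv.notin ha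
  have hba : r a ≠ a := fun h => hr1 (hsr r hr hrF a ha h)
  have hca : r⁻¹ a ≠ a := by
    intro h
    rw [Perm.inv_eq_iff_eq] at h
    exact hba h.symm
  have hbc : r a ≠ r⁻¹ a := by
    intro h
    apply hne
    apply hsr _ (N.mul_mem hr hr) (hrF.mul hrF) a ha
    rw [Perm.mul_apply, h, app_inv]
  have hcard : (insert a (insert (r a) (insert (r⁻¹ a) F))).card ≤ F.card + 3 := by
    have h1 := Finset.card_insert_le a (insert (r a) (insert (r⁻¹ a) F))
    have h2 := Finset.card_insert_le (r a) (insert (r⁻¹ a) F)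
    have h3 := Finset.card_insert_le (r⁻¹ a) F
    omega
  obtain ⟨d, hd⟩ := ex_notin _ (lt_of_le_of_lt hcard (by omega))
  simp only [Finset.mem_insert, not_or] at hd
  obtain ⟨hda, hdb, hdc, hdF⟩ := hd
  have hcard2 : (insert a (insert (r a) F)).card + 1 ≤ k := by
    have h1 := Finset.card_insert_le a (insert (r a) F)
    have h2 := Finset.card_insert_le (r a) F
    omega
  obtain ⟨g, hgG, hgF, hg⟩ := hT _ hcard2 (r⁻¹ a) d
    (by simp only [Finset.mem_insert, not_or]; exact ⟨hca, hbc.symm, hc⟩)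
    (by simp only [Finset.mem_insert, not_or]; exact ⟨hda, hdb, hdF⟩)
  obtain ⟨hgF1, hga⟩ := hgF.of_insert
  obtain ⟨hgF2, hgb⟩ := hgF1.of_insert
  have hcm := comm' hn hsr hgG hgF2 hr hrF ha hga hgb
  have h1 : r (g (r⁻¹ a)) = a := by
    rw [← Perm.mul_apply, ← hcm, Perm.mul_apply, app_inv, hga]
  rw [hg] at h1
  apply hdc
  rw [← h1, inv_app]

lemma four' (hT : TG G k) (hn : ∀ g ∈ G, ∀ t ∈ N, g * t * g⁻¹ ∈ N) (hk : k < Fintype.card α)
    {F : Finset α} (hF : F.card + 4 ≤ k)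
    (hsr : ∀ r ∈ N, Fx F r → ∀ x, x ∉ F → r x = x → r = 1)
    {r : Perm α} (hr : r ∈ N) (hrF : Fx F r) (hr1 : r ≠ 1) : False := by
  have hsq : r * r = 1 := sq' hT hn hk (by omega) hsr hr hrF
  obtain ⟨a, ha⟩ := ex_notin F (by omega)
  have hb : r a ∉ F := hrF.notin ha
  have hba : r a ≠ a := fun h => hr1 (hsr r hr hrF a ha h)
  have hcard0 : (insert a (insert (r a) F)).card ≤ F.card + 2 := by
    have h1 := Finset.card_insert_le a (insert (r a) F)
    have h2 := Finset.card_insert_le (r a) F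
    omega
  obtain ⟨c, hc⟩ := ex_notin _ (lt_of_le_of_lt hcard0 (by omega))
  simp only [Finset.mem_insert, not_or] at hc
  obtain ⟨hca, hcb, hcF⟩ := hc
  have heF : r c ∉ F := hrF.notin hcF
  have hec : r c ≠ c := fun h => hr1 (hsr r hr hrF c hcF h)
  have heb : r c ≠ r a := fun h => hca (r.injective h)
  have hea : r c ≠ a := by
    intro h
    apply hcb
    have : r (r c) = c := by rw [← Perm.mul_apply, hsq, Perm.one_apply]
    rw [← this, h]
  have hcard : (insert a (insert (r a) (insert c (insert (r c) F)))).card ≤ F.card + 4 := by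
    have h1 := Finset.card_insert_le a (insert (r a) (insert c (insert (r c) F)))
    have h2 := Finset.card_insert_le (r a) (insert c (insert (r c) F))
    have h3 := Finset.card_insert_le c (insert (r c) F)
    have h4 := Finset.card_insert_le (r c) F
    omega
  obtain ⟨d, hd⟩ := ex_notin _ (lt_of_le_of_lt hcard (by omega))
  simp only [Finset.mem_insert, not_or] at hd
  obtain ⟨hda, hdb, hdc, hde, hdF⟩ := hd
  have hcard2 : (insert a (insert (r a) (insert c F))).card + 1 ≤ k := by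
    have h1 := Finset.card_insert_le a (insert (r a) (insert c F))
    have h2 := Finset.card_insert_le (r a) (insert c F)
    have h3 := Finset.card_insert_le c F
    omega
  obtain ⟨g, hgG, hgF, hg⟩ := hT _ hcard2 (r c) d
    (by simp only [Finset.mem_insert, not_or]; exact ⟨hea, heb, hec, heF⟩)
    (by simp only [Finset.mem_insert, not_or]; exact ⟨hda, hdb, hdc, hdF⟩)
  obtain ⟨hgF1, hga⟩ := hgF.of_insert
  obtain ⟨hgF2, hgb⟩ := hgF1.of_insert
  obtain ⟨hgF3, hgc⟩ := hgF2.of_insert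
  have hcm := comm' hn hsr hgG hgF3 hr hrF ha hga hgb
  have h1 : g (r c) = r c := by
    rw [← Perm.mul_apply, hcm, Perm.mul_apply, hgc]
  exact hde (hg.symm.trans h1)

lemma invol' {F : Finset α} {c : α} (hc : c ∉ F) (hcard : F.card + 4 ≤ Fintype.card α)
    (tr1 : ∀ b b', b ∉ F → b' ∉ F → ∃ t ∈ N, Fx F t ∧ t b = b')
    (tr0 : ∀ b b', b ∉ insert c F → b' ∉ insert c F → ∃ t ∈ N, Fx (insert c F) t ∧ t b = b')
    (sr0 : ∀ r ∈ N, Fx (insert c F) r → ∀ x, x ∉ insert c F → r x = x → r = 1)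
    (sq0 : ∀ r ∈ N, Fx (insert c F) r → r * r = 1) : False := by
  -- (i)
  have sharp : ∀ u ∈ N, Fx F u → ∀ β γ, β ∉ F → γ ∉ F → β ≠ γ → u β = β → u γ = γ → u = 1 := by
    intro u hu huF β γ hβ hγ hne h1 h2
    obtain ⟨h, hhN, hhF, hh⟩ := tr1 c β hc hβ
    have hfix : (h⁻¹ * u * h) c = c := by
      rw [Perm.mul_apply, Perm.mul_apply, hh, h1, ← hh, inv_app]
    have h3 : h⁻¹ * u * h = 1 := by
      apply sr0 _ (N.mul_mem (N.mul_mem (N.inv_mem hhN) hu) hhN)
        (((hhF.inv.mul huF).mul hhF).ins hfix) (h⁻¹ γ)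
      · rw [Finset.mem_insert, not_or]
        refine ⟨?_, hhF.inv.notin hγ⟩
        intro h4
        rw [Perm.inv_eq_iff_eq, hh] at h4
        exact hne h4.symm
      · rw [Perm.mul_apply, Perm.mul_apply, app_inv, h2]
    calc u = h * (h⁻¹ * u * h) * h⁻¹ := by group
      _ = 1 := by rw [h3]; group
  have sqs : ∀ s ∈ N, Fx F s → ∀ δ, δ ∉ F → s δ = δ → s * s = 1 := by
    intro s hs hsF δ hδ h1
    obtain ⟨h, hhN, hhF, hh⟩ := tr1 c δ hc hδ
    have hfix : (h⁻¹ * s * h) c = c := by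
      rw [Perm.mul_apply, Perm.mul_apply, hh, h1, ← hh, inv_app]
    have h3 := sq0 _ (N.mul_mem (N.mul_mem (N.inv_mem hhN) hs) hhN)
      (((hhF.inv.mul hsF).mul hhF).ins hfix)
    calc s * s = h * ((h⁻¹ * s * h) * (h⁻¹ * s * h)) * h⁻¹ := by group
      _ = 1 := by rw [h3]; group
  have mv : ∀ δ β γ, δ ∉ F → β ∉ F → γ ∉ F → β ≠ δ → γ ≠ δ →
      ∃ s ∈ N, Fx F s ∧ s δ = δ ∧ s β = γ := by
    intro δ β γ hδ hβ hγ h1 h2
    obtain ⟨h, hhN, hhF, hh⟩ := tr1 c δ hc hδ
    have hn1 : ∀ z, z ∉ F → z ≠ δ → h⁻¹ z ∉ insert c F := by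
      intro z hz hzd
      rw [Finset.mem_insert, not_or]
      refine ⟨?_, hhF.inv.notin hz⟩
      intro h4
      rw [Perm.inv_eq_iff_eq, hh] at h4
      exact hzd h4
    obtain ⟨r, hrN, hrF, hr⟩ := tr0 _ _ (hn1 β hβ h1) (hn1 γ hγ h2)
    obtain ⟨hrF', hrc⟩ := hrF.of_insert
    refine ⟨h * r * h⁻¹, N.mul_mem (N.mul_mem hhN hrN) (N.inv_mem hhN),
      (hhF.mul hrF').mul hhF.inv, ?_, ?_⟩
    · rw [Perm.mul_apply, Perm.mul_apply, ← hh, inv_app, hrc]
    · rw [Perm.mul_apply, Perm.mul_apply, hr, app_inv]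
  have hc1 : (insert c F).card ≤ F.card + 1 := Finset.card_insert_le c F
  obtain ⟨β, hβ⟩ := ex_notin (insert c F) (by omega)
  have hc2 : (insert β (insert c F)).card ≤ F.card + 2 := by
    have := Finset.card_insert_le β (insert c F)
    omega
  obtain ⟨γ, hγ⟩ := ex_notin (insert β (insert c F)) (by omega)
  have hγ' : γ ∉ insert c F := fun h => hγ (Finset.mem_insert_of_mem h)
  have hγβ : γ ≠ β := fun h => hγ (h ▸ Finset.mem_insert_self _ _)
  obtain ⟨t, htN, htF, ht⟩ := tr0 β γ hβ hγ'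
  have hc3 : (insert γ (insert β (insert c F))).card ≤ F.card + 3 := by
    have := Finset.card_insert_le γ (insert β (insert c F))
    omega
  obtain ⟨δ, hδ⟩ := ex_notin (insert γ (insert β (insert c F))) (by omega)
  simp only [Finset.mem_insert, not_or] at hδ hβ hγ'
  obtain ⟨hδγ, hδβ, hδc, hδF⟩ := hδ
  obtain ⟨s, hsN, hsF, hsδ, hsβ⟩ := mv δ β γ hδF hβ.2 hγ'.2 (Ne.symm hδβ) (Ne.symm hδγ)
  obtain ⟨htF', htc⟩ := htF.of_insert
  have hss := sqs s hsN hsF δ hδF hsδ
  have htt := sq0 t htN htF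
  have hsγ : s γ = β := by rw [← hsβ, ← Perm.mul_apply, hss, Perm.one_apply]
  have htγ : t γ = β := by rw [← ht, ← Perm.mul_apply, htt, Perm.one_apply]
  have hts : t * s = 1 := by
    apply sharp _ (N.mul_mem htN hsN) (htF'.mul hsF) β γ hβ.2 hγ'.2 (Ne.symm hγβ)
    · rw [Perm.mul_apply, hsβ, htγ]
    · rw [Perm.mul_apply, hsγ, ht]
  have htδ : t δ = δ := by
    have := congrArg (fun z : Perm α => z δ) hts
    simpa [hsδ] using this
  have ht1 : t = 1 := sharp t htN htF' c δ hc hδF (Ne.symm hδc) htc htδ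
  rw [ht1, Perm.one_apply] at ht
  exact hγβ ht.symm

lemma main' (hT : TG G k) (hn : ∀ g ∈ G, ∀ t ∈ N, g * t * g⁻¹ ∈ N) (hk : k < Fintype.card α)
    (hN : ∃ m ∈ N, m ≠ 1) :
    (∀ F : Finset α, F.card + 2 ≤ k → ∀ b b', b ∉ F → b' ∉ F → ∃ t ∈ N, Fx F t ∧ t b = b') ∨
    (k = 3 ∧ ∀ r ∈ N, r * r = 1) := by
  by_cases hA : ∀ j, j + 2 ≤ k → ∀ F : Finset α, F.card = j → ∃ m ∈ N, Fx F m ∧ m ≠ 1
  · left
    intro F hF b b' hb hb'
    exact trans' hT hn hF (hA _ hF F rfl) hb hb'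
  right
  push Not at hA
  classical
  have hex : ∃ j, j + 2 ≤ k ∧ ∃ F : Finset α, F.card = j ∧ ∀ m ∈ N, Fx F m → m = 1 := hA
  set j := Nat.find hex with hj
  obtain ⟨hjk, F, hFj, hF1⟩ := Nat.find_spec hex
  have hmin : ∀ i, i < j → i + 2 ≤ k → ∀ F : Finset α, F.card = i → ∃ m ∈ N, Fx F m ∧ m ≠ 1 := by
    intro i hi hik F' hF'
    have := Nat.find_min hex hi
    by_contra hcon
    apply this
    refine ⟨hik, F', hF', ?_⟩
    intro m hm hmF
    by_contra hm1
    exact hcon ⟨m, hm, hmF, hm1⟩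
  rw [← hj] at hjk hFj
  have hj0 : j ≠ 0 := by
    intro h0
    rw [h0, Finset.card_eq_zero] at hFj
    obtain ⟨m, hm, hm1⟩ := hN
    exact hm1 (hF1 m hm (by rw [hFj]; intro x hx; simp at hx))
  obtain ⟨c, hcF⟩ : F.Nonempty := by
    rw [← Finset.card_pos]; omega
  set F0 := F.erase c with hF0
  have hins : insert c F0 = F := Finset.insert_erase hcF
  have hc0 : c ∉ F0 := Finset.notMem_erase c F
  have hF0c : F0.card + 1 = j := by
    rw [← hFj, ← hins, Finset.card_insert_of_notMem hc0]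
  have hP0 := hmin F0.card (by omega) (by omega) F0 rfl
  have tr0 : ∀ b b', b ∉ F0 → b' ∉ F0 → ∃ t ∈ N, Fx F0 t ∧ t b = b' := by
    intro b b' hb hb'
    exact trans' hT hn (by omega) hP0 hb hb'
  have sr0 : ∀ r ∈ N, Fx F0 r → ∀ x, x ∉ F0 → r x = x → r = 1 := by
    intro r hr hrF x hx hrx
    obtain ⟨h, hhN, hhF, hh⟩ := tr0 c x hc0 hx
    have hfix : (h⁻¹ * r * h) c = c := by
      rw [Perm.mul_apply, Perm.mul_apply, hh, hrx, ← hh, inv_app]
    have h3 : h⁻¹ * r * h = 1 := by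
      apply hF1 _ (N.mul_mem (N.mul_mem (N.inv_mem hhN) hr) hhN)
      rw [← hins]
      exact ((hhF.inv.mul hrF).mul hhF).ins hfix
    calc r = h * (h⁻¹ * r * h) * h⁻¹ := by group
      _ = 1 := by rw [h3]; group
  have sq0 : ∀ r ∈ N, Fx F0 r → r * r = 1 := fun r hr hrF =>
    sq' hT hn hk (by omega) sr0 hr hrF
  have hk3 : k = F0.card + 3 := by
    by_contra hne
    obtain ⟨r, hr, hrF, hr1⟩ := hP0
    exact four' hT hn hk (by omega) sr0 hr hrF hr1
  by_cases hz : F0.card = 0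
  · refine ⟨by omega, ?_⟩
    intro r hr
    apply sq0 r hr
    rw [Finset.card_eq_zero] at hz
    rw [hz]
    intro x hx
    simp at hx
  exfalso
  obtain ⟨c1, hc1⟩ : F0.Nonempty := by
    rw [← Finset.card_pos]; omega
  set F1 := F0.erase c1 with hF1'
  have hins1 : insert c1 F1 = F0 := Finset.insert_erase hc1
  have hc11 : c1 ∉ F1 := Finset.notMem_erase c1 F0
  have hF1c : F1.card + 1 = F0.card := by
    rw [← hins1, Finset.card_insert_of_notMem hc11]
  have hP1 := hmin F1.card (by omega) (by omega) F1 rfl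
  have tr1 : ∀ b b', b ∉ F1 → b' ∉ F1 → ∃ t ∈ N, Fx F1 t ∧ t b = b' := by
    intro b b' hb hb'
    exact trans' hT hn (by omega) hP1 hb hb'
  apply invol' (N := N) hc11 (by omega) tr1
  · rw [hins1]; exact tr0
  · rw [hins1]; exact sr0
  · rw [hins1]; exact sq0

end J

lemma mk_trans {α M : Type*} [DecidableEq α] [Group M] [MulAction M α] (m : ℕ)
    (h : ∀ F : Finset α, F.card + 1 ≤ m → ∀ b b', b ∉ F → b' ∉ F →
      ∃ t : M, (∀ x ∈ F, t • x = x) ∧ t • b = b') : IsMultiplyPretransitive M α m := by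
  refine ⟨fun x y => ?_⟩
  have key : ∀ j, j ≤ m → ∃ g : M, ∀ i : Fin m, i.val < j → g • x i = y i := by
    intro j
    induction j with
    | zero => intro _; exact ⟨1, fun i hi => absurd hi (Nat.not_lt_zero _)⟩
    | succ j ih =>
      intro hj
      obtain ⟨g, hg⟩ := ih (by omega)
      set F : Finset α := (Finset.univ.filter (fun i : Fin m => i.val < j)).image y with hF
      have hFc : F.card + 1 ≤ m := by
        have h1 : F.card ≤ (Finset.univ.filter (fun i : Fin m => i.val < j)).card :=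
          Finset.card_image_le
        have h2 : (Finset.univ.filter (fun i : Fin m => i.val < j)) ⊆
            Finset.univ.erase (⟨j, by omega⟩ : Fin m) := by
          intro i hi
          rw [Finset.mem_filter] at hi
          rw [Finset.mem_erase]
          refine ⟨?_, Finset.mem_univ _⟩
          intro h
          rw [h] at hi
          exact lt_irrefl _ hi.2
        have h3 := Finset.card_le_card h2
        rw [Finset.card_erase_of_mem (Finset.mem_univ _), Finset.card_univ, Fintype.card_fin] at h3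
        omega
      have hb : g • x ⟨j, by omega⟩ ∉ F := by
        rw [hF, Finset.mem_image]
        rintro ⟨i, hi, hiy⟩
        rw [Finset.mem_filter] at hi
        rw [← hg i hi.2] at hiy
        have := x.injective (MulAction.injective g hiy)
        rw [this] at hi
        exact lt_irrefl _ hi.2
      have hb' : y ⟨j, by omega⟩ ∉ F := by
        rw [hF, Finset.mem_image]
        rintro ⟨i, hi, hiy⟩
        rw [Finset.mem_filter] at hi
        have := y.injective hiy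
        rw [this] at hi
        exact lt_irrefl _ hi.2
      obtain ⟨t, htF, ht⟩ := h F hFc _ _ hb hb'
      refine ⟨t * g, fun i hi => ?_⟩
      rw [mul_smul]
      by_cases hij : i.val < j
      · rw [hg i hij]
        apply htF
        rw [hF, Finset.mem_image]
        exact ⟨i, Finset.mem_filter.2 ⟨Finset.mem_univ _, hij⟩, rfl⟩
      · have : i = ⟨j, by omega⟩ := Fin.ext (by simp; omega)
        rw [this, ht]
  obtain ⟨g, hg⟩ := key m le_rfl
  refine ⟨g, ?_⟩
  ext i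
  rw [Function.Embedding.smul_apply]
  exact hg i i.2

/-- Jordan's Theorem on normal subgroups of multiply transitive groups: if `G` is `k`-transitive (`k > 1`) of degree greater than `k`, a non-trivial normal subgroup is `(k-1)`-transitive, except possibly for `k = 3` when it may be an elementary abelian 2-group. -/
theorem result {α : Type*} [Fintype α] [DecidableEq α] (G : Subgroup (Equiv.Perm α)) {k : ℕ} (hk : 1 < k) (hdeg : k < Fintype.card α) (hG : MulAction.IsMultiplyPretransitive G α k) (N : Subgroup G) [N.Normal] (hN : N ≠ ⊥) : MulAction.IsMultiplyPretransitive N α (k - 1) ∨ (k = 3 ∧ IsMulCommutative N ∧ ∀ n ∈ N, n ^ 2 = 1) := by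
  have hT : TG G k := fun F hF b b' hb hb' => exists_fix_move G hdeg.le hG F hF hb hb'
  set N' : Subgroup (Equiv.Perm α) := N.map G.subtype with hN'
  have hn : ∀ g ∈ G, ∀ t ∈ N', g * t * g⁻¹ ∈ N' := by
    rintro g hg _ ⟨n, hnN, rfl⟩
    exact ⟨⟨g, hg⟩ * n * ⟨g, hg⟩⁻¹, (inferInstance : N.Normal).conj_mem n hnN ⟨g, hg⟩, rfl⟩
  have hne : ∃ m ∈ N', m ≠ 1 := by
    obtain ⟨n, hn1⟩ := Subgroup.ne_bot_iff_exists_ne_one.1 hN
    refine ⟨((n : G) : Equiv.Perm α), ⟨n, n.2, rfl⟩, ?_⟩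
    intro h
    apply hn1
    apply Subtype.ext
    apply Subtype.ext
    exact h
  rcases main' hT hn hdeg hne with h | ⟨h3, hsq⟩
  · left
    apply mk_trans
    intro F hF b b' hb hb'
    obtain ⟨t, ⟨n, hnN, rfl⟩, htF, ht⟩ := h F (by omega) b b' hb hb'
    exact ⟨⟨n, hnN⟩, htF, ht⟩
  · right
    have hsq' : ∀ n ∈ N, n * n = 1 := by
      intro n hnN
      apply Subtype.ext
      exact hsq _ ⟨n, hnN, rfl⟩
    have hh : ∀ x : ↥N, x * x = 1 := fun x => Subtype.ext (hsq' x x.2)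
    refine ⟨h3, ⟨⟨fun a b => ?_⟩⟩, fun n hnN => by rw [pow_two]; exact hsq' n hnN⟩
    calc a * b = a * b * ((b * a) * (b * a)) := by rw [hh (b * a), mul_one]
      _ = a * (b * b) * a * (b * a) := by group
      _ = b * a := by rw [hh b, mul_one, hh a, one_mul]

end Cfsg.Agent.S0698
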