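import Cfsg.Statements.S0697
import Mathlib
import Cfsg.Agent.Lib.Helper5.MinDeg
import Cfsg.Agent.S0698

set_option autoImplicit false
open Cfsg

namespace Cfsg.Agent.S0697

open Equiv Equiv.Perm MulAction
open Cfsg.Agent.Lib.Helper5.MinDeg
open Cfsg.Agent.S0698
open Pointwise

section K
variable {α : Type*} [Fintype α] [DecidableEq α]

def PC (G : Subgroup (Perm α)) (F : Finset α) : Prop :=
  ∀ B : Set α, (∀ x ∈ B, x ∉ F) →
    (∀ g ∈ G, Fx F g → ∀ x ∈ B, g x ∈ B → ∀ y ∈ B, g y ∈ B) →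
    B.Subsingleton ∨ ∀ x, x ∉ F → x ∈ B

lemma prim_c (G : Subgroup (Perm α)) (s : Finset α)
    (hp : IsPreprimitive (fixingSubgroup G (s : Set α))
      (SubMulAction.ofFixingSubgroup G (s : Set α))) : PC G s := by
  intro B hBs hB
  let B' : Set (SubMulAction.ofFixingSubgroup G (s : Set α)) := {x | (x : α) ∈ B}
  have hmem : ∀ g : fixingSubgroup G (s : Set α),
      ((g : G) : Perm α) ∈ G ∧ Fx s ((g : G) : Perm α) := fun g =>
    ⟨(g : G).2, fun x hx => (mem_fixingSubgroup_iff G).1 g.2 x (by simpa using hx)⟩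
  have hblk : IsBlock (fixingSubgroup G (s : Set α)) B' := by
    rw [isBlock_iff_smul_eq_of_mem]
    intro g a ha hga
    apply Set.Subset.antisymm
    · rintro _ ⟨y, hy, rfl⟩
      exact hB _ (hmem g).1 (hmem g).2 a ha hga y hy
    · intro y hy
      refine ⟨g⁻¹ • y, ?_, by simp⟩
      have h1 : (((g⁻¹ : fixingSubgroup G (s : Set α)) : G) : Perm α)
          ((g • a : SubMulAction.ofFixingSubgroup G (s : Set α)) : α) ∈ B := by
        have : (g⁻¹ • (g • a) : SubMulAction.ofFixingSubgroup G (s : Set α)) = a := by simp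
        have h2 : ((g⁻¹ • (g • a) : SubMulAction.ofFixingSubgroup G (s : Set α)) : α) ∈ B := by
          rw [this]; exact ha
        exact h2
      exact hB _ (hmem g⁻¹).1 (hmem g⁻¹).2 _ hga h1 y hy
  rcases hp.isTrivialBlock_of_isBlock hblk with h | h
  · left
    intro x hx y hy
    have hx' : x ∈ SubMulAction.ofFixingSubgroup G (s : Set α) := by
      rw [SubMulAction.mem_ofFixingSubgroup_iff]; simpa using hBs x hx
    have hy' : y ∈ SubMulAction.ofFixingSubgroup G (s : Set α) := by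
      rw [SubMulAction.mem_ofFixingSubgroup_iff]; simpa using hBs y hy
    have := @h ⟨x, hx'⟩ hx ⟨y, hy'⟩ hy
    exact congrArg Subtype.val this
  · right
    intro x hx
    have hx' : x ∈ SubMulAction.ofFixingSubgroup G (s : Set α) := by
      rw [SubMulAction.mem_ofFixingSubgroup_iff]; simpa using hx
    have : (⟨x, hx'⟩ : SubMulAction.ofFixingSubgroup G (s : Set α)) ∈ B' := by
      rw [h]; trivial
    exact this

variable {G N : Subgroup (Perm α)}

lemma trans_prim (hn : ∀ g ∈ G, ∀ t ∈ N, g * t * g⁻¹ ∈ N) {F : Finset α} (hp : PC G F)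
    (hm : ∃ m ∈ N, Fx F m ∧ m ≠ 1) {b b' : α} (hb : b ∉ F) (hb' : b' ∉ F) :
    ∃ t ∈ N, Fx F t ∧ t b = b' := by
  obtain ⟨m, hmN, hmF, hm1⟩ := hm
  obtain ⟨a, ha⟩ : ∃ a, m a ≠ a := by
    by_contra hc
    push Not at hc
    exact hm1 (Equiv.ext hc)
  have haF : a ∉ F := fun h => ha (hmF a h)
  have h := hp {y | ∃ t ∈ N, Fx F t ∧ t a = y}
    (by rintro _ ⟨t, _, htF, rfl⟩; exact htF.notin haF)
    (by
      rintro g hg hgF _ ⟨t1, ht1, ht1F, rfl⟩ ⟨t2, ht2, ht2F, h2⟩ _ ⟨t, ht, htF, rfl⟩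
      refine ⟨g * (t * t1⁻¹) * g⁻¹ * t2, N.mul_mem (hn g hg _ (N.mul_mem ht (N.inv_mem ht1))) ht2,
        ((hgF.mul (htF.mul ht1F.inv)).mul hgF.inv).mul ht2F, ?_⟩
      rw [Perm.mul_apply, h2]
      simp only [Perm.mul_apply, inv_app])
  rcases h with h | h
  · exact absurd (h ⟨m, hmN, hmF, rfl⟩ ⟨1, N.one_mem, fun _ _ => rfl, rfl⟩) ha
  · obtain ⟨t1, ht1, ht1F, h1⟩ := h b hb
    obtain ⟨t2, ht2, ht2F, h2⟩ := h b' hb'
    refine ⟨t2 * t1⁻¹, N.mul_mem ht2 (N.inv_mem ht1), ht2F.mul ht1F.inv, ?_⟩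
    rw [Perm.mul_apply, ← h1, inv_app, h2]

lemma eq_of_app {F : Finset α} (hsr : ∀ r ∈ N, Fx F r → ∀ x, x ∉ F → r x = x → r = 1)
    {u v : Perm α} (hu : u ∈ N) (huF : Fx F u) (hv : v ∈ N) (hvF : Fx F v) {a : α} (ha : a ∉ F)
    (h : u a = v a) : u = v := by
  have : v⁻¹ * u = 1 := by
    apply hsr _ (N.mul_mem (N.inv_mem hv) hu) (hvF.inv.mul huF) a ha
    rw [Perm.mul_apply, h, inv_app]
  calc u = v * (v⁻¹ * u) := by group
    _ = v := by rw [this, mul_one]

lemma sq_prim (hn : ∀ g ∈ G, ∀ t ∈ N, g * t * g⁻¹ ∈ N) {F : Finset α} {a : α} (ha : a ∉ F)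
    (hp : PC G (insert a F)) (hcard : F.card + 4 ≤ Fintype.card α)
    (hsr : ∀ r ∈ N, Fx F r → ∀ x, x ∉ F → r x = x → r = 1)
    {r : Perm α} (hr : r ∈ N) (hrF : Fx F r) : r * r = 1 := by
  by_contra hne
  have hr1 : r ≠ 1 := by rintro rfl; exact hne (one_mul 1)
  have hb : r a ∉ F := hrF.notin ha
  have hc : r⁻¹ a ∉ F := hrF.inv.notin ha
  have hba : r a ≠ a := fun h => hr1 (hsr r hr hrF a ha h)
  have hca : r⁻¹ a ≠ a := by
    intro h
    rw [Perm.inv_eq_iff_eq] at h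
    exact hba h.symm
  have hbc : r a ≠ r⁻¹ a := by
    intro h
    apply hne
    apply hsr _ (N.mul_mem hr hr) (hrF.mul hrF) a ha
    rw [Perm.mul_apply, h, app_inv]
  have h := hp {r a, r⁻¹ a}
    (by
      intro x hx
      rw [Finset.mem_insert, not_or]
      rcases hx with rfl | rfl
      · exact ⟨hba, hb⟩
      · exact ⟨hca, hc⟩)
    (by
      intro g hg hgF x hx hgx y hy
      obtain ⟨hgF', hga⟩ := hgF.of_insert
      have hr' : g * r * g⁻¹ ∈ N := hn g hg r hr
      have hr'F : Fx F (g * r * g⁻¹) := (hgF'.mul hrF).mul hgF'.inv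
      have hgi : g⁻¹ a = a := by rw [Perm.inv_eq_iff_eq, hga]
      have e1 : g (r a) = (g * r * g⁻¹) a := by
        rw [Perm.mul_apply, Perm.mul_apply, hgi]
      have e2 : g (r⁻¹ a) = (g * r * g⁻¹)⁻¹ a := by
        have : (g * r * g⁻¹)⁻¹ = g * r⁻¹ * g⁻¹ := by group
        rw [this, Perm.mul_apply, Perm.mul_apply, hgi]
      have hcase : g * r * g⁻¹ = r ∨ g * r * g⁻¹ = r⁻¹ := by
        rcases hx with rfl | rfl
        · rw [e1] at hgx
          rcases hgx with h | h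
          · exact Or.inl (eq_of_app hsr hr' hr'F hr hrF ha h)
          · exact Or.inr (eq_of_app hsr hr' hr'F (N.inv_mem hr) hrF.inv ha h)
        · rw [e2] at hgx
          rcases hgx with h | h
          · right
            have := eq_of_app hsr (N.inv_mem hr') hr'F.inv hr hrF ha h
            exact inv_eq_iff_eq_inv.1 this
          · left
            have := eq_of_app hsr (N.inv_mem hr') hr'F.inv (N.inv_mem hr) hrF.inv ha h
            exact inv_injective this
      rcases hy with rfl | rfl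
      · rw [e1]
        rcases hcase with h | h
        · rw [h]; exact Or.inl rfl
        · rw [h]; exact Or.inr rfl
      · rw [e2]
        rcases hcase with h | h
        · rw [h]; exact Or.inr rfl
        · rw [h, inv_inv]; exact Or.inl rfl)
  rcases h with h | h
  · exact hbc (h (Or.inl rfl) (Or.inr rfl))
  · have hcard' : (insert a (insert (r a) (insert (r⁻¹ a) F))).card ≤ F.card + 3 := by
      have h1 := Finset.card_insert_le a (insert (r a) (insert (r⁻¹ a) F))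
      have h2 := Finset.card_insert_le (r a) (insert (r⁻¹ a) F)
      have h3 := Finset.card_insert_le (r⁻¹ a) F
      omega
    obtain ⟨d, hd⟩ := ex_notin _ (lt_of_le_of_lt hcard' (by omega))
    simp only [Finset.mem_insert, not_or] at hd
    obtain ⟨hda, hdb, hdc, hdF⟩ := hd
    rcases h d (by rw [Finset.mem_insert, not_or]; exact ⟨hda, hdF⟩) with h | h
    · exact hdb h
    · exact hdc h

lemma main2 {k : ℕ} (hT : TG G k) (hn : ∀ g ∈ G, ∀ t ∈ N, g * t * g⁻¹ ∈ N)
    (hk : k + 2 ≤ Fintype.card α) (hpc : ∀ F : Finset α, F.card + 1 = k → PC G F)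
    (hN : ∃ m ∈ N, m ≠ 1) (hnr : ∃ a, ∃ m ∈ N, m a = a ∧ m ≠ 1) :
    ∀ F : Finset α, F.card + 1 ≤ k → ∀ b b', b ∉ F → b' ∉ F → ∃ t ∈ N, Fx F t ∧ t b = b' := by
  have htr : ∀ F : Finset α, F.card + 1 ≤ k → (∃ m ∈ N, Fx F m ∧ m ≠ 1) →
      ∀ b b', b ∉ F → b' ∉ F → ∃ t ∈ N, Fx F t ∧ t b = b' := by
    intro F hF hm b b' hb hb'
    by_cases h2 : F.card + 2 ≤ k
    · exact trans' hT hn h2 hm hb hb'
    · exact trans_prim hn (hpc F (by omega)) hm hb hb'
  by_cases hA : ∀ j, j + 1 ≤ k → ∀ F : Finset α, F.card = j → ∃ m ∈ N, Fx F m ∧ m ≠ 1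
  · intro F hF b b' hb hb'
    exact htr F hF (hA _ hF F rfl) b b' hb hb'
  exfalso
  push Not at hA
  classical
  have hex : ∃ j, j + 1 ≤ k ∧ ∃ F : Finset α, F.card = j ∧ ∀ m ∈ N, Fx F m → m = 1 := hA
  set j := Nat.find hex with hj
  obtain ⟨hjk, F, hFj, hF1⟩ := Nat.find_spec hex
  have hmin : ∀ i, i < j → i + 1 ≤ k → ∀ F : Finset α, F.card = i → ∃ m ∈ N, Fx F m ∧ m ≠ 1 := by
    intro i hi hik F' hF'
    have := Nat.find_min hex hi
    by_contra hcon
    apply this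
    refine ⟨hik, F', hF', ?_⟩
    intro m hm hmF
    by_contra hm1
    exact hcon ⟨m, hm, hmF, hm1⟩
  rw [← hj] at hjk hFj
  have hj0 : j ≠ 0 := by
    intro h0
    rw [h0, Finset.card_eq_zero] at hFj
    obtain ⟨m, hm, hm1⟩ := hN
    exact hm1 (hF1 m hm (by rw [hFj]; intro x hx; simp at hx))
  obtain ⟨c, hcF⟩ : F.Nonempty := by
    rw [← Finset.card_pos]; omega
  set F0 := F.erase c with hF0
  have hins : insert c F0 = F := Finset.insert_erase hcF
  have hc0 : c ∉ F0 := Finset.notMem_erase c F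
  have hF0c : F0.card + 1 = j := by
    rw [← hFj, ← hins, Finset.card_insert_of_notMem hc0]
  have hP0 := hmin F0.card (by omega) (by omega) F0 rfl
  have tr0 : ∀ b b', b ∉ F0 → b' ∉ F0 → ∃ t ∈ N, Fx F0 t ∧ t b = b' :=
    htr F0 (by omega) hP0
  have sr0 : ∀ r ∈ N, Fx F0 r → ∀ x, x ∉ F0 → r x = x → r = 1 := by
    intro r hr hrF x hx hrx
    obtain ⟨h, hhN, hhF, hh⟩ := tr0 c x hc0 hx
    have hfix : (h⁻¹ * r * h) c = c := by
      rw [Perm.mul_apply, Perm.mul_apply, hh, hrx, ← hh, inv_app]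
    have h3 : h⁻¹ * r * h = 1 := by
      apply hF1 _ (N.mul_mem (N.mul_mem (N.inv_mem hhN) hr) hhN)
      rw [← hins]
      exact ((hhF.inv.mul hrF).mul hhF).ins hfix
    calc r = h * (h⁻¹ * r * h) * h⁻¹ := by group
      _ = 1 := by rw [h3]; group
  by_cases hz : F0.card = 0
  · rw [Finset.card_eq_zero] at hz
    obtain ⟨a, m, hm, hma, hm1⟩ := hnr
    exact hm1 (sr0 m hm (by rw [hz]; intro x hx; simp at hx) a (by rw [hz]; simp) hma)
  have sq0 : ∀ r ∈ N, Fx F0 r → r * r = 1 := by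
    intro r hr hrF
    by_cases h3 : F0.card + 3 ≤ k
    · exact sq' hT hn (by omega) h3 sr0 hr hrF
    · have hcc : (insert c F0).card = F0.card + 1 := Finset.card_insert_of_notMem hc0
      exact sq_prim hn hc0 (hpc _ (by omega)) (by omega) sr0 hr hrF
  obtain ⟨c1, hc1⟩ : F0.Nonempty := by
    rw [← Finset.card_pos]; omega
  set F1 := F0.erase c1 with hF1'
  have hins1 : insert c1 F1 = F0 := Finset.insert_erase hc1
  have hc11 : c1 ∉ F1 := Finset.notMem_erase c1 F0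
  have hF1c : F1.card + 1 = F0.card := by
    rw [← hins1, Finset.card_insert_of_notMem hc11]
  have hP1 := hmin F1.card (by omega) (by omega) F1 rfl
  have tr1 : ∀ b b', b ∉ F1 → b' ∉ F1 → ∃ t ∈ N, Fx F1 t ∧ t b = b' :=
    htr F1 (by omega) hP1
  apply invol' (N := N) hc11 (by omega) tr1
  · rw [hins1]; exact tr0
  · rw [hins1]; exact sr0
  · rw [hins1]; exact sq0

end K

/-- In a `k`-primitive permutation group which is not the whole symmetric group, a non-trivial non-regular normal subgroup is `k`-transitive. -/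
theorem result {α : Type*} [Fintype α] [DecidableEq α] (G : Subgroup (Equiv.Perm α)) {k : ℕ} (hk : 1 ≤ k) (hkn : k ≤ Fintype.card α) (hG : MulAction.IsMultiplyPreprimitive G α k) (htop : G ≠ ⊤) (H : Subgroup G) [H.Normal] (hH : H ≠ ⊥) (hnr : ∃ a : α, MulAction.stabilizer H a ≠ ⊥) : MulAction.IsMultiplyPretransitive H α k := by
  have hG' : MulAction.IsMultiplyPretransitive G α k := hG.isMultiplyPretransitive
  have hT : TG G k := fun F hF b b' hb hb' => exists_fix_move G hkn hG' F hF hb hb'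
  have hk2 : k + 2 ≤ Fintype.card α := by
    by_contra hcon
    apply htop
    apply Equiv.Perm.eq_top_of_isMultiplyPretransitive
    rw [Nat.card_eq_fintype_card]
    exact MulAction.isMultiplyPretransitive_of_le (n := k) (by omega)
      (by rw [Nat.card_eq_fintype_card]; exact hkn)
  set N' : Subgroup (Equiv.Perm α) := H.map G.subtype with hN'
  have hn : ∀ g ∈ G, ∀ t ∈ N', g * t * g⁻¹ ∈ N' := by
    rintro g hg _ ⟨n, hnN, rfl⟩
    exact ⟨⟨g, hg⟩ * n * ⟨g, hg⟩⁻¹, (inferInstance : H.Normal).conj_mem n hnN ⟨g, hg⟩, rfl⟩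
  have hne : ∃ m ∈ N', m ≠ 1 := by
    obtain ⟨n, hn1⟩ := Subgroup.ne_bot_iff_exists_ne_one.1 hH
    refine ⟨((n : G) : Equiv.Perm α), ⟨n, n.2, rfl⟩, ?_⟩
    intro h
    apply hn1
    apply Subtype.ext
    apply Subtype.ext
    exact h
  have hnr' : ∃ a, ∃ m ∈ N', m a = a ∧ m ≠ 1 := by
    obtain ⟨a, ha⟩ := hnr
    obtain ⟨n, hn1⟩ := Subgroup.ne_bot_iff_exists_ne_one.1 ha
    refine ⟨a, (((n : H) : G) : Equiv.Perm α), ⟨(n : H), (n : H).2, rfl⟩, n.2, ?_⟩
    intro h
    apply hn1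
    apply Subtype.ext
    apply Subtype.ext
    apply Subtype.ext
    exact h
  have hpc : ∀ F : Finset α, F.card + 1 = k → PC G F := by
    intro F hF
    apply prim_c
    apply hG.isPreprimitive_ofFixingSubgroup
    rw [Set.encard_coe_eq_coe_finsetCard]
    exact_mod_cast hF
  apply mk_trans
  intro F hF b b' hb hb'
  obtain ⟨t, ⟨n, hnN, rfl⟩, htF, ht⟩ := main2 hT hn hk2 hpc hne hnr' F hF b b' hb hb'
  exact ⟨⟨n, hnN⟩, htF, ht⟩

end Cfsg.Agent.S0697
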