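import Cfsg.Statements.S0699
import Mathlib
import Cfsg.Agent.Lib.Helper5.W3
import Cfsg.Agent.Lib.Helper5.MultiTrans

set_option autoImplicit false
open Cfsg

namespace Cfsg.Agent.S0699

open MulAction Cfsg.Agent.Lib.Helper5 Cfsg.Agent.H5B2T Cfsg.Agent.H5W3

/-- Wagner's Theorem: a non-trivial normal subgroup of a triply transitive permutation group of odd degree at least 5 is triply transitive. -/
theorem result {α : Type*} [Fintype α] [DecidableEq α] (G : Subgroup (Equiv.Perm α)) (hodd : Odd (Fintype.card α)) (h5 : 5 ≤ Fintype.card α) (hG : MulAction.IsMultiplyPretransitive G α 3) (N : Subgroup G) [N.Normal] (hN : N ≠ ⊥) : MulAction.IsMultiplyPretransitive N α 3 := by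
  have hc : Nat.card α = Fintype.card α := Nat.card_eq_fintype_card
  have h3c : 3 ≤ Nat.card α := by rw [hc]; omega
  have hG2 : IsMultiplyPretransitive G α 2 :=
    isMultiplyPretransitive_of_le (n := 3) (by norm_num) h3c
  have h2 : TT G α := tt_of hG2
  have h3 : T3 G α := by
    intro a b hab c d hca hcb hda hdb
    have hz : ({a, b} : Finset α).card < 3 := by
      rw [Finset.card_pair hab]; norm_num
    obtain ⟨g, hg, hg'⟩ := fixTrans_of_multi 3 h3c hG ({a, b} : Finset α) hz c d
      (by simp [hca, hcb]) (by simp [hda, hdb])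
    exact ⟨g, hg a (by simp), hg b (by simp), hg'⟩
  have hW := wagner (G := G) (Ω := α) h2 h3 (by rw [hc]; exact hodd) (by rw [hc]; exact h5) N hN
  apply multi_of_fixing 3
  intro z hz
  apply fixTrans_down 2 (by omega) _ z (by omega)
  intro z hz
  obtain ⟨a, b, hab, rfl⟩ := Finset.card_eq_two.1 hz
  intro c d hcz hdz
  simp only [Finset.mem_insert, Finset.mem_singleton, not_or] at hcz hdz
  obtain ⟨m, hm, h1, h2', h3'⟩ := hW a b hab c d hcz.1 hcz.2 hdz.1 hdz.2
  refine ⟨⟨m, hm⟩, ?_, h3'⟩
  intro x hx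
  simp only [Finset.mem_insert, Finset.mem_singleton] at hx
  rcases hx with rfl | rfl
  · exact h1
  · exact h2'

end Cfsg.Agent.S0699
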