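import Cfsg.Statements.S0701
import Mathlib

set_option autoImplicit false
open Cfsg

namespace Cfsg.Agent.S0701

lemma bij {α : Type*} (G : Subgroup (Equiv.Perm α)) [MulAction.IsPretransitive G α]
    (h : ∀ a : α, MulAction.stabilizer G a = ⊥) (a : α) :
    Function.Bijective (fun g : G => g • a) := by
  constructor
  · intro g h' hgh
    have hgh' : g • a = h' • a := hgh
    have : g⁻¹ * h' ∈ MulAction.stabilizer G a := by
      rw [MulAction.mem_stabilizer_iff, mul_smul, ← hgh', inv_smul_smul]
    rw [h a, Subgroup.mem_bot] at this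
    exact (inv_mul_eq_one.mp this)
  · intro b; exact MulAction.exists_smul_eq G a b

/-- The centraliser in the full symmetric group of a transitive permutation group `G` is semiregular, and it is transitive if and only if `G` is regular. -/
theorem result {α : Type*} (G : Subgroup (Equiv.Perm α)) [MulAction.IsPretransitive G α] : (∀ c ∈ Subgroup.centralizer (G : Set (Equiv.Perm α)), ∀ a : α, c a = a → c = 1) ∧ (MulAction.IsPretransitive (Subgroup.centralizer (G : Set (Equiv.Perm α))) α ↔ ∀ a : α, MulAction.stabilizer G a = ⊥) := by
  have comm : ∀ c ∈ Subgroup.centralizer (G : Set (Equiv.Perm α)), ∀ g : G, ∀ x : α,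
      c (g • x) = g • (c x) := by
    intro c hc g x
    have := hc g.1 g.2
    have h2 := congrArg (fun f : Equiv.Perm α => f x) this
    exact h2.symm
  refine ⟨?_, ?_, ?_⟩
  · intro c hc a hca
    ext b
    obtain ⟨g, rfl⟩ := MulAction.exists_smul_eq G a b
    rw [comm c hc, hca]; rfl
  · intro ht a
    rw [eq_bot_iff]
    intro g hg
    rw [Subgroup.mem_bot]
    apply Subtype.ext; apply Equiv.ext; intro b
    obtain ⟨c, rfl⟩ := MulAction.exists_smul_eq (Subgroup.centralizer (G : Set (Equiv.Perm α))) a b
    have := comm c.1 c.2 g a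
    rw [MulAction.mem_stabilizer_iff.mp hg] at this
    exact this.symm
  · intro hreg
    constructor
    intro a b
    let ea := Equiv.ofBijective _ (bij G hreg a)
    let eb := Equiv.ofBijective _ (bij G hreg b)
    let c : Equiv.Perm α := ea.symm.trans eb
    have hc : ∀ g : G, c (g • a) = g • b := by
      intro g
      show eb (ea.symm (g • a)) = g • b
      have : ea.symm (g • a) = g := ea.symm_apply_apply g
      rw [this]; rfl
    refine ⟨⟨c, ?_⟩, ?_⟩
    · rw [Subgroup.mem_centralizer_iff]
      intro h hh
      ext x
      obtain ⟨g, rfl⟩ := MulAction.exists_smul_eq G a x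
      show h (c (g • a)) = c (h (g • a))
      rw [hc]
      have : h (g • a) = ((⟨h, hh⟩ : G) * g) • a := by rw [mul_smul]; rfl
      rw [this, hc, mul_smul]; rfl
    · have := hc 1
      simpa using this

end Cfsg.Agent.S0701
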