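import Cfsg.Statements.S0702
import Mathlib

set_option autoImplicit false
open Cfsg

namespace Cfsg.Agent.S0702

theorem mem_normalizer_of_conj_mem' {G : Type*} [Group G] {U : Subgroup G} [Finite U] {t : G}
    (h : ∀ u ∈ U, t * u * t⁻¹ ∈ U) : t ∈ Subgroup.normalizer (U : Set G) := by
  rw [Subgroup.mem_normalizer_iff]
  intro x
  refine ⟨h x, fun hx => ?_⟩
  let f : U → U := fun u => ⟨t * u * t⁻¹, h u u.2⟩
  have hf : Function.Injective f := by
    intro u v huv
    have : t * u * t⁻¹ = t * v * t⁻¹ := congrArg Subtype.val huv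
    exact Subtype.ext (mul_left_cancel (mul_right_cancel this))
  obtain ⟨u, hu⟩ := (Finite.injective_iff_surjective.mp hf) ⟨_, hx⟩
  have : t * u * t⁻¹ = t * x * t⁻¹ := congrArg Subtype.val hu
  rw [← mul_left_cancel (mul_right_cancel this)]
  exact u.2

/-- For a transitive permutation group `G` on a finite set, the centraliser of `G` in the symmetric group is isomorphic to `N_G(G_ω)/G_ω`, and its orbit of `ω` is the set of fixed points of `G_ω`. -/
theorem result {α : Type*} [Finite α] (G : Subgroup (Equiv.Perm α)) [MulAction.IsPretransitive G α] (a : α) : Nonempty (Subgroup.centralizer (G : Set (Equiv.Perm α)) ≃* Subgroup.normalizer ((MulAction.stabilizer G a : Subgroup G) : Set G) ⧸ (MulAction.stabilizer G a).subgroupOf (Subgroup.normalizer ((MulAction.stabilizer G a : Subgroup G) : Set G))) ∧ MulAction.orbit (Subgroup.centralizer (G : Set (Equiv.Perm α))) a = MulAction.fixedPoints (MulAction.stabilizer G a) α := by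
  classical
  set S := MulAction.stabilizer G a with hS
  set Nm := Subgroup.normalizer (S : Set G) with hNm
  set C := Subgroup.centralizer (G : Set (Equiv.Perm α)) with hC
  choose γ hγ using fun y : α => MulAction.exists_smul_eq G a y
  let f : Nm → α → α := fun n y => γ y • (n.1⁻¹ • a)
  have hstar : ∀ (n : Nm) (g : G), f n (g • a) = g • (n.1⁻¹ • a) := by
    intro n g
    show γ (g • a) • (n.1⁻¹ • a) = g • (n.1⁻¹ • a)
    have hs : g⁻¹ * γ (g • a) ∈ S := by
      rw [hS, MulAction.mem_stabilizer_iff, mul_smul, hγ, inv_smul_smul]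
    have hs2 : n.1 * (g⁻¹ * γ (g • a)) * n.1⁻¹ ∈ S := (Subgroup.mem_normalizer_iff.mp n.2 _).mp hs
    rw [hS, MulAction.mem_stabilizer_iff] at hs2
    have e : γ (g • a) * n.1⁻¹ = g * n.1⁻¹ * (n.1 * (g⁻¹ * γ (g • a)) * n.1⁻¹) := by group
    rw [← mul_smul, e, mul_smul, hs2, mul_smul]
  let F : Nm →* Function.End α :=
    { toFun := fun n => f n
      map_one' := by
        funext y
        show γ y • ((1 : G)⁻¹ • a) = y
        rw [inv_one, one_smul, hγ]
      map_mul' := by
        intro n m
        funext y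
        show f (n * m) y = f n (f m y)
        rw [← hγ y, hstar, hstar, ← mul_smul (γ y) m.1⁻¹ a, hstar, ← mul_smul, ← mul_smul]
        have e : γ y * (↑(n * m) : G)⁻¹ = γ y * m.1⁻¹ * n.1⁻¹ := by
          show γ y * (n.1 * m.1)⁻¹ = γ y * m.1⁻¹ * n.1⁻¹
          group
        rw [e] }
  let Φ : Nm →* Equiv.Perm α := (Equiv.Perm.equivUnitsEnd.symm : _ ≃* Equiv.Perm α).toMonoidHom.comp F.toHomUnits
  have hΦ : ∀ (n : Nm) (y : α), Φ n y = f n y := fun n y => rfl
  have hΦC : ∀ n, Φ n ∈ C := by
    intro n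
    rw [hC, Subgroup.mem_centralizer_iff]
    intro g hg
    ext y
    rw [Equiv.Perm.mul_apply, Equiv.Perm.mul_apply, hΦ, hΦ, ← hγ y]
    have h1 : g (γ y • a) = ((⟨g, hg⟩ : G) * γ y) • a := by rw [mul_smul]; rfl
    rw [h1, hstar, hstar, mul_smul]
    rfl
  let Ψ : Nm →* C := Φ.codRestrict C hΦC
  have hfix : ∀ c ∈ C, ∀ s ∈ S, s • (c a) = c a := by
    intro c hc s hs
    have h1 := Subgroup.mem_centralizer_iff.mp hc s.1 s.2
    have h2 := congrArg (fun π : Equiv.Perm α => π a) h1
    have h3 : s.1 (c a) = c (s.1 a) := h2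
    have h4 : s.1 a = a := hs
    rw [h4] at h3
    exact h3
  have hnorm : ∀ h : G, (∀ s ∈ S, s • (h • a) = h • a) → h⁻¹ ∈ Nm := by
    intro h hh
    apply mem_normalizer_of_conj_mem'
    intro s hs
    rw [hS, MulAction.mem_stabilizer_iff, inv_inv, mul_smul, mul_smul, hh s hs, inv_smul_smul]
  have hcomm : ∀ c ∈ C, ∀ (g : G) (y : α), c (g • y) = g • c y := by
    intro c hc g y
    have h1 := Subgroup.mem_centralizer_iff.mp hc g.1 g.2
    exact (congrArg (fun π : Equiv.Perm α => π y) h1).symm
  constructor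
  · have hsurj : Function.Surjective Ψ := by
      intro c
      obtain ⟨h, hh⟩ := MulAction.exists_smul_eq G a (c.1 a)
      refine ⟨⟨h⁻¹, hnorm h (by rw [hh]; exact hfix c.1 c.2)⟩, ?_⟩
      apply Subtype.ext
      ext y
      show Φ _ y = c.1 y
      rw [hΦ, ← hγ y, hstar]
      show γ y • (h⁻¹⁻¹ • a) = _
      rw [inv_inv, hh, hcomm c.1 c.2]
    have hker : Ψ.ker = S.subgroupOf Nm := by
      ext n
      rw [MonoidHom.mem_ker, Subgroup.mem_subgroupOf]
      constructor
      · intro h
        have h1 : Φ n a = a := by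
          have := congrArg (fun c : C => c.1 a) h
          exact this
        rw [hΦ] at h1
        have h2 := hstar n 1
        rw [one_smul, one_smul, h1] at h2
        rw [hS, MulAction.mem_stabilizer_iff]
        rw [eq_inv_smul_iff] at h2
        exact h2
      · intro h
        apply Subtype.ext
        ext y
        show Φ n y = y
        rw [hΦ, ← hγ y, hstar]
        congr 1
        rw [inv_smul_eq_iff]
        exact h.symm
    exact ⟨((QuotientGroup.quotientMulEquivOfEq hker).symm.trans
      (QuotientGroup.quotientKerEquivOfSurjective Ψ hsurj)).symm⟩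
  · ext y
    constructor
    · rintro ⟨c, rfl⟩
      intro s
      exact hfix c.1 c.2 s.1 s.2
    · intro hy
      obtain ⟨h, hh⟩ := MulAction.exists_smul_eq G a y
      have hmem := hnorm h (by rw [hh]; exact fun s hs => hy ⟨s, hs⟩)
      refine ⟨Ψ ⟨h⁻¹, hmem⟩, ?_⟩
      show Φ ⟨h⁻¹, hmem⟩ a = y
      rw [hΦ]
      have := hstar ⟨h⁻¹, hmem⟩ 1
      rw [one_smul, one_smul] at this
      rw [this]
      show h⁻¹⁻¹ • a = y
      rw [inv_inv, hh]

end Cfsg.Agent.S0702
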