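import Cfsg.Statements.S0703
import Mathlib
import Cfsg.Agent.Lib.Helper5.PermBasic

set_option autoImplicit false
open Cfsg

namespace Cfsg.Agent.S0703

open Cfsg.Agent.Lib.Helper5 MulAction

/-- An abelian transitive minimal normal subgroup `M` of a permutation group on a finite set is self-centralising in the symmetric group, regular, elementary abelian, and is the unique minimal normal subgroup. -/
theorem result {α : Type*} [Finite α] (G : Subgroup (Equiv.Perm α)) (M : Subgroup G) [M.Normal] (hM : M ≠ ⊥) (hmin : ∀ L : Subgroup G, L.Normal → L ≤ M → L = ⊥ ∨ L = M) (hab : IsMulCommutative M) (htrans : MulAction.IsPretransitive M α) : Subgroup.centralizer ((M.map G.subtype : Subgroup (Equiv.Perm α)) : Set (Equiv.Perm α)) = M.map G.subtype ∧ (∀ a : α, MulAction.stabilizer M a = ⊥) ∧ (∃ p : ℕ, p.Prime ∧ ∀ m ∈ M, m ^ p = 1) ∧ ∀ L : Subgroup G, L.Normal → L ≠ ⊥ → (∀ L' : Subgroup G, L'.Normal → L' ≤ L → L' = ⊥ ∨ L' = L) → L = M := by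
  classical
  set M' := M.map G.subtype with hM'
  haveI : IsPretransitive M' α := isPretransitive_map G M
  have hMC : M' ≤ Subgroup.centralizer (M' : Set (Equiv.Perm α)) := Subgroup.le_centralizer M'
  have h1 : Subgroup.centralizer (M' : Set (Equiv.Perm α)) = M' :=
    centralizer_eq_of_transitive M' M' hMC
  refine ⟨h1, stabilizer_eq_bot_of_le_centralizer G M M' hMC, ?_, ?_⟩
  · have hcard : Nat.card M ≠ 1 := by
      intro h
      exact hM (Subgroup.card_eq_one.mp h)
    obtain ⟨p, hp, hpd⟩ := Nat.exists_prime_and_dvd hcard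
    haveI : Fact p.Prime := ⟨hp⟩
    obtain ⟨x, hx⟩ := exists_prime_orderOf_dvd_card' p hpd
    let L : Subgroup G :=
      { carrier := {g | g ∈ M ∧ g ^ p = 1}
        one_mem' := ⟨one_mem _, one_pow _⟩
        mul_mem' := by
          rintro a b ⟨ha, ha'⟩ ⟨hb, hb'⟩
          refine ⟨mul_mem ha hb, ?_⟩
          have hcomm : Commute a b := setLike_mul_comm ha hb
          rw [hcomm.mul_pow, ha', hb', one_mul]
        inv_mem' := by
          rintro a ⟨ha, ha'⟩
          exact ⟨inv_mem ha, by rw [inv_pow, ha', inv_one]⟩ }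
    have hLn : L.Normal := by
      constructor
      rintro n ⟨hn, hn'⟩ g
      refine ⟨‹M.Normal›.conj_mem n hn g, ?_⟩
      rw [conj_pow, hn']; simp
    have hLM : L ≤ M := fun g hg => hg.1
    have hLne : L ≠ ⊥ := by
      intro h
      have hxL : (x : G) ∈ L := by
        refine ⟨x.2, ?_⟩
        have := pow_orderOf_eq_one x
        rw [hx] at this
        exact_mod_cast congrArg Subtype.val this
      rw [h, Subgroup.mem_bot] at hxL
      have hx1 : x = 1 := Subtype.ext hxL
      rw [hx1, orderOf_one] at hx
      exact hp.one_lt.ne hx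
    have hLeq := (hmin L hLn hLM).resolve_left hLne
    refine ⟨p, hp, fun m hm => ?_⟩
    rw [← hLeq] at hm
    exact hm.2
  · intro L hLn hLne hLmin
    by_contra hne
    have hinf : L ⊓ M = ⊥ := by
      have hn : (L ⊓ M).Normal := Subgroup.normal_inf_normal L M
      rcases hmin _ hn inf_le_right with h | h
      · exact h
      · exfalso
        have hML : M ≤ L := by rw [← h]; exact inf_le_left
        rcases hLmin M inferInstance hML with h' | h'
        · exact hM h'
        · exact hne h'.symm
    have hdis : Disjoint L M := disjoint_iff.mpr hinf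
    have hLC : L.map G.subtype ≤ Subgroup.centralizer (M' : Set (Equiv.Perm α)) := by
      rintro _ ⟨l, hl, rfl⟩
      rw [Subgroup.mem_centralizer_iff]
      rintro _ ⟨m, hm, rfl⟩
      have := Subgroup.commute_of_normal_of_disjoint L M hLn inferInstance hdis l m hl hm
      have h2 := congrArg Subtype.val this.eq
      exact h2.symm
    rw [h1] at hLC
    have hLM : L ≤ M := by
      intro l hl
      obtain ⟨m, hm, hml⟩ := hLC (Subgroup.mem_map_of_mem _ hl)
      have : m = l := Subtype.ext hml
      rwa [← this]
    apply hLne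
    rw [← hinf]
    exact (inf_eq_left.mpr hLM).symm

end Cfsg.Agent.S0703
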