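import Cfsg.Statements.S0704
import Mathlib
import Cfsg.Agent.Lib.Helper5.PermBasic

set_option autoImplicit false
open Cfsg

namespace Cfsg.Agent.S0704

open Cfsg.Agent.Lib.Helper5 MulAction

lemma inf_eq_bot {G : Type*} [Group G] (M N : Subgroup G) [M.Normal] [N.Normal] (hM : M ≠ ⊥)
    (hMmin : ∀ L : Subgroup G, L.Normal → L ≤ M → L = ⊥ ∨ L = M)
    (hNmin : ∀ L : Subgroup G, L.Normal → L ≤ N → L = ⊥ ∨ L = N) (hMN : M ≠ N) : M ⊓ N = ⊥ := by
  have hn : (M ⊓ N).Normal := Subgroup.normal_inf_normal M N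
  rcases hMmin _ hn inf_le_left with h | h
  · exact h
  · exfalso
    have hML : M ≤ N := by rw [← h]; exact inf_le_right
    rcases hNmin M inferInstance hML with h' | h'
    · exact hM h'
    · exact hMN h'

lemma map_le_centralizer {α : Type*} (G : Subgroup (Equiv.Perm α)) (M N : Subgroup G) [M.Normal]
    [N.Normal] (h : M ⊓ N = ⊥) :
    M.map G.subtype ≤ Subgroup.centralizer ((N.map G.subtype : Subgroup (Equiv.Perm α)) : Set (Equiv.Perm α)) := by
  have hdis : Disjoint M N := disjoint_iff.mpr h
  rintro _ ⟨l, hl, rfl⟩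
  rw [Subgroup.mem_centralizer_iff]
  rintro _ ⟨m, hm, rfl⟩
  have := Subgroup.commute_of_normal_of_disjoint M N inferInstance inferInstance hdis l m hl hm
  have h2 := congrArg Subtype.val this.eq
  exact h2.symm

lemma le_of_map_le {α : Type*} (G : Subgroup (Equiv.Perm α)) (L M : Subgroup G)
    (h : L.map G.subtype ≤ M.map G.subtype) : L ≤ M := by
  intro l hl
  obtain ⟨m, hm, hml⟩ := h (Subgroup.mem_map_of_mem _ hl)
  have : m = l := Subtype.ext hml
  rwa [← this]

/-- Two distinct transitive minimal normal subgroups `M`, `N` of a permutation group are regular, non-abelian, isomorphic, each other's centraliser in the symmetric group, and the only minimal normal subgroups. -/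
theorem result {α : Type*} (G : Subgroup (Equiv.Perm α)) (M N : Subgroup G) [M.Normal] [N.Normal] (hM : M ≠ ⊥) (hN : N ≠ ⊥) (hMmin : ∀ L : Subgroup G, L.Normal → L ≤ M → L = ⊥ ∨ L = M) (hNmin : ∀ L : Subgroup G, L.Normal → L ≤ N → L = ⊥ ∨ L = N) (hMN : M ≠ N) (hMt : MulAction.IsPretransitive M α) (hNt : MulAction.IsPretransitive N α) : (∀ a : α, MulAction.stabilizer M a = ⊥) ∧ (∀ a : α, MulAction.stabilizer N a = ⊥) ∧ ¬ IsMulCommutative M ∧ Nonempty (M ≃* N) ∧ Subgroup.centralizer ((M.map G.subtype : Subgroup (Equiv.Perm α)) : Set (Equiv.Perm α)) = N.map G.subtype ∧ Subgroup.centralizer ((N.map G.subtype : Subgroup (Equiv.Perm α)) : Set (Equiv.Perm α)) = M.map G.subtype ∧ ∀ L : Subgroup G, L.Normal → L ≠ ⊥ → (∀ L' : Subgroup G, L'.Normal → L' ≤ L → L' = ⊥ ∨ L' = L) → L = M ∨ L = N := by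
  set M' := M.map G.subtype with hM'
  set N' := N.map G.subtype with hN'
  haveI : IsPretransitive M' α := isPretransitive_map G M
  haveI : IsPretransitive N' α := isPretransitive_map G N
  have hinf : M ⊓ N = ⊥ := inf_eq_bot M N hM hMmin hNmin hMN
  have hinf' : N ⊓ M = ⊥ := by rw [inf_comm]; exact hinf
  have hMC : M' ≤ Subgroup.centralizer (N' : Set (Equiv.Perm α)) := map_le_centralizer G M N hinf
  have hNC : N' ≤ Subgroup.centralizer (M' : Set (Equiv.Perm α)) := map_le_centralizer G N M hinf'
  have hCM : Subgroup.centralizer (M' : Set (Equiv.Perm α)) = N' :=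
    centralizer_eq_of_transitive M' N' hNC
  have hCN : Subgroup.centralizer (N' : Set (Equiv.Perm α)) = M' :=
    centralizer_eq_of_transitive N' M' hMC
  have hMreg := stabilizer_eq_bot_of_le_centralizer G M N' hMC
  have hNreg := stabilizer_eq_bot_of_le_centralizer G N M' hNC
  refine ⟨hMreg, hNreg, ?_, ?_, hCM, hCN, ?_⟩
  · intro hab
    have h1 : M' ≤ Subgroup.centralizer (M' : Set (Equiv.Perm α)) := Subgroup.le_centralizer M'
    rw [hCM] at h1
    have h2 : M ≤ N := le_of_map_le G M N h1
    apply hM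
    rw [← hinf]
    exact (inf_eq_left.mpr h2).symm
  · have hne : Nonempty α := by
      by_contra he
      rw [not_nonempty_iff] at he
      apply hM
      rw [eq_bot_iff]
      intro m _
      rw [Subgroup.mem_bot]
      exact Subtype.ext (Equiv.ext (fun x => (he.false x).elim))
    obtain ⟨a⟩ := hne
    apply mulEquiv_of_regular_commuting M N hMreg hNreg _ a
    intro m hm n hn
    exact (Subgroup.commute_of_normal_of_disjoint M N inferInstance inferInstance
      (disjoint_iff.mpr hinf) m n hm hn).eq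
  · intro L hLn hLne hLmin
    by_contra hcon
    push Not at hcon
    haveI := hLn
    have h1 : L ⊓ M = ⊥ := inf_eq_bot L M hLne hLmin hMmin hcon.1
    have h2 : L.map G.subtype ≤ Subgroup.centralizer (M' : Set (Equiv.Perm α)) :=
      map_le_centralizer G L M h1
    rw [hCM] at h2
    have h3 : L ≤ N := le_of_map_le G L N h2
    rcases hNmin L hLn h3 with h | h
    · exact hLne h
    · exact hcon.2 h

end Cfsg.Agent.S0704
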