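import Cfsg.Statements.S0705
import Mathlib
import Cfsg.Agent.Lib.Helper5.MultiTrans

set_option autoImplicit false
open scoped Pointwise
open Cfsg

namespace Cfsg.Agent.S0705

open Cfsg.Agent.Lib.Helper5
open scoped Pointwise

/-- A generously `k`-transitive permutation group (every `(k+1)`-subset has its full symmetric group induced by the setwise stabiliser) of degree greater than `k` is `k`-transitive, and for a `k`-subset the setwise and pointwise stabilisers have the same orbits outside it. -/
theorem result {α : Type*} [Fintype α] [DecidableEq α] (G : Subgroup (Equiv.Perm α)) {k : ℕ} (hk : k < Fintype.card α) (hgen : ∀ s : Finset α, s.card = k + 1 → ∀ σ : Equiv.Perm ↥s, ∃ g ∈ G, ∀ x : ↥s, g (x : α) = σ x) : MulAction.IsMultiplyPretransitive G α k ∧ ∀ s : Finset α, s.card = k → ∀ a b : α, a ∉ s → b ∉ s → (∃ g ∈ G, g • s = s ∧ g a = b) → ∃ g ∈ G, (∀ x ∈ s, g x = x) ∧ g a = b := by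
  classical
  constructor
  · apply multi_of_fixing
    intro z hz a b ha hb
    by_cases hab : a = b
    · exact ⟨1, fun x _ => one_smul _ x, by rw [one_smul, hab]⟩
    have hcard : (insert a (insert b z)).card ≤ k + 1 := by
      have h1 := Finset.card_insert_le a (insert b z)
      have h2 := Finset.card_insert_le b z
      omega
    obtain ⟨s, hs, hsk⟩ := Finset.exists_superset_card_eq hcard (by omega)
    have has : a ∈ s := hs (Finset.mem_insert_self _ _)
    have hbs : b ∈ s := hs (Finset.mem_insert_of_mem (Finset.mem_insert_self _ _))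
    obtain ⟨g, hg, hgσ⟩ := hgen s hsk (Equiv.swap ⟨a, has⟩ ⟨b, hbs⟩)
    refine ⟨⟨g, hg⟩, ?_, ?_⟩
    · intro x hx
      have hxs : x ∈ s := hs (Finset.mem_insert_of_mem (Finset.mem_insert_of_mem hx))
      show g x = x
      have := hgσ ⟨x, hxs⟩
      rw [Equiv.swap_apply_of_ne_of_ne] at this
      · exact this
      · intro h; exact ha (by rw [← (Subtype.mk.injEq _ _ _ _).mp h]; exact hx)
      · intro h; exact hb (by rw [← (Subtype.mk.injEq _ _ _ _).mp h]; exact hx)
    · show g a = b
      have := hgσ ⟨a, has⟩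
      rw [Equiv.swap_apply_left] at this
      exact this
  · intro s hs a b ha hb ⟨g, hg, hgs, hgab⟩
    have hgs' : ∀ x, g x ∈ s ↔ x ∈ s := by
      intro x
      have : g x ∈ g • s ↔ x ∈ s := Finset.smul_mem_smul_finset_iff g
      rwa [hgs] at this
    let π : Equiv.Perm α := Equiv.Perm.ofSubtype (g.subtypePerm hgs')
    have hπs : ∀ x ∈ s, π x = g x := by
      intro x hx
      show Equiv.Perm.ofSubtype (g.subtypePerm hgs') x = g x
      rw [Equiv.Perm.ofSubtype_apply_of_mem _ hx]
      rfl
    have hπb : π b = b := Equiv.Perm.ofSubtype_apply_of_not_mem _ hb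
    have hπ' : ∀ x, π x ∈ insert b s ↔ x ∈ insert b s := by
      intro x
      by_cases hxs : x ∈ s
      · rw [hπs x hxs]
        simp only [Finset.mem_insert, hxs, (hgs' x).mpr hxs, or_true]
      · have : π x = x := Equiv.Perm.ofSubtype_apply_of_not_mem _ hxs
        rw [this]
    obtain ⟨u, hu, huσ⟩ := hgen (insert b s) (by rw [Finset.card_insert_of_notMem hb, hs]) (π.subtypePerm hπ')
    refine ⟨u⁻¹ * g, G.mul_mem (G.inv_mem hu) hg, ?_, ?_⟩
    · intro x hx
      have := huσ ⟨x, Finset.mem_insert_of_mem hx⟩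
      have h2 : u x = g x := by
        rw [this]
        exact hπs x hx
      rw [Equiv.Perm.mul_apply, ← h2, Equiv.Perm.inv_eq_iff_eq]
    · have := huσ ⟨b, Finset.mem_insert_self _ _⟩
      have h2 : u b = b := by
        rw [this]
        exact hπb
      rw [Equiv.Perm.mul_apply, hgab, Equiv.Perm.inv_eq_iff_eq, h2]

end Cfsg.Agent.S0705
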