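import Cfsg.Statements.S0706
import Mathlib

set_option autoImplicit false
open Cfsg

namespace Cfsg.Agent.S0706

/-- pointwise stabilizer in `G` of a finset -/
def Fx {α : Type*} (G : Subgroup (Equiv.Perm α)) (A : Finset α) : Subgroup (Equiv.Perm α) where
  carrier := {g | g ∈ G ∧ ∀ x ∈ A, g x = x}
  one_mem' := ⟨G.one_mem, fun _ _ => rfl⟩
  mul_mem' := by
    rintro a b ⟨ha, ha'⟩ ⟨hb, hb'⟩
    exact ⟨G.mul_mem ha hb, fun x hx => by rw [Equiv.Perm.mul_apply, hb' x hx, ha' x hx]⟩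
  inv_mem' := by
    rintro a ⟨ha, ha'⟩
    exact ⟨G.inv_mem ha, fun x hx => by rw [Equiv.Perm.inv_eq_iff_eq]; exact (ha' x hx).symm⟩

/-- fix `A` pointwise, stabilize `B` setwise -/
def Xs {α : Type*} (G : Subgroup (Equiv.Perm α)) (A B : Finset α) : Subgroup (Equiv.Perm α) where
  carrier := {g | g ∈ G ∧ (∀ x ∈ A, g x = x) ∧ ∀ x, g x ∈ B ↔ x ∈ B}
  one_mem' := ⟨G.one_mem, fun _ _ => rfl, fun _ => Iff.rfl⟩
  mul_mem' := by
    rintro a b ⟨ha, ha', ha''⟩ ⟨hb, hb', hb''⟩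
    exact ⟨G.mul_mem ha hb, fun x hx => by rw [Equiv.Perm.mul_apply, hb' x hx, ha' x hx],
      fun x => by rw [Equiv.Perm.mul_apply, ha'', hb'']⟩
  inv_mem' := by
    rintro a ⟨ha, ha', ha''⟩
    exact ⟨G.inv_mem ha, fun x hx => by rw [Equiv.Perm.inv_eq_iff_eq]; exact (ha' x hx).symm,
      fun x => by rw [← ha'' (a⁻¹ x)]; simp⟩

theorem hom {α : Type*} [DecidableEq α] (G : Subgroup (Equiv.Perm α)) {k : ℕ}
    (hgen : ∀ s : Finset α, s.card = k + 1 → ∀ σ : Equiv.Perm ↥s, ∃ g ∈ G, ∀ x : ↥s, g (x : α) = σ x)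
    (B : Finset α) (hB : B.card = k) : ∀ (n : ℕ) (A : Finset α), A.card = k → (A \ B).card = n →
      ∃ g ∈ G, ∀ x ∈ A, g x ∈ B := by
  intro n
  induction n with
  | zero =>
    intro A hA h0
    refine ⟨1, G.one_mem, fun x hx => ?_⟩
    have h1 : A \ B = ∅ := Finset.card_eq_zero.mp h0
    have h2 : A ⊆ B := Finset.sdiff_eq_empty_iff_subset.mp h1
    exact h2 hx
  | succ n ih =>
    intro A hA hn
    obtain ⟨x, hx⟩ : (A \ B).Nonempty := Finset.card_pos.mp (by omega)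
    have hBA : (B \ A).card = n + 1 := by
      have h1 := Finset.card_sdiff_add_card_inter A B
      have h2 := Finset.card_sdiff_add_card_inter B A
      rw [Finset.inter_comm] at h2
      omega
    obtain ⟨y, hy⟩ : (B \ A).Nonempty := Finset.card_pos.mp (by omega)
    rw [Finset.mem_sdiff] at hx hy
    have hs : (insert y A).card = k + 1 := by rw [Finset.card_insert_of_notMem hy.2, hA]
    obtain ⟨g₁, hg₁, hg₁'⟩ := hgen (insert y A) hs
      (Equiv.swap ⟨x, Finset.mem_insert_of_mem hx.1⟩ ⟨y, Finset.mem_insert_self _ _⟩)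
    have hA' : (insert y (A.erase x)).card = k := by
      rw [Finset.card_insert_of_notMem (fun h => hy.2 (Finset.mem_of_mem_erase h)),
        Finset.card_erase_of_mem hx.1, hA]
      have : 0 < A.card := Finset.card_pos.mpr ⟨x, hx.1⟩
      omega
    have hn' : (insert y (A.erase x) \ B).card = n := by
      have h3 : insert y (A.erase x) \ B = (A \ B).erase x := by
        ext z; simp only [Finset.mem_sdiff, Finset.mem_insert, Finset.mem_erase]
        constructor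
        · rintro ⟨rfl | ⟨h1, h2⟩, h3⟩
          · exact absurd hy.1 h3
          · exact ⟨h1, h2, h3⟩
        · rintro ⟨h1, h2, h3⟩
          exact ⟨Or.inr ⟨h1, h2⟩, h3⟩
      rw [h3, Finset.card_erase_of_mem (Finset.mem_sdiff.mpr hx), hn]; rfl
    obtain ⟨g₂, hg₂, hg₂'⟩ := ih _ hA' hn'
    refine ⟨g₂ * g₁, G.mul_mem hg₂ hg₁, fun z hz => ?_⟩
    rw [Equiv.Perm.mul_apply]
    apply hg₂'
    have h4 := hg₁' ⟨z, Finset.mem_insert_of_mem hz⟩
    simp only at h4
    rw [h4]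
    by_cases hzx : z = x
    · subst hzx
      rw [Equiv.swap_apply_left]; exact Finset.mem_insert_self _ _
    · have hzy : z ≠ y := fun h => hy.2 (h ▸ hz)
      rw [Equiv.swap_apply_of_ne_of_ne (by simpa [Subtype.ext_iff] using hzx)
        (by simpa [Subtype.ext_iff] using hzy)]
      exact Finset.mem_insert_of_mem (Finset.mem_erase.mpr ⟨hzx, hz⟩)

theorem mem_orbit_fix {α : Type*} (G : Subgroup (Equiv.Perm α)) (Γ : Finset α) (a b : α) :
    b ∈ MulAction.orbit (fixingSubgroup G (Γ : Set α)) a ↔ ∃ h ∈ Fx G Γ, h a = b := by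
  constructor
  · rintro ⟨⟨⟨h, hG⟩, hh⟩, rfl⟩
    refine ⟨h, ⟨hG, fun x hx => ?_⟩, rfl⟩
    exact (mem_fixingSubgroup_iff _).mp hh x hx
  · rintro ⟨h, ⟨hG, hh⟩, rfl⟩
    exact ⟨⟨⟨h, hG⟩, (mem_fixingSubgroup_iff _).mpr fun x hx => hh x hx⟩, rfl⟩

theorem mem_orbit_sub {α : Type*} (X : Subgroup (Equiv.Perm α)) (a b : α) :
    b ∈ MulAction.orbit X a ↔ ∃ h ∈ X, h a = b := by
  constructor
  · rintro ⟨⟨h, hG⟩, rfl⟩
    exact ⟨h, hG, rfl⟩
  · rintro ⟨h, hG, rfl⟩
    exact ⟨⟨h, hG⟩, rfl⟩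

theorem stab_iff {α : Type*} [DecidableEq α] (x : Equiv.Perm α) (Γ : Finset α) (h : ∀ z ∈ Γ, x z ∈ Γ) :
    ∀ z, x z ∈ Γ ↔ z ∈ Γ := by
  have h1 : Γ.image x = Γ := by
    apply Finset.eq_of_subset_of_card_le
    · intro w hw
      obtain ⟨z, hz, rfl⟩ := Finset.mem_image.mp hw
      exact h z hz
    · rw [Finset.card_image_of_injective _ x.injective]
  intro z
  refine ⟨fun hz => ?_, h z⟩
  rw [← h1] at hz
  obtain ⟨w, hw, hwz⟩ := Finset.mem_image.mp hz
  rwa [← x.injective hwz]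

/-- extension: an element of `G` agreeing with `x` on `Γ` and fixing `a`. -/
theorem exists_ext {α : Type*} [DecidableEq α] (G : Subgroup (Equiv.Perm α)) {k : ℕ}
    (hgen : ∀ s : Finset α, s.card = k + 1 → ∀ σ : Equiv.Perm ↥s, ∃ g ∈ G, ∀ x : ↥s, g (x : α) = σ x)
    (Γ : Finset α) (hΓ : Γ.card = k) (a : α) (ha : a ∉ Γ) (x : Equiv.Perm α)
    (hx : ∀ z, x z ∈ Γ ↔ z ∈ Γ) : ∃ y ∈ G, y a = a ∧ ∀ z ∈ Γ, y z = x z := by
  let x₁ : Equiv.Perm {z // z ∈ Γ} := x.subtypePerm hx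
  let x₂ : Equiv.Perm α := Equiv.Perm.ofSubtype x₁
  have h1 : ∀ z ∈ Γ, x₂ z = x z := by
    intro z hz
    have := Equiv.Perm.ofSubtype_apply_of_mem x₁ hz
    simpa [x₂, x₁] using this
  have h2 : ∀ z, z ∉ Γ → x₂ z = z := by
    intro z hz
    exact Equiv.Perm.ofSubtype_apply_of_not_mem x₁ hz
  have h3 : ∀ z, x₂ z ∈ insert a Γ ↔ z ∈ insert a Γ := by
    intro z
    by_cases hz : z ∈ Γ
    · rw [h1 z hz]
      simp [hz, (hx z).mpr hz]
    · rw [h2 z hz]
  have hs : (insert a Γ).card = k + 1 := by rw [Finset.card_insert_of_notMem ha, hΓ]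
  obtain ⟨y, hy, hy'⟩ := hgen (insert a Γ) hs (x₂.subtypePerm h3)
  refine ⟨y, hy, ?_, fun z hz => ?_⟩
  · have := hy' ⟨a, Finset.mem_insert_self _ _⟩
    simp only [Equiv.Perm.subtypePerm_apply] at this
    rw [this, h2 a ha]
  · have := hy' ⟨z, Finset.mem_insert_of_mem hz⟩
    simp only [Equiv.Perm.subtypePerm_apply] at this
    rw [this, h1 z hz]



/-- In a generously `k`-transitive permutation group, for a prime `p ≤ k` and a `k`-set `Γ`, there are no `p` points outside `Γ` lying in distinct orbits of the pointwise stabiliser of `Γ` all of length prime to `p` (at most `p - 1` such orbits). -/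
theorem result {α : Type*} [Fintype α] [DecidableEq α] (G : Subgroup (Equiv.Perm α)) {k : ℕ} (hk : k < Fintype.card α) (hgen : ∀ s : Finset α, s.card = k + 1 → ∀ σ : Equiv.Perm ↥s, ∃ g ∈ G, ∀ x : ↥s, g (x : α) = σ x) {p : ℕ} (hp : p.Prime) (hpk : p ≤ k) (Γ : Finset α) (hΓ : Γ.card = k) (f : Fin p → α) (hf : ∀ i, f i ∉ Γ) (hdist : ∀ i j, i ≠ j → f j ∉ MulAction.orbit (fixingSubgroup G (Γ : Set α)) (f i)) : ∃ i, p ∣ Nat.card (MulAction.orbit (fixingSubgroup G (Γ : Set α)) (f i)) := by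
  by_contra hcon
  push Not at hcon
  haveI : Fact p.Prime := ⟨hp⟩
  obtain ⟨Δ, hΔΓ, hΔ⟩ := Finset.exists_subset_card_eq (hΓ ▸ hpk : p ≤ Γ.card)
  obtain ⟨Γ₁, hΓ₁⟩ : ∃ Γ₁, Γ₁ = Γ \ Δ := ⟨_, rfl⟩
  obtain ⟨X, hX⟩ : ∃ X, X = Xs G Γ₁ Γ := ⟨_, rfl⟩
  obtain ⟨H, hH⟩ : ∃ H, H = Fx G Γ := ⟨_, rfl⟩
  have hΓ₁Γ : Γ₁ ⊆ Γ := hΓ₁ ▸ Finset.sdiff_subset
  have hHX : H ≤ X := by
    rw [hH, hX]
    rintro h ⟨h1, h2⟩
    exact ⟨h1, fun x hx => h2 x (hΓ₁Γ hx), stab_iff h Γ (fun z hz => by rw [h2 z hz]; exact hz)⟩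
  -- orbits of X and H agree outside Γ
  have horb : ∀ a, a ∉ Γ → MulAction.orbit X a = MulAction.orbit (fixingSubgroup G (Γ : Set α)) a := by
    intro a ha
    ext b
    rw [mem_orbit_fix, mem_orbit_sub, ← hH]
    constructor
    · rintro ⟨x, hx, rfl⟩
      have hx' : x⁻¹ ∈ X := X.inv_mem hx
      rw [hX] at hx hx'
      obtain ⟨y, hy, hya, hyz⟩ := exists_ext G hgen Γ hΓ a ha x⁻¹ hx'.2.2
      refine ⟨x * y, ?_, by rw [Equiv.Perm.mul_apply, hya]⟩
      rw [hH]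
      exact ⟨G.mul_mem hx.1 hy, fun z hz => by rw [Equiv.Perm.mul_apply, hyz z hz]; simp⟩
    · rintro ⟨h, hh, rfl⟩
      exact ⟨h, hHX hh, rfl⟩
  -- Sylow subgroup of X and its fixed points
  obtain ⟨S⟩ : Nonempty (Sylow p X) := inferInstance
  have hfixpt : ∀ i, ∃ b, b ∈ MulAction.orbit (fixingSubgroup G (Γ : Set α)) (f i) ∧
      ∀ s : X, s ∈ S → (s : Equiv.Perm α) b = b := by
    intro i
    have hnd : ¬ p ∣ Nat.card (MulAction.orbit X (f i)) := by
      rw [horb _ (hf i)]; exact hcon i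
    obtain ⟨⟨b, hb⟩, hfix⟩ := S.2.nonempty_fixed_point_of_prime_not_dvd_card
      (MulAction.orbit X (f i)) hnd
    refine ⟨b, by rw [← horb _ (hf i)]; exact hb, fun s hs => ?_⟩
    have := hfix ⟨s, hs⟩
    exact congrArg Subtype.val this
  choose a ha ha' using hfixpt
  have haΓ : ∀ i, a i ∉ Γ := by
    intro i hi
    obtain ⟨h, hh, hha⟩ := (mem_orbit_fix G Γ _ _).mp (ha i)
    have h1 := hh.2 _ hi
    rw [← hha] at h1
    have h2 := h.injective h1
    rw [h2] at hha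
    exact hf i (hha ▸ hi)
  have hainj : Function.Injective a := by
    intro i j hij
    by_contra hne
    apply hdist i j hne
    have h1 := MulAction.orbit_eq_iff.mpr (ha i)
    have h2 := MulAction.orbit_eq_iff.mpr (ha j)
    rw [← h1, hij, h2]
    exact MulAction.mem_orbit_self _
  obtain ⟨Γ', hΓ'⟩ : ∃ Γ', Γ' = Γ₁ ∪ Finset.univ.image a := ⟨_, rfl⟩
  have hΓ'c : Γ'.card = k := by
    rw [hΓ', Finset.card_union_of_disjoint, Finset.card_image_of_injective _ hainj,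
      Finset.card_univ, Fintype.card_fin]
    · have := Finset.card_sdiff_add_card_eq_card hΔΓ
      rw [← hΓ₁] at this
      omega
    · rw [Finset.disjoint_left]
      intro z hz hz'
      obtain ⟨i, -, rfl⟩ := Finset.mem_image.mp hz'
      exact haΓ i (hΓ₁Γ hz)
  obtain ⟨g, hg, hg'⟩ := hom G hgen Γ' hΓ'c _ Γ hΓ rfl
  -- |S| divides |H|
  have hSH : Nat.card S ∣ Nat.card H := by
    have h1 : ((S : Subgroup X).map X.subtype).map (MulAut.conj g⁻¹).toMonoidHom ≤ H := by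
      rintro _ ⟨_, ⟨s, hs, rfl⟩, rfl⟩
      have hsX : (s : Equiv.Perm α) ∈ Xs G Γ₁ Γ := hX ▸ s.2
      rw [hH]
      refine ⟨?_, fun z hz => ?_⟩
      · simp only [MulEquiv.coe_toMonoidHom, MulAut.conj_apply, inv_inv]
        exact G.mul_mem (G.mul_mem (G.inv_mem hg) hsX.1) hg
      · simp only [MulEquiv.coe_toMonoidHom, MulAut.conj_apply, inv_inv, Equiv.Perm.mul_apply,
          Subgroup.coe_subtype]
        have h2 : (s : Equiv.Perm α) (g z) = g z := by
          have h3 := hg' z hz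
          rw [hΓ', Finset.mem_union] at h3
          rcases h3 with h3 | h3
          · exact hsX.2.1 _ h3
          · obtain ⟨i, -, hi⟩ := Finset.mem_image.mp h3
            rw [← hi]; exact ha' i s hs
        rw [h2]; simp
    have h2 := Subgroup.card_dvd_of_le h1
    rwa [Subgroup.card_map_of_injective (MulEquiv.injective _),
      Subgroup.card_map_of_injective X.subtype_injective] at h2
  -- p * |H| divides |X|
  obtain ⟨δ, hδ⟩ : Δ.Nonempty := Finset.card_pos.mp (by rw [hΔ]; exact hp.pos)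
  have horbδ : MulAction.orbit X δ = (Δ : Set α) := by
    ext b
    rw [mem_orbit_sub, Finset.mem_coe]
    constructor
    · rintro ⟨x, hx, rfl⟩
      rw [hX] at hx
      by_contra hb
      have h1 : x δ ∈ Γ := (hx.2.2 δ).mpr (hΔΓ hδ)
      have h2 : x δ ∈ Γ₁ := by rw [hΓ₁]; exact Finset.mem_sdiff.mpr ⟨h1, hb⟩
      have h3 := hx.2.1 _ h2
      have h4 := x.injective h3
      rw [h4, hΓ₁] at h2
      exact (Finset.mem_sdiff.mp h2).2 hδ
    · intro hb
      obtain ⟨y, hy, -, hyz⟩ := exists_ext G hgen Γ hΓ (f ⟨0, hp.pos⟩) (hf _) (Equiv.swap δ b)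
        (stab_iff _ Γ (fun z hz => by
          by_cases h1 : z = δ
          · rw [h1, Equiv.swap_apply_left]; exact hΔΓ hb
          · by_cases h2 : z = b
            · rw [h2, Equiv.swap_apply_right]; exact hΔΓ hδ
            · rw [Equiv.swap_apply_of_ne_of_ne h1 h2]; exact hz))
      refine ⟨y, ?_, by rw [hyz δ (hΔΓ hδ), Equiv.swap_apply_left]⟩
      rw [hX]
      refine ⟨hy, fun z hz => ?_, stab_iff _ Γ (fun z hz => ?_)⟩
      · rw [hyz z (hΓ₁Γ hz)]
        rw [hΓ₁] at hz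
        have hz2 := (Finset.mem_sdiff.mp hz).2
        exact Equiv.swap_apply_of_ne_of_ne (fun h => hz2 (h ▸ hδ)) (fun h => hz2 (h ▸ hb))
      · rw [hyz z hz]
        by_cases h1 : z = δ
        · rw [h1, Equiv.swap_apply_left]; exact hΔΓ hb
        · by_cases h2 : z = b
          · rw [h2, Equiv.swap_apply_right]; exact hΔΓ hδ
          · rw [Equiv.swap_apply_of_ne_of_ne h1 h2]; exact hz
  have hidx : (MulAction.stabilizer X δ).index = p := by
    rw [MulAction.index_stabilizer, horbδ, Set.ncard_coe_finset, hΔ]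
  have hle : H.subgroupOf X ≤ MulAction.stabilizer X δ := by
    intro x hx
    rw [Subgroup.mem_subgroupOf, hH] at hx
    rw [MulAction.mem_stabilizer_iff]
    exact hx.2 δ (hΔΓ hδ)
  have hdvd : p * Nat.card H ∣ Nat.card X := by
    rw [← Subgroup.index_mul_card (MulAction.stabilizer X δ), hidx]
    apply Nat.mul_dvd_mul_left
    have := Subgroup.card_dvd_of_le hle
    rwa [Nat.card_congr (Subgroup.subgroupOfEquivOfLe hHX).toEquiv] at this
  have hH0 : Nat.card H ≠ 0 := Nat.card_pos.ne'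
  have hX0 : Nat.card X ≠ 0 := Nat.card_pos.ne'
  apply Nat.pow_succ_factorization_not_dvd hH0 hp
  refine dvd_trans ?_ hSH
  rw [Sylow.card_eq_multiplicity]
  apply pow_dvd_pow
  rw [← Nat.Prime.pow_dvd_iff_le_factorization hp hX0]
  refine dvd_trans ?_ hdvd
  rw [pow_succ, mul_comm]
  exact Nat.mul_dvd_mul_left _ (Nat.ordProj_dvd _ _)

end Cfsg.Agent.S0706
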