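import Cfsg.Statements.S0707
import Mathlib

set_option autoImplicit false
open Cfsg

namespace Cfsg.Agent.S0707

lemma prime_card_of_isCoatom_bot {G : Type*} [Group G] (h : IsCoatom (⊥ : Subgroup G)) :
    (Nat.card G).Prime := by
  have hdich : ∀ H : Subgroup G, H = ⊥ ∨ H = ⊤ := fun H => by
    rcases eq_or_ne H ⊥ with h' | h'
    · exact Or.inl h'
    · exact Or.inr (h.2 H (bot_lt_iff_ne_bot.mpr h'))
  obtain ⟨g, hg⟩ : ∃ g : G, g ≠ 1 := by
    by_contra hh
    push Not at hh
    apply h.1
    ext x; simp [hh x]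
  have hz : ∀ x : G, x ≠ 1 → Subgroup.zpowers x = ⊤ := fun x hx =>
    (hdich _).resolve_left (by simpa using hx)
  have hcard : ∀ x : G, x ≠ 1 → orderOf x = Nat.card G := fun x hx => by
    rw [← Nat.card_zpowers, hz x hx, Subgroup.card_top]
  have hn := hcard g hg
  rw [← hn]
  by_cases h0 : orderOf g = 0
  · exfalso
    have hg2 : g ^ 2 ≠ 1 := by
      intro h2
      have := orderOf_dvd_of_pow_eq_one h2
      rw [h0] at this; simp at this
    have : g ∈ Subgroup.zpowers (g ^ 2) := by rw [hz _ hg2]; trivial
    obtain ⟨k, hk⟩ := Subgroup.mem_zpowers_iff.mp this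
    have h3 : g ^ (2 * k - 1) = 1 := by
      rw [zpow_sub, zpow_mul, zpow_one]
      have h4 : (g ^ (2 : ℤ)) = g ^ 2 := by norm_cast
      rw [h4, hk]; simp
    have h5 := orderOf_dvd_iff_zpow_eq_one.mpr h3
    rw [h0] at h5
    simp at h5
    omega
  · have h1 : orderOf g ≠ 1 := by simpa [orderOf_eq_one_iff] using hg
    have hp : (orderOf g).minFac.Prime := Nat.minFac_prime h1
    have hpd : (orderOf g).minFac ∣ orderOf g := Nat.minFac_dvd _
    by_cases hgp : g ^ (orderOf g).minFac = 1
    · have := orderOf_dvd_of_pow_eq_one hgp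
      rcases (Nat.dvd_prime hp).mp this with h6 | h6
      · exact absurd h6 h1
      · rw [h6]; exact hp
    · exfalso
      have h5 := hcard _ hgp
      rw [orderOf_pow_of_dvd hp.ne_zero hpd, ← hn] at h5
      have := Nat.div_lt_self (Nat.pos_of_ne_zero h0) hp.one_lt
      omega

/-- In a primitive permutation group, distinct points have distinct stabilisers unless the group is regular of prime degree. -/
theorem result {α : Type*} (G : Subgroup (Equiv.Perm α)) [MulAction.IsPreprimitive G α] (h : ¬ (Nat.card α).Prime ∨ ∃ a : α, MulAction.stabilizer G a ≠ ⊥) {a b : α} (hab : a ≠ b) : MulAction.stabilizer G a ≠ MulAction.stabilizer G b := by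
  intro hst
  haveI : Nontrivial α := ⟨a, b, hab⟩
  have hco : IsCoatom (MulAction.stabilizer G a) :=
    MulAction.IsPreprimitive.isCoatom_stabilizer_of_isPreprimitive (G := G) a
  obtain ⟨g, hg⟩ := MulAction.exists_smul_eq G a b
  have hgN : g ∈ Subgroup.normalizer (MulAction.stabilizer G a : Set G) := by
    rw [Subgroup.mem_normalizer_iff_map_conj_eq]
    have := MulAction.stabilizer_smul_eq_stabilizer_map_conj g a
    rw [hg, ← hst] at this
    exact this.symm
  have hgn : g ∉ MulAction.stabilizer G a := by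
    intro h; apply hab; rw [← hg]; exact (MulAction.mem_stabilizer_iff.mp h).symm
  have hN : Subgroup.normalizer (MulAction.stabilizer G a : Set G) = ⊤ :=
    hco.2 _ (lt_of_le_not_ge Subgroup.le_normalizer (fun h => hgn (h hgN)))
  have hnormal : (MulAction.stabilizer G a).Normal := Subgroup.normalizer_eq_top_iff.mp hN
  have hbot : MulAction.stabilizer G a = ⊥ := by
    rw [eq_bot_iff]; intro x hx; rw [Subgroup.mem_bot]
    apply Subtype.ext
    apply Equiv.ext
    intro y
    obtain ⟨k, rfl⟩ := MulAction.exists_smul_eq G a y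
    have := hnormal.conj_mem x hx k⁻¹
    rw [MulAction.mem_stabilizer_iff, inv_inv, mul_smul, mul_smul, inv_smul_eq_iff] at this
    exact this
  rcases h with h | ⟨c, hc⟩
  · apply h
    rw [← MulAction.index_stabilizer_of_transitive G a, hbot, Subgroup.index_bot]
    exact prime_card_of_isCoatom_bot (hbot ▸ hco)
  · apply hc
    obtain ⟨k, rfl⟩ := MulAction.exists_smul_eq G a c
    rw [MulAction.stabilizer_smul_eq_stabilizer_map_conj, hbot, Subgroup.map_bot]

end Cfsg.Agent.S0707
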