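import Cfsg.Statements.S0708
import Mathlib

set_option autoImplicit false
open Cfsg

namespace Cfsg.Agent.S0708

def D4 {Ω : Type*} (a b c d : Ω) : Prop := a ≠ b ∧ a ≠ c ∧ a ≠ d ∧ b ≠ c ∧ b ≠ d ∧ c ≠ d

def e4 {Ω : Type*} (a b c d : Ω) (h : D4 a b c d) : Fin 4 ↪ Ω :=
  ⟨![a, b, c, d], by
    obtain ⟨h1, h2, h3, h4, h5, h6⟩ := h
    intro i j hij
    fin_cases i <;> fin_cases j <;> simp_all⟩

/-- Tits' argument: a sharply 4-transitive group (no finiteness assumed) has finite degree at most 11, and at most 6 when the degree is even. -/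
theorem result {G : Type*} [Group G] {Ω : Type*} [MulAction G Ω] (h4 : MulAction.IsMultiplyPretransitive G Ω 4) (hsharp : ∀ x : Fin 4 ↪ Ω, MulAction.stabilizer G x = ⊥) (hne : Nonempty (Fin 4 ↪ Ω)) : Finite Ω ∧ Nat.card Ω ≤ 11 ∧ (Even (Nat.card Ω) → Nat.card Ω ≤ 6) := by
  classical
  obtain ⟨x0⟩ := hne
  have hT : ∀ (u v : Fin 4 ↪ Ω), ∃ g : G, ∀ i, g • u i = v i := by
    intro u v
    obtain ⟨g, hg⟩ := h4.exists_smul_eq u v
    exact ⟨g, fun i => by rw [← hg]; rfl⟩
  have hS : ∀ (u : Fin 4 ↪ Ω) (g : G), (∀ i, g • u i = u i) → g = 1 := by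
    intro u g hg
    have : g ∈ MulAction.stabilizer G u := by
      rw [MulAction.mem_stabilizer_iff]
      ext i
      exact hg i
    rw [hsharp u] at this
    exact this
  have hT4 : ∀ a b c d a' b' c' d' : Ω, D4 a b c d → D4 a' b' c' d' →
      ∃ g : G, g • a = a' ∧ g • b = b' ∧ g • c = c' ∧ g • d = d' := by
    intro a b c d a' b' c' d' h h'
    obtain ⟨g, hg⟩ := hT (e4 a b c d h) (e4 a' b' c' d' h')
    exact ⟨g, hg 0, hg 1, hg 2, hg 3⟩
  have hS4 : ∀ a b c d : Ω, D4 a b c d → ∀ g : G, g • a = a → g • b = b → g • c = c → g • d = d →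
      g = 1 := by
    intro a b c d h g ha hb hc hd
    apply hS (e4 a b c d h) g
    intro i
    fin_cases i
    · exact ha
    · exact hb
    · exact hc
    · exact hd
  have hE4 : ∀ a b c d : Ω, D4 a b c d → ∀ u v : G, u • a = v • a → u • b = v • b → u • c = v • c →
      u • d = v • d → u = v := by
    intro a b c d h u v ha hb hc hd
    have : v⁻¹ * u = 1 := by
      apply hS4 a b c d h
      · rw [mul_smul, ha, inv_smul_smul]
      · rw [mul_smul, hb, inv_smul_smul]
      · rw [mul_smul, hc, inv_smul_smul]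
      · rw [mul_smul, hd, inv_smul_smul]
    calc u = v * (v⁻¹ * u) := by group
      _ = v := by rw [this, mul_one]
  set a := x0 0 with ha
  set b := x0 1 with hb
  set c := x0 2 with hc
  set d := x0 3 with hd
  have hD : D4 a b c d :=
    ⟨x0.injective.ne (by decide), x0.injective.ne (by decide), x0.injective.ne (by decide),
      x0.injective.ne (by decide), x0.injective.ne (by decide), x0.injective.ne (by decide)⟩
  obtain ⟨hab, hac, had, hbc, hbd, hcd⟩ := hD
  have hD : D4 a b c d := ⟨hab, hac, had, hbc, hbd, hcd⟩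
  obtain ⟨x, xa, xb, xc, xd⟩ := hT4 a b c d a b d c hD ⟨hab, had, hac, hbd, hbc, hcd.symm⟩
  have hxx : x * x = 1 := by
    apply hS4 a b c d hD
    · rw [mul_smul, xa, xa]
    · rw [mul_smul, xb, xb]
    · rw [mul_smul, xc, xd]
    · rw [mul_smul, xd, xc]
  have hxx' : ∀ w : Ω, x • (x • w) = w := by
    intro w; rw [← mul_smul, hxx, one_smul]
  have hx1 : x ≠ 1 := by
    intro h
    rw [h, one_smul] at xc
    exact hcd xc
  have hfix : ∀ w1 w2 : Ω, x • w1 = w1 → x • w2 = w2 → w1 ≠ a → w1 ≠ b → w2 ≠ a → w2 ≠ b →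
      w1 = w2 := by
    intro w1 w2 h1 h2 h1a h1b h2a h2b
    by_contra hne
    exact hx1 (hS4 a b w1 w2 ⟨hab, h1a.symm, h2a.symm, h1b.symm, h2b.symm, hne⟩ x xa xb h1 h2)
  set S2 : Set Ω := {γ | x • γ ≠ γ ∧ γ ≠ c ∧ γ ≠ d} with hS2
  have key : ∀ γ0 ∈ S2, ∀ γ ∈ S2, ∃ g : G, g • c = c ∧ g • d = d ∧ g • γ0 = γ ∧
      (∀ w : Ω, x • w = w → x • (g • w) = g • w) := by
    have hDD : ∀ γ ∈ S2, D4 c d γ (x • γ) := by
      rintro γ ⟨h1, h2, h3⟩
      refine ⟨hcd, h2.symm, ?_, h3.symm, ?_, h1.symm⟩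
      · intro h
        apply h3
        rw [← hxx' γ, ← h, xc]
      · intro h
        apply h2
        rw [← hxx' γ, ← h, xd]
    intro γ0 h0 γ h1
    obtain ⟨g, g1, g2, g3, g4⟩ := hT4 _ _ _ _ _ _ _ _ (hDD γ0 h0) (hDD γ h1)
    have hcomm : g * x = x * g := by
      apply hE4 _ _ _ _ (hDD γ0 h0)
      · rw [mul_smul, mul_smul, xc, g2, g1, xc]
      · rw [mul_smul, mul_smul, xd, g1, g2, xd]
      · rw [mul_smul, mul_smul, g4, g3]
      · rw [mul_smul, mul_smul, hxx', g3, g4, hxx']
    refine ⟨g, g1, g2, g3, ?_⟩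
    intro w hw
    rw [← mul_smul, ← hcomm, mul_smul, hw]
  -- general bound
  have gen : ∀ s : Finset Ω, (∀ w : Ω, x • w = w ↔ w ∈ s) →
      Finite Ω ∧ Nat.card Ω ≤ s.card + 2 + (s.card * s.card - s.card) ∧
      (Nat.card Ω ≡ s.card [MOD 2]) := by
    intro s hs
    have hS2fin : S2.Finite ∧ S2.ncard ≤ s.offDiag.card := by
      by_cases hne : S2.Nonempty
      · obtain ⟨γ0, h0⟩ := hne
        choose! g hg using key γ0 h0
        have hmaps : ∀ γ ∈ S2, (g γ • a, g γ • b) ∈ (↑s.offDiag : Set (Ω × Ω)) := by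
          intro γ hγ
          rw [Finset.mem_coe, Finset.mem_offDiag]
          obtain ⟨_, _, _, h4⟩ := hg γ hγ
          refine ⟨(hs _).1 (h4 a xa), (hs _).1 (h4 b xb), ?_⟩
          intro h
          exact hab (MulAction.injective _ h)
        have hinj : Set.InjOn (fun γ => (g γ • a, g γ • b)) S2 := by
          intro γ hγ γ' hγ' h
          obtain ⟨h1, h2, h3, _⟩ := hg γ hγ
          obtain ⟨h1', h2', h3', _⟩ := hg γ' hγ'
          have e1 : g γ • a = g γ' • a := congrArg Prod.fst h
          have e2 : g γ • b = g γ' • b := congrArg Prod.snd h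
          have := hE4 a b c d hD (g γ) (g γ') e1 e2 (h1.trans h1'.symm) (h2.trans h2'.symm)
          rw [← h3, ← h3', this]
        refine ⟨Set.Finite.of_injOn hmaps hinj (Finset.finite_toSet _), ?_⟩
        have := Set.ncard_le_ncard_of_injOn _ hmaps hinj (Finset.finite_toSet _)
        rwa [Set.ncard_coe_finset] at this
      · rw [Set.not_nonempty_iff_eq_empty] at hne
        rw [hne]
        simp
    have hcov : (Set.univ : Set Ω) ⊆ (↑s ∪ {c, d}) ∪ S2 := by
      intro w _
      by_cases h1 : x • w = w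
      · exact Or.inl (Or.inl ((hs w).1 h1))
      · by_cases h2 : w = c
        · exact Or.inl (Or.inr (Or.inl h2))
        · by_cases h3 : w = d
          · exact Or.inl (Or.inr (Or.inr h3))
          · exact Or.inr ⟨h1, h2, h3⟩
    have hfinU : ((↑s ∪ {c, d}) ∪ S2 : Set Ω).Finite :=
      ((Finset.finite_toSet s).union (by simp)).union hS2fin.1
    have hfin : Finite Ω := Set.finite_univ_iff.1 (hfinU.subset hcov)
    refine ⟨hfin, ?_, ?_⟩
    · rw [← Set.ncard_univ]
      calc (Set.univ : Set Ω).ncard ≤ ((↑s ∪ {c, d}) ∪ S2 : Set Ω).ncard :=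
            Set.ncard_le_ncard hcov hfinU
        _ ≤ (↑s ∪ {c, d} : Set Ω).ncard + S2.ncard := Set.ncard_union_le _ _
        _ ≤ ((↑s : Set Ω).ncard + ({c, d} : Set Ω).ncard) + S2.ncard :=
            Nat.add_le_add_right (Set.ncard_union_le _ _) _
        _ ≤ s.card + 2 + (s.card * s.card - s.card) := by
            rw [Set.ncard_coe_finset, Set.ncard_pair hcd]
            have := hS2fin.2
            rw [Finset.offDiag_card] at this
            omega
    · have := Fintype.ofFinite Ω
      have h2 : Fact (Nat.Prime 2) := ⟨Nat.prime_two⟩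
      obtain ⟨F, hF⟩ : ∃ F : Function.End Ω, ∀ w, F w = x • w := ⟨fun w => x • w, fun _ => rfl⟩
      have hFF : F * F = 1 := by
        funext w
        change F (F w) = w
        rw [hF, hF, hxx']
      have hmod := Equiv.Perm.card_fixedPoints_modEq (f := F) (p := 2) (n := 1) (by
          rw [pow_one, pow_two]; exact hFF)
      rw [Nat.card_eq_fintype_card]
      refine hmod.trans ?_
      rw [Fintype.card_of_subtype s (fun w => by
          rw [← hs w, ← hF w]; rfl)]
  by_cases he : ∃ e : Ω, x • e = e ∧ e ≠ a ∧ e ≠ b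
  · obtain ⟨e, he1, he2, he3⟩ := he
    obtain ⟨h1, h2, h3⟩ := gen {a, b, e} (by
      intro w
      simp only [Finset.mem_insert, Finset.mem_singleton]
      constructor
      · intro hw
        by_cases hwa : w = a
        · exact Or.inl hwa
        · by_cases hwb : w = b
          · exact Or.inr (Or.inl hwb)
          · exact Or.inr (Or.inr (hfix w e hw he1 hwa hwb he2 he3))
      · rintro (rfl | rfl | rfl)
        · exact xa
        · exact xb
        · exact he1)
    have hcard : ({a, b, e} : Finset Ω).card = 3 := by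
      rw [Finset.card_eq_three]
      exact ⟨a, b, e, hab, he2.symm, he3.symm, rfl⟩
    rw [hcard] at h2 h3
    refine ⟨h1, by omega, ?_⟩
    intro hev
    exfalso
    rw [Nat.even_iff] at hev
    have : Nat.card Ω % 2 = 3 % 2 := h3
    omega
  · push Not at he
    obtain ⟨h1, h2, h3⟩ := gen {a, b} (by
      intro w
      simp only [Finset.mem_insert, Finset.mem_singleton]
      constructor
      · intro hw
        by_cases hwa : w = a
        · exact Or.inl hwa
        · exact Or.inr (he w hw hwa)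
      · rintro (rfl | rfl)
        · exact xa
        · exact xb)
    have hcard : ({a, b} : Finset Ω).card = 2 := Finset.card_pair hab
    rw [hcard] at h2 h3
    exact ⟨h1, by omega, fun _ => by omega⟩

end Cfsg.Agent.S0708
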