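import Cfsg.Statements.S0709
import Mathlib
import Cfsg.Agent.Lib.Helper5.MinDeg
import Cfsg.Agent.S0698

set_option autoImplicit false
open Cfsg

namespace Cfsg.Agent.S0709

open Equiv Equiv.Perm MulAction
open Cfsg.Agent.Lib.Helper5.MinDeg
open Cfsg.Agent.S0698

section W
variable {α : Type*} [Fintype α] [DecidableEq α]

def Tr (K : Subgroup (Perm α)) (Q : Finset α) (m : ℕ) : Prop :=
  ∀ F : Finset α, Q ⊆ F → F.card + 1 ≤ Q.card + m → ∀ b b', b ∉ F → b' ∉ F →
    ∃ t ∈ K, Fx F t ∧ t b = b'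

structure OPE (K : Subgroup (Perm α)) (Q : Finset α) (p x y : α) (h g : Perm α) (m : ℕ) : Prop where
  hp : p ∉ Q
  hxp : x ≠ p
  hKfix : ∀ f ∈ K, Fx (insert p Q) f
  hTr : Tr K (insert p Q) m
  hm : 2 ≤ m
  hhQ : Fx Q h
  h1 : h p = x
  h2 : h x = p
  h3 : h y = y
  hg : g ∈ K
  h4 : g x = y
  h5 : g y = x
  h6 : (g * h) ^ 3 ∈ K
  h7 : h * h ∈ K
  h8 : ∀ f ∈ K, f x = x → h * f * h ∈ K

variable {K : Subgroup (Perm α)} {Q : Finset α} {p x y : α} {h g : Perm α} {m : ℕ}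

def YY (K : Subgroup (Perm α)) (h : Perm α) (f : Perm α) : Prop :=
  f ∈ K ∨ ∃ a ∈ K, ∃ b ∈ K, f = a * h * b

lemma OPE.xnot (E : OPE K Q p x y h g m) : x ∉ insert p Q := by
  rw [Finset.mem_insert, not_or]
  refine ⟨E.hxp, fun hx => ?_⟩
  have := E.hhQ x hx
  rw [E.h2] at this
  exact E.hxp this.symm

lemma OPE.ynot (E : OPE K Q p x y h g m) : y ∉ insert x (insert p Q) := by
  have hxy : x ≠ y := by
    intro hxy
    have := E.h3
    rw [← hxy, E.h2] at this
    exact E.hxp this.symm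
  rw [Finset.mem_insert, not_or]
  refine ⟨hxy.symm, fun hy => ?_⟩
  have := E.hKfix g E.hg y hy
  rw [E.h5] at this
  exact hxy this

lemma OPE.key (E : OPE K Q p x y h g m) (c : Perm α) (hc : c ∈ K) : YY K h (h * c * h) := by
  by_cases hcx : c x = x
  · exact Or.inl (E.h8 c hc hcx)
  have hz : c x ∉ insert x (insert p Q) := by
    rw [Finset.mem_insert, not_or]
    exact ⟨hcx, (E.hKfix c hc).notin E.xnot⟩
  have hcard : (insert x (insert p Q)).card + 1 ≤ (insert p Q).card + m := by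
    have := Finset.card_insert_le x (insert p Q)
    have := E.hm
    omega
  obtain ⟨d, hd, hdF, hdz⟩ := E.hTr _ (Finset.subset_insert _ _) hcard _ _ hz E.ynot
  obtain ⟨_, hdx⟩ := hdF.of_insert
  have he : g⁻¹ * d * c ∈ K := K.mul_mem (K.mul_mem (K.inv_mem E.hg) hd) hc
  have hex : (g⁻¹ * d * c) x = x := by
    rw [Perm.mul_apply, Perm.mul_apply, hdz, ← E.h4, inv_app]
  have hdx' : d⁻¹ x = x := by rw [Perm.inv_eq_iff_eq, hdx]
  right
  refine ⟨h * d⁻¹ * h * ((h * h)⁻¹ * g⁻¹ * (g * h) ^ 3), ?_,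
    (h * h)⁻¹ * g⁻¹ * (h * h)⁻¹ * (h * (g⁻¹ * d * c) * h), ?_, ?_⟩
  · exact K.mul_mem (E.h8 _ (K.inv_mem hd) hdx')
      (K.mul_mem (K.mul_mem (K.inv_mem E.h7) (K.inv_mem E.hg)) E.h6)
  · exact K.mul_mem (K.mul_mem (K.mul_mem (K.inv_mem E.h7) (K.inv_mem E.hg)) (K.inv_mem E.h7))
      (E.h8 _ he hex)
  · have e3 : (g * h) ^ 3 = g * h * (g * h) * (g * h) := by rw [pow_succ, pow_succ, pow_one]
    rw [e3]
    group

def OPE.sub (E : OPE K Q p x y h g m) : Subgroup (Perm α) where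
  carrier := {f | YY K h f}
  one_mem' := Or.inl K.one_mem
  mul_mem' := by
    rintro f f' (hf | ⟨a, ha, b, hb, rfl⟩) (hf' | ⟨a', ha', b', hb', rfl⟩)
    · exact Or.inl (K.mul_mem hf hf')
    · exact Or.inr ⟨f * a', K.mul_mem hf ha', b', hb', by group⟩
    · exact Or.inr ⟨a, ha, b * f', K.mul_mem hb hf', by group⟩
    · rcases E.key (b * a') (K.mul_mem hb ha') with h1 | ⟨a'', ha'', b'', hb'', h1⟩
      · left
        have : a * h * b * (a' * h * b') = a * (h * (b * a') * h) * b' := by group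
        rw [this]
        exact K.mul_mem (K.mul_mem ha h1) hb'
      · right
        refine ⟨a * a'', K.mul_mem ha ha'', b'' * b', K.mul_mem hb'' hb', ?_⟩
        have : a * h * b * (a' * h * b') = a * (h * (b * a') * h) * b' := by group
        rw [this, h1]
        group
  inv_mem' := by
    rintro f (hf | ⟨a, ha, b, hb, rfl⟩)
    · exact Or.inl (K.inv_mem hf)
    · exact Or.inr ⟨b⁻¹, K.inv_mem hb, (h * h)⁻¹ * a⁻¹, K.mul_mem (K.inv_mem E.h7) (K.inv_mem ha),
        by group⟩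

lemma OPE.c1 (E : OPE K Q p x y h g m) {f : Perm α}
    (hf : f ∈ Subgroup.closure ((K : Set (Perm α)) ∪ {h})) : YY K h f := by
  have : Subgroup.closure ((K : Set (Perm α)) ∪ {h}) ≤ E.sub := by
    rw [Subgroup.closure_le]
    rintro z (hz | hz)
    · exact Or.inl hz
    · rw [Set.mem_singleton_iff] at hz
      subst hz
      exact Or.inr ⟨1, K.one_mem, 1, K.one_mem, by group⟩
  exact this hf

lemma OPE.c2 (E : OPE K Q p x y h g m) {f : Perm α}
    (hf : f ∈ Subgroup.closure ((K : Set (Perm α)) ∪ {h})) (hfp : f p = p) : f ∈ K := by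
  rcases E.c1 hf with h1 | ⟨a, ha, b, hb, rfl⟩
  · exact h1
  · exfalso
    have hbp : b p = p := E.hKfix b hb p (Finset.mem_insert_self _ _)
    have hap : a p = p := E.hKfix a ha p (Finset.mem_insert_self _ _)
    rw [Perm.mul_apply, Perm.mul_apply, hbp, E.h1] at hfp
    exact E.hxp (a.injective (hfp.trans hap.symm))

lemma OPE.c3 (E : OPE K Q p x y h g m) {f : Perm α}
    (hf : f ∈ Subgroup.closure ((K : Set (Perm α)) ∪ {h})) : Fx Q f := by
  have hK : ∀ a ∈ K, Fx Q a := fun a ha => (E.hKfix a ha).of_insert.1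
  rcases E.c1 hf with h1 | ⟨a, ha, b, hb, rfl⟩
  · exact hK f h1
  · exact ((hK a ha).mul E.hhQ).mul (hK b hb)

lemma OPE.top (E : OPE K Q p x y h g m) {c : α} (hc : c ∉ Q) :
    ∃ l ∈ Subgroup.closure ((K : Set (Perm α)) ∪ {h}), l c = p := by
  by_cases hcp : c = p
  · exact ⟨1, Subgroup.one_mem _, hcp⟩
  have hc' : c ∉ insert p Q := by
    rw [Finset.mem_insert, not_or]; exact ⟨hcp, hc⟩
  obtain ⟨t, ht, _, htc⟩ := E.hTr _ (Finset.Subset.refl _) (by have := E.hm; omega) c x hc' E.xnot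
  refine ⟨h * t, Subgroup.mul_mem _ (Subgroup.subset_closure (Or.inr rfl))
    (Subgroup.subset_closure (Or.inl ht)), ?_⟩
  rw [Perm.mul_apply, htc, E.h2]

lemma OPE.c4 (E : OPE K Q p x y h g m) :
    Tr (Subgroup.closure ((K : Set (Perm α)) ∪ {h})) Q (m + 1) := by
  intro F hQF hF b b' hb hb'
  by_cases hex : ∃ c ∈ F, c ∉ Q
  · obtain ⟨c, hcF, hcQ⟩ := hex
    obtain ⟨l, hl, hlc⟩ := E.top hcQ
    have hlQ := E.c3 hl
    have hsub : insert p Q ⊆ F.image l := by
      intro z hz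
      rw [Finset.mem_image]
      rcases Finset.mem_insert.1 hz with rfl | hz
      · exact ⟨c, hcF, hlc⟩
      · exact ⟨z, hQF hz, hlQ z hz⟩
    have hcard : (F.image l).card = F.card := Finset.card_image_of_injective _ l.injective
    have hcard2 : (insert p Q).card = Q.card + 1 := Finset.card_insert_of_notMem E.hp
    have hn : ∀ z, z ∉ F → l z ∉ F.image l := by
      intro z hz hmem
      obtain ⟨w, hw, hwz⟩ := Finset.mem_image.1 hmem
      exact hz (l.injective hwz ▸ hw)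
    obtain ⟨t, ht, htF, htb⟩ := E.hTr _ hsub (by omega) _ _ (hn b hb) (hn b' hb')
    refine ⟨l⁻¹ * t * l, Subgroup.mul_mem _ (Subgroup.mul_mem _ (Subgroup.inv_mem _ hl)
      (Subgroup.subset_closure (Or.inl ht))) hl, ?_, ?_⟩
    · intro z hz
      rw [Perm.mul_apply, Perm.mul_apply, htF _ (Finset.mem_image_of_mem _ hz), inv_app]
    · rw [Perm.mul_apply, Perm.mul_apply, htb, inv_app]
  · push Not at hex
    have hbQ : b ∉ Q := fun h => hb (hQF h)
    have hbQ' : b' ∉ Q := fun h => hb' (hQF h)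
    obtain ⟨l, hl, hlb⟩ := E.top hbQ
    obtain ⟨l', hl', hlb'⟩ := E.top hbQ'
    refine ⟨l'⁻¹ * l, Subgroup.mul_mem _ (Subgroup.inv_mem _ hl') hl, ?_, ?_⟩
    · intro z hz
      exact ((E.c3 hl').inv.mul (E.c3 hl)) z (hex z hz)
    · rw [Perm.mul_apply, hlb, ← hlb', inv_app]

def Km (G : Subgroup (Perm α)) (s : ℕ → Perm α) (m : ℕ) : Subgroup (Perm α) :=
  Subgroup.closure ((G : Set (Perm α)) ∪ {x | ∃ i : ℕ, 2 ≤ i ∧ i + 1 ≤ m ∧ x = s i})

lemma conj_s (a b : Perm α) : a * b * a⁻¹ = (a * b) ^ 2 * b⁻¹ * (a ^ 2)⁻¹ := by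
  rw [pow_two, pow_two]; group

end W

/-- Witt's Lemma for constructing transitive extensions. Points `q 1, …, q t` (`t ≥ 2`) of a finite set are given; `G` fixes `q i` for `i ≥ 3` and is doubly transitive on the remaining points; `s 1 ∈ G` swaps `q 1, q 2`; for `2 ≤ i ≤ t-1`, `s i` swaps `q i, q (i+1)` and fixes the other `q j`; with `H` the stabiliser of `q 1, q 2` in `G`: `s i ^ 2 ∈ H`, `(s i * s (i+1)) ^ 3 ∈ H`, `(s i * s j) ^ 2 ∈ H` for `j ≥ i + 2`, and `s i` (`i ≥ 2`) normalises the stabiliser of `q 2` in `G`. Then `G` and the `s i` generate a `t`-transitive group whose pointwise stabiliser of the `q`'s is `H`. -/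
theorem result {α : Type*} [Fintype α] [DecidableEq α] (t : ℕ) (ht : 2 ≤ t) (q : ℕ → α) (hq : ∀ i j : ℕ, 1 ≤ i → i ≤ t → 1 ≤ j → j ≤ t → q i = q j → i = j) (G : Subgroup (Equiv.Perm α)) (hfix : ∀ g ∈ G, ∀ i : ℕ, 3 ≤ i → i ≤ t → g (q i) = q i) (h2 : ∀ a b c d : α, (∀ i, 3 ≤ i → i ≤ t → a ≠ q i ∧ b ≠ q i ∧ c ≠ q i ∧ d ≠ q i) → a ≠ b → c ≠ d → ∃ g ∈ G, g a = c ∧ g b = d) (s : ℕ → Equiv.Perm α) (hs1 : s 1 ∈ G) (hs1q : s 1 (q 1) = q 2 ∧ s 1 (q 2) = q 1) (hsq : ∀ i : ℕ, 2 ≤ i → i + 1 ≤ t → s i (q i) = q (i + 1) ∧ s i (q (i + 1)) = q i ∧ ∀ j : ℕ, 1 ≤ j → j ≤ t → j ≠ i → j ≠ i + 1 → s i (q j) = q j) (H : Subgroup (Equiv.Perm α)) (hH : H = G ⊓ MulAction.stabilizer (Equiv.Perm α) (q 1) ⊓ MulAction.stabilizer (Equiv.Perm α) (q 2)) (hsq2 : ∀ i : ℕ, 1 ≤ i → i + 1 ≤ t → s i ^ 2 ∈ H) (hbraid : ∀ i : ℕ, 1 ≤ i → i + 2 ≤ t → (s i * s (i + 1)) ^ 3 ∈ H) (hcomm : ∀ i j : ℕ, 1 ≤ i → i + 2 ≤ j → j + 1 ≤ t → (s i * s j) ^ 2 ∈ H ∧ (s j * s i) ^ 2 ∈ H) (hnorm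 : ∀ i : ℕ, 2 ≤ i → i + 1 ≤ t → ∀ g ∈ G ⊓ MulAction.stabilizer (Equiv.Perm α) (q 2), s i * g * (s i)⁻¹ ∈ G ⊓ MulAction.stabilizer (Equiv.Perm α) (q 2)) : MulAction.IsMultiplyPretransitive ↥(Subgroup.closure ((G : Set (Equiv.Perm α)) ∪ {x | ∃ i : ℕ, 2 ≤ i ∧ i + 1 ≤ t ∧ x = s i})) α t ∧ Subgroup.closure ((G : Set (Equiv.Perm α)) ∪ {x | ∃ i : ℕ, 2 ≤ i ∧ i + 1 ≤ t ∧ x = s i}) ⊓ fixingSubgroup (Equiv.Perm α) {x | ∃ i : ℕ, 1 ≤ i ∧ i ≤ t ∧ x = q i} = H := by
  classical
  set Qm : ℕ → Finset α := fun m => (Finset.Icc (m + 1) t).image q with hQm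
  have hHG : H ≤ G := by rw [hH]; exact inf_le_left.trans inf_le_left
  have hGK : ∀ m, G ≤ Km G s m := fun m f hf => Subgroup.subset_closure (Or.inl hf)
  have hsK : ∀ m i, 2 ≤ i → i + 1 ≤ m → s i ∈ Km G s m := fun m i h1 h2 =>
    Subgroup.subset_closure (Or.inr ⟨i, h1, h2, rfl⟩)
  have hKmono : ∀ m, Km G s m ≤ Km G s (m + 1) := by
    intro m
    apply Subgroup.closure_mono
    rintro z (hz | ⟨i, h1, h2, rfl⟩)
    · exact Or.inl hz
    · exact Or.inr ⟨i, h1, by omega, rfl⟩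
  have hK2 : Km G s 2 = G := by
    apply le_antisymm
    · rw [Km, Subgroup.closure_le]
      rintro z (hz | ⟨i, h1, h2, rfl⟩)
      · exact hz
      · omega
    · exact hGK 2
  have hKsucc : ∀ m, 2 ≤ m →
      Km G s (m + 1) = Subgroup.closure ((Km G s m : Set (Equiv.Perm α)) ∪ {s m}) := by
    intro m hm
    apply le_antisymm
    · conv_lhs => rw [Km]
      rw [Subgroup.closure_le]
      rintro z (hz | ⟨i, h1, h2, rfl⟩)
      · exact Subgroup.subset_closure (Or.inl (hGK m hz))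
      · by_cases him : i = m
        · subst him; exact Subgroup.subset_closure (Or.inr rfl)
        · exact Subgroup.subset_closure (Or.inl (hsK m i h1 (by omega)))
    · rw [Subgroup.closure_le]
      rintro z (hz | hz)
      · exact hKmono m hz
      · rw [Set.mem_singleton_iff] at hz
        subst hz
        exact hsK (m + 1) m hm (by omega)
  have hQmem : ∀ m z, z ∈ Qm m ↔ ∃ i, m + 1 ≤ i ∧ i ≤ t ∧ z = q i := by
    intro m z
    simp only [hQm, Finset.mem_image, Finset.mem_Icc]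
    constructor
    · rintro ⟨i, ⟨h1, h2⟩, rfl⟩; exact ⟨i, h1, h2, rfl⟩
    · rintro ⟨i, h1, h2, rfl⟩; exact ⟨i, ⟨h1, h2⟩, rfl⟩
  have hQins : ∀ m, m + 1 ≤ t → Qm m = insert (q (m + 1)) (Qm (m + 1)) := by
    intro m hm
    ext z
    rw [Finset.mem_insert, hQmem, hQmem]
    constructor
    · rintro ⟨i, h1, h2, rfl⟩
      by_cases hi : i = m + 1
      · left; rw [hi]
      · right; exact ⟨i, by omega, h2, rfl⟩
    · rintro (rfl | ⟨i, h1, h2, rfl⟩)
      · exact ⟨m + 1, le_rfl, hm, rfl⟩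
      · exact ⟨i, by omega, h2, rfl⟩
  have hqne : ∀ i j, 1 ≤ i → i ≤ t → 1 ≤ j → j ≤ t → i ≠ j → q i ≠ q j :=
    fun i j a b c d e f => e (hq i j a b c d f)
  have hNG : ∀ m, 3 ≤ m → m + 1 ≤ t → ∀ f ∈ G, s m * f * (s m)⁻¹ ∈ G := by
    intro m hm3 hmt f hf
    have hst : ∀ f' ∈ G, f' (q 2) = q 2 → s m * f' * (s m)⁻¹ ∈ G := fun f' hf' h' =>
      (hnorm m (by omega) hmt f' ⟨hf', h'⟩).1
    have hs1' : s m * s 1 * (s m)⁻¹ ∈ G := by
      rw [conj_s]
      exact G.mul_mem (G.mul_mem (hHG (hcomm 1 m le_rfl (by omega) hmt).2) (G.inv_mem hs1))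
        (G.inv_mem (hHG (hsq2 m (by omega) hmt)))
    by_cases hf2 : f (q 2) = q 2
    · exact hst f hf hf2
    · have hz : ∀ i, 3 ≤ i → i ≤ t → f (q 2) ≠ q i := by
        intro i h3 hit hh
        have := hfix f hf i h3 hit
        have h2i := f.injective (hh.trans this.symm)
        have := hq 2 i (by omega) (by omega) (by omega) hit h2i
        omega
      obtain ⟨d, hd, hd2, hdz⟩ := h2 (q 2) (f (q 2)) (q 2) (q 1) (by
          intro i h3 hit
          exact ⟨hqne 2 i (by omega) (by omega) (by omega) hit (by omega), hz i h3 hit,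
            hqne 2 i (by omega) (by omega) (by omega) hit (by omega),
            hqne 1 i (by omega) (by omega) (by omega) hit (by omega)⟩) (Ne.symm hf2)
          (hqne 2 1 (by omega) (by omega) (by omega) (by omega) (by omega))
      have he : (s 1)⁻¹ * d * f ∈ G := G.mul_mem (G.mul_mem (G.inv_mem hs1) hd) hf
      have he2 : ((s 1)⁻¹ * d * f) (q 2) = q 2 := by
        rw [Equiv.Perm.mul_apply, Equiv.Perm.mul_apply, hdz, ← hs1q.2, inv_app]
      have hd2' : d⁻¹ (q 2) = q 2 := by rw [Equiv.Perm.inv_eq_iff_eq, hd2]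
      have : s m * f * (s m)⁻¹ = (s m * d⁻¹ * (s m)⁻¹) * (s m * s 1 * (s m)⁻¹) *
          (s m * ((s 1)⁻¹ * d * f) * (s m)⁻¹) := by group
      rw [this]
      exact G.mul_mem (G.mul_mem (hst _ (G.inv_mem hd) hd2') hs1') (hst _ he he2)
  have hN : ∀ m, 2 ≤ m → m + 2 ≤ t → ∀ f ∈ Km G s m, s (m + 1) * f * (s (m + 1))⁻¹ ∈ Km G s m := by
    intro m hm hmt
    have : Km G s m ≤ (Km G s m).comap (MulAut.conj (s (m + 1))).toMonoidHom := by
      conv_lhs => rw [Km]
      rw [Subgroup.closure_le]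
      rintro z (hz | ⟨i, h1, h2, rfl⟩)
      · exact hGK m (hNG (m + 1) (by omega) (by omega) z hz)
      · change s (m + 1) * s i * (s (m + 1))⁻¹ ∈ Km G s m
        rw [conj_s]
        exact (Km G s m).mul_mem ((Km G s m).mul_mem
          (hGK m (hHG (hcomm i (m + 1) (by omega) (by omega) (by omega)).2))
          ((Km G s m).inv_mem (hsK m i h1 h2)))
          ((Km G s m).inv_mem (hGK m (hHG (hsq2 (m + 1) (by omega) (by omega)))))
    exact fun f hf => this hf
  have hA : ∀ f ∈ G, Fx (Qm 2) f := by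
    intro f hf z hz
    obtain ⟨i, h1, h2', rfl⟩ := (hQmem 2 z).1 hz
    exact hfix f hf i h1 h2'
  have hInv : ∀ m, 2 ≤ m → m ≤ t → (∀ f ∈ Km G s m, Fx (Qm m) f) ∧ Tr (Km G s m) (Qm m) m ∧
      (3 ≤ m → ∀ f ∈ Km G s m, f (q m) = q m → f ∈ Km G s (m - 1)) := by
    intro m hm
    induction m, hm using Nat.le_induction with
    | base =>
      intro _
      rw [hK2]
      refine ⟨hA, ?_, fun h => absurd h (by omega)⟩
      intro F hQF hF b b' hb hb'
      have hnq : ∀ z, z ∉ F → ∀ i, 3 ≤ i → i ≤ t → z ≠ q i := by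
        intro z hz i h3 hit hzi
        exact hz (hQF ((hQmem 2 z).2 ⟨i, h3, hit, hzi⟩))
      by_cases hbb : b = b'
      · exact ⟨1, G.one_mem, fun _ _ => rfl, hbb⟩
      by_cases hex : ∃ c ∈ F, c ∉ Qm 2
      · obtain ⟨c, hcF, hcQ⟩ := hex
        have hFeq : insert c (Qm 2) = F := by
          apply Finset.eq_of_subset_of_card_le
          · intro z hz
            rcases Finset.mem_insert.1 hz with rfl | hz
            · exact hcF
            · exact hQF hz
          · rw [Finset.card_insert_of_notMem hcQ]; omega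
        have hcq : ∀ i, 3 ≤ i → i ≤ t → c ≠ q i := fun i h3 hit h =>
          hcQ ((hQmem 2 c).2 ⟨i, h3, hit, h⟩)
        obtain ⟨g, hg, hgc, hgb⟩ := h2 c b c b' (fun i h3 hit =>
          ⟨hcq i h3 hit, hnq b hb i h3 hit, hcq i h3 hit, hnq b' hb' i h3 hit⟩)
          (by rintro rfl; exact hb hcF) (by rintro rfl; exact hb' hcF)
        refine ⟨g, hg, ?_, hgb⟩
        rw [← hFeq]
        exact (hA g hg).ins hgc
      · push Not at hex
        obtain ⟨g, hg, hgb, _⟩ := h2 b b' b' b (fun i h3 hit =>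
          ⟨hnq b hb i h3 hit, hnq b' hb' i h3 hit, hnq b' hb' i h3 hit, hnq b hb i h3 hit⟩)
          hbb (Ne.symm hbb)
        exact ⟨g, hg, fun z hz => hA g hg z (hex z hz), hgb⟩
    | succ m hm ih =>
      intro hmt
      obtain ⟨ia, ib, ic⟩ := ih (by omega)
      obtain ⟨j, rfl⟩ : ∃ j, m = j + 1 := ⟨m - 1, by omega⟩
      have hsj : s j (q j) = q (j + 1) ∧ s j (q (j + 1)) = q j ∧ s j ∈ Km G s (j + 1) := by
        by_cases hj1 : j = 1
        · subst hj1
          exact ⟨hs1q.1, hs1q.2, hGK _ hs1⟩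
        · have := hsq j (by omega) (by omega)
          exact ⟨this.1, this.2.1, hsK _ j (by omega) le_rfl⟩
      have hsm := hsq (j + 1) hm hmt
      have E : OPE (Km G s (j + 1)) (Qm (j + 1 + 1)) (q (j + 1 + 1)) (q (j + 1)) (q j) (s (j + 1))
          (s j) (j + 1) :=
        { hp := by
            intro h
            obtain ⟨i, h1, h2', h3⟩ := (hQmem _ _).1 h
            have := hq _ _ (by omega) hmt (by omega) h2' h3
            omega
          hxp := hqne _ _ (by omega) (by omega) (by omega) hmt (by omega)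
          hKfix := by rw [← hQins (j + 1) hmt]; exact ia
          hTr := by rw [← hQins (j + 1) hmt]; exact ib
          hm := hm
          hhQ := by
            intro z hz
            obtain ⟨i, h1, h2', rfl⟩ := (hQmem _ _).1 hz
            exact hsm.2.2 i (by omega) h2' (by omega) (by omega)
          h1 := hsm.2.1
          h2 := hsm.1
          h3 := hsm.2.2 j (by omega) (by omega) (by omega) (by omega)
          hg := hsj.2.2
          h4 := hsj.2.1
          h5 := hsj.1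
          h6 := hGK _ (hHG (hbraid j (by omega) (by omega)))
          h7 := by
            rw [← pow_two]
            exact hGK _ (hHG (hsq2 (j + 1) (by omega) hmt))
          h8 := by
            intro f hf hfq
            have e : s (j + 1) * f * s (j + 1) =
                (s (j + 1) * f * (s (j + 1))⁻¹) * (s (j + 1)) ^ 2 := by
              rw [pow_two]; group
            rw [e]
            refine (Km G s (j + 1)).mul_mem ?_ (hGK _ (hHG (hsq2 (j + 1) (by omega) hmt)))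
            by_cases hj1 : j = 1
            · subst hj1
              rw [hK2] at hf ⊢
              exact (hnorm 2 le_rfl hmt f ⟨hf, hfq⟩).1
            · have h1 := ic (by omega) f hf hfq
              rw [Nat.add_sub_cancel] at h1
              exact hKmono j (hN j (by omega) (by omega) f h1) }
      rw [hKsucc (j + 1) hm]
      refine ⟨fun f hf => E.c3 hf, E.c4, fun _ f hf hfq => ?_⟩
      rw [Nat.add_sub_cancel]
      exact E.c2 hf hfq
  change MulAction.IsMultiplyPretransitive ↥(Km G s t) α t ∧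
    Km G s t ⊓ fixingSubgroup (Equiv.Perm α) {x | ∃ i : ℕ, 1 ≤ i ∧ i ≤ t ∧ x = q i} = H
  constructor
  · obtain ⟨_, hb, _⟩ := hInv t ht le_rfl
    have hQt : Qm t = ∅ := by
      rw [Finset.eq_empty_iff_forall_notMem]
      intro z hz
      obtain ⟨i, h1, h2', _⟩ := (hQmem t z).1 hz
      omega
    apply mk_trans
    intro F hF b b' hbF hbF'
    obtain ⟨τ, hτ, hτF, hτb⟩ := hb F (by rw [hQt]; exact Finset.empty_subset _)
      (by rw [hQt]; simpa using hF) b b' hbF hbF'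
    exact ⟨⟨τ, hτ⟩, hτF, hτb⟩
  · ext f
    constructor
    · rintro ⟨hfK, hfx⟩
      have hfq : ∀ i, 1 ≤ i → i ≤ t → f (q i) = q i := fun i h1 h2' =>
        (mem_fixingSubgroup_iff (Equiv.Perm α)).1 hfx (q i) ⟨i, h1, h2', rfl⟩
      have hdown : ∀ j, j ≤ t - 2 → f ∈ Km G s (t - j) := by
        intro j
        induction j with
        | zero => intro _; exact hfK
        | succ j ih =>
          intro hj
          have h1 := (hInv (t - j) (by omega) (by omega)).2.2 (by omega) f (ih (by omega))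
            (hfq _ (by omega) (by omega))
          rwa [Nat.sub_sub] at h1
      have h2G : f ∈ G := by
        have := hdown (t - 2) le_rfl
        rwa [show t - (t - 2) = 2 by omega, hK2] at this
      rw [hH]
      exact ⟨⟨h2G, hfq 1 le_rfl (by omega)⟩, hfq 2 (by omega) ht⟩
    · intro hf
      rw [hH] at hf
      obtain ⟨⟨hfG, h1⟩, h2'⟩ := hf
      refine Subgroup.mem_inf.2 ⟨hGK t hfG, ?_⟩
      rw [mem_fixingSubgroup_iff]
      rintro _ ⟨i, h1i, hit, rfl⟩
      by_cases hi1 : i = 1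
      · subst hi1; exact h1
      · by_cases hi2 : i = 2
        · subst hi2; exact h2'
        · exact hfix f hfG i (by omega) hit

end Cfsg.Agent.S0709
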