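import Cfsg.Statements.S0710
import Mathlib
import Cfsg.Agent.Lib.Helper5.PrimeDeg

set_option autoImplicit false
open Cfsg

namespace Cfsg.Agent.S0710

open Cfsg.Agent.Lib.Helper5

/-- No transitive permutation group on 13 points has order `13 * 12 * 11 * 10 * 9 * 8`. -/
theorem result {α : Type*} [Fintype α] [DecidableEq α] (hα : Fintype.card α = 13) (G : Subgroup (Equiv.Perm α)) [MulAction.IsPretransitive G α] : Nat.card G ≠ 13 * 12 * 11 * 10 * 9 * 8 := by
  classical
  intro hcard
  haveI : Fact (Nat.Prime 13) := ⟨by norm_num⟩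
  obtain ⟨P⟩ : Nonempty (Sylow 13 G) := inferInstance
  obtain ⟨d, hd, hN⟩ := card_normalizer_sylow_prime_degree hα G P
  have h1 := card_sylow_modEq_one 13 G
  rw [P.card_eq_index_normalizer] at h1
  have h2 := Subgroup.card_mul_index (Subgroup.normalizer ((P : Subgroup G) : Set G))
  rw [hN, hcard] at h2
  set n := (Subgroup.normalizer ((P : Subgroup G) : Set G)).index with hn
  have hd12 : d ≤ 12 := Nat.le_of_dvd (by norm_num) hd
  have h3 : n % 13 = 1 := h1
  have hd0 : 0 < d := Nat.pos_of_dvd_of_pos hd (by norm_num)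
  interval_cases d <;> omega

end Cfsg.Agent.S0710
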