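import Cfsg.Statements.S0712
import Mathlib
import Cfsg.Agent.Lib.Helper5.MultiTrans

set_option autoImplicit false
open Cfsg

namespace Cfsg.Agent.S0712

open Cfsg.Agent.Lib.Helper5

/-- Jordan: a primitive group in which the pointwise stabiliser of a set `s` is doubly transitive on the complement of `s` (which has at least 2 points) is `(|s| + 2)`-transitive. -/
theorem result {α : Type*} [Fintype α] [DecidableEq α] (G : Subgroup (Equiv.Perm α)) (hG : MulAction.IsPreprimitive G α) (s : Set α) {m : ℕ} (hsm : s.ncard = m) (hm : m + 2 ≤ Fintype.card α) (h2 : MulAction.IsMultiplyPretransitive (fixingSubgroup G s) (SubMulAction.ofFixingSubgroup G s) 2) : MulAction.IsMultiplyPretransitive G α (m + 2) := by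
  classical
  have M1 : MulAction.IsMultiplyPretransitive G α (m + 1) := by
    cases m with
    | zero => exact MulAction.is_one_pretransitive_iff.mpr hG.toIsPretransitive
    | succ n =>
      have h3 := hG.isMultiplyPreprimitive hsm (by rw [Nat.card_eq_fintype_card]; omega)
        (MulAction.isPreprimitive_of_is_two_pretransitive h2)
      exact h3.isMultiplyPretransitive
  have M0 : MulAction.IsMultiplyPretransitive G α m :=
    MulAction.isMultiplyPretransitive_of_le (n := m + 1) (Nat.le_succ m) (by rw [Nat.card_eq_fintype_card]; omega)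
  have h2' : ∀ a b c d : α, a ∉ s → b ∉ s → c ∉ s → d ∉ s → a ≠ b → c ≠ d →
      ∃ g : G, (∀ x ∈ s, g • x = x) ∧ g • a = c ∧ g • b = d := by
    intro a b c d ha hb hc hd hab hcd
    have h3 : ∀ (a b c d : SubMulAction.ofFixingSubgroup G s), a ≠ b → c ≠ d →
        ∃ g : fixingSubgroup G s, g • a = c ∧ g • b = d :=
      fun a b c d => MulAction.is_two_pretransitive_iff.mp h2
    obtain ⟨g, hg1, hg2⟩ := h3 ⟨a, ha⟩ ⟨b, hb⟩ ⟨c, hc⟩ ⟨d, hd⟩
      (fun h => hab (congrArg Subtype.val h)) (fun h => hcd (congrArg Subtype.val h))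
    refine ⟨g.1, (mem_fixingSubgroup_iff G).mp g.2, congrArg Subtype.val hg1, congrArg Subtype.val hg2⟩
  apply multi_of_fixing
  intro z hz
  by_cases hz' : z.card < m + 1
  · exact fixTrans_of_multi (m + 1) (by rw [Nat.card_eq_fintype_card]; omega) M1 z hz'
  have hzc : z.card = m + 1 := by omega
  intro a b ha hb
  by_cases hab : a = b
  · exact ⟨1, fun x _ => one_smul _ x, by rw [one_smul, hab]⟩
  obtain ⟨c, hc⟩ : z.Nonempty := Finset.card_pos.mp (by omega)
  have hs' : s.toFinset.card = m := by rw [← hsm, Set.ncard_eq_toFinset_card']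
  obtain ⟨g, hg⟩ := exists_smul_mem_of_multi m M0 (z.erase c) s.toFinset
    (by rw [Finset.card_erase_of_mem hc]; omega) hs'
  have hg' : ∀ x, x ∈ z.erase c ↔ g • x ∈ s := by
    intro x
    rw [hg x, Set.mem_toFinset]
  have hcs : g • c ∉ s := by
    rw [← hg']; exact Finset.notMem_erase c z
  have has : g • a ∉ s := by
    rw [← hg']; exact fun h => ha (Finset.mem_of_mem_erase h)
  have hbs : g • b ∉ s := by
    rw [← hg']; exact fun h => hb (Finset.mem_of_mem_erase h)
  obtain ⟨u, hu, hu1, hu2⟩ := h2' (g • c) (g • a) (g • c) (g • b) hcs has hcs hbs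
    (fun h => ha (by rw [← MulAction.injective g h]; exact hc))
    (fun h => hb (by rw [← MulAction.injective g h]; exact hc))
  refine ⟨g⁻¹ * u * g, ?_, ?_⟩
  · intro x hx
    rw [mul_smul, mul_smul, inv_smul_eq_iff]
    by_cases hxc : x = c
    · rw [hxc, hu1]
    · exact hu _ ((hg' x).mp (Finset.mem_erase.mpr ⟨hxc, hx⟩))
  · rw [mul_smul, mul_smul, inv_smul_eq_iff, hu2]

end Cfsg.Agent.S0712
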