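import Cfsg.Statements.S0713
import Cfsg.Agent.Lib.Helper27.PrimeDeg

set_option autoImplicit false
open Cfsg

namespace Cfsg.Agent.S0713

open Equiv Equiv.Perm MulAction Subgroup

/-- two elements of order `p` in a group of order dividing `p!` generate conjugate subgroups. -/
theorem conj_zpowers {H : Type*} [Group H] [Finite H] {p : ℕ} [Fact p.Prime] (hH : Nat.card H ∣ p.factorial)
    (a b : H) (ha : orderOf a = p) (hb : orderOf b = p) : ∃ x : H, x * b * x⁻¹ ∈ zpowers a := by
  have hp : p.Prime := Fact.out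
  have key : ∀ c : H, orderOf c = p → ∃ P : Sylow p H, (P : Subgroup H) = zpowers c := by
    intro c hc
    have hpg : IsPGroup p (zpowers c) := by
      apply IsPGroup.of_card (n := 1)
      rw [Nat.card_zpowers, hc, pow_one]
    obtain ⟨P, hP⟩ := hpg.exists_le_sylow
    refine ⟨P, (Subgroup.eq_of_le_of_card_ge hP ?_).symm⟩
    rw [Nat.card_zpowers, hc, P.card_eq_multiplicity]
    have h3 : (Nat.card H).factorization p ≤ 1 := by
      by_contra h
      push Not at h
      have h4 : p ^ 2 ∣ Nat.card H :=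
        (hp.pow_dvd_iff_le_factorization Nat.card_pos.ne').mpr h
      exact Cfsg.Agent.Lib.Helper27.PrimeDeg.not_sq_dvd_factorial (h4.trans hH)
    calc p ^ (Nat.card H).factorization p ≤ p ^ 1 := Nat.pow_le_pow_right hp.pos h3
      _ = p := pow_one p
  obtain ⟨P, hP⟩ := key a ha
  obtain ⟨Q, hQ⟩ := key b hb
  obtain ⟨x, hx⟩ := MulAction.exists_smul_eq H Q P
  refine ⟨x, ?_⟩
  rw [← hP, ← hx, Sylow.coe_subgroup_smul, Subgroup.mem_pointwise_smul_iff_inv_smul_mem, MulAut.smul_def,
    MulAut.conj_inv_apply, hQ]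
  have e : x⁻¹ * (x * b * x⁻¹) * x = b := by group
  rw [e]
  exact mem_zpowers b

variable {α : Type*} [Fintype α] [DecidableEq α]

/-- the pointwise stabiliser of the complement of a finset. -/
def fixC (s : Finset α) : Subgroup (Perm α) where
  carrier := {τ | ∀ d, d ∉ s → τ d = d}
  one_mem' := fun _ _ => rfl
  mul_mem' := by
    intro a b ha hb d hd
    show a (b d) = d
    rw [hb d hd, ha d hd]
  inv_mem' := by
    intro a ha d hd
    show a⁻¹ d = d
    rw [Perm.inv_eq_iff_eq]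
    exact (ha d hd).symm

theorem card_fixC (s : Finset α) : Nat.card (fixC s) = s.card.factorial := by
  have e := Perm.subtypeEquivSubtypePerm (fun a => a ∈ s)
  have h1 : Nat.card (fixC s) = Nat.card {f : Perm α // ∀ a, ¬ a ∈ s → f a = a} := rfl
  rw [h1, ← Nat.card_congr e, Nat.card_perm, Nat.card_eq_fintype_card, Fintype.card_coe]

theorem key (G : Subgroup (Perm α)) {p k : ℕ} [Fact p.Prime] {g : Perm α} (hgc : g.IsCycle)
    (hgp : g.support.card = p) (hg : g ∈ G) (hk : (g.supportᶜ).card = k)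
    (htr : IsMultiplyPretransitive G α k) (σ : Perm α) (hσ : ∀ d, d ∉ g.support → σ d ∉ g.support) :
    ∃ a ∈ G, a * g * a⁻¹ ∈ zpowers g ∧ ∀ d, d ∉ g.support → a d = σ d := by
  -- enumeration of the complement
  let e0 : Fin k ≃ ↥(g.supportᶜ) := (Finset.equivFinOfCardEq hk).symm
  let e : Fin k ↪ α := e0.toEmbedding.trans (Function.Embedding.subtype _)
  let e' : Fin k ↪ α := e.trans σ.toEmbedding
  obtain ⟨h, hh⟩ := htr.exists_smul_eq e e'
  have hhd : ∀ d, d ∉ g.support → (h : Perm α) d = σ d := by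
    intro d hd
    have hd' : d ∈ g.supportᶜ := Finset.mem_compl.mpr hd
    have h1 := congrArg (fun f : Fin k ↪ α => f (e0.symm ⟨d, hd'⟩)) hh
    have h2 : h • d = σ d := by simpa [e, e'] using h1
    exact h2
  -- h permutes the complement
  have hinv : ∀ d, d ∉ g.support → (h : Perm α)⁻¹ d ∉ g.support := by
    have hmaps : ∀ d ∈ g.supportᶜ, (h : Perm α) d ∈ g.supportᶜ := by
      intro d hd
      rw [Finset.mem_compl] at hd ⊢
      rw [hhd d hd]; exact hσ d hd
    have hsurj : Set.SurjOn (h : Perm α) (g.supportᶜ : Finset α) (g.supportᶜ : Finset α) :=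
      Finset.surjOn_of_injOn_of_card_le _ hmaps ((h : Perm α).injective.injOn) le_rfl
    intro d hd
    obtain ⟨d', hd', rfl⟩ := hsurj (Finset.mem_coe.mpr (Finset.mem_compl.mpr hd))
    rw [show (h : Perm α)⁻¹ ((h : Perm α) d') = d' from by simp]
    exact Finset.mem_compl.mp (Finset.mem_coe.mp hd')
  set K : Subgroup (Perm α) := G ⊓ fixC g.support with hK
  have hgK : g ∈ K := ⟨hg, fun d hd => Perm.notMem_support.mp hd⟩
  have hgK' : (h : Perm α) * g * (h : Perm α)⁻¹ ∈ K := by
    refine ⟨G.mul_mem (G.mul_mem h.2 hg) (G.inv_mem h.2), fun d hd => ?_⟩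
    show (h : Perm α) (g ((h : Perm α)⁻¹ d)) = d
    rw [Perm.notMem_support.mp (hinv d hd)]
    simp
  have hKcard : Nat.card K ∣ p.factorial := by
    rw [← hgp, ← card_fixC]
    exact Subgroup.card_dvd_of_le inf_le_right
  have hog : orderOf g = p := by rw [hgc.orderOf, hgp]
  have ho1 : orderOf (⟨g, hgK⟩ : K) = p := by rw [← hog, ← Subgroup.orderOf_coe]
  have ho2 : orderOf (⟨_, hgK'⟩ : K) = p := by
    rw [← Subgroup.orderOf_coe]
    show orderOf ((h : Perm α) * g * (h : Perm α)⁻¹) = p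
    have := orderOf_injective (MulAut.conj (h : Perm α)).toMonoidHom (MulAut.conj (h : Perm α)).injective g
    rw [← hog, ← this]
    rfl
  obtain ⟨x, hx⟩ := conj_zpowers hKcard _ _ ho1 ho2
  refine ⟨(x : Perm α) * h, G.mul_mem x.2.1 h.2, ?_, ?_⟩
  · obtain ⟨m, hm⟩ := hx
    refine ⟨m, ?_⟩
    have := congrArg (Subtype.val) hm
    simp only [Subgroup.coe_zpow, Subgroup.coe_mul, Subgroup.coe_inv] at this
    simp only
    rw [this]
    group
  · intro d hd
    show (x : Perm α) ((h : Perm α) d) = σ d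
    rw [hhd d hd]
    exact x.2.2 _ (hσ d hd)

/-- Jordan's Theorem: a primitive permutation group of degree `n ≥ 5` containing a `p`-cycle for a prime `p ≤ n - 3` contains the alternating group. -/
theorem result {α : Type*} [Fintype α] [DecidableEq α] (G : Subgroup (Equiv.Perm α)) (hG : MulAction.IsPreprimitive G α) {p : ℕ} (hp : p.Prime) (hn : 5 ≤ Fintype.card α) (hpn : p + 3 ≤ Fintype.card α) {g : Equiv.Perm α} (hgc : g.IsCycle) (hgp : g.support.card = p) (hg : g ∈ G) : alternatingGroup α ≤ G := by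
  have : Fact p.Prime := ⟨hp⟩
  obtain ⟨n, hn'⟩ : ∃ n, Fintype.card α = p + (n + 3) := ⟨Fintype.card α - p - 3, by omega⟩
  have hk : (g.supportᶜ).card = n + 3 := by
    rw [Finset.card_compl, hgp]; omega
  -- multiple transitivity
  have hmp : IsMultiplyPreprimitive G α (n + 2 + 2) := by
    apply hG.isMultiplyPreprimitive (s := (g.supportᶜ : Set α))
    · apply Nat.add_left_cancel
      rw [Set.ncard_add_ncard_compl, Set.ncard_coe_finset, hgp, Nat.card_eq_fintype_card, hn']
    · rw [Nat.card_eq_fintype_card, hn']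
      have := hp.two_le
      omega
    have := isPretransitive_of_isCycle_mem hgc hg
    apply IsPreprimitive.of_prime_card
    convert! hp
    classical
    rw [Nat.card_eq_fintype_card, Fintype.card_subtype, ← hgp]
    apply congr_arg
    ext x
    simp [SubMulAction.mem_ofFixingSubgroup_iff]
  have hmt : IsMultiplyPretransitive G α (n + 2 + 2) := hmp.isMultiplyPretransitive
  have htr : IsMultiplyPretransitive G α (n + 3) :=
    isMultiplyPretransitive_of_le (n := n + 2 + 2) (by omega) (by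
      rw [Nat.card_eq_fintype_card, hn']
      have := hp.two_le
      omega)
  -- three points
  obtain ⟨x, y, z, hx, hy, hz, hxy, hxz, hyz⟩ : ∃ x y z, x ∈ g.supportᶜ ∧ y ∈ g.supportᶜ ∧ z ∈ g.supportᶜ ∧
      x ≠ y ∧ x ≠ z ∧ y ≠ z := by
    have h3 : 2 < (g.supportᶜ).card := by rw [hk]; omega
    obtain ⟨x, hx, y, hy, z, hz, h1, h2, h3⟩ := Finset.two_lt_card.mp h3
    exact ⟨x, y, z, hx, hy, hz, h1, h2, h3⟩
  rw [Finset.mem_compl] at hx hy hz
  have hswap : ∀ u v, u ∉ g.support → v ∉ g.support → ∀ d, d ∉ g.support → swap u v d ∉ g.support := by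
    intro u v hu hv d hd
    rw [Equiv.swap_apply_def]
    split_ifs
    · exact hv
    · exact hu
    · exact hd
  set σ₁ := swap x y with hσ₁
  set σ₂ := swap x z with hσ₂
  obtain ⟨a, haG, han, had⟩ := key G hgc hgp hg hk htr σ₁ (hswap x y hx hy)
  obtain ⟨b, hbG, hbn, hbd⟩ := key G hgc hgp hg hk htr σ₂ (hswap x z hx hz)
  obtain ⟨i, hi⟩ := han
  obtain ⟨j, hj⟩ := hbn
  simp only at hi hj
  set c := a⁻¹ * b⁻¹ * a * b with hc
  have hcG : c ∈ G := G.mul_mem (G.mul_mem (G.mul_mem (G.inv_mem haG) (G.inv_mem hbG)) haG) hbG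
  have hcomm : c * g = g * c := by
    have h1 : (a * b) * g * (a * b)⁻¹ = (b * a) * g * (b * a)⁻¹ := by
      have e1 : (a * b) * g * (a * b)⁻¹ = a * (b * g * b⁻¹) * a⁻¹ := by group
      have e2 : (b * a) * g * (b * a)⁻¹ = b * (a * g * a⁻¹) * b⁻¹ := by group
      rw [e1, e2, ← hi, ← hj, ← conj_zpow, ← conj_zpow, ← hi, ← hj, ← zpow_mul, ← zpow_mul, mul_comm]
    have h2 : c = (b * a)⁻¹ * (a * b) := by rw [hc]; group
    rw [h2]
    calc (b * a)⁻¹ * (a * b) * g = (b * a)⁻¹ * ((a * b) * g * (a * b)⁻¹) * (a * b) := by group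
      _ = (b * a)⁻¹ * ((b * a) * g * (b * a)⁻¹) * (a * b) := by rw [h1]
      _ = g * ((b * a)⁻¹ * (a * b)) := by group
  -- action of inverse on the complement
  have hinv : ∀ (τ σ : Perm α), σ * σ = 1 → (∀ d, d ∉ g.support → σ d ∉ g.support) →
      (∀ d, d ∉ g.support → τ d = σ d) → ∀ d, d ∉ g.support → τ⁻¹ d = σ d := by
    intro τ σ hσσ hσs hτ d hd
    rw [Perm.inv_eq_iff_eq, hτ _ (hσs d hd)]
    have := congrArg (fun f : Perm α => f d) hσσ
    simpa using this.symm
  have hcd : ∀ d, d ∉ g.support → c d = (σ₁ * σ₂ * σ₁ * σ₂) d := by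
    intro d hd
    show a⁻¹ (b⁻¹ (a (b d))) = σ₁ (σ₂ (σ₁ (σ₂ d)))
    have s2 := hswap x z hx hz
    have s1 := hswap x y hx hy
    rw [hbd d hd, had _ (s2 d hd), hinv b σ₂ (swap_mul_self x z) s2 hbd _ (s1 _ (s2 d hd)),
      hinv a σ₁ (swap_mul_self x y) s1 had _ (s2 _ (s1 _ (s2 d hd)))]
  -- c acts as a power of g on the support
  obtain ⟨a0, ha0, hsame⟩ := hgc
  have hcg : ∀ l : ℤ, c * g ^ l = g ^ l * c := fun l => ((Commute.zpow_right (show Commute c g from hcomm)) l).eq
  have hca0 : g (c a0) ≠ c a0 := by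
    intro h
    apply ha0
    have h1 : c (g a0) = g (c a0) := by
      have := congrArg (fun f : Perm α => f a0) hcomm
      simpa using this
    rw [h] at h1
    exact c.injective h1
  obtain ⟨m, hm⟩ := hsame hca0
  have hcw : ∀ w, w ∈ g.support → c w = (g ^ m) w := by
    intro w hw
    obtain ⟨l, hl⟩ := hsame (Perm.mem_support.mp hw)
    rw [← hl]
    have h1 : c ((g ^ l) a0) = (g ^ l) (c a0) := by
      have := congrArg (fun f : Perm α => f a0) (hcg l)
      simpa using this
    rw [h1, ← hm, ← Perm.mul_apply, ← Perm.mul_apply, ← zpow_add, ← zpow_add, add_comm]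
  set t := c * (g ^ m)⁻¹ with ht
  have htG : t ∈ G := G.mul_mem hcG (G.inv_mem (G.zpow_mem hg m))
  have hsuppinv : ∀ w, w ∈ g.support → (g ^ m)⁻¹ w ∈ g.support := by
    intro w hw
    rw [← zpow_neg]
    exact (Perm.zpow_apply_mem_support).mpr hw
  have hteq : t = σ₁ * σ₂ * σ₁ * σ₂ := by
    ext w
    by_cases hw : w ∈ g.support
    · have h1 : t w = w := by
        show c ((g ^ m)⁻¹ w) = w
        rw [hcw _ (hsuppinv w hw)]
        simp
      have hwx : w ≠ x := fun h => hx (h ▸ hw)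
      have hwy : w ≠ y := fun h => hy (h ▸ hw)
      have hwz : w ≠ z := fun h => hz (h ▸ hw)
      rw [h1]
      show w = σ₁ (σ₂ (σ₁ (σ₂ w)))
      rw [hσ₁, hσ₂, swap_apply_of_ne_of_ne hwx hwz, swap_apply_of_ne_of_ne hwx hwy,
        swap_apply_of_ne_of_ne hwx hwz, swap_apply_of_ne_of_ne hwx hwy]
    · have h1 : (g ^ m)⁻¹ w = w := by
        rw [Perm.inv_eq_iff_eq]
        exact ((Perm.zpow_apply_eq_self_of_apply_eq_self (Perm.notMem_support.mp hw)) m).symm
      show c ((g ^ m)⁻¹ w) = _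
      rw [h1, hcd w hw]
  have h3 : IsThreeCycle t := by
    have h4 : IsThreeCycle (σ₁ * σ₂) := isThreeCycle_swap_mul_swap_same hxy hxz hyz
    have h5 := h4.isThreeCycle_sq
    have e : t = (σ₁ * σ₂) * (σ₁ * σ₂) := by rw [hteq]; group
    rw [e]; exact h5
  exact alternatingGroup_le_of_isPreprimitive_of_isThreeCycle_mem hG h3 htG

end Cfsg.Agent.S0713
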