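import Cfsg.Statements.S0714
import Mathlib

set_option autoImplicit false
open Cfsg

namespace Cfsg.Agent.S0714

theorem cyc {α : Type*} [Fintype α] [DecidableEq α] (a b c : α) (hab : a ≠ b) (hac : a ≠ c) (hbc : b ≠ c) :
    ∃ π : Equiv.Perm α, π ∈ alternatingGroup α ∧ π a = b ∧ π b = c ∧ π c = a ∧
      ∀ x, x ≠ a → x ≠ b → x ≠ c → π x = x := by
  refine ⟨Equiv.swap a c * Equiv.swap a b,
    (Equiv.Perm.isThreeCycle_swap_mul_swap_same hac hab hbc.symm).mem_alternatingGroup, ?_, ?_, ?_, ?_⟩
  · rw [Equiv.Perm.mul_apply, Equiv.swap_apply_left, Equiv.swap_apply_of_ne_of_ne hab.symm hbc]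
  · rw [Equiv.Perm.mul_apply, Equiv.swap_apply_right, Equiv.swap_apply_left]
  · rw [Equiv.Perm.mul_apply, Equiv.swap_apply_of_ne_of_ne hac.symm hbc.symm, Equiv.swap_apply_right]
  · intro x h1 h2 h3
    rw [Equiv.Perm.mul_apply, Equiv.swap_apply_of_ne_of_ne h1 h2, Equiv.swap_apply_of_ne_of_ne h1 h3]

/-- Over any field, the permutation module of the alternating group of degree at least 5 has exactly four invariant subspaces: zero, the constant functions, the functions with coordinate sum zero, and everything. -/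
theorem result {α : Type*} [Fintype α] [DecidableEq α] (hα : 5 ≤ Fintype.card α) {K : Type*} [Field K] (W : Subrepresentation (Cfsg.permRep K (alternatingGroup α) α)) : W.toSubmodule = ⊥ ∨ W = Cfsg.permConstants K (alternatingGroup α) α ∨ W = Cfsg.permSumZero K (alternatingGroup α) α ∨ W.toSubmodule = ⊤ := by
  classical
  set Wm := W.toSubmodule with hWm
  have hact : ∀ π ∈ alternatingGroup α, ∀ w ∈ Wm, (fun x => w (π x)) ∈ Wm := by
    intro π hπ w hw
    have := W.apply_mem_toSubmodule (⟨π, hπ⟩⁻¹ : alternatingGroup α) hw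
    have e : (Cfsg.permRep K (alternatingGroup α) α (⟨π, hπ⟩⁻¹ : alternatingGroup α)) w = fun x => w (π x) := by
      funext x
      show w (((⟨π, hπ⟩⁻¹ : alternatingGroup α)⁻¹) • x) = w (π x)
      rw [inv_inv]; rfl
    rwa [e] at this
  have hex : ∀ s : Finset α, s.card < Fintype.card α → ∃ x, x ∉ s := by
    intro s hs
    by_contra hcon
    push Not at hcon
    have : s = Finset.univ := Finset.eq_univ_iff_forall.mpr hcon
    rw [this, Finset.card_univ] at hs
    exact lt_irrefl _ hs
  by_cases hconst : ∀ w ∈ Wm, ∀ a b, w a = w b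
  · by_cases hbot : Wm = ⊥
    · left; exact hbot
    · right; left
      apply Subrepresentation.toSubmodule_injective
      show Wm = Submodule.span K {fun _ => 1}
      obtain ⟨w, hw, hw0⟩ := (Submodule.ne_bot_iff Wm).mp hbot
      obtain ⟨a, ha⟩ : ∃ a, w a ≠ 0 := by
        by_contra hcon
        push Not at hcon
        exact hw0 (funext hcon)
      apply le_antisymm
      · intro v hv
        rw [Submodule.mem_span_singleton]
        exact ⟨v a, funext fun x => by simp [hconst v hv x a]⟩
      · rw [Submodule.span_singleton_le_iff_mem]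
        have : (fun _ => 1 : α → K) = (w a)⁻¹ • w := by
          funext x
          simp [hconst w hw x a, ha]
        rw [this]
        exact Wm.smul_mem _ hw
  · push Not at hconst
    obtain ⟨w, hw, a, b, hwab⟩ := hconst
    have hab : a ≠ b := fun h => hwab (by rw [h])
    obtain ⟨c, hc⟩ := hex {a, b} (lt_of_le_of_lt Finset.card_le_two (by omega))
    obtain ⟨d, hd⟩ := hex {a, b, c} (lt_of_le_of_lt Finset.card_le_three (by omega))
    obtain ⟨e, he⟩ := hex {a, b, c, d} (lt_of_le_of_lt Finset.card_le_four (by omega))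
    simp only [Finset.mem_insert, Finset.mem_singleton, not_or] at hc hd he
    obtain ⟨π₁, hπ₁, h1a, h1b, h1c, h1x⟩ := cyc a b c hab (Ne.symm hc.1) (Ne.symm hc.2)
    obtain ⟨π₂, hπ₂, h2a, h2d, h2e, h2x⟩ := cyc a d e (Ne.symm hd.1) (Ne.symm he.1) (Ne.symm he.2.2.2)
    set v : α → K := w - fun x => w (π₁ x) with hv
    have hvW : v ∈ Wm := Wm.sub_mem hw (hact π₁ hπ₁ w hw)
    have hva : v a ≠ 0 := by
      show w a - w (π₁ a) ≠ 0
      rw [h1a]; exact sub_ne_zero.mpr hwab
    have hvx : ∀ x, x ≠ a → x ≠ b → x ≠ c → v x = 0 := by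
      intro x h1 h2 h3
      show w x - w (π₁ x) = 0
      rw [h1x x h1 h2 h3, sub_self]
    have hv'W : (v - fun x => v (π₂ x)) ∈ Wm := Wm.sub_mem hvW (hact π₂ hπ₂ v hvW)
    have hv' : (v - fun x => v (π₂ x)) = v a • (Pi.single a 1 - Pi.single e 1 : α → K) := by
      funext x
      show v x - v (π₂ x) = v a * ((Pi.single a 1 : α → K) x - (Pi.single e 1 : α → K) x)
      by_cases hxa : x = a
      · subst hxa
        rw [h2a, hvx d hd.1 hd.2.1 hd.2.2, Pi.single_eq_same, Pi.single_eq_of_ne (Ne.symm he.1)]
        ring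
      · by_cases hxd : x = d
        · subst hxd
          rw [h2d, hvx x hd.1 hd.2.1 hd.2.2, hvx e he.1 he.2.1 he.2.2.1, Pi.single_eq_of_ne hxa,
            Pi.single_eq_of_ne (Ne.symm he.2.2.2)]
          ring
        · by_cases hxe : x = e
          · subst hxe
            rw [h2e, hvx x he.1 he.2.1 he.2.2.1, Pi.single_eq_of_ne hxa, Pi.single_eq_same]
            ring
          · rw [h2x x hxa hxd hxe, Pi.single_eq_of_ne hxa, Pi.single_eq_of_ne hxe]
            ring
    have hae : (Pi.single a 1 - Pi.single e 1 : α → K) ∈ Wm := by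
      rw [hv'] at hv'W
      have := Wm.smul_mem (v a)⁻¹ hv'W
      rwa [smul_smul, inv_mul_cancel₀ hva, one_smul] at this
    haveI h2t : MulAction.IsMultiplyPretransitive (alternatingGroup α) α 2 := by
      haveI := alternatingGroup.isMultiplyPretransitive α
      exact MulAction.isMultiplyPretransitive_of_le (n := Nat.card α - 2)
        (by rw [Nat.card_eq_fintype_card]; omega) (Nat.sub_le _ _)
    have hall : ∀ x y : α, x ≠ y → (Pi.single x 1 - Pi.single y 1 : α → K) ∈ Wm := by
      intro x y hxy
      obtain ⟨g, hg1, hg2⟩ := MulAction.is_two_pretransitive_iff.mp h2t hxy (Ne.symm he.1)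
      have := hact g.1 g.2 _ hae
      have e1 : (fun z => (Pi.single a 1 - Pi.single e 1 : α → K) (g.1 z)) = (Pi.single x 1 - Pi.single y 1 : α → K) := by
        funext z
        have hg1' : g.1 x = a := hg1
        have hg2' : g.1 y = e := hg2
        simp only [Pi.sub_apply, Pi.single_apply]
        have i1 : g.1 z = a ↔ z = x := by rw [← hg1']; exact g.1.injective.eq_iff
        have i2 : g.1 z = e ↔ z = y := by rw [← hg2']; exact g.1.injective.eq_iff
        simp only [i1, i2]
      rwa [e1] at this
    have hsz : (Cfsg.permSumZero K (alternatingGroup α) α).toSubmodule ≤ Wm := by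
      intro f hf
      have hf' : ∑ x, f x = 0 := hf
      have e1 : f = ∑ x, f x • (Pi.single x 1 - Pi.single a 1 : α → K) := by
        funext z
        simp only [Finset.sum_apply, Pi.smul_apply, Pi.sub_apply, smul_eq_mul, mul_sub, Finset.sum_sub_distrib,
          ← Finset.sum_mul, hf', zero_mul, sub_zero, Pi.single_apply, mul_ite, mul_one, mul_zero,
          Finset.sum_ite_eq, Finset.mem_univ, if_true]
        by_cases hza : z = a <;> simp [hza, hf']
      rw [e1]
      apply Wm.sum_mem
      intro x _
      by_cases hxa : x = a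
      · rw [hxa, sub_self, smul_zero]; exact Wm.zero_mem
      · exact Wm.smul_mem _ (hall x a hxa)
    by_cases heq : Wm ≤ (Cfsg.permSumZero K (alternatingGroup α) α).toSubmodule
    · right; right; left
      apply Subrepresentation.toSubmodule_injective
      exact le_antisymm heq hsz
    · right; right; right
      rw [SetLike.not_le_iff_exists] at heq
      obtain ⟨u, hu, hus⟩ := heq
      have hus' : ∑ x, u x ≠ 0 := hus
      rw [eq_top_iff]
      intro f _
      have e1 : f = (f - ((∑ x, f x) / (∑ x, u x)) • u) + ((∑ x, f x) / (∑ x, u x)) • u := by abel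
      rw [e1]
      apply Wm.add_mem _ (Wm.smul_mem _ hu)
      apply hsz
      show ∑ x, (f - ((∑ x, f x) / (∑ x, u x)) • u) x = 0
      simp only [Pi.sub_apply, Pi.smul_apply, smul_eq_mul, Finset.sum_sub_distrib, ← Finset.mul_sum]
      field_simp
      ring

end Cfsg.Agent.S0714
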