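import Cfsg.Statements.S0715
import Mathlib
import Cfsg.Agent.Lib.Helper23.Orbital

set_option autoImplicit false
open Cfsg

namespace Cfsg.Agent.S0715

open Cfsg Cfsg.Agent.Lib.Helper2 Cfsg.Agent.Lib.Helper6 Cfsg.Agent.Lib.Helper23.Orbital
open scoped ComplexConjugate

attribute [local instance] irrFintype

theorem dvd_of_eq_mul_integral {n f : ℕ} {β : ℂ} (hβ : IsIntegral ℤ β) (h : (n : ℂ) = f * β) :
    f ∣ n := by
  rcases Nat.eq_zero_or_pos f with rfl | hf
  · simp only [Nat.cast_zero, zero_mul, Nat.cast_eq_zero] at h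
    rw [h]
  · have hf0 : (f : ℂ) ≠ 0 := by exact_mod_cast hf.ne'
    have h1 : β = (((n : ℚ) / f : ℚ) : ℂ) := by
      push_cast
      field_simp
      rw [h]
      ring
    rw [h1] at hβ
    have h2 : IsIntegral ℤ ((n : ℚ) / f : ℚ) :=
      (isIntegral_algebraMap_iff (algebraMap ℚ ℂ).injective).mp hβ
    obtain ⟨z, hz⟩ := IsIntegrallyClosed.isIntegral_iff.mp h2
    have hfq : (f : ℚ) ≠ 0 := by exact_mod_cast hf.ne'
    have h3 : ((n : ℤ) : ℚ) = ((f : ℤ) * z : ℤ) := by
      push_cast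
      have : ((z : ℤ) : ℚ) = (n : ℚ) / f := hz
      rw [this]
      field_simp
    have h4 : (n : ℤ) = (f : ℤ) * z := by exact_mod_cast h3
    exact Int.natCast_dvd_natCast.mp ⟨z, h4⟩

/-- If a natural number `f` divides the degree of every non-principal irreducible constituent of the permutation character of a transitive group, then `f` divides every non-trivial subdegree. -/
theorem result {G : Type*} [Group G] [Fintype G] {Ω : Type*} [Fintype Ω] [MulAction G Ω] [MulAction.IsPretransitive G Ω] (f : ℕ) (hf : ∀ χ : G → ℂ, Cfsg.IsIrrCharacter G χ → χ ≠ (fun _ => 1) → Cfsg.classInner (fun g : G => (Nat.card (MulAction.fixedBy Ω g) : ℂ)) χ ≠ 0 → ∃ m : ℕ, χ 1 = (f : ℂ) * m) (a b : Ω) (hab : b ≠ a) : f ∣ Nat.card (MulAction.orbit (MulAction.stabilizer G a) b) := by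
  classical
  have hsum := sum_tau (G := G) hab
  let triv : IrrCharacter G := ⟨fun _ => 1, isIrrCharacter_one⟩
  rw [← Finset.add_sum_erase _ _ (Finset.mem_univ triv)] at hsum
  have h1 : (triv : G → ℂ) 1 * tau a b (triv : G → ℂ) =
      (Nat.card (MulAction.orbit (MulAction.stabilizer G a) b) : ℂ) := by
    show (1 : ℂ) * tau a b (fun _ : G => (1 : ℂ)) = _
    rw [tau_one, one_mul]
  have h2 : ∀ χ ∈ (Finset.univ : Finset (IrrCharacter G)).erase triv,
      ∃ α : ℂ, IsIntegral ℤ α ∧ (χ : G → ℂ) 1 * tau a b (χ : G → ℂ) = f * α := by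
    intro χ hχ
    by_cases h0 : classInner (fun g : G => (Nat.card (MulAction.fixedBy Ω g) : ℂ)) (χ : G → ℂ) = 0
    · refine ⟨0, isIntegral_zero, ?_⟩
      rw [classInner_perm a (irr_isClassFunction χ.2)] at h0
      have h3 : ∑ y ∈ fib G a a, conj ((χ : G → ℂ) y) = 0 :=
        (mul_eq_zero.mp h0).resolve_left (inv_ne_zero (card_ne_zero a))
      rw [← map_sum] at h3
      have h4 : ∑ y ∈ fib G a a, (χ : G → ℂ) y = 0 := (map_eq_zero _).mp h3
      rw [tau_eq_zero a b (IsIrrCharacter.isCharacter χ.2) h4]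
      simp
    · obtain ⟨m, hm⟩ := hf χ χ.2 (fun h => (Finset.mem_erase.mp hχ).1 (Subtype.ext h)) h0
      refine ⟨m * tau a b (χ : G → ℂ),
        (isIntegral_algebraMap (R := ℤ) (x := (m : ℤ))).mul
          (isIntegral_tau a b (IsIrrCharacter.isCharacter χ.2)) |> fun h => by simpa using h, ?_⟩
      rw [hm]
      ring
  choose! α hα1 hα2 using h2
  rw [h1, Finset.sum_congr rfl hα2, ← Finset.mul_sum] at hsum
  refine dvd_of_eq_mul_integral (β := -∑ χ ∈ (Finset.univ : Finset (IrrCharacter G)).erase triv, α χ)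
    (IsIntegral.neg (IsIntegral.sum _ hα1)) ?_
  linear_combination hsum

end Cfsg.Agent.S0715
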