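import Cfsg.Statements.S0716
import Mathlib
import Cfsg.Agent.Lib.Helper23.Orbital
import Cfsg.Agent.Lib.Helper24.CharInt
import Cfsg.Agent.S0715

set_option autoImplicit false
open Cfsg

namespace Cfsg.Agent.S0716

open Cfsg Cfsg.Agent.Lib.Helper2 Cfsg.Agent.Lib.Helper6 Cfsg.Agent.Lib.Helper24
open Cfsg.Agent.Lib.Helper23.Orbital
open scoped ComplexConjugate Classical

attribute [local instance] irrFintype

theorem partA {G : Type*} [Group G] [Fintype G] {Ω : Type*} [Fintype Ω] [MulAction G Ω]
    [MulAction.IsPretransitive G Ω] (a : Ω) {m : IrrCharacter G → ℕ}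
    (hm : ∀ χ : IrrCharacter G,
      classInner (fun g : G => (Nat.card (MulAction.fixedBy Ω g) : ℂ)) (χ : G → ℂ) = m χ)
    (f : ℕ) (hf : ∀ χ : IrrCharacter G, (χ : G → ℂ) ≠ (fun _ => 1) → m χ ≠ 0 →
      charDegree (χ : G → ℂ) = f) :
    (∀ χ, m χ ≤ 1) ∧ ∀ b : Ω, b ≠ a →
      Nat.card (MulAction.orbit (MulAction.stabilizer G a) b) = f := by
  let triv : IrrCharacter G := ⟨fun _ => 1, isIrrCharacter_one⟩
  have hmt : m triv = 1 := by
    have h := hm triv
    rw [show ((triv : IrrCharacter G) : G → ℂ) = fun _ => 1 from rfl, mult_triv a] at h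
    exact_mod_cast h.symm
  have hne : ∀ χ ∈ (Finset.univ : Finset (IrrCharacter G)).erase triv,
      (χ : G → ℂ) ≠ (fun _ => 1) :=
    fun χ hχ h => (Finset.mem_erase.mp hχ).1 (Subtype.ext h)
  -- degrees
  have hdeg : ∑ χ : IrrCharacter G, m χ * charDegree (χ : G → ℂ) = Fintype.card Ω := by
    have h := sum_mult_deg hm
    have h2 : ((∑ χ : IrrCharacter G, m χ * charDegree (χ : G → ℂ) : ℕ) : ℂ) =
        (Fintype.card Ω : ℂ) := by
      rw [← h]
      push_cast
      exact Finset.sum_congr rfl fun χ _ => by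
        rw [charDegree_cast (IsIrrCharacter.isCharacter χ.2)]
    exact_mod_cast h2
  have hdt : charDegree (triv : G → ℂ) = 1 := by
    have := charDegree_cast (IsIrrCharacter.isCharacter triv.2)
    have h2 : (triv : G → ℂ) 1 = 1 := rfl
    rw [h2] at this
    exact_mod_cast this
  rw [← Finset.add_sum_erase _ _ (Finset.mem_univ triv), hmt, hdt, one_mul] at hdeg
  have hdeg2 : ∑ χ ∈ (Finset.univ : Finset (IrrCharacter G)).erase triv,
      m χ * charDegree (χ : G → ℂ) =
      f * ∑ χ ∈ (Finset.univ : Finset (IrrCharacter G)).erase triv, m χ := by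
    rw [Finset.mul_sum]
    refine Finset.sum_congr rfl fun χ hχ => ?_
    by_cases h0 : m χ = 0
    · rw [h0]; simp
    · rw [hf χ (hne χ hχ) h0, mul_comm]
  rw [hdeg2] at hdeg
  have hsq := sum_mult_sq a hm
  rw [← Finset.add_sum_erase _ _ (Finset.mem_univ triv), hmt, one_pow] at hsq
  -- orbits
  have horb := card_eq_sum_orbits (Ω := Ω) (MulAction.stabilizer G a)
  let q0 : MulAction.orbitRel.Quotient (MulAction.stabilizer G a) Ω := Quotient.mk'' a
  have horba : MulAction.orbit (MulAction.stabilizer G a) a = {a} := by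
    ext x
    constructor
    · rintro ⟨⟨k, hk⟩, rfl⟩
      exact hk
    · rintro rfl
      exact MulAction.mem_orbit_self _
  have hq0 : Nat.card q0.orbit = 1 := by
    rw [MulAction.orbitRel.Quotient.orbit_mk, horba]
    simp
  rw [← Finset.add_sum_erase _ _ (Finset.mem_univ q0), hq0] at horb
  have hS0715 : ∀ b : Ω, b ≠ a → f ∣ Nat.card (MulAction.orbit (MulAction.stabilizer G a) b) := by
    intro b hb
    refine Cfsg.Agent.S0715.result f ?_ a b hb
    intro χ hχ hχ1 hχ0
    refine ⟨1, ?_⟩
    have h1 := hf ⟨χ, hχ⟩ hχ1 (by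
      intro h0
      apply hχ0
      rw [hm ⟨χ, hχ⟩, h0]
      simp)
    rw [← charDegree_cast (IsIrrCharacter.isCharacter hχ)]
    simp only at h1
    rw [h1]
    simp
  have hmk : ∀ b : Ω, b ≠ a →
      (Quotient.mk'' b : MulAction.orbitRel.Quotient (MulAction.stabilizer G a) Ω) ≠ q0 := by
    intro b hb h
    have h2 : b ∈ MulAction.orbit (MulAction.stabilizer G a) a :=
      MulAction.orbitRel_apply.mp (Quotient.exact' h)
    rw [horba] at h2
    exact hb h2
  have hq : ∀ q ∈ (Finset.univ :
      Finset (MulAction.orbitRel.Quotient (MulAction.stabilizer G a) Ω)).erase q0,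
      f ∣ Nat.card q.orbit ∧ 0 < Nat.card q.orbit := by
    intro q hq
    induction q using Quotient.inductionOn' with
    | h b =>
      have hb : b ≠ a := by
        rintro rfl
        exact (Finset.mem_erase.mp hq).1 rfl
      rw [MulAction.orbitRel.Quotient.orbit_mk]
      refine ⟨hS0715 b hb, ?_⟩
      have : Nonempty (MulAction.orbit (MulAction.stabilizer G a) b) :=
        ⟨⟨b, MulAction.mem_orbit_self _⟩⟩
      exact Nat.card_pos
  have hcardQ : ((Finset.univ :
      Finset (MulAction.orbitRel.Quotient (MulAction.stabilizer G a) Ω)).erase q0).card =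
      ∑ χ ∈ (Finset.univ : Finset (IrrCharacter G)).erase triv, m χ ^ 2 := by
    rw [Finset.card_erase_of_mem (Finset.mem_univ _), Finset.card_univ, ← Nat.card_eq_fintype_card,
      ← hsq]
    simp
  rcases Nat.eq_zero_or_pos f with hf0 | hf0
  · -- degenerate case
    have hz : ∀ χ ∈ (Finset.univ : Finset (IrrCharacter G)).erase triv, m χ = 0 := by
      intro χ hχ
      by_contra h0
      have := hf χ (hne χ hχ) h0
      have h2 := charDegree_pos χ.2
      omega
    constructor
    · intro χ
      by_cases h : χ = triv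
      · rw [h, hmt]
      · rw [hz χ (Finset.mem_erase.mpr ⟨h, Finset.mem_univ _⟩)]
        exact Nat.zero_le _
    · intro b hb
      exfalso
      rw [hf0, zero_mul, add_zero] at hdeg
      have := Fintype.card_le_one_iff.mp hdeg.symm.le b a
      exact hb this
  · have hge : ∀ q ∈ (Finset.univ :
        Finset (MulAction.orbitRel.Quotient (MulAction.stabilizer G a) Ω)).erase q0,
        f ≤ Nat.card q.orbit := fun q hq' => Nat.le_of_dvd (hq q hq').2 (hq q hq').1
    have h1 : f * ∑ χ ∈ (Finset.univ : Finset (IrrCharacter G)).erase triv, m χ ^ 2 ≤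
        f * ∑ χ ∈ (Finset.univ : Finset (IrrCharacter G)).erase triv, m χ := by
      have := Finset.card_nsmul_le_sum _ _ _ hge
      rw [hcardQ, smul_eq_mul] at this
      have h3 : ∑ q ∈ (Finset.univ :
          Finset (MulAction.orbitRel.Quotient (MulAction.stabilizer G a) Ω)).erase q0,
          Nat.card q.orbit =
          f * ∑ χ ∈ (Finset.univ : Finset (IrrCharacter G)).erase triv, m χ := by omega
      rw [h3] at this
      rw [mul_comm]
      exact this
    have h2 := Nat.le_of_mul_le_mul_left h1 hf0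
    have hle : ∀ χ ∈ (Finset.univ : Finset (IrrCharacter G)).erase triv, m χ ≤ m χ ^ 2 :=
      fun χ _ => Nat.le_self_pow (by norm_num) _
    have heq : ∑ χ ∈ (Finset.univ : Finset (IrrCharacter G)).erase triv, m χ =
        ∑ χ ∈ (Finset.univ : Finset (IrrCharacter G)).erase triv, m χ ^ 2 :=
      le_antisymm (Finset.sum_le_sum hle) h2
    have hall := (Finset.sum_eq_sum_iff_of_le hle).mp heq
    constructor
    · intro χ
      by_cases h : χ = triv
      · rw [h, hmt]
      · have := hall χ (Finset.mem_erase.mpr ⟨h, Finset.mem_univ _⟩)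
        by_contra hc
        push Not at hc
        nlinarith
    · intro b hb
      have h3 : ∑ q ∈ (Finset.univ :
          Finset (MulAction.orbitRel.Quotient (MulAction.stabilizer G a) Ω)).erase q0, f =
          ∑ q ∈ (Finset.univ :
          Finset (MulAction.orbitRel.Quotient (MulAction.stabilizer G a) Ω)).erase q0,
          Nat.card q.orbit := by
        rw [Finset.sum_const, hcardQ, smul_eq_mul, ← heq, mul_comm]
        omega
      have := (Finset.sum_eq_sum_iff_of_le hge).mp h3 (Quotient.mk'' b)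
        (Finset.mem_erase.mpr ⟨hmk b hb, Finset.mem_univ _⟩)
      rw [MulAction.orbitRel.Quotient.orbit_mk] at this
      exact this.symm

/-- (a) If all non-principal irreducible constituents of the permutation character of a transitive group have the same degree `f`, the character is multiplicity-free and all non-trivial subdegrees equal `f`. (b) A transitive group of rank at most 5 has multiplicity-free permutation character. -/
theorem result {G : Type*} [Group G] [Fintype G] {Ω : Type*} [Fintype Ω] [MulAction G Ω] [MulAction.IsPretransitive G Ω] (a : Ω) : ((f : ℕ) → (∀ χ : G → ℂ, Cfsg.IsIrrCharacter G χ → χ ≠ (fun _ => 1) → Cfsg.classInner (fun g : G => (Nat.card (MulAction.fixedBy Ω g) : ℂ)) χ ≠ 0 → χ 1 = f) → (∀ χ : G → ℂ, Cfsg.IsIrrCharacter G χ → Cfsg.classInner (fun g : G => (Nat.card (MulAction.fixedBy Ω g) : ℂ)) χ = 0 ∨ Cfsg.classInner (fun g : G => (Nat.card (MulAction.fixedBy Ω g) : ℂ)) χ = 1) ∧ ∀ b : Ω, b ≠ a → Nat.card (MulAction.orbit (MulAction.stabilizer G a) b) = f) ∧ (Nat.card (MulAction.orbitRel.Quotient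 (MulAction.stabilizer G a) Ω) ≤ 5 → ∀ χ : G → ℂ, Cfsg.IsIrrCharacter G χ → Cfsg.classInner (fun g : G => (Nat.card (MulAction.fixedBy Ω g) : ℂ)) χ = 0 ∨ Cfsg.classInner (fun g : G => (Nat.card (MulAction.fixedBy Ω g) : ℂ)) χ = 1) := by
  classical
  obtain ⟨m, hm⟩ := exists_mult (G := G) (Ω := Ω)
  have hfin : (∀ χ, m χ ≤ 1) → ∀ χ : G → ℂ, Cfsg.IsIrrCharacter G χ →
      Cfsg.classInner (fun g : G => (Nat.card (MulAction.fixedBy Ω g) : ℂ)) χ = 0 ∨
      Cfsg.classInner (fun g : G => (Nat.card (MulAction.fixedBy Ω g) : ℂ)) χ = 1 := by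
    intro h χ hχ
    have h1 := h ⟨χ, hχ⟩
    have h2 := hm ⟨χ, hχ⟩
    simp only at h2
    rw [h2]
    rcases Nat.le_one_iff_eq_zero_or_eq_one.mp h1 with h3 | h3
    · left; rw [h3]; simp
    · right; rw [h3]; simp
  constructor
  · intro f hf
    have hA := partA a hm f (by
      intro χ hχ1 hχ0
      have h1 := hf χ χ.2 hχ1 (by rw [hm χ]; exact_mod_cast hχ0)
      rw [← charDegree_cast (IsIrrCharacter.isCharacter χ.2)] at h1
      exact_mod_cast h1)
    exact ⟨hfin hA.1, hA.2⟩
  · intro hrank
    apply hfin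
    by_contra hcon
    push Not at hcon
    obtain ⟨χ0, hχ0⟩ := hcon
    let triv : IrrCharacter G := ⟨fun _ => 1, isIrrCharacter_one⟩
    have hmt : m triv = 1 := by
      have h := hm triv
      rw [show ((triv : IrrCharacter G) : G → ℂ) = fun _ => 1 from rfl, mult_triv a] at h
      exact_mod_cast h.symm
    have hne : χ0 ≠ triv := by
      rintro rfl
      omega
    have hsq := sum_mult_sq a hm
    rw [← Finset.add_sum_erase _ _ (Finset.mem_univ triv), hmt, one_pow,
      ← Finset.add_sum_erase _ _ (Finset.mem_erase.mpr ⟨hne, Finset.mem_univ χ0⟩)] at hsq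
    have h4 : 4 ≤ m χ0 ^ 2 := by nlinarith
    have hz : ∑ χ ∈ ((Finset.univ : Finset (IrrCharacter G)).erase triv).erase χ0, m χ ^ 2 = 0 := by
      omega
    have hz' := (Finset.sum_eq_zero_iff.mp hz)
    have hA := partA a hm (charDegree (χ0 : G → ℂ)) (by
      intro χ hχ1 hχ0'
      by_cases h : χ = χ0
      · rw [h]
      · exfalso
        have := hz' χ (Finset.mem_erase.mpr ⟨h, Finset.mem_erase.mpr
          ⟨fun h' => hχ1 (by rw [h']), Finset.mem_univ _⟩⟩)
        exact hχ0' (by simpa using this))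
    have := hA.1 χ0
    omega

end Cfsg.Agent.S0716
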