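import Cfsg.Statements.S0717
import Cfsg.Agent.Lib.Helper23.FS
import Cfsg.Agent.Lib.Helper23.Orbital

set_option autoImplicit false
open Cfsg

namespace Cfsg.Agent.S0717

open Cfsg.Agent.Lib.Helper23 Cfsg.Agent.Lib.Helper23.Orbital Cfsg.Agent.Lib.Helper2 Cfsg.Agent.Lib.Helper6
open Matrix Module Representation
open scoped Classical ComplexConjugate

theorem inj_of_isInvForm {G : Type*} [Group G] {n : ℕ} (ρ : Representation ℂ G (Fin n → ℂ))
    [ρ.IsIrreducible] {M : Matrix (Fin n) (Fin n) ℂ}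
    (hM : IsInvForm ρ M) (hM0 : M ≠ 0) : Function.Injective (Matrix.toLin' M) := by
  have hρ : ∀ g, ρ g = Matrix.toLin' (mat ρ g) := fun g => by simp [mat]
  let f : IntertwiningMap ρ (contra ρ) := ⟨Matrix.toLin' M, fun g => by
    show Matrix.toLin' M ∘ₗ ρ g = Matrix.toLin' (mat ρ g⁻¹)ᵀ ∘ₗ Matrix.toLin' M
    rw [hρ g, ← Matrix.toLin'_mul, ← Matrix.toLin'_mul, hM.mul_mat]⟩
  rcases IsIrreducible.injective_or_eq_zero f with h | h
  · exact h
  · exfalso
    apply hM0
    have h1 : Matrix.toLin' M = 0 := congrArg IntertwiningMap.toLinearMap h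
    exact (Matrix.toLin' (R := ℂ)).injective (by rw [h1, map_zero])

variable {G : Type*} [Group G] [Fintype G] {Ω : Type*} [Fintype Ω] [MulAction G Ω]

theorem fsInd_eq_one [MulAction.IsPretransitive G Ω] (a : Ω) {n : ℕ}
    (ρ : Representation ℂ G (Fin n → ℂ)) (hρ : ρ.IsIrreducible)
    (hreal : ∀ g, (ρ.character g).im = 0) (htr : LinearMap.trace ℂ _ (pr ρ a) = 1) :
    fsInd ρ.character = 1 := by
  obtain ⟨M, hM0, hM⟩ := exists_isInvForm_of_real ρ hρ hreal
  have hT := hM.transpose_eq ρ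
  rcases fsInd_cases (χ := ρ.character) ⟨n, ρ, hρ, rfl⟩ with ⟨_, g, hg⟩ | ⟨h | h, _⟩
  · exact absurd (hreal g) hg
  · exact h
  · exfalso
    have hT' : Mᵀ = -M := by
      rw [hT]
      change fsInd ρ.character • M = _
      rw [h]
      simp
    set B := Matrix.toBilin' M with hB
    have hBa : ∀ v w, B v w = v ⬝ᵥ (M *ᵥ w) := fun v w => Matrix.toBilin'_apply' M v w
    have hρm : ∀ g v, ρ g v = mat ρ g *ᵥ v := fun g v => by
      rw [mat, LinearMap.toMatrix'_mulVec]
    have hinv : ∀ g v w, B (ρ g v) (ρ g w) = B v w := by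
      intro g v w
      rw [hBa, hBa, hρm, hρm, ← Matrix.vecMul_transpose, ← Matrix.dotProduct_mulVec,
        Matrix.mulVec_mulVec, Matrix.mulVec_mulVec, hM g]
    have hadj : ∀ g v w, B (ρ g v) w = B v (ρ g⁻¹ w) := by
      intro g v w
      rw [← hinv g v (ρ g⁻¹ w)]
      congr 1
      rw [← Module.End.mul_apply, ← map_mul, mul_inv_cancel, map_one, Module.End.one_apply]
    have hP : ∀ v w, B (pr ρ a v) w = B v (pr ρ a w) := by
      intro v w
      unfold pr cs
      simp only [LinearMap.smul_apply, LinearMap.sum_apply, map_smul, map_sum]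
      congr 1
      refine Finset.sum_bij (fun h _ => h⁻¹) ?_ ?_ ?_ ?_
      · intro h hh
        rw [mem_fib] at hh ⊢
        rw [inv_smul_eq_iff, hh]
      · intro h _ h' _ e
        exact inv_injective e
      · intro h hh
        rw [mem_fib] at hh
        exact ⟨h⁻¹, by rw [mem_fib, inv_smul_eq_iff, hh], inv_inv h⟩
      · intro h _
        exact hadj h v w
    have hidem := isIdempotentElem_pr ρ a
    have hproj := LinearMap.IsIdempotentElem.isProj_range _ hidem
    have hfr : finrank ℂ (LinearMap.range (pr ρ a)) = 1 := by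
      have := hproj.trace
      rw [htr] at this
      exact_mod_cast this.symm
    obtain ⟨⟨u, hu⟩, hu0, hspan⟩ := finrank_eq_one_iff'.mp hfr
    have hu0' : u ≠ 0 := fun h0 => hu0 (Subtype.ext h0)
    have hPu : pr ρ a u = u := hproj.map_id u hu
    have halt : B u u = 0 := by
      have h1 : B u u = - B u u := by
        conv_lhs => rw [hBa, Matrix.dotProduct_mulVec, ← Matrix.mulVec_transpose, hT',
          Matrix.neg_mulVec, neg_dotProduct, dotProduct_comm, ← hBa]
      have h2 : (2 : ℂ) * B u u = 0 := by linear_combination h1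
      simpa using h2
    have hzero : ∀ w, B u w = 0 := by
      intro w
      obtain ⟨c, hc⟩ := hspan ⟨pr ρ a w, LinearMap.mem_range_self _ w⟩
      have hc' : c • u = pr ρ a w := congrArg Subtype.val hc
      rw [← hPu, hP, ← hc', map_smul, halt, smul_zero]
    have hMu : Matrix.toLin' M u = 0 := by
      rw [Matrix.toLin'_apply]
      have h1 : Mᵀ *ᵥ u = 0 := by
        funext i
        have := hzero (Pi.single i 1)
        rw [hBa, Matrix.dotProduct_mulVec, dotProduct_single, mul_one, ← Matrix.mulVec_transpose]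
          at this
        exact this
      rw [hT', Matrix.neg_mulVec, neg_eq_zero] at h1
      exact h1
    exact hu0' (inj_of_isInvForm ρ hM hM0 (by rw [hMu, map_zero]))

/-- the elements interchanging two points -/
noncomputable def sw (G : Type*) [Group G] [Fintype G] {Ω : Type*} [MulAction G Ω] (ω ω' : Ω) :
    Finset G := Finset.univ.filter fun g => g • ω = ω' ∧ g • ω' = ω

/-- the elements fixing two points -/
noncomputable def st (G : Type*) [Group G] [Fintype G] {Ω : Type*} [MulAction G Ω] (ω ω' : Ω) :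
    Finset G := Finset.univ.filter fun g => g • ω = ω ∧ g • ω' = ω'

theorem card_fixedBy (g : G) :
    Nat.card (MulAction.fixedBy Ω g) = ∑ ω : Ω, if g • ω = ω then 1 else 0 := by
  rw [Finset.sum_boole, Nat.card_eq_fintype_card, ← Set.toFinset_card]
  simp only [Nat.cast_id]
  congr 1
  ext ω
  simp [MulAction.mem_fixedBy]

theorem sum_sq_eq : ∑ g : G, Nat.card (MulAction.fixedBy Ω g) * Nat.card (MulAction.fixedBy Ω g) =
    ∑ ω : Ω, ∑ ω' : Ω, (st G ω ω').card := by
  simp_rw [card_fixedBy, Finset.sum_mul_sum, st, Finset.card_filter]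
  rw [Finset.sum_comm]
  refine Finset.sum_congr rfl fun ω _ => ?_
  rw [Finset.sum_comm]
  refine Finset.sum_congr rfl fun ω' _ => Finset.sum_congr rfl fun g _ => ?_
  by_cases h1 : g • ω = ω <;> by_cases h2 : g • ω' = ω' <;> simp [h1, h2]

theorem sum_sqr_eq : ∑ g : G, Nat.card (MulAction.fixedBy Ω (g * g)) =
    ∑ ω : Ω, ∑ ω' : Ω, (sw G ω ω').card := by
  simp_rw [card_fixedBy, sw, Finset.card_filter]
  rw [Finset.sum_comm]
  refine Finset.sum_congr rfl fun ω _ => ?_
  rw [Finset.sum_comm]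
  refine Finset.sum_congr rfl fun g _ => ?_
  simp_rw [ite_and]
  rw [Finset.sum_ite_eq]
  simp [mul_smul]

theorem card_sw_eq {ω ω' : Ω} (h : (sw G ω ω').Nonempty) : (sw G ω ω').card = (st G ω ω').card := by
  obtain ⟨g, hg⟩ := h
  simp only [sw, Finset.mem_filter, Finset.mem_univ, true_and] at hg
  symm
  refine Finset.card_bij (fun t _ => g * t) ?_ ?_ ?_
  · intro t ht
    simp only [st, sw, Finset.mem_filter, Finset.mem_univ, true_and] at ht ⊢
    rw [mul_smul, mul_smul, ht.1, ht.2]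
    exact hg
  · intro t _ t' _ e
    exact mul_left_cancel e
  · intro s hs
    simp only [sw, Finset.mem_filter, Finset.mem_univ, true_and] at hs
    refine ⟨g⁻¹ * s, ?_, by simp⟩
    simp only [st, Finset.mem_filter, Finset.mem_univ, true_and]
    rw [mul_smul, mul_smul, hs.1, hs.2, inv_smul_eq_iff, inv_smul_eq_iff]
    exact ⟨hg.1.symm, hg.2.symm⟩

theorem card_sw_le (ω ω' : Ω) : (sw G ω ω').card ≤ (st G ω ω').card := by
  by_cases h : (sw G ω ω').Nonempty
  · exact (card_sw_eq h).le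
  · rw [Finset.not_nonempty_iff_eq_empty] at h
    rw [h]
    exact Nat.zero_le _

theorem gen_iff : (∀ a b : Ω, ∃ g : G, g • a = b ∧ g • b = a) ↔
    ∑ g : G, Nat.card (MulAction.fixedBy Ω (g * g)) =
      ∑ g : G, Nat.card (MulAction.fixedBy Ω g) * Nat.card (MulAction.fixedBy Ω g) := by
  rw [sum_sq_eq, sum_sqr_eq]
  constructor
  · intro h
    refine Finset.sum_congr rfl fun ω _ => Finset.sum_congr rfl fun ω' _ => card_sw_eq ?_
    obtain ⟨g, hg⟩ := h ω ω'
    exact ⟨g, by simpa [sw] using hg⟩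
  · intro h a b
    have h1 := (Finset.sum_eq_sum_iff_of_le (s := Finset.univ)
      (f := fun ω : Ω => ∑ ω' : Ω, (sw G ω ω').card)
      (g := fun ω : Ω => ∑ ω' : Ω, (st G ω ω').card)
      (fun ω _ => Finset.sum_le_sum fun ω' _ => card_sw_le ω ω')).mp h a (Finset.mem_univ _)
    have h2 := (Finset.sum_eq_sum_iff_of_le (s := Finset.univ)
      (f := fun ω' : Ω => (sw G a ω').card)
      (g := fun ω' : Ω => (st G a ω').card)
      (fun ω' _ => card_sw_le a ω')).mp h1 b (Finset.mem_univ _)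
    have h3 : 0 < (st G a b).card := Finset.card_pos.mpr ⟨1, by simp [st]⟩
    rw [← h2] at h3
    obtain ⟨g, hg⟩ := Finset.card_pos.mp h3
    exact ⟨g, by simpa [sw] using hg⟩

attribute [local instance] irrFintype

theorem sumA [MulAction.IsPretransitive G Ω] {m : IrrCharacter G → ℕ} (hm : ∀ χ : IrrCharacter G,
    classInner (fun g : G => (Nat.card (MulAction.fixedBy Ω g) : ℂ)) (χ : G → ℂ) = m χ) :
    (Nat.card G : ℂ)⁻¹ * ((∑ g : G, Nat.card (MulAction.fixedBy Ω g) *
      Nat.card (MulAction.fixedBy Ω g) : ℕ) : ℂ) = ∑ χ : IrrCharacter G, (m χ : ℂ) * (m χ : ℂ) := by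
  have h1 := classInner_eq_sum_irr (isClassFunction_perm (G := G) (Ω := Ω))
    (isClassFunction_perm (G := G) (Ω := Ω))
  simp only [hm, Complex.conj_natCast] at h1
  rw [← h1]
  unfold classInner
  simp only [Complex.conj_natCast]
  push_cast
  rfl

theorem sumB [MulAction.IsPretransitive G Ω] {m : IrrCharacter G → ℕ} (hm : ∀ χ : IrrCharacter G,
    classInner (fun g : G => (Nat.card (MulAction.fixedBy Ω g) : ℂ)) (χ : G → ℂ) = m χ) :
    (Nat.card G : ℂ)⁻¹ * ((∑ g : G, Nat.card (MulAction.fixedBy Ω (g * g)) : ℕ) : ℂ) =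
      ∑ χ : IrrCharacter G, (m χ : ℂ) * fsInd (χ : G → ℂ) := by
  have h := classFunction_eq_sum (isClassFunction_perm (G := G) (Ω := Ω))
  have h2 : ∀ g : G, (Nat.card (MulAction.fixedBy Ω (g * g)) : ℂ) =
      ∑ χ : IrrCharacter G, (m χ : ℂ) * (χ : G → ℂ) (g * g) := by
    intro g
    have := congrFun h (g * g)
    simp only [Finset.sum_apply, Pi.smul_apply, smul_eq_mul, hm] at this
    exact this
  push_cast
  simp_rw [h2]
  rw [Finset.sum_comm, Finset.mul_sum]
  refine Finset.sum_congr rfl fun χ _ => ?_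
  unfold fsInd
  rw [← Finset.mul_sum]
  ring

theorem key2 [MulAction.IsPretransitive G Ω] (a : Ω) {χ : G → ℂ} (hχ : IsIrrCharacter G χ)
    (h1 : classInner (fun g : G => (Nat.card (MulAction.fixedBy Ω g) : ℂ)) χ = 1)
    (hreal : ∀ g : G, conj (χ g) = χ g) : fsInd χ = 1 := by
  rw [classInner_perm a (irr_isClassFunction hχ)] at h1
  simp_rw [hreal] at h1
  obtain ⟨n, ρ, hρ, rfl⟩ := hχ
  refine fsInd_eq_one a ρ hρ (fun g => Complex.conj_eq_iff_im.mp (hreal g)) ?_
  rw [trace_pr, h1]

/-- All suborbits of a transitive group are self-paired (every pair of points is interchanged by some group element) if and only if the permutation character is multiplicity-free and each of its irreducible constituents is real-valued. -/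
theorem result {G : Type*} [Group G] [Fintype G] {Ω : Type*} [Fintype Ω] [MulAction G Ω] [MulAction.IsPretransitive G Ω] : (∀ a b : Ω, ∃ g : G, g • a = b ∧ g • b = a) ↔ ∀ χ : G → ℂ, Cfsg.IsIrrCharacter G χ → Cfsg.classInner (fun g : G => (Nat.card (MulAction.fixedBy Ω g) : ℂ)) χ ≠ 0 → Cfsg.classInner (fun g : G => (Nat.card (MulAction.fixedBy Ω g) : ℂ)) χ = 1 ∧ ∀ g : G, (starRingEnd ℂ) (χ g) = χ g := by
  obtain ⟨m, hm⟩ := exists_mult (G := G) (Ω := Ω)
  have hν0 : ∀ χ : IrrCharacter G, ∃ ν : ℤ, fsInd (χ : G → ℂ) = ν ∧ (ν = 0 ∨ ν = 1 ∨ ν = -1) := by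
    intro χ
    rcases fsInd_trichotomy χ.2 with h | h | h
    · exact ⟨0, by simpa using h, Or.inl rfl⟩
    · exact ⟨1, by simpa using h, Or.inr (Or.inl rfl)⟩
    · exact ⟨-1, by simpa using h, Or.inr (Or.inr rfl)⟩
  choose ν hν hν' using hν0
  have hG : (Nat.card G : ℂ) ≠ 0 := by
    have : Nat.card G ≠ 0 := Nat.card_pos.ne'
    exact_mod_cast this
  have hiff : (∑ g : G, Nat.card (MulAction.fixedBy Ω (g * g)) =
      ∑ g : G, Nat.card (MulAction.fixedBy Ω g) * Nat.card (MulAction.fixedBy Ω g)) ↔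
      ∑ χ : IrrCharacter G, (m χ : ℤ) * ν χ = ∑ χ : IrrCharacter G, (m χ : ℤ) * (m χ : ℤ) := by
    have A := sumA hm
    have B := sumB hm
    simp_rw [hν] at B
    constructor
    · intro h
      rw [h, A] at B
      exact_mod_cast B.symm
    · intro h
      have h' : ∑ χ : IrrCharacter G, (m χ : ℂ) * (ν χ : ℂ) =
          ∑ χ : IrrCharacter G, (m χ : ℂ) * (m χ : ℂ) := by exact_mod_cast h
      rw [← A, ← B] at h'
      have := mul_left_cancel₀ (inv_ne_zero hG) h'
      exact_mod_cast this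
  rw [gen_iff, hiff]
  have hterm : ∀ χ : IrrCharacter G, (m χ : ℤ) * ν χ ≤ (m χ : ℤ) * (m χ : ℤ) := by
    intro χ
    have h0 : (0 : ℤ) ≤ m χ := Int.natCast_nonneg _
    rcases hν' χ with h | h | h <;> rw [h]
    · nlinarith
    · rcases Nat.eq_zero_or_pos (m χ) with h1 | h1
      · simp [h1]
      · have : (1 : ℤ) ≤ m χ := by exact_mod_cast h1
        nlinarith
    · nlinarith
  constructor
  · intro h χ hχ hne
    have h1 := (Finset.sum_eq_sum_iff_of_le (s := Finset.univ) (fun χ _ => hterm χ)).mp h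
      ⟨χ, hχ⟩ (Finset.mem_univ _)
    have h2 := hm ⟨χ, hχ⟩
    simp only at h2
    rw [h2] at hne ⊢
    have h3 : (m ⟨χ, hχ⟩ : ℤ) ≠ 0 := by
      intro h0
      apply hne
      exact_mod_cast h0
    have h4 : ν ⟨χ, hχ⟩ = m ⟨χ, hχ⟩ := mul_left_cancel₀ h3 h1
    have h5 : ν ⟨χ, hχ⟩ = 1 := by
      rcases hν' ⟨χ, hχ⟩ with h | h | h
      · rw [h] at h4; exact absurd h4.symm h3
      · exact h
      · rw [h] at h4
        have : (0 : ℤ) ≤ m ⟨χ, hχ⟩ := Int.natCast_nonneg _
        omega
    constructor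
    · rw [h5] at h4
      exact_mod_cast h4.symm
    · have h6 := hν ⟨χ, hχ⟩
      rw [h5] at h6
      simp only [Int.cast_one] at h6
      rcases fsInd_cases hχ with ⟨h7, _⟩ | ⟨_, h7⟩
      · rw [h6] at h7; exact absurd h7 one_ne_zero
      · exact fun g => Complex.conj_eq_iff_im.mpr (h7 g)
  · intro h
    refine Finset.sum_congr rfl fun χ _ => ?_
    by_cases h0 : m χ = 0
    · simp [h0]
    · have hne : classInner (fun g : G => (Nat.card (MulAction.fixedBy Ω g) : ℂ)) (χ : G → ℂ) ≠ 0 := by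
        rw [hm]
        exact_mod_cast h0
      obtain ⟨h1, hreal⟩ := h χ.1 χ.2 hne
      rcases isEmpty_or_nonempty Ω with hE | ⟨⟨a⟩⟩
      · exfalso
        apply hne
        unfold classInner
        simp
      · have h2 := key2 a χ.2 h1 hreal
        rw [hν] at h2
        rw [hm] at h1
        have h3 : ν χ = 1 := by exact_mod_cast h2
        have h4 : m χ = 1 := by exact_mod_cast h1
        rw [h3, h4]
        simp

end Cfsg.Agent.S0717
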