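import Cfsg.Statements.S0718
import Cfsg.Agent.Lib.Helper2.Subrep
import Cfsg.Agent.Lib.Helper2.Decomp
import Cfsg.Agent.Lib.Helper2.Schur
import Cfsg.Agent.Lib.Helper2.CharOps

set_option autoImplicit false
open Cfsg

namespace Cfsg.Agent.S0718

open Cfsg.Agent.Lib.Helper2
open Module Representation
open scoped Classical

variable {G : Type*} [Group G] [Fintype G] {Ω : Type*} [Fintype Ω] [MulAction G Ω]

theorem permRep_character (g : G) : (Cfsg.permRep ℂ G Ω).character g =
    (Nat.card (MulAction.fixedBy Ω g) : ℂ) := by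
  rw [Representation.character, LinearMap.trace_eq_matrix_trace ℂ (Pi.basisFun ℂ Ω), Matrix.trace]
  have h1 : ∀ i : Ω, (LinearMap.toMatrix (Pi.basisFun ℂ Ω) (Pi.basisFun ℂ Ω)
      (Cfsg.permRep ℂ G Ω g)).diag i = if g • i = i then 1 else 0 := by
    intro i
    rw [Matrix.diag_apply, LinearMap.toMatrix_apply]
    simp only [Pi.basisFun_apply, Pi.basisFun_repr]
    show (Pi.single i (1 : ℂ) : Ω → ℂ) (g⁻¹ • i) = _
    rw [Pi.single_apply]
    simp only [inv_smul_eq_iff]
    by_cases h : g • i = i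
    · rw [if_pos h, if_pos h.symm]
    · rw [if_neg h, if_neg (fun h' => h h'.symm)]
  simp_rw [h1]
  rw [Finset.sum_boole, Nat.card_eq_fintype_card, ← Set.toFinset_card]
  congr 2
  ext ω
  simp [MulAction.mem_fixedBy]

theorem comm_of_mem {V : Type*} [AddCommGroup V] [Module ℂ V] (π : Representation ℂ G V)
    {S : V →ₗ[ℂ] V} (hS : S ∈ (π.linHom π).invariants) (g : G) : S ∘ₗ π g = π g ∘ₗ S := by
  have h := (Representation.mem_invariants _ _).mp hS g
  rw [Representation.linHom_apply] at h
  conv_lhs => rw [← h]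
  ext v
  simp only [LinearMap.comp_apply]
  rw [← Module.End.mul_apply (π g⁻¹), ← map_mul, inv_mul_cancel, map_one, Module.End.one_apply]

theorem mem_of_comm {V : Type*} [AddCommGroup V] [Module ℂ V] (π : Representation ℂ G V)
    {S : V →ₗ[ℂ] V} (hS : ∀ g, S ∘ₗ π g = π g ∘ₗ S) : S ∈ (π.linHom π).invariants := by
  rw [Representation.mem_invariants]
  intro g
  rw [Representation.linHom_apply, hS, ← LinearMap.comp_assoc]
  ext v
  simp only [LinearMap.comp_apply]
  rw [← Module.End.mul_apply (π g), ← map_mul, mul_inv_cancel, map_one, Module.End.one_apply]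

theorem comm_of_multFree {V : Type*} [AddCommGroup V] [Module ℂ V] [FiniteDimensional ℂ V]
    (π : Representation ℂ G V)
    (h : ∀ χ : G → ℂ, IsIrrCharacter G χ →
      classInner π.character χ = 0 ∨ classInner π.character χ = 1)
    {S T : V →ₗ[ℂ] V} (hS : ∀ g, S ∘ₗ π g = π g ∘ₗ S) (hT : ∀ g, T ∘ₗ π g = π g ∘ₗ T) :
    S ∘ₗ T = T ∘ₗ S := by
  have key : ∀ (W : Subrepresentation π), W.toRepresentation.IsIrreducible →
      ∀ R : V →ₗ[ℂ] V, (∀ g, R ∘ₗ π g = π g ∘ₗ R) →
      ∃ c : ℂ, ∀ w ∈ W.toSubmodule, R w = c • w := by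
    intro W hW R hR
    have h1 := classInner_char_eq_finrank W.toRepresentation π
    have h2 : finrank ℂ (IntertwiningMap W.toRepresentation π) ≤ 1 := by
      rcases h _ (isIrrCharacter_of_rep _ hW) with h3 | h3 <;> rw [h1] at h3
      · have : finrank ℂ (IntertwiningMap W.toRepresentation π) = 0 := by exact_mod_cast h3
        omega
      · have : finrank ℂ (IntertwiningMap W.toRepresentation π) = 1 := by exact_mod_cast h3
        omega
    obtain ⟨v, hv⟩ := finrank_le_one_iff.mp h2
    let Rι : IntertwiningMap W.toRepresentation π := ⟨R ∘ₗ W.toSubmodule.subtype, fun g => by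
      ext w
      have := congrArg (fun L : V →ₗ[ℂ] V => L (w : V)) (hR g)
      exact this⟩
    obtain ⟨c₁, hc₁⟩ := hv (subrepIncl W)
    obtain ⟨c₂, hc₂⟩ := hv Rι
    have e1 : ∀ w : W.toSubmodule, c₁ • v w = (w : V) := fun w => by
      have := congrArg (fun L : IntertwiningMap W.toRepresentation π => L w) hc₁
      exact this
    have e2 : ∀ w : W.toSubmodule, c₂ • v w = R (w : V) := fun w => by
      have := congrArg (fun L : IntertwiningMap W.toRepresentation π => L w) hc₂
      exact this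
    by_cases hc : c₁ = 0
    · refine ⟨0, fun w hw => ?_⟩
      have := e1 ⟨w, hw⟩
      rw [hc, zero_smul] at this
      simp only at this
      rw [← this]
      simp
    · refine ⟨c₂ / c₁, fun w hw => ?_⟩
      have a1 : c₁ • v ⟨w, hw⟩ = w := e1 ⟨w, hw⟩
      have a2 : c₂ • v ⟨w, hw⟩ = R w := e2 ⟨w, hw⟩
      rw [← a2]
      conv_rhs => rw [← a1]
      rw [smul_smul, div_mul_cancel₀ _ hc]
  have hle : (⊤ : Submodule ℂ V) ≤ LinearMap.eqLocus (S ∘ₗ T) (T ∘ₗ S) := by
    rw [← iSup_irreducible_eq_top (ρ := π)]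
    refine iSup_le fun W => iSup_le fun hW => ?_
    intro w hw
    obtain ⟨c, hc⟩ := key W hW S hS
    obtain ⟨d, hd⟩ := key W hW T hT
    rw [LinearMap.mem_eqLocus, LinearMap.comp_apply, LinearMap.comp_apply, hc w hw, hd w hw,
      map_smul, map_smul, hc w hw, hd w hw, smul_comm]
  ext v
  exact hle (Submodule.mem_top (x := v))

theorem multFree_of_comm {V : Type*} [AddCommGroup V] [Module ℂ V] [FiniteDimensional ℂ V]
    (π : Representation ℂ G V)
    (h : ∀ S T : V →ₗ[ℂ] V, (∀ g, S ∘ₗ π g = π g ∘ₗ S) → (∀ g, T ∘ₗ π g = π g ∘ₗ T) →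
      S ∘ₗ T = T ∘ₗ S) {χ : G → ℂ} (hχ : IsIrrCharacter G χ) :
    classInner π.character χ = 0 ∨ classInner π.character χ = 1 := by
  obtain ⟨n, ρ, hρ, rfl⟩ := hχ
  rw [classInner_char_eq_finrank ρ π]
  have hG : (Nat.card G : ℂ) ≠ 0 := by
    have : Nat.card G ≠ 0 := Nat.card_pos.ne'
    exact_mod_cast this
  have h2 : finrank ℂ (IntertwiningMap ρ π) ≤ 1 := by
    by_cases h0 : ∀ f : IntertwiningMap ρ π, f = 0
    · apply finrank_le_one (0 : IntertwiningMap ρ π)
      intro w
      exact ⟨0, by rw [h0 w, smul_zero]⟩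
    · push Not at h0
      obtain ⟨f₁, hf₁⟩ := h0
      apply finrank_le_one f₁
      intro f₂
      have hinj : Function.Injective f₁ := by
        rcases IsIrreducible.injective_or_eq_zero f₁ with h | h
        · exact h
        · exact absurd h hf₁
      obtain ⟨r, hr⟩ := LinearMap.exists_leftInverse_of_injective f₁.toLinearMap
        (LinearMap.ker_eq_bot.mpr hinj)
      set g₁ : V →ₗ[ℂ] (Fin n → ℂ) := (Nat.card G : ℂ)⁻¹ • ∑ g : G, ρ g ∘ₗ r ∘ₗ π g⁻¹ with hg₁
      have hrf : ∀ v, r (f₁ v) = v := fun v => congrArg (fun L : _ →ₗ[ℂ] _ => L v) hr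
      have hg₁f : ∀ v, g₁ (f₁ v) = v := by
        intro v
        rw [hg₁]
        simp only [LinearMap.smul_apply, LinearMap.sum_apply, LinearMap.comp_apply]
        have : ∀ g ∈ (Finset.univ : Finset G), ρ g (r (π g⁻¹ (f₁ v))) = v := by
          intro g _
          rw [← f₁.isIntertwining, hrf, ← Module.End.mul_apply, ← map_mul, mul_inv_cancel, map_one,
            Module.End.one_apply]
        rw [Finset.sum_congr rfl this, Finset.sum_const, Finset.card_univ,
          ← Nat.card_eq_fintype_card, ← Nat.cast_smul_eq_nsmul ℂ, smul_smul, inv_mul_cancel₀ hG,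
          one_smul]
      have hg₁c : ∀ g v, g₁ (π g v) = ρ g (g₁ v) := by
        intro h v
        rw [hg₁]
        simp only [LinearMap.smul_apply, LinearMap.sum_apply, LinearMap.comp_apply, map_smul,
          map_sum]
        congr 1
        symm
        refine Fintype.sum_equiv (Equiv.mulLeft h) _ _ fun g => ?_
        simp only [Equiv.coe_mulLeft, mul_inv_rev, map_mul, Module.End.mul_apply]
        rw [← Module.End.mul_apply (π h⁻¹), ← map_mul, inv_mul_cancel, map_one,
          Module.End.one_apply]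
      have hS : ∀ f : IntertwiningMap ρ π, ∀ g,
          (f.toLinearMap ∘ₗ g₁) ∘ₗ π g = π g ∘ₗ (f.toLinearMap ∘ₗ g₁) := by
        intro f g
        ext v
        simp only [LinearMap.comp_apply]
        rw [hg₁c]
        exact IntertwiningMap.isIntertwining ρ π f g _
      have hST := h _ _ (hS f₁) (hS f₂)
      have h3 : ∀ v, f₁ (g₁ (f₂ v)) = f₂ v := by
        intro v
        have := congrArg (fun L : V →ₗ[ℂ] V => L (f₁ v)) hST
        simp only [LinearMap.comp_apply, IntertwiningMap.toLinearMap_apply, hg₁f] at this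
        exact this
      have hA : ∀ g, (g₁ ∘ₗ f₂.toLinearMap) ∘ₗ ρ g = ρ g ∘ₗ (g₁ ∘ₗ f₂.toLinearMap) := by
        intro g
        ext v
        simp only [LinearMap.comp_apply, IntertwiningMap.toLinearMap_apply]
        rw [f₂.isIntertwining, hg₁c]
      have hsc := schur_scalar ρ _ hA
      refine ⟨((LinearMap.trace ℂ (Fin n → ℂ)) (g₁ ∘ₗ f₂.toLinearMap) /
        (finrank ℂ (Fin n → ℂ) : ℂ)), ?_⟩
      · apply IntertwiningMap.ext
        apply LinearMap.ext
        intro v
        show (_ : ℂ) • f₁ v = f₂ v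
        rw [← h3 v]
        have h4 := congrArg (fun L : _ →ₗ[ℂ] _ => L v) hsc
        simp only [LinearMap.comp_apply, IntertwiningMap.toLinearMap_apply, LinearMap.smul_apply,
          LinearMap.id_apply] at h4
        rw [h4, map_smul]
  rcases Nat.le_one_iff_eq_zero_or_eq_one.mp h2 with h3 | h3 <;> rw [h3]
  · left; simp
  · right; simp

/-- Multiplicity-freeness of the permutation character is equivalent to commutativity of the centraliser ring, i.e. of the algebra of `G`-equivariant endomorphisms of the complex permutation module. -/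
theorem result {G : Type*} [Group G] [Fintype G] {Ω : Type*} [Fintype Ω] [MulAction G Ω] : (∀ χ : G → ℂ, Cfsg.IsIrrCharacter G χ → Cfsg.classInner (fun g : G => (Nat.card (MulAction.fixedBy Ω g) : ℂ)) χ = 0 ∨ Cfsg.classInner (fun g : G => (Nat.card (MulAction.fixedBy Ω g) : ℂ)) χ = 1) ↔ ∀ S T : (Ω → ℂ) →ₗ[ℂ] (Ω → ℂ), S ∈ ((Cfsg.permRep ℂ G Ω).linHom (Cfsg.permRep ℂ G Ω)).invariants → T ∈ ((Cfsg.permRep ℂ G Ω).linHom (Cfsg.permRep ℂ G Ω)).invariants → S ∘ₗ T = T ∘ₗ S := by
  have hc : (fun g : G => (Nat.card (MulAction.fixedBy Ω g) : ℂ)) =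
      (Cfsg.permRep ℂ G Ω).character := by
    funext g
    rw [permRep_character]
  rw [hc]
  constructor
  · intro h S T hS hT
    exact comm_of_multFree _ h (comm_of_mem _ hS) (comm_of_mem _ hT)
  · intro h χ hχ
    exact multFree_of_comm _ (fun S T hS hT => h S T (mem_of_comm _ hS) (mem_of_comm _ hT)) hχ

end Cfsg.Agent.S0718
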