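import Cfsg.Statements.S0719
import Cfsg.Agent.Lib.Helper23.Orbital
import Cfsg.Agent.Lib.Helper25.Twist
import Cfsg.Agent.Lib.Helper25.GaloisVal

set_option autoImplicit false
open Cfsg

namespace Cfsg.Agent.S0719

open Cfsg.Agent.Lib.Helper23.Orbital Cfsg.Agent.Lib.Helper2 Cfsg.Agent.Lib.Helper6
open scoped Classical ComplexConjugate

attribute [local instance] irrFintype

theorem rank_one {V : Type*} [AddCommGroup V] [Module ℂ V] [FiniteDimensional ℂ V]
    (P X : Module.End ℂ V) (hP : IsIdempotentElem P) (htr : LinearMap.trace ℂ V P = 1)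
    (h1 : P * X = X) (h2 : X * P = X) : X = LinearMap.trace ℂ V X • P := by
  have hproj := LinearMap.IsIdempotentElem.isProj_range P hP
  have hfr : (Module.finrank ℂ (LinearMap.range P) : ℂ) = 1 := by rw [← hproj.trace, htr]
  have hfr' : Module.finrank ℂ (LinearMap.range P) = 1 := by exact_mod_cast hfr
  obtain ⟨v, hv0, hv⟩ := finrank_eq_one_iff'.mp hfr'
  obtain ⟨c, hc⟩ := hv ⟨X v.1, by rw [← h1]; exact ⟨X v.1, rfl⟩⟩
  have hc' : c • v.1 = X v.1 := congrArg Subtype.val hc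
  have hX : X = c • P := by
    apply LinearMap.ext; intro w
    obtain ⟨d, hd⟩ := hv ⟨P w, ⟨w, rfl⟩⟩
    have hd' : d • v.1 = P w := congrArg Subtype.val hd
    calc X w = (X * P) w := by rw [h2]
      _ = X (P w) := rfl
      _ = X (d • v.1) := by rw [hd']
      _ = d • X v.1 := map_smul _ _ _
      _ = d • c • v.1 := by rw [hc']
      _ = c • P w := by rw [← hd', smul_comm]
      _ = (c • P) w := rfl
  have : LinearMap.trace ℂ V X = c := by rw [hX, map_smul, htr, smul_eq_mul, mul_one]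
  rw [this]
  exact hX

section ops

variable {G : Type*} [Group G] [Fintype G] {Ω : Type*} [Fintype Ω] [MulAction G Ω]

theorem inv_fix {a : Ω} {h : G} (hh : h • a = a) : h⁻¹ • a = a := by
  rw [inv_smul_eq_iff, hh]

theorem mul_right_mem_xset {a b : Ω} {h y : G} (hh : h • a = a) (hy : y ∈ xset G a b a) :
    y * h ∈ xset G a b a := by
  rw [mem_xset] at hy ⊢
  rwa [mul_smul, hh]

theorem mul_left_mem_xset {a b : Ω} {h y : G} (hh : h • a = a) (hy : y ∈ xset G a b a) :
    h * y ∈ xset G a b a := by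
  rw [mem_xset] at hy ⊢
  obtain ⟨k, hk1, hk2⟩ := hy
  exact ⟨h * k, by rw [mul_smul, hk1, hh], by rw [mul_smul, hk2, mul_smul]⟩

variable {E : Type*} [Ring E] (ρ : G →* E)

/-- the sum over the inverse double coset -/
noncomputable def hk' (a b : Ω) : E := ∑ y ∈ xset G a b a, ρ y⁻¹

theorem hk_mul_rho (a b : Ω) {h : G} (hh : h • a = a) : hk ρ a b * ρ h = hk ρ a b := by
  unfold hk
  rw [Finset.sum_mul]
  refine Finset.sum_nbij' (fun y => y * h) (fun y => y * h⁻¹) ?_ ?_ ?_ ?_ ?_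
  · intro y hy; exact mul_right_mem_xset hh hy
  · intro y hy; exact mul_right_mem_xset (inv_fix hh) hy
  · intro y _; simp
  · intro y _; simp
  · intro y _; rw [map_mul]

theorem hk'_mul_rho (a b : Ω) {h : G} (hh : h • a = a) : hk' ρ a b * ρ h = hk' ρ a b := by
  unfold hk'
  rw [Finset.sum_mul]
  refine Finset.sum_nbij' (fun y => h⁻¹ * y) (fun y => h * y) ?_ ?_ ?_ ?_ ?_
  · intro y hy; exact mul_left_mem_xset (inv_fix hh) hy
  · intro y hy; exact mul_left_mem_xset hh hy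
  · intro y _; simp
  · intro y _; simp
  · intro y _; rw [← map_mul]; congr 1; simp

theorem rho_mul_hk' (a b : Ω) {h : G} (hh : h • a = a) : ρ h * hk' ρ a b = hk' ρ a b := by
  unfold hk'
  rw [Finset.mul_sum]
  refine Finset.sum_nbij' (fun y => y * h⁻¹) (fun y => y * h) ?_ ?_ ?_ ?_ ?_
  · intro y hy; exact mul_right_mem_xset (inv_fix hh) hy
  · intro y hy; exact mul_right_mem_xset hh hy
  · intro y _; simp
  · intro y _; simp
  · intro y _; rw [← map_mul]; congr 1; simp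

end ops

section rep

variable {G : Type*} [Group G] [Fintype G] {Ω : Type*} [Fintype Ω] [MulAction G Ω]
variable {V : Type*} [AddCommGroup V] [Module ℂ V] [FiniteDimensional ℂ V]
  (ρ : Representation ℂ G V)

noncomputable def nhk' (a b : Ω) : Module.End ℂ V := ((fib G a a).card : ℂ)⁻¹ • hk' ρ a b

theorem nhk_mul_pr (a b : Ω) : nhk ρ a b * pr ρ a = nhk ρ a b := by
  unfold nhk pr cs
  rw [mul_smul_comm, Finset.mul_sum]
  have : ∀ h ∈ fib G a a, (((fib G a a).card : ℂ)⁻¹ • hk ρ a b) * ρ h =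
      ((fib G a a).card : ℂ)⁻¹ • hk ρ a b := by
    intro h hh
    rw [smul_mul_assoc, hk_mul_rho ρ a b (mem_fib.mp hh)]
  rw [Finset.sum_congr rfl this, Finset.sum_const, ← Nat.cast_smul_eq_nsmul ℂ,
    inv_smul_smul₀ (card_ne_zero a)]

theorem nhk'_mul_pr (a b : Ω) : nhk' ρ a b * pr ρ a = nhk' ρ a b := by
  unfold nhk' pr cs
  rw [mul_smul_comm, Finset.mul_sum]
  have : ∀ h ∈ fib G a a, (((fib G a a).card : ℂ)⁻¹ • hk' ρ a b) * ρ h =
      ((fib G a a).card : ℂ)⁻¹ • hk' ρ a b := by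
    intro h hh
    rw [smul_mul_assoc, hk'_mul_rho ρ a b (mem_fib.mp hh)]
  rw [Finset.sum_congr rfl this, Finset.sum_const, ← Nat.cast_smul_eq_nsmul ℂ,
    inv_smul_smul₀ (card_ne_zero a)]

theorem pr_mul_nhk' (a b : Ω) : pr ρ a * nhk' ρ a b = nhk' ρ a b := by
  unfold nhk' pr cs
  rw [smul_mul_assoc, Finset.sum_mul]
  have : ∀ h ∈ fib G a a, ρ h * (((fib G a a).card : ℂ)⁻¹ • hk' ρ a b) =
      ((fib G a a).card : ℂ)⁻¹ • hk' ρ a b := by
    intro h hh
    rw [mul_smul_comm, rho_mul_hk' ρ a b (mem_fib.mp hh)]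
  rw [Finset.sum_congr rfl this, Finset.sum_const, ← Nat.cast_smul_eq_nsmul ℂ,
    inv_smul_smul₀ (card_ne_zero a)]

theorem trace_nhk' (a b : Ω) : LinearMap.trace ℂ V (nhk' ρ a b) =
    conj (tau a b ρ.character) := by
  unfold nhk' hk' tau
  rw [map_smul, map_sum, smul_eq_mul, map_mul, map_sum, map_inv₀, Complex.conj_natCast]
  congr 1
  refine Finset.sum_congr rfl fun y _ => ?_
  exact char_inv ρ y

theorem trace_mul (a b : Ω) : LinearMap.trace ℂ V (nhk ρ a b * nhk' ρ a b) =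
    ((fib G a a).card : ℂ)⁻¹ * ((fib G a a).card : ℂ)⁻¹ *
      ∑ y ∈ xset G a b a, ∑ y' ∈ xset G a b a, ρ.character (y * y'⁻¹) := by
  unfold nhk nhk' hk hk'
  rw [smul_mul_smul_comm, map_smul, smul_eq_mul, Finset.sum_mul_sum, map_sum]
  congr 1
  refine Finset.sum_congr rfl fun y _ => ?_
  rw [map_sum]
  refine Finset.sum_congr rfl fun y' _ => ?_
  rw [← map_mul]
  rfl

theorem key [MulAction.IsPretransitive G Ω] (a b : Ω)
    (h : LinearMap.trace ℂ V (pr ρ a) = 1 ∨ ∑ y ∈ fib G a a, ρ.character y = 0) :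
    ((fib G a a).card : ℂ)⁻¹ * ((fib G a a).card : ℂ)⁻¹ *
      ∑ y ∈ xset G a b a, ∑ y' ∈ xset G a b a, ρ.character (y * y'⁻¹) =
    tau a b ρ.character * conj (tau a b ρ.character) := by
  rw [← trace_mul]
  rcases h with h | h
  · have hP := isIdempotentElem_pr ρ a
    have e1 := rank_one (pr ρ a) (nhk ρ a b) hP h (pr_mul_nhk ρ a b) (nhk_mul_pr ρ a b)
    have e2 := rank_one (pr ρ a) (nhk' ρ a b) hP h (pr_mul_nhk' ρ a b) (nhk'_mul_pr ρ a b)
    rw [trace_nhk'] at e2
    rw [trace_nhk] at e1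
    rw [e1, e2, smul_mul_smul_comm, hP.eq, map_smul, h, smul_eq_mul, mul_one]
    rfl
  · have hz := nhk_eq_zero ρ a b h
    have h0 : tau a b ρ.character = 0 := by
      have := trace_nhk ρ a b
      rw [hz, map_zero] at this
      exact this.symm
    rw [hz, zero_mul, map_zero, h0, zero_mul]

end rep

section char

variable {G : Type*} [Group G] [Fintype G] {Ω : Type*} [Fintype Ω] [MulAction G Ω]
  [MulAction.IsPretransitive G Ω]

theorem key_char (a b : Ω) {χ : G → ℂ} (hχ : IsCharacter G χ)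
    (h : ((fib G a a).card : ℂ)⁻¹ * ∑ y ∈ fib G a a, χ y = 1 ∨ ∑ y ∈ fib G a a, χ y = 0) :
    ((fib G a a).card : ℂ)⁻¹ * ((fib G a a).card : ℂ)⁻¹ *
      ∑ y ∈ xset G a b a, ∑ y' ∈ xset G a b a, χ (y * y'⁻¹) =
    tau a b χ * conj (tau a b χ) := by
  obtain ⟨n, ρ, rfl⟩ := hχ
  apply key ρ a b
  rcases h with h | h
  · left; rw [trace_pr]; exact h
  · right; exact h

theorem norm_rel (a b : Ω)
    (hmf : ∀ χ : IrrCharacter G, ((fib G a a).card : ℂ)⁻¹ * ∑ y ∈ fib G a a, (χ : G → ℂ) y = 1 ∨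
      ∑ y ∈ fib G a a, (χ : G → ℂ) y = 0) :
    ∑ χ : IrrCharacter G, (χ : G → ℂ) 1 * (tau a b (χ : G → ℂ) * conj (tau a b (χ : G → ℂ))) =
      (Fintype.card Ω : ℂ) * (Nat.card (MulAction.orbit (MulAction.stabilizer G a) b) : ℂ) := by
  have h1 : ∀ χ : IrrCharacter G,
      (χ : G → ℂ) 1 * (tau a b (χ : G → ℂ) * conj (tau a b (χ : G → ℂ))) =
      ((fib G a a).card : ℂ)⁻¹ * ((fib G a a).card : ℂ)⁻¹ *
        ∑ y ∈ xset G a b a, ∑ y' ∈ xset G a b a, ((χ : G → ℂ) 1 * (χ : G → ℂ) (y * y'⁻¹)) := by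
    intro χ
    rw [← key_char a b (IsIrrCharacter.isCharacter χ.2) (hmf χ)]
    simp only [← Finset.mul_sum]
    ring
  rw [Finset.sum_congr rfl (fun χ _ => h1 χ), ← Finset.mul_sum, Finset.sum_comm]
  have h2 : ∀ y ∈ xset G a b a, ∑ χ : IrrCharacter G, ∑ y' ∈ xset G a b a,
      ((χ : G → ℂ) 1 * (χ : G → ℂ) (y * y'⁻¹)) = (Nat.card G : ℂ) := by
    intro y hy
    rw [Finset.sum_comm]
    simp_rw [sum_degree_mul_irr]
    rw [Finset.sum_eq_single_of_mem y hy]
    · simp
    · intro y' _ hne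
      rw [if_neg]
      intro h
      apply hne
      rw [mul_inv_eq_one] at h
      exact h.symm
  rw [Finset.sum_congr rfl h2, Finset.sum_const, card_xset, card_eq (G := G) a, nsmul_eq_mul]
  push_cast
  have := card_ne_zero (G := G) a
  field_simp

theorem sum_three (F : IrrCharacter G → ℂ) (X0 X1 X2 : IrrCharacter G) (h01 : X0 ≠ X1)
    (h02 : X0 ≠ X2) (h12 : X1 ≠ X2)
    (hF : ∀ χ, χ ≠ X0 → χ ≠ X1 → χ ≠ X2 → F χ = 0) : ∑ χ, F χ = F X0 + F X1 + F X2 := by
  rw [← Finset.sum_subset (Finset.subset_univ {X0, X1, X2})]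
  · rw [Finset.sum_insert (by simp [h01, h02]), Finset.sum_insert (by simp [h12]),
      Finset.sum_singleton, add_assoc]
  · intro χ _ hχ
    simp only [Finset.mem_insert, Finset.mem_singleton, not_or] at hχ
    exact hF χ hχ.1 hχ.2.1 hχ.2.2

end char

theorem int_of_rat_integral {β : ℂ} (hβ : IsIntegral ℤ β) (q : ℚ) (h : β = (q : ℂ)) :
    ∃ z : ℤ, β = (z : ℂ) := by
  rw [h] at hβ
  have h2 : IsIntegral ℤ q := (isIntegral_algebraMap_iff (algebraMap ℚ ℂ).injective).mp hβ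
  obtain ⟨z, hz⟩ := IsIntegrallyClosed.isIntegral_iff.mp h2
  refine ⟨z, ?_⟩
  rw [h, ← hz]
  simp

theorem arith (m k r s : ℤ) (hk2 : 2 ≤ k) (hk : k + 3 ≤ 2 * m) (h1 : k + (m - 1) * r + m * s = 0)
    (h2 : k ^ 2 + (m - 1) * r ^ 2 + m * s ^ 2 = 2 * m * k) :
    ∃ a : ℤ, 0 < a ∧ m = 2 * a ^ 2 + 2 * a + 1 ∧
      (k = a * (2 * a + 1) ∨ k = (a + 1) * (2 * a + 1)) := by
  obtain ⟨t, ht⟩ : ∃ t, t = r + s := ⟨_, rfl⟩
  have hs : s = t - r := by rw [ht]; ring
  have hkk : k = r - m * t := by rw [hs] at h1; linarith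
  have hm : 3 ≤ m := by omega
  have hE : 2 * r ^ 2 - 4 * t * r + (m + 1) * t ^ 2 - 2 * r + 2 * m * t = 0 := by
    have : m * (2 * r ^ 2 - 4 * t * r + (m + 1) * t ^ 2 - 2 * r + 2 * m * t) = 0 := by
      rw [hs, hkk] at h2
      linear_combination h2
    rcases mul_eq_zero.mp this with h | h
    · omega
    · exact h
  have hq : 2 * (m - 1) * (t * (t + 2)) ≤ 1 := by nlinarith [sq_nonneg (2 * r - (2 * t + 1))]
  have hq2 : t * (t + 2) ≤ 0 := by
    by_contra h
    push Not at h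
    nlinarith
  have ht1 : t ≤ 0 := by
    by_contra h
    push Not at h
    nlinarith
  have ht2 : -2 ≤ t := by
    by_contra h
    push Not at h
    nlinarith
  obtain rfl | rfl | rfl : t = 0 ∨ t = -1 ∨ t = -2 := by omega
  · exfalso
    have : r * (r - 1) = 0 := by linarith
    rcases mul_eq_zero.mp this with h | h <;> omega
  · have hm' : m = 2 * r ^ 2 + 2 * r + 1 := by linarith
    have hk' : k = r + m := by linarith
    rcases le_or_gt 1 r with hr | hr
    · exact ⟨r, by omega, hm', Or.inr (by rw [hk', hm']; ring)⟩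
    · rcases le_or_gt r (-2) with hr2 | hr2
      · exact ⟨-r - 1, by omega, by rw [hm']; ring, Or.inl (by rw [hk', hm']; ring)⟩
      · exfalso
        obtain rfl | rfl : r = 0 ∨ r = -1 := by omega
        · omega
        · omega
  · exfalso
    have : (r + 1) * (r + 2) = 0 := by linarith
    rcases mul_eq_zero.mp this with h | h <;> omega

section prim

variable {G : Type*} [Group G] [Fintype G] {Ω : Type*} [Fintype Ω] [MulAction G Ω]

theorem fix_all (hprim : MulAction.IsPreprimitive G Ω) (a b : Ω) (hab : a ≠ b)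
    (hfix : ∀ g : G, g • a = a → g • b = b) : ∀ s : G, s • a = a → ∀ x : Ω, s • x = x := by
  haveI := hprim.toIsPretransitive
  haveI : Nontrivial Ω := ⟨⟨a, b, hab⟩⟩
  have hco : IsCoatom (MulAction.stabilizer G a) :=
    MulAction.IsPreprimitive.isCoatom_stabilizer_of_isPreprimitive G a
  have hcob : IsCoatom (MulAction.stabilizer G b) :=
    MulAction.IsPreprimitive.isCoatom_stabilizer_of_isPreprimitive G b
  have hle : MulAction.stabilizer G a ≤ MulAction.stabilizer G b := fun g hg => hfix g hg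
  have heq : MulAction.stabilizer G b = MulAction.stabilizer G a := (hco.le_iff_eq hcob.1).mp hle
  obtain ⟨g, hg⟩ := MulAction.exists_smul_eq G a b
  have hgN : g ∈ Subgroup.normalizer (MulAction.stabilizer G a : Set G) := by
    rw [Subgroup.mem_normalizer_iff]
    intro h
    conv_rhs => rw [← heq]
    rw [MulAction.mem_stabilizer_iff, MulAction.mem_stabilizer_iff, ← hg]
    simp [mul_smul]
  have hgS : g ∉ MulAction.stabilizer G a := by
    intro h
    rw [MulAction.mem_stabilizer_iff, hg] at h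
    exact hab h.symm
  have hNtop : Subgroup.normalizer (MulAction.stabilizer G a : Set G) = ⊤ := by
    apply hco.2
    exact lt_of_le_of_ne Subgroup.le_normalizer (fun h => hgS (h ▸ hgN))
  intro s hs x
  obtain ⟨h, rfl⟩ := MulAction.exists_smul_eq G a x
  have hh : h ∈ Subgroup.normalizer (MulAction.stabilizer G a : Set G) := by rw [hNtop]; trivial
  have h1 : h⁻¹ * s * h ∈ MulAction.stabilizer G a :=
    (Subgroup.mem_normalizer_iff''.mp hh s).mp hs
  rw [MulAction.mem_stabilizer_iff] at h1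
  calc s • h • a = h • ((h⁻¹ * s * h) • a) := by simp [mul_smul]
    _ = h • a := by rw [h1]

theorem card_quot_of_fix (a : Ω) (h : ∀ s : G, s • a = a → ∀ x : Ω, s • x = x) :
    Nat.card (MulAction.orbitRel.Quotient (MulAction.stabilizer G a) Ω) = Fintype.card Ω := by
  rw [card_eq_sum_orbits (MulAction.stabilizer G a), Nat.card_eq_fintype_card, ← Finset.card_univ,
    Finset.card_eq_sum_ones]
  refine Finset.sum_congr rfl fun q _ => ?_
  induction q using Quotient.inductionOn' with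
  | h x =>
    rw [MulAction.orbitRel.Quotient.orbit_mk]
    have : MulAction.orbit (MulAction.stabilizer G a) x = {x} := by
      ext y
      constructor
      · rintro ⟨s, rfl⟩
        exact h s.1 s.2 x
      · rintro rfl
        exact MulAction.mem_orbit_self _
    rw [this]
    simp

theorem two_le_orbit (hprim : MulAction.IsPreprimitive G Ω) {m : ℕ}
    (hm : Fintype.card Ω = 2 * m) (a : Ω)
    (hrank : Nat.card (MulAction.orbitRel.Quotient (MulAction.stabilizer G a) Ω) = 3)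
    (b : Ω) (hb : b ≠ a) : 2 ≤ Nat.card (MulAction.orbit (MulAction.stabilizer G a) b) := by
  by_contra hlt
  push Not at hlt
  have hsub : Subsingleton (MulAction.orbit (MulAction.stabilizer G a) b) :=
    (Finite.card_le_one_iff_subsingleton).mp (by omega)
  have hfix : ∀ g : G, g • a = a → g • b = b := by
    intro g hg
    have := hsub.elim ⟨g • b, ⟨⟨g, hg⟩, rfl⟩⟩ ⟨b, MulAction.mem_orbit_self b⟩
    exact congrArg Subtype.val this
  have := card_quot_of_fix a (fix_all hprim a b hb.symm hfix)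
  omega

theorem orbit_add_three_le (hprim : MulAction.IsPreprimitive G Ω) {m : ℕ}
    (hm : Fintype.card Ω = 2 * m) (a : Ω)
    (hrank : Nat.card (MulAction.orbitRel.Quotient (MulAction.stabilizer G a) Ω) = 3)
    (b : Ω) (hb : b ≠ a) :
    Nat.card (MulAction.orbit (MulAction.stabilizer G a) b) + 3 ≤ 2 * m := by
  obtain ⟨q0, hq0⟩ : ∃ q0 : MulAction.orbitRel.Quotient (MulAction.stabilizer G a) Ω,
    q0 = Quotient.mk'' a := ⟨_, rfl⟩
  obtain ⟨q1, hq1⟩ : ∃ q1 : MulAction.orbitRel.Quotient (MulAction.stabilizer G a) Ω,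
    q1 = Quotient.mk'' b := ⟨_, rfl⟩
  have hne : ∀ c : Ω, c ≠ a →
      (Quotient.mk'' c : MulAction.orbitRel.Quotient (MulAction.stabilizer G a) Ω) ≠ q0 := by
    intro c hc h
    rw [hq0] at h
    have h' : c ∈ MulAction.orbit (MulAction.stabilizer G a) a := Quotient.eq''.mp h
    obtain ⟨s, hs⟩ := h'
    apply hc
    rw [← hs]
    exact s.2
  have h10 : q1 ≠ q0 := hq1 ▸ hne b hb
  have hbig : ∀ q : MulAction.orbitRel.Quotient (MulAction.stabilizer G a) Ω, q ≠ q0 →
      2 ≤ Nat.card q.orbit := by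
    intro q
    induction q using Quotient.inductionOn' with
    | h c =>
      intro hq
      rw [MulAction.orbitRel.Quotient.orbit_mk]
      apply two_le_orbit hprim hm a hrank c
      rintro rfl
      exact hq hq0.symm
  obtain ⟨q2, h20, h21⟩ : ∃ q2, q2 ≠ q0 ∧ q2 ≠ q1 := by
    by_contra hcon
    push Not at hcon
    have h1 : (Finset.univ : Finset (MulAction.orbitRel.Quotient (MulAction.stabilizer G a) Ω)) ⊆
        {q0, q1} := fun q _ => by
      by_cases h : q = q0
      · simp [h]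
      · simp [hcon q h]
    have h2 := Finset.card_le_card h1
    have h3 := Finset.card_le_two (a := q0) (b := q1)
    rw [Finset.card_univ, ← Nat.card_eq_fintype_card, hrank] at h2
    omega
  have hsum := card_eq_sum_orbits (Ω := Ω) (MulAction.stabilizer G a)
  have hle : ∑ q ∈ {q0, q1, q2}, Nat.card q.orbit ≤
      ∑ q : MulAction.orbitRel.Quotient (MulAction.stabilizer G a) Ω, Nat.card q.orbit :=
    Finset.sum_le_sum_of_subset (Finset.subset_univ _)
  rw [Finset.sum_insert (by simp [h10.symm, h20.symm]), Finset.sum_insert (by simp [h21.symm]),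
    Finset.sum_singleton, ← hsum, hm] at hle
  have e0 : 1 ≤ Nat.card q0.orbit := by
    rw [hq0, MulAction.orbitRel.Quotient.orbit_mk]
    haveI : Nonempty (MulAction.orbit (MulAction.stabilizer G a) a) :=
      ⟨⟨a, MulAction.mem_orbit_self a⟩⟩
    exact Nat.card_pos
  have e1 : Nat.card q1.orbit = Nat.card (MulAction.orbit (MulAction.stabilizer G a) b) := by
    rw [hq1, MulAction.orbitRel.Quotient.orbit_mk]
  have e2 := hbig q2 h20
  omega

end prim

/-- Groups of Wielandt type: if a primitive group of degree `2m` has rank 3 and permutation character `1 + χ₁ + χ₂` with irreducible `χ₁, χ₂` of degrees `m - 1` and `m`, then `m = 2a² + 2a + 1` for some positive integer `a` and the two non-trivial subdegrees are `a(2a+1)` and `(a+1)(2a+1)`. -/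
theorem result {G : Type*} [Group G] [Fintype G] {Ω : Type*} [Fintype Ω] [MulAction G Ω] (hprim : MulAction.IsPreprimitive G Ω) {m : ℕ} (hm : Fintype.card Ω = 2 * m) (a₀ : Ω) (hrank : Nat.card (MulAction.orbitRel.Quotient (MulAction.stabilizer G a₀) Ω) = 3) (χ₁ χ₂ : G → ℂ) (h₁ : Cfsg.IsIrrCharacter G χ₁) (h₂ : Cfsg.IsIrrCharacter G χ₂) (hπ : (fun g : G => (Nat.card (MulAction.fixedBy Ω g) : ℂ)) = fun g => 1 + χ₁ g + χ₂ g) (hd₁ : χ₁ 1 = (m : ℂ) - 1) (hd₂ : χ₂ 1 = m) : ∃ a : ℕ, 0 < a ∧ m = 2 * a ^ 2 + 2 * a + 1 ∧ ∀ b : Ω, b ≠ a₀ → Nat.card (MulAction.orbit (MulAction.stabilizer G a₀) b) = a * (2 * a + 1) ∨ Nat.card (MulAction.orbit (MulAction.stabilizer G a₀) b) = (a + 1) * (2 * a + 1) := by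
  classical
  haveI := hprim.toIsPretransitive
  obtain ⟨π, hπdef⟩ : ∃ π : G → ℂ, π = fun g : G => (Nat.card (MulAction.fixedBy Ω g) : ℂ) :=
    ⟨_, rfl⟩
  have hone : IsIrrCharacter G (fun _ : G => (1 : ℂ)) := isIrrCharacter_one
  have hπ' : π = (fun _ => 1) + χ₁ + χ₂ := by rw [hπdef, hπ]; rfl
  have hin : ∀ χ : G → ℂ, IsIrrCharacter G χ → classInner π χ =
      (if (fun _ : G => (1 : ℂ)) = χ then 1 else 0) + (if χ₁ = χ then 1 else 0) +
        (if χ₂ = χ then 1 else 0) := by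
    intro χ hχ
    rw [hπ', classInner_add_left, classInner_add_left, classInner_irr hone hχ,
      classInner_irr h₁ hχ, classInner_irr h₂ hχ]
  have hne12 : χ₁ ≠ χ₂ := by
    intro h
    rw [h, hd₂] at hd₁
    have : (1 : ℂ) = 0 := by linear_combination hd₁
    exact one_ne_zero this
  have htriv : classInner π (fun _ => 1) = 1 := by rw [hπdef]; exact mult_triv a₀
  have hne01 : (fun _ : G => (1 : ℂ)) ≠ χ₁ := by
    intro h
    have h3 := hin _ hone
    rw [htriv, if_pos rfl, if_pos h.symm] at h3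
    split_ifs at h3 <;> norm_num at h3
  have hne02 : (fun _ : G => (1 : ℂ)) ≠ χ₂ := by
    intro h
    have h3 := hin _ hone
    rw [htriv, if_pos rfl, if_pos h.symm] at h3
    split_ifs at h3 <;> norm_num at h3
  have hin1 : classInner π χ₁ = 1 := by
    rw [hin _ h₁, if_neg hne01, if_pos rfl, if_neg hne12.symm]; norm_num
  have hin2 : classInner π χ₂ = 1 := by
    rw [hin _ h₂, if_neg hne02, if_neg hne12, if_pos rfl]; norm_num
  have hin0 : ∀ χ : G → ℂ, IsIrrCharacter G χ → χ ≠ (fun _ => 1) → χ ≠ χ₁ → χ ≠ χ₂ →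
      classInner π χ = 0 := by
    intro χ hχ e0 e1 e2
    rw [hin _ hχ, if_neg (Ne.symm e0), if_neg (Ne.symm e1), if_neg (Ne.symm e2)]; norm_num
  have hval : ∀ χ : G → ℂ, IsIrrCharacter G χ →
      ((fib G a₀ a₀).card : ℂ)⁻¹ * ∑ y ∈ fib G a₀ a₀, χ y = conj (classInner π χ) := by
    intro χ hχ
    rw [hπdef, classInner_perm a₀ (irr_isClassFunction hχ), map_mul, map_inv₀,
      Complex.conj_natCast, map_sum]
    simp only [Complex.conj_conj]
  have hzero : ∀ χ : G → ℂ, IsIrrCharacter G χ → χ ≠ (fun _ => 1) → χ ≠ χ₁ → χ ≠ χ₂ →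
      ∑ y ∈ fib G a₀ a₀, χ y = 0 := by
    intro χ hχ e0 e1 e2
    have h3 := hval χ hχ
    rw [hin0 χ hχ e0 e1 e2, map_zero] at h3
    rcases mul_eq_zero.mp h3 with h4 | h4
    · exact absurd h4 (inv_ne_zero (card_ne_zero a₀))
    · exact h4
  have hmf : ∀ χ : IrrCharacter G,
      ((fib G a₀ a₀).card : ℂ)⁻¹ * ∑ y ∈ fib G a₀ a₀, (χ : G → ℂ) y = 1 ∨
      ∑ y ∈ fib G a₀ a₀, (χ : G → ℂ) y = 0 := by
    intro χ
    by_cases e0 : (χ : G → ℂ) = fun _ => 1
    · left; rw [hval _ χ.2, e0, htriv, map_one]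
    by_cases e1 : (χ : G → ℂ) = χ₁
    · left; rw [hval _ χ.2, e1, hin1, map_one]
    by_cases e2 : (χ : G → ℂ) = χ₂
    · left; rw [hval _ χ.2, e2, hin2, map_one]
    right
    exact hzero _ χ.2 e0 e1 e2
  -- rationality of χ₁
  have htw : ∀ j : ℕ, j.Coprime (Nat.card G) → Cfsg.Agent.Lib.Helper25.Twist.tw j χ₁ = χ₁ := by
    intro j hj
    have hirr := Cfsg.Agent.Lib.Helper25.Twist.isIrr_tw hj h₁
    have hπtw : Cfsg.Agent.Lib.Helper25.Twist.tw j π = π := by
      funext g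
      rw [hπdef]
      show (Nat.card (MulAction.fixedBy Ω (g ^ j)) : ℂ) = Nat.card (MulAction.fixedBy Ω g)
      have : MulAction.fixedBy Ω (g ^ j) = MulAction.fixedBy Ω g := by
        ext ω
        exact Cfsg.Agent.Lib.Helper25.Twist.pow_mem_iff (MulAction.stabilizer G ω) hj g
      rw [this]
    have h3 : classInner π (Cfsg.Agent.Lib.Helper25.Twist.tw j χ₁) = 1 := by
      rw [← hπtw, Cfsg.Agent.Lib.Helper25.Twist.classInner_tw hj, hin1]
    by_contra hne
    have e0 : Cfsg.Agent.Lib.Helper25.Twist.tw j χ₁ ≠ fun _ => 1 := by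
      intro h
      have h4 : classInner (Cfsg.Agent.Lib.Helper25.Twist.tw j χ₁)
          (Cfsg.Agent.Lib.Helper25.Twist.tw j (fun _ => 1)) = 0 := by
        rw [Cfsg.Agent.Lib.Helper25.Twist.classInner_tw hj, classInner_irr h₁ hone,
          if_neg hne01.symm]
      have h5 : Cfsg.Agent.Lib.Helper25.Twist.tw j (fun _ : G => (1 : ℂ)) = fun _ => 1 := rfl
      rw [h5, h, classInner_irr hone hone, if_pos rfl] at h4
      exact one_ne_zero h4
    have e2 : Cfsg.Agent.Lib.Helper25.Twist.tw j χ₁ ≠ χ₂ := by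
      intro h
      have h4 := congrFun h 1
      rw [Cfsg.Agent.Lib.Helper25.Twist.tw_apply, one_pow, hd₁, hd₂] at h4
      have : (1 : ℂ) = 0 := by linear_combination -h4
      exact one_ne_zero this
    rw [hin0 _ hirr e0 hne e2] at h3
    exact zero_ne_one h3
  have hrat : ∀ g : G, ∃ q : ℚ, χ₁ g = (q : ℂ) := fun g =>
    Cfsg.Agent.Lib.Helper25.GaloisVal.rat_of_apply_pow (IsIrrCharacter.isCharacter h₁) g
      (fun j hj => congrFun (htw j hj) g)
  choose qv hqv using hrat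
  -- the per-orbit statement
  have per : ∀ b : Ω, b ≠ a₀ → ∃ a : ℕ, 0 < a ∧ m = 2 * a ^ 2 + 2 * a + 1 ∧
      (Nat.card (MulAction.orbit (MulAction.stabilizer G a₀) b) = a * (2 * a + 1) ∨
        Nat.card (MulAction.orbit (MulAction.stabilizer G a₀) b) = (a + 1) * (2 * a + 1)) := by
    intro b hb
    obtain ⟨k, hk⟩ : ∃ k, k = Nat.card (MulAction.orbit (MulAction.stabilizer G a₀) b) :=
      ⟨_, rfl⟩
    have hk2 : 2 ≤ k := hk ▸ two_le_orbit hprim hm a₀ hrank b hb
    have hk3 : k + 3 ≤ 2 * m := hk ▸ orbit_add_three_le hprim hm a₀ hrank b hb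
    let X0 : IrrCharacter G := ⟨fun _ => 1, hone⟩
    let X1 : IrrCharacter G := ⟨χ₁, h₁⟩
    let X2 : IrrCharacter G := ⟨χ₂, h₂⟩
    have h01 : X0 ≠ X1 := fun h => hne01 (congrArg Subtype.val h)
    have h02 : X0 ≠ X2 := fun h => hne02 (congrArg Subtype.val h)
    have h12 : X1 ≠ X2 := fun h => hne12 (congrArg Subtype.val h)
    have htau0 : ∀ χ : IrrCharacter G, χ ≠ X0 → χ ≠ X1 → χ ≠ X2 →
        tau a₀ b (χ : G → ℂ) = 0 := by
      intro χ e0 e1 e2
      apply tau_eq_zero a₀ b (IsIrrCharacter.isCharacter χ.2)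
      exact hzero _ χ.2 (fun h => e0 (Subtype.ext h)) (fun h => e1 (Subtype.ext h))
        (fun h => e2 (Subtype.ext h))
    have rel1 := sum_tau (G := G) hb
    rw [sum_three _ X0 X1 X2 h01 h02 h12
      (fun χ e0 e1 e2 => by rw [htau0 χ e0 e1 e2, mul_zero])] at rel1
    have rel2 := norm_rel (G := G) a₀ b hmf
    rw [sum_three _ X0 X1 X2 h01 h02 h12
      (fun χ e0 e1 e2 => by rw [htau0 χ e0 e1 e2, zero_mul, mul_zero])] at rel2
    have ht0 : tau a₀ b (X0 : G → ℂ) = (k : ℂ) := by rw [hk]; exact tau_one a₀ b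
    obtain ⟨r, hr⟩ : ∃ r, r = tau a₀ b χ₁ := ⟨_, rfl⟩
    obtain ⟨s, hs⟩ : ∃ s, s = tau a₀ b χ₂ := ⟨_, rfl⟩
    have hx0 : (X0 : G → ℂ) 1 = 1 := rfl
    have hx1 : (X1 : G → ℂ) = χ₁ := rfl
    have hx2 : (X2 : G → ℂ) = χ₂ := rfl
    rw [ht0, hx0, hx1, hx2, hd₁, hd₂, ← hr, ← hs] at rel1 rel2
    rw [← hk, hm] at rel2
    have hm0 : (m : ℂ) ≠ 0 := by
      have : m ≠ 0 := by omega
      exact_mod_cast this
    obtain ⟨zr, hzr⟩ : ∃ z : ℤ, r = (z : ℂ) := by
      apply int_of_rat_integral (hr ▸ isIntegral_tau a₀ b (IsIrrCharacter.isCharacter h₁))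
        (((fib G a₀ a₀).card : ℚ)⁻¹ * ∑ y ∈ xset G a₀ b a₀, qv y)
      rw [hr]
      unfold tau
      push_cast
      simp only [hqv]
    obtain ⟨zs, hzs⟩ : ∃ z : ℤ, s = (z : ℂ) := by
      apply int_of_rat_integral (hs ▸ isIntegral_tau a₀ b (IsIrrCharacter.isCharacter h₂))
        ((-(k : ℚ) - ((m : ℚ) - 1) * zr) / m)
      push_cast
      rw [eq_div_iff hm0, ← hzr]
      linear_combination rel1
    rw [hzr, hzs] at rel1 rel2
    simp only [Complex.conj_natCast, map_intCast] at rel2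
    have r1 : (k : ℤ) + ((m : ℤ) - 1) * zr + (m : ℤ) * zs = 0 := by
      have : (((k : ℤ) + ((m : ℤ) - 1) * zr + (m : ℤ) * zs : ℤ) : ℂ) = ((0 : ℤ) : ℂ) := by
        push_cast
        linear_combination rel1
      exact_mod_cast this
    have r2 : (k : ℤ) ^ 2 + ((m : ℤ) - 1) * zr ^ 2 + (m : ℤ) * zs ^ 2 = 2 * (m : ℤ) * k := by
      have : (((k : ℤ) ^ 2 + ((m : ℤ) - 1) * zr ^ 2 + (m : ℤ) * zs ^ 2 : ℤ) : ℂ) =
          ((2 * (m : ℤ) * k : ℤ) : ℂ) := by
        push_cast
        push_cast at rel2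
        linear_combination rel2
      exact_mod_cast this
    obtain ⟨a, ha, hma, hka⟩ := arith (m : ℤ) (k : ℤ) zr zs (by omega) (by omega) r1 r2
    obtain ⟨a', rfl⟩ := Int.eq_ofNat_of_zero_le ha.le
    refine ⟨a', by omega, by exact_mod_cast hma, ?_⟩
    rw [← hk]
    rcases hka with h | h
    · left; exact_mod_cast h
    · right; exact_mod_cast h
  have hex : ∃ b : Ω, b ≠ a₀ := by
    by_contra hcon
    push Not at hcon
    have : Fintype.card Ω ≤ 1 := Fintype.card_le_one_iff.mpr fun x y => by rw [hcon x, hcon y]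
    have h3 : Nat.card (MulAction.orbitRel.Quotient (MulAction.stabilizer G a₀) Ω) ≤
        Nat.card Ω := Nat.card_le_card_of_surjective _ Quotient.mk''_surjective
    rw [Nat.card_eq_fintype_card (α := Ω)] at h3
    omega
  obtain ⟨b₀, hb₀⟩ := hex
  obtain ⟨a, ha, hma, -⟩ := per b₀ hb₀
  refine ⟨a, ha, hma, ?_⟩
  intro b hb
  obtain ⟨a', ha', hma', hk'⟩ := per b hb
  have : a' = a := by
    rcases lt_trichotomy a' a with h | h | h
    · exfalso; nlinarith
    · exact h
    · exfalso; nlinarith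
  rw [this] at hk'
  exact hk'

end Cfsg.Agent.S0719
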