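import Cfsg.Statements.S0722

set_option autoImplicit false
open Cfsg

namespace Cfsg.Agent.S0722

/-- In a primitive group `H`, with `N` a minimal normal subgroup and `K` a point stabiliser, `K ⊓ N` is maximal among proper `K`-invariant subgroups of `N`. -/
theorem result {α : Type*} [Finite α] (H : Subgroup (Equiv.Perm α)) [MulAction.IsPreprimitive H α] (N : Subgroup H) [N.Normal] (hN : N ≠ ⊥) (hmin : ∀ M : Subgroup H, M.Normal → M ≤ N → M = ⊥ ∨ M = N) (a : α) (X : Subgroup H) (hX : X ≤ N) (hKX : MulAction.stabilizer H a ⊓ N ≤ X) (hinv : MulAction.stabilizer H a ≤ Subgroup.normalizer (X : Set H)) : X = MulAction.stabilizer H a ⊓ N ∨ X = N := by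
  rcases subsingleton_or_nontrivial α with hs | hnt
  · exfalso; apply hN
    rw [eq_bot_iff]; intro x _; rw [Subgroup.mem_bot]; exact Subsingleton.elim _ _
  have hco := MulAction.IsPreprimitive.isCoatom_stabilizer_of_isPreprimitive (G := H) a
  set K := MulAction.stabilizer H a
  rcases eq_or_ne (K ⊔ X) K with h1 | h1
  · left
    apply le_antisymm _ hKX
    exact le_inf (by rw [← h1]; exact le_sup_right) hX
  · right
    have htop : K ⊔ X = ⊤ := hco.2 _ (lt_of_le_of_ne le_sup_left (Ne.symm h1))
    apply le_antisymm hX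
    intro n hn
    have : n ∈ ((K ⊔ X : Subgroup H) : Set H) := by rw [htop]; trivial
    rw [Subgroup.coe_mul_of_left_le_normalizer_right K X hinv, Set.mem_mul] at this
    obtain ⟨k, hk, x, hx, rfl⟩ := this
    have hkN : k ∈ N := by
      have := mul_mem hn (inv_mem (hX hx))
      simpa using this
    exact mul_mem (hKX ⟨hk, hkN⟩) hx

end Cfsg.Agent.S0722
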