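import Cfsg.Statements.S0724
import Mathlib
import Cfsg.Agent.Lib.Helper19.Derangement

set_option autoImplicit false
open Cfsg

namespace Cfsg.Agent.S0724

/-- Blichfeldt's Theorem: if a finite set `L` of natural numbers contains the number of fixed points of every non-identity element of a permutation group `G` of degree `n`, then the order of `G` divides `∏ (n - l)` over `l ∈ L`. -/
theorem result {α : Type*} [Fintype α] [DecidableEq α] (G : Subgroup (Equiv.Perm α)) (L : Finset ℕ) (hL : ∀ g ∈ G, g ≠ 1 → Nat.card (MulAction.fixedBy α g) ∈ L) : Nat.card G ∣ ∏ l ∈ L, (Fintype.card α - l) := by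
  classical
  haveI : Fintype G := Fintype.ofFinite G
  by_cases hbig : ∃ l ∈ L, Fintype.card α ≤ l
  · obtain ⟨l, hl, hle⟩ := hbig
    rw [Finset.prod_eq_zero hl (Nat.sub_eq_zero_of_le hle)]
    exact dvd_zero _
  push Not at hbig
  let π : G → ℕ := fun g => Nat.card (MulAction.fixedBy α g)
  have hpow : ∀ k : ℕ, Nat.card G ∣ ∑ g : G, π g ^ k := by
    intro k
    have h1 := Cfsg.Agent.Lib.Helper19.burnside_natCard G (Fin k → α)
    have h2 : ∀ g : G, Nat.card (MulAction.fixedBy (Fin k → α) g) = π g ^ k := by
      intro g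
      have : MulAction.fixedBy (Fin k → α) g ≃ (Fin k → MulAction.fixedBy α g) :=
        { toFun := fun x i => ⟨x.1 i, congrFun x.2 i⟩
          invFun := fun x => ⟨fun i => (x i).1, funext fun i => (x i).2⟩
          left_inv := fun x => rfl
          right_inv := fun x => rfl }
      rw [Nat.card_congr this, Nat.card_fun, Nat.card_eq_fintype_card (α := Fin k), Fintype.card_fin]
    simp only [h2] at h1
    rw [h1]
    exact Dvd.intro_left _ rfl
  have hpoly : ∀ P : Polynomial ℤ, (Nat.card G : ℤ) ∣ ∑ g : G, P.eval (π g : ℤ) := by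
    intro P
    simp only [Polynomial.eval_eq_sum_range]
    rw [Finset.sum_comm]
    apply Finset.dvd_sum
    intro i _
    rw [← Finset.mul_sum]
    apply Dvd.dvd.mul_left
    have := hpow i
    exact_mod_cast this
  have h1 := hpoly (∏ l ∈ L, (Polynomial.X - Polynomial.C (l : ℤ)))
  have h2 : ∑ g : G, (∏ l ∈ L, (Polynomial.X - Polynomial.C (l : ℤ))).eval (π g : ℤ) =
      ((∏ l ∈ L, (Fintype.card α - l) : ℕ) : ℤ) := by
    rw [Finset.sum_eq_single (1 : G)]
    · rw [Polynomial.eval_prod]
      push_cast
      apply Finset.prod_congr rfl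
      intro l hl
      have hπ1 : π 1 = Fintype.card α := by
        show Nat.card (MulAction.fixedBy α (1 : G)) = _
        have : MulAction.fixedBy α (1 : G) = Set.univ := by
          ext x; simp [MulAction.mem_fixedBy]
        rw [this, Nat.card_coe_set_eq, Set.ncard_univ, Nat.card_eq_fintype_card]
      rw [hπ1, Nat.cast_sub (hbig l hl).le]
      simp
    · intro g _ hg
      rw [Polynomial.eval_prod]
      have hmem : π g ∈ L := hL g.1 g.2 (fun h => hg (Subtype.ext h))
      apply Finset.prod_eq_zero hmem
      simp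
    · intro h; exact absurd (Finset.mem_univ _) h
  rw [h2] at h1
  exact_mod_cast h1

end Cfsg.Agent.S0724
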