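import Cfsg.Statements.S0726
import Mathlib

set_option autoImplicit false
open Cfsg

namespace Cfsg.Agent.S0726

/-- The left and right regular permutation representations of a group are each other's centralisers in the symmetric group: the centraliser of the left regular image is the right regular image, and a transitive subgroup centralising the left regular image is the whole right regular image. -/
theorem result {G : Type*} [Group G] : Subgroup.centralizer ((MulAction.toPermHom G G).range : Set (Equiv.Perm G)) = (MulAction.toPermHom Gᵐᵒᵖ G).range ∧ ∀ H : Subgroup (Equiv.Perm G), H ≤ Subgroup.centralizer ((MulAction.toPermHom G G).range : Set (Equiv.Perm G)) → MulAction.IsPretransitive H G → H = (MulAction.toPermHom Gᵐᵒᵖ G).range := by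
  have key : ∀ c : Equiv.Perm G,
      c ∈ Subgroup.centralizer ((MulAction.toPermHom G G).range : Set (Equiv.Perm G)) →
      c = MulAction.toPermHom Gᵐᵒᵖ G (MulOpposite.op (c 1)) := by
    intro c hc
    ext x
    have := hc (MulAction.toPermHom G G x) ⟨x, rfl⟩
    have h2 := congrArg (fun f : Equiv.Perm G => f 1) this
    simp at h2
    simp [h2]
  have h1 : Subgroup.centralizer ((MulAction.toPermHom G G).range : Set (Equiv.Perm G)) =
      (MulAction.toPermHom Gᵐᵒᵖ G).range := by
    apply le_antisymm
    · intro c hc
      exact ⟨_, (key c hc).symm⟩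
    · rintro _ ⟨r, rfl⟩
      rw [Subgroup.mem_centralizer_iff]
      rintro _ ⟨g, rfl⟩
      ext x
      simp [mul_assoc]
  refine ⟨h1, ?_⟩
  intro H hH ht
  apply le_antisymm (h1 ▸ hH)
  rintro _ ⟨r, rfl⟩
  obtain ⟨h, hh⟩ := MulAction.exists_smul_eq H (1 : G) (MulOpposite.unop r)
  have := key h.1 (hH h.2)
  have h3 : (h : Equiv.Perm G) 1 = MulOpposite.unop r := hh
  rw [h3, MulOpposite.op_unop] at this
  rw [← this]; exact h.2

end Cfsg.Agent.S0726
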