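import Cfsg.Statements.S0728
import Mathlib
import Cfsg.Agent.Lib.Helper5.W3
import Cfsg.Agent.Lib.Helper5.MultiTrans

set_option autoImplicit false
open Cfsg

namespace Cfsg.Agent.S0728

open MulAction Cfsg.Agent.Lib.Helper5 Cfsg.Agent.H5B2T Cfsg.Agent.H5W3

lemma sharp_of {α : Type*} {G : Type*} [Group G] [MulAction G α]
    (hsharp : ∀ x : Fin 3 ↪ α, MulAction.stabilizer G x = ⊥) (g : G) (u v w : α)
    (huv : u ≠ v) (huw : u ≠ w) (hvw : v ≠ w) (h1 : g • u = u) (h2 : g • v = v) (h3 : g • w = w) :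
    g = 1 := by
  let e : Fin 3 ↪ α := ⟨![u, v, w], by
    intro i j hij
    fin_cases i <;> fin_cases j <;> simp_all⟩
  have : g ∈ MulAction.stabilizer G e := by
    rw [MulAction.mem_stabilizer_iff]
    ext i
    show g • e i = e i
    fin_cases i
    · exact h1
    · exact h2
    · exact h3
  rw [hsharp e] at this
  exact Subgroup.mem_bot.1 this

/-- the key claim -/
lemma key {α : Type*} {G : Type*} [Group G] [MulAction G α]
    (sharp : ∀ (g : G) (u v w : α), u ≠ v → u ≠ w → v ≠ w → g • u = u → g • v = v → g • w = w → g = 1)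
    (tr : ∀ (a b c a' b' c' : α), a ≠ b → a ≠ c → b ≠ c → a' ≠ b' → a' ≠ c' → b' ≠ c' →
      ∃ g : G, g • a = a' ∧ g • b = b' ∧ g • c = c')
    (a b c : α) (hab : a ≠ b) (hca : c ≠ a) (hcb : c ≠ b) (t t' : G)
    (ht1 : t ≠ 1) (ht3 : t ^ 3 = 1) (hta : t • a = a) (htb : t • b = b)
    (ht1' : t' ≠ 1) (ht3' : t' ^ 3 = 1) (hta' : t' • a = a) (htb' : t' • b = b) :
    ∃ g : G, g * t * g⁻¹ = t' ∧ g • c = c ∧ ((g • a = a ∧ g • b = b) ∨ (g • a = b ∧ g • b = a)) := by
  have dist : ∀ s : G, s ≠ 1 → s ^ 3 = 1 → s • a = a → s • b = b →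
      c ≠ s • c ∧ c ≠ s • s • c ∧ s • c ≠ s • s • c ∧ s • s • s • c = c := by
    intro s hs1 hs3 hsa hsb
    have h0 : s • c ≠ c := fun h => hs1 (sharp s a b c hab hca.symm hcb.symm hsa hsb h)
    have h3 : s • s • s • c = c := by
      rw [← mul_smul, ← mul_smul, ← pow_two, ← pow_succ, hs3, one_smul]
    refine ⟨h0.symm, ?_, ?_, h3⟩
    · intro h
      apply h0
      have := congrArg (fun z => s • z) h
      simp only [h3] at this
      exact this
    · intro h
      exact h0 (smul_left_cancel s h).symm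
  obtain ⟨d1, d2, d3, d4⟩ := dist t ht1 ht3 hta htb
  obtain ⟨e1, e2, e3, e4⟩ := dist t' ht1' ht3' hta' htb'
  obtain ⟨g, g1, g2, g3⟩ := tr c (t • c) (t • t • c) c (t' • c) (t' • t' • c) d1 d2 d3 e1 e2 e3
  have hconj : g * t * g⁻¹ = t' := by
    have : t'⁻¹ * (g * t * g⁻¹) = 1 := by
      apply sharp _ c (t' • c) (t' • t' • c) e1 e2 e3
      · rw [mul_smul, mul_smul, mul_smul]
        have : g⁻¹ • c = c := by rw [inv_smul_eq_iff, g1]
        rw [this, g2, inv_smul_smul]
      · rw [mul_smul, mul_smul, mul_smul]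
        have : g⁻¹ • t' • c = t • c := by rw [inv_smul_eq_iff, g2]
        rw [this, g3, inv_smul_smul]
      · rw [mul_smul, mul_smul, mul_smul]
        have : g⁻¹ • t' • t' • c = t • t • c := by rw [inv_smul_eq_iff, g3]
        rw [this, d4, g1, inv_smul_eq_iff, e4]
    rw [inv_mul_eq_one] at this
    exact this.symm
  have fixp : ∀ z : α, t' • z = z → z = a ∨ z = b := by
    intro z hz
    by_contra hcon
    push Not at hcon
    exact ht1' (sharp t' a b z hab hcon.1.symm hcon.2.symm hta' htb' hz)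
  have fa : t' • (g • a) = g • a := by
    rw [← hconj, mul_smul, mul_smul, inv_smul_smul, hta]
  have fb : t' • (g • b) = g • b := by
    rw [← hconj, mul_smul, mul_smul, inv_smul_smul, htb]
  have hne : g • a ≠ g • b := fun h => hab (smul_left_cancel g h)
  refine ⟨g, hconj, g1, ?_⟩
  rcases fixp _ fa with h1 | h1 <;> rcases fixp _ fb with h2 | h2
  · exact absurd (h1.trans h2.symm) hne
  · exact Or.inl ⟨h1, h2⟩
  · exact Or.inr ⟨h1, h2⟩
  · exact absurd (h1.trans h2.symm) hne

/-- In a sharply triply transitive group of even degree at least 6 (degree `q + 1`, `q` odd), a two-point stabiliser has at most one subgroup of order 3. -/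
theorem result {α : Type*} [Fintype α] [DecidableEq α] (heven : Even (Fintype.card α)) (h6 : 6 ≤ Fintype.card α) (G : Subgroup (Equiv.Perm α)) (h3 : MulAction.IsMultiplyPretransitive G α 3) (hsharp : ∀ x : Fin 3 ↪ α, MulAction.stabilizer G x = ⊥) {a b : α} (hab : a ≠ b) (A B : Subgroup G) (hA : A ≤ MulAction.stabilizer G a ⊓ MulAction.stabilizer G b) (hB : B ≤ MulAction.stabilizer G a ⊓ MulAction.stabilizer G b) (hA3 : Nat.card A = 3) (hB3 : Nat.card B = 3) : A = B := by
  have hc : Nat.card α = Fintype.card α := Nat.card_eq_fintype_card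
  have h3c : 3 ≤ Nat.card α := by rw [hc]; omega
  have hG2 : IsMultiplyPretransitive G α 2 :=
    isMultiplyPretransitive_of_le (n := 3) (by norm_num) h3c
  have h2 : TT G α := tt_of hG2
  have hT3 : T3 G α := by
    intro a b hab c d hca hcb hda hdb
    have hz : ({a, b} : Finset α).card < 3 := by
      rw [Finset.card_pair hab]; norm_num
    obtain ⟨g, hg, hg'⟩ := fixTrans_of_multi 3 h3c h3 ({a, b} : Finset α) hz c d
      (by simp [hca, hcb]) (by simp [hda, hdb])
    exact ⟨g, hg a (by simp), hg b (by simp), hg'⟩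
  have tr := t3' h2 hT3
  have sharp := sharp_of (G := G) hsharp
  -- a third point
  obtain ⟨c, hcz⟩ : ∃ c, c ∉ ({a, b} : Finset α) := by
    by_contra hcon
    push Not at hcon
    have : ({a, b} : Finset α) = Finset.univ := Finset.eq_univ_iff_forall.mpr hcon
    have h4 := Finset.card_pair hab
    rw [this, Finset.card_univ] at h4
    omega
  simp only [Finset.mem_insert, Finset.mem_singleton, not_or] at hcz
  obtain ⟨hca, hcb⟩ : c ≠ a ∧ c ≠ b := hcz
  -- properties of elements of a subgroup of order three inside the stabiliser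
  have prop : ∀ C : Subgroup G, C ≤ MulAction.stabilizer G a ⊓ MulAction.stabilizer G b → Nat.card C = 3 →
      ∀ y ∈ C, y ^ 3 = 1 ∧ y • a = a ∧ y • b = b := by
    intro C hC hC3 y hy
    have h1 := hC hy
    rw [Subgroup.mem_inf, mem_stabilizer_iff, mem_stabilizer_iff] at h1
    refine ⟨?_, h1.1, h1.2⟩
    have : (⟨y, hy⟩ : C) ^ Nat.card C = 1 := pow_card_eq_one'
    rw [hC3] at this
    exact congrArg Subtype.val this
  -- a nontrivial element of A
  obtain ⟨x, hxA, hx1⟩ : ∃ x ∈ A, x ≠ 1 := by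
    by_contra hcon
    push Not at hcon
    have : A = ⊥ := (Subgroup.eq_bot_iff_forall A).2 hcon
    rw [this] at hA3
    simp at hA3
  obtain ⟨hx3, hxa, hxb⟩ := prop A hA hA3 x hxA
  have hxi1 : x⁻¹ ≠ 1 := by simpa using hx1
  have hxi3 : x⁻¹ ^ 3 = 1 := by rw [inv_pow, hx3, inv_one]
  have hxia : x⁻¹ • a = a := by rw [inv_smul_eq_iff, hxa]
  have hxib : x⁻¹ • b = b := by rw [inv_smul_eq_iff, hxb]
  obtain ⟨g₁, c1, c2, c3⟩ := key sharp tr a b c hab hca hcb x x⁻¹ hx1 hx3 hxa hxb hxi1 hxi3 hxia hxib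
  have hsw : g₁ • a = b ∧ g₁ • b = a := by
    rcases c3 with h | h
    · exfalso
      have : g₁ = 1 := sharp g₁ a b c hab hca.symm hcb.symm h.1 h.2 c2
      rw [this] at c1
      simp only [one_mul, inv_one, mul_one] at c1
      -- x = x⁻¹ so x^2 = 1, x = x^3 * (x^2)⁻¹ = 1
      have h2 : x * x = 1 := by
        nth_rewrite 2 [c1]
        exact mul_inv_cancel x
      apply hx1
      have : x ^ 3 = x * x * x := by rw [pow_succ, pow_two]
      rw [this, h2, one_mul] at hx3
      exact hx3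
    · exact h
  have hBA : B ≤ A := by
    intro y hyB
    by_cases hy1 : y = 1
    · rw [hy1]; exact A.one_mem
    obtain ⟨hy3, hya, hyb⟩ := prop B hB hB3 y hyB
    obtain ⟨g₂, k1, k2, k3⟩ := key sharp tr a b c hab hca hcb x y hx1 hx3 hxa hxb hy1 hy3 hya hyb
    rcases k3 with h | h
    · have : g₂ = 1 := sharp g₂ a b c hab hca.symm hcb.symm h.1 h.2 k2
      rw [this] at k1
      simp only [one_mul, inv_one, mul_one] at k1
      rw [← k1]; exact hxA
    · have : g₁⁻¹ * g₂ = 1 := by
        apply sharp _ a b c hab hca.symm hcb.symm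
        · rw [mul_smul, h.1, inv_smul_eq_iff, hsw.1]
        · rw [mul_smul, h.2, inv_smul_eq_iff, hsw.2]
        · rw [mul_smul, k2, inv_smul_eq_iff, c2]
      rw [inv_mul_eq_one] at this
      rw [← this, c1] at k1
      rw [← k1]; exact A.inv_mem hxA
  exact (Subgroup.eq_of_le_of_card_ge hBA (by rw [hA3, hB3])).symm

end Cfsg.Agent.S0728
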