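import Cfsg.Statements.S0733
import Mathlib

set_option autoImplicit false
open Cfsg

namespace Cfsg.Agent.S0733

open scoped Pointwise

/-- A permutation group of affine type — generated by the translations of a finite vector space `V` over `ZMod p` together with a group `G₀` of linear automorphisms — is primitive on `V` if and only if `G₀` is irreducible on `V`. -/
theorem result {p : ℕ} [Fact p.Prime] {V : Type*} [AddCommGroup V] [Module (ZMod p) V] [Finite V] [Nontrivial V] (G₀ : Subgroup (V ≃ₗ[ZMod p] V)) (G : Subgroup (Equiv.Perm V)) (hG : ∀ σ : Equiv.Perm V, σ ∈ G ↔ ∃ g ∈ G₀, ∃ b : V, ∀ x : V, σ x = (g : V ≃ₗ[ZMod p] V) x + b) : MulAction.IsPreprimitive G V ↔ ∀ W : Submodule (ZMod p) V, (∀ g ∈ G₀, ∀ v ∈ W, (g : V ≃ₗ[ZMod p] V) v ∈ W) → W = ⊥ ∨ W = ⊤ := by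
  classical
  -- translations
  have htr : ∀ b : V, ∃ σ : G, ∀ x : V, σ • x = x + b := by
    intro b
    refine ⟨⟨Equiv.addRight b, (hG _).mpr ⟨1, G₀.one_mem, b, fun x => rfl⟩⟩, fun x => rfl⟩
  have hlin : ∀ g ∈ G₀, ∃ σ : G, ∀ x : V, σ • x = (g : V ≃ₗ[ZMod p] V) x := by
    intro g hg
    refine ⟨⟨g.toEquiv, (hG _).mpr ⟨g, hg, 0, fun x => (add_zero _).symm⟩⟩, fun x => rfl⟩
  constructor
  · intro hprim W hW
    have hblock : MulAction.IsBlock G (W : Set V) := by
      rw [MulAction.isBlock_iff_smul_eq_of_mem]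
      intro σ a ha hσa
      obtain ⟨g, hg, b, hgb⟩ := (hG σ.1).mp σ.2
      have hgb' : ∀ x, σ • x = g x + b := hgb
      have hb : b ∈ W := by
        have h1 : g a + b ∈ W := by rw [← hgb']; exact hσa
        have := W.sub_mem h1 (hW g hg a ha)
        rwa [add_sub_cancel_left] at this
      apply Set.Subset.antisymm
      · rintro _ ⟨w, hw, rfl⟩
        show σ • w ∈ W
        rw [hgb']
        exact W.add_mem (hW g hg w hw) hb
      · intro w hw
        refine ⟨g⁻¹ (w - b), hW g⁻¹ (G₀.inv_mem hg) _ (W.sub_mem hw hb), ?_⟩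
        show σ • (g⁻¹ (w - b)) = w
        rw [hgb']
        have : g (g⁻¹ (w - b)) = w - b := LinearEquiv.apply_symm_apply g _
        rw [this, sub_add_cancel]
    rcases hprim.isTrivialBlock_of_isBlock hblock with h | h
    · left
      rw [eq_bot_iff]
      intro w hw
      rw [Submodule.mem_bot]
      exact h hw W.zero_mem
    · right
      rw [eq_top_iff]
      intro w _
      have : w ∈ (W : Set V) := by rw [h]; trivial
      exact this
  · intro hirr
    haveI : MulAction.IsPretransitive G V := by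
      refine ⟨fun x y => ?_⟩
      obtain ⟨σ, hσ⟩ := htr (y - x)
      exact ⟨σ, by rw [hσ]; abel⟩
    refine ⟨fun {B} hB => ?_⟩
    rcases Set.eq_empty_or_nonempty B with h0 | ⟨a, ha⟩
    · left; rw [h0]; exact Set.subsingleton_empty
    obtain ⟨τ, hτ⟩ := htr (-a)
    rw [← MulAction.IsTrivialBlock.smul_iff τ]
    have hB' : MulAction.IsBlock G (τ • B) := hB.translate τ
    set B' := τ • B with hB'def
    have h0 : (0 : V) ∈ B' := ⟨a, ha, by show τ • a = 0; rw [hτ]; abel⟩
    have hmem := MulAction.isBlock_iff_smul_eq_of_mem.mp hB'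
    have hadd : ∀ u ∈ B', ∀ v ∈ B', u + v ∈ B' := by
      intro u hu v hv
      obtain ⟨σ, hσ⟩ := htr v
      have h1 : σ • B' = B' := hmem h0 (by rw [hσ, zero_add]; exact hv)
      rw [← h1]
      exact ⟨u, hu, hσ u⟩
    have hnsmul : ∀ (n : ℕ), ∀ u ∈ B', n • u ∈ B' := by
      intro n u hu
      induction n with
      | zero => rw [zero_smul]; exact h0
      | succ n ih => rw [succ_nsmul]; exact hadd _ ih _ hu
    let W : Submodule (ZMod p) V :=
      { carrier := B'
        add_mem' := fun {u v} hu hv => hadd u hu v hv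
        zero_mem' := h0
        smul_mem' := by
          intro c u hu
          have : c • u = c.val • u := by
            rw [← Nat.cast_smul_eq_nsmul (ZMod p), ZMod.natCast_zmod_val]
          rw [this]
          exact hnsmul _ u hu }
    have hW : ∀ g ∈ G₀, ∀ v ∈ W, (g : V ≃ₗ[ZMod p] V) v ∈ W := by
      intro g hg v hv
      obtain ⟨σ, hσ⟩ := hlin g hg
      have h1 : σ • B' = B' := hmem h0 (by rw [hσ, map_zero]; exact h0)
      show g v ∈ B'
      rw [← h1]
      exact ⟨v, hv, hσ v⟩
    rcases hirr W hW with h | h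
    · left
      intro u hu v hv
      have hu' : u ∈ W := hu
      have hv' : v ∈ W := hv
      rw [h, Submodule.mem_bot] at hu' hv'
      rw [hu', hv']
    · right
      rw [Set.eq_univ_iff_forall]
      intro u
      have : u ∈ W := by rw [h]; trivial
      exact this

end Cfsg.Agent.S0733
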