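import Cfsg.Statements.S0734
import Mathlib

set_option autoImplicit false
open Cfsg

namespace Cfsg.Agent.S0734

open scoped Pointwise

/-- Higman's criterion for primitivity: a transitive action on a finite set is primitive if and only if every non-trivial orbital graph (edges = images of a fixed pair of distinct points) is connected. -/
theorem result {G : Type*} [Group G] {Ω : Type*} [Finite Ω] [MulAction G Ω] [MulAction.IsPretransitive G Ω] [Nontrivial Ω] : MulAction.IsPreprimitive G Ω ↔ ∀ a b : Ω, a ≠ b → (SimpleGraph.fromRel fun x y : Ω => ∃ g : G, g • a = x ∧ g • b = y).Connected := by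
  classical
  constructor
  · intro hprim a b hab
    set Γ := SimpleGraph.fromRel fun x y : Ω => ∃ g : G, g • a = x ∧ g • b = y with hΓ
    have hadj : ∀ (g : G) (x y : Ω), Γ.Adj x y → Γ.Adj (g • x) (g • y) := by
      intro g x y h
      rw [hΓ, SimpleGraph.fromRel_adj] at h ⊢
      obtain ⟨hne, h⟩ := h
      refine ⟨fun h' => hne (MulAction.injective g h'), ?_⟩
      rcases h with ⟨u, hu1, hu2⟩ | ⟨u, hu1, hu2⟩
      · exact Or.inl ⟨g * u, by rw [mul_smul, hu1], by rw [mul_smul, hu2]⟩
      · exact Or.inr ⟨g * u, by rw [mul_smul, hu1], by rw [mul_smul, hu2]⟩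
    have hreach : ∀ (g : G) (x y : Ω), Γ.Reachable x y → Γ.Reachable (g • x) (g • y) := by
      intro g x y h
      exact h.map (⟨fun x => g • x, fun {x y} h => hadj g x y h⟩ : Γ →g Γ)
    let B : Set Ω := {y | Γ.Reachable a y}
    have hsub : ∀ (g : G) (c : Ω), c ∈ B → g • c ∈ B → ∀ y ∈ B, g • y ∈ B := by
      intro g c hc hgc y hy
      have h1 : Γ.Reachable (g • a) (g • c) := hreach g a c hc
      have h2 : Γ.Reachable (g • a) (g • y) := hreach g a y hy
      exact (SimpleGraph.Reachable.trans hgc h1.symm).trans h2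
    have hblock : MulAction.IsBlock G B := by
      rw [MulAction.isBlock_iff_smul_eq_of_mem]
      intro g c hc hgc
      apply Set.Subset.antisymm
      · rintro _ ⟨y, hy, rfl⟩
        exact hsub g c hc hgc y hy
      · intro y hy
        refine ⟨g⁻¹ • y, hsub g⁻¹ (g • c) hgc (by rw [inv_smul_smul]; exact hc) y hy, smul_inv_smul g y⟩
    have hab' : Γ.Adj a b := by
      rw [hΓ, SimpleGraph.fromRel_adj]
      exact ⟨hab, Or.inl ⟨1, one_smul _ _, one_smul _ _⟩⟩
    rcases hprim.isTrivialBlock_of_isBlock hblock with h | h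
    · exact absurd (h (SimpleGraph.Reachable.refl a) hab'.reachable) hab
    · haveI : Nonempty Ω := ⟨a⟩
      refine SimpleGraph.Connected.mk ?_
      intro u v
      have hu : u ∈ B := by rw [h]; trivial
      have hv : v ∈ B := by rw [h]; trivial
      exact (SimpleGraph.Reachable.symm hu).trans hv
  · intro hconn
    refine ⟨fun {B} hB => ?_⟩
    by_contra hcon
    unfold MulAction.IsTrivialBlock at hcon
    push Not at hcon
    obtain ⟨⟨a, ha, b, hb, hab⟩, h3⟩ := hcon
    apply h3
    have hc := hconn a b hab
    set Γ := SimpleGraph.fromRel fun x y : Ω => ∃ g : G, g • a = x ∧ g • b = y with hΓ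
    have hmem := MulAction.isBlock_iff_smul_eq_of_mem.mp hB
    have hstep : ∀ x y, x ∈ B → Γ.Adj x y → y ∈ B := by
      intro x y hx h
      rw [hΓ, SimpleGraph.fromRel_adj] at h
      rcases h.2 with ⟨g, hg1, hg2⟩ | ⟨g, hg1, hg2⟩
      · have h1 : g • B = B := hmem ha (by rw [hg1]; exact hx)
        rw [← h1, ← hg2]
        exact Set.smul_mem_smul_set hb
      · have h1 : g • B = B := hmem hb (by rw [hg2]; exact hx)
        rw [← h1, ← hg1]
        exact Set.smul_mem_smul_set ha
    rw [Set.eq_univ_iff_forall]
    intro y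
    have hr : Γ.Reachable a y := hc.preconnected a y
    rw [SimpleGraph.reachable_iff_reflTransGen] at hr
    induction hr with
    | refl => exact ha
    | tail _ h ih => exact hstep _ _ ih h

end Cfsg.Agent.S0734
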