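import Cfsg.Statements.S0735
import Mathlib

set_option autoImplicit false
open Cfsg

namespace Cfsg.Agent.S0735

open scoped Pointwise

/-- A 2-homogeneous permutation group (transitive on 2-subsets) of even order is doubly transitive; a non-trivial 2-homogeneous group is primitive. -/
theorem result {α : Type*} [Fintype α] [DecidableEq α] (G : Subgroup (Equiv.Perm α)) (h2 : MulAction.IsPretransitive G (Set.powersetCard α 2)) (hα : 3 ≤ Fintype.card α) : (Even (Nat.card G) → MulAction.IsMultiplyPretransitive G α 2) ∧ (G ≠ ⊥ → MulAction.IsPreprimitive G α) := by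
  classical
  have hom : ∀ x y x' y' : α, x ≠ y → x' ≠ y' →
      ∃ g : G, (g • x = x' ∧ g • y = y') ∨ (g • x = y' ∧ g • y = x') := by
    intro x y x' y' hxy hxy'
    obtain ⟨g, hg⟩ := h2.exists_smul_eq ⟨{x, y}, Finset.card_pair hxy⟩ ⟨{x', y'}, Finset.card_pair hxy'⟩
    have hg' : g • ({x, y} : Finset α) = {x', y'} := by
      have := congrArg Subtype.val hg
      exact this
    refine ⟨g, ?_⟩
    have h1 : g • x ∈ ({x', y'} : Finset α) := by
      rw [← hg']; exact Finset.smul_mem_smul_finset (by simp)
    have h3 : g • y ∈ ({x', y'} : Finset α) := by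
      rw [← hg']; exact Finset.smul_mem_smul_finset (by simp)
    have h4 : g • x ≠ g • y := fun h => hxy (MulAction.injective g h)
    simp only [Finset.mem_insert, Finset.mem_singleton] at h1 h3
    rcases h1 with h1 | h1 <;> rcases h3 with h3 | h3
    · exact absurd (h1.trans h3.symm) h4
    · exact Or.inl ⟨h1, h3⟩
    · exact Or.inr ⟨h1, h3⟩
    · exact absurd (h1.trans h3.symm) h4
  constructor
  · intro heven
    haveI : Fact (Nat.Prime 2) := ⟨Nat.prime_two⟩
    obtain ⟨t, ht⟩ := exists_prime_orderOf_dvd_card' (G := G) 2 heven.two_dvd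
    have ht1 : t ≠ 1 := by
      intro h
      rw [h, orderOf_one] at ht
      omega
    obtain ⟨a, ha⟩ : ∃ a : α, t • a ≠ a := by
      by_contra hcon
      push Not at hcon
      apply ht1
      apply Subtype.ext
      exact Equiv.ext hcon
    have htt : t • t • a = a := by
      rw [← mul_smul, ← pow_two, ← ht, pow_orderOf_eq_one, one_smul]
    have toAB : ∀ x y : α, x ≠ y → ∃ g : G, g • x = a ∧ g • y = t • a := by
      intro x y hxy
      obtain ⟨g, hg | hg⟩ := hom x y a (t • a) hxy (Ne.symm ha)
      · exact ⟨g, hg⟩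
      · refine ⟨t * g, ?_, ?_⟩
        · rw [mul_smul, hg.1, htt]
        · rw [mul_smul, hg.2]
    rw [MulAction.is_two_pretransitive_iff]
    intro x y x' y' hxy hxy'
    obtain ⟨g₁, h1, h1'⟩ := toAB x y hxy
    obtain ⟨g₂, h3, h3'⟩ := toAB x' y' hxy'
    refine ⟨g₂⁻¹ * g₁, ?_, ?_⟩
    · rw [mul_smul, h1, inv_smul_eq_iff, h3]
    · rw [mul_smul, h1', inv_smul_eq_iff, h3']
  · intro _
    haveI : MulAction.IsPretransitive G α := by
      refine ⟨fun x y => ?_⟩
      by_cases hxy : x = y
      · exact ⟨1, by rw [one_smul, hxy]⟩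
      obtain ⟨z, hz⟩ : ∃ z, z ∉ ({x, y} : Finset α) := by
        by_contra hcon
        push Not at hcon
        have h1 : ({x, y} : Finset α) = Finset.univ := Finset.eq_univ_iff_forall.mpr hcon
        have h3 := Finset.card_le_two (a := x) (b := y)
        rw [h1, Finset.card_univ] at h3
        omega
      simp only [Finset.mem_insert, Finset.mem_singleton, not_or] at hz
      obtain ⟨g, hg | hg⟩ := hom x z y z (Ne.symm hz.1) (Ne.symm hz.2)
      · exact ⟨g, hg.1⟩
      · exact ⟨g * g, by rw [mul_smul, hg.1, hg.2]⟩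
    refine ⟨fun {B} hB => ?_⟩
    by_contra hcon
    unfold MulAction.IsTrivialBlock at hcon
    push Not at hcon
    obtain ⟨h1, h3⟩ := hcon
    obtain ⟨a, ha, b, hb, hab⟩ := h1
    obtain ⟨c, hc⟩ := (Set.ne_univ_iff_exists_notMem B).mp h3
    have hac : a ≠ c := fun h => hc (h ▸ ha)
    have key : ∀ g : G, a ∈ g • B → g • B = B := by
      intro g hg
      rcases hB.smul_eq_or_disjoint g with h | h
      · exact h
      · exact absurd ha (Set.disjoint_left.mp h hg)
    obtain ⟨g, hg | hg⟩ := hom a b a c hab hac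
    · have := key g (by rw [← hg.1]; exact Set.smul_mem_smul_set ha)
      apply hc
      rw [← this, ← hg.2]
      exact Set.smul_mem_smul_set hb
    · have := key g (by rw [← hg.2]; exact Set.smul_mem_smul_set hb)
      apply hc
      rw [← this, ← hg.1]
      exact Set.smul_mem_smul_set ha

end Cfsg.Agent.S0735
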