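import Cfsg.Statements.S0736
import Mathlib

set_option autoImplicit false
open Cfsg

namespace Cfsg.Agent.S0736

open scoped Pointwise

theorem not_dvd_choose {p v k : ℕ} (hp : p.Prime) (hk : p ^ v ∣ k) :
    ¬ p ∣ Nat.choose (p ^ v - 1 + k) k := by
  haveI : Fact p.Prime := ⟨hp⟩
  have hq0 : 0 < p ^ v := pow_pos hp.pos v
  have h := padicValNat_choose' (p := p) (n := p ^ v - 1) (k := k)
    (b := Nat.log p (p ^ v - 1 + k) + 1) (Nat.lt_succ_self _)
  have hempty : (Finset.Ico 1 (Nat.log p (p ^ v - 1 + k) + 1)).filter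
      (fun i => p ^ i ≤ k % p ^ i + (p ^ v - 1) % p ^ i) = ∅ := by
    rw [Finset.filter_eq_empty_iff]
    intro i _
    rw [not_le]
    have hpi : 0 < p ^ i := pow_pos hp.pos i
    rcases le_or_gt i v with hiv | hiv
    · have h1 : p ^ i ∣ k := (pow_dvd_pow p hiv).trans hk
      rw [Nat.mod_eq_zero_of_dvd h1, zero_add]
      exact Nat.mod_lt _ hpi
    · have h1 : p ^ v ∣ p ^ i := pow_dvd_pow p hiv.le
      have h2 : p ^ v ≤ p ^ i := Nat.le_of_dvd hpi h1
      rw [Nat.mod_eq_of_lt (show p ^ v - 1 < p ^ i by omega)]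
      have h3 : p ^ v ∣ k % p ^ i := (Nat.dvd_mod_iff h1).mpr hk
      have h4 : k % p ^ i < p ^ i := Nat.mod_lt _ hpi
      obtain ⟨r, hr⟩ := h3
      obtain ⟨s, hs⟩ := h1
      rw [hr, hs] at h4 ⊢
      have h5 : r < s := lt_of_mul_lt_mul_left h4 (Nat.zero_le _)
      have h6 : p ^ v * (r + 1) ≤ p ^ v * s := Nat.mul_le_mul_left _ h5
      rw [mul_add, mul_one] at h6
      omega
  rw [hempty, Finset.card_empty, padicValNat.eq_zero_iff] at h
  rcases h with h | h | h
  · exact absurd h hp.one_lt.ne'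
  · exact absurd h (Nat.choose_pos (Nat.le_add_left _ _)).ne'
  · exact h

section comb

variable {α : Type*} [DecidableEq α]

theorem card_supersets {k : ℕ} (hk : 1 ≤ k) (Γ A : Finset α) (hA : A ⊆ Γ) (hAc : A.card = k - 1) :
    ((Γ.powersetCard k).filter (fun B => A ⊆ B)).card = Γ.card - (k - 1) := by
  have h : (Γ.powersetCard k).filter (fun B => A ⊆ B) = (Γ \ A).image (fun x => insert x A) := by
    ext B
    simp only [Finset.mem_filter, Finset.mem_powersetCard, Finset.mem_image, Finset.mem_sdiff]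
    constructor
    · rintro ⟨⟨hBΓ, hBc⟩, hAB⟩
      have h1 : (B \ A).card = 1 := by
        rw [Finset.card_sdiff_of_subset hAB, hBc, hAc]; omega
      obtain ⟨x, hx⟩ := Finset.card_eq_one.mp h1
      have hxB : x ∈ B \ A := by rw [hx]; exact Finset.mem_singleton_self x
      rw [Finset.mem_sdiff] at hxB
      refine ⟨x, ⟨hBΓ hxB.1, hxB.2⟩, ?_⟩
      rw [Finset.insert_eq, ← hx, Finset.sdiff_union_of_subset hAB]
    · rintro ⟨x, ⟨hxΓ, hxA⟩, rfl⟩
      refine ⟨⟨Finset.insert_subset hxΓ hA, ?_⟩, Finset.subset_insert _ _⟩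
      rw [Finset.card_insert_of_notMem hxA, hAc]; omega
  rw [h, Finset.card_image_of_injOn, Finset.card_sdiff_of_subset hA, hAc]
  intro x hx y hy hxy
  have hx := (Finset.mem_sdiff.mp (Finset.mem_coe.mp hx)).2
  have hy := (Finset.mem_sdiff.mp (Finset.mem_coe.mp hy)).2
  simp only at hxy
  have h1 : x ∈ insert y A := hxy ▸ Finset.mem_insert_self x A
  rcases Finset.mem_insert.mp h1 with h2 | h2
  · exact h2
  · exact absurd h2 hx

/-- double counting -/
theorem double_count {k a : ℕ} (hk : 1 ≤ k) (I : Finset α → Prop) [DecidablePred I] (Γ : Finset α)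
    (ha : ∀ B ∈ Γ.powersetCard k, ((B.powersetCard (k - 1)).filter I).card = a) :
    Nat.choose Γ.card k * a =
      ((Γ.powersetCard (k - 1)).filter I).card * (Γ.card - (k - 1)) := by
  have h := Finset.sum_card_bipartiteAbove_eq_sum_card_bipartiteBelow
    (s := Γ.powersetCard k) (t := (Γ.powersetCard (k - 1)).filter I) (fun B A => A ⊆ B)
  have h1 : ∀ B ∈ Γ.powersetCard k,
      (Finset.bipartiteAbove (fun B A => A ⊆ B) ((Γ.powersetCard (k - 1)).filter I) B).card = a := by
    intro B hB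
    rw [← ha B hB]
    congr 1
    ext A
    simp only [Finset.bipartiteAbove, Finset.mem_filter, Finset.mem_powersetCard]
    rw [Finset.mem_powersetCard] at hB
    constructor
    · rintro ⟨⟨⟨_, h2⟩, h3⟩, h4⟩
      exact ⟨⟨h4, h2⟩, h3⟩
    · rintro ⟨⟨h4, h2⟩, h3⟩
      exact ⟨⟨⟨h4.trans hB.1, h2⟩, h3⟩, h4⟩
  have h2 : ∀ A ∈ (Γ.powersetCard (k - 1)).filter I,
      (Finset.bipartiteBelow (fun B A => A ⊆ B) (Γ.powersetCard k) A).card =
        Γ.card - (k - 1) := by
    intro A hA
    rw [Finset.mem_filter, Finset.mem_powersetCard] at hA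
    exact card_supersets hk Γ A hA.1.1 hA.1.2
  rw [Finset.sum_congr rfl h1, Finset.sum_congr rfl h2, Finset.sum_const, Finset.sum_const,
    Finset.card_powersetCard, smul_eq_mul, smul_eq_mul] at h
  exact h

end comb

/-- A `k`-homogeneous permutation group of degree `n`, `k ≥ 2`, with `k + q - 1 ≤ n` for every prime power `q` dividing `k`, is `(k-1)`-homogeneous. -/
theorem result {α : Type*} [Fintype α] [DecidableEq α] (G : Subgroup (Equiv.Perm α)) {k : ℕ} (hk : 2 ≤ k) (hG : MulAction.IsPretransitive G (Set.powersetCard α k)) (hq : ∀ q : ℕ, IsPrimePow q → q ∣ k → k + q - 1 ≤ Fintype.card α) : MulAction.IsPretransitive G (Set.powersetCard α (k - 1)) := by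
  classical
  constructor
  intro A₁ A₂
  have hA₁c : (A₁ : Finset α).card = k - 1 := A₁.2
  have hA₂c : (A₂ : Finset α).card = k - 1 := A₂.2
  obtain ⟨I, hI⟩ : ∃ I : Finset α → Prop, I = fun A => ∃ g : G, g • (A₁ : Finset α) = A := ⟨_, rfl⟩
  have hinv : ∀ (g : G) (B : Finset α), (((g • B).powersetCard (k - 1)).filter I).card =
      ((B.powersetCard (k - 1)).filter I).card := by
    intro g B
    symm
    apply Finset.card_nbij' (fun A => g • A) (fun A => g⁻¹ • A)
    · intro A hA
      simp only [Finset.coe_filter, Finset.mem_powersetCard, Set.mem_ofPred_eq, hI] at hA ⊢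
      obtain ⟨⟨h1, h2⟩, g₀, h3⟩ := hA
      exact ⟨⟨Finset.smul_finset_subset_smul_finset h1, by rw [Finset.card_smul_finset, h2]⟩,
        g * g₀, by rw [mul_smul, h3]⟩
    · intro A hA
      simp only [Finset.coe_filter, Finset.mem_powersetCard, Set.mem_ofPred_eq, hI] at hA ⊢
      obtain ⟨⟨h1, h2⟩, g₀, h3⟩ := hA
      refine ⟨⟨?_, by rw [Finset.card_smul_finset, h2]⟩, g⁻¹ * g₀, by rw [mul_smul, h3]⟩
      have := Finset.smul_finset_subset_smul_finset (a := g⁻¹) h1
      rwa [inv_smul_smul] at this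
    · intro A _
      exact inv_smul_smul g A
    · intro A _
      exact smul_inv_smul g A
  have hconst : ∀ B B' : Finset α, B.card = k → B'.card = k →
      ((B.powersetCard (k - 1)).filter I).card = ((B'.powersetCard (k - 1)).filter I).card := by
    intro B B' hB hB'
    obtain ⟨g, hg⟩ := hG.exists_smul_eq (⟨B', hB'⟩ : Set.powersetCard α k) ⟨B, hB⟩
    have h1 : g • B' = B := congrArg Subtype.val hg
    rw [← h1, hinv]
  have hkn : k ≤ Fintype.card α := by
    obtain ⟨p, hp, hpk⟩ := Nat.exists_prime_and_dvd (show k ≠ 1 by omega)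
    have := hq p hp.isPrimePow hpk
    have := hp.pos
    omega
  obtain ⟨B₁, hAB₁, -, hB₁⟩ := Finset.exists_subsuperset_card_eq
    (Finset.subset_univ (A₁ : Finset α)) (show (A₁ : Finset α).card ≤ k by omega)
    (show k ≤ (Finset.univ : Finset α).card by rwa [Finset.card_univ])
  obtain ⟨B₂, hAB₂, -, hB₂⟩ := Finset.exists_subsuperset_card_eq
    (Finset.subset_univ (A₂ : Finset α)) (show (A₂ : Finset α).card ≤ k by omega)
    (show k ≤ (Finset.univ : Finset α).card by rwa [Finset.card_univ])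
  obtain ⟨a, ha⟩ : ∃ a, a = ((B₁.powersetCard (k - 1)).filter I).card := ⟨_, rfl⟩
  have hapos : 0 < a := by
    rw [ha, Finset.card_pos]
    refine ⟨(A₁ : Finset α), ?_⟩
    rw [Finset.mem_filter, Finset.mem_powersetCard, hI]
    exact ⟨⟨hAB₁, hA₁c⟩, 1, one_smul _ _⟩
  have hdvd : k ∣ a := by
    rw [Nat.dvd_iff_prime_pow_dvd_dvd]
    intro p v hp hpv
    rcases Nat.eq_zero_or_pos v with rfl | hv
    · simp
    have hle := hq (p ^ v) (hp.isPrimePow.pow hv.ne') hpv
    have hq0 : 0 < p ^ v := pow_pos hp.pos v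
    obtain ⟨Γ, -, hΓ⟩ := Finset.exists_subset_card_eq
      (show p ^ v - 1 + k ≤ (Finset.univ : Finset α).card by rw [Finset.card_univ]; omega)
    have hdc := double_count (k := k) (a := a) (by omega) I Γ (fun B hB => by
      rw [ha]
      exact hconst B B₁ (Finset.mem_powersetCard.mp hB).2 hB₁)
    rw [hΓ, show p ^ v - 1 + k - (k - 1) = p ^ v by omega] at hdc
    have hcop : Nat.Coprime (p ^ v) (Nat.choose (p ^ v - 1 + k) k) :=
      Nat.Coprime.pow_left v ((Nat.Prime.coprime_iff_not_dvd hp).mpr (not_dvd_choose hp hpv))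
    exact hcop.dvd_of_dvd_mul_left ⟨_, by rw [hdc, mul_comm]⟩
  have hcardps : ∀ B : Finset α, B.card = k → (B.powersetCard (k - 1)).card = k := by
    intro B hB
    rw [Finset.card_powersetCard, hB]
    have : k = (k - 1) + 1 := by omega
    conv_lhs => rw [this]
    rw [Nat.add_sub_cancel, Nat.choose_succ_self_right]
    omega
  have hak : k ≤ a := Nat.le_of_dvd hapos hdvd
  have hfull : (B₂.powersetCard (k - 1)).filter I = B₂.powersetCard (k - 1) := by
    apply Finset.eq_of_subset_of_card_le (Finset.filter_subset _ _)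
    rw [hcardps B₂ hB₂, hconst B₂ B₁ hB₂ hB₁, ← ha]
    exact hak
  have hmem : (A₂ : Finset α) ∈ (B₂.powersetCard (k - 1)).filter I := by
    rw [hfull, Finset.mem_powersetCard]
    exact ⟨hAB₂, hA₂c⟩
  rw [Finset.mem_filter, hI] at hmem
  obtain ⟨g, hg⟩ := hmem.2
  refine ⟨g, ?_⟩
  apply Subtype.ext
  exact hg

end Cfsg.Agent.S0736
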