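import Mathlib
import Cfsg.Statements.S0739
import Cfsg.Agent.Lib.Helper27.ZassOdd4

namespace Cfsg.Agent.S0739

open MulAction Subgroup Cfsg Cfsg.Agent.Lib.Helper3 Cfsg.Agent.Lib.Helper27.ZassEl
open Cfsg.Agent.Lib.Helper27.ZassOdd

/-- In a finite Zassenhaus group whose two-point stabiliser `H = G_{a,b}` has odd order `d`, and which has no normal `q`-complement for any prime `q ∣ d`, `H` is cyclic, `C_G(H) = H`, and every element swapping `a` and `b` inverts each element of `H`. -/
theorem result {G Ω : Type*} [Group G] [Finite G] [MulAction G Ω] [Fintype Ω] (hZ : Cfsg.IsZassenhausGroup G Ω) {a b : Ω} (hab : a ≠ b) (hodd : Odd (Nat.card ↥(MulAction.stabilizer G a ⊓ MulAction.stabilizer G b))) (hnil : ∀ q : ℕ, q.Prime → q ∣ Nat.card ↥(MulAction.stabilizer G a ⊓ MulAction.stabilizer G b) → ¬ ∃ N : Subgroup G, N.Normal ∧ N.index = q ^ (Nat.card G).factorization q) : IsCyclic ↥(MulAction.stabilizer G a ⊓ MulAction.stabilizer G b) ∧ Subgroup.centralizer ((MulAction.stabilizer G a ⊓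 MulAction.stabilizer G b : Subgroup G) : Set G) = MulAction.stabilizer G a ⊓ MulAction.stabilizer G b ∧ ∀ s : G, s • a = b → s • b = a → ∀ h ∈ MulAction.stabilizer G a ⊓ MulAction.stabilizer G b, s * h * s⁻¹ = h⁻¹ := by
  obtain ⟨hcomm, hinv⟩ := main hZ hab hodd hnil
  refine ⟨?_, ?_, hinv⟩
  · exact abelian_cyclic hZ hab _ le_rfl ⟨⟨fun x y => Subtype.ext (hcomm x x.2 y y.2)⟩⟩
  · apply le_antisymm
    · intro g hg
      rw [mem_centralizer_iff] at hg
      obtain ⟨x, hx1, hxa, hxb⟩ := zass_exists_fix_two hZ hab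
      have hxE : x ∈ (stabilizer G a ⊓ stabilizer G b : Subgroup G) := mem_E.2 ⟨hxa, hxb⟩
      have hgx : g * x * g⁻¹ = x := by
        rw [mul_inv_eq_iff_eq_mul]
        exact (hg x hxE).symm
      rcases Cfsg.Agent.S0879.pres_of_conj hZ hab hx1 hxE (by rw [hgx]; exact hxE) with
        ⟨h1, h2⟩ | ⟨h1, h2⟩
      · exact mem_E.2 ⟨h1, h2⟩
      · exfalso
        have h3 := hinv g h1 h2 x hxE
        rw [hgx] at h3
        have h4 : x ^ 2 = 1 := by
          rw [sq]
          nth_rewrite 1 [h3]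
          exact inv_mul_cancel _
        have h5 : orderOf x ∣ 2 := orderOf_dvd_of_pow_eq_one h4
        have h6 : orderOf x ∣ Nat.card ↥(stabilizer G a ⊓ stabilizer G b) := by
          have := orderOf_dvd_natCard (⟨x, hxE⟩ : ↥(stabilizer G a ⊓ stabilizer G b))
          rwa [← Subgroup.orderOf_coe] at this
        have h7 : orderOf x ∣ 1 := by
          have := Nat.dvd_gcd h5 h6
          rwa [Nat.coprime_two_left.2 hodd] at this
        rw [Nat.dvd_one, orderOf_eq_one_iff] at h7
        exact hx1 h7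
    · intro g hg
      rw [mem_centralizer_iff]
      intro x hx
      exact hcomm x hx g hg

end Cfsg.Agent.S0739
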