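import Mathlib
import Cfsg.Statements.S0741
import Cfsg.Agent.Lib.Helper27.ZassEl

namespace Cfsg.Agent.S0741

open MulAction Subgroup Cfsg Cfsg.Agent.Lib.Helper3 Cfsg.Agent.Lib.Helper27.ZassEl

/-- If the two-point stabilisers of a finite Zassenhaus group of degree `n + 1` have even order `d`, then `2d ≥ n - 1`. -/
theorem result {G Ω : Type*} [Group G] [Finite G] [MulAction G Ω] [Fintype Ω] (hZ : Cfsg.IsZassenhausGroup G Ω) {a b : Ω} (hab : a ≠ b) (heven : Even (Nat.card ↥(MulAction.stabilizer G a ⊓ MulAction.stabilizer G b))) : Fintype.card Ω - 2 ≤ 2 * Nat.card ↥(MulAction.stabilizer G a ⊓ MulAction.stabilizer G b) := by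
  classical
  have := Fintype.ofFinite G
  set d := Nat.card ↥(stabilizer G a ⊓ stabilizer G b) with hd
  have hdpos : 0 < d := Nat.card_pos
  obtain ⟨t', ht'⟩ := exists_prime_orderOf_dvd_card' (G := ↥(stabilizer G a ⊓ stabilizer G b)) 2
    heven.two_dvd
  obtain ⟨t, htE⟩ := t'
  rw [← Subgroup.orderOf_coe] at ht'
  simp only at ht'
  rw [Subgroup.mem_inf, mem_stabilizer_iff, mem_stabilizer_iff] at htE
  obtain ⟨hta, htb⟩ := htE
  have ht1 : t ≠ 1 := by
    rintro rfl
    simp at ht'
  have htsq : t * t = 1 := by
    rw [← sq, ← ht', pow_orderOf_eq_one]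
  have htt : ∀ c : Ω, t • t • c = c := fun c => by rw [← mul_smul, htsq, one_smul]
  have hfix := fix_sub hZ hab ht1 hta htb
  set S : Finset G := Finset.univ.filter (fun s : G => s • a = b ∧ s • b = a) with hS
  have hScard : S.card = d := card_pair hZ hab (Ne.symm hab)
  set E' : Finset G := Finset.univ.filter (fun s : G => s • a = a ∧ s • b = b) with hE'
  have hEcard : E'.card = d := card_pair hZ hab hab
  set C : Finset G := Finset.univ.filter (fun h : G => t * h = h * t) with hC
  have hCcard : C.card ≤ 2 * d := by
    have hsub : C ⊆ E' ∪ S := by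
      intro h hh
      simp only [hC, Finset.mem_filter, Finset.mem_univ, true_and] at hh
      have h1 : t • h • a = h • a := by rw [← mul_smul, hh, mul_smul, hta]
      have h2 : t • h • b = h • b := by rw [← mul_smul, hh, mul_smul, htb]
      have hne : h • a ≠ h • b := fun h' => hab (smul_left_cancel h h')
      simp only [hE', hS, Finset.mem_union, Finset.mem_filter, Finset.mem_univ, true_and]
      rcases hfix _ h1 with h3 | h3 <;> rcases hfix _ h2 with h4 | h4
      · exact absurd (h3.trans h4.symm) hne
      · exact Or.inl ⟨h3, h4⟩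
      · exact Or.inr ⟨h3, h4⟩
      · exact absurd (h3.trans h4.symm) hne
    calc C.card ≤ (E' ∪ S).card := Finset.card_le_card hsub
      _ ≤ E'.card + S.card := Finset.card_union_le _ _
      _ = 2 * d := by rw [hEcard, hScard]; ring
  set X : Finset G := Finset.univ.filter (fun y : G => t • y • a = y • b) with hX
  set T : Finset Ω := (Finset.univ.erase a).erase b with hT
  have hTcard : T.card = Fintype.card Ω - 2 := by
    rw [hT, Finset.card_erase_of_mem (by simp [Ne.symm hab]), Finset.card_erase_of_mem (by simp),
      Finset.card_univ]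
    omega
  have hX1 : X.card = T.card * d := by
    rw [Finset.card_eq_sum_card_fiberwise (f := fun y : G => y • a) (t := T)]
    · rw [Finset.sum_const_nat (m := d)]
      · intro c hc
        simp only [hT, Finset.mem_erase, Finset.mem_univ, and_true] at hc
        have hne : c ≠ t • c := by
          intro h
          rcases hfix c h.symm with h | h
          · exact hc.2 h
          · exact hc.1 h
        rw [hd, ← card_pair hZ hab hne]
        congr 1
        ext y
        simp only [hX, Finset.mem_filter, Finset.mem_univ, true_and]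
        constructor
        · rintro ⟨h1, h2⟩
          exact ⟨h2, by rw [← h1, h2]⟩
        · rintro ⟨h1, h2⟩
          exact ⟨by rw [h1, h2], h1⟩
    · intro y hy
      simp only [hX, Finset.coe_filter, Finset.mem_univ, true_and, Set.mem_ofPred_eq] at hy
      have hne : y • a ≠ y • b := fun h' => hab (smul_left_cancel y h')
      simp only [hT, Finset.coe_erase, Finset.coe_univ, Set.mem_sdiff, Set.mem_univ, true_and,
        Set.mem_singleton_iff]
      constructor
      · intro h
        apply hne
        rw [← hy, h, hta]
      · intro h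
        apply hne
        rw [← hy, h, htb]
  have hX2 : X.card ≤ (2 * d) * S.card := by
    refine Finset.card_le_mul_card_image_of_maps_to (f := fun y : G => y⁻¹ * t * y) ?_ _ ?_
    · intro y hy
      simp only [hX, Finset.mem_filter, Finset.mem_univ, true_and] at hy
      simp only [hS, Finset.mem_filter, Finset.mem_univ, true_and, mul_smul]
      refine ⟨by rw [hy, inv_smul_smul], ?_⟩
      rw [← hy, htt, inv_smul_smul]
    · intro s _
      refine le_trans ?_ hCcard
      rcases Finset.eq_empty_or_nonempty (X.filter (fun y : G => y⁻¹ * t * y = s)) with h0 | h0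
      · rw [h0]; simp
      · obtain ⟨y₀, hy₀⟩ := h0
        simp only [Finset.mem_filter] at hy₀
        refine Finset.card_le_card_of_injOn (fun y => y * y₀⁻¹) ?_ ?_
        · intro y hy
          simp only [Finset.coe_filter, Set.mem_ofPred_eq] at hy
          simp only [hC, Finset.coe_filter, Finset.mem_univ, true_and, Set.mem_ofPred_eq]
          have h1 : y⁻¹ * t * y = y₀⁻¹ * t * y₀ := hy.2.trans hy₀.2.symm
          calc t * (y * y₀⁻¹) = y * (y⁻¹ * t * y) * y₀⁻¹ := by group
            _ = y * (y₀⁻¹ * t * y₀) * y₀⁻¹ := by rw [h1]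
            _ = y * y₀⁻¹ * t := by group
        · intro y _ y' _ h
          exact mul_right_cancel h
  rw [hX1, hScard, hTcard] at hX2
  exact Nat.le_of_mul_le_mul_right hX2 hdpos

end Cfsg.Agent.S0741
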