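import Cfsg.Statements.S0743
import Mathlib
import Cfsg.Agent.Lib.Helper5.MultiTrans

set_option autoImplicit false
open Cfsg

namespace Cfsg.Agent.S0743

open Cfsg.Agent.Lib.Helper5

/-- Gleason's Lemma: let `p` be a prime and `1 ≤ k < n`; if every `k`-subset of the `n` points is exactly the fixed-point set of some `p`-subgroup of `G`, then `G` is `k`-transitive. -/
theorem result {α : Type*} [Fintype α] [DecidableEq α] (G : Subgroup (Equiv.Perm α)) {p k : ℕ} (hp : p.Prime) (hk : 1 ≤ k) (hkn : k < Fintype.card α) (h : ∀ s : Finset α, s.card = k → ∃ P : Subgroup G, IsPGroup p P ∧ MulAction.fixedPoints P α = (s : Set α)) : MulAction.IsMultiplyPretransitive G α k := by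
  classical
  haveI : Fact p.Prime := ⟨hp⟩
  apply multi_of_fixing
  intro z hz
  refine fixTrans_down (k - 1) (by omega) ?_ z (by omega)
  clear hz z
  intro z hz a b ha hb
  by_contra hcon
  push Not at hcon
  let O : Set α := {y | ∃ g : G, (∀ x ∈ z, g • x = x) ∧ g • a = y}
  have hbO : b ∉ O := by
    rintro ⟨g, hg, hgb⟩
    exact hcon g hg hgb
  have haO : a ∈ O := ⟨1, fun x _ => one_smul _ x, one_smul _ a⟩
  have hOz : ∀ y ∈ O, y ∉ z := by
    rintro y ⟨g, hg, rfl⟩ hy
    have := hg _ hy
    exact ha (by rw [← MulAction.injective g this]; exact hy)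
  have key : ∀ c : α, c ∉ z → O.ncard ≡ (O ∩ {c}).ncard [MOD p] := by
    intro c hc
    obtain ⟨P, hP, hfix⟩ := h (insert c z) (by rw [Finset.card_insert_of_notMem hc]; omega)
    have hPz : ∀ g : P, ∀ x ∈ z, g.1 • x = x := by
      intro g x hx
      have : x ∈ MulAction.fixedPoints P α := by
        rw [hfix]; exact Finset.mem_coe.mpr (Finset.mem_insert_of_mem hx)
      exact this g
    have h1 := ncard_modEq_inter_fixed hP O (by
      rintro g y ⟨u, hu, rfl⟩
      refine ⟨g.1 * u, ?_, mul_smul _ _ _⟩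
      intro x hx
      rw [mul_smul, hu x hx, hPz g x hx])
    have h2 : O ∩ MulAction.fixedPoints P α = O ∩ {c} := by
      rw [hfix]
      ext y
      simp only [Set.mem_inter_iff, Finset.coe_insert, Set.mem_insert_iff, Finset.mem_coe, Set.mem_singleton_iff]
      constructor
      · rintro ⟨h3, h4⟩
        rcases h4 with h4 | h4
        · exact ⟨h3, h4⟩
        · exact absurd h4 (hOz y h3)
      · rintro ⟨h3, h4⟩
        exact ⟨h3, Or.inl h4⟩
    rwa [h2] at h1
  have h1 := key a ha
  have h2 := key b hb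
  have e1 : O ∩ {a} = {a} := Set.inter_eq_right.mpr (Set.singleton_subset_iff.mpr haO)
  have e2 : O ∩ {b} = ∅ := by
    rw [Set.eq_empty_iff_forall_notMem]
    rintro y ⟨h3, h4⟩
    rw [Set.mem_singleton_iff] at h4
    exact hbO (h4 ▸ h3)
  rw [e1, Set.ncard_singleton] at h1
  rw [e2, Set.ncard_empty] at h2
  have h3 : 1 ≡ 0 [MOD p] := h1.symm.trans h2
  have h4 : p ∣ 1 := (Nat.modEq_zero_iff_dvd.mp h3)
  exact hp.one_lt.ne' (Nat.dvd_one.mp h4)

end Cfsg.Agent.S0743
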