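import Cfsg.Statements.S0744
import Mathlib
import Cfsg.Agent.Lib.Helper5.MultiTrans

set_option autoImplicit false
open Cfsg

namespace Cfsg.Agent.S0744

open Cfsg.Agent.Lib.Helper5

/-- If for some `k > 1` the pointwise stabilisers of all `(k-1)`-subsets have the same order `> 1` and those of all `k`-subsets have the same order, then the group is `(k-1)`-transitive. -/
theorem result {α : Type*} [Fintype α] [DecidableEq α] (G : Subgroup (Equiv.Perm α)) {k : ℕ} (hk : 1 < k) (hkn : k ≤ Fintype.card α) (l m : ℕ) (hl : 1 < l) (hkm1 : ∀ s : Finset α, s.card = k - 1 → Nat.card (fixingSubgroup G (s : Set α)) = l) (hkm : ∀ s : Finset α, s.card = k → Nat.card (fixingSubgroup G (s : Set α)) = m) : MulAction.IsMultiplyPretransitive G α (k - 1) := by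
  classical
  apply multi_of_fixing
  intro z hz
  refine fixTrans_down (k - 2) (by omega) ?_ z (by omega)
  clear hz z
  intro z hz a b ha hb
  by_contra hcon
  push Not at hcon
  set H := fixingSubgroup G (z : Set α) with hH
  set Ha := fixingSubgroup G ((insert a z : Finset α) : Set α) with hHa
  have hHmem : ∀ g : G, g ∈ H ↔ ∀ x ∈ z, g • x = x := fun g => mem_fixingSubgroup_iff G
  have hHamem : ∀ g : G, g ∈ Ha ↔ ∀ x ∈ insert a z, g • x = x := fun g => mem_fixingSubgroup_iff G
  have hHaH : ∀ g : G, g ∈ Ha → g ∈ H := by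
    intro g hg
    rw [hHmem]
    intro x hx
    exact (hHamem g).mp hg x (Finset.mem_insert_of_mem hx)
  have hcardHa : Nat.card Ha = l := hkm1 _ (by rw [Finset.card_insert_of_notMem ha]; omega)
  have horb : ∀ c, c ∉ z → (MulAction.orbit H c).ncard * l = Nat.card H := by
    intro c hc
    have := ncard_orbit_fixing_mul (G := G) z c
    rwa [hkm1 _ (by rw [Finset.card_insert_of_notMem hc]; omega)] at this
  have horb2 : ∀ c, c ∉ insert a z → (MulAction.orbit Ha c).ncard * m = l := by
    intro c hc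
    have := ncard_orbit_fixing_mul (G := G) (insert a z) c
    rwa [hkm _ (by rw [Finset.card_insert_of_notMem hc, Finset.card_insert_of_notMem ha]; omega), hcardHa] at this
  -- a nontrivial element of Ha
  obtain ⟨g₀, hg₀⟩ : ∃ g : Ha, g ≠ 1 := by
    haveI : Nontrivial Ha := by
      rw [← Finite.one_lt_card_iff_nontrivial, hcardHa]; exact hl
    exact exists_ne 1
  obtain ⟨c₀, hc₀⟩ : ∃ c : α, g₀.1.1 c ≠ c := by
    by_contra hcon2
    push Not at hcon2
    apply hg₀
    apply Subtype.ext
    apply Subtype.ext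
    exact Equiv.ext hcon2
  have hc₀z : c₀ ∉ insert a z := fun h => hc₀ ((hHamem g₀.1).mp g₀.2 c₀ h)
  set t := (MulAction.orbit Ha c₀).ncard with ht
  have ht2 : 2 ≤ t := by
    have : ({c₀, g₀.1.1 c₀} : Set α) ⊆ MulAction.orbit Ha c₀ := by
      intro x hx
      rcases hx with rfl | hx
      · exact MulAction.mem_orbit_self _
      · rw [Set.mem_singleton_iff] at hx
        rw [hx]
        exact ⟨g₀, rfl⟩
    have h2 := Set.ncard_le_ncard this (Set.toFinite _)
    rwa [Set.ncard_pair (Ne.symm hc₀)] at h2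
  have hm0 : 0 < m := by
    rcases Nat.eq_zero_or_pos m with h0 | h0
    · have := horb2 c₀ hc₀z
      rw [h0, mul_zero] at this
      omega
    · exact h0
  have hall : ∀ c, c ∉ insert a z → (MulAction.orbit Ha c).ncard = t := by
    intro c hc
    have h1 := horb2 c hc
    have h2 := horb2 c₀ hc₀z
    exact Nat.eq_of_mul_eq_mul_right hm0 (h1.trans h2.symm)
  have hOz : ∀ c, c ∉ z → ∀ y ∈ MulAction.orbit H c, y ∉ z := by
    rintro c hc y ⟨g, rfl⟩ hy
    have := (hHmem g.1).mp g.2 _ hy
    have h2 : g.1 • c = c := MulAction.injective g.1 this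
    apply hc
    have hy' : g.1 • c ∈ z := hy
    rwa [h2] at hy'
  have hbO : b ∉ MulAction.orbit H a := by
    rintro ⟨g, hg⟩
    exact hcon g.1 ((hHmem g.1).mp g.2) hg
  have haO : a ∉ MulAction.orbit H b := by
    intro h
    exact hbO (MulAction.orbit_eq_iff.mp (MulAction.orbit_eq_iff.mpr h).symm)
  have hinv : ∀ c : α, ∀ g : Ha, ∀ x ∈ MulAction.orbit H c, g • x ∈ MulAction.orbit H c := by
    rintro c g x ⟨u, rfl⟩
    exact ⟨⟨g.1, hHaH g.1 g.2⟩ * u, mul_smul _ _ _⟩
  have hd1 : t ∣ (MulAction.orbit H a \ {a}).ncard := by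
    apply dvd_ncard_of_invariant (H := Ha)
    · rintro g x ⟨hx1, hx2⟩
      refine ⟨hinv a g x hx1, ?_⟩
      intro h
      rw [Set.mem_singleton_iff] at h
      have h2 : g • a = a := (hHamem g.1).mp g.2 a (Finset.mem_insert_self _ _)
      rw [← h2] at h
      exact hx2 (MulAction.injective g h)
    · rintro x ⟨hx1, hx2⟩
      rw [hall x]
      rw [Finset.mem_insert, not_or]
      exact ⟨hx2, hOz a ha x hx1⟩
  have hd2 : t ∣ (MulAction.orbit H b).ncard := by
    apply dvd_ncard_of_invariant (H := Ha)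
    · exact hinv b
    · intro x hx
      rw [hall x]
      rw [Finset.mem_insert, not_or]
      exact ⟨fun h => haO (h ▸ hx), hOz b hb x hx⟩
  have heq : (MulAction.orbit H a).ncard = (MulAction.orbit H b).ncard :=
    Nat.eq_of_mul_eq_mul_right (by omega) ((horb a ha).trans (horb b hb).symm)
  rw [Set.ncard_sdiff_singleton_of_mem (MulAction.mem_orbit_self a), heq] at hd1
  have hpos : 0 < (MulAction.orbit H b).ncard :=
    (Set.ncard_pos (Set.toFinite _)).mpr ⟨b, MulAction.mem_orbit_self b⟩
  have h1 : t ∣ 1 := by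
    have := (Nat.dvd_sub hd2 hd1)
    have e : (MulAction.orbit H b).ncard - ((MulAction.orbit H b).ncard - 1) = 1 := by omega
    rwa [e] at this
  have := Nat.dvd_one.mp h1
  omega

end Cfsg.Agent.S0744
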