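import Cfsg.Statements.S0756
import Mathlib
import Cfsg.Agent.Lib.Helper5.OrthoExt

set_option autoImplicit false
open Cfsg

namespace Cfsg.Agent.S0756

open Cfsg.Agent.Lib.Helper5

lemma exists_sol {F : Type*} [Field F] [Finite F] (h2 : (2 : F) ≠ 0) (a b : F) (ha : a ≠ 0)
    (hb : b ≠ 0) : ∃ x y : F, a * x ^ 2 + b * y ^ 2 = 1 := by
  classical
  have := Fintype.ofFinite F
  have hchar : ringChar F ≠ 2 := by
    intro h
    apply h2
    have := ringChar.Nat.cast_ringChar (R := F)
    rw [h] at this
    exact_mod_cast this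
  have hodd := FiniteField.odd_card_of_char_ne_two hchar
  have hf : (Polynomial.C a * Polynomial.X ^ 2 : Polynomial F).degree = 2 :=
    Polynomial.degree_C_mul_X_pow 2 ha
  have hg : (Polynomial.C b * Polynomial.X ^ 2 + Polynomial.C (-1) : Polynomial F).degree = 2 := by
    rw [Polynomial.degree_add_C (by rw [Polynomial.degree_C_mul_X_pow 2 hb]; norm_num),
      Polynomial.degree_C_mul_X_pow 2 hb]
    rfl
  obtain ⟨x, y, hxy⟩ := FiniteField.exists_root_sum_quadratic hf hg hodd
  refine ⟨x, y, ?_⟩
  simp only [Polynomial.eval_mul, Polynomial.eval_C, Polynomial.eval_pow, Polynomial.eval_X,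
    Polynomial.eval_add] at hxy
  linear_combination hxy

lemma sq_or_alpha {F : Type*} [Field F] [Finite F] (α : F) (hα : ¬ IsSquare α) (d : F)
    (hd : d ≠ 0) : ∃ c : F, c ≠ 0 ∧ (d = c ^ 2 ∨ d = α * c ^ 2) := by
  classical
  have := Fintype.ofFinite F
  have hα0 : α ≠ 0 := by rintro rfl; exact hα ⟨0, by simp⟩
  by_cases hs : IsSquare d
  · obtain ⟨c, hc⟩ := hs
    refine ⟨c, ?_, Or.inl (by rw [hc]; ring)⟩
    rintro rfl
    exact hd (by rw [hc]; ring)
  · have h3 : quadraticChar F (d * α) = 1 := by
      rw [map_mul, quadraticChar_neg_one_iff_not_isSquare.mpr hα,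
        quadraticChar_neg_one_iff_not_isSquare.mpr hs]
      norm_num
    obtain ⟨r, hr⟩ := (quadraticChar_one_iff_isSquare (mul_ne_zero hd hα0)).mp h3
    have hr0 : r ≠ 0 := by
      rintro rfl
      exact mul_ne_zero hd hα0 (by rw [hr]; ring)
    refine ⟨r / α, div_ne_zero hr0 hα0, Or.inr ?_⟩
    field_simp
    linear_combination hr

/-- Classification of symmetric bilinear forms over finite fields of odd characteristic: if B is non-degenerate symmetric on V of dimension n + 1 and α is a fixed non-square of F, there is an orthogonal basis b_0, ..., b_n with B(b_i, b_i) = 1 for i < n and B(b_n, b_n) ∈ {1, α}. -/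
theorem result {F V : Type*} [Field F] [Finite F] [AddCommGroup V] [Module F V] [FiniteDimensional F V] (h2 : (2 : F) ≠ 0) (B : LinearMap.BilinForm F V) (hS : B.IsSymm) (hB : B.Nondegenerate) {n : ℕ} (hn : Module.finrank F V = n + 1) (α : F) (hα : ¬ IsSquare α) : ∃ b : Module.Basis (Fin (n + 1)) F V, (∀ i j, i ≠ j → B (b i) (b j) = 0) ∧ (∀ i, i ≠ Fin.last n → B (b i) (b i) = 1) ∧ (B (b (Fin.last n)) (b (Fin.last n)) = 1 ∨ B (b (Fin.last n)) (b (Fin.last n)) = α) := by
  classical
  have hsymm : ∀ x y, B x y = B y x := fun x y => (hS.eq y x).symm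
  replace hS : LinearMap.IsSymm B := LinearMap.BilinForm.isSymm_iff.mp hS
  have hpol : ∀ W : Submodule F V, (∀ w ∈ W, B w w = 0) → ∀ x ∈ W, ∀ y ∈ W, B x y = 0 := by
    intro W h0 x hx y hy
    have h1 := h0 (x + y) (W.add_mem hx hy)
    simp only [map_add, LinearMap.add_apply, h0 x hx, h0 y hy] at h1
    rw [hsymm y x] at h1
    have : (2 : F) * B x y = 0 := by linear_combination h1
    exact (mul_eq_zero.mp this).resolve_left h2
  have hP : ∀ m, m ≤ n →
      ∃ u : Fin m → V, ∀ i j, B (u i) (u j) = if i = j then 1 else 0 := by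
    intro m
    induction m with
    | zero => intro _; exact ⟨Fin.elim0, fun i => i.elim0⟩
    | succ m ih =>
      intro hm
      obtain ⟨u, hu⟩ := ih (by omega)
      obtain ⟨w₁, hw₁, hw₁u⟩ := exists_ortho_ext B hS hB hpol u
        (fun i j hij => by rw [hu, if_neg hij])
        (fun i => by rw [hu, if_pos rfl]; exact one_ne_zero) (by omega)
      obtain ⟨w₂, hw₂, hw₂u⟩ := exists_ortho_ext B hS hB hpol (Fin.cons w₁ u : Fin (m + 1) → V)
        (by
          intro i j
          refine Fin.cases ?_ (fun i => ?_) i <;> refine Fin.cases ?_ (fun j => ?_) j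
          · intro h; exact absurd rfl h
          · intro _; simp only [Fin.cons_zero, Fin.cons_succ]; rw [hsymm]; exact hw₁u j
          · intro _; simp only [Fin.cons_zero, Fin.cons_succ]; exact hw₁u i
          · intro h; simp only [Fin.cons_succ]; rw [hu, if_neg (fun h' => h (by rw [h']))])
        (by
          intro i
          refine Fin.cases ?_ (fun i => ?_) i
          · simpa using hw₁
          · simp only [Fin.cons_succ]; rw [hu, if_pos rfl]; exact one_ne_zero)
        (by omega)
      have h12 : B w₁ w₂ = 0 := by simpa using hw₂u 0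
      have hu2 : ∀ i, B (u i) w₂ = 0 := fun i => by simpa using hw₂u i.succ
      obtain ⟨x, y, hxy⟩ := exists_sol h2 (B w₁ w₁) (B w₂ w₂) hw₁ hw₂
      refine ⟨Fin.cons (x • w₁ + y • w₂) u, ?_⟩
      intro i j
      refine Fin.cases ?_ (fun i => ?_) i <;> refine Fin.cases ?_ (fun j => ?_) j
      · simp only [Fin.cons_zero, map_add, map_smul, LinearMap.add_apply, LinearMap.smul_apply,
          smul_eq_mul, if_true, h12, hsymm w₂ w₁]
        linear_combination hxy
      · simp only [Fin.cons_zero, Fin.cons_succ, map_add, map_smul, LinearMap.add_apply,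
          LinearMap.smul_apply, smul_eq_mul, hsymm w₁ (u j), hsymm w₂ (u j), hw₁u j, hu2 j]
        simp [(Fin.succ_ne_zero j).symm]
      · simp only [Fin.cons_zero, Fin.cons_succ, map_add, map_smul, smul_eq_mul, hw₁u i, hu2 i]
        simp [Fin.succ_ne_zero i]
      · simp [hu i j]
  obtain ⟨u, hu⟩ := hP n le_rfl
  obtain ⟨w, hw, hwu⟩ := exists_ortho_ext B hS hB hpol u
    (fun i j hij => by rw [hu, if_neg hij])
    (fun i => by rw [hu, if_pos rfl]; exact one_ne_zero) (by omega)
  obtain ⟨c, hc0, hc⟩ := sq_or_alpha α hα (B w w) hw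
  set w' := c⁻¹ • w with hw'
  have hw'w' : B w' w' = 1 ∨ B w' w' = α := by
    have : B w' w' = c⁻¹ * (c⁻¹ * B w w) := by
      simp [hw']
    rcases hc with h | h
    · left; rw [this, h]; field_simp
    · right; rw [this, h]; field_simp
  have hα0 : α ≠ 0 := by rintro rfl; exact hα ⟨0, by simp⟩
  have hw'0 : B w' w' ≠ 0 := by
    rcases hw'w' with h | h <;> rw [h]
    · exact one_ne_zero
    · exact hα0
  have huw' : ∀ i, B (u i) w' = 0 := fun i => by simp [hw', hwu i]
  set b : Fin (n + 1) → V := Fin.snoc u w' with hb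
  have hbl : b (Fin.last n) = w' := by simp [hb]
  have hbc : ∀ i : Fin n, b i.castSucc = u i := fun i => by simp [hb]
  have ho : ∀ i j, i ≠ j → B (b i) (b j) = 0 := by
    intro i j
    refine Fin.lastCases ?_ (fun i => ?_) i <;> refine Fin.lastCases ?_ (fun j => ?_) j
    · intro h; exact absurd rfl h
    · intro _; rw [hbl, hbc, hsymm]; exact huw' j
    · intro _; rw [hbl, hbc]; exact huw' i
    · intro h; rw [hbc, hbc, hu, if_neg (fun h' => h (by rw [h']))]
  have hnn : ∀ i, B (b i) (b i) ≠ 0 := by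
    intro i
    refine Fin.lastCases ?_ (fun i => ?_) i
    · rw [hbl]; exact hw'0
    · rw [hbc, hu, if_pos rfl]; exact one_ne_zero
  have hli := ortho_li B b ho hnn
  refine ⟨basisOfLinearIndependentOfCardEqFinrank' b hli (by simp [hn]), ?_, ?_, ?_⟩
  · intro i j hij
    rw [coe_basisOfLinearIndependentOfCardEqFinrank']
    exact ho i j hij
  · intro i
    rw [coe_basisOfLinearIndependentOfCardEqFinrank']
    refine Fin.lastCases ?_ (fun i => ?_) i
    · intro h; exact absurd rfl h
    · intro _; rw [hbc, hu, if_pos rfl]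
  · rw [coe_basisOfLinearIndependentOfCardEqFinrank', hbl]
    exact hw'w'

end Cfsg.Agent.S0756
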