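import Cfsg.Statements.S0757
import Mathlib

set_option autoImplicit false
open Cfsg

namespace Cfsg.Agent.S0757

open Matrix

lemma polar_wss {F : Type*} [Field F] {ι : Type*} [Fintype ι] (w : ι → F) (x y : ι → F) :
    QuadraticMap.polar (QuadraticMap.weightedSumSquares F w) x y = 2 * ∑ i, w i * x i * y i := by
  simp only [QuadraticMap.polar, QuadraticMap.weightedSumSquares_apply, Pi.add_apply, smul_eq_mul]
  rw [← Finset.sum_sub_distrib, ← Finset.sum_sub_distrib, Finset.mul_sum]
  apply Finset.sum_congr rfl; intro i _; ring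

/-- The two diagonal forms Σ x_i^2 and Σ_(i<n) x_i^2 + α x_n^2 on F^(n+1), with α a non-square and 2 ≠ 0 in F, are inequivalent quadratic forms (so over a finite field of odd order there are exactly two classes of non-singular symmetric bilinear forms in each dimension). -/
theorem result {F : Type*} [Field F] (h2 : (2 : F) ≠ 0) (n : ℕ) (α : F) (hα : ¬ IsSquare α) : ¬ (QuadraticMap.weightedSumSquares F (fun _ : Fin (n + 1) => (1 : F))).Equivalent (QuadraticMap.weightedSumSquares F (fun i : Fin (n + 1) => if i = Fin.last n then α else (1 : F))) := by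
  rintro ⟨e⟩
  set w : Fin (n + 1) → F := fun i => if i = Fin.last n then α else 1 with hw
  set P := LinearMap.toMatrix' (e.toLinearEquiv : (Fin (n + 1) → F) →ₗ[F] (Fin (n + 1) → F)) with hP
  have hPx : ∀ x, P *ᵥ x = e x := fun x => by rw [hP, LinearMap.toMatrix'_mulVec]; rfl
  have h1 : ∀ x y : Fin (n + 1) → F, ∑ i, w i * (e x) i * (e y) i = ∑ i, (1 : F) * x i * y i := by
    intro x y
    have hpol : QuadraticMap.polar (QuadraticMap.weightedSumSquares F w) (e x) (e y) =
        QuadraticMap.polar (QuadraticMap.weightedSumSquares F (fun _ : Fin (n + 1) => (1 : F))) x y := by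
      simp only [QuadraticMap.polar, ← map_add, e.map_app]
    rw [polar_wss, polar_wss] at hpol
    exact mul_left_cancel₀ h2 hpol
  have h3 : Pᵀ * Matrix.diagonal w * P = 1 := by
    ext i j
    have := h1 (Pi.single i 1) (Pi.single j 1)
    rw [← hPx, ← hPx] at this
    simp only [Matrix.mulVec_single_one, Matrix.col_apply] at this
    rw [Matrix.mul_apply]
    simp only [Matrix.mul_diagonal, Matrix.transpose_apply]
    rw [Matrix.one_apply]
    have h5 : ∑ k, (1 : F) * (Pi.single i (1 : F) : Fin (n + 1) → F) k * (Pi.single j (1 : F) : Fin (n + 1) → F) k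
        = if i = j then 1 else 0 := by
      simp [Pi.single_apply, eq_comm]
    rw [← h5, ← this]
    apply Finset.sum_congr rfl; intro k _; ring
  have h4 := congrArg Matrix.det h3
  rw [Matrix.det_mul, Matrix.det_mul, Matrix.det_transpose, Matrix.det_diagonal, Matrix.det_one] at h4
  have h5 : ∏ i, w i = α := by
    rw [Fin.prod_univ_castSucc]; simp [hw, (Fin.castSucc_lt_last _).ne]
  rw [h5] at h4
  apply hα
  have hd : P.det ≠ 0 := by intro h; rw [h] at h4; simp at h4
  refine ⟨P.det⁻¹, ?_⟩
  field_simp
  linear_combination h4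

end Cfsg.Agent.S0757
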