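import Cfsg.Statements.S0759
import Cfsg.Agent.Lib.Helper14.SumSq

set_option autoImplicit false
open Cfsg

namespace Cfsg.Agent.S0759

/-- Type of the orthonormal form: over a finite field of odd order q and for m ≥ 1, the quadratic form Σ_(i<2m) x_i² on F^(2m) admits an m-dimensional subspace on which it vanishes identically if and only if it is not the case that q ≡ 3 (mod 4) and m is odd. -/
theorem result {F : Type*} [Field F] [Fintype F] (h2 : (2 : F) ≠ 0) (m : ℕ) (hm : 1 ≤ m) : (∃ W : Submodule F (Fin (2 * m) → F), Module.finrank F W = m ∧ ∀ w ∈ W, ∑ i, w i ^ 2 = 0) ↔ ¬ (Fintype.card F % 4 = 3 ∧ Odd m) := by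
  classical
  have hiff : (∃ W : Submodule F (Fin (2 * m) → F), Module.finrank F W = m ∧ ∀ w ∈ W, ∑ i, w i ^ 2 = 0) ↔
      Cfsg.Agent.Lib.Helper14.SumSq.TS F (Fin m ⊕ Fin m) m := by
    have e : Fin (2 * m) ≃ Fin m ⊕ Fin m := Fintype.equivOfCardEq (by simp [two_mul])
    exact ⟨fun h => Cfsg.Agent.Lib.Helper14.SumSq.TS.congr e h,
      fun h => Cfsg.Agent.Lib.Helper14.SumSq.TS.congr e.symm h⟩
  rw [hiff]
  constructor
  · rintro h ⟨hq, hodd⟩
    have h1 := Cfsg.Agent.Lib.Helper14.SumSq.isSquare_of_TS h2 m h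
    rw [hodd.neg_one_pow] at h1
    exact FiniteField.isSquare_neg_one_iff.mp h1 hq
  · intro h
    by_cases hq : Fintype.card F % 4 = 3
    · have hev : Even m := by
        rw [← Nat.not_odd_iff_even]
        exact fun ho => h ⟨hq, ho⟩
      obtain ⟨l, hl⟩ := hev
      obtain ⟨p, hp⟩ := CharP.exists F
      have := hp
      have hpp : p.Prime := CharP.char_is_prime F p
      have : NeZero p := ⟨hpp.ne_zero⟩
      obtain ⟨a, b, hab⟩ := CharP.sq_add_sq F p (-1)
      have h3 := Cfsg.Agent.Lib.Helper14.SumSq.TS.of_sum_sq l (a : F) (b : F) (by simpa using hab)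
      have e : (Fin 2 × Fin l) ⊕ (Fin 2 × Fin l) ≃ Fin m ⊕ Fin m :=
        Fintype.equivOfCardEq (by simp [hl]; ring)
      have h4 := Cfsg.Agent.Lib.Helper14.SumSq.TS.congr e h3
      rwa [show 2 * l = m by omega] at h4
    · obtain ⟨i, hi⟩ := FiniteField.isSquare_neg_one_iff.mpr hq
      exact Cfsg.Agent.Lib.Helper14.SumSq.TS.of_sq m i hi.symm

end Cfsg.Agent.S0759
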