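import Cfsg.Statements.S0760
import Mathlib
import Cfsg.Agent.Lib.Helper5.WittQuad

set_option autoImplicit false
open Cfsg

namespace Cfsg.Agent.S0760

open Cfsg.Agent.Lib.Helper5

theorem aux {F V : Type*} [Field F] [AddCommGroup V] [Module F V] [FiniteDimensional F V]
    (Q : QuadraticForm F V) (hQ : (QuadraticMap.polarBilin Q).Nondegenerate)
    (W₁ W₂ : Submodule F V) (h₁ : ∀ w ∈ W₁, Q w = 0) (h₂ : ∀ w ∈ W₂, Q w = 0)
    (hmax₁ : ∀ W : Submodule F V, W₁ ≤ W → (∀ w ∈ W, Q w = 0) → W = W₁)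
    (hle : Module.finrank F W₁ ≤ Module.finrank F W₂) :
    Module.finrank F W₁ = Module.finrank F W₂ := by
  obtain ⟨j, hj⟩ := finrank_le_iff_exists_linearMap.mp hle
  set k : W₁ →ₗ[F] V := W₂.subtype ∘ₗ j with hk
  have hkinj : Function.Injective k := W₂.subtype_injective.comp hj
  obtain ⟨g, hg, hgx⟩ := witt_quad Q hQ W₁ (LinearMap.range k) (LinearEquiv.ofInjective k hkinj)
    (fun x => by
      rw [h₁ x x.2]
      exact h₂ _ (j x).2)
  have hW := hmax₁ (W₂.comap (g : V →ₗ[F] V)) (fun x hx => by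
      show g x ∈ W₂
      rw [hgx ⟨x, hx⟩]
      exact (j ⟨x, hx⟩).2) (fun w hw => by
      rw [← hg w]
      exact h₂ _ hw)
  rw [← hW]
  have : W₂.comap (g : V →ₗ[F] V) = W₂.map (g.symm : V →ₗ[F] V) :=
    (Submodule.map_equiv_eq_comap_symm g.symm W₂).symm
  rw [this]
  exact LinearEquiv.finrank_map_eq g.symm W₂

/-- Witt index is well defined: if Q is a quadratic form on a finite-dimensional space V over a finite field with non-degenerate polar form, and W₁, W₂ are subspaces on which Q vanishes that are maximal with this property, then W₁ and W₂ have the same dimension, and twice this dimension is at most dim V. -/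
theorem result {F V : Type*} [Field F] [Finite F] [AddCommGroup V] [Module F V] [FiniteDimensional F V] (Q : QuadraticForm F V) (hQ : (QuadraticMap.polarBilin Q).Nondegenerate) (W₁ W₂ : Submodule F V) (h₁ : ∀ w ∈ W₁, Q w = 0) (h₂ : ∀ w ∈ W₂, Q w = 0) (hmax₁ : ∀ W : Submodule F V, W₁ ≤ W → (∀ w ∈ W, Q w = 0) → W = W₁) (hmax₂ : ∀ W : Submodule F V, W₂ ≤ W → (∀ w ∈ W, Q w = 0) → W = W₂) : Module.finrank F W₁ = Module.finrank F W₂ ∧ 2 * Module.finrank F W₁ ≤ Module.finrank F V := by
  refine ⟨?_, ?_⟩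
  · rcases le_total (Module.finrank F W₁) (Module.finrank F W₂) with h | h
    · exact aux Q hQ W₁ W₂ h₁ h₂ hmax₁ h
    · exact (aux Q hQ W₂ W₁ h₂ h₁ hmax₂ h).symm
  · have hle : W₁ ≤ LinearMap.BilinForm.orthogonal (QuadraticMap.polarBilin Q) W₁ := by
      intro x hx
      rw [LinearMap.BilinForm.mem_orthogonal_iff]
      intro y hy
      show QuadraticMap.polar Q y x = 0
      rw [QuadraticMap.polar, h₁ _ (W₁.add_mem hy hx), h₁ y hy, h₁ x hx]
      simp
    have h1 := Submodule.finrank_mono hle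
    rw [LinearMap.BilinForm.finrank_orthogonal hQ] at h1
    have h2 := Submodule.finrank_le W₁
    omega

end Cfsg.Agent.S0760
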