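import Cfsg.Statements.S0761
import Mathlib

set_option autoImplicit false
open Cfsg

namespace Cfsg.Agent.S0761

/-- Hyperbolic partners: let B be a non-degenerate bilinear form on a finite-dimensional space, either alternating, or symmetric with 2 ≠ 0. If Z is a subspace on which B vanishes, x ∉ Z is isotropic and orthogonal to Z, then there is an isotropic y with B x y = 1 which is orthogonal to Z. -/
theorem result {F V : Type*} [Field F] [AddCommGroup V] [Module F V] [FiniteDimensional F V] (B : LinearMap.BilinForm F V) (hB : B.Nondegenerate) (hform : B.IsAlt ∨ (B.IsSymm ∧ (2 : F) ≠ 0)) (x : V) (Z : Submodule F V) (hxZ : x ∉ Z) (hx : B x x = 0) (hxz : ∀ z ∈ Z, B x z = 0) (hZ : ∀ z ∈ Z, ∀ z' ∈ Z, B z z' = 0) : ∃ y : V, B y y = 0 ∧ B x y = 1 ∧ ∀ z ∈ Z, B z y = 0 := by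
  obtain ⟨f, hfx, hfZ⟩ := Submodule.exists_le_ker_of_notMem hxZ
  have hBf : B.flip.Nondegenerate := hB.flip
  set y0 := (B.flip.toDual hBf).symm f with hy0
  have hy0f : ∀ v, B v y0 = f v := fun v => by
    have := LinearMap.BilinForm.apply_toDual_symm_apply (B := B.flip) (hB := hBf) f v
    rwa [LinearMap.BilinForm.flip_apply] at this
  set y1 := (f x)⁻¹ • y0 with hy1
  have h1 : B x y1 = 1 := by rw [hy1, map_smul, hy0f, smul_eq_mul, inv_mul_cancel₀ hfx]
  have h2 : ∀ z ∈ Z, B z y1 = 0 := by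
    intro z hz
    rw [hy1, map_smul, hy0f, LinearMap.mem_ker.mp (hfZ hz), smul_zero]
  rcases hform with hA | ⟨hS, h2'⟩
  · exact ⟨y1, hA y1, h1, h2⟩
  · set c := B y1 y1 / 2 with hc
    refine ⟨y1 - c • x, ?_, ?_, ?_⟩
    · have hs : B y1 x = 1 := by rw [← hS.eq x y1]; simpa using h1
      simp only [map_sub, map_smul, LinearMap.sub_apply, LinearMap.smul_apply, smul_eq_mul, hx, h1, hs]
      rw [hc]; field_simp; ring
    · simp only [map_sub, map_smul, smul_eq_mul, hx, h1]; ring
    · intro z hz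
      have : B z x = 0 := by rw [← hS.eq x z]; simp [hxz z hz]
      simp only [map_sub, map_smul, smul_eq_mul, h2 z hz, this]; ring

end Cfsg.Agent.S0761
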