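import Cfsg.Statements.S0763
import Mathlib

set_option autoImplicit false
open Cfsg

namespace Cfsg.Agent.S0763

/-- Binary quadratic forms in characteristic two over a finite field: if Q is a quadratic form on a 2-dimensional space whose polar form is non-degenerate, then either there are vectors v, w with Q v = Q w = 0 and polar value 1 (Q is xy in these coordinates), or there are v, w and μ with Q v = 1, Q w = μ, polar value 1 and x² + x + μ without roots in F (Q is x² + xy + μy²). -/
theorem result {F V : Type*} [Field F] [Finite F] [CharP F 2] [AddCommGroup V] [Module F V] (Q : QuadraticForm F V) (h2 : Module.finrank F V = 2) (hQ : (QuadraticMap.polarBilin Q).Nondegenerate) : (∃ v w : V, LinearIndependent F ![v, w] ∧ Q v = 0 ∧ Q w = 0 ∧ QuadraticMap.polar Q v w = 1) ∨ (∃ (v w : V) (μ : F), LinearIndependent F ![v, w] ∧ (∀ x : F, x ^ 2 + x + μ ≠ 0) ∧ Q v = 1 ∧ Q w = μ ∧ QuadraticMap.polar Q v w = 1) := by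
  classical
  have := Fintype.ofFinite F
  have hsq : ∀ a : F, IsSquare a := FiniteField.isSquare_of_char_two (ringChar.eq F 2)
  have hself : ∀ v, QuadraticMap.polar Q v v = 0 := by
    intro v
    rw [QuadraticMap.polar_self, two_nsmul, CharTwo.add_self_eq_zero]
  have hpartner : ∀ v : V, v ≠ 0 → ∃ w, QuadraticMap.polar Q v w = 1 := by
    intro v hv
    obtain ⟨y, hy⟩ : ∃ y, QuadraticMap.polar Q v y ≠ 0 := by
      by_contra hcon
      push Not at hcon
      exact hv (hQ.1 v hcon)
    refine ⟨(QuadraticMap.polar Q v y)⁻¹ • y, ?_⟩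
    rw [QuadraticMap.polar_smul_right, smul_eq_mul, inv_mul_cancel₀ hy]
  have hli : ∀ v w : V, QuadraticMap.polar Q v w = 1 → LinearIndependent F ![v, w] := by
    intro v w h
    rw [LinearIndependent.pair_iff]
    intro s t hst
    have h1 : QuadraticMap.polar Q v (s • v + t • w) = 0 := by rw [hst]; simp
    have h2 : QuadraticMap.polar Q (s • v + t • w) w = 0 := by rw [hst]; simp
    rw [QuadraticMap.polar_add_right, QuadraticMap.polar_smul_right, QuadraticMap.polar_smul_right,
      hself, h] at h1
    rw [QuadraticMap.polar_add_left, QuadraticMap.polar_smul_left, QuadraticMap.polar_smul_left,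
      hself, h] at h2
    simp at h1 h2
    exact ⟨h2, h1⟩
  have : Nontrivial V := Module.nontrivial_of_finrank_pos (R := F) (by omega)
  by_cases hiso : ∃ v : V, v ≠ 0 ∧ Q v = 0
  · left
    obtain ⟨v, hv, hQv⟩ := hiso
    obtain ⟨w', hw'⟩ := hpartner v hv
    have hp : QuadraticMap.polar Q v (w' + Q w' • v) = 1 := by
      rw [QuadraticMap.polar_add_right, QuadraticMap.polar_smul_right, hself, hw']; simp
    refine ⟨v, w' + Q w' • v, hli _ _ hp, hQv, ?_, hp⟩
    rw [QuadraticMap.map_add Q, QuadraticMap.map_smul, hQv, QuadraticMap.polar_smul_right,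
      QuadraticMap.polar_comm, hw']
    simp [CharTwo.add_self_eq_zero]
  · right
    push Not at hiso
    obtain ⟨v₀, hv₀⟩ := exists_ne (0 : V)
    obtain ⟨c, hc⟩ := hsq (Q v₀)
    have hQv₀ := hiso v₀ hv₀
    have hc0 : c ≠ 0 := by rintro rfl; exact hQv₀ (by rw [hc]; ring)
    have hv : c⁻¹ • v₀ ≠ 0 := smul_ne_zero (inv_ne_zero hc0) hv₀
    obtain ⟨w, hw⟩ := hpartner _ hv
    have hl := hli _ _ hw
    refine ⟨c⁻¹ • v₀, w, Q w, hl, ?_, ?_, rfl, hw⟩
    · intro x hx
      have hne : x • (c⁻¹ • v₀) + w ≠ 0 := by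
        intro h0
        have := (LinearIndependent.pair_iff.mp hl) x 1 (by rw [one_smul]; exact h0)
        exact one_ne_zero this.2
      apply hiso _ hne
      rw [QuadraticMap.map_add Q, QuadraticMap.map_smul, QuadraticMap.polar_smul_left, hw,
        QuadraticMap.map_smul, hc]
      simp only [smul_eq_mul]
      field_simp
      linear_combination hx
    · rw [QuadraticMap.map_smul, hc, smul_eq_mul]
      field_simp

end Cfsg.Agent.S0763
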