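import Cfsg.Statements.S0769
import Mathlib

set_option autoImplicit false
open Cfsg

namespace Cfsg.Agent.S0769

open Matrix

/-- Order of the Borel subgroup of GL_n(q): the invertible lower-triangular n × n matrices over a field with q elements number q^(n(n-1)/2) (q-1)^n (unitriangular part times the diagonal torus). -/
theorem result {F : Type*} [Field F] [Fintype F] {q : ℕ} (hF : Fintype.card F = q) (n : ℕ) : Nat.card {g : Matrix.GeneralLinearGroup (Fin n) F // ∀ i j : Fin n, i < j → (g : Matrix (Fin n) (Fin n) F) i j = 0} = q ^ (n * (n - 1) / 2) * (q - 1) ^ n := by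
  classical
  subst hF
  let mat : ((i : Fin n) → ((Fin (i : ℕ) → F) × Fˣ)) → Matrix (Fin n) (Fin n) F :=
    fun r i j => if h : (j : ℕ) < (i : ℕ) then (r i).1 ⟨j, h⟩ else if j = i then ((r i).2 : F) else 0
  have hlow : ∀ r, ∀ i j : Fin n, i < j → mat r i j = 0 := by
    intro r i j hij
    have h1 : ¬ (j : ℕ) < (i : ℕ) := by
      have : (i : ℕ) < (j : ℕ) := hij
      omega
    simp only [mat, dif_neg h1, if_neg hij.ne']
  have hdiag : ∀ r, ∀ i : Fin n, mat r i i = ((r i).2 : F) := by
    intro r i
    simp [mat]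
  have hdet : ∀ r, (mat r).det ≠ 0 := by
    intro r
    rw [Matrix.det_of_isLowerTriangular (mat r) (fun i j hij => hlow r i j hij)]
    apply Finset.prod_ne_zero_iff.mpr
    intro i _
    rw [hdiag]
    exact (r i).2.ne_zero
  let Φ : ((i : Fin n) → ((Fin (i : ℕ) → F) × Fˣ)) →
      {g : Matrix.GeneralLinearGroup (Fin n) F // ∀ i j : Fin n, i < j → (g : Matrix (Fin n) (Fin n) F) i j = 0} :=
    fun r => ⟨Matrix.GeneralLinearGroup.mkOfDetNeZero (mat r) (hdet r), hlow r⟩
  have hbij : Function.Bijective Φ := by
    constructor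
    · intro r s hrs
      have h1 : mat r = mat s := congrArg (fun z : {g : Matrix.GeneralLinearGroup (Fin n) F // ∀ i j : Fin n, i < j → (g : Matrix (Fin n) (Fin n) F) i j = 0} => ((z : Matrix.GeneralLinearGroup (Fin n) F) : Matrix (Fin n) (Fin n) F)) hrs
      funext i
      apply Prod.ext
      · funext j
        have h2 := congrFun (congrFun h1 i) ⟨j, j.2.trans i.2⟩
        simp only [mat, dif_pos j.2] at h2
        exact h2
      · apply Units.ext
        rw [← hdiag r i, ← hdiag s i, h1]
    · rintro ⟨g, hg⟩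
      have hgd : ∀ i, (g : Matrix (Fin n) (Fin n) F) i i ≠ 0 := by
        have h1 := (Matrix.isUnits_det_units g).ne_zero
        rw [Matrix.det_of_isLowerTriangular _ (fun i j hij => hg i j hij)] at h1
        intro i
        exact Finset.prod_ne_zero_iff.mp h1 i (Finset.mem_univ i)
      let r : (i : Fin n) → ((Fin (i : ℕ) → F) × Fˣ) :=
        fun i => (fun j => (g : Matrix (Fin n) (Fin n) F) i ⟨j, j.2.trans i.2⟩, Units.mk0 _ (hgd i))
      refine ⟨r, ?_⟩
      apply Subtype.ext
      apply Units.ext
      ext i j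
      show mat r i j = (g : Matrix (Fin n) (Fin n) F) i j
      simp only [mat, r]
      by_cases h : (j : ℕ) < (i : ℕ)
      · rw [dif_pos h]
      · rw [dif_neg h]
        by_cases h2 : j = i
        · rw [if_pos h2, h2]; rfl
        · rw [if_neg h2]
          symm
          apply hg
          show (i : ℕ) < (j : ℕ)
          have : (j : ℕ) ≠ (i : ℕ) := fun h3 => h2 (Fin.ext h3)
          omega
  rw [← Nat.card_congr (Equiv.ofBijective Φ hbij), Nat.card_eq_fintype_card, Fintype.card_pi]
  simp only [Fintype.card_prod, Fintype.card_pi, Finset.prod_const, Finset.card_univ, Fintype.card_fin,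
    Fintype.card_units, Finset.prod_mul_distrib]
  congr 1
  rw [Finset.prod_pow_eq_pow_sum, Fin.sum_univ_eq_sum_range (fun i => i) n, Finset.sum_range_id]

end Cfsg.Agent.S0769
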