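import Cfsg.Statements.S0770
import Mathlib

set_option autoImplicit false
open Cfsg

namespace Cfsg.Agent.S0770

open Matrix

theorem memD {F : Type*} [Field F] (n : ℕ) (h : Matrix.GeneralLinearGroup (Fin n) F) :
    h ∈ ((Units.map (Matrix.diagonalRingHom (Fin n) F).toMonoidHom).range :
      Subgroup (Matrix.GeneralLinearGroup (Fin n) F)) ↔
      ∀ i j : Fin n, i ≠ j → (h : Matrix (Fin n) (Fin n) F) i j = 0 := by
  constructor
  · rintro ⟨d, rfl⟩ i j hij
    show Matrix.diagonal (d : Fin n → F) i j = 0
    exact Matrix.diagonal_apply_ne _ hij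
  · intro hh
    have hdiag : (h : Matrix (Fin n) (Fin n) F) = Matrix.diagonal (fun i => (h : Matrix (Fin n) (Fin n) F) i i) := by
      ext i j
      by_cases hij : i = j
      · subst hij; simp
      · rw [hh i j hij, Matrix.diagonal_apply_ne _ hij]
    have hne : ∀ i, (h : Matrix (Fin n) (Fin n) F) i i ≠ 0 := by
      intro i h0
      have h1 : ((h * h⁻¹ : Matrix.GeneralLinearGroup (Fin n) F) : Matrix (Fin n) (Fin n) F) i i = 1 := by
        rw [mul_inv_cancel]; simp
      rw [Units.val_mul, hdiag, Matrix.diagonal_mul, h0, zero_mul] at h1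
      exact zero_ne_one h1
    refine ⟨MulEquiv.piUnits.symm (fun i => Units.mk0 _ (hne i)), ?_⟩
    apply Units.ext
    exact hdiag.symm

/-- For a field with at least 3 elements, an invertible matrix normalises the subgroup of invertible diagonal matrices of GL_n if and only if it is monomial (exactly one non-zero entry in each row). -/
theorem result {F : Type*} [Field F] (hF : ∃ a : F, a ≠ 0 ∧ a ≠ 1) (n : ℕ) (g : Matrix.GeneralLinearGroup (Fin n) F) : g ∈ Subgroup.normalizer ((Units.map (Matrix.diagonalRingHom (Fin n) F).toMonoidHom).range : Subgroup (Matrix.GeneralLinearGroup (Fin n) F)) ↔ ∀ i : Fin n, ∃! j : Fin n, (g : Matrix (Fin n) (Fin n) F) i j ≠ 0 := by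
  rw [Subgroup.mem_normalizer_iff]
  have hgi : (g : Matrix (Fin n) (Fin n) F) * ((g⁻¹ : Matrix.GeneralLinearGroup (Fin n) F) : Matrix (Fin n) (Fin n) F) = 1 := by
    rw [← Units.val_mul, mul_inv_cancel]; rfl
  have hig : ((g⁻¹ : Matrix.GeneralLinearGroup (Fin n) F) : Matrix (Fin n) (Fin n) F) * (g : Matrix (Fin n) (Fin n) F) = 1 := by
    rw [← Units.val_mul, inv_mul_cancel]; rfl
  constructor
  · intro hN i
    have hex : ∃ j, (g : Matrix (Fin n) (Fin n) F) i j ≠ 0 := by
      by_contra hcon
      push Not at hcon
      have h1 := congrFun (congrFun hgi i) i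
      rw [Matrix.mul_apply, Matrix.one_apply_eq] at h1
      rw [Finset.sum_eq_zero (fun j _ => by rw [hcon j, zero_mul])] at h1
      exact zero_ne_one h1
    obtain ⟨j, hj⟩ := hex
    refine ⟨j, hj, fun k hk => ?_⟩
    by_contra hkj
    obtain ⟨a, ha0, ha1⟩ := hF
    have hdne : ∀ l : Fin n, (if l = j then a else 1) ≠ 0 := by
      intro l; split_ifs
      · exact ha0
      · exact one_ne_zero
    set d : Matrix.GeneralLinearGroup (Fin n) F := Units.map (Matrix.diagonalRingHom (Fin n) F).toMonoidHom
      (MulEquiv.piUnits.symm (fun l => Units.mk0 _ (hdne l))) with hd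
    have hdm : (d : Matrix (Fin n) (Fin n) F) = Matrix.diagonal (fun l => if l = j then a else 1) := rfl
    have h1 := (hN d).mp ⟨_, rfl⟩
    rw [memD] at h1
    set d' := g * d * g⁻¹ with hd'
    have h2 : (g : Matrix (Fin n) (Fin n) F) * (d : Matrix (Fin n) (Fin n) F) = (d' : Matrix (Fin n) (Fin n) F) * (g : Matrix (Fin n) (Fin n) F) := by
      rw [← Units.val_mul, ← Units.val_mul, hd']; congr 1; group
    have hd'diag : (d' : Matrix (Fin n) (Fin n) F) = Matrix.diagonal (fun i => (d' : Matrix (Fin n) (Fin n) F) i i) := by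
      ext i j
      by_cases hij : i = j
      · subst hij; simp
      · rw [h1 i j hij, Matrix.diagonal_apply_ne _ hij]
    rw [hdm, hd'diag] at h2
    have e1 := congrFun (congrFun h2 i) j
    have e2 := congrFun (congrFun h2 i) k
    rw [Matrix.mul_diagonal, Matrix.diagonal_mul] at e1 e2
    rw [if_pos rfl] at e1
    rw [if_neg hkj] at e2
    have e3 : a = (d' : Matrix (Fin n) (Fin n) F) i i := by
      apply mul_left_cancel₀ hj
      rw [e1]; ring
    have e4 : 1 = (d' : Matrix (Fin n) (Fin n) F) i i := by
      apply mul_left_cancel₀ hk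
      rw [e2]; ring
    exact ha1 (e3.trans e4.symm)
  · intro hmono
    choose π hπ hπu using hmono
    have hz : ∀ i j, j ≠ π i → (g : Matrix (Fin n) (Fin n) F) i j = 0 := by
      intro i j hj
      by_contra h0
      exact hj (hπu i j h0)
    have hsurj : Function.Surjective π := by
      intro k
      by_contra hcon
      push Not at hcon
      have h1 := congrFun (congrFun hig k) k
      rw [Matrix.mul_apply, Matrix.one_apply_eq] at h1
      rw [Finset.sum_eq_zero (fun i _ => by rw [hz i k (hcon i).symm, mul_zero])] at h1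
      exact zero_ne_one h1
    intro h
    rw [memD, memD]
    constructor
    · intro hh
      have hdiag : (h : Matrix (Fin n) (Fin n) F) = Matrix.diagonal (fun i => (h : Matrix (Fin n) (Fin n) F) i i) := by
        ext i j
        by_cases hij : i = j
        · subst hij; simp
        · rw [hh i j hij, Matrix.diagonal_apply_ne _ hij]
      have h2 : (g : Matrix (Fin n) (Fin n) F) * (h : Matrix (Fin n) (Fin n) F) =
          Matrix.diagonal (fun i => (h : Matrix (Fin n) (Fin n) F) (π i) (π i)) * (g : Matrix (Fin n) (Fin n) F) := by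
        rw [hdiag]
        ext i j
        rw [Matrix.mul_diagonal, Matrix.diagonal_mul]
        by_cases hj : j = π i
        · subst hj; simp [mul_comm]
        · rw [hz i j hj]; simp
      have h3 : ((g * h * g⁻¹ : Matrix.GeneralLinearGroup (Fin n) F) : Matrix (Fin n) (Fin n) F) =
          Matrix.diagonal (fun i => (h : Matrix (Fin n) (Fin n) F) (π i) (π i)) := by
        rw [Units.val_mul, Units.val_mul, h2, Matrix.mul_assoc, hgi, Matrix.mul_one]
      intro i j hij
      rw [h3, Matrix.diagonal_apply_ne _ hij]
    · intro hh k j hkj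
      set h' := g * h * g⁻¹ with hh'
      have h2 : (g : Matrix (Fin n) (Fin n) F) * (h : Matrix (Fin n) (Fin n) F) = (h' : Matrix (Fin n) (Fin n) F) * (g : Matrix (Fin n) (Fin n) F) := by
        rw [← Units.val_mul, ← Units.val_mul, hh']; congr 1; group
      have hdiag : (h' : Matrix (Fin n) (Fin n) F) = Matrix.diagonal (fun i => (h' : Matrix (Fin n) (Fin n) F) i i) := by
        ext i j
        by_cases hij : i = j
        · subst hij; simp
        · rw [hh i j hij, Matrix.diagonal_apply_ne _ hij]
      obtain ⟨i, rfl⟩ := hsurj k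
      have e1 := congrFun (congrFun h2 i) j
      rw [hdiag, Matrix.diagonal_mul, hz i j hkj.symm, mul_zero, Matrix.mul_apply,
        Finset.sum_eq_single (π i) (fun l _ hl => by rw [hz i l hl, zero_mul]) (by simp)] at e1
      exact (mul_eq_zero.mp e1).resolve_left (hπ i)

end Cfsg.Agent.S0770
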