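import Cfsg.Statements.S0771
import Mathlib
import Cfsg.Agent.Lib.Helper5.Stab

set_option autoImplicit false
open Cfsg

namespace Cfsg.Agent.S0771

open Matrix Cfsg.Agent.Lib.Helper5

/-- the coordinate subspace -/
def coordW (F : Type*) [Field F] (n k : ℕ) : Submodule F (Fin n → F) where
  carrier := {v | ∀ i : Fin n, k ≤ (i : ℕ) → v i = 0}
  add_mem' := fun {a b} ha hb i hi => by rw [Pi.add_apply, ha i hi, hb i hi, add_zero]
  zero_mem' := fun _ _ => rfl
  smul_mem' := fun c a ha i hi => by rw [Pi.smul_apply, ha i hi, smul_zero]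

theorem mem_stab_iff {F : Type*} [Field F] (n k : ℕ) (g : Matrix.GeneralLinearGroup (Fin n) F) :
    g ∈ Cfsg.stabilizing (Cfsg.glToMat (Fin n) F) {v : Fin n → F | ∀ i : Fin n, k ≤ (i : ℕ) → v i = 0} ↔
      ∀ i j : Fin n, k ≤ (i : ℕ) → (j : ℕ) < k → (g : Matrix (Fin n) (Fin n) F) i j = 0 := by
  have h := mem_stabilizing_submodule (Cfsg.glToMat (Fin n) F) (coordW F n k) g
  refine Iff.trans h ?_
  constructor
  · intro hh i j hi hj
    have := hh (Pi.single j 1) (fun l hl => by
      rw [Pi.single_apply, if_neg]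
      intro hlj; rw [hlj] at hl; omega) i hi
    simpa using this
  · intro hh v hv i hi
    show ((g : Matrix (Fin n) (Fin n) F) *ᵥ v) i = 0
    rw [Matrix.mulVec, dotProduct]
    apply Finset.sum_eq_zero
    intro j _
    by_cases hj : (j : ℕ) < k
    · rw [hh i j hi hj, zero_mul]
    · rw [hv j (by omega), mul_zero]

/-- Maximal parabolic of GL_n(q): the stabiliser of the coordinate subspace spanned by the first k basis vectors has order q^(k(n-k)) · |GL_k(q)| · |GL_(n-k)(q)| (unipotent radical of order q^(k(n-k)) and Levi complement GL_k × GL_(n-k)). -/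
theorem result {F : Type*} [Field F] [Fintype F] {q : ℕ} (hF : Fintype.card F = q) (n k : ℕ) (hk : k ≤ n) : Nat.card ↥(Cfsg.stabilizing (Cfsg.glToMat (Fin n) F) {v : Fin n → F | ∀ i : Fin n, k ≤ (i : ℕ) → v i = 0}) = q ^ (k * (n - k)) * (∏ i : Fin k, (q ^ k - q ^ (i : ℕ))) * ∏ i : Fin (n - k), (q ^ (n - k) - q ^ (i : ℕ)) := by
  classical
  subst hF
  let e : Fin k ⊕ Fin (n - k) ≃ Fin n := finSumFinEquiv.trans (finCongr (by omega))
  have he1 : ∀ a : Fin k, ((e (Sum.inl a) : Fin n) : ℕ) = a := fun a => by simp [e]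
  have he2 : ∀ b : Fin (n - k), ((e (Sum.inr b) : Fin n) : ℕ) = k + b := fun b => by simp [e]
  have hdet : ∀ x : Matrix.GeneralLinearGroup (Fin k) F × Matrix.GeneralLinearGroup (Fin (n - k)) F × Matrix (Fin k) (Fin (n - k)) F,
      (Matrix.reindex e e (Matrix.fromBlocks (x.1 : Matrix (Fin k) (Fin k) F) x.2.2 0 (x.2.1 : Matrix (Fin (n - k)) (Fin (n - k)) F))).det ≠ 0 := by
    intro x
    rw [Matrix.det_reindex_self, Matrix.det_fromBlocks_zero₂₁]
    exact mul_ne_zero (Matrix.isUnits_det_units x.1).ne_zero (Matrix.isUnits_det_units x.2.1).ne_zero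
  let Φ : Matrix.GeneralLinearGroup (Fin k) F × Matrix.GeneralLinearGroup (Fin (n - k)) F × Matrix (Fin k) (Fin (n - k)) F →
      ↥(Cfsg.stabilizing (Cfsg.glToMat (Fin n) F) {v : Fin n → F | ∀ i : Fin n, k ≤ (i : ℕ) → v i = 0}) :=
    fun x => ⟨Matrix.GeneralLinearGroup.mkOfDetNeZero _ (hdet x), by
      rw [mem_stab_iff]
      intro i j hi hj
      show Matrix.reindex e e _ i j = 0
      rw [Matrix.reindex_apply, Matrix.submatrix_apply]
      obtain ⟨i', rfl⟩ := e.surjective i
      obtain ⟨j', rfl⟩ := e.surjective j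
      rw [Equiv.symm_apply_apply, Equiv.symm_apply_apply]
      rcases i' with a | b
      · rw [he1] at hi; have := a.2; omega
      · rcases j' with a' | b'
        · rfl
        · rw [he2] at hj; omega⟩
  have hΦ : ∀ x, (((Φ x : ↥(Cfsg.stabilizing (Cfsg.glToMat (Fin n) F) {v : Fin n → F | ∀ i : Fin n, k ≤ (i : ℕ) → v i = 0})) : Matrix.GeneralLinearGroup (Fin n) F) : Matrix (Fin n) (Fin n) F) =
      Matrix.reindex e e (Matrix.fromBlocks (x.1 : Matrix (Fin k) (Fin k) F) x.2.2 0 (x.2.1 : Matrix (Fin (n - k)) (Fin (n - k)) F)) := fun x => rfl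
  have hbij : Function.Bijective Φ := by
    constructor
    · intro x y hxy
      have h1 := congrArg (fun z : ↥(Cfsg.stabilizing (Cfsg.glToMat (Fin n) F) {v : Fin n → F | ∀ i : Fin n, k ≤ (i : ℕ) → v i = 0}) => ((z : Matrix.GeneralLinearGroup (Fin n) F) : Matrix (Fin n) (Fin n) F)) hxy
      simp only [hΦ] at h1
      have h2 := (Matrix.reindex e e).injective h1
      rw [Matrix.fromBlocks_inj] at h2
      obtain ⟨h3, h4, -, h5⟩ := h2
      exact Prod.ext (Units.ext h3) (Prod.ext (Units.ext h5) h4)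
    · rintro ⟨g, hg⟩
      have hg' := (mem_stab_iff n k g).mp hg
      set M := Matrix.reindex e.symm e.symm (g : Matrix (Fin n) (Fin n) F) with hM
      have h21 : M.toBlocks₂₁ = 0 := by
        ext b a
        show (g : Matrix (Fin n) (Fin n) F) (e (Sum.inr b)) (e (Sum.inl a)) = 0
        exact hg' _ _ (by rw [he2]; omega) (by rw [he1]; exact a.2)
      have hMb : M = Matrix.fromBlocks M.toBlocks₁₁ M.toBlocks₁₂ 0 M.toBlocks₂₂ := by
        conv_lhs => rw [← Matrix.fromBlocks_toBlocks M, h21]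
      have hdM : M.det ≠ 0 := by
        rw [hM, Matrix.det_reindex_self]
        exact (Matrix.isUnits_det_units g).ne_zero
      rw [hMb, Matrix.det_fromBlocks_zero₂₁] at hdM
      refine ⟨(Matrix.GeneralLinearGroup.mkOfDetNeZero M.toBlocks₁₁ (left_ne_zero_of_mul hdM),
        Matrix.GeneralLinearGroup.mkOfDetNeZero M.toBlocks₂₂ (right_ne_zero_of_mul hdM), M.toBlocks₁₂), ?_⟩
      apply Subtype.ext
      apply Units.ext
      rw [hΦ]
      show Matrix.reindex e e (Matrix.fromBlocks M.toBlocks₁₁ M.toBlocks₁₂ 0 M.toBlocks₂₂) = _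
      rw [← hMb, hM]
      ext i j
      simp
  rw [← Nat.card_congr (Equiv.ofBijective Φ hbij), Nat.card_prod, Nat.card_prod, Matrix.card_GL_field,
    Matrix.card_GL_field]
  have hmat : Nat.card (Matrix (Fin k) (Fin (n - k)) F) = Fintype.card F ^ (k * (n - k)) := by
    have : Nat.card (Matrix (Fin k) (Fin (n - k)) F) = Nat.card (Fin k → Fin (n - k) → F) := rfl
    rw [this, Nat.card_eq_fintype_card]
    simp [Fintype.card_pi, ← pow_mul, mul_comm]
  rw [hmat]
  ring

end Cfsg.Agent.S0771
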