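import Cfsg.Statements.S0772
import Mathlib
import Cfsg.Agent.S0771
import Cfsg.Agent.Lib.Helper5.Stab

set_option autoImplicit false
open Cfsg

namespace Cfsg.Agent.S0772

open Matrix Cfsg.Agent.Lib.Helper5 Cfsg.Agent.S0771

noncomputable def tvG {F : Type*} [Field F] {n : ℕ} (i j : Fin n) (hij : i ≠ j) (c : F) :
    Matrix.GeneralLinearGroup (Fin n) F :=
  Matrix.GeneralLinearGroup.mkOfDetNeZero (Matrix.transvection i j c)
    (by rw [Matrix.det_transvection_of_ne i j hij]; exact one_ne_zero)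

theorem tvG_coe {F : Type*} [Field F] {n : ℕ} (i j : Fin n) (hij : i ≠ j) (c : F) :
    (tvG i j hij c : Matrix (Fin n) (Fin n) F) = Matrix.transvection i j c := rfl

theorem tv_mulVec {F : Type*} [Field F] {n : ℕ} (i j : Fin n) (c : F) (y : Fin n → F) :
    Matrix.transvection i j c *ᵥ y = y + (c * y j) • Pi.single i 1 := by
  rw [Matrix.transvection, Matrix.add_mulVec, Matrix.one_mulVec, Matrix.single_mulVec]
  congr 1
  ext l
  by_cases h : l = i
  · subst h; simp
  · simp [h]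

theorem tvG_mem {F : Type*} [Field F] {n : ℕ} (k : ℕ) (i j : Fin n) (hij : i ≠ j) (c : F)
    (h : (i : ℕ) < k ∨ k ≤ (j : ℕ)) :
    tvG i j hij c ∈ Cfsg.stabilizing (Cfsg.glToMat (Fin n) F) {v : Fin n → F | ∀ i : Fin n, k ≤ (i : ℕ) → v i = 0} := by
  rw [mem_stab_iff]
  intro r s hr hs
  rw [tvG_coe, Matrix.transvection, Matrix.add_apply, Matrix.one_apply_ne (by intro e; rw [e] at hr; omega),
    Matrix.single_apply, if_neg, add_zero]
  rintro ⟨rfl, rfl⟩
  omega

theorem gl_inv_mulVec {F : Type*} [Field F] {n : ℕ} (g : Matrix.GeneralLinearGroup (Fin n) F) (x : Fin n → F) :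
    ((g⁻¹ : Matrix.GeneralLinearGroup (Fin n) F) : Matrix (Fin n) (Fin n) F) *ᵥ ((g : Matrix (Fin n) (Fin n) F) *ᵥ x) = x := by
  rw [Matrix.mulVec_mulVec, ← Units.val_mul, inv_mul_cancel, Units.val_one, Matrix.one_mulVec]

/-- Maximal parabolics are maximal: over a finite field, for 0 < k < n the stabiliser in GL_n of the span of the first k coordinate vectors is a maximal proper subgroup. -/
theorem result {F : Type*} [Field F] [Finite F] (n k : ℕ) (hk0 : 0 < k) (hkn : k < n) : IsCoatom (Cfsg.stabilizing (Cfsg.glToMat (Fin n) F) {v : Fin n → F | ∀ i : Fin n, k ≤ (i : ℕ) → v i = 0}) := by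
  classical
  set P := Cfsg.stabilizing (Cfsg.glToMat (Fin n) F) {v : Fin n → F | ∀ i : Fin n, k ≤ (i : ℕ) → v i = 0} with hP
  have hPW : ∀ g : Matrix.GeneralLinearGroup (Fin n) F, g ∈ P ↔ ∀ v ∈ coordW F n k, (g : Matrix (Fin n) (Fin n) F) *ᵥ v ∈ coordW F n k :=
    fun g => mem_stabilizing_submodule (Cfsg.glToMat (Fin n) F) (coordW F n k) g
  constructor
  · intro htop
    have hij : (⟨k, hkn⟩ : Fin n) ≠ ⟨0, by omega⟩ := by
      intro h; have := congrArg Fin.val h; simp at this; omega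
    have h1 : tvG (⟨k, hkn⟩ : Fin n) ⟨0, by omega⟩ hij (1 : F) ∈ P := by rw [htop]; trivial
    rw [hP, mem_stab_iff] at h1
    have h2 := h1 ⟨k, hkn⟩ ⟨0, by omega⟩ le_rfl hk0
    rw [tvG_coe, Matrix.transvection, Matrix.add_apply, Matrix.one_apply_ne hij, Matrix.single_apply_same, zero_add] at h2
    exact one_ne_zero h2
  · intro H hlt
    obtain ⟨h, hhH, hhP⟩ := SetLike.exists_of_lt hlt
    have hle : P ≤ H := hlt.le
    rw [hPW] at hhP
    push Not at hhP
    obtain ⟨w, hw, hhw⟩ := hhP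
    obtain ⟨r, hr, hvr⟩ : ∃ r : Fin n, k ≤ (r : ℕ) ∧ ((h : Matrix (Fin n) (Fin n) F) *ᵥ w) r ≠ 0 := by
      by_contra hcon
      push Not at hcon
      exact hhw hcon
    -- Step A
    have stepA : ∀ i : Fin n, k ≤ (i : ℕ) → ∃ g ∈ H, ∃ w' ∈ coordW F n k, (g : Matrix (Fin n) (Fin n) F) *ᵥ w' = Pi.single i 1 := by
      intro i hi
      obtain ⟨g₀, hg₀, hg₀i⟩ : ∃ g₀ ∈ H, ((g₀ : Matrix (Fin n) (Fin n) F) *ᵥ w) i ≠ 0 := by
        by_cases hvi : ((h : Matrix (Fin n) (Fin n) F) *ᵥ w) i = 0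
        · have hir : i ≠ r := by rintro rfl; exact hvr hvi
          refine ⟨tvG i r hir 1 * h, H.mul_mem (hle (tvG_mem k i r hir 1 (Or.inr hr))) hhH, ?_⟩
          rw [Units.val_mul, ← Matrix.mulVec_mulVec, tvG_coe, tv_mulVec]
          simp [hvi, hvr]
        · exact ⟨h, hhH, hvi⟩
      set v' := (g₀ : Matrix (Fin n) (Fin n) F) *ᵥ w with hv'
      have hdet : ((1 : Matrix (Fin n) (Fin n) F).updateCol i v').det ≠ 0 := by
        rw [← Matrix.cramer_apply, Matrix.cramer_one]
        exact hg₀i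
      set s := Matrix.GeneralLinearGroup.mkOfDetNeZero _ hdet with hs
      have hsc : (s : Matrix (Fin n) (Fin n) F) = (1 : Matrix (Fin n) (Fin n) F).updateCol i v' := rfl
      have hsP : s ∈ P := by
        rw [hP, mem_stab_iff]
        intro a b ha hb
        rw [hsc, Matrix.updateCol_apply, if_neg (by intro e; rw [e] at hb; omega),
          Matrix.one_apply_ne (by intro e; rw [e] at ha; omega)]
      have hse : (s : Matrix (Fin n) (Fin n) F) *ᵥ Pi.single i 1 = v' := by
        rw [Matrix.mulVec_single_one, hsc]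
        ext a
        simp [Matrix.col, Matrix.updateCol_apply]
      refine ⟨s⁻¹ * g₀, H.mul_mem (H.inv_mem (hle hsP)) hg₀, w, hw, ?_⟩
      rw [Units.val_mul, ← Matrix.mulVec_mulVec, ← hv', ← hse, gl_inv_mulVec]
    -- Step B
    have stepB : ∀ (i j : Fin n) (hij : i ≠ j) (c : F), tvG i j hij c ∈ H := by
      intro i j hij c
      by_cases hc : (i : ℕ) < k ∨ k ≤ (j : ℕ)
      · exact hle (tvG_mem k i j hij c hc)
      · push Not at hc
        obtain ⟨g, hg, w', hw', hgw⟩ := stepA i hc.1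
        have h1 : g⁻¹ * tvG i j hij c * g ∈ P := by
          rw [hPW]
          intro x hx
          rw [Units.val_mul, Units.val_mul, ← Matrix.mulVec_mulVec, ← Matrix.mulVec_mulVec, tvG_coe, tv_mulVec,
            Matrix.mulVec_add, Matrix.mulVec_smul, gl_inv_mulVec, ← hgw, gl_inv_mulVec]
          exact (coordW F n k).add_mem hx ((coordW F n k).smul_mem _ hw')
        have h2 : tvG i j hij c = g * (g⁻¹ * tvG i j hij c * g) * g⁻¹ := by group
        rw [h2]
        exact H.mul_mem (H.mul_mem hg (hle h1)) (H.inv_mem hg)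
    rw [eq_top_iff]
    intro g _
    obtain ⟨g', hg', hgg'⟩ := Matrix.diagonal_transvection_induction_of_det_ne_zero
      (fun M => ∃ g' ∈ H, (g' : Matrix (Fin n) (Fin n) F) = M) (g : Matrix (Fin n) (Fin n) F)
      (Matrix.isUnits_det_units g).ne_zero
      (fun D hD => ⟨Matrix.GeneralLinearGroup.mkOfDetNeZero _ hD, hle (by
        rw [hP, mem_stab_iff]
        intro a b ha hb
        show Matrix.diagonal D a b = 0
        exact Matrix.diagonal_apply_ne _ (by intro e; rw [e] at ha; omega)), rfl⟩)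
      (fun t => ⟨tvG t.i t.j t.hij t.c, stepB _ _ _ _, rfl⟩)
      (fun A B _ _ ⟨a, ha, haA⟩ ⟨b, hb, hbB⟩ => ⟨a * b, H.mul_mem ha hb, by rw [Units.val_mul, haA, hbB]⟩)
    rw [← Units.ext hgg']
    exact hg'

end Cfsg.Agent.S0772
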