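import Cfsg.Statements.S0773
import Mathlib
import Cfsg.Agent.S0772

set_option autoImplicit false
open Cfsg

namespace Cfsg.Agent.S0773

open Matrix Cfsg.Agent.Lib.Helper5 Cfsg.Agent.S0771 Cfsg.Agent.S0772

def MM {F : Type*} [Field F] {n : ℕ} (x : Matrix (Fin n) (Fin n) F) : Matrix (Fin n) (Fin n) F :=
  xᵀ.submatrix Fin.revPerm Fin.revPerm

theorem MM_mul {F : Type*} [Field F] {n : ℕ} (x y : Matrix (Fin n) (Fin n) F) :
    MM x * MM y = MM (y * x) := by
  unfold MM
  rw [Matrix.submatrix_mul_equiv, ← Matrix.transpose_mul]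

theorem MM_one {F : Type*} [Field F] {n : ℕ} : MM (1 : Matrix (Fin n) (Fin n) F) = 1 := by
  unfold MM
  rw [Matrix.transpose_one, Matrix.submatrix_one_equiv]

theorem MM_MM {F : Type*} [Field F] {n : ℕ} (x : Matrix (Fin n) (Fin n) F) : MM (MM x) = x := by
  ext i j
  simp [MM]

def thetaFun {F : Type*} [Field F] {n : ℕ} (g : Matrix.GeneralLinearGroup (Fin n) F) :
    Matrix.GeneralLinearGroup (Fin n) F :=
  ⟨MM ((g⁻¹ : Matrix.GeneralLinearGroup (Fin n) F) : Matrix (Fin n) (Fin n) F), MM (g : Matrix (Fin n) (Fin n) F),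
    by rw [MM_mul, ← Units.val_mul, mul_inv_cancel]; exact MM_one,
    by rw [MM_mul, ← Units.val_mul, inv_mul_cancel]; exact MM_one⟩

theorem thetaFun_invol {F : Type*} [Field F] {n : ℕ} (g : Matrix.GeneralLinearGroup (Fin n) F) :
    thetaFun (thetaFun g) = g := by
  apply Units.ext
  show MM (MM (g : Matrix (Fin n) (Fin n) F)) = g
  exact MM_MM _

def theta {F : Type*} [Field F] {n : ℕ} :
    Matrix.GeneralLinearGroup (Fin n) F ≃* Matrix.GeneralLinearGroup (Fin n) F where
  toFun := thetaFun
  invFun := thetaFun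
  left_inv := thetaFun_invol
  right_inv := thetaFun_invol
  map_mul' g h := by
    apply Units.ext
    show MM (((g * h)⁻¹ : Matrix.GeneralLinearGroup (Fin n) F) : Matrix (Fin n) (Fin n) F) =
      MM ((g⁻¹ : Matrix.GeneralLinearGroup (Fin n) F) : Matrix (Fin n) (Fin n) F) *
      MM ((h⁻¹ : Matrix.GeneralLinearGroup (Fin n) F) : Matrix (Fin n) (Fin n) F)
    rw [MM_mul, _root_.mul_inv_rev, Units.val_mul]

theorem theta_mem {F : Type*} [Field F] {n : ℕ} (k l : ℕ) (hkl : k + l = n)
    (g : Matrix.GeneralLinearGroup (Fin n) F)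
    (hg : g ∈ Cfsg.stabilizing (Cfsg.glToMat (Fin n) F) {v : Fin n → F | ∀ i : Fin n, k ≤ (i : ℕ) → v i = 0}) :
    thetaFun g ∈ Cfsg.stabilizing (Cfsg.glToMat (Fin n) F) {v : Fin n → F | ∀ i : Fin n, l ≤ (i : ℕ) → v i = 0} := by
  have hg' := (Cfsg.stabilizing (Cfsg.glToMat (Fin n) F) {v : Fin n → F | ∀ i : Fin n, k ≤ (i : ℕ) → v i = 0}).inv_mem hg
  rw [mem_stab_iff] at hg' ⊢
  intro i j hi hj
  show ((g⁻¹ : Matrix.GeneralLinearGroup (Fin n) F) : Matrix (Fin n) (Fin n) F) (Fin.rev j) (Fin.rev i) = 0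
  apply hg'
  · rw [Fin.val_rev]; omega
  · rw [Fin.val_rev]; have := i.2; omega

theorem mem_of_support {F : Type*} [Field F] {n : ℕ} (U : Submodule F (Fin n → F)) (x : Fin n → F)
    (h : ∀ i, x i ≠ 0 → (Pi.single i 1 : Fin n → F) ∈ U) : x ∈ U := by
  have hx : x = ∑ i, x i • (Pi.single i 1 : Fin n → F) := by
    ext j
    simp [Finset.sum_apply, Pi.single_apply]
  rw [hx]
  apply U.sum_mem
  intro i _
  by_cases h0 : x i = 0
  · rw [h0, zero_smul]; exact U.zero_mem
  · exact U.smul_mem _ (h i h0)

theorem single_mem {F : Type*} [Field F] {n : ℕ} (U : Submodule F (Fin n → F)) (u : Fin n → F) (hu : u ∈ U)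
    (j : Fin n) (hj : u j ≠ 0) (h : ∀ i, i ≠ j → u i ≠ 0 → (Pi.single i 1 : Fin n → F) ∈ U) :
    (Pi.single j 1 : Fin n → F) ∈ U := by
  have h1 : Function.update u j 0 ∈ U := by
    apply mem_of_support
    intro i hi
    by_cases hij : i = j
    · subst hij; simp at hi
    · rw [Function.update_of_ne hij] at hi
      exact h i hij hi
  have h2 : (Pi.single j 1 : Fin n → F) = (u j)⁻¹ • (u - Function.update u j 0) := by
    ext i
    by_cases hij : i = j
    · subst hij; simp [hj]
    · simp [hij]
  rw [h2]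
  exact U.smul_mem _ (U.sub_mem hu h1)

/-- The stabilisers in GL_n(F), F finite, of the coordinate subspaces of dimensions k and n − k are isomorphic groups, but when 2k ≠ n (and 0 < k < n) no element of GL_n conjugates one onto the other. -/
theorem result {F : Type*} [Field F] [Finite F] (n k : ℕ) (hk0 : 0 < k) (hkn : k < n) (h2 : 2 * k ≠ n) : Nonempty (↥(Cfsg.stabilizing (Cfsg.glToMat (Fin n) F) {v : Fin n → F | ∀ i : Fin n, k ≤ (i : ℕ) → v i = 0}) ≃* ↥(Cfsg.stabilizing (Cfsg.glToMat (Fin n) F) {v : Fin n → F | ∀ i : Fin n, n - k ≤ (i : ℕ) → v i = 0})) ∧ ∀ g : Matrix.GeneralLinearGroup (Fin n) F, (Cfsg.stabilizing (Cfsg.glToMat (Fin n) F) {v : Fin n → F | ∀ i : Fin n, k ≤ (i : ℕ) → v i = 0}).map (MulAut.conj g).toMonoidHom ≠ Cfsg.stabilizing (Cfsg.glToMat (Fin n) F) {v : Fin n → F | ∀ i : Fin n, n - k ≤ (i : ℕ) → v i = 0} := by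
  classical
  refine ⟨?_, ?_⟩
  · have hmap : (Cfsg.stabilizing (Cfsg.glToMat (Fin n) F) {v : Fin n → F | ∀ i : Fin n, k ≤ (i : ℕ) → v i = 0}).map
        (theta (F := F) (n := n) : Matrix.GeneralLinearGroup (Fin n) F →* Matrix.GeneralLinearGroup (Fin n) F) =
        Cfsg.stabilizing (Cfsg.glToMat (Fin n) F) {v : Fin n → F | ∀ i : Fin n, n - k ≤ (i : ℕ) → v i = 0} := by
      apply le_antisymm
      · rintro _ ⟨g, hg, rfl⟩
        exact theta_mem k (n - k) (by omega) g hg
      · intro g hg
        exact ⟨thetaFun g, theta_mem (n - k) k (by omega) g hg, thetaFun_invol g⟩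
    exact ⟨(MulEquiv.subgroupMap theta _).trans (MulEquiv.subgroupCongr hmap)⟩
  · intro g hconj
    set W := coordW F n k with hW
    set L := (g : Matrix (Fin n) (Fin n) F).mulVecLin with hL
    have hLinj : Function.Injective L := by
      intro x y hxy
      have hxy' : (g : Matrix (Fin n) (Fin n) F) *ᵥ x = (g : Matrix (Fin n) (Fin n) F) *ᵥ y := hxy
      rw [← gl_inv_mulVec g x, hxy', gl_inv_mulVec]
    set U := W.map L with hU
    have hfr : Module.finrank F U = Module.finrank F W :=
      (Submodule.equivMapOfInjective _ hLinj W).finrank_eq.symm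
    have hinv : ∀ p' ∈ Cfsg.stabilizing (Cfsg.glToMat (Fin n) F) {v : Fin n → F | ∀ i : Fin n, n - k ≤ (i : ℕ) → v i = 0},
        ∀ x ∈ U, (p' : Matrix (Fin n) (Fin n) F) *ᵥ x ∈ U := by
      intro p' hp' x hx
      rw [← hconj] at hp'
      obtain ⟨p, hp, rfl⟩ := hp'
      obtain ⟨y, hy, rfl⟩ := hx
      have hp2 := (mem_stabilizing_submodule (Cfsg.glToMat (Fin n) F) (coordW F n k) p).mp hp y hy
      refine ⟨_, hp2, ?_⟩
      show (g : Matrix (Fin n) (Fin n) F) *ᵥ ((p : Matrix (Fin n) (Fin n) F) *ᵥ y) =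
        ((g * p * g⁻¹ : Matrix.GeneralLinearGroup (Fin n) F) : Matrix (Fin n) (Fin n) F) *ᵥ ((g : Matrix (Fin n) (Fin n) F) *ᵥ y)
      rw [Units.val_mul, Units.val_mul, ← Matrix.mulVec_mulVec, ← Matrix.mulVec_mulVec, gl_inv_mulVec]
    have hstep : ∀ (u : Fin n → F), u ∈ U → ∀ (i j : Fin n), i ≠ j → ((i : ℕ) < n - k ∨ n - k ≤ (j : ℕ)) → u j ≠ 0 →
        (Pi.single i 1 : Fin n → F) ∈ U := by
      intro u hu i j hij hc huj
      have h1 := hinv _ (tvG_mem (n - k) i j hij 1 hc) u hu
      rw [tvG_coe, tv_mulVec, one_mul] at h1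
      have h2 := U.sub_mem h1 hu
      rw [add_sub_cancel_left] at h2
      have h3 := U.smul_mem (u j)⁻¹ h2
      rwa [smul_smul, inv_mul_cancel₀ huj, one_smul] at h3
    have htri : U = ⊥ ∨ U = ⊤ ∨ U = coordW F n (n - k) := by
      by_cases hA : ∃ u ∈ U, ∃ j : Fin n, n - k ≤ (j : ℕ) ∧ u j ≠ 0
      · obtain ⟨u, hu, j, hj, huj⟩ := hA
        right; left
        have h1 : ∀ i, i ≠ j → (Pi.single i 1 : Fin n → F) ∈ U := fun i hij =>
          hstep u hu i j hij (Or.inr hj) huj
        have h2 : (Pi.single j 1 : Fin n → F) ∈ U := single_mem U u hu j huj (fun i hij _ => h1 i hij)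
        rw [eq_top_iff]
        intro x _
        apply mem_of_support
        intro i _
        by_cases hij : i = j
        · rw [hij]; exact h2
        · exact h1 i hij
      · push Not at hA
        by_cases hbot : U = ⊥
        · left; exact hbot
        · right; right
          obtain ⟨u, hu, hu0⟩ := (Submodule.ne_bot_iff U).mp hbot
          obtain ⟨j, huj⟩ : ∃ j, u j ≠ 0 := by
            by_contra hcon
            push Not at hcon
            exact hu0 (funext hcon)
          have hj : (j : ℕ) < n - k := by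
            by_contra hcon
            exact huj (hA u hu j (by omega))
          have h1 : ∀ i : Fin n, (i : ℕ) < n - k → i ≠ j → (Pi.single i 1 : Fin n → F) ∈ U := fun i hi hij =>
            hstep u hu i j hij (Or.inl hi) huj
          have h2 : (Pi.single j 1 : Fin n → F) ∈ U := single_mem U u hu j huj (fun i hij hui => by
            apply h1 i _ hij
            by_contra hcon
            exact hui (hA u hu i (by omega)))
          apply le_antisymm
          · intro x hx i hi
            exact hA x hx i hi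
          · intro x hx
            apply mem_of_support
            intro i hi
            have hi' : (i : ℕ) < n - k := by
              by_contra hcon
              exact hi (hx i (by omega))
            by_cases hij : i = j
            · rw [hij]; exact h2
            · exact h1 i hi' hij
    have e0 : (Pi.single (⟨0, by omega⟩ : Fin n) 1 : Fin n → F) ∈ W := by
      intro i hi
      rw [Pi.single_apply, if_neg]
      intro h; rw [h] at hi; simp at hi; omega
    have ek : (Pi.single (⟨k, hkn⟩ : Fin n) 1 : Fin n → F) ∉ W := by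
      intro h
      have := h ⟨k, hkn⟩ le_rfl
      simp at this
    rcases htri with h | h | h
    · have h1 : U = W := Submodule.eq_of_le_of_finrank_eq (by rw [h]; exact bot_le) hfr
      rw [← h1, h, Submodule.mem_bot] at e0
      have := congrFun e0 ⟨0, by omega⟩
      simp at this
    · have h1 : W = U := Submodule.eq_of_le_of_finrank_eq (by rw [h]; exact le_top) hfr.symm
      apply ek
      rw [h1, h]; trivial
    · rcases Nat.lt_or_gt_of_ne (show k ≠ n - k by omega) with hlt | hlt
      · have h1 : W = U := Submodule.eq_of_le_of_finrank_eq (by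
          rw [h]
          intro x hx i hi
          exact hx i (by omega)) hfr.symm
        apply ek
        rw [h1, h]
        intro i hi
        rw [Pi.single_apply, if_neg]
        intro h'; rw [h'] at hi; simp at hi; omega
      · have h1 : U = W := Submodule.eq_of_le_of_finrank_eq (by
          rw [h]
          intro x hx i hi
          exact hx i (by omega)) hfr
        have h2 : (Pi.single (⟨n - k, by omega⟩ : Fin n) 1 : Fin n → F) ∈ W := by
          intro i hi
          rw [Pi.single_apply, if_neg]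
          intro h'; rw [h'] at hi; simp at hi; omega
        rw [← h1, h] at h2
        have := h2 ⟨n - k, by omega⟩ le_rfl
        simp at this

end Cfsg.Agent.S0773
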