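import Cfsg.Statements.S0776
import Mathlib
import Cfsg.Agent.Lib.Helper14.IsoDecomp
import Cfsg.Agent.Lib.Helper14.SpAbstract
import Cfsg.Agent.Lib.Helper5.SympGen
open Cfsg.Agent.Lib.Helper14 Cfsg.Agent.Lib.Helper5 Matrix

set_option autoImplicit false
open Cfsg

namespace Cfsg.Agent.S0776

/-- If W ≤ F^(2m) is a 2k-dimensional subspace on which the symplectic form is non-degenerate, then the stabiliser of W in Sp_2m(F) is isomorphic to Sp_2k(F) × Sp_(2m−2k)(F). -/
theorem result {F : Type*} [Field F] (m k : ℕ) (hk : k ≤ m) (W : Submodule F (Fin m ⊕ Fin m → F)) (hWk : Module.finrank F W = 2 * k) (hW : ∀ u ∈ W, (∀ v ∈ W, Cfsg.sympForm m F u v = 0) → u = 0) : Nonempty (↥(Cfsg.stabilizing (Cfsg.spToMat m F) (W : Set (Fin m ⊕ Fin m → F))) ≃* Matrix.symplecticGroup (Fin k) F × Matrix.symplecticGroup (Fin (m - k)) F) := by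
  classical
  set B : LinearMap.BilinForm F (Fin m ⊕ Fin m → F) := sympB m F with hBdef
  have hBapp : ∀ u v, B u v = Cfsg.sympForm m F u v := fun u v => rfl
  have hAlt : B.IsAlt := fun u => sympForm_self u
  have hRefl : B.IsRefl := hAlt.isRefl
  have hskew : ∀ u v, Cfsg.sympForm m F u v = - Cfsg.sympForm m F v u := sympForm_swap
  have hnd1 : (B.restrict W).Nondegenerate := by
    have key : ∀ x : W, (∀ y : W, B.restrict W x y = 0) → x = 0 := by
      intro x hx
      exact Subtype.ext (hW x x.2 fun v hv => hx ⟨v, hv⟩)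
    refine ⟨key, fun y hy => key y fun x => ?_⟩
    have := hy x
    change Cfsg.sympForm m F x y = 0 at this
    change Cfsg.sympForm m F y x = 0
    rw [hskew, this, neg_zero]
  set W' := B.orthogonal W with hW'def
  have hc : IsCompl W W' := LinearMap.BilinForm.isCompl_orthogonal_of_restrict_nondegenerate hRefl hnd1
  have hW' : ∀ v, v ∈ W' ↔ ∀ w ∈ W, Cfsg.sympForm m F w v = 0 := fun v =>
    LinearMap.BilinForm.mem_orthogonal_iff
  have hnd2 : (B.restrict W').Nondegenerate := by
    have key : ∀ x : W', (∀ y : W', B.restrict W' x y = 0) → x = 0 := by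
      intro x hx
      apply Subtype.ext
      apply sympB_sepLeft (x : Fin m ⊕ Fin m → F)
      intro z
      obtain ⟨a, b, rfl⟩ := exists_decomp W W' hc z
      rw [map_add]
      have h1 : sympB m F (x : Fin m ⊕ Fin m → F) a = 0 := by
        rw [sympB_apply, hskew, (hW' x).1 x.2 a a.2, neg_zero]
      have h2 : sympB m F (x : Fin m ⊕ Fin m → F) b = 0 := hx b
      rw [h1, h2, add_zero]
    refine ⟨key, fun y hy => key y fun x => ?_⟩
    have := hy x
    change Cfsg.sympForm m F x y = 0 at this
    change Cfsg.sympForm m F y x = 0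
    rw [hskew, this, neg_zero]
  have hfr : Module.finrank F W' = 2 * (m - k) := by
    have := Submodule.finrank_add_eq_of_isCompl hc
    rw [hWk, Module.finrank_fintype_fun_eq_card, Fintype.card_sum, Fintype.card_fin] at this
    omega
  obtain ⟨b₁, hb₁⟩ := exists_symplectic_basis (B.restrict W) hnd1
    (fun x => hAlt x) k hWk
  obtain ⟨b₂, hb₂⟩ := exists_symplectic_basis (B.restrict W') hnd2
    (fun x => hAlt x) (m - k) hfr
  have hr : ∀ n : ℕ, ∀ A : Matrix (Fin n ⊕ Fin n) (Fin n ⊕ Fin n) F, IsUnit A →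
      (∀ u v, Cfsg.sympForm n F (A *ᵥ u) (A *ᵥ v) = Cfsg.sympForm n F u v) →
      ∃ h, Cfsg.spToMat n F h = A := fun n A _ hA =>
    ⟨⟨A, (mem_symplecticGroup_iff_preserves A).2 hA⟩, rfl⟩
  exact nonempty_stabilizing_equiv_prod (Cfsg.sympForm m F) (Cfsg.spToMat m F)
    Subtype.val_injective symp_preserves (hr m)
    (Cfsg.sympForm k F) (Cfsg.spToMat k F) Subtype.val_injective symp_preserves (hr k)
    (Cfsg.sympForm (m - k) F) (Cfsg.spToMat (m - k) F) Subtype.val_injective symp_preserves
    (hr (m - k)) W W' hc sympForm_add_left sympForm_add_right hW'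
    (fun x y h => by rw [hskew, h, neg_zero])
    b₁.equivFun.symm (fun x y => by
      have := hb₁ (b₁.equivFun.symm x) (b₁.equivFun.symm y)
      rw [LinearEquiv.apply_symm_apply, LinearEquiv.apply_symm_apply] at this
      exact this)
    b₂.equivFun.symm (fun x y => by
      have := hb₂ (b₂.equivFun.symm x) (b₂.equivFun.symm y)
      rw [LinearEquiv.apply_symm_apply, LinearEquiv.apply_symm_apply] at this
      exact this)

end Cfsg.Agent.S0776
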