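import Cfsg.Statements.S0778
import Mathlib

set_option autoImplicit false
open Cfsg

namespace Cfsg.Agent.S0778

open Matrix

theorem blk_mem {F : Type*} [Field F] (m : ℕ) (X : Matrix.GeneralLinearGroup (Fin m) F) :
    Matrix.fromBlocks (X : Matrix (Fin m) (Fin m) F) 0 0
      ((X⁻¹ : Matrix.GeneralLinearGroup (Fin m) F) : Matrix (Fin m) (Fin m) F)ᵀ ∈
      Matrix.symplecticGroup (Fin m) F := by
  rw [SymplecticGroup.mem_iff, Matrix.J, Matrix.fromBlocks_transpose,
    Matrix.fromBlocks_multiply, Matrix.fromBlocks_multiply]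
  have h1 : (X : Matrix (Fin m) (Fin m) F) * ((X⁻¹ : Matrix.GeneralLinearGroup (Fin m) F) : Matrix (Fin m) (Fin m) F) = 1 := by
    rw [← Units.val_mul, mul_inv_cancel]; rfl
  have h2 : ((X⁻¹ : Matrix.GeneralLinearGroup (Fin m) F) : Matrix (Fin m) (Fin m) F)ᵀ * (X : Matrix (Fin m) (Fin m) F)ᵀ = 1 := by
    rw [← Matrix.transpose_mul, h1, Matrix.transpose_one]
  simp only [Matrix.zero_mul, Matrix.mul_zero, zero_add, add_zero, Matrix.mul_neg, Matrix.mul_one,
    Matrix.neg_mul, Matrix.transpose_zero, Matrix.transpose_transpose, h1, h2, neg_zero]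

noncomputable def blk {F : Type*} [Field F] (m : ℕ) :
    Matrix.GeneralLinearGroup (Fin m) F →* Matrix.symplecticGroup (Fin m) F where
  toFun X := ⟨Matrix.fromBlocks (X : Matrix (Fin m) (Fin m) F) 0 0
      ((X⁻¹ : Matrix.GeneralLinearGroup (Fin m) F) : Matrix (Fin m) (Fin m) F)ᵀ, blk_mem m X⟩
  map_one' := by
    apply Subtype.ext
    simp
  map_mul' X Y := by
    apply Subtype.ext
    show Matrix.fromBlocks ((X * Y : Matrix.GeneralLinearGroup (Fin m) F) : Matrix (Fin m) (Fin m) F) 0 0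
      (((X * Y)⁻¹ : Matrix.GeneralLinearGroup (Fin m) F) : Matrix (Fin m) (Fin m) F)ᵀ =
      Matrix.fromBlocks (X : Matrix (Fin m) (Fin m) F) 0 0
      ((X⁻¹ : Matrix.GeneralLinearGroup (Fin m) F) : Matrix (Fin m) (Fin m) F)ᵀ * Matrix.fromBlocks (Y : Matrix (Fin m) (Fin m) F) 0 0
      ((Y⁻¹ : Matrix.GeneralLinearGroup (Fin m) F) : Matrix (Fin m) (Fin m) F)ᵀ
    rw [Matrix.fromBlocks_multiply, _root_.mul_inv_rev, Units.val_mul, Units.val_mul,
      Matrix.transpose_mul]
    simp only [Matrix.zero_mul, Matrix.mul_zero, zero_add, add_zero]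

theorem blk_coe {F : Type*} [Field F] (m : ℕ) (X : Matrix.GeneralLinearGroup (Fin m) F) :
    ((blk m X : Matrix.symplecticGroup (Fin m) F) : Matrix (Fin m ⊕ Fin m) (Fin m ⊕ Fin m) F) =
      Matrix.fromBlocks (X : Matrix (Fin m) (Fin m) F) 0 0
      ((X⁻¹ : Matrix.GeneralLinearGroup (Fin m) F) : Matrix (Fin m) (Fin m) F)ᵀ := rfl

theorem blk_inj {F : Type*} [Field F] (m : ℕ) : Function.Injective (blk (F := F) m) := by
  intro X Y h
  have h1 := congrArg Subtype.val h
  rw [blk_coe, blk_coe, Matrix.fromBlocks_inj] at h1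
  exact Units.ext h1.1

/-- The elements of Sp_2m(F) stabilising both W = ⟨e_1..e_m⟩ and U = ⟨f_1..f_m⟩ form a subgroup isomorphic to GL_m(F) (block-diagonal matrices diag(X, X^(−ᵀ)) up to the sign convention of J), for m ≥ 1 or m = 0 alike. -/
theorem result {F : Type*} [Field F] (m : ℕ) : Nonempty (↥(Cfsg.stabilizing (Cfsg.spToMat m F) {v : Fin m ⊕ Fin m → F | ∀ i : Fin m, v (Sum.inr i) = 0} ⊓ Cfsg.stabilizing (Cfsg.spToMat m F) {v : Fin m ⊕ Fin m → F | ∀ i : Fin m, v (Sum.inl i) = 0}) ≃* Matrix.GeneralLinearGroup (Fin m) F) := by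
  have hrange : (blk (F := F) m).range = Cfsg.stabilizing (Cfsg.spToMat m F) {v : Fin m ⊕ Fin m → F | ∀ i : Fin m, v (Sum.inr i) = 0} ⊓ Cfsg.stabilizing (Cfsg.spToMat m F) {v : Fin m ⊕ Fin m → F | ∀ i : Fin m, v (Sum.inl i) = 0} := by
    apply le_antisymm
    · rintro _ ⟨X, rfl⟩
      have h1 : (X : Matrix (Fin m) (Fin m) F) * ((X⁻¹ : Matrix.GeneralLinearGroup (Fin m) F) : Matrix (Fin m) (Fin m) F) = 1 := by
        rw [← Units.val_mul, mul_inv_cancel]; rfl
      have h1' : ((X⁻¹ : Matrix.GeneralLinearGroup (Fin m) F) : Matrix (Fin m) (Fin m) F) * (X : Matrix (Fin m) (Fin m) F) = 1 := by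
        rw [← Units.val_mul, inv_mul_cancel]; rfl
      have h2 : (X : Matrix (Fin m) (Fin m) F)ᵀ * ((X⁻¹ : Matrix.GeneralLinearGroup (Fin m) F) : Matrix (Fin m) (Fin m) F)ᵀ = 1 := by
        rw [← Matrix.transpose_mul, h1', Matrix.transpose_one]
      constructor
      · intro v
        show _ ↔ (Matrix.fromBlocks _ _ _ _ *ᵥ v) ∈ _
        rw [Matrix.fromBlocks_mulVec]
        simp only [Set.mem_ofPred_eq, Sum.elim_inr, Matrix.zero_mulVec, zero_add]
        constructor
        · intro hv i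
          have : (v ∘ Sum.inr) = 0 := funext hv
          rw [this, Matrix.mulVec_zero]; rfl
        · intro hv i
          have h3 : ((X⁻¹ : Matrix.GeneralLinearGroup (Fin m) F) : Matrix (Fin m) (Fin m) F)ᵀ *ᵥ (v ∘ Sum.inr) = 0 := funext hv
          have h4 := congrArg (fun w => (X : Matrix (Fin m) (Fin m) F)ᵀ *ᵥ w) h3
          simp only [Matrix.mulVec_mulVec, h2, Matrix.one_mulVec, Matrix.mulVec_zero] at h4
          exact congrFun h4 i
      · intro v
        show _ ↔ (Matrix.fromBlocks _ _ _ _ *ᵥ v) ∈ _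
        rw [Matrix.fromBlocks_mulVec]
        simp only [Set.mem_ofPred_eq, Sum.elim_inl, Matrix.zero_mulVec, add_zero]
        constructor
        · intro hv i
          have : (v ∘ Sum.inl) = 0 := funext hv
          rw [this, Matrix.mulVec_zero]; rfl
        · intro hv i
          have h3 : (X : Matrix (Fin m) (Fin m) F) *ᵥ (v ∘ Sum.inl) = 0 := funext hv
          have h4 := congrArg (fun w => ((X⁻¹ : Matrix.GeneralLinearGroup (Fin m) F) : Matrix (Fin m) (Fin m) F) *ᵥ w) h3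
          simp only [Matrix.mulVec_mulVec, h1', Matrix.one_mulVec, Matrix.mulVec_zero] at h4
          exact congrFun h4 i
    · rintro A ⟨hW, hU⟩
      have h21 : (A : Matrix (Fin m ⊕ Fin m) (Fin m ⊕ Fin m) F).toBlocks₂₁ = 0 := by
        ext i j
        have := (hW (Pi.single (Sum.inl j) 1)).mp (by intro i; simp) i
        have h' : (A : Matrix (Fin m ⊕ Fin m) (Fin m ⊕ Fin m) F) (Sum.inr i) (Sum.inl j) = 0 := by
          simpa using this
        exact h'
      have h12 : (A : Matrix (Fin m ⊕ Fin m) (Fin m ⊕ Fin m) F).toBlocks₁₂ = 0 := by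
        ext i j
        have := (hU (Pi.single (Sum.inr j) 1)).mp (by intro i; simp) i
        have h' : (A : Matrix (Fin m ⊕ Fin m) (Fin m ⊕ Fin m) F) (Sum.inl i) (Sum.inr j) = 0 := by
          simpa using this
        exact h'
      have hA : (A : Matrix (Fin m ⊕ Fin m) (Fin m ⊕ Fin m) F) = Matrix.fromBlocks (A : Matrix (Fin m ⊕ Fin m) (Fin m ⊕ Fin m) F).toBlocks₁₁ 0 0 (A : Matrix (Fin m ⊕ Fin m) (Fin m ⊕ Fin m) F).toBlocks₂₂ := by
        conv_lhs => rw [← Matrix.fromBlocks_toBlocks (A : Matrix (Fin m ⊕ Fin m) (Fin m ⊕ Fin m) F), h21, h12]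
      have hs := (SymplecticGroup.mem_iff).mp A.2
      rw [hA, Matrix.J, Matrix.fromBlocks_transpose, Matrix.fromBlocks_multiply,
        Matrix.fromBlocks_multiply, Matrix.fromBlocks_inj] at hs
      obtain ⟨-, hs2, hs3, -⟩ := hs
      simp only [Matrix.zero_mul, Matrix.mul_zero, zero_add, add_zero, Matrix.mul_neg, Matrix.mul_one,
        Matrix.neg_mul, neg_inj, Matrix.transpose_zero] at hs2 hs3
      set X := (A : Matrix (Fin m ⊕ Fin m) (Fin m ⊕ Fin m) F).toBlocks₁₁ with hX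
      set Y := (A : Matrix (Fin m ⊕ Fin m) (Fin m ⊕ Fin m) F).toBlocks₂₂ with hY
      have hYX : Yᵀ * X = 1 := by
        have := congrArg Matrix.transpose hs3
        rw [Matrix.transpose_mul, Matrix.transpose_transpose, Matrix.transpose_one] at this
        exact mul_eq_one_comm.mp this
      refine ⟨⟨X, Yᵀ, hs2, hYX⟩, ?_⟩
      apply Subtype.ext
      rw [blk_coe, hA]
      simp
  exact ⟨((MonoidHom.ofInjective (blk_inj m)).trans (MulEquiv.subgroupCongr hrange)).symm⟩

end Cfsg.Agent.S0778
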