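import Cfsg.Statements.S0779
import Mathlib

set_option autoImplicit false
open Cfsg

namespace Cfsg.Agent.S0779

open Matrix

section
variable {F : Type*} [Field F] {n q : ℕ}

lemma herm_add_left (x x' y : Fin n → F) :
    hermForm n F q (x + x') y = hermForm n F q x y + hermForm n F q x' y := by
  simp [hermForm, add_mul, Finset.sum_add_distrib]

lemma herm_smul_left (a : F) (x y : Fin n → F) :
    hermForm n F q (a • x) y = a * hermForm n F q x y := by
  simp [hermForm, Finset.mul_sum, mul_assoc]

lemma herm_smul_right (a : F) (x y : Fin n → F) :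
    hermForm n F q x (a • y) = a ^ q * hermForm n F q x y := by
  simp only [hermForm, Finset.mul_sum, Pi.smul_apply, smul_eq_mul, mul_pow]
  apply Finset.sum_congr rfl; intro i _; ring

lemma herm_add_right (hadd : ∀ a b : F, (a + b) ^ q = a ^ q + b ^ q) (x y y' : Fin n → F) :
    hermForm n F q x (y + y') = hermForm n F q x y + hermForm n F q x y' := by
  simp [hermForm, hadd, mul_add, Finset.sum_add_distrib]

lemma ut_mulVec (v : Fin n → F) (c : F) (x : Fin n → F) :
    unitaryTransvection n q v c *ᵥ x = x + (c * hermForm n F q x v) • v := by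
  unfold unitaryTransvection hermForm
  rw [add_mulVec, one_mulVec, smul_mulVec, vecMulVec_mulVec]
  ext i
  simp [dotProduct, mul_comm, mul_assoc, mul_left_comm]

end

/-- Unitary transvections: let |F| = q², h the standard Hermitian form Σ x_i y_i^q and v ≠ 0 with h(v, v) = 0. The linear map x ↦ x + c h(x, v) v is an isometry of h if and only if c = 0 or c^(q−1) = −1. -/
theorem result {F : Type*} [Field F] [Fintype F] {q : ℕ} (hF : Fintype.card F = q ^ 2) (n : ℕ) (v : Fin n → F) (hv : v ≠ 0) (hv0 : Cfsg.hermForm n F q v v = 0) (c : F) : (∀ x y : Fin n → F, Cfsg.hermForm n F q ((Cfsg.unitaryTransvection n q v c).mulVec x) ((Cfsg.unitaryTransvection n q v c).mulVec y) = Cfsg.hermForm n F q x y) ↔ (c = 0 ∨ c ^ (q - 1) = -1) := by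
  classical
  have hq2 : 2 ≤ q := by
    by_contra h
    have hq : q ≤ 1 := by omega
    have : Fintype.card F ≤ 1 := by rw [hF]; nlinarith
    have h1 := Fintype.one_lt_card (α := F)
    omega
  obtain ⟨p, hpc⟩ := CharP.exists F
  haveI hpp : Fact p.Prime := ⟨CharP.char_is_prime F p⟩
  obtain ⟨k, hk⟩ : ∃ k, q = p ^ k := by
    obtain ⟨m, hm1, hm2⟩ := FiniteField.card F p
    have : q ∣ p ^ (m : ℕ) := by rw [← hm2, hF]; exact Dvd.intro_left (q ^ 1) (by ring)
    obtain ⟨k, -, hk⟩ := (Nat.dvd_prime_pow hm1).mp this
    exact ⟨k, hk⟩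
  have hadd : ∀ a b : F, (a + b) ^ q = a ^ q + b ^ q := by
    intro a b; rw [hk]; exact add_pow_char_pow a b p k
  have hqq : ∀ a : F, (a ^ q) ^ q = a := by
    intro a; rw [← pow_mul, ← sq, ← hF]; exact FiniteField.pow_card a
  have hconj : ∀ x y : Fin n → F, (hermForm n F q x y) ^ q = hermForm n F q y x := by
    intro x y
    unfold hermForm
    rw [hk, sum_pow_char_pow, ← hk]
    apply Finset.sum_congr rfl; intro i _
    rw [mul_pow, hqq, mul_comm]
  have key : ∀ x y : Fin n → F,
      hermForm n F q ((unitaryTransvection n q v c).mulVec x) ((unitaryTransvection n q v c).mulVec y) =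
        hermForm n F q x y + (c ^ q + c) * (hermForm n F q x v * hermForm n F q v y) := by
    intro x y
    rw [ut_mulVec, ut_mulVec]
    simp only [herm_add_left, herm_add_right hadd, herm_smul_left, herm_smul_right, hv0, mul_pow, hconj]
    ring
  have hcq : c ^ q + c = c * (c ^ (q - 1) + 1) := by
    have : c ^ q = c * c ^ (q - 1) := by rw [← pow_succ', Nat.sub_add_cancel (by omega)]
    rw [this]; ring
  constructor
  · intro h
    obtain ⟨i, hi⟩ : ∃ i, v i ≠ 0 := by
      by_contra hcon
      push Not at hcon
      exact hv (funext hcon)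
    have h1 := h (Pi.single i 1) (Pi.single i 1)
    rw [key] at h1
    have h2 : hermForm n F q (Pi.single i 1) v = v i ^ q := by
      simp [hermForm, Pi.single_apply]
    have h3 : hermForm n F q v (Pi.single i 1) = v i := by
      unfold hermForm
      rw [Finset.sum_eq_single i]
      · simp
      · intro j _ hj
        have hq0 : q ≠ 0 := by omega
        simp [Pi.single_apply, hj, hq0]
      · simp
    rw [h2, h3] at h1
    have h4 : (c ^ q + c) * (v i ^ q * v i) = 0 := by linear_combination h1
    have h5 : v i ^ q * v i ≠ 0 := mul_ne_zero (pow_ne_zero _ hi) hi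
    have h6 := (mul_eq_zero.mp h4).resolve_right h5
    rw [hcq] at h6
    rcases mul_eq_zero.mp h6 with h7 | h7
    · left; exact h7
    · right; linear_combination h7
  · intro h x y
    rw [key]
    have : c ^ q + c = 0 := by
      rw [hcq]
      rcases h with h | h
      · rw [h]; simp
      · rw [h]; simp
    rw [this]; simp

end Cfsg.Agent.S0779
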