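import Cfsg.Statements.S0783
import Mathlib
import Cfsg.Agent.Lib.Helper14.CycQuot
import Cfsg.Agent.Lib.Helper14.GUCenter
open Cfsg.Agent.Lib.Helper14

set_option autoImplicit false
open Cfsg

namespace Cfsg.Agent.S0783

/-- PGU_n(q)/PSU_n(q) is cyclic of order (n, q+1): for n ≥ 2 and |F| = q² there is a surjective homomorphism from GU_n(q) onto the cyclic group of order gcd(n, q + 1) whose kernel is generated by the determinant-one elements together with the centre. -/
theorem result {F : Type*} [Field F] [Fintype F] {q : ℕ} (hF : Fintype.card F = q ^ 2) (n : ℕ) (hn : 2 ≤ n) : ∃ φ : ↥(Cfsg.GU n F q) →* Multiplicative (ZMod (Nat.gcd n (q + 1))), Function.Surjective φ ∧ φ.ker = (Matrix.GeneralLinearGroup.det : Matrix.GeneralLinearGroup (Fin n) F →* Fˣ).ker.subgroupOf (Cfsg.GU n F q) ⊔ Subgroup.center ↥(Cfsg.GU n F q) := by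
  classical
  have hn1 : 1 ≤ n := by omega
  have hc := card_range_guDet (n := n) hF hn1
  obtain ⟨ψ, hψs, hψ⟩ := exists_hom_zmod_gcd (C := (guDet F q n).range) n (q + 1) hc
  have hrange : ∀ y : (guDet F q n).range, ((y : Fˣ) : F) ^ (q + 1) = 1 := by
    rintro ⟨_, g, rfl⟩
    exact det_pow_eq_one hF g.1.1 g.2
  refine ⟨ψ.comp (guDet F q n).rangeRestrict, hψs.comp (guDet F q n).rangeRestrict_surjective, ?_⟩
  apply le_antisymm
  · intro g hg
    rw [MonoidHom.mem_ker, MonoidHom.comp_apply, hψ] at hg
    obtain ⟨y, hy⟩ := hg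
    have hy' : ((y : Fˣ) : F) ^ n = ((guDet F q n g : Fˣ) : F) := by
      have := congrArg (fun t : (guDet F q n).range => ((t : Fˣ) : F)) hy
      simpa using this
    set z := guScalar hF n ((y : Fˣ) : F) (hrange y) with hz
    have h1 : g = (g * z⁻¹) * z := by group
    rw [h1]
    refine Subgroup.mul_mem _ (Subgroup.mem_sup_left ?_)
      (Subgroup.mem_sup_right (guScalar_mem_center hF n _ _))
    rw [Subgroup.mem_subgroupOf, MonoidHom.mem_ker]
    change guDet F q n (g * z⁻¹) = 1
    rw [map_mul, map_inv, mul_inv_eq_one]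
    apply Units.ext
    rw [← hy', hz, guDet_guScalar]
  · rw [sup_le_iff]
    constructor
    · intro g hg
      rw [Subgroup.mem_subgroupOf, MonoidHom.mem_ker] at hg
      rw [MonoidHom.mem_ker, MonoidHom.comp_apply]
      have : (guDet F q n).rangeRestrict g = 1 := Subtype.ext hg
      rw [this, map_one]
    · intro g hg
      obtain ⟨l, hl, rfl⟩ := exists_eq_guScalar_of_mem_center hF hn1 g hg
      rw [MonoidHom.mem_ker, MonoidHom.comp_apply, hψ]
      have hl0 : l ≠ 0 := by
        rintro rfl
        rw [zero_pow (Nat.succ_ne_zero q)] at hl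
        exact zero_ne_one hl
      have hmem : Units.mk0 l hl0 ∈ (guDet F q n).range := by
        refine ⟨guMk hF (Matrix.diagonal (Function.update 1 (⟨0, hn1⟩ : Fin n) l))
          (diagonal_preserves _ (fun i => ?_)), ?_⟩
        · by_cases hi : i = (⟨0, hn1⟩ : Fin n)
          · subst hi; simpa using hl
          · simp [hi]
        · apply Units.ext
          change (Matrix.diagonal (Function.update 1 (⟨0, hn1⟩ : Fin n) l)).det = l
          rw [Matrix.det_diagonal, Finset.prod_update_of_mem (Finset.mem_univ _)]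
          simp
      refine ⟨⟨_, hmem⟩, ?_⟩
      apply Subtype.ext
      apply Units.ext
      change _ = ((guDet F q n (guScalar hF n l hl) : Fˣ) : F)
      rw [guDet_guScalar]
      simp

end Cfsg.Agent.S0783
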