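import Cfsg.Statements.S0784
import Mathlib

set_option autoImplicit false
open Cfsg

namespace Cfsg.Agent.S0784

open Matrix

lemma polarVec_dot {F : Type*} [Field F] {n : ℕ} (Q : QuadraticForm F (Fin n → F)) (v x : Fin n → F) :
    Cfsg.polarVec ⇑Q v ⬝ᵥ x = QuadraticMap.polar ⇑Q v x := by
  have hx : x = ∑ j, x j • (Pi.single j (1 : F) : Fin n → F) := by
    ext i; simp [Finset.sum_apply, Pi.single_apply]
  conv_rhs => rw [hx]
  have : QuadraticMap.polar ⇑Q v (∑ j, x j • (Pi.single j (1 : F) : Fin n → F)) =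
      QuadraticMap.polarBilin Q v (∑ j, x j • (Pi.single j (1 : F) : Fin n → F)) := rfl
  rw [this, map_sum]
  simp [Cfsg.polarVec, dotProduct, mul_comm]

lemma refl_mulVec {F : Type*} [Field F] {n : ℕ} (Q : QuadraticForm F (Fin n → F)) (v x : Fin n → F) :
    Cfsg.reflectionMatrix ⇑Q v *ᵥ x = x - ((Q v)⁻¹ * QuadraticMap.polar ⇑Q v x) • v := by
  unfold Cfsg.reflectionMatrix
  rw [sub_mulVec, one_mulVec, smul_mulVec, vecMulVec_mulVec, polarVec_dot]
  ext i
  simp [mul_comm, mul_assoc, mul_left_comm]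

/-- Reflections: if Q(v) ≠ 0 then the matrix R = 1 − Q(v)⁻¹ · v f(v, ·)ᵀ preserves Q, maps v to −v, fixes each x with f(v, x) = 0, and has determinant −1 (in characteristic two, −1 = 1 and R is the orthogonal transvection of v). -/
theorem result {F : Type*} [Field F] {n : ℕ} (Q : QuadraticForm F (Fin n → F)) (v : Fin n → F) (hv : Q v ≠ 0) : (∀ x, Q ((Cfsg.reflectionMatrix ⇑Q v).mulVec x) = Q x) ∧ (Cfsg.reflectionMatrix ⇑Q v).mulVec v = -v ∧ (∀ x, QuadraticMap.polar ⇑Q v x = 0 → (Cfsg.reflectionMatrix ⇑Q v).mulVec x = x) ∧ (Cfsg.reflectionMatrix ⇑Q v).det = -1 := by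
  refine ⟨?_, ?_, ?_, ?_⟩
  · intro x
    rw [refl_mulVec, sub_eq_add_neg, ← neg_smul, QuadraticMap.map_add Q, QuadraticMap.map_smul,
      QuadraticMap.polar_smul_right, QuadraticMap.polar_comm Q x v]
    simp only [smul_eq_mul]
    field_simp
    ring
  · rw [refl_mulVec, QuadraticMap.polar_self]
    have : (Q v)⁻¹ * (2 • Q v) = 2 := by
      rw [nsmul_eq_mul]; push_cast; field_simp
    rw [this]
    module
  · intro x hx
    rw [refl_mulVec, hx]; simp
  · have h1 : Cfsg.reflectionMatrix ⇑Q v =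
        1 + replicateCol Unit (-(Q v)⁻¹ • v) * replicateRow Unit (Cfsg.polarVec ⇑Q v) := by
      unfold Cfsg.reflectionMatrix
      rw [← Matrix.vecMulVec_eq, Matrix.smul_vecMulVec, sub_eq_add_neg, neg_smul]
    rw [h1, det_one_add_replicateCol_mul_replicateRow, dotProduct_smul, polarVec_dot,
      QuadraticMap.polar_self]
    simp only [smul_eq_mul, nsmul_eq_mul]
    field_simp
    ring

end Cfsg.Agent.S0784
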