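import Cfsg.Statements.S0785
import Mathlib
import Cfsg.Agent.S0784

set_option autoImplicit false
open Cfsg

namespace Cfsg.Agent.S0785

open Matrix

/-- det(I) = {±1}: for a quadratic form on F^n whose polar form is non-degenerate, every element of the isometry group has determinant 1 or −1, and as soon as Q takes a non-zero value some isometry has determinant −1. -/
theorem result {F : Type*} [Field F] {n : ℕ} (Q : QuadraticForm F (Fin n → F)) (hQ : (QuadraticMap.polarBilin Q).Nondegenerate) : (∀ g : ↥(Cfsg.isometryGroup F ⇑Q), ((g : Matrix.GeneralLinearGroup (Fin n) F) : Matrix (Fin n) (Fin n) F).det = 1 ∨ ((g : Matrix.GeneralLinearGroup (Fin n) F) : Matrix (Fin n) (Fin n) F).det = -1) ∧ ((∃ v, Q v ≠ 0) → ∃ g : ↥(Cfsg.isometryGroup F ⇑Q), ((g : Matrix.GeneralLinearGroup (Fin n) F) : Matrix (Fin n) (Fin n) F).det = -1) := by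
  constructor
  · intro g
    set M : Matrix (Fin n) (Fin n) F := ((g : Matrix.GeneralLinearGroup (Fin n) F) : Matrix (Fin n) (Fin n) F) with hM
    have hg : ∀ u, Q (M *ᵥ u) = Q u := fun u => g.2 u u
    set B : LinearMap.BilinForm F (Fin n → F) := QuadraticMap.polarBilin Q with hB
    have hBM : ∀ u v, B (M *ᵥ u) (M *ᵥ v) = B u v := by
      intro u v
      simp only [hB, QuadraticMap.polarBilin_apply_apply, QuadraticMap.polar, ← Matrix.mulVec_add, hg]
    have hcomp : LinearMap.BilinForm.comp B (Matrix.toLin' M) (Matrix.toLin' M) = B := by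
      apply LinearMap.ext; intro u; apply LinearMap.ext; intro v
      rw [LinearMap.BilinForm.comp_apply, Matrix.toLin'_apply, Matrix.toLin'_apply, hBM]
    have h1 := LinearMap.BilinForm.toMatrix'_comp B (Matrix.toLin' M) (Matrix.toLin' M)
    rw [hcomp, LinearMap.toMatrix'_toLin'] at h1
    have h2 := congrArg Matrix.det h1
    rw [Matrix.det_mul, Matrix.det_mul, Matrix.det_transpose] at h2
    have hN : (LinearMap.BilinForm.toMatrix' B).det ≠ 0 := by
      rw [← Matrix.nondegenerate_iff_det_ne_zero, LinearMap.BilinForm.nondegenerate_toMatrix'_iff]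
      exact hQ
    have h3 : (M.det - 1) * (M.det + 1) = 0 := by
      have : (M.det * M.det - 1) * (LinearMap.BilinForm.toMatrix' B).det = 0 := by
        linear_combination -h2
      rcases mul_eq_zero.mp this with h | h
      · linear_combination h
      · exact absurd h hN
    rcases mul_eq_zero.mp h3 with h | h
    · left; linear_combination h
    · right; linear_combination h
  · rintro ⟨v, hv⟩
    obtain ⟨h1, -, -, h4⟩ := Cfsg.Agent.S0784.result Q v hv
    have hdet : (Cfsg.reflectionMatrix ⇑Q v).det ≠ 0 := by rw [h4]; simp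
    refine ⟨⟨Matrix.GeneralLinearGroup.mkOfDetNeZero _ hdet, ?_⟩, ?_⟩
    · intro u _
      exact h1 u
    · exact h4

end Cfsg.Agent.S0785
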