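import Cfsg.Statements.S0787
import Cfsg.Agent.Lib.Helper15.OmegaIndex
import Cfsg.Agent.Lib.Helper15.IndexTwo

set_option autoImplicit false
open Cfsg Cfsg.Agent.Lib.Helper15

namespace Cfsg.Agent.S0787

/-- Existence and uniqueness of Ω: if F is finite, n ≥ 2, Q is a quadratic form on F^n with non-degenerate polar form and (|F|, n) ≠ (2, 4), then the group of isometries of determinant one has a unique subgroup of index 2. -/
theorem result {F : Type*} [Field F] [Fintype F] {n : ℕ} (hn : 2 ≤ n) (Q : QuadraticForm F (Fin n → F)) (hQ : (QuadraticMap.polarBilin Q).Nondegenerate) (h : Fintype.card F ≠ 2 ∨ n ≠ 4) : ∃! H : Subgroup ↥(Cfsg.specialIsometryGroup F ⇑Q), H.index = 2 := by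
  have h' : Fintype.card F ≠ 2 ∨ Fintype.card (Fin n) ≠ 4 := by simpa using h
  have hn' : 2 ≤ Fintype.card (Fin n) := by simpa using hn
  haveI : (Cfsg.specialIsometryGroup F ⇑Q).Normal := by
    unfold Cfsg.specialIsometryGroup; infer_instance
  have hle : Cfsg.Omega F ⇑Q ≤ Cfsg.specialIsometryGroup F ⇑Q := by
    unfold Cfsg.specialIsometryGroup
    exact Abelianization.commutator_subset_ker _
  have hidx : ((Cfsg.Omega F ⇑Q).subgroupOf (Cfsg.specialIsometryGroup F ⇑Q)).index = 2 := by
    show (Cfsg.Omega F ⇑Q).relIndex (Cfsg.specialIsometryGroup F ⇑Q) = 2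
    by_cases h2 : (2 : F) = 0
    · haveI : CharP F 2 := CharTwo.of_one_ne_zero_of_two_eq_zero one_ne_zero h2
      rw [special_eq_top Q hQ h', Subgroup.relIndex_top_right]
      exact index_Omega_even Q hQ h' hn'
    · have h1 := Subgroup.relIndex_mul_index hle
      rw [index_Omega_odd h2 Q hQ hn', index_special_odd h2 Q hQ hn'] at h1
      omega
  refine ⟨_, hidx, ?_⟩
  intro H hH
  symm
  refine eq_of_le_of_index_eq ?_ hidx hH
  refine commutator_subgroupOf_le_of_index_two (reflSet Q) (closure_refl_eq_top Q hQ h') ?_ _ ?_ H hH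
  · rintro r ⟨v, hv, hr⟩
    rw [eq_refl_of_coe Q r v hv hr]
    exact refl_mul_self Q v hv
  · rintro r ⟨v, hv, hr⟩ s ⟨w, hw, hs⟩
    rw [mem_special_iff]
    show (((r : Matrix.GeneralLinearGroup (Fin n) F) : Matrix (Fin n) (Fin n) F) *
      ((s : Matrix.GeneralLinearGroup (Fin n) F) : Matrix (Fin n) (Fin n) F)).det = 1
    rw [hr, hs, Matrix.det_mul, det_reflectionMatrix Q v hv, det_reflectionMatrix Q w hw]
    ring

end Cfsg.Agent.S0787
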