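import Cfsg.Statements.S0792
import Cfsg.Agent.Lib.Helper15.OmegaIndex

set_option autoImplicit false
open Cfsg Cfsg.Agent.Lib.Helper15

namespace Cfsg.Agent.S0792

/-- For q odd and Q with non-degenerate polar form on F^n, the determinant-one isometries form the subgroup generated by all products r_u r_v of two reflections (Q(u), Q(v) ≠ 0). -/
theorem result {F : Type*} [Field F] [Fintype F] (h2 : (2 : F) ≠ 0) {n : ℕ} (Q : QuadraticForm F (Fin n → F)) (hQ : (QuadraticMap.polarBilin Q).Nondegenerate) : Cfsg.specialIsometryGroup F ⇑Q = Subgroup.closure {g : ↥(Cfsg.isometryGroup F ⇑Q) | ∃ u v : Fin n → F, Q u ≠ 0 ∧ Q v ≠ 0 ∧ ((g : Matrix.GeneralLinearGroup (Fin n) F) : Matrix (Fin n) (Fin n) F) = Cfsg.reflectionMatrix ⇑Q u * Cfsg.reflectionMatrix ⇑Q v} := by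
  have h' : Fintype.card F ≠ 2 ∨ Fintype.card (Fin n) ≠ 4 := Or.inl (card_ne_two_of_two_ne_zero h2)
  apply le_antisymm
  · intro g hg
    obtain ⟨vs, hvs, hgv⟩ := exists_refl_list Q hQ h' g
    rw [mem_special_iff, det_eq_pow Q g vs hvs hgv, neg_one_pow_eq_one_iff_even' h2] at hg
    rw [eq_prod_reflT Q g vs hvs hgv]
    obtain ⟨k, hk⟩ := hg
    clear hgv
    induction k generalizing vs with
    | zero =>
      have : vs = [] := List.length_eq_zero_iff.1 (by omega)
      subst this
      simp
    | succ k ih =>
      match vs, hk, hvs with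
      | [], hk, _ => simp at hk
      | [a], hk, _ => simp at hk; omega
      | a :: b :: tl, hk, hvs =>
        rw [List.map_cons, List.map_cons, List.prod_cons, List.prod_cons, ← mul_assoc]
        apply Subgroup.mul_mem
        · apply Subgroup.subset_closure
          refine ⟨a, b, hvs a (by simp), hvs b (by simp), ?_⟩
          rw [reflT_eq Q a (hvs a (by simp)), reflT_eq Q b (hvs b (by simp))]
          rfl
        · apply ih tl (fun v hv => hvs v (by simp [hv]))
          simp at hk
          omega
  · rw [Subgroup.closure_le]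
    rintro g ⟨u, v, hu, hv, hg⟩
    show g ∈ Cfsg.specialIsometryGroup F ⇑Q
    rw [mem_special_iff, hg, Matrix.det_mul, det_reflectionMatrix Q u hu, det_reflectionMatrix Q v hv]
    ring

end Cfsg.Agent.S0792
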