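import Cfsg.Statements.S0795
import Cfsg.Agent.Lib.Helper15.Simp3
import Cfsg.Agent.Lib.Helper15.Siegel

set_option autoImplicit false
open Cfsg Cfsg.Agent.Lib.Helper15

namespace Cfsg.Agent.S0795

/-- Generation of Ω by root elements: for q odd, n ≥ 5 and Q with non-degenerate polar form on F^n, the commutator subgroup of the isometry group equals the subgroup generated by the isometries whose matrices are Siegel transformations T_(u,v)(c) with u, v singular and orthogonal. -/
theorem result {F : Type*} [Field F] [Fintype F] (h2 : (2 : F) ≠ 0) {n : ℕ} (hn : 5 ≤ n) (Q : QuadraticForm F (Fin n → F)) (hQ : (QuadraticMap.polarBilin Q).Nondegenerate) : Cfsg.Omega F ⇑Q = Subgroup.closure {g : ↥(Cfsg.isometryGroup F ⇑Q) | ∃ (u v : Fin n → F) (c : F), Q u = 0 ∧ Q v = 0 ∧ QuadraticMap.polar ⇑Q u v = 0 ∧ ((g : Matrix.GeneralLinearGroup (Fin n) F) : Matrix (Fin n) (Fin n) F) = Cfsg.siegelMatrix ⇑Q u v c} := by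
  rw [Omega_eq_closure_sieg Q hQ (by simpa using hn)]
  congr 1
  ext g
  constructor
  · rintro ⟨y, z, hy, hz, hyz, hk⟩
    refine ⟨y, z, -1, hy, hz, hyz, ?_⟩
    have h1 := toEnd_siegel Q y z hz (-1) (siegel Q y z hy hz hyz (-1)) (coe_siegel Q y z hy hz hyz (-1))
    rw [neg_neg, one_smul, ← hk] at h1
    rw [← toEnd_injective Q h1]
    exact coe_siegel Q y z hy hz hyz (-1)
  · rintro ⟨u, v, c, hu, hv, huv, hg⟩
    refine ⟨u, (-c) • v, hu, ?_, ?_, toEnd_siegel Q u v hv c g hg⟩
    · rw [QuadraticMap.map_smul, hv, smul_zero]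
    · rw [QuadraticMap.polar_smul_right, huv, smul_zero]

end Cfsg.Agent.S0795
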