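import Mathlib
import Cfsg.Statements.S0796

set_option autoImplicit false
open Cfsg

namespace Cfsg.Agent.S0796

/-- If G is finite and acts faithfully and primitively on X, H is the stabiliser of a point, A is a normal subgroup of H whose normal closure in G is G, then for every non-trivial normal subgroup K of G the quotient G ⧸ K is isomorphic to A ⧸ B for some normal subgroup B of A. -/
theorem result {G X : Type*} [Group G] [Finite G] [MulAction G X] [FaithfulSMul G X] (hprim : MulAction.IsPreprimitive G X) (x : X) (A : Subgroup G) (hA : A ≤ MulAction.stabilizer G x) (hAn : (A.subgroupOf (MulAction.stabilizer G x)).Normal) (hgen : Subgroup.normalClosure (A : Set G) = ⊤) (K : Subgroup G) [K.Normal] (hK : K ≠ ⊥) : ∃ (B : Subgroup A) (_ : B.Normal), Nonempty (G ⧸ K ≃* A ⧸ B) := by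
  have hNX : MulAction.fixedPoints K X ≠ Set.univ := by
    intro h
    apply hK
    refine K.eq_bot_iff_forall.mpr fun n hn => ?_
    apply FaithfulSMul.eq_of_smul_eq_smul (α := X)
    intro y
    rw [one_smul]
    exact Set.eq_univ_iff_forall.mp h y ⟨n, hn⟩
  have htr : MulAction.IsPretransitive K X :=
    MulAction.IsQuasiPreprimitive.isPretransitive_of_normal hNX
  have htop : A ⊔ K = ⊤ := by
    rw [eq_top_iff, ← hgen, Subgroup.normalClosure, Subgroup.closure_le]
    intro y hy
    rw [Group.mem_conjugatesOfSet_iff] at hy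
    obtain ⟨a, ha, hay⟩ := hy
    obtain ⟨g, rfl⟩ := isConj_iff.1 hay
    obtain ⟨k, hk⟩ := MulAction.exists_smul_eq K x (g • x)
    have hk' : (k : G) • x = g • x := hk
    set h : G := (k : G)⁻¹ * g with hh
    have hstab : h ∈ MulAction.stabilizer G x := by
      rw [MulAction.mem_stabilizer_iff, hh, mul_smul, ← hk', inv_smul_smul]
    have h1 : h * a * h⁻¹ ∈ A := by
      have := hAn.conj_mem ⟨a, hA ha⟩ (Subgroup.mem_subgroupOf.2 ha) ⟨h, hstab⟩
      rw [Subgroup.mem_subgroupOf] at this
      simpa using this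
    have h2 : g * a * g⁻¹ = (k : G) * (h * a * h⁻¹) * (k : G)⁻¹ := by
      rw [hh]; group
    rw [SetLike.mem_coe, h2]
    have hkm : (k : G) ∈ A ⊔ K := Subgroup.mem_sup_right k.2
    exact Subgroup.mul_mem _ (Subgroup.mul_mem _ hkm (Subgroup.mem_sup_left h1)) (Subgroup.inv_mem _ hkm)
  let f : A →* G ⧸ K := (QuotientGroup.mk' K).comp A.subtype
  have hf : Function.Surjective f := by
    intro q
    induction q using QuotientGroup.induction_on with
    | H g =>
      have hg : g ∈ A ⊔ K := htop ▸ Subgroup.mem_top g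
      rw [Subgroup.mem_sup_of_normal_right] at hg
      obtain ⟨y, hy, z, hz, rfl⟩ := hg
      refine ⟨⟨y, hy⟩, ?_⟩
      change (QuotientGroup.mk y : G ⧸ K) = QuotientGroup.mk (y * z)
      rw [QuotientGroup.eq]
      simpa using hz
  exact ⟨f.ker, inferInstance, ⟨(QuotientGroup.quotientKerEquivOfSurjective f hf).symm⟩⟩

end Cfsg.Agent.S0796
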