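import Cfsg.Statements.S0800
import Mathlib
import Cfsg.Agent.Lib.Helper19.PSL2Spec
import Cfsg.Agent.Lib.Helper13.SL2Tori
open Cfsg.Agent.Lib.Helper19

set_option autoImplicit false
open Cfsg

namespace Cfsg.Agent.S0800

/-- Tori of SL_2(q): if g ∈ SL_2(q) has order coprime to the characteristic p, then the order of g divides q − 1 or q + 1. -/
theorem result {F : Type*} [Field F] [Fintype F] {q : ℕ} (hF : Fintype.card F = q) (p : ℕ) [Fact p.Prime] [CharP F p] (g : Matrix.SpecialLinearGroup (Fin 2) F) (hg : Nat.Coprime (orderOf g) p) : orderOf g ∣ q - 1 ∨ orderOf g ∣ q + 1 := by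
  classical
  have hq : Nat.card F = q := by rw [Nat.card_eq_fintype_card, hF]
  obtain ⟨l, hl⟩ := exists_root F p (sl2tr g)
  have hq1 : 1 ≤ Nat.card F := Nat.card_pos
  have hinv := root_inv hl
  have hl0 : l ≠ 0 := by
    rintro rfl
    simp at hinv
  have hinj := (algebraMap F (FiniteField.Extension F p 2)).injective
  by_cases h1 : l * l = 1
  · left
    have ht : (g : Matrix (Fin 2) (Fin 2) F).trace ^ 2 = 4 := by
      rw [Matrix.trace_fin_two]
      change (sl2tr g) ^ 2 = 4
      apply hinj
      rw [Algebra.smul_def] at hl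
      rw [map_pow, map_ofNat]
      have h3 : (algebraMap F (FiniteField.Extension F p 2)) (sl2tr g) * l = 2 := by
        linear_combination h1 - hl
      calc (algebraMap F (FiniteField.Extension F p 2)) (sl2tr g) ^ 2
          = ((algebraMap F (FiniteField.Extension F p 2)) (sl2tr g) * l) ^ 2 := by
            rw [mul_pow, pow_two l, h1, mul_one]
        _ = 4 := by rw [h3]; norm_num
    have h2 := Cfsg.Agent.Lib.Helper13.pow_two_mul_char_eq_one p g ht
    have h3 : orderOf g ∣ 2 := by
      have := orderOf_dvd_of_pow_eq_one h2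
      exact hg.dvd_of_dvd_mul_right this
    by_cases hp2 : p = 2
    · subst hp2
      have : orderOf g = 1 := Nat.Coprime.eq_one_of_dvd hg h3
      rw [this]; exact one_dvd _
    · refine h3.trans ?_
      have hodd : Fintype.card F % 2 = 1 := FiniteField.odd_card_of_char_ne_two (by
        rw [ringChar.eq F p]; exact hp2)
      rw [hF] at hodd
      omega
  · have key : ∀ N : ℕ, l ^ N = 1 → g ^ N = 1 := by
      intro N hN
      have ha : (cA (sl2tr g) N).1 = 0 := by
        rw [cA_eq_zero_iff hl h1, mul_comm, pow_mul, hN, one_pow]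
      have hb := alg_pow_form hl N
      rw [ha, hN, zero_smul, zero_add, Algebra.smul_def, mul_one] at hb
      refine sl2_pow_eq_one g N ha (hinj ?_)
      rw [← hb, map_one]
    rcases frob_root hl with h | h
    · left
      apply orderOf_dvd_of_pow_eq_one
      apply key
      rw [← hq]
      have : l ^ (Nat.card F - 1) * l = 1 * l := by
        rw [← pow_succ, Nat.sub_add_cancel hq1, h, one_mul]
      exact mul_right_cancel₀ hl0 this
    · right
      apply orderOf_dvd_of_pow_eq_one
      apply key
      rw [← hq, pow_succ, h]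

end Cfsg.Agent.S0800
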