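import Cfsg.Statements.S0805
import Cfsg.Agent.Lib.Helper14.SubPSL

set_option autoImplicit false
open Cfsg

namespace Cfsg.Agent.S0805

/-- Subfield subgroups: let F be a finite field of odd order q and K a finite field with |K|^m = q, m ≥ 1. Then PSL_2(F) has a subgroup isomorphic to PSL_2(K), and has a subgroup isomorphic to PGL_2(K) if and only if m is even. -/
theorem result {F K : Type*} [Field F] [Fintype F] [Field K] [Fintype K] {q : ℕ} (hF : Fintype.card F = q) (hodd : Odd q) (m : ℕ) (hm : 1 ≤ m) (hK : Fintype.card K ^ m = q) : (∃ H : Subgroup (Matrix.ProjectiveSpecialLinearGroup (Fin 2) F), Nonempty (H ≃* Matrix.ProjectiveSpecialLinearGroup (Fin 2) K)) ∧ ((∃ H : Subgroup (Matrix.ProjectiveSpecialLinearGroup (Fin 2) F), Nonempty (H ≃* Matrix.ProjGenLinGroup (Fin 2) K)) ↔ Even m) := by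
  subst hF
  obtain ⟨ι⟩ := Cfsg.Agent.Lib.Helper14.exists_ringHom_of_card (F := K) (K := F) rfl hK.symm (by omega)
  refine ⟨Cfsg.Agent.Lib.Helper14.SubPSL.exists_PSL ι, ?_, ?_⟩
  · rintro ⟨H, ⟨e⟩⟩
    by_contra hne
    exact Cfsg.Agent.Lib.Helper14.SubPSL.not_exists_PGL hodd m (Nat.not_even_iff_odd.1 hne) hK H e
  · rintro ⟨k, hk⟩
    apply Cfsg.Agent.Lib.Helper14.SubPSL.exists_PGL ι
    intro a ha
    exact Cfsg.Agent.Lib.Helper14.SubPSL.isSquare_of_even ι hodd k (by rw [← hK, hk, two_mul]) a ha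

end Cfsg.Agent.S0805
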