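import Cfsg.Statements.S2601
import Cfsg.Agent.Lib.Helper19.AutK

set_option autoImplicit false
open Cfsg

namespace Cfsg.Agent.S2601

open Cfsg.Agent.Lib.Helper19.AutL

/-- Structure of the outer automorphism group of PSL_n(q), n ≥ 3, q = p^f: it has a normal cyclic subgroup of order gcd(n, q − 1) (the diagonal automorphisms) whose quotient is the direct product of a cyclic group of order f (field automorphisms) and a group of order 2 (the inverse-transpose graph automorphism). -/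
theorem result {F : Type*} [Field F] [Fintype F] {p f n : ℕ} [Fact p.Prime] (hf : 1 ≤ f) (hF : Fintype.card F = p ^ f) (hn : 3 ≤ n) : ∃ φ : Cfsg.Out (Matrix.ProjectiveSpecialLinearGroup (Fin n) F) →* Multiplicative (ZMod f × ZMod 2), Function.Surjective φ ∧ IsCyclic φ.ker ∧ Nat.card φ.ker = Nat.gcd n (p ^ f - 1) := by
  classical
  have : CharP F p := charP_of_card hf hF
  have hcyc : IsCyclic (F ≃+* F) := Cfsg.Agent.Lib.Helper19.OutL.isCyclic_ringAut p
  have hcard : Nat.card (F ≃+* F) = f := Cfsg.Agent.Lib.Helper19.OutL.card_ringAut' p f hF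
  let i0 : Fin n := ⟨0, by omega⟩
  let Φ := PhiN (F := F) (n := n) p f hf hF hn
  have hΦ1 : ∀ α, Φ α = 1 ↔ ∃ g, α = cG g := PhiN_eq_one_iff p f hf hF hn
  have hΦs : Function.Surjective Φ := PhiN_surj p f hf hF hn
  clear_value Φ
  subst hcard
  let e1 : (F ≃+* F) ≃* Multiplicative (ZMod (Nat.card (F ≃+* F))) := (zmodCyclicMulEquiv hcyc).symm
  let e : (F ≃+* F) × Multiplicative (ZMod 2) ≃* Multiplicative (ZMod (Nat.card (F ≃+* F)) × ZMod 2) :=
    (MulEquiv.prodCongr e1 (MulEquiv.refl _)).trans (MulEquiv.prodMultiplicative (G := ZMod (Nat.card (F ≃+* F))) (H := ZMod 2)).symm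
  have hInn : ∀ x ∈ Cfsg.Inn (Gn n F), Φ x = 1 := by
    rintro x ⟨s, rfl⟩
    obtain ⟨A, rfl⟩ := prn_surj s
    exact (hΦ1 _).2 ⟨_, conj_eq_cG A⟩
  let ψ : Cfsg.Out (Gn n F) →* (F ≃+* F) × Multiplicative (ZMod 2) :=
    QuotientGroup.lift (Cfsg.Inn (Gn n F)) Φ hInn
  have hψ : ∀ α : MulAut (Gn n F), ψ (QuotientGroup.mk α) = Φ α := fun α => rfl
  let D : Fˣ →* Cfsg.Out (Gn n F) := (QuotientGroup.mk' (Cfsg.Inn (Gn n F))).comp (cG.comp (dg i0))
  have hker : (e.toMonoidHom.comp ψ).ker = D.range := by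
    ext x
    obtain ⟨α, rfl⟩ := QuotientGroup.mk_surjective x
    rw [MonoidHom.mem_ker]
    constructor
    · intro h
      have h1 : Φ α = 1 := by
        apply e.injective
        rw [map_one]
        exact h
      obtain ⟨g, rfl⟩ := (hΦ1 α).1 h1
      obtain ⟨d, s, rfl⟩ := GL_decomp i0 g
      refine ⟨d, ?_⟩
      show (QuotientGroup.mk (cG (dg i0 d)) : Cfsg.Out (Gn n F)) =
        QuotientGroup.mk (cG (dg i0 d * Matrix.SpecialLinearGroup.toGL s))
      rw [QuotientGroup.eq, map_mul, inv_mul_cancel_left, ← conj_eq_cG]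
      exact ⟨_, rfl⟩
    · rintro ⟨c, hc⟩
      have h1 : Φ α = 1 := by
        rw [← hψ, ← hc]
        show Φ (cG (dg i0 c)) = 1
        exact (hΦ1 _).2 ⟨_, rfl⟩
      show e (Φ α) = 1
      rw [h1, map_one]
  have hDker : D.ker = (powMonoidHom n : Fˣ →* Fˣ).range := by
    ext d
    rw [MonoidHom.mem_ker, ← cG_dg_inner_iff (by omega) i0]
    exact QuotientGroup.eq_one_iff _
  refine ⟨e.toMonoidHom.comp ψ, ?_, ?_, ?_⟩
  · intro y
    obtain ⟨α, hα⟩ := hΦs (e.symm y)
    refine ⟨QuotientGroup.mk α, ?_⟩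
    show e (Φ α) = y
    rw [hα, MulEquiv.apply_symm_apply]
  · rw [hker]
    exact isCyclic_of_surjective D.rangeRestrict D.rangeRestrict_surjective
  · rw [hker, ← Subgroup.index_ker, hDker, IsCyclic.index_powMonoidHom_range, Nat.card_units,
      Nat.card_eq_fintype_card, hF, Nat.gcd_comm]

end Cfsg.Agent.S2601
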