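import Cfsg.Statements.S2602
import Cfsg.Agent.Lib.Helper19.OutE

set_option autoImplicit false
open Cfsg

namespace Cfsg.Agent.S2602

open Cfsg.Agent.Lib.Helper19.OutL

theorem charP_of_card' {F : Type*} [Field F] [Fintype F] {p f : ℕ} [hp : Fact p.Prime] (hf : 1 ≤ f)
    (hF : Fintype.card F = p ^ f) : CharP F p := by
  obtain ⟨r, hr⟩ := CharP.exists F
  obtain ⟨n, hrp, hn⟩ := FiniteField.card F r
  have h1 : p ∣ r ^ (n : ℕ) := by
    rw [← hn, hF]
    exact dvd_pow_self p (by omega)
  have h2 : p = r := (Nat.prime_dvd_prime_iff_eq hp.out hrp).1 (hp.out.dvd_of_dvd_pow h1)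
  subst h2
  exact hr

/-- Structure of the outer automorphism group of PSL_2(q), q = p^f ≥ 4: it has a normal cyclic subgroup of order gcd(2, q − 1) (diagonal automorphisms) with cyclic quotient of order f (field automorphisms); there is no graph automorphism in dimension 2. -/
theorem result {F : Type*} [Field F] [Fintype F] {p f : ℕ} [Fact p.Prime] (hf : 1 ≤ f) (hF : Fintype.card F = p ^ f) (h4 : 4 ≤ p ^ f) : ∃ φ : Cfsg.Out (Matrix.ProjectiveSpecialLinearGroup (Fin 2) F) →* Multiplicative (ZMod f), Function.Surjective φ ∧ IsCyclic φ.ker ∧ Nat.card φ.ker = Nat.gcd 2 (p ^ f - 1) := by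
  classical
  have : CharP F p := charP_of_card' hf hF
  have hcyc : IsCyclic (F ≃+* F) := isCyclic_ringAut p
  have hcard : Nat.card (F ≃+* F) = f := card_ringAut' p f hF
  subst hcard
  let e : (F ≃+* F) ≃* Multiplicative (ZMod (Nat.card (F ≃+* F))) := (zmodCyclicMulEquiv hcyc).symm
  have hInn : ∀ x ∈ Cfsg.Inn (GG F), Phi p x = 1 := by
    rintro x ⟨s, rfl⟩
    exact Phi_conj p s
  let ψ : Cfsg.Out (GG F) →* (F ≃+* F) := QuotientGroup.lift (Cfsg.Inn (GG F)) (Phi p) hInn
  have hψ : ∀ α : MulAut (GG F), ψ (QuotientGroup.mk α) = Phi p α := fun α => rfl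
  let D : Fˣ →* Cfsg.Out (GG F) := (QuotientGroup.mk' (Cfsg.Inn (GG F))).comp dG
  have hker : (e.toMonoidHom.comp ψ).ker = D.range := by
    ext x
    obtain ⟨α, rfl⟩ := QuotientGroup.mk_surjective x
    rw [MonoidHom.mem_ker]
    constructor
    · intro h
      have h1 : Phi p α = 1 := by
        apply e.injective
        rw [map_one]
        exact h
      obtain ⟨s, c, rfl⟩ := (Phi_eq_one_iff p α).1 h1
      refine ⟨c, ?_⟩
      show (QuotientGroup.mk (dG c) : Cfsg.Out (GG F)) = QuotientGroup.mk (MulAut.conj s * dG c)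
      rw [QuotientGroup.eq]
      have := (Cfsg.innNormal (GG F)).conj_mem (MulAut.conj s) ⟨s, rfl⟩ (dG c)⁻¹
      rw [inv_inv, mul_assoc] at this
      exact this
    · rintro ⟨c, hc⟩
      have h1 : Phi p α = 1 := by
        rw [← hψ, ← hc]
        show Phi p (dG c) = 1
        exact (Phi_eq_one_iff p _).2 ⟨1, c, by simp⟩
      show e (Phi p α) = 1
      rw [h1, map_one]
  have hDker : D.ker = (powMonoidHom 2 : Fˣ →* Fˣ).range := by
    ext d
    rw [MonoidHom.mem_ker, ← dG_inner_iff]
    exact QuotientGroup.eq_one_iff _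
  refine ⟨e.toMonoidHom.comp ψ, ?_, ?_, ?_⟩
  · intro y
    obtain ⟨α, hα⟩ := Phi_surj p (e.symm y)
    refine ⟨QuotientGroup.mk α, ?_⟩
    show e (Phi p α) = y
    rw [hα, MulEquiv.apply_symm_apply]
  · rw [hker]
    exact isCyclic_of_surjective D.rangeRestrict D.rangeRestrict_surjective
  · rw [hker, ← Subgroup.index_ker, hDker, IsCyclic.index_powMonoidHom_range, Nat.card_units,
      Nat.card_eq_fintype_card, hF, Nat.gcd_comm]

end Cfsg.Agent.S2602
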