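import Cfsg.Statements.S0813
import Cfsg.Agent.Lib.Helper19.AutK
import Cfsg.Agent.S2601
import Cfsg.Agent.S2602

set_option autoImplicit false
open Cfsg

namespace Cfsg.Agent.S0813

open Cfsg.Agent.Lib.Helper19.AutL

theorem card_aut_of_out {G H : Type*} [Group G] [Group H]
    (hinj : Function.Injective (MulAut.conj : G →* MulAut G))
    (φ : Cfsg.Out G →* H) (hs : Function.Surjective φ) :
    Nat.card (MulAut G) = Nat.card φ.ker * Nat.card H * Nat.card G := by
  rw [Subgroup.card_eq_card_quotient_mul_card_subgroup (Cfsg.Inn G)]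
  congr 1
  · have h1 := Subgroup.card_mul_index φ.ker
    rw [Subgroup.index_ker, MonoidHom.range_eq_top.2 hs, Subgroup.card_top] at h1
    exact h1.symm
  · exact (Nat.card_congr (MonoidHom.ofInjective hinj).toEquiv).symm

theorem conj_inj {F : Type*} [Field F] [Fintype F] {n : ℕ} (hn : 2 ≤ n) :
    Function.Injective (MulAut.conj : Gn n F →* MulAut (Gn n F)) := by
  rw [injective_iff_map_eq_one]
  intro x hx
  obtain ⟨A, rfl⟩ := prn_surj x
  rw [conj_eq_cG] at hx
  obtain ⟨l, hl⟩ := faithful hn hx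
  have hA : A ∈ Subgroup.center (Sn n F) := by
    rw [Matrix.SpecialLinearGroup.mem_center_iff]
    refine ⟨l, ?_, hl.symm⟩
    have h1 := A.2
    have h2 : (A : Matrix (Fin n) (Fin n) F) = Matrix.scalar (Fin n) l := hl
    rw [h2] at h1
    simpa [Matrix.scalar_apply, Matrix.det_diagonal] using h1
  exact (QuotientGroup.eq_one_iff A).2 hA

/-- |Aut(PSL_n(q))|, q = p^f: for n ≥ 3 it is 2 f |PGL_n(q)|, and for n = 2 (q ≥ 4) it is f |PGL_2(q)|. -/
theorem result {F : Type*} [Field F] [Fintype F] (p f : ℕ) [Fact p.Prime] (hf : 1 ≤ f) (hF : Fintype.card F = p ^ f) (n : ℕ) (hn : 2 ≤ n) (h2 : n = 2 → 4 ≤ p ^ f) : Nat.card (MulAut (Matrix.ProjectiveSpecialLinearGroup (Fin n) F)) = (if n = 2 then 1 else 2) * f * Nat.card (Matrix.ProjGenLinGroup (Fin n) F) := by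
  have hG := Cfsg.Agent.Lib.Helper14.card_PSL_mul (F := F) n (by omega)
  have hP := Cfsg.Agent.Lib.Helper14.card_PGL_eq_card_SL (F := F) n
  rw [hP, ← hG, hF]
  by_cases h : n = 2
  · subst h
    obtain ⟨φ, hs, -, hk⟩ := Cfsg.Agent.S2602.result (F := F) hf hF (h2 rfl)
    rw [card_aut_of_out (conj_inj hn) φ hs, hk, if_pos rfl]
    have : Nat.card (Multiplicative (ZMod f)) = f := by
      rw [Nat.card_congr Multiplicative.toAdd, Nat.card_zmod]
    rw [this]
    ring
  · obtain ⟨φ, hs, -, hk⟩ := Cfsg.Agent.S2601.result (F := F) (n := n) hf hF (by omega)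
    rw [card_aut_of_out (conj_inj hn) φ hs, hk, if_neg h]
    have : Nat.card (Multiplicative (ZMod f × ZMod 2)) = f * 2 := by
      rw [Nat.card_congr Multiplicative.toAdd, Nat.card_prod, Nat.card_zmod, Nat.card_zmod]
    rw [this]
    ring

end Cfsg.Agent.S0813
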