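import Cfsg.Statements.S0819
import Cfsg.Agent.Lib.Helper3.M21.Ord15
import Cfsg.Agent.Lib.Helper3.L34.Psl
import Cfsg.Agent.Lib.Helper3.ExcIso

set_option autoImplicit false
open Cfsg

namespace Cfsg.Agent.S0819

/-- No element of PSL_3(4) has order 15. -/
theorem result {F : Type*} [Field F] [Fintype F] (hF : Fintype.card F = 4) (g : Matrix.ProjectiveSpecialLinearGroup (Fin 3) F) : orderOf g ≠ 15 := by
  obtain ⟨e2⟩ := Cfsg.Agent.Lib.Helper3.M21.St3_iso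
  obtain ⟨e3⟩ := Cfsg.Agent.Lib.Helper3.L34.iso
  obtain ⟨e4⟩ := Cfsg.Agent.Lib.Helper3.L34.psl_iso
  obtain ⟨e5⟩ := Cfsg.Agent.Lib.Helper3.psl_of_card (n := Fin 3) (F := F)
    (K := Cfsg.Agent.Lib.Helper3.F4) (by rw [hF, Cfsg.Agent.Lib.Helper3.F4.card_eq])
  let e := e5.trans (e4.trans (e3.trans e2.symm))
  have h1 : orderOf (e g) = orderOf g := MulEquiv.orderOf_eq e g
  rw [← h1, ← Subgroup.orderOf_coe]
  have hm := (e g).2
  exact Cfsg.Agent.Lib.Helper3.M21.no_order_15 _ hm.1 (Cfsg.Agent.Lib.Helper3.bp 0)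
    (Cfsg.Agent.Lib.Helper3.bp 1) (Cfsg.Agent.Lib.Helper3.bp 2) (by decide) (by decide) (by decide)
    (hm.2 0 (by norm_num)) (hm.2 1 (by norm_num)) (hm.2 2 (by norm_num))

end Cfsg.Agent.S0819
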