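import Cfsg.Statements.S0822
import Cfsg.Agent.Lib.Helper3.U42.Psu
import Cfsg.Agent.Lib.Helper3.S43.Psp
import Cfsg.Agent.Lib.Helper3.ExcIso2

set_option autoImplicit false
open Cfsg

namespace Cfsg.Agent.S0822

/-- PSU_4(2) ≅ PSp_4(3): with |F| = 4 and |K| = 3, the projective special unitary group of the standard Hermitian form on F^4 is isomorphic to PSp_4(K). -/
theorem result {F K : Type*} [Field F] [Fintype F] [Field K] [Fintype K] (hF : Fintype.card F = 4) (hK : Fintype.card K = 3) : Nonempty (Cfsg.PSU 4 F 2 ≃* Cfsg.PSp 2 K) := by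
  have : Fact (Nat.Prime 3) := ⟨by norm_num⟩
  obtain ⟨e1⟩ := Cfsg.Agent.Lib.Helper3.psu_of_card (n := 4) (q := 2) (F := F)
    (K := Cfsg.Agent.Lib.Helper3.F4) (by rw [hF, Cfsg.Agent.Lib.Helper3.F4.card_eq])
  obtain ⟨e2⟩ := Cfsg.Agent.Lib.Helper3.U42.psu_iso
  obtain ⟨e3⟩ := Cfsg.Agent.Lib.Helper3.S43.iso
  obtain ⟨e4⟩ := Cfsg.Agent.Lib.Helper3.S43.psp_iso
  obtain ⟨e5⟩ := Cfsg.Agent.Lib.Helper3.psp_of_card (m := 2) (F := K) (K := ZMod 3)
    (by rw [hK, ZMod.card])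
  exact ⟨e1.trans (e2.trans (e3.symm.trans (e4.symm.trans e5.symm)))⟩

end Cfsg.Agent.S0822
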