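import Cfsg.Statements.S0823
import Cfsg.Agent.Lib.Helper14.SO33

set_option autoImplicit false
open Cfsg

namespace Cfsg.Agent.S0823

/-- SO_3(3) ≅ S_4: the determinant-one isometries of the form x_0² + x_1y_1 over the field with 3 elements form a group isomorphic to the symmetric group on 4 letters. -/
theorem result {F : Type*} [Field F] [Fintype F] (hF : Fintype.card F = 3) : Nonempty (↥(Cfsg.specialIsometryGroup F (Cfsg.quadFormOdd 1 F)) ≃* Equiv.Perm (Fin 4)) := by
  classical
  have e : F ≃+* ZMod 3 := (ZMod.ringEquivOfPrime F Nat.prime_three hF).symm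
  have hne : (-1 : F) ≠ 1 := by
    intro h
    have := congrArg e h
    rw [map_neg, map_one] at this
    revert this
    decide
  apply Cfsg.Agent.Lib.Helper14.Ord24.main
  · have h48 := Cfsg.Agent.S0286.result hF (by decide) 1
    have hidx : (Cfsg.specialIsometryGroup F (Cfsg.quadFormOdd 1 F)).index = 2 := by
      unfold Cfsg.specialIsometryGroup
      rw [Subgroup.index_ker]
      have hU : Nat.card Fˣ = 2 := by
        rw [Nat.card_eq_fintype_card, Fintype.card_units, hF]
      have hd := Subgroup.card_subgroup_dvd_card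
        (Matrix.GeneralLinearGroup.det.comp (Cfsg.isometryGroup F (Cfsg.quadFormOdd 1 F)).subtype).range
      rw [hU] at hd
      rcases (Nat.dvd_prime Nat.prime_two).1 hd with h | h
      · exfalso
        rw [Subgroup.card_eq_one] at h
        have hmem : (-1 : Matrix.GeneralLinearGroup (Unit ⊕ (Fin 1 ⊕ Fin 1)) F) ∈
            Cfsg.isometryGroup F (Cfsg.quadFormOdd 1 F) := by
          intro u v
          simp [Cfsg.quadFormOdd, Matrix.neg_mulVec]
        have h1 : (Matrix.GeneralLinearGroup.det.comp
            (Cfsg.isometryGroup F (Cfsg.quadFormOdd 1 F)).subtype) ⟨-1, hmem⟩ ∈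
            (Matrix.GeneralLinearGroup.det.comp
              (Cfsg.isometryGroup F (Cfsg.quadFormOdd 1 F)).subtype).range := ⟨_, rfl⟩
        rw [h, Subgroup.mem_bot] at h1
        have h2 := congrArg Units.val h1
        simp [Matrix.det_neg] at h2
        apply hne
        linear_combination h2
      · exact h
    have := Subgroup.card_mul_index (Cfsg.specialIsometryGroup F (Cfsg.quadFormOdd 1 F))
    rw [hidx, h48, Finset.prod_range_one] at this
    have h' : 2 * 3 ^ 1 ^ 2 * (3 ^ (2 * (0 + 1)) - 1) = 48 := by norm_num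
    rw [h'] at this
    omega
  · intro g hg
    have hM : ∀ v, Cfsg.quadFormOdd 1 F
        (((g : Cfsg.isometryGroup F (Cfsg.quadFormOdd 1 F)) :
          Matrix.GeneralLinearGroup (Unit ⊕ (Fin 1 ⊕ Fin 1)) F).1.mulVec v) =
        Cfsg.quadFormOdd 1 F v := fun v => g.1.2 v v
    have hdet : ((g : Cfsg.isometryGroup F (Cfsg.quadFormOdd 1 F)) :
          Matrix.GeneralLinearGroup (Unit ⊕ (Fin 1 ⊕ Fin 1)) F).1.det = 1 := by
      have := g.2
      unfold Cfsg.specialIsometryGroup at this
      rw [MonoidHom.mem_ker] at this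
      exact congrArg Units.val this
    have hpow : ∀ k : ℕ, ((g : Cfsg.isometryGroup F (Cfsg.quadFormOdd 1 F)) :
          Matrix.GeneralLinearGroup (Unit ⊕ (Fin 1 ⊕ Fin 1)) F).1 ^ k = 1 ↔ g ^ k = 1 := by
      intro k
      constructor
      · intro h
        apply Subtype.ext
        apply Subtype.ext
        apply Units.ext
        simpa using h
      · intro h
        have := congrArg (fun x : ↥(Cfsg.specialIsometryGroup F (Cfsg.quadFormOdd 1 F)) =>
          ((x : Cfsg.isometryGroup F (Cfsg.quadFormOdd 1 F)) :
          Matrix.GeneralLinearGroup (Unit ⊕ (Fin 1 ⊕ Fin 1)) F).1) h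
        simpa using this
    have h6 : g ^ 6 = 1 := by rw [← hg]; exact pow_orderOf_eq_one g
    rcases Cfsg.Agent.Lib.Helper14.SO33.no_six e _ hM hdet ((hpow 6).2 h6) with h | h
    · have := orderOf_dvd_of_pow_eq_one ((hpow 2).1 h)
      rw [hg] at this
      revert this; decide
    · have := orderOf_dvd_of_pow_eq_one ((hpow 3).1 h)
      rw [hg] at this
      revert this; decide

end Cfsg.Agent.S0823
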