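import Cfsg.Statements.S0828
import Mathlib
import Cfsg.Agent.Lib.Helper14.SpFrames
open Cfsg.Agent.Lib.Helper14 Cfsg.Agent.Lib.Helper5 Matrix

set_option autoImplicit false
open Cfsg

namespace Cfsg.Agent.S0828

/-- The symplectic generalised quadrangle over a field with q elements: the number of 2-dimensional subspaces of F^4 on which the symplectic form vanishes is (q + 1)(q² + 1), and every non-zero vector lies in exactly q + 1 of them. -/
theorem result {F : Type*} [Field F] [Fintype F] {q : ℕ} (hF : Fintype.card F = q) : Nat.card {W : Submodule F (Fin 2 ⊕ Fin 2 → F) // Module.finrank F W = 2 ∧ ∀ u ∈ W, ∀ v ∈ W, Cfsg.sympForm 2 F u v = 0} = (q + 1) * (q ^ 2 + 1) ∧ ∀ v : Fin 2 ⊕ Fin 2 → F, v ≠ 0 → Nat.card {W : Submodule F (Fin 2 ⊕ Fin 2 → F) // Module.finrank F W = 2 ∧ v ∈ W ∧ ∀ u ∈ W, ∀ w ∈ W, Cfsg.sympForm 2 F u w = 0} = q + 1 := by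
  classical
  have hq : 2 ≤ q := by rw [← hF]; exact Fintype.one_lt_card
  obtain ⟨t, rfl⟩ : ∃ t, q = t + 2 := ⟨q - 2, by omega⟩
  set B : LinearMap.BilinForm F (Fin 2 ⊕ Fin 2 → F) := sympB 2 F with hB
  constructor
  · have h1 := card_frames (K := F) (V := Fin 2 ⊕ Fin 2 → F) 2
      (fun W => ∀ u ∈ W, ∀ v ∈ W, Cfsg.sympForm 2 F u v = 0)
    have h2 : Nat.card {s : Fin 2 → (Fin 2 ⊕ Fin 2 → F) // LinearIndependent F s ∧
        ∀ u ∈ Submodule.span F (Set.range s), ∀ v ∈ Submodule.span F (Set.range s),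
          Cfsg.sympForm 2 F u v = 0} = Nat.card (XS F 2 2) :=
      Nat.card_congr (Equiv.subtypeEquivRight fun s => by rw [symp_span_isotropic])
    rw [h2, card_XS, hF] at h1
    simp only [Finset.prod_range_succ, Finset.prod_range_zero, Fin.prod_univ_two, one_mul,
      Fin.val_zero, Fin.val_one, pow_zero, pow_one] at h1
    have e1 : (t + 2) ^ (2 * 2 - 0) - 1 = ((t + 2) ^ 2 + 1) * ((t + 2) ^ 2 - 1) := by
      have a1 : (t + 2) ^ (2 * 2 - 0) = ((t + 2) ^ 2 + 1) * (t ^ 2 + 4 * t + 3) + 1 := by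
        norm_num; ring
      have a2 : (t + 2) ^ 2 = (t ^ 2 + 4 * t + 3) + 1 := by ring
      rw [a1, a2]; simp
    have e2 : (t + 2) ^ (2 * 2 - 1) - (t + 2) = (t + 2 + 1) * ((t + 2) ^ 2 - (t + 2)) := by
      have a1 : (t + 2) ^ (2 * 2 - 1) = (t + 2 + 1) * (t ^ 2 + 3 * t + 2) + (t + 2) := by
        norm_num; ring
      have a2 : (t + 2) ^ 2 = (t ^ 2 + 3 * t + 2) + (t + 2) := by ring
      rw [a1, a2]; simp
    rw [e1, e2] at h1
    have hpos : 0 < ((t + 2) ^ 2 - 1) * ((t + 2) ^ 2 - (t + 2)) := by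
      have a2 : (t + 2) ^ 2 = (t ^ 2 + 4 * t + 3) + 1 := by ring
      have a3 : (t + 2) ^ 2 = (t ^ 2 + 3 * t + 2) + (t + 2) := by ring
      apply Nat.mul_pos
      · rw [a2]; simp
      · rw [a3]; simp
    apply Nat.eq_of_mul_eq_mul_right hpos
    rw [← h1]
    ring
  · intro v hv
    set U := Submodule.span F {v} with hU
    have hUfr : Module.finrank F U = 1 := finrank_span_singleton hv
    have hperp : ∀ w, w ∈ B.orthogonal U ↔ Cfsg.sympForm 2 F v w = 0 := by
      intro w
      rw [LinearMap.BilinForm.mem_orthogonal_iff]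
      constructor
      · intro h
        exact h v (Submodule.mem_span_singleton_self v)
      · intro h n hn
        obtain ⟨c, rfl⟩ := Submodule.mem_span_singleton.1 hn
        change Cfsg.sympForm 2 F (c • v) w = 0
        rw [sympForm_smul_left, h, mul_zero]
    have hle : U ≤ B.orthogonal U := by
      intro u hu
      obtain ⟨c, rfl⟩ := Submodule.mem_span_singleton.1 hu
      rw [hperp, sympForm_smul_right, sympForm_self, mul_zero]
    have hLI : ∀ w, w ∉ U → LinearIndependent F ![v, w] := by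
      intro w hw
      rw [LinearIndependent.pair_iff' hv]
      intro c hc
      exact hw (Submodule.mem_span_singleton.2 ⟨c, hc⟩)
    have hiso : ∀ w, Cfsg.sympForm 2 F v w = 0 → ∀ i j : Fin 2,
        Cfsg.sympForm 2 F (![v, w] i) (![v, w] j) = 0 := by
      intro w hw i j
      fin_cases i <;> fin_cases j
      · exact sympForm_self v
      · exact hw
      · change Cfsg.sympForm 2 F w v = 0
        rw [sympForm_swap, hw, neg_zero]
      · exact sympForm_self w
    let g : {w : Fin 2 ⊕ Fin 2 → F // w ∈ B.orthogonal U ∧ w ∉ U} →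
        {W : Submodule F (Fin 2 ⊕ Fin 2 → F) // Module.finrank F W = 2 ∧ v ∈ W ∧
          ∀ u ∈ W, ∀ w ∈ W, Cfsg.sympForm 2 F u w = 0} := fun w =>
      ⟨Submodule.span F (Set.range ![v, w.1]), by
        rw [finrank_span_eq_card (hLI w.1 w.2.2), Fintype.card_fin],
        Submodule.subset_span ⟨0, rfl⟩,
        (symp_span_isotropic _).1 (hiso w.1 ((hperp _).1 w.2.1))⟩
    haveI : Finite {W : Submodule F (Fin 2 ⊕ Fin 2 → F) // Module.finrank F W = 2 ∧ v ∈ W ∧
          ∀ u ∈ W, ∀ w ∈ W, Cfsg.sympForm 2 F u w = 0} :=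
      Finite.of_injective (fun W => (W.1 : Set (Fin 2 ⊕ Fin 2 → F)))
        (fun a b h => Subtype.ext (SetLike.coe_injective h))
    have h1 := card_eq_mul_of_fibers g ((t + 2) ^ 2 - (t + 2)) (fun W => by
      have hUW : U ≤ W.1 := by
        rw [hU, Submodule.span_singleton_le_iff_mem]; exact W.2.2.1
      have h2 := card_sub_of_le U W.1 hUW
      rw [W.2.1, hUfr, hF, pow_one] at h2
      rw [← h2]
      refine Nat.card_congr
        { toFun := fun w => ⟨w.1.1, ?_, w.1.2.2⟩
          invFun := fun w => ⟨⟨w.1, ?_, w.2.2⟩, ?_⟩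
          left_inv := fun w => rfl
          right_inv := fun w => rfl }
      · have := congrArg Subtype.val w.2
        change Submodule.span F (Set.range ![v, w.1.1]) = W.1 at this
        rw [← this]
        exact Submodule.subset_span ⟨1, rfl⟩
      · rw [hperp]
        exact W.2.2.2 v W.2.2.1 w.1 w.2.1
      · apply Subtype.ext
        change Submodule.span F (Set.range ![v, w.1]) = W.1
        apply Submodule.eq_of_le_of_finrank_eq
        · rw [Submodule.span_le]
          rintro _ ⟨i, rfl⟩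
          fin_cases i
          · exact W.2.2.1
          · exact w.2.1
        · rw [finrank_span_eq_card (hLI w.1 w.2.2), Fintype.card_fin, W.2.1])
    have h3 := card_sub_of_le U (B.orthogonal U) hle
    rw [LinearMap.BilinForm.finrank_orthogonal sympB_nondegenerate, hUfr,
      Module.finrank_fintype_fun_eq_card, Fintype.card_sum, Fintype.card_fin, hF, pow_one] at h3
    rw [h3] at h1
    have e2 : (t + 2) ^ (2 + 2 - 1) - (t + 2) = (t + 2 + 1) * ((t + 2) ^ 2 - (t + 2)) := by
      have a1 : (t + 2) ^ (2 + 2 - 1) = (t + 2 + 1) * (t ^ 2 + 3 * t + 2) + (t + 2) := by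
        norm_num; ring
      have a2 : (t + 2) ^ 2 = (t ^ 2 + 3 * t + 2) + (t + 2) := by ring
      rw [a1, a2]; simp
    rw [e2] at h1
    have hpos : 0 < (t + 2) ^ 2 - (t + 2) := by
      have a3 : (t + 2) ^ 2 = (t ^ 2 + 3 * t + 2) + (t + 2) := by ring
      rw [a3]; simp
    exact (Nat.eq_of_mul_eq_mul_right hpos h1).symm

end Cfsg.Agent.S0828
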