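import Cfsg.Statements.S0829
import Cfsg.Agent.Lib.Helper14.HermFrames
open Cfsg.Agent.Lib.Helper14

set_option autoImplicit false
open Cfsg

namespace Cfsg.Agent.S0829

/-- The unitary quadrangle of PSU_4(q): with |F| = q², the number of 2-dimensional subspaces of F^4 on which the Hermitian form Σ x_i y_i^q vanishes is (q + 1)(q³ + 1). -/
theorem result {F : Type*} [Field F] [Fintype F] {q : ℕ} (hF : Fintype.card F = q ^ 2) : Nat.card {W : Submodule F (Fin 4 → F) // Module.finrank F W = 2 ∧ ∀ u ∈ W, ∀ v ∈ W, Cfsg.hermForm 4 F q u v = 0} = (q + 1) * (q ^ 3 + 1) := by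
  have hq := q_ge_two hF
  have h1 := card_XH_eq (n := 4) hF 2
  rw [card_XH_succ hF 1 (by norm_num), card_XH_succ hF 0 (by norm_num), card_XH_zero] at h1
  simp only [Nat.mul_zero, Nat.sub_zero, Nat.mul_one, Nat.reduceSub, card_herm_zero hF] at h1
  rw [if_pos (by decide), if_pos (by decide), Fin.prod_univ_two] at h1
  simp only [Nat.add_sub_cancel, pow_zero, one_mul, pow_one, Nat.reduceSub, Fin.val_zero,
    Fin.val_one] at h1
  obtain ⟨a, ha⟩ : ∃ a, q ^ 2 = a + 1 := ⟨q ^ 2 - 1, by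
    have : 1 ≤ q ^ 2 := Nat.one_le_pow _ _ (by omega)
    omega⟩
  have h4 : q ^ 4 - 1 = a * (a + 2) := by
    have : q ^ 4 = (a + 1) * (a + 1) := by rw [← ha]; ring
    rw [this]
    have : (a + 1) * (a + 1) = a * (a + 2) + 1 := by ring
    omega
  have h5 : (q ^ 2) ^ 2 - 1 = a * (a + 2) := by rw [← h4]; congr 1; ring
  have h6 : (q ^ 2) ^ 2 - q ^ 2 = (a + 1) * a := by
    rw [ha]
    have : (a + 1) ^ 2 = (a + 1) * a + (a + 1) := by ring
    omega
  have h7 : q ^ 2 - 1 = a := by omega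
  rw [h4, h5, h6, h7, ha] at h1
  have ha0 : 0 < a := by
    have : 4 ≤ q ^ 2 := by nlinarith
    omega
  have h8 : (a * (a + 2) * ((a + 1) * a)) * ((q + 1) * (q ^ 3 + 1)) = (a * (a + 2) * ((a + 1) * a)) *
      Nat.card {W : Submodule F (Fin 4 → F) // Module.finrank F W = 2 ∧ ∀ u ∈ W, ∀ v ∈ W, Cfsg.hermForm 4 F q u v = 0} := by
    linear_combination h1
  exact (Nat.eq_of_mul_eq_mul_left (by positivity) h8).symm

end Cfsg.Agent.S0829
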