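import Cfsg.Statements.S0831
import Cfsg.Agent.Lib.Helper15.LagrTrans
import Cfsg.Agent.Lib.Helper15.PlusLagr

set_option autoImplicit false
open Cfsg Cfsg.Agent.Lib.Helper15

namespace Cfsg.Agent.S0831

/-- The two families of maximal totally singular subspaces of the hyperbolic quadric: for the form Σ x_i y_i on F^(2m), m ≥ 1, and m-dimensional subspaces U, W, X on which it vanishes, the parities of m − dim(U ∩ W), m − dim(W ∩ X) and m − dim(U ∩ X) sum to an even number (so 'even codimension of the intersection' is an equivalence relation), and there exist two such subspaces meeting in codimension 1 (so there are exactly two classes). -/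
theorem result {F : Type*} [Field F] (m : ℕ) (hm : 1 ≤ m) : (∀ U W X : Submodule F (Fin m ⊕ Fin m → F), (Module.finrank F U = m ∧ ∀ w ∈ U, Cfsg.quadFormPlus m F w = 0) → (Module.finrank F W = m ∧ ∀ w ∈ W, Cfsg.quadFormPlus m F w = 0) → (Module.finrank F X = m ∧ ∀ w ∈ X, Cfsg.quadFormPlus m F w = 0) → Even ((m - Module.finrank F ↥(U ⊓ W)) + (m - Module.finrank F ↥(W ⊓ X)) + (m - Module.finrank F ↥(U ⊓ X)))) ∧ ∃ U W : Submodule F (Fin m ⊕ Fin m → F), (Module.finrank F U = m ∧ ∀ w ∈ U, Cfsg.quadFormPlus m F w = 0) ∧ (Module.finrank F W = m ∧ ∀ w ∈ W, Cfsg.quadFormPlus m F w = 0) ∧ Module.finrank F ↥(U ⊓ W) + 1 = m := by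
  have hnd := qPlus_nondegenerate m F
  have hfr : Module.finrank F (Fin m ⊕ Fin m → F) = 2 * m := by
    simp only [Module.finrank_fintype_fun_eq_card, Fintype.card_sum, Fintype.card_fin]; ring
  have mk : ∀ U : Submodule F (Fin m ⊕ Fin m → F),
      (Module.finrank F U = m ∧ ∀ w ∈ U, Cfsg.quadFormPlus m F w = 0) → IsLagr (qPlus m F) U := by
    rintro U ⟨h1, h2⟩
    exact ⟨fun u hu => by rw [coe_qPlus]; exact h2 u hu, by rw [h1, hfr]⟩
  have mk' : ∀ U : Submodule F (Fin m ⊕ Fin m → F), IsLagr (qPlus m F) U →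
      (Module.finrank F U = m ∧ ∀ w ∈ U, Cfsg.quadFormPlus m F w = 0) := by
    intro U hU
    refine ⟨?_, fun w hw => ?_⟩
    · have := hU.dim
      rw [hfr] at this
      omega
    · rw [← coe_qPlus]; exact hU.sing w hw
  constructor
  · intro U W X hU hW hX
    have h := three_lagr (qPlus m F) hnd U W X (mk U hU) (mk W hW) (mk X hX)
    have h1 : Module.finrank F ↥(U ⊓ W) ≤ m := (Submodule.finrank_mono inf_le_left).trans hU.1.le
    have h2 : Module.finrank F ↥(W ⊓ X) ≤ m := (Submodule.finrank_mono inf_le_left).trans hW.1.le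
    have h3 : Module.finrank F ↥(U ⊓ X) ≤ m := (Submodule.finrank_mono inf_le_left).trans hU.1.le
    rw [hU.1] at h
    rw [Nat.even_iff] at h ⊢
    omega
  · set U := LinearMap.ker (LinearMap.funLeft F F (Sum.inr : Fin m → Fin m ⊕ Fin m)) with hU
    have hUL : IsLagr (qPlus m F) U := isLagr_ker_inr m F
    set v : Fin m ⊕ Fin m → F := Pi.single (Sum.inl ⟨0, hm⟩) 1 + Pi.single (Sum.inr ⟨0, hm⟩) 1 with hv
    have hQv : qPlus m F v ≠ 0 := by
      rw [coe_qPlus]
      simp [quadFormPlus, hv, Pi.single_apply]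
    have hWL : IsLagr (qPlus m F) (U.map (reflL (qPlus m F) v)) := hUL.map hnd (reflL_isIso _ v hQv)
    refine ⟨U, U.map (reflL (qPlus m F) v), mk' U hUL, mk' _ hWL, ?_⟩
    have h1 := lagr_step (qPlus m F) hnd U U hUL hUL v hQv
    rw [inf_idem, (mk' U hUL).1] at h1
    rcases h1 with h1 | h1
    · exfalso
      have h2 : Module.finrank F ↥(U ⊓ U.map (reflL (qPlus m F) v)) ≤ m :=
        (Submodule.finrank_mono inf_le_left).trans (mk' U hUL).1.le
      omega
    · exact h1

end Cfsg.Agent.S0831
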