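import Cfsg.Statements.S0832
import Cfsg.Agent.Lib.Helper15.LagrExt
import Cfsg.Agent.Lib.Helper15.PlusLagr

set_option autoImplicit false
open Cfsg Cfsg.Agent.Lib.Helper15

namespace Cfsg.Agent.S0832

/-- For the form Σ x_i y_i on F^(2m) over a finite field, m ≥ 1: an (m−1)-dimensional subspace on which the form vanishes is contained in exactly two m-dimensional subspaces on which it vanishes. -/
theorem result {F : Type*} [Field F] [Finite F] (m : ℕ) (hm : 1 ≤ m) (U : Submodule F (Fin m ⊕ Fin m → F)) (hU : Module.finrank F U + 1 = m ∧ ∀ u ∈ U, Cfsg.quadFormPlus m F u = 0) : Nat.card {W : Submodule F (Fin m ⊕ Fin m → F) // Module.finrank F W = m ∧ (∀ w ∈ W, Cfsg.quadFormPlus m F w = 0) ∧ U ≤ W} = 2 := by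
  have hnd := qPlus_nondegenerate m F
  have hfr : Module.finrank F (Fin m ⊕ Fin m → F) = 2 * m := by
    simp only [Module.finrank_fintype_fun_eq_card, Fintype.card_sum, Fintype.card_fin]; ring
  have mk : ∀ U : Submodule F (Fin m ⊕ Fin m → F),
      Module.finrank F U = m → (∀ w ∈ U, Cfsg.quadFormPlus m F w = 0) → IsLagr (qPlus m F) U := by
    intro U h1 h2
    exact ⟨fun u hu => by rw [coe_qPlus]; exact h2 u hu, by rw [h1, hfr]⟩
  have mk' : ∀ U : Submodule F (Fin m ⊕ Fin m → F), IsLagr (qPlus m F) U →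
      (Module.finrank F U = m ∧ ∀ w ∈ U, Cfsg.quadFormPlus m F w = 0) := by
    intro U hU
    refine ⟨?_, fun w hw => ?_⟩
    · have := hU.dim
      rw [hfr] at this
      omega
    · rw [← coe_qPlus]; exact hU.sing w hw
  obtain ⟨W₁, W₂, hne, ⟨h1, h1'⟩, ⟨h2, h2'⟩, hall⟩ := two_lagr (qPlus m F) hnd _ (isLagr_ker_inr m F) U
    (fun u hu => by rw [coe_qPlus]; exact hU.2 u hu) (by rw [finrank_ker_funLeft_inr]; exact hU.1)
  rw [Nat.card_eq_two_iff]
  refine ⟨⟨W₁, (mk' W₁ h1).1, (mk' W₁ h1).2, h1'⟩, ⟨W₂, (mk' W₂ h2).1, (mk' W₂ h2).2, h2'⟩, ?_, ?_⟩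
  · intro h
    exact hne (congrArg Subtype.val h)
  · rw [Set.eq_univ_iff_forall]
    rintro ⟨W, hW1, hW2, hW3⟩
    rcases hall W (mk W hW1 hW2) hW3 with h | h
    · left; exact Subtype.ext h
    · right; exact Subtype.ext h

end Cfsg.Agent.S0832
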