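import Cfsg.Statements.S0833
import Cfsg.Agent.Lib.Helper14.SpAbstract
open Cfsg.Agent.Lib.Helper14
open scoped TensorProduct

set_option autoImplicit false
open Cfsg

namespace Cfsg.Agent.S0833

/-- If B₁, B₂ are non-degenerate alternating forms on U (dim 2k) and W (dim 2l), then B₁ ⊗ B₂ on U ⊗ W is symmetric, non-degenerate, and vanishes identically on some subspace of dimension 2kl (half of dim U ⊗ W). -/
theorem result {F U W : Type*} [Field F] [Fintype F] [AddCommGroup U] [Module F U] [FiniteDimensional F U] [AddCommGroup W] [Module F W] [FiniteDimensional F W] (B₁ : LinearMap.BilinForm F U) (B₂ : LinearMap.BilinForm F W) (h₁ : B₁.Nondegenerate) (h₂ : B₂.Nondegenerate) (hA₁ : B₁.IsAlt) (hA₂ : B₂.IsAlt) (k l : ℕ) (hU : Module.finrank F U = 2 * k) (hW : Module.finrank F W = 2 * l) : (B₁.tmul B₂).IsSymm ∧ (B₁.tmul B₂).Nondegenerate ∧ (∃ X : Submodule F (TensorProduct F U W), Module.finrank F X = 2 * k * l ∧ ∀ x ∈ X, ∀ y ∈ X, (B₁.tmul B₂) x y = 0) := by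
  classical
  set T := B₁.tmul B₂ with hT
  have hpure : ∀ (u u' : U) (w w' : W), T (u ⊗ₜ w) (u' ⊗ₜ w') = B₂ w w' * B₁ u u' :=
    fun u u' w w' => rfl
  have hsk₁ : ∀ x y, B₁ x y = - B₁ y x := fun x y => by
    have := hA₁.neg_eq x y
    rw [← this, neg_neg]
  have hsk₂ : ∀ x y, B₂ x y = - B₂ y x := fun x y => by
    have := hA₂.neg_eq x y
    rw [← this, neg_neg]
  have hsymm : ∀ x y, T x y = T y x := by
    intro x y
    induction x using TensorProduct.induction_on with
    | zero => simp
    | add a b ha hb => rw [map_add, LinearMap.add_apply, map_add, ha, hb]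
    | tmul u w =>
      induction y using TensorProduct.induction_on with
      | zero => simp
      | add a b ha hb => rw [map_add, map_add, LinearMap.add_apply, ha, hb]
      | tmul u' w' => rw [hpure, hpure, hsk₁ u u', hsk₂ w w']; ring
  have hS : T.IsSymm := ⟨fun x y => hsymm x y⟩
  have hright : T.SeparatingRight := by
    intro x hx
    let b := Module.finBasis F U
    let c := Module.finBasis F W
    let bc := b.tensorProduct c
    apply bc.repr.injective
    ext p
    have h1 := hx ((B₁.dualBasis h₁ b p.1) ⊗ₜ (B₂.dualBasis h₂ c p.2))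
    rw [← bc.sum_repr x, map_sum] at h1
    rw [Finset.sum_eq_single p] at h1
    · rw [map_smul, Module.Basis.tensorProduct_apply, hpure,
        LinearMap.BilinForm.apply_dualBasis_left, LinearMap.BilinForm.apply_dualBasis_left] at h1
      simpa using h1
    · intro p' _ hp'
      rw [map_smul, Module.Basis.tensorProduct_apply, hpure,
        LinearMap.BilinForm.apply_dualBasis_left, LinearMap.BilinForm.apply_dualBasis_left]
      by_cases h2 : p'.1 = p.1
      · have h3 : p'.2 ≠ p.2 := fun h3 => hp' (Prod.ext h2 h3)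
        simp [h3]
      · simp [h2]
    · intro h; exact absurd (Finset.mem_univ _) h
  have hleft : T.SeparatingLeft := by
    intro x hx
    exact hright x fun y => by rw [hsymm]; exact hx y
  refine ⟨hS, ⟨hleft, hright⟩, ?_⟩
  obtain ⟨b, hb⟩ := exists_symplectic_basis B₁ h₁ hA₁ k hU
  let c := Module.finBasisOfFinrankEq F W hW
  let bc := b.tensorProduct c
  let s : Fin k × Fin (2 * l) → TensorProduct F U W := fun p => bc (Sum.inl p.1, p.2)
  have hs : LinearIndependent F s :=
    bc.linearIndependent.comp (fun p : Fin k × Fin (2 * l) => ((Sum.inl p.1 : Fin k ⊕ Fin k), p.2))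
      (fun p p' h => by
        have h1 := (Prod.ext_iff.1 h).1
        have h2 := (Prod.ext_iff.1 h).2
        exact Prod.ext (Sum.inl_injective h1) h2)
  have hz : ∀ p p', T (s p) (s p') = 0 := by
    intro p p'
    change T (bc _) (bc _) = 0
    rw [Module.Basis.tensorProduct_apply, Module.Basis.tensorProduct_apply, hpure, hb]
    have e1 : ∀ i, b.equivFun (b i) = Pi.single i 1 := fun i => by
      ext j
      rw [Module.Basis.equivFun_self, Pi.single_apply]
      simp [eq_comm]
    rw [e1, e1, sympForm_single_single]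
    simp [Matrix.J]
  refine ⟨Submodule.span F (Set.range s), ?_, ?_⟩
  · rw [finrank_span_eq_card hs, Fintype.card_prod, Fintype.card_fin, Fintype.card_fin]
    ring
  · have h1 : ∀ j, Submodule.span F (Set.range s) ≤ LinearMap.ker (T.flip (s j)) := by
      intro j
      rw [Submodule.span_le]
      rintro _ ⟨i, rfl⟩
      exact hz i j
    intro u hu
    have h2 : Submodule.span F (Set.range s) ≤ LinearMap.ker (T u) := by
      rw [Submodule.span_le]
      rintro _ ⟨j, rfl⟩
      exact h1 j hu
    exact fun v hv => h2 hv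

end Cfsg.Agent.S0833
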