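import Cfsg.Statements.S0836
import Cfsg.Agent.Lib.Helper14.SLGen

set_option autoImplicit false
open Cfsg

namespace Cfsg.Agent.S0836

/-- For i ≠ j and any scalar c, the elementary transvection 1 + c E_ij is a commutator ⁅g, h⁆ of two elements of SL_n(F) provided n ≥ 3, or n = 2 and F contains x ≠ 0 with x² ≠ 1. -/
theorem result {F : Type*} [Field F] (n : ℕ) (hn : 3 ≤ n ∨ (n = 2 ∧ ∃ x : F, x ≠ 0 ∧ x ^ 2 ≠ 1)) (i j : Fin n) (hij : i ≠ j) (c : F) (t : Matrix.SpecialLinearGroup (Fin n) F) (ht : (t : Matrix (Fin n) (Fin n) F) = Matrix.transvection i j c) : t ∈ commutatorSet (Matrix.SpecialLinearGroup (Fin n) F) := by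
  have ht' : t = Matrix.SpecialLinearGroup.transvection hij c := Subtype.ext ht
  subst ht'
  rcases hn with hn | ⟨rfl, a, ha, hasq⟩
  · obtain ⟨k, hk⟩ : ∃ k, k ∉ ({i, j} : Finset (Fin n)) := by
      by_contra hcon
      push_neg at hcon
      have : Fintype.card (Fin n) ≤ ({i, j} : Finset (Fin n)).card := by
        rw [← Finset.card_univ]
        exact Finset.card_le_card fun x _ => hcon x
      have h2 : ({i, j} : Finset (Fin n)).card ≤ 2 := Finset.card_le_two
      simp at this
      omega
    simp only [Finset.mem_insert, Finset.mem_singleton, not_or] at hk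
    have := Cfsg.Agent.Lib.Helper14.commutator_transvection hij (Ne.symm hk.1) hk.2 c (1 : F)
    rw [mul_one] at this
    exact ⟨_, _, this⟩
  · have h0 : a ^ 2 - 1 ≠ 0 := sub_ne_zero_of_ne hasq
    fin_cases i
    · obtain rfl : j = 1 := by fin_cases j <;> tauto
      exact ⟨_, _, Matrix.commutator_diag2_transvection a ha (c / (a ^ 2 - 1)) c
        (div_mul_cancel₀ c h0).symm⟩
    · obtain rfl : j = 0 := by fin_cases j <;> tauto
      refine ⟨Matrix.SpecialLinearGroup.diag2 a⁻¹ (inv_ne_zero ha),
        Matrix.SpecialLinearGroup.transvection one_ne_zero (c / (a ^ 2 - 1)), ?_⟩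
      have hc : c = (c / (a ^ 2 - 1)) * (a ^ 2 - 1) := (div_mul_cancel₀ c h0).symm
      generalize c / (a ^ 2 - 1) = b at hc
      rw [commutatorElement_def, Matrix.SpecialLinearGroup.diag2_inv a⁻¹ (inv_ne_zero ha),
        Matrix.SpecialLinearGroup.transvection_inv one_ne_zero b]
      refine Subtype.ext <| Matrix.ext fun i j ↦ ?_
      fin_cases i <;> fin_cases j <;>
      simp [hc, Matrix.SpecialLinearGroup.transvection_coe, Matrix.SpecialLinearGroup.diag2_coe,
        inv_inv, mul_add, add_mul,
        mul_inv_cancel₀ ha, inv_mul_cancel₀ ha, mul_comm a b, mul_assoc b a a, ← pow_two,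
        mul_sub_one, ← sub_eq_add_neg]

end Cfsg.Agent.S0836
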