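import Cfsg.Statements.S0837
import Mathlib
import Cfsg.Agent.Lib.Helper14.HermDecomp
open Cfsg.Agent.Lib.Helper14 Matrix

set_option autoImplicit false
open Cfsg

namespace Cfsg.Agent.S0837

/-- If W ≤ F^n (|F| = q²) is a k-dimensional subspace on which the Hermitian form Σ x_i y_i^q is non-degenerate, then the stabiliser of W in GU_n(q) is isomorphic to GU_k(q) × GU_(n−k)(q). -/
theorem result {F : Type*} [Field F] [Fintype F] {q : ℕ} (hF : Fintype.card F = q ^ 2) (n k : ℕ) (hk : k ≤ n) (W : Submodule F (Fin n → F)) (hWk : Module.finrank F W = k) (hW : ∀ u ∈ W, (∀ v ∈ W, Cfsg.hermForm n F q u v = 0) → u = 0) : Nonempty (↥((Cfsg.stabilizing (Cfsg.glToMat (Fin n) F) (W : Set (Fin n → F))).subgroupOf (Cfsg.GU n F q)) ≃* ↥(Cfsg.GU k F q) × ↥(Cfsg.GU (n - k) F q)) := by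
  classical
  have hc := isCompl_hermPerp hF W hW
  have hfr : Module.finrank F (hermPerp hF W) = n - k := by
    have := Submodule.finrank_add_eq_of_isCompl hc
    rw [hWk, Module.finrank_fintype_fun_eq_card, Fintype.card_fin] at this
    omega
  obtain ⟨e₁, he₁⟩ := exists_herm_equiv hF W k hWk hW
  obtain ⟨e₂, he₂⟩ := exists_herm_equiv hF (hermPerp hF W) (n - k) hfr
    (hermPerp_nondegenerate hF W hW)
  have hinj : ∀ r : ℕ, Function.Injective
      ((Cfsg.glToMat (Fin r) F).comp (Cfsg.GU r F q).subtype) := fun r a b hab =>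
    Subtype.ext (Units.ext hab)
  have hr : ∀ r : ℕ, ∀ A : Matrix (Fin r) (Fin r) F, IsUnit A →
      (∀ u v, Cfsg.hermForm r F q (A *ᵥ u) (A *ᵥ v) = Cfsg.hermForm r F q u v) →
      ∃ h, ((Cfsg.glToMat (Fin r) F).comp (Cfsg.GU r F q).subtype) h = A := fun r A _ hA =>
    ⟨guMk hF A hA, rfl⟩
  obtain ⟨E⟩ := nonempty_stabilizing_equiv_prod (Cfsg.hermForm n F q)
    ((Cfsg.glToMat (Fin n) F).comp (Cfsg.GU n F q).subtype) (hinj n) (fun g u v => g.2 u v) (hr n)
    (Cfsg.hermForm k F q) ((Cfsg.glToMat (Fin k) F).comp (Cfsg.GU k F q).subtype) (hinj k)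
    (fun g u v => g.2 u v) (hr k)
    (Cfsg.hermForm (n - k) F q) ((Cfsg.glToMat (Fin (n - k)) F).comp (Cfsg.GU (n - k) F q).subtype)
    (hinj (n - k)) (fun g u v => g.2 u v) (hr (n - k))
    W (hermPerp hF W) hc hermForm_add_left (hermForm_add_right hF) (mem_hermPerp hF W)
    (hermForm_eq_zero_symm hF) e₁ he₁ e₂ he₂
  exact ⟨E⟩

end Cfsg.Agent.S0837
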