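import Cfsg.Statements.S2623
import Cfsg.Agent.Lib.Helper15.DiagDet

set_option autoImplicit false
open Cfsg Cfsg.Agent.Lib.Helper15

namespace Cfsg.Agent.S2623

/-- Over a finite field of odd order, two quadratic forms on F^n with non-degenerate polar forms are isometric (related by an invertible linear change of variables) if and only if their discriminants (determinants of the Gram matrices of their polar forms) lie in the same square class. -/
theorem result {F : Type*} [Field F] [Fintype F] (h2 : (2 : F) ≠ 0) {n : ℕ} (Q₁ Q₂ : QuadraticForm F (Fin n → F)) (h₁ : (QuadraticMap.polarBilin Q₁).Nondegenerate) (h₂ : (QuadraticMap.polarBilin Q₂).Nondegenerate) : (∃ g : (Fin n → F) ≃ₗ[F] (Fin n → F), ∀ v, Q₂ (g v) = Q₁ v) ↔ IsSquare ((Matrix.of (fun i j : Fin n => QuadraticMap.polar ⇑Q₁ (Pi.single i 1) (Pi.single j 1))).det * (Matrix.of (fun i j : Fin n => QuadraticMap.polar ⇑Q₂ (Pi.single i 1) (Pi.single j 1))).det) := by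
  classical
  constructor
  · rintro ⟨g, hg⟩
    rw [gram_eq_toMatrix', gram_eq_toMatrix']
    set B₁ : LinearMap.BilinForm F (Fin n → F) := QuadraticMap.polarBilin Q₁ with hB₁
    set B₂ : LinearMap.BilinForm F (Fin n → F) := QuadraticMap.polarBilin Q₂ with hB₂
    have hB : ∀ u v, B₂ (g u) (g v) = B₁ u v := by
      intro u v
      simp only [hB₁, hB₂, QuadraticMap.polarBilin_apply_apply, QuadraticMap.polar, ← map_add, hg]
    have h1 : LinearMap.BilinForm.comp B₂ g.toLinearMap g.toLinearMap = B₁ := by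
      ext u v
      simp [hB]
    have h3 := congrArg (fun B => (LinearMap.BilinForm.toMatrix' B).det) h1
    simp only [LinearMap.BilinForm.toMatrix'_comp, Matrix.det_mul, Matrix.det_transpose] at h3
    rw [← h3]
    exact ⟨(LinearMap.toMatrix' g.toLinearMap).det * (LinearMap.BilinForm.toMatrix' B₂).det, by ring⟩
  · intro hsq
    rcases n with _ | k
    · refine ⟨LinearEquiv.refl _ _, fun v => ?_⟩
      have hv : v = 0 := Subsingleton.elim _ _
      subst hv
      rw [map_zero, map_zero, map_zero]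
    · have hV : Module.finrank F (Fin (k + 1) → F) = k + 1 := by simp
      obtain ⟨x₁, w₁, hf₁⟩ := diag_nf h2 k Q₁ h₁ hV
      obtain ⟨x₂, w₂, hf₂⟩ := diag_nf h2 k Q₂ h₂ hV
      obtain ⟨b₁, hb₁0, hb₁1⟩ := hf₁.exists_basis h2 hV
      obtain ⟨b₂, hb₂0, hb₂1⟩ := hf₂.exists_basis h2 hV
      obtain ⟨s₁, hs₁, hd₁⟩ := hf₁.disc b₁ hb₁0 hb₁1
      obtain ⟨s₂, hs₂, hd₂⟩ := hf₂.disc b₂ hb₂0 hb₂1
      have hsq2 : IsSquare (Q₁ x₁ * Q₂ x₂) := by
        have hp : (2 : F) ^ (k + 1) ≠ 0 := pow_ne_zero _ h2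
        rw [← isSquare_mul_sq_iff hp]
        have : Q₁ x₁ * Q₂ x₂ * (2 ^ (k + 1) * 2 ^ (k + 1)) =
            (2 ^ (k + 1) * Q₁ x₁) * (2 ^ (k + 1) * Q₂ x₂) := by ring
        rw [this, hd₁, hd₂]
        obtain ⟨t, ht⟩ := hsq
        refine ⟨t * (s₁ * s₂), ?_⟩
        linear_combination (s₁ * s₁ * (s₂ * s₂)) * ht
      obtain ⟨r, hr⟩ := hsq2
      obtain ⟨h10, h11, h13, h14⟩ := hf₁
      obtain ⟨h20, h21, h23, h24⟩ := hf₂
      suffices h : ∃ g : (Fin (k + 1) → F) →ₗ[F] (Fin (k + 1) → F), ∀ v, Q₂ (g v) = 1 * Q₁ v by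
        obtain ⟨g, hg⟩ := h
        refine ⟨LinearEquiv.ofInjectiveEndo g (injective_of_similarity Q₁ Q₂ g 1 one_ne_zero hg h₁),
          fun v => ?_⟩
        rw [LinearEquiv.coe_ofInjectiveEndo, hg v, one_mul]
      refine ⟨b₁.constr F (Sum.elim (fun _ => (r / Q₂ x₂) • x₂) w₂), constr_similarity b₁ Q₁ Q₂ _ 1 ?_ ?_⟩
      · rintro (i | i)
        · simp only [Sum.elim_inl, QuadraticMap.map_smul, hb₁0, smul_eq_mul, one_mul]
          field_simp
          linear_combination -hr
        · simp [hb₁1, h11, h21]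
      · rintro (i | i) (j | j)
        · simp only [Sum.elim_inl, hb₁0, QuadraticMap.polar_self, QuadraticMap.map_smul, smul_eq_mul, one_mul]
          congr 1
          field_simp
          linear_combination -hr
        · simp [hb₁0, hb₁1, h13 j, h23 j]
        · simp [hb₁0, hb₁1, QuadraticMap.polar_comm Q₁ (w₁ i) x₁, QuadraticMap.polar_comm Q₂ (w₂ i) x₂, h13 i, h23 i]
        · by_cases hij : i = j
          · subst hij
            simp [hb₁1, QuadraticMap.polar_self, h11, h21]
          · simp [hb₁1, h14 i j hij, h24 i j hij]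

end Cfsg.Agent.S2623
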