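import Cfsg.Statements.S0838
import Cfsg.Agent.Lib.Helper15.OmegaIndex
import Cfsg.Agent.S2623
import Cfsg.Agent.Lib.Helper15.OrthoBasis

set_option autoImplicit false
open Cfsg Cfsg.Agent.Lib.Helper15

namespace Cfsg.Agent.S0838

/-- Over a finite field with 2 ≠ 0 and n odd: two quadratic forms Q₁, Q₂ on F^n with non-degenerate polar forms are similar — there are an invertible linear map g and a scalar c ≠ 0 with Q₂ (g v) = c · Q₁ v for all v. -/
theorem result {F : Type*} [Field F] [Fintype F] (h2 : (2 : F) ≠ 0) {n : ℕ} (hn : Odd n) (Q₁ Q₂ : QuadraticForm F (Fin n → F)) (h₁ : (QuadraticMap.polarBilin Q₁).Nondegenerate) (h₂ : (QuadraticMap.polarBilin Q₂).Nondegenerate) : ∃ (g : (Fin n → F) ≃ₗ[F] (Fin n → F)) (c : F), c ≠ 0 ∧ ∀ v, Q₂ (g v) = c * Q₁ v := by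
  have hdne : ∀ (Q : QuadraticForm F (Fin n → F)), (QuadraticMap.polarBilin Q).Nondegenerate →
      (Matrix.of (fun i j : Fin n => QuadraticMap.polar ⇑Q (Pi.single i 1) (Pi.single j 1))).det ≠ 0 := by
    intro Q hQ
    rw [gram_eq_toMatrix', ← LinearMap.BilinForm.toMatrix_basisFun]
    exact (LinearMap.BilinForm.nondegenerate_iff_det_ne_zero (Pi.basisFun F (Fin n))).1 hQ
  by_cases hsq : IsSquare ((Matrix.of (fun i j : Fin n => QuadraticMap.polar ⇑Q₁ (Pi.single i 1) (Pi.single j 1))).det * (Matrix.of (fun i j : Fin n => QuadraticMap.polar ⇑Q₂ (Pi.single i 1) (Pi.single j 1))).det)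
  · obtain ⟨g, hg⟩ := (Cfsg.Agent.S2623.result h2 Q₁ Q₂ h₁ h₂).2 hsq
    exact ⟨g, 1, one_ne_zero, by simpa using hg⟩
  · obtain ⟨c, hc⟩ := exists_nonsquare (F := F) h2
    have hc0 : c ≠ 0 := by rintro rfl; exact hc IsSquare.zero
    have hpol : ∀ x y, QuadraticMap.polar ⇑(c • Q₁) x y = c * QuadraticMap.polar ⇑Q₁ x y := by
      intro x y
      rw [FunLike.coe_smul, QuadraticMap.polar_smul, smul_eq_mul]
    have hnd : (QuadraticMap.polarBilin (c • Q₁)).Nondegenerate := by
      refine ⟨fun x hx => h₁.1 x (fun y => ?_), fun x hx => h₁.2 x (fun y => ?_)⟩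
      · have := hx y
        rw [QuadraticMap.polarBilin_apply_apply, hpol] at this
        exact (mul_eq_zero.1 this).resolve_left hc0
      · have := hx y
        rw [QuadraticMap.polarBilin_apply_apply, hpol] at this
        exact (mul_eq_zero.1 this).resolve_left hc0
    obtain ⟨g, hg⟩ := (Cfsg.Agent.S2623.result h2 (c • Q₁) Q₂ hnd h₂).2 (by
      have e1 : Matrix.of (fun i j : Fin n => QuadraticMap.polar ⇑(c • Q₁) (Pi.single i 1) (Pi.single j 1)) =
          c • Matrix.of (fun i j : Fin n => QuadraticMap.polar ⇑Q₁ (Pi.single i 1) (Pi.single j 1)) := by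
        ext i j
        rw [Matrix.smul_apply, Matrix.of_apply, Matrix.of_apply, hpol, smul_eq_mul]
      rw [e1, Matrix.det_smul, Fintype.card_fin]
      obtain ⟨k, rfl⟩ := hn
      generalize (Matrix.of (fun i j : Fin (2 * k + 1) => QuadraticMap.polar ⇑Q₁ (Pi.single i 1) (Pi.single j 1))).det = d₁ at *
      generalize hd₂ : (Matrix.of (fun i j : Fin (2 * k + 1) => QuadraticMap.polar ⇑Q₂ (Pi.single i 1) (Pi.single j 1))).det = d₂ at *
      have hd : d₁ * d₂ ≠ 0 := by
        intro h; apply hsq; rw [h]; exact IsSquare.zero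
      have e2 : c ^ (2 * k + 1) * d₁ * d₂ = (c * (d₁ * d₂)) * (c ^ k * c ^ k) := by ring
      rw [e2, isSquare_mul_sq_iff (pow_ne_zero _ hc0), isSquare_mul_iff hc0 hd]
      tauto)
    exact ⟨g, c, hc0, fun v => by rw [hg]; rfl⟩

end Cfsg.Agent.S0838
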