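import Cfsg.Statements.S0839
import Cfsg.Agent.Lib.Helper14.Transit

set_option autoImplicit false
open Cfsg

namespace Cfsg.Agent.S0839

/-- Every transvection t ∈ SL_(n+2)(F) (rank(t − 1) = 1, (t − 1)² = 0) is conjugate in SL_(n+2)(F) to 1 + v·e_0ᵀ for some column vector v with v_0 = 0 (the group A of matrices that are the identity except in the first column below the diagonal); the dimension is written n + 2 ≥ 2. -/
theorem result {F : Type*} [Field F] (n : ℕ) (t : Matrix.SpecialLinearGroup (Fin (n + 2)) F) (ht : Cfsg.IsTransvection (t : Matrix (Fin (n + 2)) (Fin (n + 2)) F)) : ∃ (g : Matrix.SpecialLinearGroup (Fin (n + 2)) F) (v : Fin (n + 2) → F), v 0 = 0 ∧ ((g⁻¹ * t * g : Matrix.SpecialLinearGroup (Fin (n + 2)) F) : Matrix (Fin (n + 2)) (Fin (n + 2)) F) = 1 + Matrix.vecMulVec v (Pi.single 0 1) := by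
  classical
  obtain ⟨v, φ, hv, hφ, hφv, hM⟩ := Cfsg.Agent.Lib.Helper14.exists_matrix_decomp _ ht.1 ht.2
  have he1 : (Pi.single 1 1 : Fin (n + 2) → F) ≠ 0 := Pi.single_ne_zero_iff.2 one_ne_zero
  have hp0 : (LinearMap.proj 0 : (Fin (n + 2) → F) →ₗ[F] F) ≠ 0 := by
    intro h
    have := congrArg (fun f => f (Pi.single 0 1)) h
    simp at this
  have hp1 : (LinearMap.proj 0 : (Fin (n + 2) → F) →ₗ[F] F) (Pi.single 1 1) = 0 := by
    simp
  obtain ⟨g, -, hg⟩ := Cfsg.Agent.Lib.Helper14.exists_linearEquiv_pair hv he1 hφ hp0 hφv hp1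
  set A : Matrix (Fin (n + 2)) (Fin (n + 2)) F :=
    LinearMap.toMatrix' (g.symm : (Fin (n + 2) → F) →ₗ[F] (Fin (n + 2) → F)) with hA
  have hdet : A.det ≠ 0 := by
    rw [hA, LinearMap.det_toMatrix']
    exact (g.symm.isUnit_det').ne_zero
  set D : Matrix (Fin (n + 2)) (Fin (n + 2)) F :=
    Matrix.diagonal (Function.update 1 0 (A.det)⁻¹) with hD
  have hDdet : D.det = (A.det)⁻¹ := by
    rw [hD, Matrix.det_diagonal, Finset.prod_update_of_mem (Finset.mem_univ _)]
    simp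
  have hG : (A * D).det = 1 := by
    rw [Matrix.det_mul, hDdet, mul_inv_cancel₀ hdet]
  let G : Matrix.SpecialLinearGroup (Fin (n + 2)) F := ⟨A * D, hG⟩
  have hGx : ∀ x, φ ((G : Matrix (Fin (n + 2)) (Fin (n + 2)) F).mulVec x) = (A.det)⁻¹ * x 0 := by
    intro x
    have h1 : (G : Matrix (Fin (n + 2)) (Fin (n + 2)) F).mulVec x = g.symm (D.mulVec x) := by
      change (A * D).mulVec x = _
      rw [← Matrix.mulVec_mulVec, hA, ← Matrix.toLin'_apply, Matrix.toLin'_toMatrix']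
      rfl
    rw [h1, ← hg, LinearEquiv.apply_symm_apply]
    simp [hD, Matrix.mulVec_diagonal]
  have hinv : ((G⁻¹ : Matrix.SpecialLinearGroup (Fin (n + 2)) F) :
      Matrix (Fin (n + 2)) (Fin (n + 2)) F) * (G : Matrix (Fin (n + 2)) (Fin (n + 2)) F) = 1 := by
    rw [← Matrix.SpecialLinearGroup.coe_mul, inv_mul_cancel, Matrix.SpecialLinearGroup.coe_one]
  have hinv' : (G : Matrix (Fin (n + 2)) (Fin (n + 2)) F) *
      ((G⁻¹ : Matrix.SpecialLinearGroup (Fin (n + 2)) F) :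
      Matrix (Fin (n + 2)) (Fin (n + 2)) F) = 1 := by
    rw [← Matrix.SpecialLinearGroup.coe_mul, mul_inv_cancel, Matrix.SpecialLinearGroup.coe_one]
  set w : Fin (n + 2) → F := ((G⁻¹ : Matrix.SpecialLinearGroup (Fin (n + 2)) F) :
      Matrix (Fin (n + 2)) (Fin (n + 2)) F).mulVec v with hw
  have hw0 : w 0 = 0 := by
    have h1 := hGx w
    rw [hw, Matrix.mulVec_mulVec, hinv', Matrix.one_mulVec, hφv] at h1
    rcases mul_eq_zero.1 h1.symm with h | h
    · exact absurd h (inv_ne_zero hdet)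
    · exact h
  refine ⟨G, (A.det)⁻¹ • w, by simp [hw0], ?_⟩
  have ht' : ∀ x, (t : Matrix (Fin (n + 2)) (Fin (n + 2)) F).mulVec x = x + φ x • v := by
    intro x
    have := hM x
    rw [Matrix.sub_mulVec, Matrix.one_mulVec] at this
    rw [← this]; abel
  apply Matrix.toLin'.injective
  refine LinearMap.ext fun x => ?_
  simp only [Matrix.toLin'_apply, Matrix.SpecialLinearGroup.coe_mul]
  rw [← Matrix.mulVec_mulVec, ← Matrix.mulVec_mulVec, ht', Matrix.mulVec_add, Matrix.mulVec_mulVec,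
    hinv, Matrix.one_mulVec, Matrix.mulVec_smul, hGx, Matrix.add_mulVec, Matrix.one_mulVec,
    Matrix.vecMulVec_mulVec]
  congr 1
  rw [← hw]
  simp [smul_smul, mul_comm]

end Cfsg.Agent.S0839
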