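import Mathlib
import Cfsg.Statements.S0840
import Cfsg.Agent.Lib.Helper6.CharCentral

set_option autoImplicit false
open Cfsg
open Cfsg.Agent.Lib.Helper6
open scoped ComplexConjugate

namespace Cfsg.Agent.S0840

attribute [local instance] irrFintype

/-- Class multiplication coefficients from the character table: for elements a, b, c of a finite group G, the number of ordered pairs (x, y) with x conjugate to a, y conjugate to b and x * y = c equals the product of the sizes of the conjugacy classes of a and b, divided by the order of G, times the sum over the irreducible characters χ of χ a * χ b * conj (χ c) / χ 1. -/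
theorem result {G : Type*} [Group G] [Finite G] (a b c : G) : (Nat.card {p : G × G // IsConj a p.1 ∧ IsConj b p.2 ∧ p.1 * p.2 = c} : ℂ) = (Nat.card {x : G // IsConj a x} : ℂ) * (Nat.card {x : G // IsConj b x} : ℂ) / (Nat.card G : ℂ) * ∑ᶠ χ : Cfsg.IrrCharacter G, (χ : G → ℂ) a * (χ : G → ℂ) b * conj ((χ : G → ℂ) c) / (χ : G → ℂ) 1 := by
  classical
  let _ := Fintype.ofFinite G
  rw [← conv_classInd_eq_card, ← coef_centralChar a, ← coef_centralChar b, ← coef_mul, coef_apply,
    finsum_eq_sum_of_fintype, card_isConj_eq_index, card_isConj_eq_index, div_eq_mul_inv,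
    mul_comm _ ((Nat.card G : ℂ)⁻¹), mul_assoc]
  congr 1
  rw [Finset.mul_sum]
  refine Finset.sum_congr rfl fun (χ : IrrCharacter G) _ => ?_
  have h0 := irr_one_ne_zero χ.2
  simp only [Pi.mul_apply, centralChar]
  field_simp

end Cfsg.Agent.S0840
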