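import Cfsg.Statements.S0845
import Mathlib
import Mathlib
import Cfsg.Agent.Lib.Helper2.QuatCore

set_option autoImplicit false
open Cfsg

namespace Cfsg.Agent.S0845

open scoped commutatorElement

/-- Suppose a Sylow 2-subgroup S of the finite group G is generalized quaternion of order at least 16. Then G has a normal subgroup M of even order such that G / M is non-abelian, that is, M does not contain the commutator subgroup of G. -/
theorem result {G : Type*} [Group G] [Finite G] (S : Sylow 2 G) (n : ℕ) (e : (S : Subgroup G) ≃* QuaternionGroup (2 ^ (n + 2))) : ∃ M : Subgroup G, M.Normal ∧ Even (Nat.card M) ∧ ¬ commutator G ≤ M := by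
  obtain ⟨t, htS, ht2, hz, huniq, hconj, a, b, hQ, hta⟩ :=
    Cfsg.Agent.Lib.Helper2.quat_sylow_involution S (n + 1) e
  refine ⟨Cfsg.oddCore G ⊔ Subgroup.zpowers t,
    Cfsg.Agent.Lib.Helper2.normal_oddCore_sup_zpowers hz, ?_, ?_⟩
  · have h1 : orderOf t ∣ Nat.card (Cfsg.oddCore G ⊔ Subgroup.zpowers t : Subgroup G) := by
      have := orderOf_dvd_natCard (⟨t, Subgroup.mem_sup_right (Subgroup.mem_zpowers t)⟩ :
        (Cfsg.oddCore G ⊔ Subgroup.zpowers t : Subgroup G))
      rwa [Subgroup.orderOf_mk] at this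
    rw [ht2] at h1
    exact even_iff_two_dvd.mpr h1
  · intro hle
    have hc : ⁅b⁻¹, a⁆ ∈ commutator G :=
      Subgroup.commutator_mem_commutator (Subgroup.mem_top _) (Subgroup.mem_top _)
    have e1 : ⁅b⁻¹, a⁆ = a⁻¹ * a⁻¹ := by
      rw [commutatorElement_def, inv_inv, hQ.inv]
    rw [e1] at hc
    have h2 := Cfsg.Agent.Lib.Helper2.mem_of_mem_oddCore_sup S (Subgroup.zpowers_le.mpr htS)
      (Subgroup.mul_mem _ (Subgroup.inv_mem _ hQ.ha) (Subgroup.inv_mem _ hQ.ha)) (hle hc)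
    have h3 : (a⁻¹ * a⁻¹) ^ 2 = 1 := by
      have h4 := orderOf_dvd_natCard (⟨_, h2⟩ : Subgroup.zpowers t)
      rw [Subgroup.orderOf_mk, Nat.card_zpowers, ht2] at h4
      exact orderOf_dvd_iff_pow_eq_one.mp h4
    have h5 : a ^ 4 = 1 := by
      have : (a⁻¹ * a⁻¹) ^ 2 = (a ^ 4)⁻¹ := by group
      rw [this] at h3
      exact inv_eq_one.mp h3
    have h6 := orderOf_dvd_of_pow_eq_one h5
    rw [hQ.ord] at h6
    have h7 : 2 ^ (n + 1 + 1 + 1) ≤ 4 := Nat.le_of_dvd (by norm_num) h6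
    have h8 : 2 ^ 3 ≤ 2 ^ (n + 1 + 1 + 1) := Nat.pow_le_pow_right (by norm_num) (by omega)
    omega

end Cfsg.Agent.S0845
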