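import Cfsg.Statements.S0846
import Mathlib
import Mathlib
import Cfsg.Agent.Lib.Helper2.QuatCore

set_option autoImplicit false
open Cfsg

namespace Cfsg.Agent.S0846

/-- Suppose a Sylow 2-subgroup S of the finite group G is generalized quaternion of order at least 16. Then every Sylow 2-subgroup of the subgroup generated by the involutions of G is cyclic. -/
theorem result {G : Type*} [Group G] [Finite G] (S : Sylow 2 G) (n : ℕ) (e : (S : Subgroup G) ≃* QuaternionGroup (2 ^ (n + 2))) (Q : Sylow 2 ↥(Subgroup.closure {g : G | orderOf g = 2})) : IsCyclic Q := by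
  haveI : Fact (Nat.Prime 2) := ⟨Nat.prime_two⟩
  obtain ⟨t, htS, ht2, hz, huniq, hconj, a, b, hQ, hta⟩ :=
    Cfsg.Agent.Lib.Helper2.quat_sylow_involution S (n + 1) e
  have hMn := Cfsg.Agent.Lib.Helper2.normal_oddCore_sup_zpowers hz
  have hI : Subgroup.closure {g : G | orderOf g = 2} ≤ Cfsg.oddCore G ⊔ Subgroup.zpowers t := by
    rw [Subgroup.closure_le]
    intro u hu
    obtain ⟨c, hc⟩ := hconj u hu
    have e1 : u = c⁻¹ * t * c⁻¹⁻¹ := by rw [← hc]; group
    rw [e1]
    exact hMn.conj_mem _ (Subgroup.mem_sup_right (Subgroup.mem_zpowers t)) _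
  have hP : IsPGroup 2 ((Q : Subgroup ↥(Subgroup.closure {g : G | orderOf g = 2})).map (Subgroup.closure {g : G | orderOf g = 2}).subtype) :=
    Q.2.map _
  obtain ⟨c, hc⟩ := Cfsg.Agent.Lib.Helper2.exists_conj_mem_sylow S hP
  have hmem : ∀ x : (Q : Subgroup ↥(Subgroup.closure {g : G | orderOf g = 2})), c * ((x : Subgroup.closure {g : G | orderOf g = 2}) : G) * c⁻¹ ∈
      Subgroup.zpowers t := by
    intro x
    apply Cfsg.Agent.Lib.Helper2.mem_of_mem_oddCore_sup S (Subgroup.zpowers_le.mpr htS)
    · exact hc _ ⟨x.1, x.2, rfl⟩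
    · exact hMn.conj_mem _ (hI x.1.2) _
  let f : (Q : Subgroup ↥(Subgroup.closure {g : G | orderOf g = 2})) →* Subgroup.zpowers t :=
    (((MulAut.conj c).toMonoidHom.comp (Subgroup.closure {g : G | orderOf g = 2}).subtype).comp
      (Q : Subgroup ↥(Subgroup.closure {g : G | orderOf g = 2})).subtype).codRestrict (Subgroup.zpowers t) (fun x => by simpa using hmem x)
  have hf : Function.Injective f := by
    intro x y hxy
    have h1 : c * ((x : Subgroup.closure {g : G | orderOf g = 2}) : G) * c⁻¹ =
        c * ((y : Subgroup.closure {g : G | orderOf g = 2}) : G) * c⁻¹ := congrArg Subtype.val hxy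
    have h2 := mul_left_cancel (mul_right_cancel h1)
    exact Subtype.ext (Subtype.ext h2)
  exact isCyclic_of_injective f hf

end Cfsg.Agent.S0846
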