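import Mathlib
import Cfsg.Statements.S0849

set_option autoImplicit false
open Cfsg

namespace Cfsg.Agent.S0849

theorem finsum_mem_eq_sum_filter' {α : Type*} [Fintype α] (s : Set α) [DecidablePred (· ∈ s)] (f : α → ℂ) :
    ∑ᶠ a ∈ s, f a = ∑ a ∈ Finset.univ.filter (· ∈ s), f a := by
  rw [finsum_mem_eq_finite_toFinset_sum _ (Set.toFinite s)]
  apply Finset.sum_congr _ (fun _ _ => rfl)
  ext a
  simp

/-- Let H be a subgroup of a finite group G and S a subset of H that is mapped to itself under conjugation by H, is disjoint from its conjugate by any element outside H, and is closed under inverses. Let φ be a class function of H vanishing on H away from S, and let u, v be involutions of G. Then the sum of the induced function of φ over all products a * b with a conjugate to u and b conjugate to v equals the index of H times the sum of φ (a * b) over such pairs with a and b in H. -/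
theorem result {G : Type*} [Group G] [Fintype G] (H : Subgroup G) (S : Set G) (hSH : S ⊆ H) (hHS : ∀ h ∈ H, ∀ s ∈ S, h * s * h⁻¹ ∈ S) (hTI : ∀ g : G, g ∉ H → ∀ s ∈ S, g * s * g⁻¹ ∉ S) (hinv : ∀ s ∈ S, s⁻¹ ∈ S) (φ : H → ℂ) (hφ : Cfsg.IsClassFunction H φ) (hφS : ∀ x : H, (x : G) ∉ S → φ x = 0) (u v : G) (hu : orderOf u = 2) (hv : orderOf v = 2) : ∑ᶠ p ∈ {p : G × G | IsConj u p.1 ∧ IsConj v p.2}, Cfsg.indFun H φ (p.1 * p.2) = (H.index : ℂ) * ∑ᶠ p ∈ {p : H × H | IsConj u (p.1 : G) ∧ IsConj v (p.2 : G)}, φ (p.1 * p.2) := by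
  classical
  set E := Cfsg.extendByZero H φ with hE
  have hE_in : ∀ x : H, E x = φ x := fun x => by
    simp [hE, Cfsg.extendByZero]
  have hE_out : ∀ x : G, x ∉ H → E x = 0 := fun x hx => by
    rw [hE, Cfsg.extendByZero, Function.extend_apply']
    · rfl
    · rintro ⟨y, rfl⟩; exact hx y.2
  have hE_S : ∀ x : G, x ∉ S → E x = 0 := by
    intro x hx
    by_cases hxH : x ∈ H
    · have := hE_in ⟨x, hxH⟩
      simp only at this
      rw [this]
      exact hφS _ hx
    · exact hE_out x hxH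
  rw [finsum_mem_eq_sum_filter', finsum_mem_eq_sum_filter']
  set A : Finset (G × G) := Finset.univ.filter (· ∈ {p : G × G | IsConj u p.1 ∧ IsConj v p.2}) with hA
  set AH : Finset (H × H) := Finset.univ.filter (· ∈ {p : H × H | IsConj u (p.1 : G) ∧ IsConj v (p.2 : G)}) with hAH
  have memA : ∀ p : G × G, p ∈ A ↔ IsConj u p.1 ∧ IsConj v p.2 := by
    intro p; simp [hA]
  have memAH : ∀ p : H × H, p ∈ AH ↔ IsConj u (p.1 : G) ∧ IsConj v (p.2 : G) := by
    intro p; simp [hAH]
  -- step 1 : conjugation invariance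
  have step1 : ∀ x : G, ∑ p ∈ A, E (x⁻¹ * (p.1 * p.2) * x) = ∑ p ∈ A, E (p.1 * p.2) := by
    intro x
    refine Finset.sum_equiv ((MulAut.conj x⁻¹).toEquiv.prodCongr (MulAut.conj x⁻¹).toEquiv) ?_ ?_
    · intro p
      rw [memA, memA]
      simp only [Equiv.prodCongr_apply, Prod.map_fst, Prod.map_snd, MulEquiv.toEquiv_eq_coe, EquivLike.coe_coe, MulAut.conj_apply]
      constructor
      · rintro ⟨h1, h2⟩
        exact ⟨h1.trans (isConj_iff.mpr ⟨x⁻¹, rfl⟩), h2.trans (isConj_iff.mpr ⟨x⁻¹, rfl⟩)⟩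
      · rintro ⟨h1, h2⟩
        exact ⟨h1.trans (isConj_iff.mpr ⟨x⁻¹, rfl⟩).symm, h2.trans (isConj_iff.mpr ⟨x⁻¹, rfl⟩).symm⟩
    · intro p _
      simp only [Equiv.prodCongr_apply, Prod.map_fst, Prod.map_snd, MulEquiv.toEquiv_eq_coe, EquivLike.coe_coe, MulAut.conj_apply]
      congr 1
      group
  -- step 2 : reduce to H
  have hsq : ∀ a w : G, orderOf w = 2 → IsConj w a → a * a = 1 := by
    intro a w hw hwa
    obtain ⟨c, rfl⟩ := isConj_iff.mp hwa
    have : w * w = 1 := by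
      have := pow_orderOf_eq_one w
      rw [hw, pow_two] at this
      exact this
    calc c * w * c⁻¹ * (c * w * c⁻¹) = c * (w * w) * c⁻¹ := by group
      _ = 1 := by rw [this]; group
  have step2 : ∑ p ∈ A, E (p.1 * p.2) = ∑ p ∈ AH, φ (p.1 * p.2) := by
    symm
    refine Finset.sum_bij_ne_zero (fun (p : H × H) _ _ => ((p.1 : G), (p.2 : G))) ?_ ?_ ?_ ?_
    · intro p hp _
      rw [memA]
      exact (memAH p).mp hp
    · intro p _ _ q _ _ hpq
      simp only [Prod.mk.injEq] at hpq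
      exact Prod.ext (Subtype.ext hpq.1) (Subtype.ext hpq.2)
    · intro p hp hne
      have hpS : p.1 * p.2 ∈ S := by
        by_contra hcon
        exact hne (hE_S _ hcon)
      obtain ⟨h1, h2⟩ := (memA p).mp hp
      have ha := hsq _ _ hu h1
      have hb := hsq _ _ hv h2
      have hainv : p.1⁻¹ = p.1 := inv_eq_of_mul_eq_one_left ha
      have hbinv : p.2⁻¹ = p.2 := inv_eq_of_mul_eq_one_left hb
      have haH : p.1 ∈ H := by
        by_contra hcon
        apply hTI p.1 hcon _ hpS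
        have : p.1 * (p.1 * p.2) * p.1⁻¹ = (p.1 * p.2)⁻¹ := by
          rw [mul_inv_rev, ← mul_assoc, ha, one_mul, hbinv]
        rw [this]
        exact hinv _ hpS
      have hbH : p.2 ∈ H := by
        have : p.2 = p.1⁻¹ * (p.1 * p.2) := by group
        rw [this]
        exact H.mul_mem (H.inv_mem haH) (hSH hpS)
      refine ⟨(⟨p.1, haH⟩, ⟨p.2, hbH⟩), ?_, ?_, rfl⟩
      · rw [memAH]; exact ⟨h1, h2⟩
      · have := hE_in (⟨p.1, haH⟩ * ⟨p.2, hbH⟩)
        simp only [Subgroup.coe_mul] at this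
        rw [← this]
        exact hne
    · intro p _ _
      have := hE_in (p.1 * p.2)
      simp only [Subgroup.coe_mul] at this
      rw [this]
  have hcard : (Nat.card H : ℂ) * (H.index : ℂ) = (Nat.card G : ℂ) := by
    exact_mod_cast H.card_mul_index
  have hHne : (Nat.card H : ℂ) ≠ 0 := by
    exact_mod_cast (Nat.card_pos (α := H)).ne'
  calc ∑ p ∈ A, Cfsg.indFun H φ (p.1 * p.2)
      = ∑ p ∈ A, (Nat.card H : ℂ)⁻¹ * ∑ x : G, E (x⁻¹ * (p.1 * p.2) * x) := rfl
    _ = (Nat.card H : ℂ)⁻¹ * ∑ x : G, ∑ p ∈ A, E (x⁻¹ * (p.1 * p.2) * x) := by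
        rw [← Finset.mul_sum, Finset.sum_comm]
    _ = (Nat.card H : ℂ)⁻¹ * ∑ x : G, ∑ p ∈ A, E (p.1 * p.2) := by
        simp only [step1]
    _ = (Nat.card H : ℂ)⁻¹ * ((Nat.card G : ℂ) * ∑ p ∈ A, E (p.1 * p.2)) := by
        rw [Finset.sum_const, Finset.card_univ, nsmul_eq_mul, Nat.card_eq_fintype_card (α := G)]
    _ = (H.index : ℂ) * ∑ p ∈ AH, φ (p.1 * p.2) := by
        rw [step2, ← hcard]
        field_simp

end Cfsg.Agent.S0849
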