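import Cfsg.Statements.S0855
import Cfsg.Agent.Lib.Helper13.Thompson2

set_option autoImplicit false
open Cfsg

namespace Cfsg.Agent.S0855

open Cfsg.Agent.Lib.Helper13 Cfsg.Agent.Lib.Helper2 in
/-- For a finite group G and a prime p: every irreducible character of G has degree a power of p if and only if G has an abelian normal subgroup whose order is prime to p and whose index is a power of p. -/
theorem result {G : Type*} [Group G] [Finite G] (p : ℕ) (hp : p.Prime) : (∀ χ : Cfsg.IrrCharacter G, ∃ k : ℕ, (χ : G → ℂ) 1 = (p : ℂ) ^ k) ↔ ∃ A : Subgroup G, A.Normal ∧ (∀ a ∈ A, ∀ b ∈ A, a * b = b * a) ∧ Nat.Coprime (Nat.card A) p ∧ ∃ k : ℕ, A.index = p ^ k := by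
  have := Fact.mk hp
  constructor
  · intro h
    have hdeg : ∀ χ : Cfsg.IrrCharacter G, ∃ k : ℕ, Cfsg.charDegree (χ : G → ℂ) = p ^ k := by
      intro χ
      obtain ⟨k, hk⟩ := h χ
      exact ⟨k, charDegree_eq_of_cast (by rw [hk]; push_cast; rfl)⟩
    obtain ⟨N, hNn, hcop, hidx⟩ := thompson_npc p (fun χ hne => by
      obtain ⟨k, hk⟩ := hdeg χ
      rw [hk] at hne ⊢
      rcases Nat.eq_zero_or_pos k with rfl | hk0
      · simp at hne
      · exact dvd_pow_self p hk0.ne')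
    refine ⟨N, hNn, ?_, hcop, hidx⟩
    have hlin : ∀ θ : Cfsg.IrrCharacter N, (θ : N → ℂ) 1 = 1 := by
      intro θ
      obtain ⟨χ, e, he, -⟩ := exists_over_degree N θ
      obtain ⟨k, hk⟩ := hdeg χ
      have h1 : Cfsg.charDegree (θ : N → ℂ) ∣ p ^ k := by
        rw [← hk, he]
        exact Dvd.intro_left _ rfl
      have h2 := Cfsg.Agent.Lib.Helper24.degree_dvd_card θ.2
      have h3 : Cfsg.charDegree (θ : N → ℂ) ∣ Nat.gcd (Nat.card N) (p ^ k) := Nat.dvd_gcd h2 h1
      rw [Nat.Coprime.pow_right k hcop, Nat.dvd_one] at h3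
      rw [← Cfsg.Agent.Lib.Helper24.charDegree_cast (IsIrrCharacter.isCharacter θ.2), h3]
      simp
    intro a ha b hb
    exact congrArg Subtype.val (comm_of_all_linear hlin ⟨a, ha⟩ ⟨b, hb⟩)
  · rintro ⟨A, hAn, hAab, -, k, hk⟩ χ
    have h1 := ito_degree_dvd A hAab χ
    rw [hk] at h1
    obtain ⟨j, -, hj⟩ := (Nat.dvd_prime_pow hp).mp h1
    refine ⟨j, ?_⟩
    rw [← Cfsg.Agent.Lib.Helper24.charDegree_cast (IsIrrCharacter.isCharacter χ.2), hj]
    push_cast
    rfl


end Cfsg.Agent.S0855
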