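import Cfsg.Statements.S0860
import Cfsg.Agent.Lib.Helper2.BrauerPerm

set_option autoImplicit false
open Cfsg

namespace Cfsg.Agent.S0860

open Cfsg.Agent.Lib.Helper2

/-- Let a group A act on the set of irreducible characters and on the set of conjugacy classes of a finite group G in such a way that (a • χ) evaluated on the class a • C equals χ evaluated on C, for all a, χ and C. Then every element of A fixes exactly as many irreducible characters as it fixes conjugacy classes. -/
theorem result {G : Type*} [Group G] [Finite G] {A : Type*} [Group A] [MulAction A (Cfsg.IrrCharacter G)] [MulAction A (ConjClasses G)] (hcompat : ∀ (a : A) (χ : Cfsg.IrrCharacter G) (g g' : G), ConjClasses.mk g' = a • ConjClasses.mk g → ((a • χ : Cfsg.IrrCharacter G) : G → ℂ) g' = (χ : G → ℂ) g) (a : A) : Nat.card {χ : Cfsg.IrrCharacter G // a • χ = χ} = Nat.card {C : ConjClasses G // a • C = C} := by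
  classical
  cases nonempty_fintype G
  let τ : G → G := fun g => Quotient.out (a • ConjClasses.mk g)
  have hτmk : ∀ g, ConjClasses.mk (τ g) = a • ConjClasses.mk g := fun g =>
    Quotient.out_eq (a • ConjClasses.mk g)
  have hcomp : ∀ ξ : Cfsg.IrrCharacter G, (ξ : G → ℂ) ∘ τ = ((a⁻¹ • ξ : Cfsg.IrrCharacter G) : G → ℂ) := by
    intro ξ
    funext g
    have := hcompat a (a⁻¹ • ξ) g (τ g) (hτmk g)
    rw [smul_inv_smul] at this
    exact this
  have h := brauer_count τ (fun χ hχ => by
    rw [hcomp ⟨χ, hχ⟩]
    exact (a⁻¹ • (⟨χ, hχ⟩ : Cfsg.IrrCharacter G)).2) (fun C => a • C = C) (fun g => by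
    rw [← hτmk g]
    exact ConjClasses.mk_eq_mk_iff_isConj)
  rw [← h]
  refine Nat.card_congr (Equiv.subtypeEquivRight fun χ => ?_)
  rw [hcomp χ]
  constructor
  · intro h1
    congr 1
    rw [inv_smul_eq_iff, h1]
  · intro h1
    have h2 : a⁻¹ • χ = χ := Subtype.ext h1
    rw [inv_smul_eq_iff] at h2
    exact h2.symm

end Cfsg.Agent.S0860
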