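import Cfsg.Statements.S0861
import Cfsg.Agent.Lib.Helper25.ClassBound

set_option autoImplicit false
open Cfsg
open Cfsg.Agent.Lib.Helper2 Cfsg.Agent.Lib.Helper25

namespace Cfsg.Agent.S0861

/-- Let P be a normal abelian Sylow p-subgroup of the finite group G and suppose some element g of P has centralizer exactly P. Then the number of irreducible characters of G is at most the order of P, and if equality holds then G / P is abelian (the commutator subgroup lies in P). -/
theorem result {G : Type*} [Group G] [Finite G] (p : ℕ) [Fact p.Prime] (P : Sylow p G) [(P : Subgroup G).Normal] (hab : ∀ a ∈ P, ∀ b ∈ P, a * b = b * a) (g : G) (hg : g ∈ P) (hC : Subgroup.centralizer ({g} : Set G) = P) : Nat.card (Cfsg.IrrCharacter G) ≤ Nat.card P ∧ (Nat.card (Cfsg.IrrCharacter G) = Nat.card P → commutator G ≤ P) := by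
  classical
  haveI := Fintype.ofFinite G
  have h1 := NonVanish.class_bound p (P : Subgroup G) P.2 P.not_dvd_index hab g hg
  rw [hC, ← card_irr_eq_card_conjClasses] at h1
  have h2 : Nat.card (ConjClasses (G ⧸ (P : Subgroup G))) ≤ Nat.card (G ⧸ (P : Subgroup G)) :=
    Nat.card_le_card_of_surjective _ ConjClasses.mk_surjective
  refine ⟨by omega, ?_⟩
  intro heq
  have h3 : Nat.card (ConjClasses (G ⧸ (P : Subgroup G))) = Nat.card (G ⧸ (P : Subgroup G)) := by
    omega
  have h4 : commProb (G ⧸ (P : Subgroup G)) = 1 := by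
    rw [commProb_def', h3]
    exact div_self (by exact_mod_cast Nat.card_pos.ne')
  have h5 := (commProb_eq_one_iff (M := G ⧸ (P : Subgroup G))).1 h4
  rw [commutator_eq_closure, Subgroup.closure_le]
  rintro _ ⟨a, b, rfl⟩
  rw [SetLike.mem_coe, ← QuotientGroup.eq_one_iff]
  rw [commutatorElement_def]
  simp only [QuotientGroup.mk_mul, QuotientGroup.mk_inv]
  have := h5.is_comm.comm (a : G ⧸ (P : Subgroup G)) (b : G ⧸ (P : Subgroup G))
  rw [this]
  group

end Cfsg.Agent.S0861
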