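import Cfsg.Statements.S0866
import Cfsg.Agent.Lib.Helper13.DetExt4

set_option autoImplicit false
open Cfsg

namespace Cfsg.Agent.S0866

open Cfsg.Agent.Lib.Helper13 Cfsg.Agent.Lib.Helper2 in
/-- Let N be a normal subgroup of the finite group G and ϑ an irreducible character of N, invariant under conjugation by G, of degree d coprime to the index of N. Then ϑ is the restriction of an irreducible character of G if and only if the determinantal character of ϑ is the restriction of a character of G of degree 1. -/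
theorem result {G : Type*} [Group G] [Finite G] (N : Subgroup G) [hN : N.Normal] (ϑ : N → ℂ) (hϑ : Cfsg.IsIrrCharacter N ϑ) (hinv : ∀ (g : G) (n : N), ϑ ⟨g * n * g⁻¹, hN.conj_mem (n : G) n.2 g⟩ = ϑ n) (d : ℕ) (hd : ϑ 1 = d) (hcop : Nat.Coprime N.index d) : (∃ χ : G → ℂ, Cfsg.IsIrrCharacter G χ ∧ (∀ n : N, χ n = ϑ n)) ↔ ∃ μ : G → ℂ, Cfsg.IsCharacter G μ ∧ μ 1 = 1 ∧ ∀ n : N, μ n = Cfsg.detChar ϑ n := by
  constructor
  · rintro ⟨χ, hχ, hχN⟩
    have hχc := IsIrrCharacter.isCharacter hχ
    obtain ⟨δ, hδ⟩ := exists_hom_detChar hχc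
    refine ⟨fun g => (δ g : ℂ), IsIrrCharacter.isCharacter (isIrrCharacter_of_hom δ), by simp, ?_⟩
    intro n
    have h1 := detChar_comp_hom N.subtype hχc
    have h2 : (fun n : N => χ (N.subtype n)) = ϑ := funext hχN
    rw [h2, hδ] at h1
    exact (congrFun h1 n).symm
  · rintro ⟨μ, hμ, hμ1, hμN⟩
    obtain ⟨m, rfl⟩ := exists_hom_of_degree_one hμ hμ1
    exact exists_extension_of_det N hϑ
      (fun g => (stmtInv_iff N ϑ g).mp (hinv g)) d hd hcop m hμN

end Cfsg.Agent.S0866
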