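import Mathlib
import Cfsg.Statements.S0869

set_option autoImplicit false
open Cfsg

namespace Cfsg.Agent.S0869

/-- Let S be a nonempty finite type and R an additive subgroup of the integer-valued functions on S that is closed under pointwise multiplication. If the constant function 1 is not in R, then there exist a point x of S and a prime p such that p divides f x for every f in R. -/
theorem result {S : Type*} [Finite S] [Nonempty S] (R : AddSubgroup (S → ℤ)) (hmul : ∀ f ∈ R, ∀ g ∈ R, f * g ∈ R) (h1 : (1 : S → ℤ) ∉ R) : ∃ (x : S) (p : ℕ), p.Prime ∧ ∀ f ∈ R, (p : ℤ) ∣ f x := by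
  classical
  by_contra hcon
  push_neg at hcon
  have key : ∀ x : S, ∃ f ∈ R, f x = 1 := by
    intro x
    let I : AddSubgroup ℤ := R.map (Pi.evalAddMonoidHom (fun _ => ℤ) x)
    obtain ⟨d, hd⟩ := Int.subgroup_cyclic I
    have memd : ∀ k : ℤ, k ∈ I ↔ d ∣ k := by
      intro k
      rw [hd, AddSubgroup.mem_closure_singleton]
      constructor
      · rintro ⟨n, rfl⟩
        exact ⟨n, by simp [mul_comm]⟩
      · rintro ⟨n, rfl⟩
        exact ⟨n, by simp [mul_comm]⟩
    have hd1 : d.natAbs = 1 := by
      by_contra hne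
      obtain ⟨q, hq, hqd⟩ := Nat.exists_prime_and_dvd hne
      obtain ⟨f, hf, hnd⟩ := hcon x q hq
      apply hnd
      have : f x ∈ I := ⟨f, hf, rfl⟩
      exact (Int.natCast_dvd.mpr hqd).trans ((memd _).mp this)
    have h1I : (1 : ℤ) ∈ I := by
      rw [memd]
      exact Int.natAbs_dvd_natAbs.mp (by simp [hd1])
    obtain ⟨f, hf, hfx⟩ := h1I
    exact ⟨f, hf, hfx⟩
  choose f hfR hf1 using key
  haveI := Fintype.ofFinite S
  have ind : ∀ T : Finset S, 1 - ∏ x ∈ T, (1 - f x) ∈ R := by
    intro T
    induction T using Finset.induction_on with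
    | empty => simp [R.zero_mem]
    | insert a T ha ih =>
      rw [Finset.prod_insert ha]
      have : 1 - (1 - f a) * ∏ x ∈ T, (1 - f x)
          = f a + (1 - ∏ x ∈ T, (1 - f x)) - f a * (1 - ∏ x ∈ T, (1 - f x)) := by ring
      rw [this]
      exact R.sub_mem (R.add_mem (hfR a) ih) (hmul _ (hfR a) _ ih)
  have h0 : ∏ x : S, (1 - f x) = 0 := by
    ext y
    rw [Finset.prod_apply]
    apply Finset.prod_eq_zero (Finset.mem_univ y)
    simp [hf1]
  have := ind Finset.univ
  rw [h0, sub_zero] at this
  exact h1 this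

end Cfsg.Agent.S0869
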