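import Cfsg.Statements.S0870

set_option autoImplicit false
open Cfsg
open scoped Pointwise

namespace Cfsg.Agent.S0870

variable {G : Type*} [Group G] [Fintype G]

open Classical in
/-- indicator function of a subgroup. -/
noncomputable def I (U : Subgroup G) (y : G) : ℂ := if y ∈ U then 1 else 0

omit [Fintype G] in
theorem ext_one (U : Subgroup G) (y : G) : extendByZero U (fun _ => (1 : ℂ)) y = I U y := by
  unfold extendByZero I
  by_cases hy : y ∈ U
  · rw [if_pos hy]
    exact Subtype.val_injective.extend_apply (fun _ : U => (1 : ℂ)) (0 : G → ℂ) ⟨y, hy⟩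
  · rw [if_neg hy]
    apply Function.extend_apply'
    rintro ⟨⟨z, hz⟩, rfl⟩
    exact hy hz

/-- number of `x` conjugating `g` into `U`. -/
noncomputable def S (U : Subgroup G) (g : G) : ℂ := ∑ x : G, I U (x⁻¹ * g * x)

theorem ind_eq (U : Subgroup G) (g : G) :
    indFun U (fun _ => 1) g = (Nat.card U : ℂ)⁻¹ * S U g := by
  unfold indFun S
  simp only [ext_one]

omit [Fintype G] in
theorem mem_cj {g x : G} {Q : Subgroup G} : x ∈ MulAut.conj g • Q ↔ g⁻¹ * x * g ∈ Q := by
  rw [Subgroup.mem_pointwise_smul_iff_inv_smul_mem, ← map_inv, MulAut.smul_def,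
    MulAut.conj_apply, inv_inv]

theorem S_conj (U : Subgroup G) (h g : G) : S (MulAut.conj h • U) g = S U g := by
  unfold S
  rw [← Equiv.sum_comp (Equiv.mulRight h) (fun x => I U (x⁻¹ * g * x))]
  refine Finset.sum_congr rfl fun x _ => ?_
  unfold I
  have : (x⁻¹ * g * x ∈ MulAut.conj h • U) ↔
      ((Equiv.mulRight h x)⁻¹ * g * (Equiv.mulRight h x) ∈ U) := by
    rw [mem_cj, Equiv.coe_mulRight]
    have e : h⁻¹ * (x⁻¹ * g * x) * h = (x * h)⁻¹ * g * (x * h) := by group
    rw [e]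
  by_cases hc : x⁻¹ * g * x ∈ MulAut.conj h • U
  · rw [if_pos hc, if_pos (this.1 hc)]
  · rw [if_neg hc, if_neg (fun h' => hc (this.2 h'))]

theorem S_mul (H K : Subgroup G) (g : G) :
    S H g * S K g = ∑ t : G, S (H ⊓ MulAut.conj t • K) g := by
  unfold S
  rw [Finset.sum_mul_sum]
  have h1 : ∀ x : G, ∑ y : G, I H (x⁻¹ * g * x) * I K (y⁻¹ * g * y) =
      ∑ t : G, I (H ⊓ MulAut.conj t • K) (x⁻¹ * g * x) := by
    intro x
    rw [← Equiv.sum_comp (Equiv.mulLeft x)]
    refine Finset.sum_congr rfl fun t _ => ?_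
    rw [Equiv.coe_mulLeft]
    unfold I
    have e : (x * t)⁻¹ * g * (x * t) = t⁻¹ * (x⁻¹ * g * x) * t := by group
    rw [e]
    by_cases a : x⁻¹ * g * x ∈ H <;> by_cases b : t⁻¹ * (x⁻¹ * g * x) * t ∈ K <;>
      simp [a, b, Subgroup.mem_inf, mem_cj]
  rw [Finset.sum_congr rfl (fun x _ => h1 x), Finset.sum_comm]

omit [Fintype G] in
/-- the action of `H × K` on `G` whose orbits are the double cosets. -/
def act (H K : Subgroup G) : MulAction (H × K) G where
  smul a t := (a.1 : G) * t * (a.2 : G)⁻¹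
  one_smul t := by
    show (((1 : H × K).1 : H) : G) * t * (((1 : H × K).2 : K) : G)⁻¹ = t
    simp
  mul_smul a b t := by
    show (((a * b).1 : H) : G) * t * (((a * b).2 : K) : G)⁻¹ =
      (a.1 : G) * ((b.1 : G) * t * (b.2 : G)⁻¹) * (a.2 : G)⁻¹
    simp only [Prod.fst_mul, Prod.snd_mul, Subgroup.coe_mul, mul_inv_rev]
    group

omit [Fintype G] in
theorem UU_smul (H K : Subgroup G) (h : G) (hh : h ∈ H) (k : G) (hk : k ∈ K) (t : G) :
    H ⊓ MulAut.conj (h * t * k⁻¹) • K = MulAut.conj h • (H ⊓ MulAut.conj t • K) := by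
  ext y
  simp only [Subgroup.mem_inf, mem_cj]
  constructor
  · rintro ⟨h1, h2⟩
    refine ⟨H.mul_mem (H.mul_mem (H.inv_mem hh) h1) hh, ?_⟩
    have e : t⁻¹ * (h⁻¹ * y * h) * t = k⁻¹ * ((h * t * k⁻¹)⁻¹ * y * (h * t * k⁻¹)) * k := by group
    rw [e]
    exact K.mul_mem (K.mul_mem (K.inv_mem hk) h2) hk
  · rintro ⟨h1, h2⟩
    constructor
    · have e : y = h * (h⁻¹ * y * h) * h⁻¹ := by group
      rw [e]
      exact H.mul_mem (H.mul_mem hh h1) (H.inv_mem hh)
    · have e : (h * t * k⁻¹)⁻¹ * y * (h * t * k⁻¹) = k * (t⁻¹ * (h⁻¹ * y * h) * t) * k⁻¹ := by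
        group
      rw [e]
      exact K.mul_mem (K.mul_mem hk h2) (K.inv_mem hk)

omit [Fintype G] in
theorem card_stab (H K : Subgroup G) (t : G) :
    Nat.card (@MulAction.stabilizer (H × K) G _ (act H K) t) =
      Nat.card (H ⊓ MulAut.conj t • K : Subgroup G) := by
  let _ := act H K
  have hst : ∀ a : MulAction.stabilizer (H × K) t, t⁻¹ * (a.1.1 : G) * t = (a.1.2 : G) := by
    intro a
    have ha : (a.1.1 : G) * t * (a.1.2 : G)⁻¹ = t := a.2
    have h' : (a.1.1 : G) * t = t * (a.1.2 : G) := mul_inv_eq_iff_eq_mul.1 ha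
    rw [mul_assoc, h', ← mul_assoc, inv_mul_cancel, one_mul]
  apply Nat.card_congr
  refine ⟨fun a => ⟨(a.1.1 : G), a.1.1.2, mem_cj.2 (by rw [hst a]; exact a.1.2.2)⟩,
    fun u => ⟨(⟨u.1, u.2.1⟩, ⟨t⁻¹ * u.1 * t, mem_cj.1 u.2.2⟩), ?_⟩, ?_, ?_⟩
  · show (u.1 : G) * t * (t⁻¹ * u.1 * t)⁻¹ = t
    group
  · intro a
    apply Subtype.ext
    apply Prod.ext
    · rfl
    · apply Subtype.ext
      exact hst a
  · intro u
    rfl

open Classical in
theorem sum_orbit {A X : Type*} [Group A] [Fintype A] [Fintype X] [MulAction A X] (F : X → ℂ)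
    (hF : ∀ (a : A) x, F (a • x) = F x) :
    ∑ x : X, F x * ((Nat.card (MulAction.stabilizer A x) : ℂ) / (Nat.card A : ℂ)) =
      ∑ ω : MulAction.orbitRel.Quotient A X, F ω.out := by
  rw [← Finset.sum_fiberwise Finset.univ
    (fun x => (Quotient.mk'' x : MulAction.orbitRel.Quotient A X))]
  refine Finset.sum_congr rfl fun ω _ => ?_
  have hmem : ∀ x, (Quotient.mk'' x : MulAction.orbitRel.Quotient A X) = ω ↔
      x ∈ MulAction.orbit A ω.out := by
    intro x
    conv_lhs => rw [← ω.out_eq']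
    rw [Quotient.eq'']
    exact MulAction.orbitRel_apply
  have hterm : ∀ x ∈ Finset.univ.filter
      (fun x => (Quotient.mk'' x : MulAction.orbitRel.Quotient A X) = ω),
      F x * ((Nat.card (MulAction.stabilizer A x) : ℂ) / (Nat.card A : ℂ)) =
        F ω.out * ((Nat.card (MulAction.stabilizer A ω.out) : ℂ) / (Nat.card A : ℂ)) := by
    intro x hx
    rw [Finset.mem_filter] at hx
    obtain ⟨a, rfl⟩ := (hmem x).1 hx.2
    rw [hF, MulAction.stabilizer_smul_eq_stabilizer_map_conj,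
      Subgroup.card_map_of_injective (MulAut.conj a).injective]
  rw [Finset.sum_congr rfl hterm, Finset.sum_const, nsmul_eq_mul]
  have hcard : (Finset.univ.filter
      (fun x => (Quotient.mk'' x : MulAction.orbitRel.Quotient A X) = ω)).card *
      Nat.card (MulAction.stabilizer A ω.out) = Nat.card A := by
    have h1 := MulAction.card_orbit_mul_card_stabilizer_eq_card_group A ω.out
    rw [Nat.card_eq_fintype_card, Nat.card_eq_fintype_card, ← h1]
    congr 1
    exact (Fintype.card_of_subtype _ (fun x => by simp [hmem])).symm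
  have hA : (Nat.card A : ℂ) ≠ 0 := by
    exact_mod_cast Nat.card_pos.ne'
  rw [← hcard] at hA ⊢
  push_cast at hA ⊢
  have h1 := left_ne_zero_of_mul hA
  have h2 := right_ne_zero_of_mul hA
  field_simp

/-- For subgroups H and K of a finite group G, the pointwise product of the functions induced from the constant function 1 on H and on K is a sum, over subgroups U of H with natural-number coefficients, of the functions induced from the constant function 1 on U. -/
theorem result {G : Type*} [Group G] [Fintype G] (H K : Subgroup G) : ∃ a : Subgroup G → ℕ, (∀ U, a U ≠ 0 → U ≤ H) ∧ Cfsg.indFun H (fun _ => 1) * Cfsg.indFun K (fun _ => 1) = ∑ U : Subgroup G, (a U : ℂ) • Cfsg.indFun U (fun _ => 1) := by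
  classical
  let _ := act H K
  obtain ⟨φ, hφ⟩ : ∃ φ : MulAction.orbitRel.Quotient (H × K) G → Subgroup G,
      ∀ ω, φ ω = H ⊓ MulAut.conj ω.out • K := ⟨fun ω => _, fun _ => rfl⟩
  refine ⟨fun U => (Finset.univ.filter (fun ω => φ ω = U)).card, ?_, ?_⟩
  · intro U hU
    obtain ⟨ω, hω⟩ := Finset.card_pos.1 (Nat.pos_of_ne_zero hU)
    rw [Finset.mem_filter] at hω
    rw [← hω.2, hφ]
    exact inf_le_left
  funext g
  rw [Pi.mul_apply, Finset.sum_apply]
  have hR : ∑ U : Subgroup G, (((Finset.univ.filter (fun ω => φ ω = U)).card : ℂ) •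
      Cfsg.indFun U (fun _ => 1)) g = ∑ ω, Cfsg.indFun (φ ω) (fun _ => 1) g := by
    rw [← Finset.sum_fiberwise Finset.univ φ (fun ω => Cfsg.indFun (φ ω) (fun _ => 1) g)]
    refine Finset.sum_congr rfl fun U _ => ?_
    have h1 : ∀ ω ∈ Finset.univ.filter (fun ω => φ ω = U),
        Cfsg.indFun (φ ω) (fun _ => 1) g = Cfsg.indFun U (fun _ => 1) g := by
      intro ω hω
      rw [Finset.mem_filter] at hω
      rw [hω.2]
    rw [Finset.sum_congr rfl h1, Finset.sum_const, nsmul_eq_mul, Pi.smul_apply, smul_eq_mul]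
  rw [hR]
  have hinv : ∀ (a : H × K) (t : G),
      Cfsg.indFun (H ⊓ MulAut.conj (a • t) • K) (fun _ => 1) g =
        Cfsg.indFun (H ⊓ MulAut.conj t • K) (fun _ => 1) g := by
    intro a t
    have e : H ⊓ MulAut.conj (a • t) • K = MulAut.conj (a.1 : G) • (H ⊓ MulAut.conj t • K) :=
      UU_smul H K a.1 a.1.2 a.2 a.2.2 t
    rw [e, ind_eq, ind_eq, S_conj]
    congr 2
    exact_mod_cast (Nat.card_congr (Subgroup.equivSMul (MulAut.conj (a.1 : G))
      (H ⊓ MulAut.conj t • K)).toEquiv).symm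
  have hso := sum_orbit (A := H × K) (X := G)
    (fun t => Cfsg.indFun (H ⊓ MulAut.conj t • K) (fun _ => 1) g) hinv
  have hφ' : ∑ ω, Cfsg.indFun (φ ω) (fun _ => 1) g =
      ∑ ω : MulAction.orbitRel.Quotient (H × K) G,
        Cfsg.indFun (H ⊓ MulAut.conj ω.out • K) (fun _ => 1) g :=
    Finset.sum_congr rfl fun ω _ => by rw [hφ]
  rw [hφ', ← hso, ind_eq, ind_eq]
  have hH : (Nat.card H : ℂ) ≠ 0 := by exact_mod_cast Nat.card_pos.ne'
  have hK : (Nat.card K : ℂ) ≠ 0 := by exact_mod_cast Nat.card_pos.ne'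
  have hterm : ∀ t : G, Cfsg.indFun (H ⊓ MulAut.conj t • K) (fun _ => 1) g *
      ((Nat.card (MulAction.stabilizer (H × K) t) : ℂ) / (Nat.card (H × K) : ℂ)) =
      (Nat.card H : ℂ)⁻¹ * (Nat.card K : ℂ)⁻¹ * S (H ⊓ MulAut.conj t • K) g := by
    intro t
    have hU : (Nat.card (H ⊓ MulAut.conj t • K : Subgroup G) : ℂ) ≠ 0 := by
      exact_mod_cast Nat.card_pos.ne'
    rw [ind_eq, card_stab, Nat.card_prod]
    push_cast
    field_simp
  rw [Finset.sum_congr rfl (fun t _ => hterm t), ← Finset.mul_sum, ← S_mul]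
  ring

end Cfsg.Agent.S0870
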