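import Mathlib
import Cfsg.Statements.S0873
import Cfsg.Agent.Lib.Helper6.LinChar

set_option autoImplicit false
open Cfsg
open Cfsg.Agent.Lib.Helper6

namespace Cfsg.Agent.S0873

/-- Let C be a normal subgroup of the finite group G of order prime to p and P a p-subgroup with C ⊔ P = G. Let λ be a character of C of degree 1 invariant under conjugation by G and equal to 1 at every element of C centralized by P. Then λ is identically 1. -/
theorem result {G : Type*} [Group G] [Finite G] (p : ℕ) [Fact p.Prime] (C P : Subgroup G) [hC : C.Normal] (hP : IsPGroup p P) (hcop : Nat.Coprime (Nat.card C) p) (hCP : C ⊔ P = ⊤) (lam : C → ℂ) (hlam : Cfsg.IsCharacter C lam ∧ lam 1 = 1) (hinv : ∀ (g : G) (c : C), lam ⟨g * c * g⁻¹, hC.conj_mem (c : G) c.2 g⟩ = lam c) (hker : ∀ c : C, (c : G) ∈ Subgroup.centralizer (P : Set G) → lam c = 1) : lam = fun _ => 1 := by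
  obtain ⟨f, rfl⟩ := exists_hom_of_linear hlam.1 hlam.2
  have hinv' : ∀ (g : G) (c : C), f ⟨g * c * g⁻¹, hC.conj_mem (c : G) c.2 g⟩ = f c :=
    fun g c => Units.ext (hinv g c)
  ext c₀
  let act : MulAction P {c : C // f c = f c₀} :=
    { smul := fun a c => ⟨⟨(a : G) * c.1 * (a : G)⁻¹, hC.conj_mem _ c.1.2 a⟩, by rw [hinv']; exact c.2⟩
      one_smul := by
        intro c
        apply Subtype.ext
        apply Subtype.ext
        change ((1 : P) : G) * c.1 * ((1 : P) : G)⁻¹ = c.1
        simp
      mul_smul := by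
        intro a b c
        apply Subtype.ext
        apply Subtype.ext
        change ((a * b : P) : G) * c.1 * ((a * b : P) : G)⁻¹ = (a : G) * ((b : G) * c.1 * (b : G)⁻¹) * (a : G)⁻¹
        simp [mul_assoc] }
  have hcard : Nat.card {c : C // f c = f c₀} = Nat.card f.ker := by
    apply Nat.card_congr
    refine
      { toFun := fun c => ⟨c₀⁻¹ * c.1, by rw [MonoidHom.mem_ker, map_mul, map_inv, c.2]; simp⟩
        invFun := fun k => ⟨c₀ * k.1, by rw [map_mul, MonoidHom.mem_ker.mp k.2]; simp⟩
        left_inv := fun c => by simp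
        right_inv := fun k => by simp }
  have hnd : ¬ p ∣ Nat.card {c : C // f c = f c₀} := by
    rw [hcard]
    intro hdvd
    have h1 : p ∣ Nat.card C := hdvd.trans (Subgroup.card_subgroup_dvd_card _)
    have := Nat.Coprime.eq_one_of_dvd hcop.symm h1
    exact (Fact.out : p.Prime).one_lt.ne' this
  obtain ⟨c, hc⟩ := hP.nonempty_fixed_point_of_prime_not_dvd_card _ hnd
  have hcen : ((c.1 : C) : G) ∈ Subgroup.centralizer (P : Set G) := by
    rw [Subgroup.mem_centralizer_iff]
    intro a ha
    have h1 := hc ⟨a, ha⟩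
    have h2 : a * (c.1 : G) * a⁻¹ = c.1 := congrArg (fun w => ((w.1 : C) : G)) h1
    calc a * (c.1 : G) = a * (c.1 : G) * a⁻¹ * a := by group
      _ = c.1 * a := by rw [h2]
  have := hker c.1 hcen
  simp only [linCoe_apply] at this ⊢
  rw [← c.2, this]

end Cfsg.Agent.S0873
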