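import Cfsg.Statements.S0875
import Cfsg.Agent.Lib.Helper13.SectionFn

set_option autoImplicit false
open Cfsg

namespace Cfsg.Agent.S0875

open Cfsg.Agent.Lib.Helper13.SectionFn Cfsg.Agent.Lib.Helper2

/-- Let G be a finite group of order m * n with m and n coprime, and g an element whose order is coprime to m. Every x in G factors uniquely as x = u * v with u, v commuting, the order of u coprime to n and the order of v coprime to m; let ϑ be the function on G equal to n at those x whose factor v is conjugate to g and equal to 0 elsewhere. Then ϑ is a linear combination of the irreducible characters of G with algebraic-integer coefficients. -/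
theorem result {G : Type*} [Group G] [Fintype G] (m n : ℕ) (hmn : Nat.card G = m * n) (hcop : Nat.Coprime m n) (g : G) (hg : Nat.Coprime (orderOf g) m) (ϑ : G → ℂ) (hϑ1 : ∀ x : G, (∃ v : G, IsConj v g ∧ (∃ u : G, x = u * v ∧ Commute u v ∧ Nat.Coprime (orderOf u) n ∧ Nat.Coprime (orderOf v) m)) → ϑ x = n) (hϑ0 : ∀ x : G, (¬ ∃ v : G, IsConj v g ∧ (∃ u : G, x = u * v ∧ Commute u v ∧ Nat.Coprime (orderOf u) n ∧ Nat.Coprime (orderOf v) m)) → ϑ x = 0) : ∃ c : Cfsg.IrrCharacter G → ℂ, (∀ χ, c χ ∈ Cfsg.AlgInt) ∧ ϑ = ∑ᶠ χ : Cfsg.IrrCharacter G, c χ • (χ : G → ℂ) := by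
  classical
  haveI := finite_irr (G := G)
  letI : Fintype (Cfsg.IrrCharacter G) := Fintype.ofFinite _
  obtain ⟨e, he0', he1⟩ := Nat.chineseRemainder hcop 0 1
  have he0 : m ∣ e := (Nat.modEq_zero_iff_dvd).mp he0'
  let f : G → ℂ := fun v => if IsConj v g then 1 else 0
  have hf : ∀ v, IsIntegral ℤ (f v) := by
    intro v
    simp only [f]
    split_ifs
    · exact isIntegral_one
    · exact isIntegral_zero
  have hfc : Cfsg.IsClassFunction G f := by
    intro v h
    have : IsConj (h * v * h⁻¹) g ↔ IsConj v g :=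
      ⟨fun hh => (isConj_iff.mpr ⟨h, rfl⟩ : IsConj v (h * v * h⁻¹)).trans hh,
        fun hh => (isConj_iff.mpr ⟨h, rfl⟩ : IsConj v (h * v * h⁻¹)).symm.trans hh⟩
    simp only [f, this]
  have hϑ : ϑ = fun x => (n : ℂ) * f (x ^ e) := by
    funext x
    by_cases h : IsConj (x ^ e) g
    · obtain ⟨u, h1, h2, h3, h4⟩ := exists_parts hmn hcop he0 he1 x
      rw [hϑ1 x ⟨x ^ e, h, u, h1, h2, h3, h4⟩]
      show (n : ℂ) = (n : ℂ) * (if IsConj (x ^ e) g then 1 else 0)
      rw [if_pos h, mul_one]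
    · rw [hϑ0 x]
      · show (0 : ℂ) = (n : ℂ) * (if IsConj (x ^ e) g then 1 else 0)
        rw [if_neg h, mul_zero]
      · rintro ⟨v, hv, u, hx, hc, hu, hvm⟩
        apply h
        rw [← part_eq_pow hmn he0 he1 hx hc hu hvm]
        exact hv
  obtain ⟨c, hc, hsum⟩ := section_eq_sum hmn hcop he0 he1 f hf hfc
  refine ⟨c, hc, ?_⟩
  rw [hϑ, hsum, finsum_eq_sum_of_fintype]


end Cfsg.Agent.S0875
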