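import Cfsg.Statements.S0876
import Cfsg.Agent.Lib.Helper13.SectionSep

set_option autoImplicit false
open Cfsg

namespace Cfsg.Agent.S0876

open Cfsg.Agent.Lib.Helper13.SectionFn Cfsg.Agent.Lib.Helper2

/-- Let G be a finite group, p a prime and M a maximal ideal of the ring of algebraic integers containing p. Let x, y be elements with p-parts a and b (so a⁻¹ * x and b⁻¹ * y are their p-regular parts). Then a⁻¹ * x and b⁻¹ * y are conjugate in G if and only if, for every irreducible character χ, the difference χ x - χ y lies in the local ideal at M. -/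
theorem result {G : Type*} [Group G] [Finite G] (p : ℕ) (M : Ideal Cfsg.AlgInt) (hM : Cfsg.IsPModular p M) (x y a b : G) (ha : Cfsg.IsPPart p x a) (hb : Cfsg.IsPPart p y b) : IsConj (a⁻¹ * x) (b⁻¹ * y) ↔ ∀ χ : Cfsg.IrrCharacter G, Cfsg.MemLocalIdeal M ((χ : G → ℂ) x - (χ : G → ℂ) y) := by
  obtain ⟨v, rfl, hc, ⟨k, hk⟩, hv⟩ := ha
  obtain ⟨v', rfl, hc', ⟨k', hk'⟩, hv'⟩ := hb
  rw [inv_mul_cancel_left, inv_mul_cancel_left]
  haveI := Cfsg.Agent.Lib.Helper6.IsPModular.isPrime hM
  constructor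
  · intro h χ
    have hχ := IsIrrCharacter.isCharacter χ.2
    have h1 := char_sub_reg_memLocalIdeal hM hχ hc hk
    have h2 := char_sub_reg_memLocalIdeal hM hχ hc' hk'
    have h3 : (χ : G → ℂ) v = (χ : G → ℂ) v' := by
      obtain ⟨c, rfl⟩ := isConj_iff.mp h
      exact ((IsCharacter.isClassFunction hχ) v c).symm
    have h4 : (χ : G → ℂ) (a * v) - (χ : G → ℂ) (b * v') =
        ((χ : G → ℂ) (a * v) - (χ : G → ℂ) v) - ((χ : G → ℂ) (b * v') - (χ : G → ℂ) v') := by
      rw [h3]; ring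
    rw [h4]
    exact Cfsg.Agent.Lib.Helper6.MemLocalIdeal.sub h1 h2
  · intro h
    exact isConj_reg_of_congr hM hc hk hv hc' hk' hv' h


end Cfsg.Agent.S0876
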