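import Cfsg.Statements.S0877
import Mathlib
import Cfsg.Agent.Lib.Helper23.Brauer
import Cfsg.Agent.Lib.Lead.GenChar
import Cfsg.Agent.Lib.Helper24.CharInt
import Cfsg.Agent.Lib.Helper6.CharCentral
import Cfsg.Agent.Lib.Helper25.PiPart

set_option autoImplicit false
open Cfsg

namespace Cfsg.Agent.S0877

open Cfsg.Agent.Lib.Helper2 Cfsg.Agent.Lib.Helper24 Cfsg.Agent.Lib.Lead Cfsg.Agent.Lib.Helper6
open Cfsg.Agent.Lib.Helper23.Brauer Cfsg.Agent.Lib.Helper23.IndTools
open Cfsg.Agent.Lib.Helper25.PiPart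
open scoped ComplexConjugate

attribute [local instance] irrFintype

section base

variable {G : Type*} [Group G] [Finite G] {H : Subgroup G} {a : ℕ}

theorem pow_pow_card (ha0 : a ≡ 0 [MOD H.index]) (g : G) : (g ^ a) ^ Nat.card H = 1 := by
  obtain ⟨k, hk⟩ := (Nat.modEq_zero_iff_dvd).mp ha0
  rw [← pow_mul, hk, mul_comm H.index k, mul_assoc, mul_comm H.index, H.card_mul_index, pow_mul',
    pow_card_eq_one', one_pow]

theorem pow_of_mem (ha1 : a ≡ 1 [MOD Nat.card H]) {h : G} (hh : h ∈ H) : h ^ a = h := by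
  have h1 : orderOf h ∣ Nat.card H := by
    have := orderOf_dvd_natCard (⟨h, hh⟩ : H)
    rwa [Subgroup.orderOf_mk] at this
  have := pow_eq_pow_iff_modEq.mpr (ha1.of_dvd h1)
  rwa [pow_one] at this

theorem exists_conj_mem (ha0 : a ≡ 0 [MOD H.index])
    (helem : ∀ (E : Subgroup G) (p : ℕ), p.Prime → Cfsg.IsElementary p E →
      Nat.card E ∣ Nat.card H → ∃ g : G, E.map (MulAut.conj g).toMonoidHom ≤ H) (g : G) :
    ∃ h : H, IsConj (g ^ a) (h : G) := by
  set y := g ^ a with hy
  obtain ⟨p, hpge, hp⟩ := Nat.exists_infinite_primes (orderOf y + 1)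
  have hel : Cfsg.IsElementary p (Subgroup.zpowers y) := by
    refine ⟨⟨y, Subgroup.mem_zpowers y⟩, ?_, ?_, 0, ?_⟩
    · rw [Subgroup.mem_center_iff]
      intro b
      obtain ⟨k, hk⟩ := Subgroup.mem_zpowers_iff.mp b.2
      apply Subtype.ext
      simp only [Subgroup.coe_mul, ← hk]
      exact ((Commute.refl y).zpow_left k).eq
    · rw [Subgroup.orderOf_mk]
      apply Nat.Coprime.symm
      rw [Nat.Prime.coprime_iff_not_dvd hp]
      exact Nat.not_dvd_of_pos_of_lt (orderOf_pos y) (by omega)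
    · rw [pow_zero, Subgroup.index_eq_one, eq_top_iff]
      intro b _
      obtain ⟨k, hk⟩ := Subgroup.mem_zpowers_iff.mp b.2
      rw [Subgroup.mem_zpowers_iff]
      exact ⟨k, Subtype.ext (by simpa using hk)⟩
  have hd : Nat.card (Subgroup.zpowers y) ∣ Nat.card H := by
    rw [Nat.card_zpowers]
    exact orderOf_dvd_of_pow_eq_one (pow_pow_card ha0 g)
  obtain ⟨t, ht⟩ := helem _ p hp hel hd
  have : t * y * t⁻¹ ∈ H := ht ⟨y, Subgroup.mem_zpowers y, rfl⟩
  exact ⟨⟨_, this⟩, isConj_iff.mpr ⟨t, rfl⟩⟩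

variable (hfus : ∀ x ∈ H, ∀ y ∈ H, IsConj x y → ∃ h ∈ H, h * x * h⁻¹ = y)
  (c : G → H) (hc : ∀ g, IsConj (g ^ a) (c g : G))

include hfus in
theorem isConj_sub {x y : H} (h : IsConj (x : G) (y : G)) : IsConj x y := by
  obtain ⟨k, hk, hky⟩ := hfus x x.2 y y.2 h
  exact isConj_iff.mpr ⟨⟨k, hk⟩, Subtype.ext hky⟩

include hfus hc in
theorem star_eq {f : H → ℂ} (hf : IsClassFunction H f) {g : G} {h : H}
    (hgh : IsConj (g ^ a) (h : G)) : f (c g) = f h :=
  Lib.Helper2.IsClassFunction.eq_of_isConj hf (isConj_sub hfus ((hc g).symm.trans hgh))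

include hfus hc in
theorem star_classFunction {f : H → ℂ} (hf : IsClassFunction H f) :
    IsClassFunction G (fun g => f (c g)) := by
  intro g t
  apply star_eq hfus c hc hf
  rw [conj_pow]
  exact (isConj_iff.mpr ⟨t, rfl⟩ : IsConj (g ^ a) (t * g ^ a * t⁻¹)).symm.trans (hc g)

include hfus hc in
theorem star_coe (ha1 : a ≡ 1 [MOD Nat.card H]) {f : H → ℂ} (hf : IsClassFunction H f) (h : H) :
    f (c (h : G)) = f h := by
  apply star_eq hfus c hc hf
  rw [pow_of_mem ha1 h.2]

include hfus hc in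
theorem star_elem (hHall : Nat.Coprime (Nat.card H) H.index)
    (helem : ∀ (E : Subgroup G) (p : ℕ), p.Prime → Cfsg.IsElementary p E →
      Nat.card E ∣ Nat.card H → ∃ g : G, E.map (MulAut.conj g).toMonoidHom ≤ H)
    (ha1 : a ≡ 1 [MOD Nat.card H]) (ha0 : a ≡ 0 [MOD H.index])
    {χ : H → ℂ} (hχ : IsCharacter H χ) (E : Subgroup G) (p : ℕ) (hp : p.Prime)
    (hel : Cfsg.IsElementary p E) : IsCharacter E (fun e : E => χ (c (e : G))) := by
  have hnil := isNilpotent_of_isElementary hp hel
  have hEd : Nat.card E ∣ Nat.card H * H.index := by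
    rw [H.card_mul_index]; exact Subgroup.card_subgroup_dvd_card E
  let φ : E →* E :=
    { toFun := fun e => e ^ a
      map_one' := one_pow a
      map_mul' := pow_mul_of_nilpotent hnil hHall hEd ha1 ha0 }
  set E' : Subgroup G := (φ.range).map E.subtype with hE'
  have hel' : Cfsg.IsElementary p E' :=
    isElementary_of_equiv ((φ.range).equivMapOfInjective E.subtype E.subtype_injective)
      (isElementary_subgroup hp hel φ.range)
  have hd' : Nat.card E' ∣ Nat.card H := by
    apply card_dvd_of_pow_eq_one (e' := H.index) _ _ hHall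
    · rintro ⟨w, hw⟩
      obtain ⟨_, ⟨e, rfl⟩, rfl⟩ := hw
      apply Subtype.ext
      exact pow_pow_card ha0 (e : G)
    · rw [H.card_mul_index]; exact Subgroup.card_subgroup_dvd_card E'
  obtain ⟨t, ht⟩ := helem E' p hp hel' hd'
  let ψ : E →* H := ((MulAut.conj t).toMonoidHom.comp (E.subtype.comp φ)).codRestrict H
    (fun e => ht ⟨_, ⟨φ e, ⟨e, rfl⟩, rfl⟩, rfl⟩)
  have := IsCharacter.comp_hom ψ hχ
  convert this using 1
  funext e
  apply star_eq hfus c hc (IsCharacter.isClassFunction hχ)
  exact isConj_iff.mpr ⟨t, rfl⟩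

end base

section main

variable {G : Type*} [Group G] [Fintype G] {H : Subgroup G} [Fintype H] {a : ℕ}
  (hfus : ∀ x ∈ H, ∀ y ∈ H, IsConj x y → ∃ h ∈ H, h * x * h⁻¹ = y)
  (c : G → H) (hc : ∀ g, IsConj (g ^ a) (c g : G))

include hfus hc in
theorem inner_star_one (ha1 : a ≡ 1 [MOD Nat.card H])
    (hgen : ∀ ψ : IrrCharacter H, IsGeneralizedCharacter G (fun g => (ψ : H → ℂ) (c g)))
    (ψ : IrrCharacter H) :
    classInner (fun g => (ψ : H → ℂ) (c g)) (fun _ => 1) =
      classInner (ψ : H → ℂ) (fun _ => 1) := by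
  classical
  have hint : ∀ ψ : IrrCharacter H, ∃ n : ℤ,
      classInner (fun g => (ψ : H → ℂ) (c g)) (fun _ => 1) = n := by
    intro ψ
    obtain ⟨χ1, χ2, h1, h2, heq⟩ := hgen ψ
    obtain ⟨n1, hn1⟩ := IsCharacter.classInner_nat h1
      (IsIrrCharacter.isCharacter (isIrrCharacter_one (G := G)))
    obtain ⟨n2, hn2⟩ := IsCharacter.classInner_nat h2
      (IsIrrCharacter.isCharacter (isIrrCharacter_one (G := G)))
    refine ⟨(n1 : ℤ) - n2, ?_⟩
    rw [heq, classInner_sub_left, hn1, hn2]
    push_cast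
    rfl
  choose n hn using hint
  have hn' : ∀ ψ : IrrCharacter H,
      (n ψ : ℂ) = (Nat.card G : ℂ)⁻¹ * ∑ g : G, conj ((ψ : H → ℂ) (c g)) := by
    intro ψ
    have := congrArg conj (hn ψ)
    rw [map_intCast] at this
    rw [← this]
    simp [classInner]
  let ν : H → ℂ := ∑ ψ : IrrCharacter H, (n ψ : ℂ) • (ψ : H → ℂ)
  have hνapp : ∀ h, ν h = ∑ ψ : IrrCharacter H, (n ψ : ℂ) * (ψ : H → ℂ) h := by
    intro h
    simp [ν, Finset.sum_apply]
  have hν : ∀ h : H, ν h = ((Nat.card (Subgroup.centralizer ({h} : Set H)) *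
      Nat.card {g : G // IsConj h (c g)} : ℕ) : ℂ) / (Nat.card G : ℂ) := by
    intro h
    have h1 : ν h = (Nat.card G : ℂ)⁻¹ * ∑ g : G, ∑ ψ : IrrCharacter H,
        (ψ : H → ℂ) h * conj ((ψ : H → ℂ) (c g)) := by
      rw [hνapp, Finset.sum_comm, Finset.mul_sum]
      refine Finset.sum_congr rfl fun ψ _ => ?_
      rw [hn' ψ, ← Finset.mul_sum]
      ring
    rw [h1]
    simp_rw [column_orthogonality]
    rw [← Finset.sum_filter, Finset.sum_const, nsmul_eq_mul, Nat.card_eq_fintype_card
      (α := {g : G // IsConj h (c g)}), Fintype.card_subtype]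
    push_cast
    ring
  have hint2 : ∀ h, IsIntegral ℤ (ν h) := by
    intro h
    rw [hνapp]
    refine IsIntegral.sum _ fun ψ _ => IsIntegral.mul ?_
      (char_isIntegral (IsIrrCharacter.isCharacter ψ.2) h)
    have := isIntegral_algebraMap (R := ℤ) (A := ℂ) (x := n ψ)
    simpa using this
  have hG0 : Nat.card G ≠ 0 := Nat.card_pos.ne'
  have hdvd : ∀ h : H, Nat.card G ∣ Nat.card (Subgroup.centralizer ({h} : Set H)) *
      Nat.card {g : G // IsConj h (c g)} := by
    intro h
    apply nat_dvd_of_isIntegral_div hG0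
    rw [← hν]
    exact hint2 h
  choose k hk using hdvd
  have hνk : ∀ h, ν h = k h := by
    intro h
    have hG0' : (Nat.card G : ℂ) ≠ 0 := by exact_mod_cast hG0
    rw [hν, hk]
    push_cast
    field_simp
  have hkpos : ∀ h, 1 ≤ k h := by
    intro h
    rcases Nat.eq_zero_or_pos (k h) with h0 | h0
    · exfalso
      have h1 := hk h
      rw [h0, mul_zero] at h1
      haveI : Nonempty {g : G // IsConj h (c g)} := by
        refine ⟨⟨(h : G), ?_⟩⟩
        apply isConj_sub hfus
        have := hc (h : G)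
        rwa [pow_of_mem ha1 h.2] at this
      have h2 : 0 < Nat.card (Subgroup.centralizer ({h} : Set H)) := Nat.card_pos
      have h3 : 0 < Nat.card {g : G // IsConj h (c g)} := Nat.card_pos
      have := Nat.mul_pos h2 h3
      omega
    · exact h0
  let one : IrrCharacter H := ⟨fun _ => 1, isIrrCharacter_one⟩
  have hn1 : n one = 1 := by
    have h1 := hn one
    have h2 := classInner_irr (isIrrCharacter_one (G := G)) (isIrrCharacter_one (G := G))
    rw [if_pos rfl] at h2
    have h3 : (fun g : G => (one : H → ℂ) (c g)) = fun _ => 1 := rfl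
    rw [h3, h2] at h1
    exact_mod_cast h1.symm
  have hsum : ∑ h : H, ν h = (Nat.card H : ℂ) := by
    have h1 := classInner_sum_irr_left (fun ψ : IrrCharacter H => (n ψ : ℂ)) one
    have hH0 : (Nat.card H : ℂ) ≠ 0 := by exact_mod_cast (Nat.card_pos (α := H)).ne'
    rw [hn1, classInner] at h1
    have h2 : ∑ h : H, ν h = ∑ g : H, (∑ ψ : IrrCharacter H, (n ψ : ℂ) • (ψ : H → ℂ)) g *
        conj ((one : H → ℂ) g) := by
      refine Finset.sum_congr rfl fun g _ => ?_
      have : (one : H → ℂ) g = 1 := rfl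
      rw [this, map_one, mul_one]
    rw [h2]
    field_simp at h1
    simpa using h1
  have hk1 : ∀ h, k h = 1 := by
    have h1 : ∑ h : H, 1 = ∑ h : H, k h := by
      have : ((∑ h : H, k h : ℕ) : ℂ) = (Nat.card H : ℂ) := by
        rw [← hsum]
        push_cast
        exact Finset.sum_congr rfl fun h _ => (hνk h).symm
      have h2 : ∑ h : H, k h = Nat.card H := by exact_mod_cast this
      rw [h2, Finset.sum_const, Finset.card_univ, Nat.card_eq_fintype_card]
      simp
    intro h
    exact ((Finset.sum_eq_sum_iff_of_le (fun i _ => hkpos i)).mp h1 h (Finset.mem_univ h)).symm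
  have hνone : ν = (one : H → ℂ) := by
    funext h
    rw [hνk, hk1]
    simp [one]
  have h1 := classInner_sum_irr_left (fun ψ : IrrCharacter H => (n ψ : ℂ)) ψ
  rw [hn ψ, ← h1]
  change classInner ν ψ = _
  rw [hνone, classInner_irr one.2 ψ.2]
  have h2 := classInner_irr ψ.2 one.2
  change classInner (ψ : H → ℂ) (one : H → ℂ) = _ at h2
  change _ = classInner (ψ : H → ℂ) (one : H → ℂ)
  rw [h2]
  by_cases h : (one : H → ℂ) = ψ
  · rw [if_pos h, if_pos h.symm]
  · rw [if_neg h, if_neg (fun h' => h h'.symm)]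

include hfus hc in
theorem norm_star (ha1 : a ≡ 1 [MOD Nat.card H])
    (hgen : ∀ ψ : IrrCharacter H, IsGeneralizedCharacter G (fun g => (ψ : H → ℂ) (c g)))
    (χ : IrrCharacter H) :
    classInner (fun g => (χ : H → ℂ) (c g)) (fun g => (χ : H → ℂ) (c g)) = 1 := by
  classical
  have hχ := IsIrrCharacter.isCharacter χ.2
  obtain ⟨b, hb⟩ := IsCharacter.exists_eq_sum (IsCharacter.mul hχ (IsCharacter.conj hχ))
  set Ξ : H → ℂ := (χ : H → ℂ) * fun g => conj ((χ : H → ℂ) g) with hΞ
  have h1 : classInner (fun g => (χ : H → ℂ) (c g)) (fun g => (χ : H → ℂ) (c g)) =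
      classInner (fun g => Ξ (c g)) (fun _ => 1) := by
    simp [classInner, hΞ]
  have h2 : classInner (χ : H → ℂ) (χ : H → ℂ) = classInner Ξ (fun _ => 1) := by
    simp [classInner, hΞ]
  have h3 : (fun g => Ξ (c g)) =
      ∑ ψ : IrrCharacter H, (b ψ : ℂ) • (fun g => (ψ : H → ℂ) (c g)) := by
    funext g
    rw [hb]
    simp [Finset.sum_apply]
  have h4 := classInner_irr χ.2 χ.2
  rw [if_pos rfl] at h4
  have h5 : classInner Ξ (fun _ => 1) = 1 := by rw [← h2, h4]
  rw [hb, classInner_sum_left] at h5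
  rw [h1, h3, classInner_sum_left]
  refine Eq.trans ?_ h5
  refine Finset.sum_congr rfl fun ψ _ => ?_
  rw [classInner_smul_left, classInner_smul_left, inner_star_one hfus c hc ha1 hgen]

end main

/-- Let H be a subgroup of the finite group G whose order is coprime to its index. Suppose that elements of H conjugate in G are conjugate in H, and that every subgroup E of G that is elementary for some prime (in the sense used for Brauer's characterisation of characters) and whose order divides the order of H is conjugate to a subgroup of H. Then there is a normal subgroup K with K ⊔ H = ⊤ and K ⊓ H trivial. -/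
theorem result {G : Type*} [Group G] [Finite G] (H : Subgroup G) (hHall : Nat.Coprime (Nat.card H) H.index) (hfus : ∀ x ∈ H, ∀ y ∈ H, IsConj x y → ∃ h ∈ H, h * x * h⁻¹ = y) (helem : ∀ (E : Subgroup G) (p : ℕ), p.Prime → Cfsg.IsElementary p E → Nat.card E ∣ Nat.card H → ∃ g : G, E.map (MulAut.conj g).toMonoidHom ≤ H) : ∃ K : Subgroup G, K.Normal ∧ K ⊔ H = ⊤ ∧ K ⊓ H = ⊥ := by
  classical
  letI := Fintype.ofFinite G
  letI : Fintype H := Fintype.ofFinite H
  obtain ⟨a, ha1, ha0⟩ := Nat.chineseRemainder hHall 1 0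
  choose c hc using exists_conj_mem (a := a) ha0 helem
  have hch : ∀ ψ : IrrCharacter H, IsCharacter H (ψ : H → ℂ) := fun ψ =>
    IsIrrCharacter.isCharacter ψ.2
  have hgen : ∀ ψ : IrrCharacter H, IsGeneralizedCharacter G (fun g => (ψ : H → ℂ) (c g)) :=
    fun ψ => brauer_characterization
      (star_classFunction hfus c hc (IsCharacter.isClassFunction (hch ψ)))
      (fun E p hp hel => genChar_of_char
        (star_elem hfus c hc hHall helem ha1 ha0 (hch ψ) E p hp hel))
  have hone : ∀ ψ : IrrCharacter H, (ψ : H → ℂ) (c 1) = (ψ : H → ℂ) 1 := fun ψ =>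
    star_coe hfus c hc ha1 (IsCharacter.isClassFunction (hch ψ)) 1
  have hirr : ∀ ψ : IrrCharacter H, IsIrrCharacter G (fun g => (ψ : H → ℂ) (c g)) := by
    intro ψ
    refine isIrrCharacter_of_genChar (hgen ψ) (norm_star hfus c hc ha1 hgen ψ) ?_
    rw [hone ψ, ← charDegree_cast (hch ψ)]
    simpa using charDegree_pos ψ.2
  let K : Subgroup G := ⨅ ψ : IrrCharacter H, kerOf (IsIrrCharacter.isCharacter (hirr ψ))
  have hKn : K.Normal := Subgroup.normal_iInf_normal (fun ψ => kerOf_normal _)
  have hmem : ∀ g, g ∈ K ↔ g ^ a = 1 := by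
    intro g
    simp only [K, Subgroup.mem_iInf, mem_kerOf]
    constructor
    · intro h
      have h1 := column_orthogonality (c g) (1 : H)
      have h2 := column_orthogonality (1 : H) (1 : H)
      rw [if_pos (IsConj.refl _)] at h2
      have h3 : ∑ χ : IrrCharacter H, (χ : H → ℂ) (c g) * conj ((χ : H → ℂ) 1) =
          ∑ χ : IrrCharacter H, (χ : H → ℂ) 1 * conj ((χ : H → ℂ) 1) :=
        Finset.sum_congr rfl fun χ _ => by rw [h χ, hone χ]
      rw [h3, h2] at h1
      by_cases hcj : IsConj (c g) 1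
      · have h4 : c g = 1 := isConj_one_left.mp hcj
        have h5 := hc g
        rw [h4] at h5
        exact isConj_one_left.mp h5
      · rw [if_neg hcj] at h1
        exfalso
        have : (0 : ℕ) < Nat.card (Subgroup.centralizer ({1} : Set H)) := Nat.card_pos
        have h6 : Nat.card (Subgroup.centralizer ({1} : Set H)) = 0 := by exact_mod_cast h1
        omega
    · intro h ψ
      rw [hone ψ]
      apply star_eq hfus c hc (IsCharacter.isClassFunction (hch ψ))
      rw [h]
      exact IsConj.refl _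
  have hKH : K ⊓ H = ⊥ := by
    rw [eq_bot_iff]
    rintro x ⟨hxK, hxH⟩
    have h1 := (hmem x).mp hxK
    rw [pow_of_mem ha1 hxH] at h1
    exact h1
  have hKcard : Nat.card K ∣ H.index := by
    apply card_dvd_of_pow_eq_one (e' := Nat.card H) _ _ hHall.symm
    · rintro ⟨g, hg⟩
      apply Subtype.ext
      change g ^ H.index = 1
      have h1 := (hmem g).mp hg
      have h2 : (g ^ H.index) ^ Nat.card H = 1 := by
        rw [← pow_mul, mul_comm, H.card_mul_index, pow_card_eq_one']
      have h3 := pow_eq_pow_iff_modEq.mpr (ha1.of_dvd (orderOf_dvd_of_pow_eq_one h2))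
      rw [pow_one, ← pow_mul, mul_comm, pow_mul, h1, one_pow] at h3
      exact h3.symm
    · rw [mul_comm, H.card_mul_index]; exact Subgroup.card_subgroup_dvd_card K
  have hKidx : K.index ∣ Nat.card H := by
    rw [Subgroup.index_eq_card]
    apply card_dvd_of_pow_eq_one (e' := H.index) _ _ hHall
    · intro q
      induction q using QuotientGroup.induction_on with
      | H g =>
        rw [← QuotientGroup.mk_pow, QuotientGroup.eq_one_iff, hmem, ← pow_mul, mul_comm, pow_mul]
        exact pow_pow_card ha0 g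
    · rw [H.card_mul_index, ← Subgroup.index_eq_card]; exact Subgroup.index_dvd_card K
  have hprod : Nat.card K * K.index = Nat.card H * H.index := by
    rw [K.card_mul_index, H.card_mul_index]
  have hKeq : Nat.card K = H.index := by
    have hi0 : 0 < H.index := Nat.pos_of_ne_zero Subgroup.index_ne_zero_of_finite
    have hH0 : 0 < Nat.card H := Nat.card_pos
    have h1 := Nat.le_of_dvd hi0 hKcard
    have h2 := Nat.le_of_dvd hH0 hKidx
    by_contra hne
    have h3 : Nat.card K < H.index := lt_of_le_of_ne h1 hne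
    have h4 : Nat.card K * K.index < H.index * Nat.card H :=
      calc Nat.card K * K.index ≤ Nat.card K * Nat.card H := Nat.mul_le_mul_left _ h2
        _ < H.index * Nat.card H := Nat.mul_lt_mul_of_pos_right h3 hH0
    rw [hprod, mul_comm] at h4
    exact lt_irrefl _ h4
  refine ⟨K, hKn, ?_, hKH⟩
  apply Subgroup.IsComplement'.sup_eq_top
  apply Subgroup.isComplement'_of_card_mul_and_disjoint
  · rw [hKeq, mul_comm, H.card_mul_index]
  · rw [disjoint_iff]; exact hKH

end Cfsg.Agent.S0877
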