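import Mathlib
import Cfsg.Statements.S0878
import Cfsg.Agent.Lib.Helper27.ZassEl

namespace Cfsg.Agent.S0878

open MulAction Subgroup Cfsg Cfsg.Agent.Lib.Helper3 Cfsg.Agent.Lib.Helper27.ZassEl

/-- Let G be a Zassenhaus group on the finite set Ω, a a point, and let H be the subgroup of the stabilizer of a consisting of the identity and the elements fixing no point other than a (given here as a subgroup of the stabilizer of order one less than the number of points whose non-identity elements fix only a; it is the Frobenius kernel of the stabilizer). Then an element outside the stabilizer of a conjugates no non-identity element of H into H, and the normalizer of H is exactly the stabilizer of a. -/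
theorem result {G Ω : Type*} [Group G] [Finite G] [MulAction G Ω] [Fintype Ω] (hZ : Cfsg.IsZassenhausGroup G Ω) (a : Ω) (H : Subgroup G) (hHa : H ≤ MulAction.stabilizer G a) (hHcard : Nat.card H + 1 = Fintype.card Ω) (hHfix : ∀ u ∈ H, u ≠ 1 → ∀ c : Ω, u • c = c → c = a) : (∀ g : G, g ∉ MulAction.stabilizer G a → ∀ u ∈ H, g * u * g⁻¹ ∈ H → u = 1) ∧ Subgroup.normalizer (H : Set G) = MulAction.stabilizer G a := by
  have first : ∀ g : G, g ∉ MulAction.stabilizer G a → ∀ u ∈ H, g * u * g⁻¹ ∈ H → u = 1 := by
    intro g hg u hu hgu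
    by_contra hu1
    apply hg
    have h1 : (g * u * g⁻¹) • a = a := hHa hgu
    rw [mul_smul, mul_smul, smul_eq_iff_eq_inv_smul] at h1
    have h2 := hHfix u hu hu1 _ h1
    rw [mem_stabilizer_iff]
    rw [inv_smul_eq_iff] at h2
    exact h2.symm
  refine ⟨first, ?_⟩
  obtain ⟨K, hK, hKcard, -⟩ := zass_kernel hZ a
  have hHK : H ≤ K := by
    intro u hu
    rw [hK]
    refine ⟨hHa hu, ?_⟩
    by_cases hu1 : u = 1
    · exact Or.inl hu1
    · exact Or.inr (hHfix u hu hu1)
  have hEq : H = K := by
    apply Subgroup.eq_of_le_of_card_ge hHK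
    rw [Nat.card_eq_fintype_card (α := Ω)] at hKcard
    omega
  apply le_antisymm
  · intro g hg
    by_contra hga
    obtain ⟨b, hb⟩ := zass_exists_ne hZ a
    obtain ⟨c, hc1, hc2⟩ := zass_exists_third hZ hb
    have hcard : 2 < Fintype.card Ω := by
      rw [Fintype.two_lt_card_iff]
      exact ⟨a, b, c, Ne.symm hb, Ne.symm hc2, Ne.symm hc1⟩
    have hH1 : 1 < Nat.card H := by omega
    rw [Finite.one_lt_card_iff_nontrivial] at hH1
    obtain ⟨u, hu⟩ := exists_ne (1 : H)
    apply hu
    apply Subtype.ext
    exact first g hga u u.2 ((Subgroup.mem_normalizer_iff.1 hg u).1 u.2)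
  · intro g hg
    rw [mem_stabilizer_iff] at hg
    have hg' : g⁻¹ • a = a := by rw [inv_smul_eq_iff, hg]
    have key : ∀ g : G, g • a = a → ∀ u ∈ K, g * u * g⁻¹ ∈ K := by
      intro g hg u hu
      have hg' : g⁻¹ • a = a := by rw [inv_smul_eq_iff, hg]
      rw [hK] at hu ⊢
      refine ⟨by rw [mul_smul, mul_smul, hg', hu.1, hg], ?_⟩
      rcases hu.2 with h | h
      · left; rw [h]; group
      · right
        intro c hc
        rw [mul_smul, mul_smul, smul_eq_iff_eq_inv_smul] at hc
        have := h _ hc
        rw [inv_smul_eq_iff, hg] at this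
        exact this
    rw [Subgroup.mem_normalizer_iff, hEq]
    intro u
    refine ⟨key g hg u, fun h => ?_⟩
    have := key g⁻¹ hg' _ h
    have h2 : g⁻¹ * (g * u * g⁻¹) * g⁻¹⁻¹ = u := by group
    rwa [h2] at this

end Cfsg.Agent.S0878
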