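import Mathlib
import Cfsg.Statements.S0880
import Cfsg.Agent.Lib.Helper27.ZassCount

namespace Cfsg.Agent.S0880

open MulAction Subgroup Cfsg Cfsg.Agent.Lib.Helper3 Cfsg.Agent.Lib.Helper27.ZassEl

theorem arith (n' m f0 : ℕ) (hm : 1 ≤ m)
    (h1 : (n' + 3) * ((n' + 2) * (2 * m + 1)) = 2 * f0 + (n' + 2) * (n' + 1))
    (h2 : f0 ∣ (n' + 3) * ((n' + 2) * (2 * m + 1))) : False := by
  have hf : f0 = (n' + 2) * ((n' + 3) * m + 1) := by nlinarith
  rw [hf] at h2
  have h3 : (n' + 2) * ((n' + 3) * m + 1) ∣ (n' + 2) * ((n' + 3) * (2 * m + 1)) := by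
    convert h2 using 1; ring
  have h4 : ((n' + 3) * m + 1) ∣ (n' + 3) * (2 * m + 1) :=
    Nat.dvd_of_mul_dvd_mul_left (by omega) h3
  have hcop : Nat.Coprime ((n' + 3) * m + 1) (n' + 3) := by
    simp
  have h5 := hcop.dvd_of_dvd_mul_left h4
  have h6 := Nat.le_of_dvd (by omega) h5
  nlinarith

/-- Let G be a finite simple Zassenhaus group on Ω with n points whose two-point stabilizer E has odd order less than n - 2. Then there are two elements of G, each fixing no point of Ω, that are not conjugate. -/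
theorem result {G Ω : Type*} [Group G] [Finite G] [MulAction G Ω] [Fintype Ω] (hZ : Cfsg.IsZassenhausGroup G Ω) {a b : Ω} (hab : a ≠ b) [IsSimpleGroup G] (hodd : Odd (Nat.card ↥(MulAction.stabilizer G a ⊓ MulAction.stabilizer G b : Subgroup G))) (hlt : Nat.card ↥(MulAction.stabilizer G a ⊓ MulAction.stabilizer G b : Subgroup G) < Fintype.card Ω - 2) : ∃ x y : G, (∀ c : Ω, x • c ≠ c) ∧ (∀ c : Ω, y • c ≠ c) ∧ ¬ IsConj x y := by
  classical
  have := Fintype.ofFinite G
  by_contra hcon
  push Not at hcon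
  have h1 := card_fpf hZ
  have h2 := card_group hZ hab
  obtain ⟨m, hm⟩ := hodd
  obtain ⟨n', hn'⟩ : ∃ n', Fintype.card Ω = n' + 3 := ⟨Fintype.card Ω - 3, by omega⟩
  have hm1 : 1 ≤ m := by
    obtain ⟨x, hx1, hxa, hxb⟩ := zass_exists_fix_two hZ hab
    have hnt : Nontrivial ↥(stabilizer G a ⊓ stabilizer G b) := by
      refine ⟨⟨⟨x, ?_⟩, 1, ?_⟩⟩
      · rw [Subgroup.mem_inf, mem_stabilizer_iff, mem_stabilizer_iff]; exact ⟨hxa, hxb⟩
      · intro h
        exact hx1 (congrArg Subtype.val h)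
    have := Finite.one_lt_card (α := ↥(stabilizer G a ⊓ stabilizer G b))
    omega
  rw [hm, hn'] at h2
  rw [hn'] at h1
  have e1 : n' + 3 - 1 = n' + 2 := by omega
  have e2 : n' + 3 - 2 = n' + 1 := by omega
  rw [e1] at h1 h2
  rw [e2] at h1
  set F0 := Finset.univ.filter (fun g : G => ∀ c : Ω, g • c ≠ c) with hF0
  have hpos : 0 < F0.card := by
    by_contra h0
    have h0' : F0.card = 0 := by omega
    rw [h0', h2] at h1
    nlinarith
  obtain ⟨x, hx⟩ := Finset.card_pos.1 hpos
  simp only [hF0, Finset.mem_filter, Finset.mem_univ, true_and] at hx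
  have hcl : F0.card = Nat.card (orbit (ConjAct G) x) := by
    rw [Nat.card_eq_card_toFinset (orbit (ConjAct G) x)]
    congr 1
    ext y
    simp only [hF0, Finset.mem_filter, Finset.mem_univ, true_and, Set.mem_toFinset,
      ConjAct.mem_orbit_conjAct]
    constructor
    · intro hy
      exact hcon y x hy hx
    · intro hy c hc
      rw [isConj_comm, isConj_iff] at hy
      obtain ⟨g, rfl⟩ := hy
      rw [mul_smul, mul_smul, smul_eq_iff_eq_inv_smul] at hc
      exact hx _ hc
  have hdvd : F0.card ∣ Fintype.card G := by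
    rw [hcl]
    have e := MulAction.orbitProdStabilizerEquivGroup (ConjAct G) x
    have h3 := Nat.card_congr e
    rw [Nat.card_prod] at h3
    have h4 : Nat.card (ConjAct G) = Fintype.card G := by
      rw [← Nat.card_eq_fintype_card]
      exact Nat.card_congr (ConjAct.ofConjAct (G := G)).toEquiv
    rw [← h4, ← h3]
    exact Dvd.intro _ rfl
  rw [h2] at h1 hdvd
  exact arith n' m F0.card hm1 h1 hdvd

end Cfsg.Agent.S0880
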