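import Mathlib
import Cfsg.Statements.S0881
import Cfsg.Agent.Lib.Helper27.ZassOdd5
import Cfsg.Agent.Lib.Helper27.IndStab
import Cfsg.Agent.Lib.Helper2.Linear
import Cfsg.Agent.Lib.Helper2.CharOps

namespace Cfsg.Agent.S0881

open MulAction Subgroup Cfsg Cfsg.Agent.Lib.Helper3 Cfsg.Agent.Lib.Helper27.ZassEl
open Cfsg.Agent.Lib.Helper27.ZassOdd Cfsg.Agent.Lib.Helper27.IndStab Cfsg.Agent.Lib.Helper2
open scoped ComplexConjugate

/-- Let G be a finite simple Zassenhaus group on Ω with n points, a ≠ b points with two-point stabilizer E of odd order less than n - 2, and let H be the subgroup of the stabilizer of a consisting of the identity and the elements fixing no point other than a (given here as a subgroup of the stabilizer of order one less than the number of points whose non-identity elements fix only a; it is the Frobenius kernel of the stabilizer). Let μ be a character of degree 1 of the stabilizer of a that is identically 1 on H but not identically 1. Then the function induced from μ to G is an irreducible character of G, and it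 takes the value 1 at every non-identity element of H. -/
theorem result {G Ω : Type*} [Group G] [Fintype G] [MulAction G Ω] [Fintype Ω] (hZ : Cfsg.IsZassenhausGroup G Ω) {a b : Ω} (hab : a ≠ b) [IsSimpleGroup G] (hodd : Odd (Nat.card ↥(MulAction.stabilizer G a ⊓ MulAction.stabilizer G b : Subgroup G))) (hlt : Nat.card ↥(MulAction.stabilizer G a ⊓ MulAction.stabilizer G b : Subgroup G) < Fintype.card Ω - 2) (H : Subgroup G) (hHa : H ≤ MulAction.stabilizer G a) (hHcard : Nat.card H + 1 = Fintype.card Ω) (hHfix : ∀ u ∈ H, u ≠ 1 → ∀ c : Ω, u • c = c → c = a) (μ : MulAction.stabilizer G a → ℂ) (hμ : Cfsg.IsCharacter (MulAction.stabilizer G a) μ ∧ μ 1 = 1) (hμH : ∀ u : MulAction.stabilizer G a, (u : G) ∈ H → μ u = 1) (hμne : μ ≠ fun _ => 1) : Cfsg.IsIrrCharacter G (Cfsg.indFun (MulAction.stabilizer G a) μ) ∧ ∀ u ∈ H, u ≠ 1 → Cfsg.indFun (MulAction.stabilizer G a) μ u = 1 := by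
  classical
  have hFA : Fintype (stabilizer G a) := Fintype.ofFinite _
  obtain ⟨lam, hlam⟩ := exists_hom_of_degree_one hμ.1 hμ.2
  have hcf : IsClassFunction (stabilizer G a) μ := IsCharacter.isClassFunction hμ.1
  have htr := zass_pretransitive hZ
  choose y hy using fun c => MulAction.exists_smul_eq G a c
  have hform := ind_formula a μ hcf y hy
  have hya : y a ∈ stabilizer G a := hy a
  -- H is the kernel
  obtain ⟨K, hK, hKcard, -⟩ := zass_kernel hZ a
  have hHK : H ≤ K := by
    intro v hv
    rw [hK]
    refine ⟨hHa hv, ?_⟩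
    by_cases hv1 : v = 1
    · exact Or.inl hv1
    · exact Or.inr (hHfix v hv hv1)
  have hEq : H = K := by
    apply Subgroup.eq_of_le_of_card_ge hHK
    rw [Nat.card_eq_fintype_card (α := Ω)] at hKcard
    omega
  have hmemH : ∀ v, v ∈ H ↔ v • a = a ∧ (v = 1 ∨ ∀ c, v • c = c → c = a) := by
    intro v; rw [hEq]; exact hK v
  -- a second fixed point
  have hsecond : ∀ g : G, g • a = a → g ∉ H → g ≠ 1 ∧ ∃ c, c ≠ a ∧ g • c = c := by
    intro g hga hgH
    rw [hmemH] at hgH
    push Not at hgH
    obtain ⟨h1, c, h2, h3⟩ := hgH hga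
    exact ⟨h1, c, h3, h2⟩
  -- values
  have V1 : ∀ u ∈ H, u ≠ 1 → indFun (stabilizer G a) μ u = 1 := by
    intro u hu hu1
    have hfil : Finset.univ.filter (fun c : Ω => u • c = c) = {a} := by
      ext c
      simp only [Finset.mem_filter, Finset.mem_univ, true_and, Finset.mem_singleton]
      exact ⟨hHfix u hu hu1 c, fun h => h ▸ hHa hu⟩
    rw [hform, hfil, Finset.sum_singleton, ext_conj a μ hcf u _ hya,
      extendByZero_mem _ _ (hHa hu)]
    exact hμH _ hu
  have V2 : ∀ g : stabilizer G a, (g : G) ∉ H →
      indFun (stabilizer G a) μ g = μ g + conj (μ g) := by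
    intro g hgH
    obtain ⟨hg1, c, hca, hgc⟩ := hsecond g g.2 hgH
    have hac : a ≠ c := Ne.symm hca
    have hfil : Finset.univ.filter (fun c' : Ω => (g : G) • c' = c') = {a, c} := by
      ext c'
      simp only [Finset.mem_filter, Finset.mem_univ, true_and, Finset.mem_insert,
        Finset.mem_singleton]
      constructor
      · exact fix_sub hZ hac hg1 g.2 hgc c'
      · rintro (h | h)
        · rw [h]; exact g.2
        · rw [h]; exact hgc
    rw [hform, hfil, Finset.sum_pair hac, ext_conj a μ hcf g _ hya, extendByZero_coe]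
    congr 1
    obtain ⟨s, hsa, hsc⟩ := zass_two_trans hZ hac hca
    have hk : s⁻¹ * y c ∈ stabilizer G a := by
      rw [mem_stabilizer_iff, mul_smul, hy, inv_smul_eq_iff, hsa]
    have e1 : (y c)⁻¹ * g * y c = (s⁻¹ * y c)⁻¹ * (s⁻¹ * g * s) * (s⁻¹ * y c) := by group
    rw [e1, ext_conj a μ hcf _ _ hk]
    have hodd' : Odd (Nat.card ↥(stabilizer G a ⊓ stabilizer G c)) := by
      rw [card_stab_pair hZ hab hac]; exact hodd
    obtain ⟨-, hinv⟩ := main hZ hac hodd' (hnil_of_simple hZ hac hodd')
    have h2 := hinv s⁻¹ (by rw [inv_smul_eq_iff, hsc]) (by rw [inv_smul_eq_iff, hsa]) g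
      (mem_E.2 ⟨g.2, hgc⟩)
    rw [inv_inv] at h2
    rw [h2]
    have h3 : ((g : G))⁻¹ = ((g⁻¹ : stabilizer G a) : G) := rfl
    rw [h3, extendByZero_coe, IsCharacter.apply_inv hμ.1]
  have V3 : indFun (stabilizer G a) μ 1 = (Fintype.card Ω : ℂ) := by
    rw [hform]
    have h1 : ∀ c ∈ Finset.univ.filter (fun c : Ω => (1 : G) • c = c),
        extendByZero (stabilizer G a) μ ((y c)⁻¹ * 1 * y c) = 1 := by
      intro c _
      have : (y c)⁻¹ * 1 * y c = ((1 : stabilizer G a) : G) := by simp
      rw [this, extendByZero_coe, hμ.2]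
    rw [Finset.sum_congr rfl h1]
    simp
  refine ⟨?_, V1⟩
  apply isIrrCharacter_of_classInner_eq_one (IsCharacter.indFun _ hμ.1)
  rw [frobenius_reciprocity _ _ _ (indFun_isClassFunction _ _)]
  -- norm one
  have hnorm : ∀ g : stabilizer G a, μ g * conj (μ g) = 1 := by
    intro g
    rw [← IsCharacter.apply_inv hμ.1, hlam]
    simp only
    rw [← Units.val_mul, ← map_mul, mul_inv_cancel, map_one, Units.val_one]
  have hterm : ∀ g : stabilizer G a, μ g * conj (indFun (stabilizer G a) μ g) =
      1 + μ g * μ g - (if g ∈ H.subgroupOf (stabilizer G a) then 1 else 0) +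
        (if g = 1 then (Nat.card H : ℂ) else 0) := by
    intro g
    by_cases hgH : (g : G) ∈ H
    · have hgH' : g ∈ H.subgroupOf (stabilizer G a) := by rw [mem_subgroupOf]; exact hgH
      rw [if_pos hgH', hμH g hgH]
      by_cases hg1 : g = 1
      · rw [if_pos hg1, hg1]
        have : (((1 : stabilizer G a)) : G) = 1 := rfl
        rw [this, V3, ← hHcard]
        simp
        ring
      · rw [if_neg hg1, V1 g hgH (fun h => hg1 (Subtype.ext h))]
        simp
    · have hgH' : g ∉ H.subgroupOf (stabilizer G a) := by rw [mem_subgroupOf]; exact hgH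
      have hg1 : g ≠ 1 := by
        rintro rfl
        exact hgH H.one_mem
      rw [if_neg hgH', if_neg hg1, V2 g hgH, map_add, Complex.conj_conj, mul_add, hnorm]
      ring
  -- the square sum vanishes
  have hsq : ∑ g : stabilizer G a, μ g * μ g = 0 := by
    have h1 := classInner_irr (isIrrCharacter_of_hom (lam * lam))
      (isIrrCharacter_one (G := stabilizer G a))
    have hne : (fun g : stabilizer G a => (((lam * lam) g : ℂˣ) : ℂ)) ≠ fun _ => 1 := by
      intro hcon
      apply hμne
      funext g
      by_cases hgH : (g : G) ∈ H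
      · exact hμH g hgH
      · obtain ⟨hg1, c, hca, hgc⟩ := hsecond g g.2 hgH
        have hac : a ≠ c := Ne.symm hca
        obtain ⟨k, hk⟩ := hodd
        have hpow : g ^ (2 * k + 1) = 1 := by
          have := pow_card_eq_one' (G := ↥(stabilizer G a ⊓ stabilizer G c))
            (x := ⟨g, mem_E.2 ⟨g.2, hgc⟩⟩)
          rw [card_stab_pair hZ hab hac, hk] at this
          apply Subtype.ext
          have h9 := congrArg (Subtype.val) this
          simpa using h9
        have h2 : lam g * lam g = 1 := by
          have := congrFun hcon g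
          simp only [MonoidHom.mul_apply] at this
          exact Units.ext this
        have h3 : lam g = 1 := by
          have h4 : lam g ^ (2 * k + 1) = 1 := by rw [← map_pow, hpow, map_one]
          rw [pow_succ, pow_mul, sq, h2, one_pow, one_mul] at h4
          exact h4
        rw [hlam]
        simp only
        rw [h3, Units.val_one]
    rw [if_neg hne] at h1
    unfold classInner at h1
    rcases mul_eq_zero.1 h1 with h2 | h2
    · exact absurd (inv_eq_zero.1 h2) (by exact_mod_cast (Nat.card_pos (α := stabilizer G a)).ne')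
    · rw [← h2]
      refine Finset.sum_congr rfl fun g _ => ?_
      rw [hlam]
      simp
  unfold classInner
  simp_rw [hterm]
  rw [Finset.sum_add_distrib, Finset.sum_sub_distrib, Finset.sum_add_distrib, hsq,
    sum_ite_mem_subgroup, Finset.sum_ite_eq' Finset.univ (1 : stabilizer G a),
    if_pos (Finset.mem_univ _)]
  have hcardH : Nat.card (H.subgroupOf (stabilizer G a)) = Nat.card H :=
    Nat.card_congr (subgroupOfEquivOfLe hHa).toEquiv
  rw [hcardH]
  simp only [Finset.sum_const, Finset.card_univ, nsmul_eq_mul, mul_one, add_zero]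
  rw [← Nat.card_eq_fintype_card]
  have hA0 : (Nat.card (stabilizer G a) : ℂ) ≠ 0 := by
    exact_mod_cast (Nat.card_pos (α := stabilizer G a)).ne'
  field_simp
  ring

end Cfsg.Agent.S0881
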