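import Mathlib
import Cfsg.Statements.S0882
import Cfsg.Agent.Lib.Helper27.ZassOdd5

namespace Cfsg.Agent.S0882

open MulAction Subgroup Cfsg Cfsg.Agent.Lib.Helper3 Cfsg.Agent.Lib.Helper27.ZassEl
open Cfsg.Agent.Lib.Helper27.ZassOdd

section

variable {G Ω : Type*} [Group G] [MulAction G Ω]

theorem invol_conj_swap (hZ : IsZassenhausGroup G Ω) {a b : Ω} (hab : a ≠ b) {x : G}
    (hx : orderOf x = 2) : ∃ g : G, (g * x * g⁻¹) • a = b ∧ (g * x * g⁻¹) • b = a := by
  have hx1 : x ≠ 1 := by
    rintro rfl
    simp at hx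
  have hxx : x * x = 1 := by rw [← sq, ← hx, pow_orderOf_eq_one]
  have := hZ.1
  obtain ⟨c, hc⟩ : ∃ c : Ω, x • c ≠ c := by
    by_contra hcon
    push Not at hcon
    apply hx1
    apply FaithfulSMul.eq_of_smul_eq_smul (α := Ω)
    intro c
    rw [hcon c, one_smul]
  obtain ⟨g, hg1, hg2⟩ := zass_two_trans hZ (Ne.symm hc) hab
  refine ⟨g, ?_, ?_⟩
  · rw [mul_smul, mul_smul, ← hg1, inv_smul_smul, hg2]
  · rw [mul_smul, mul_smul, ← hg2, inv_smul_smul, ← mul_smul x x, hxx, one_smul, hg1]

/-- the number of points moved by an involution -/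
theorem card_moved [Finite G] [Fintype Ω] [DecidableEq Ω] (hZ : IsZassenhausGroup G Ω) {a b : Ω}
    (hab : a ≠ b) (hodd : Odd (Nat.card ↥(stabilizer G a ⊓ stabilizer G b))) {x : G}
    (hx : orderOf x = 2) :
    (Finset.univ.filter (fun c : Ω => x • c ≠ c)).card = Fintype.card Ω - Fintype.card Ω % 2 := by
  have hx1 : x ≠ 1 := by
    rintro rfl
    simp at hx
  have hxx : x * x = 1 := by rw [← sq, ← hx, pow_orderOf_eq_one]
  have h1 : (Finset.univ.filter (fun c : Ω => x • c = c)).card +
      (Finset.univ.filter (fun c : Ω => x • c ≠ c)).card = Fintype.card Ω := by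
    rw [← Finset.card_univ]
    exact Finset.card_filter_add_card_filter_not (s := (Finset.univ : Finset Ω))
      (fun c : Ω => x • c = c)
  have hle : (Finset.univ.filter (fun c : Ω => x • c = c)).card ≤ 1 := by
    rw [Finset.card_le_one]
    intro c hc c' hc'
    simp only [Finset.mem_filter, Finset.mem_univ, true_and] at hc hc'
    by_contra hne
    apply hx1
    have hE : x ∈ (stabilizer G c ⊓ stabilizer G c' : Subgroup G) := mem_E.2 ⟨hc, hc'⟩
    have h5 : orderOf x ∣ Nat.card ↥(stabilizer G c ⊓ stabilizer G c') := by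
      have := orderOf_dvd_natCard (⟨x, hE⟩ : ↥(stabilizer G c ⊓ stabilizer G c'))
      rwa [← Subgroup.orderOf_coe] at this
    rw [card_stab_pair hZ hab hne, hx] at h5
    rw [Nat.odd_iff] at hodd
    omega
  have hpar := Cfsg.Agent.S0740.parity (Ω := Ω) hxx
  have hcard : Nat.card (fixedBy Ω x) = (Finset.univ.filter (fun c : Ω => x • c = c)).card := by
    rw [Nat.card_eq_card_toFinset]
    congr 1
    ext c
    simp
  rw [hcard] at hpar
  unfold Nat.ModEq at hpar
  omega

end

/-- Let G be a finite simple Zassenhaus group on Ω with n = h + 1 points whose two-point stabilizer E has odd order e with 2e < h - 1. Then any two involutions of G are conjugate, and the number of involutions is e * (h + 1) if h is even and e * h if h is odd. -/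
theorem result {G Ω : Type*} [Group G] [Finite G] [MulAction G Ω] [Fintype Ω] (hZ : Cfsg.IsZassenhausGroup G Ω) {a b : Ω} (hab : a ≠ b) [IsSimpleGroup G] (h e : ℕ) (hh : Fintype.card Ω = h + 1) (he : Nat.card ↥(MulAction.stabilizer G a ⊓ MulAction.stabilizer G b : Subgroup G) = e) (hodd : Odd e) (hlt : 2 * e < h - 1) : (∀ x y : G, orderOf x = 2 → orderOf y = 2 → IsConj x y) ∧ Nat.card {x : G // orderOf x = 2} = (if Even h then e * (h + 1) else e * h) := by
  classical
  have := Fintype.ofFinite G
  have hodd' : Odd (Nat.card ↥(stabilizer G a ⊓ stabilizer G b)) := he ▸ hodd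
  have hnil := hnil_of_simple hZ hab hodd'
  constructor
  · intro x y hx hy
    obtain ⟨g, hg1, hg2⟩ := invol_conj_swap hZ hab hx
    obtain ⟨g', hg1', hg2'⟩ := invol_conj_swap hZ hab hy
    have h1 : IsConj x (g * x * g⁻¹) := isConj_iff.2 ⟨g, rfl⟩
    have h2 : IsConj y (g' * y * g'⁻¹) := isConj_iff.2 ⟨g', rfl⟩
    exact h1.trans ((swap_conj hZ hab hodd' hnil hg1 hg2 hg1' hg2').trans h2.symm)
  · rw [Nat.card_eq_fintype_card, Fintype.card_subtype]
    set Inv : Finset G := Finset.univ.filter (fun x : G => orderOf x = 2) with hInv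
    have hcol : ∀ c : Ω, (Inv.filter (fun x : G => x • c ≠ c)).card = (Fintype.card Ω - 1) * e := by
      intro c
      rw [Finset.card_eq_sum_card_fiberwise (f := fun x : G => x • c) (t := Finset.univ.erase c)]
      · rw [Finset.sum_const_nat (m := e), Finset.card_erase_of_mem (Finset.mem_univ _),
          Finset.card_univ]
        intro c' hc'
        rw [Finset.mem_erase] at hc'
        have hcc : c ≠ c' := Ne.symm hc'.1
        rw [← he, ← card_pair' hZ hab hcc hc'.1]
        congr 1
        ext x
        simp only [hInv, Finset.mem_filter, Finset.mem_univ, true_and]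
        constructor
        · rintro ⟨⟨hx, -⟩, hxc⟩
          have hxx : x * x = 1 := by rw [← sq, ← hx, pow_orderOf_eq_one]
          exact ⟨hxc, by rw [← hxc, ← mul_smul, hxx, one_smul]⟩
        · rintro ⟨h1, h2⟩
          have hodd'' : Odd (Nat.card ↥(stabilizer G c ⊓ stabilizer G c')) := by
            rw [card_stab_pair hZ hab hcc]; exact hodd'
          refine ⟨⟨swap_orderOf hZ hcc hodd'' (hnil_of_simple hZ hcc hodd'') h1 h2, ?_⟩, h1⟩
          rw [h1]; exact hc'.1
      · intro x hx
        simp only [Finset.coe_filter, Set.mem_ofPred_eq] at hx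
        simp only [Finset.coe_erase, Finset.coe_univ, Set.mem_sdiff, Set.mem_univ, true_and,
          Set.mem_singleton_iff]
        exact hx.2
    have hdc := Finset.sum_card_bipartiteAbove_eq_sum_card_bipartiteBelow
      (s := Inv) (t := (Finset.univ : Finset Ω)) (fun x c => x • c ≠ c)
    unfold Finset.bipartiteAbove Finset.bipartiteBelow at hdc
    rw [Finset.sum_const_nat (m := Fintype.card Ω - Fintype.card Ω % 2)
      (fun x hx => card_moved hZ hab hodd' (by simpa [hInv] using hx)),
      Finset.sum_const_nat (m := (Fintype.card Ω - 1) * e) (fun c _ => hcol c),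
      Finset.card_univ, hh] at hdc
    have e1 : h + 1 - 1 = h := by omega
    rw [e1] at hdc
    have hpos : 0 < h := by omega
    split_ifs with hev
    · have e2 : (h + 1) % 2 = 1 := by
        rw [Nat.even_iff] at hev; omega
      rw [e2, e1] at hdc
      apply Nat.eq_of_mul_eq_mul_right hpos
      rw [hdc]; ring
    · have e2 : (h + 1) % 2 = 0 := by
        rw [Nat.even_iff] at hev; omega
      rw [e2, Nat.sub_zero] at hdc
      apply Nat.eq_of_mul_eq_mul_right (show 0 < h + 1 by omega)
      rw [hdc]; ring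

end Cfsg.Agent.S0882
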