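import Mathlib
import Cfsg.Statements.S0883
import Cfsg.Agent.S0882

namespace Cfsg.Agent.S0883

open MulAction Subgroup Cfsg Cfsg.Agent.Lib.Helper3 Cfsg.Agent.Lib.Helper27.ZassEl
open Cfsg.Agent.Lib.Helper27.ZassOdd

section

variable {G Ω : Type*} [Group G] [MulAction G Ω]

theorem invol_fix_unique [Finite G] (hZ : IsZassenhausGroup G Ω) {a b : Ω}
    (hab : a ≠ b) (hodd : Odd (Nat.card ↥(stabilizer G a ⊓ stabilizer G b))) {x : G}
    (hx : orderOf x = 2) {c c' : Ω} (hc : x • c = c) (hc' : x • c' = c') : c = c' := by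
  by_contra hne
  have hE : x ∈ (stabilizer G c ⊓ stabilizer G c' : Subgroup G) := mem_E.2 ⟨hc, hc'⟩
  have h5 : orderOf x ∣ Nat.card ↥(stabilizer G c ⊓ stabilizer G c') := by
    have := orderOf_dvd_natCard (⟨x, hE⟩ : ↥(stabilizer G c ⊓ stabilizer G c'))
    rwa [← Subgroup.orderOf_coe] at this
  rw [card_stab_pair hZ hab hne, hx] at h5
  rw [Nat.odd_iff] at hodd
  omega

theorem card_invol_moving [Fintype G] [Fintype Ω] [DecidableEq Ω] [IsSimpleGroup G]
    (hZ : IsZassenhausGroup G Ω) {a b : Ω} (hab : a ≠ b)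
    (hodd : Odd (Nat.card ↥(stabilizer G a ⊓ stabilizer G b))) (c : Ω) :
    ((Finset.univ.filter (fun x : G => orderOf x = 2)).filter (fun x : G => x • c ≠ c)).card =
      (Fintype.card Ω - 1) * Nat.card ↥(stabilizer G a ⊓ stabilizer G b) := by
  rw [Finset.card_eq_sum_card_fiberwise (f := fun x : G => x • c) (t := Finset.univ.erase c)]
  · rw [Finset.sum_const_nat (m := Nat.card ↥(stabilizer G a ⊓ stabilizer G b)),
      Finset.card_erase_of_mem (Finset.mem_univ _), Finset.card_univ]
    intro c' hc'
    rw [Finset.mem_erase] at hc'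
    have hcc : c ≠ c' := Ne.symm hc'.1
    rw [← card_pair' hZ hab hcc hc'.1]
    congr 1
    ext x
    simp only [Finset.mem_filter, Finset.mem_univ, true_and]
    constructor
    · rintro ⟨⟨hx, -⟩, hxc⟩
      have hxx : x * x = 1 := by rw [← sq, ← hx, pow_orderOf_eq_one]
      exact ⟨hxc, by rw [← hxc, ← mul_smul, hxx, one_smul]⟩
    · rintro ⟨h1, h2⟩
      have hodd'' : Odd (Nat.card ↥(stabilizer G c ⊓ stabilizer G c')) := by
        rw [card_stab_pair hZ hab hcc]; exact hodd
      refine ⟨⟨swap_orderOf hZ hcc hodd'' (hnil_of_simple hZ hcc hodd'') h1 h2, ?_⟩, h1⟩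
      rw [h1]; exact hc'.1
  · intro x hx
    simp only [Finset.coe_filter, Set.mem_ofPred_eq] at hx
    simp only [Finset.coe_erase, Finset.coe_univ, Set.mem_sdiff, Set.mem_univ, true_and,
      Set.mem_singleton_iff]
    exact hx.2

end

/-- Let G be a finite simple Zassenhaus group on Ω with h + 1 points whose two-point stabilizer E has odd order e with 2e < h - 1, and let H be the subgroup of the stabilizer of a consisting of the identity and the elements fixing no point other than a (given here as a subgroup of the stabilizer of order one less than the number of points whose non-identity elements fix only a; it is the Frobenius kernel of the stabilizer). If a non-identity element u of H is a product of two involutions of G, then u is an involution. -/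
theorem result {G Ω : Type*} [Group G] [Finite G] [MulAction G Ω] [Fintype Ω] (hZ : Cfsg.IsZassenhausGroup G Ω) {a b : Ω} (hab : a ≠ b) [IsSimpleGroup G] (h e : ℕ) (hh : Fintype.card Ω = h + 1) (he : Nat.card ↥(MulAction.stabilizer G a ⊓ MulAction.stabilizer G b : Subgroup G) = e) (hodd : Odd e) (hlt : 2 * e < h - 1) (H : Subgroup G) (hHa : H ≤ MulAction.stabilizer G a) (hHcard : Nat.card H + 1 = Fintype.card Ω) (hHfix : ∀ u ∈ H, u ≠ 1 → ∀ c : Ω, u • c = c → c = a) (u : G) (hu : u ∈ H) (hu1 : u ≠ 1) (x y : G) (hx : orderOf x = 2) (hy : orderOf y = 2) (hxy : x * y = u) : orderOf u = 2 := by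
  classical
  have := Fintype.ofFinite G
  have hodd' : Odd (Nat.card ↥(stabilizer G a ⊓ stabilizer G b)) := he ▸ hodd
  have hxx : x * x = 1 := by rw [← sq, ← hx, pow_orderOf_eq_one]
  have hyy : y * y = 1 := by rw [← sq, ← hy, pow_orderOf_eq_one]
  have hxinv : x⁻¹ = x := inv_eq_of_mul_eq_one_left hxx
  have hyinv : y⁻¹ = y := inv_eq_of_mul_eq_one_left hyy
  -- H is the kernel
  obtain ⟨K, hK, hKcard, -⟩ := zass_kernel hZ a
  have hHK : H ≤ K := by
    intro v hv
    rw [hK]
    refine ⟨hHa hv, ?_⟩
    by_cases hv1 : v = 1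
    · exact Or.inl hv1
    · exact Or.inr (hHfix v hv hv1)
  have hEq : H = K := by
    apply Subgroup.eq_of_le_of_card_ge hHK
    rw [Nat.card_eq_fintype_card (α := Ω)] at hKcard
    omega
  have hmemH : ∀ v, v ∈ H ↔ v • a = a ∧ (v = 1 ∨ ∀ c, v • c = c → c = a) := by
    intro v; rw [hEq]; exact hK v
  -- x and y fix a
  have hua : u • a = a := hHa hu
  have hxa : x • a = a := by
    apply hHfix u hu hu1
    -- u (x a) = x a
    have h1 : u * x = x * u⁻¹ := by
      rw [← hxy, mul_inv_rev, hxinv, hyinv]
      calc x * y * x = x * (y * x) := by group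
        _ = x * (y * x) := rfl
    have h2 : u⁻¹ • a = a := by rw [inv_smul_eq_iff, hua]
    rw [← mul_smul, h1, mul_smul, h2]
  have hya : y • a = a := by
    have h1 : y = x * u := by rw [← hxy, ← mul_assoc, hxx, one_mul]
    rw [h1, mul_smul, hua, hxa]
  have hinvH : ∀ z : G, orderOf z = 2 → z • a = a → z ∈ H := by
    intro z hz hza
    rw [hmemH]
    exact ⟨hza, Or.inr fun c hc => invol_fix_unique hZ hab hodd' hz hc hza⟩
  -- centraliser of x in the stabiliser lies in H
  have hcent : ∀ c : G, c • a = a → c * x = x * c → c ∈ H := by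
    intro c hca hcx
    rw [hmemH]
    refine ⟨hca, ?_⟩
    by_cases hc1 : c = 1
    · exact Or.inl hc1
    · right
      intro c₂ hc₂
      by_contra hne
      have h1 : c • x • c₂ = x • c₂ := by rw [← mul_smul, hcx, mul_smul, hc₂]
      rcases fix_sub hZ (Ne.symm hne) hc1 hca hc₂ _ h1 with h2 | h2
      · apply hne
        exact smul_left_cancel x (h2.trans hxa.symm)
      · exact hne (invol_fix_unique hZ hab hodd' hx h2 hxa)
  have hHE : ∀ f ∈ (stabilizer G a ⊓ stabilizer G b : Subgroup G), f ∈ H → f = 1 := by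
    intro f hf hfH
    by_contra hf1
    exact hab (hHfix f hfH hf1 b (mem_E.1 hf).2).symm
  -- counting
  set Inv : Finset G := Finset.univ.filter (fun z : G => orderOf z = 2) with hInv
  set T : Finset G := Inv.filter (fun z : G => z • a = a) with hT
  have hpar : Even h := by
    have h1 := Cfsg.Agent.S0882.card_moved hZ hab hodd' hx
    have h2 : (Finset.univ.filter (fun c : Ω => x • c = c)).card +
        (Finset.univ.filter (fun c : Ω => x • c ≠ c)).card = Fintype.card Ω := by
      rw [← Finset.card_univ]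
      exact Finset.card_filter_add_card_filter_not (s := (Finset.univ : Finset Ω))
        (fun c : Ω => x • c = c)
    have h3 : 0 < (Finset.univ.filter (fun c : Ω => x • c = c)).card :=
      Finset.card_pos.2 ⟨a, by simp [hxa]⟩
    rw [Nat.even_iff]
    omega
  have hTcard : T.card = e := by
    have h1 := (Cfsg.Agent.S0882.result hZ hab h e hh he hodd hlt).2
    rw [if_pos hpar, Nat.card_eq_fintype_card, Fintype.card_subtype] at h1
    have h2 := card_invol_moving hZ hab hodd' a
    have h3 : (Inv.filter (fun z : G => z • a = a)).card +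
        (Inv.filter (fun z : G => z • a ≠ a)).card = Inv.card :=
      Finset.card_filter_add_card_filter_not (s := Inv) (fun z : G => z • a = a)
    rw [he, hh] at h2
    have e1 : h + 1 - 1 = h := by omega
    rw [e1] at h2
    have h4 : Inv.card = e * (h + 1) := h1
    have h5 : (Inv.filter (fun z : G => z • a ≠ a)).card = h * e := h2
    rw [h4, h5] at h3
    have h6 : T.card + h * e = e + h * e := by rw [h3]; ring
    exact Nat.add_right_cancel h6
  -- E is transitive on T
  have hEfin : Fintype ↥(stabilizer G a ⊓ stabilizer G b) := Fintype.ofFinite _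
  have himg : (Finset.univ.image
      (fun f : ↥(stabilizer G a ⊓ stabilizer G b) => (f : G) * x * (f : G)⁻¹)) = T := by
    apply Finset.eq_of_subset_of_card_le
    · intro z hz
      rw [Finset.mem_image] at hz
      obtain ⟨f, -, rfl⟩ := hz
      have hfa := (mem_E.1 f.2).1
      simp only [hT, hInv, Finset.mem_filter, Finset.mem_univ, true_and]
      constructor
      · have : (f : G) * x * (f : G)⁻¹ = MulAut.conj (f : G) x := rfl
        rw [this, MulEquiv.orderOf_eq]
        exact hx
      · have hfa' : (f : G)⁻¹ • a = a := by rw [inv_smul_eq_iff, hfa]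
        rw [mul_smul, mul_smul, hfa', hxa, hfa]
    · rw [Finset.card_image_of_injective, Finset.card_univ, hTcard, ← he,
        Nat.card_eq_fintype_card]
      intro f f' hff
      simp only at hff
      have h1 : ((f' : G)⁻¹ * f) * x = x * ((f' : G)⁻¹ * f) := by
        calc ((f' : G)⁻¹ * f) * x = (f' : G)⁻¹ * ((f : G) * x * (f : G)⁻¹) * f := by group
          _ = (f' : G)⁻¹ * ((f' : G) * x * (f' : G)⁻¹) * f := by rw [hff]
          _ = x * ((f' : G)⁻¹ * f) := by group
      have h2 : (f' : G)⁻¹ * f ∈ (stabilizer G a ⊓ stabilizer G b : Subgroup G) :=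
        mul_mem (inv_mem f'.2) f.2
      have h3 := hHE _ h2 (hcent _ (mem_E.1 h2).1 h1)
      apply Subtype.ext
      rw [inv_mul_eq_one] at h3
      exact h3.symm
  -- y centralises x
  have hyH : y ∈ H := hinvH y hy hya
  have hyxT : y * x * y⁻¹ ∈ T := by
    simp only [hT, hInv, Finset.mem_filter, Finset.mem_univ, true_and]
    constructor
    · have : y * x * y⁻¹ = MulAut.conj y x := rfl
      rw [this, MulEquiv.orderOf_eq]
      exact hx
    · rw [hyinv, mul_smul, mul_smul, hya, hxa, hya]
  rw [← himg, Finset.mem_image] at hyxT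
  obtain ⟨f, -, hf⟩ := hyxT
  have h1 : ((f : G)⁻¹ * y) * x = x * ((f : G)⁻¹ * y) := by
    calc ((f : G)⁻¹ * y) * x = (f : G)⁻¹ * (y * x * y⁻¹) * y := by group
      _ = (f : G)⁻¹ * ((f : G) * x * (f : G)⁻¹) * y := by rw [hf]
      _ = x * ((f : G)⁻¹ * y) := by group
  have hfa := (mem_E.1 f.2).1
  have hfa' : (f : G)⁻¹ • a = a := by rw [inv_smul_eq_iff, hfa]
  have h2 : (f : G)⁻¹ * y ∈ H := hcent _ (by rw [mul_smul, hya, hfa']) h1
  have h3 : (f : G) ∈ H := by
    have := H.mul_mem hyH (H.inv_mem h2)
    have e1 : y * ((f : G)⁻¹ * y)⁻¹ = f := by group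
    rwa [e1] at this
  have h4 := hHE _ f.2 h3
  rw [h4] at hf
  have hcomm : y * x = x * y := by
    have : y * x * y⁻¹ = x := by rw [← hf]; group
    rwa [mul_inv_eq_iff_eq_mul] at this
  apply orderOf_eq_prime _ hu1
  rw [sq, ← hxy]
  calc x * y * (x * y) = x * (y * x) * y := by group
    _ = x * (x * y) * y := by rw [hcomm]
    _ = (x * x) * (y * y) := by group
    _ = 1 := by rw [hxx, hyy, one_mul]

end Cfsg.Agent.S0883
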