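import Cfsg.Statements.S0890
import Mathlib
import Cfsg.Agent.Lib.Helper25.MaxInd6

set_option autoImplicit false
open Cfsg

namespace Cfsg.Agent.S0890

open Cfsg.Agent.Lib.Helper25.MaxInd

/-- Let L ≤ H < G with L normal in G, H a maximal subgroup and G / L solvable. Let ϑ be an irreducible character of H whose restriction to L is irreducible and whose induction χ to G is irreducible. Then there is a normal subgroup M of G containing L such that the restriction of χ to M is not a natural-number multiple of a single irreducible character of M. -/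
theorem result {G : Type*} [Group G] [Fintype G] (L H : Subgroup G) [L.Normal] (hLH : L ≤ H) (hmax : IsCoatom H) (hsolv : Group.IsSolvable (G ⧸ L)) (ϑ : H → ℂ) (hϑ : Cfsg.IsIrrCharacter H ϑ) (hϑL : Cfsg.IsIrrCharacter L (fun x : L => ϑ ⟨(x : G), hLH x.2⟩)) (hind : Cfsg.IsIrrCharacter G (Cfsg.indFun H ϑ)) : ∃ M : Subgroup G, M.Normal ∧ L ≤ M ∧ ¬ ∃ (φ : M → ℂ) (e : ℕ), Cfsg.IsIrrCharacter M φ ∧ (fun m : M => Cfsg.indFun H ϑ m) = (e : ℂ) • φ := by
  by_contra hcon
  have hq : ∀ M : Subgroup G, M.Normal → L ≤ M → ∃ (φ : M → ℂ) (e : ℕ),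
      Cfsg.IsIrrCharacter M φ ∧ (fun m : M => Cfsg.indFun H ϑ m) = (e : ℂ) • φ := by
    intro M hM hLM
    by_contra h
    exact hcon ⟨M, hM, hLM, h⟩
  have hLL : L ≤ H.normalCore := (Subgroup.normal_le_normalCore).mpr hLH
  have hsolv' : Group.IsSolvable (G ⧸ H.normalCore) := by
    haveI := hsolv
    refine solvable_of_surjective
      (f := QuotientGroup.map L H.normalCore (MonoidHom.id G) hLL) ?_
    intro x
    obtain ⟨g, rfl⟩ := QuotientGroup.mk_surjective x
    exact ⟨QuotientGroup.mk g, rfl⟩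
  exact main H H.normalCore (Subgroup.normalCore_le H) hmax
    (fun X hX hXH => (Subgroup.normal_le_normalCore).mpr hXH) hsolv' hϑ
    (mid_irr H L hLH hϑ hϑL H.normalCore hLL (Subgroup.normalCore_le H)) hind
    (fun M hM hLM => hq M hM (hLL.trans hLM))

end Cfsg.Agent.S0890
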