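import Cfsg.Statements.S0893
import Cfsg.Agent.Lib.Helper25.Extraspecial

set_option autoImplicit false
open Cfsg
open Cfsg.Agent.Lib.Helper2 Cfsg.Agent.Lib.Helper6 Cfsg.Agent.Lib.Helper24 Cfsg.Agent.Lib.Helper25
open scoped ComplexConjugate

namespace Cfsg.Agent.S0893

/-- Let P be an extraspecial p-group of order p ^ (2 * n + 1), A an abelian subgroup of order p ^ (n + 1), and λ a character of A of degree 1 that is not identically 1 on the elements of A lying in the centre of P. Then the function induced from λ to P is an irreducible character of P and vanishes at every element outside the centre. -/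
theorem result {P : Type*} [Group P] [Fintype P] (p n : ℕ) [Fact p.Prime] (hP : Cfsg.IsExtraspecial p P) (hcard : Nat.card P = p ^ (2 * n + 1)) (A : Subgroup P) (hab : ∀ a ∈ A, ∀ b ∈ A, a * b = b * a) (hA : Nat.card A = p ^ (n + 1)) (lam : A → ℂ) (hlam : Cfsg.IsCharacter A lam ∧ lam 1 = 1) (hZ : ∃ a : A, (a : P) ∈ Subgroup.center P ∧ lam a ≠ 1) : Cfsg.IsIrrCharacter P (Cfsg.indFun A lam) ∧ ∀ x : P, x ∉ Subgroup.center P → Cfsg.indFun A lam x = 0 := by
  classical
  letI := irrFintype P
  haveI : Fintype A := Fintype.ofFinite A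
  have hp : p.Prime := Fact.out
  obtain ⟨f, hf⟩ := (isLinear_iff lam).mp hlam
  have hind := IsCharacter.indFun A hlam.1
  have hidx : A.index = p ^ n := by
    have := Subgroup.card_mul_index A
    rw [hA, hcard, show p ^ (2 * n + 1) = p ^ (n + 1) * p ^ n from by rw [← pow_add]; congr 1; ring] at this
    exact Nat.eq_of_mul_eq_mul_left (pow_pos hp.pos _) this
  have hdeg1 : charDegree lam = 1 := by
    have := charDegree_cast hlam.1
    rw [hlam.2] at this
    exact_mod_cast this
  have hdeg : charDegree (indFun A lam) = p ^ n := by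
    rw [charDegree_indFun A hlam.1, hidx, hdeg1, mul_one]
  have h10 : indFun A lam 1 ≠ 0 := by
    rw [← charDegree_cast hind, hdeg]
    exact_mod_cast (pow_pos hp.pos n).ne'
  obtain ⟨χ, hχ⟩ := exists_constituent hind h10
  have hχ' := hχ
  rw [frobenius_reciprocity A lam _ (irr_isClassFunction χ.2)] at hχ'
  obtain ⟨a, haZ, ha1⟩ := hZ
  have hker : ¬ ∀ z ∈ Subgroup.center P, (χ : P → ℂ) z = (χ : P → ℂ) 1 := by
    intro hker
    apply ha1
    have hmul : ∀ x : A, lam (a * x) = lam a * lam x := by
      intro x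
      rw [hf]
      simp [linCoe]
    have hχmul : ∀ x : A, (χ : P → ℂ) ((a * x : A) : P) = (χ : P → ℂ) x := by
      intro x
      have h1 := central_mul χ.2 haZ (x : P)
      rw [hker a haZ, mul_div_assoc, mul_comm, div_mul_cancel₀ _ (irr_one_ne_zero χ.2)] at h1
      exact h1
    have hsum : ∑ x : A, lam x * conj ((χ : P → ℂ) x) = lam a * ∑ x : A, lam x * conj ((χ : P → ℂ) x) := by
      rw [Finset.mul_sum]
      refine (Fintype.sum_equiv (Equiv.mulLeft a) _ _ fun x => ?_).symm
      change lam a * (lam x * conj ((χ : P → ℂ) x)) = lam (a * x) * conj ((χ : P → ℂ) ((a * x : A) : P))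
      rw [hmul, hχmul]; ring
    have hne : ∑ x : A, lam x * conj ((χ : P → ℂ) x) ≠ 0 := by
      intro h0
      apply hχ'
      rw [classInner, h0, mul_zero]
    have h2 : (lam a - 1) * ∑ x : A, lam x * conj ((χ : P → ℂ) x) = 0 := by
      rw [sub_mul, one_mul, ← hsum, sub_self]
    exact sub_eq_zero.mp ((mul_eq_zero.mp h2).resolve_right hne)
  have heq : indFun A lam = χ := by
    apply eq_of_constituent_of_degree_eq hind χ hχ
    rw [hdeg, Extraspecial.degree_eq hP hcard χ.2 hker]
  rw [heq]
  exact ⟨χ.2, fun x hx => Extraspecial.vanish_off_center hP χ.2 hker x hx⟩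

end Cfsg.Agent.S0893
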