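import Cfsg.Statements.S0894
import Cfsg.Agent.Lib.Helper25.Extraspecial

set_option autoImplicit false
open Cfsg
open Cfsg.Agent.Lib.Helper2 Cfsg.Agent.Lib.Helper6 Cfsg.Agent.Lib.Helper24 Cfsg.Agent.Lib.Helper25

namespace Cfsg.Agent.S0894

/-- Let P be an extraspecial p-group of order p ^ (2 * n + 1). Then every irreducible character of P has degree 1 or p ^ n, and exactly p - 1 of them have degree p ^ n. -/
theorem result {P : Type*} [Group P] [Finite P] (p n : ℕ) [Fact p.Prime] (hP : Cfsg.IsExtraspecial p P) (hcard : Nat.card P = p ^ (2 * n + 1)) : (∀ χ : Cfsg.IrrCharacter P, (χ : P → ℂ) 1 = 1 ∨ (χ : P → ℂ) 1 = (p : ℂ) ^ n) ∧ Nat.card {χ : Cfsg.IrrCharacter P // (χ : P → ℂ) 1 = (p : ℂ) ^ n} = p - 1 := by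
  classical
  letI := irrFintype P
  have hp : p.Prime := Fact.out
  have hdeg : ∀ χ : IrrCharacter P, (¬ ∀ z ∈ Subgroup.center P, (χ : P → ℂ) z = (χ : P → ℂ) 1) →
      (χ : P → ℂ) 1 = (p : ℂ) ^ n := by
    intro χ hker
    rw [← charDegree_cast (IsIrrCharacter.isCharacter χ.2), Extraspecial.degree_eq hP hcard χ.2 hker]
    push_cast; rfl
  constructor
  · intro χ
    by_cases hker : ∀ z ∈ Subgroup.center P, (χ : P → ℂ) z = (χ : P → ℂ) 1
    · exact Or.inl (Extraspecial.degree_one hP χ.2 hker)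
    · exact Or.inr (hdeg χ hker)
  · have hn := Extraspecial.n_ne_zero hP hcard
    have hiff : ∀ χ : IrrCharacter P, (χ : P → ℂ) 1 = (p : ℂ) ^ n ↔
        ¬ ∀ z ∈ Subgroup.center P, (χ : P → ℂ) z = (χ : P → ℂ) 1 := by
      intro χ
      constructor
      · intro h hker
        rw [Extraspecial.degree_one hP χ.2 hker] at h
        have h1 : p ^ n = 1 := by exact_mod_cast h.symm
        have h2 := Nat.one_lt_pow hn hp.one_lt
        omega
      · exact hdeg χ
    rw [Nat.card_congr (Equiv.subtypeEquivRight hiff), Nat.card_eq_fintype_card, Fintype.card_subtype]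
    have h1 := sum_degree_sq_nat (G := P)
    have h2 := sum_degree_sq_normal (G := P) (Subgroup.center P)
    have h3 : ∑ χ : IrrCharacter P, charDegree (χ : P → ℂ) ^ 2
        = (∑ χ : IrrCharacter P, (if ∀ n ∈ Subgroup.center P, (χ : P → ℂ) n = (χ : P → ℂ) 1 then
            charDegree (χ : P → ℂ) ^ 2 else 0))
          + ∑ χ : IrrCharacter P, (if ¬ ∀ n ∈ Subgroup.center P, (χ : P → ℂ) n = (χ : P → ℂ) 1 then
            (p ^ n) ^ 2 else 0) := by
      rw [← Finset.sum_add_distrib]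
      refine Finset.sum_congr rfl fun χ _ => ?_
      by_cases hker : ∀ z ∈ Subgroup.center P, (χ : P → ℂ) z = (χ : P → ℂ) 1
      · rw [if_pos hker, if_neg (not_not.mpr hker), add_zero]
      · rw [if_neg hker, if_pos hker, zero_add, Extraspecial.degree_eq hP hcard χ.2 hker]
    rw [h1, h2, ← Finset.sum_filter, Finset.sum_const, smul_eq_mul, hcard] at h3
    have h4 : (Subgroup.center P).index = p ^ (2 * n) := by
      have := Subgroup.card_mul_index (Subgroup.center P)
      rw [hP.2, hcard, pow_succ, mul_comm] at this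
      exact Nat.eq_of_mul_eq_mul_right hp.pos this
    rw [h4, ← pow_mul, mul_comm n 2, pow_succ] at h3
    have hpos : 0 < p ^ (2 * n) := pow_pos hp.pos _
    obtain ⟨m, hm⟩ : ∃ m, m = (Finset.univ.filter (fun χ : IrrCharacter P =>
      ¬ ∀ n ∈ Subgroup.center P, (χ : P → ℂ) n = (χ : P → ℂ) 1)).card := ⟨_, rfl⟩
    rw [← hm] at h3 ⊢
    have h5 : p ^ (2 * n) * p = p ^ (2 * n) * (1 + m) := by rw [h3]; ring
    have h6 := Nat.eq_of_mul_eq_mul_left hpos h5
    omega

end Cfsg.Agent.S0894
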