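import Cfsg.Statements.S0898
import Cfsg.Agent.Lib.Helper13.FTBound

set_option autoImplicit false
open Cfsg

namespace Cfsg.Agent.S0898

open Cfsg.Agent.Lib.Helper13.FTBound

/-- Let H be an abelian subgroup of the finite group G meeting the centre of G trivially, such that for every non-central g the centralizer of g has nontrivial intersection with at most one conjugate of H. Let χ be an irreducible character of G with χ h ≠ χ 1 for some h in H, and let c be the inner product of the restriction of χ to H with the principal character. Then χ(1)² > (order of H)·c²; and if in addition χ 1 ≠ 1 and no proper normal subgroup of G contains H, then (1 + χ 1)² > order of H (both sides read as real numbers). -/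
theorem result {G : Type*} [Group G] [Fintype G] (H : Subgroup G) [Fintype H] (hab : ∀ a ∈ H, ∀ b ∈ H, a * b = b * a) (hZ : H ⊓ Subgroup.center G = ⊥) (hone : ∀ g : G, g ∉ Subgroup.center G → ∀ a b : G, Subgroup.centralizer ({g} : Set G) ⊓ H.map (MulAut.conj a).toMonoidHom ≠ ⊥ → Subgroup.centralizer ({g} : Set G) ⊓ H.map (MulAut.conj b).toMonoidHom ≠ ⊥ → H.map (MulAut.conj a).toMonoidHom = H.map (MulAut.conj b).toMonoidHom) (χ : G → ℂ) (hχ : Cfsg.IsIrrCharacter G χ) (hker : ∃ h ∈ H, χ h ≠ χ 1) : (χ 1).re ^ 2 > (Nat.card H : ℝ) * (Cfsg.classInner (fun h : H => χ h) (fun _ => 1)).re ^ 2 ∧ (χ 1 ≠ 1 → (∀ M : Subgroup G, M.Normal → H ≤ M → M = ⊤) → (1 + (χ 1).re) ^ 2 > (Nat.card H : ℝ)) := by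
  have hone' : ∀ g : G, g ∉ Subgroup.center G → ∀ a b : G, Meets H g a → Meets H g b →
      a⁻¹ * b ∈ Subgroup.normalizer (H : Set G) := by
    intro g hg a b ha hb
    exact mem_normalizer_of_map_eq H (hone g hg a b ((meets_iff H g a).mp ha)
      ((meets_iff H g b).mp hb))
  have hχc := Cfsg.Agent.Lib.Helper2.IsIrrCharacter.isCharacter hχ
  have hd : χ 1 = (Cfsg.charDegree χ : ℂ) := (Cfsg.Agent.Lib.Helper24.charDegree_cast hχc).symm
  have hre : (χ 1).re = (Cfsg.charDegree χ : ℝ) := by
    rw [hd, Complex.natCast_re]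
  have hnorm : ‖χ 1‖ = (Cfsg.charDegree χ : ℝ) := by
    rw [hd]
    simp
  have hc : Cfsg.classInner (fun h : H => χ h) (fun _ => 1) = mu H χ 1 := by
    unfold mu Cfsg.classInner
    simp only [map_one, mul_one, one_mul]
    congr 1
    refine Finset.sum_congr ?_ fun _ _ => rfl
    ext x
    simp
  constructor
  · have h1 := claim1 H hZ hone' hχ hker
    rw [hc, hre, ← hnorm]
    have h2 : (mu H χ 1).re ^ 2 ≤ ‖mu H χ 1‖ ^ 2 := by
      rw [← sq_abs]
      exact pow_le_pow_left₀ (abs_nonneg _) (Complex.abs_re_le_norm _) 2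
    have h3 : (0 : ℝ) ≤ (Nat.card H : ℝ) := by positivity
    calc (Nat.card H : ℝ) * (mu H χ 1).re ^ 2 ≤ (Nat.card H : ℝ) * ‖mu H χ 1‖ ^ 2 :=
          mul_le_mul_of_nonneg_left h2 h3
      _ < _ := h1
  · intro h1 hM
    rw [hre]
    exact claim2 H hab hZ hone' hχ h1 hM


end Cfsg.Agent.S0898
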