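import Cfsg.Statements.S0900
import Cfsg.Agent.Lib.Helper24.Zeros
import Cfsg.Agent.Lib.Helper2.Clifford
import Cfsg.Agent.S0174
import Cfsg.Agent.S0193

set_option autoImplicit false
open Cfsg
open Cfsg.Agent.Lib.Helper2 Cfsg.Agent.Lib.Helper6 Cfsg.Agent.Lib.Helper24
open scoped ComplexConjugate

namespace Cfsg.Agent.S0900

attribute [local instance] irrFintype

variable {G : Type*} [Group G] [Fintype G] (N : Subgroup G) [hN : N.Normal] [Fintype N]

theorem clifford_inv {χ : G → ℂ} (hχ : IsIrrCharacter G χ) {ϑ : N → ℂ} (hϑ : IsIrrCharacter N ϑ)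
    (hcon : classInner (fun n : N => χ n) ϑ ≠ 0)
    (hinv : ∀ (g : G) (n : N), ϑ ⟨g * n * g⁻¹, hN.conj_mem (n : G) n.2 g⟩ = ϑ n) :
    ∃ e : ℕ, (fun n : N => χ n) = (e : ℂ) • ϑ := by
  have h1 := Cfsg.Agent.S0174.result N hN χ hχ ϑ hϑ hcon
  have h2 : {ψ : N → ℂ | ∃ g : G, ψ = fun n : N => ϑ ⟨g * n * g⁻¹, hN.conj_mem n n.2 g⟩} = {ϑ} := by
    ext ψ
    simp only [Set.mem_setOf_eq, Set.mem_singleton_iff]
    constructor
    · rintro ⟨g, rfl⟩
      ext n
      exact hinv g n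
    · rintro rfl
      exact ⟨1, by ext n; exact (hinv 1 n).symm⟩
  rw [h2, finsum_mem_singleton] at h1
  obtain ⟨e, he⟩ := IsCharacter.classInner_nat (IsCharacter.restrict N (IsIrrCharacter.isCharacter hχ))
    (IsIrrCharacter.isCharacter hϑ)
  exact ⟨e, by rw [← he]; exact h1⟩

theorem sum_N {χ : G → ℂ} {ϑ : N → ℂ} (hϑ : IsIrrCharacter N ϑ) {e : ℕ}
    (he : (fun n : N => χ n) = (e : ℂ) • ϑ) : ∑ n : N, ‖χ n‖ ^ 2 = (e : ℝ) ^ 2 * (Nat.card N : ℝ) := by
  have h1 := sum_norm_sq hϑ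
  rw [← h1, Finset.mul_sum]
  refine Finset.sum_congr rfl fun n _ => ?_
  have := congrFun he n
  simp only [Pi.smul_apply, smul_eq_mul] at this
  rw [this, norm_mul, mul_pow]
  simp

theorem sum_split (χ : G → ℂ) [DecidablePred (· ∈ N)] :
    ∑ g : G, ‖χ g‖ ^ 2 = ∑ n : N, ‖χ n‖ ^ 2 + ∑ g : G, if g ∈ N then 0 else ‖χ g‖ ^ 2 := by
  have h4 : ∑ h : ↥N, ‖χ h‖ ^ 2 = ∑ x : G, if x ∈ N then ‖χ x‖ ^ 2 else 0 := by
    rw [← Finset.sum_filter]
    exact (Finset.sum_subtype (Finset.univ.filter (· ∈ N)) (by simp) (fun x => ‖χ x‖ ^ 2)).symm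
  rw [h4, ← Finset.sum_add_distrib]
  refine Finset.sum_congr rfl fun x _ => ?_
  by_cases hx : x ∈ N <;> simp [hx]

theorem inner_ind_self {ϑ : N → ℂ} (hϑ : IsIrrCharacter N ϑ)
    (hinv : ∀ (g : G) (n : N), ϑ ⟨g * n * g⁻¹, hN.conj_mem (n : G) n.2 g⟩ = ϑ n) :
    classInner (indFun N ϑ) (indFun N ϑ) = (N.index : ℂ) := by
  have h1 := Cfsg.Agent.S0193.result N ϑ hϑ
  have h2 : Nat.card {g : G // ∀ h : N, ϑ ⟨g * h * g⁻¹, hN.conj_mem h h.2 g⟩ = ϑ h} = Nat.card G :=
    Nat.card_congr (Equiv.subtypeUnivEquiv (fun g => hinv g))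
  rw [h2, ← Subgroup.card_mul_index N] at h1
  push_cast at h1
  exact mul_left_cancel₀ (card_subgroup_ne_zero N) h1

theorem inner_ind {χ : G → ℂ} (hχ : IsIrrCharacter G χ) {ϑ : N → ℂ} (hϑ : IsIrrCharacter N ϑ) {e : ℕ}
    (he : (fun n : N => χ n) = (e : ℂ) • ϑ) : classInner (indFun N ϑ) χ = (e : ℂ) := by
  classical
  rw [frobenius_reciprocity N ϑ _ (irr_isClassFunction hχ), he, classInner_smul_right, classInner_irr hϑ hϑ,
    if_pos rfl, mul_one, Complex.conj_natCast]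

theorem parseval {χ : G → ℂ} (hχ : IsIrrCharacter G χ) (ϑ : N → ℂ) :
    classInner (indFun N ϑ) (indFun N ϑ) = classInner (indFun N ϑ) χ * conj (classInner (indFun N ϑ) χ)
      + ∑ ψ ∈ Finset.univ.erase (⟨χ, hχ⟩ : IrrCharacter G),
        classInner (indFun N ϑ) ψ * conj (classInner (indFun N ϑ) ψ) := by
  have hcl := indFun_isClassFunction N ϑ
  rw [classInner_eq_sum_irr hcl hcl, ← Finset.add_sum_erase _ _ (Finset.mem_univ (⟨χ, hχ⟩ : IrrCharacter G))]

/-- Let N be a normal subgroup of the finite group G, χ an irreducible character of G and ϑ an irreducible character of N having nonzero inner product with the restriction of χ. Consider: (a) the restriction of χ to N is e • ϑ for a natural number e with e ^ 2 equal to the index of N; (b) χ vanishes outside N and ϑ is invariant under conjugation by G; (c) ϑ is invariant and every irreducible character of G having nonzero inner product with the function induced from ϑ equals χ. Then (a)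 ↔ (b) and (a) ↔ (c). -/
theorem result {G : Type*} [Group G] [Fintype G] (N : Subgroup G) [hN : N.Normal] [Fintype N] (χ : G → ℂ) (hχ : Cfsg.IsIrrCharacter G χ) (ϑ : N → ℂ) (hϑ : Cfsg.IsIrrCharacter N ϑ) (hcon : Cfsg.classInner (fun n : N => χ n) ϑ ≠ 0) : ((∃ e : ℕ, (fun n : N => χ n) = (e : ℂ) • ϑ ∧ e ^ 2 = N.index) ↔ ((∀ g : G, g ∉ N → χ g = 0) ∧ ∀ (g : G) (n : N), ϑ ⟨g * n * g⁻¹, hN.conj_mem (n : G) n.2 g⟩ = ϑ n)) ∧ ((∃ e : ℕ, (fun n : N => χ n) = (e : ℂ) • ϑ ∧ e ^ 2 = N.index) ↔ (∀ (g : G) (n : N), ϑ ⟨g * n * g⁻¹, hN.conj_mem (n : G) n.2 g⟩ = ϑ n ∧ ∀ ψ : G → ℂ, Cfsg.IsIrrCharacter G ψ → Cfsg.classInner (Cfsg.indFun N ϑ) ψ ≠ 0 → ψ = χ)) := by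
  classical
  have hNpos : (0 : ℝ) < (Nat.card N : ℝ) := by exact_mod_cast Nat.card_pos
  have hcardG : (Nat.card G : ℝ) = (Nat.card N : ℝ) * (N.index : ℝ) := by
    exact_mod_cast (Subgroup.card_mul_index N).symm
  have hAinv : (∃ e : ℕ, (fun n : N => χ n) = (e : ℂ) • ϑ ∧ e ^ 2 = N.index) →
      ∀ (g : G) (n : N), ϑ ⟨g * n * g⁻¹, hN.conj_mem (n : G) n.2 g⟩ = ϑ n := by
    rintro ⟨e, he, he2⟩ g n
    have he0 : (e : ℂ) ≠ 0 := by
      have : e ≠ 0 := by
        rintro rfl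
        have : N.index ≠ 0 := Subgroup.index_ne_zero_of_finite
        apply this; rw [← he2]; norm_num
      exact_mod_cast this
    have h1 := congrFun he n
    have h2 := congrFun he ⟨g * n * g⁻¹, hN.conj_mem (n : G) n.2 g⟩
    simp only [Pi.smul_apply, smul_eq_mul] at h1 h2
    rw [irr_isClassFunction hχ n g, h1] at h2
    exact (mul_left_cancel₀ he0 h2).symm
  constructor
  · constructor
    · intro hA
      refine ⟨?_, hAinv hA⟩
      obtain ⟨e, he, he2⟩ := hA
      have h1 := sum_split N χ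
      rw [sum_norm_sq hχ, sum_N N hϑ he, hcardG] at h1
      have he2' : (e : ℝ) ^ 2 = (N.index : ℝ) := by exact_mod_cast he2
      rw [he2'] at h1
      have h2 : ∑ g : G, (if g ∈ N then 0 else ‖χ g‖ ^ 2) = 0 := by linarith
      intro g hg
      have h3 := (Finset.sum_eq_zero_iff_of_nonneg (fun g _ => by split_ifs <;> positivity)).mp h2 g
        (Finset.mem_univ g)
      rw [if_neg hg] at h3
      simpa using h3
    · rintro ⟨hvan, hinv⟩
      obtain ⟨e, he⟩ := clifford_inv N hχ hϑ hcon hinv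
      refine ⟨e, he, ?_⟩
      have h1 := sum_split N χ
      rw [sum_norm_sq hχ, sum_N N hϑ he, hcardG] at h1
      have h2 : ∑ g : G, (if g ∈ N then 0 else ‖χ g‖ ^ 2) = 0 := by
        apply Finset.sum_eq_zero
        intro g _
        split_ifs with hg
        · rfl
        · rw [hvan g hg]; simp
      rw [h2, add_zero, mul_comm] at h1
      have h3 : (e : ℝ) ^ 2 = (N.index : ℝ) := (mul_right_cancel₀ hNpos.ne' h1).symm
      exact_mod_cast h3
  · constructor
    · intro hA g n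
      have hinv := hAinv hA
      refine ⟨hinv g n, ?_⟩
      obtain ⟨e, he, he2⟩ := hA
      have h1 := parseval N hχ ϑ
      rw [inner_ind_self N hϑ hinv, inner_ind N hχ hϑ he, Complex.conj_natCast] at h1
      have he2' : (e : ℂ) * (e : ℂ) = (N.index : ℂ) := by
        rw [← he2]; push_cast; ring
      rw [he2'] at h1
      have h2 : ∑ ψ ∈ Finset.univ.erase (⟨χ, hχ⟩ : IrrCharacter G),
          classInner (indFun N ϑ) ψ * conj (classInner (indFun N ϑ) ψ) = 0 := by
        linear_combination -h1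
      have h3 := congrArg Complex.re h2
      rw [Complex.re_sum, Complex.zero_re] at h3
      intro ψ hψ hne
      by_contra hψχ
      have h4 := (Finset.sum_eq_zero_iff_of_nonneg (fun ψ _ => by
        rw [Complex.mul_conj]; simp [Complex.normSq_nonneg])).mp h3 ⟨ψ, hψ⟩
        (Finset.mem_erase.mpr ⟨fun h => hψχ (congrArg Subtype.val h), Finset.mem_univ _⟩)
      rw [Complex.mul_conj] at h4
      simp only [Complex.ofReal_re, Complex.normSq_eq_zero] at h4
      exact hne h4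
    · intro hC
      have hinv : ∀ (g : G) (n : N), ϑ ⟨g * n * g⁻¹, hN.conj_mem (n : G) n.2 g⟩ = ϑ n := fun g n => (hC g n).1
      have huniq := (hC 1 1).2
      obtain ⟨e, he⟩ := clifford_inv N hχ hϑ hcon hinv
      refine ⟨e, he, ?_⟩
      have h1 := parseval N hχ ϑ
      rw [inner_ind_self N hϑ hinv, inner_ind N hχ hϑ he, Complex.conj_natCast] at h1
      have h2 : ∑ ψ ∈ Finset.univ.erase (⟨χ, hχ⟩ : IrrCharacter G),
          classInner (indFun N ϑ) ψ * conj (classInner (indFun N ϑ) ψ) = 0 := by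
        apply Finset.sum_eq_zero
        intro ψ hψ
        have : classInner (indFun N ϑ) ψ = 0 := by
          by_contra hne
          exact (Finset.mem_erase.mp hψ).1 (Subtype.ext (huniq ψ ψ.2 hne))
        rw [this, zero_mul]
      rw [h2, add_zero] at h1
      have h3 : ((e ^ 2 : ℕ) : ℂ) = (N.index : ℂ) := by rw [h1]; push_cast; ring
      exact_mod_cast h3

end Cfsg.Agent.S0900
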