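import Cfsg.Statements.S0901
import Mathlib
import Cfsg.Agent.Lib.Helper6.LocalRing

set_option autoImplicit false
open Cfsg

namespace Cfsg.Agent.S0901

open Cfsg.Agent.Lib.Helper6

theorem not_mem_natCast {p : ℕ} {M : Ideal Cfsg.AlgInt} (hM : Cfsg.IsPModular p M) {m : ℕ}
    (hm : ¬ p ∣ m) : (m : AlgInt) ∉ M := by
  haveI := IsPModular.isPrime hM
  intro h
  apply hm
  rw [← memLocalIdeal_natCast_iff hM]
  have := memLocalIdeal_coe h
  simpa using this

theorem part1 {p : ℕ} (hp : p.Prime) {M : Ideal Cfsg.AlgInt} (hM : Cfsg.IsPModular p M)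
    (ε₁ ε₂ : AlgInt) {m : ℕ} (hm : ¬ p ∣ m) (h₁ : ε₁ ^ m = 1) (h₂ : ε₂ ^ m = 1)
    (h : ε₁ - ε₂ ∈ M) : ε₁ = ε₂ := by
  haveI := IsPModular.isPrime hM
  have hm0 : m ≠ 0 := by rintro rfl; exact hm (dvd_zero p)
  by_contra hne
  obtain ⟨k, rfl⟩ := Nat.exists_eq_succ_of_ne_zero hm0
  set ζ := ε₂ * ε₁ ^ k with hζ
  have hu : ε₁ ^ k * ε₁ = 1 := by rw [← pow_succ]; exact h₁
  have hζm : ζ ^ (k + 1) = 1 := by
    rw [hζ, mul_pow, h₂, one_mul, ← pow_mul, mul_comm, pow_mul, h₁, one_pow]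
  have h1 : ζ - 1 ∈ M := by
    have : ζ - 1 = -(ε₁ ^ k) * (ε₁ - ε₂) := by
      rw [hζ]; linear_combination hu
    rw [this]
    exact M.mul_mem_left _ h
  have hζ1 : ζ ≠ 1 := by
    intro h'
    apply hne
    have : ε₂ * (ε₁ ^ k * ε₁) = ε₁ := by rw [← mul_assoc, ← hζ, h', one_mul]
    rw [hu, mul_one] at this
    exact this.symm
  have hgeom : ∑ i ∈ Finset.range (k + 1), ζ ^ i = 0 := by
    have := mul_geom_sum ζ (k + 1)
    rw [hζm, sub_self] at this
    exact (mul_eq_zero.mp this).resolve_left (sub_ne_zero.mpr hζ1)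
  apply not_mem_natCast hM hm
  rw [← Ideal.Quotient.eq_zero_iff_mem]
  have h2 : Ideal.Quotient.mk M ζ = 1 := by
    rw [← map_one (Ideal.Quotient.mk M), Ideal.Quotient.eq]
    exact h1
  have h3 := congrArg (Ideal.Quotient.mk M) hgeom
  rw [map_sum, map_zero] at h3
  simp only [map_pow, h2, one_pow, Finset.sum_const, Finset.card_range, nsmul_eq_mul, mul_one] at h3
  rw [map_natCast]
  exact h3

theorem exists_pow_sub_one_mem {p : ℕ} [hp : Fact p.Prime] {M : Ideal Cfsg.AlgInt}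
    (hM : Cfsg.IsPModular p M) (a : AlgInt) (ha : a ∉ M) :
    ∃ n : ℕ, ¬ p ∣ n ∧ a ^ n - 1 ∈ M := by
  classical
  haveI := hM.2.1
  letI := Ideal.Quotient.field M
  haveI : CharP (AlgInt ⧸ M) p := by
    rw [CharP.charP_iff_prime_eq_zero hp.out, ← map_natCast (Ideal.Quotient.mk M)]
    exact Ideal.Quotient.eq_zero_iff_mem.mpr hM.2.2
  letI : Algebra (ZMod p) (AlgInt ⧸ M) := ZMod.algebra _ p
  set ab : AlgInt ⧸ M := Ideal.Quotient.mk M a with hab
  have h1 : IsIntegral ℤ a := Algebra.IsIntegral.isIntegral a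
  have h2 : IsIntegral ℤ ab := h1.map (Ideal.Quotient.mkₐ ℤ M)
  have h3 : IsIntegral (ZMod p) ab := h2.tower_top
  haveI : FiniteDimensional (ZMod p) (IntermediateField.adjoin (ZMod p) {ab}) :=
    IntermediateField.adjoin.finiteDimensional h3
  haveI : Finite (IntermediateField.adjoin (ZMod p) {ab}) := Module.finite_of_finite (ZMod p)
  letI := Fintype.ofFinite (IntermediateField.adjoin (ZMod p) {ab})
  set x := IntermediateField.AdjoinSimple.gen (ZMod p) ab with hx
  have hxc : (x : AlgInt ⧸ M) = ab := IntermediateField.AdjoinSimple.coe_gen (ZMod p) ab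
  have hx0 : x ≠ 0 := by
    intro h
    apply ha
    rw [← Ideal.Quotient.eq_zero_iff_mem, ← hab, ← hxc, h]
    rfl
  have h4 := FiniteField.pow_card_sub_one_eq_one x hx0
  have h5 : Fintype.card (IntermediateField.adjoin (ZMod p) {ab}) =
      p ^ Module.finrank (ZMod p) (IntermediateField.adjoin (ZMod p) {ab}) := by
    rw [Module.card_eq_pow_finrank (K := ZMod p), ZMod.card]
  have h6 : 0 < Module.finrank (ZMod p) (IntermediateField.adjoin (ZMod p) {ab}) :=
    Module.finrank_pos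
  refine ⟨Fintype.card (IntermediateField.adjoin (ZMod p) {ab}) - 1, ?_, ?_⟩
  · intro hd
    have h7 : p ∣ Fintype.card (IntermediateField.adjoin (ZMod p) {ab}) := by
      rw [h5]; exact dvd_pow_self p h6.ne'
    have h8 : 1 ≤ Fintype.card (IntermediateField.adjoin (ZMod p) {ab}) := Fintype.card_pos
    have h9 : p ∣ 1 := by
      have := (Nat.dvd_sub h7 hd)
      rwa [Nat.sub_sub_self h8] at this
    exact hp.out.one_lt.ne' (Nat.dvd_one.mp h9)
  · rw [← Ideal.Quotient.eq_zero_iff_mem, map_sub, map_pow, map_one, sub_eq_zero]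
    have := congrArg (fun y : IntermediateField.adjoin (ZMod p) {ab} => (y : AlgInt ⧸ M)) h4
    simp only [SubmonoidClass.coe_pow, hxc, OneMemClass.coe_one] at this
    exact this

/-- Let M be a maximal ideal of the ring of algebraic integers containing the prime p, and let U be the set of complex roots of unity of order prime to p. Then reduction modulo M is injective on U, and every algebraic integer not in M is congruent modulo M to an element of U (so U maps bijectively onto the nonzero residues). -/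
theorem result (p : ℕ) [Fact p.Prime] (M : Ideal Cfsg.AlgInt) (hM : Cfsg.IsPModular p M) : (∀ ε₁ ε₂ : Cfsg.AlgInt, (∃ m : ℕ, ¬ p ∣ m ∧ (ε₁ : ℂ) ^ m = 1) → (∃ m : ℕ, ¬ p ∣ m ∧ (ε₂ : ℂ) ^ m = 1) → ε₁ - ε₂ ∈ M → ε₁ = ε₂) ∧ (∀ a : Cfsg.AlgInt, a ∉ M → ∃ ε : Cfsg.AlgInt, (∃ m : ℕ, ¬ p ∣ m ∧ (ε : ℂ) ^ m = 1) ∧ a - ε ∈ M) := by
  classical
  have hpp : p.Prime := Fact.out
  haveI := IsPModular.isPrime hM
  constructor
  · rintro ε₁ ε₂ ⟨m₁, hm₁, h₁⟩ ⟨m₂, hm₂, h₂⟩ h
    refine part1 hpp hM ε₁ ε₂ (m := m₁ * m₂) (hpp.not_dvd_mul hm₁ hm₂) ?_ ?_ h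
    · apply Subtype.ext
      push_cast
      rw [pow_mul, h₁, one_pow]
    · apply Subtype.ext
      push_cast
      rw [mul_comm, pow_mul, h₂, one_pow]
  · intro a ha
    obtain ⟨n, hn, han⟩ := exists_pow_sub_one_mem hM a ha
    have hn0 : 0 < n := Nat.pos_of_ne_zero (by rintro rfl; exact hn (dvd_zero p))
    have hprim := Complex.isPrimitiveRoot_exp n hn0.ne'
    have hfac := congrArg (Polynomial.eval (a : ℂ)) (Polynomial.X_pow_sub_one_eq_prod hn0 hprim)
    rw [Polynomial.eval_prod] at hfac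
    simp only [Polynomial.eval_sub, Polynomial.eval_pow, Polynomial.eval_X, Polynomial.eval_one,
      Polynomial.eval_C] at hfac
    let g : ℂ → AlgInt := fun z => if h : IsIntegral ℤ z then ⟨z, h⟩ else 0
    have hg : ∀ z ∈ Polynomial.nthRootsFinset n (1 : ℂ), ((g z : AlgInt) : ℂ) = z := by
      intro z hz
      have hz' : z ^ n = 1 := (Polynomial.mem_nthRootsFinset hn0 1).mp hz
      have hi : IsIntegral ℤ z := IsIntegral.of_pow hn0 (by rw [hz']; exact isIntegral_one)
      simp only [g, dif_pos hi]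
    have hprod : a ^ n - 1 = ∏ z ∈ Polynomial.nthRootsFinset n (1 : ℂ), (a - g z) := by
      apply Subtype.ext
      push_cast
      rw [hfac]
      exact Finset.prod_congr rfl fun z hz => by rw [hg z hz]
    rw [hprod] at han
    obtain ⟨z, hz, hzM⟩ := (Ideal.IsPrime.prod_mem_iff (hp := inferInstance)).mp han
    refine ⟨g z, ⟨n, hn, ?_⟩, hzM⟩
    rw [hg z hz]
    exact (Polynomial.mem_nthRootsFinset hn0 1).mp hz

end Cfsg.Agent.S0901
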