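import Cfsg.Statements.S0902
import Mathlib
import Cfsg.Agent.S0952
import Cfsg.Agent.S4426
import Cfsg.Agent.Lib.Helper6.BlockBase
import Cfsg.Agent.Lib.Helper6.CharCentral

set_option autoImplicit false
open Cfsg

namespace Cfsg.Agent.S0902

open Cfsg.Agent.Lib.Helper2 Cfsg.Agent.Lib.Helper6
open scoped ComplexConjugate

/-- If two irreducible characters of a finite group lie in the same block relative to one maximal ideal M of the algebraic integers containing the prime p, then at every element the difference of their central characters is an algebraic integer lying in every maximal ideal containing p; in particular they lie in the same block relative to any such ideal. -/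
theorem result {G : Type*} [Group G] [Finite G] (p : ℕ) [Fact p.Prime] (M : Ideal Cfsg.AlgInt) (hM : Cfsg.IsPModular p M) (χ ψ : Cfsg.IrrCharacter G) (h : Cfsg.SameBlock M (χ : G → ℂ) (ψ : G → ℂ)) (M' : Ideal Cfsg.AlgInt) (hM' : Cfsg.IsPModular p M') (g : G) : ∃ r : Cfsg.AlgInt, r ∈ M' ∧ (r : ℂ) = Cfsg.centralChar (χ : G → ℂ) g - Cfsg.centralChar (ψ : G → ℂ) g := by
  classical
  letI := Fintype.ofFinite G
  have hpp : p.Prime := Fact.out
  haveI := IsPModular.isPrime hM
  haveI := IsPModular.isPrime hM'
  set B : Set (IrrCharacter G) := blockOf M (χ : G → ℂ) with hBdef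
  have hB : IsPBlock M B := ⟨χ, rfl⟩
  have hχB : χ ∈ B := SameBlock.refl (M := M) _
  have hψB : ψ ∈ B := h
  -- a character of height zero
  set S := (fun ξ : IrrCharacter G => (charDegree (ξ : G → ℂ)).factorization p) '' B with hS
  have hSne : S.Nonempty := ⟨_, χ, hχB, rfl⟩
  obtain ⟨χ₀, hχ₀B, hχ₀⟩ := Nat.sInf_mem hSne
  have hh : blockHeight p B (χ₀ : G → ℂ) = 0 := by
    rw [blockHeight, ← hS, ← hχ₀]
    simp
  have hall := ((Cfsg.Agent.S4426.result p M hM B hB χ₀ hχ₀B).2).mp hh
  have key : ∀ ξ ∈ B, SameBlock M' (χ₀ : G → ℂ) (ξ : G → ℂ) := by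
    intro ξ hξ
    by_contra hcon
    obtain ⟨n, hn, hn0, -⟩ := hall ξ hξ
    have h0 := Cfsg.Agent.S0952.result p M' hM' χ₀ ξ hcon
    apply hn0
    have : (n : ℂ) = 0 := by
      rw [← hn, classInner]
      rw [finsum_mem_eq_finite_toFinset_sum _ (Set.toFinite _)] at h0
      have e : ∑ x : G, (if p ∣ orderOf x then (0 : ℂ) else
          ((p ^ (Nat.card G).factorization p : ℕ) : ℂ) * (χ₀ : G → ℂ) x) * conj ((ξ : G → ℂ) x)
          = ((p ^ (Nat.card G).factorization p : ℕ) : ℂ) *
            ∑ x ∈ (Set.toFinite {x : G | ¬ p ∣ orderOf x}).toFinset,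
              (χ₀ : G → ℂ) x * conj ((ξ : G → ℂ) x) := by
        rw [Finset.mul_sum, ← Finset.sum_subset (Finset.subset_univ _)]
        · refine Finset.sum_congr rfl fun x hx => ?_
          have hx' : ¬ p ∣ orderOf x := by simpa using hx
          rw [if_neg hx']
          ring
        · intro x _ hx
          have hx' : p ∣ orderOf x := by simpa using hx
          rw [if_pos hx', zero_mul]
      rw [e, h0, mul_zero, mul_zero]
    exact_mod_cast this
  have hs : SameBlock M' (χ : G → ℂ) (ψ : G → ℂ) := SameBlock.trans (SameBlock.symm (key χ hχB)) (key ψ hψB)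
  have hint : IsIntegral ℤ (centralChar (χ : G → ℂ) g - centralChar (ψ : G → ℂ) g) :=
    (centralChar_isIntegral χ.2 g).sub (centralChar_isIntegral ψ.2 g)
  refine ⟨⟨_, hint⟩, ?_, rfl⟩
  rw [← memLocalIdeal_coe_iff (M := M')]
  exact hs g

end Cfsg.Agent.S0902
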