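import Mathlib
import Cfsg.Statements.S0903

set_option autoImplicit false
open Cfsg

namespace Cfsg.Agent.S0903

/-- Let P be a p-subgroup of the finite group G, let c centralize P and let g, h ∈ G. The number of pairs (x, y) with x conjugate to g, y conjugate to h and x * y = c is congruent modulo p to the number of such pairs in which x and y both centralize P. (This is why the Brauer map on class sums is multiplicative.) -/
theorem result {G : Type*} [Group G] [Finite G] (p : ℕ) [Fact p.Prime] (P : Subgroup G) (hP : IsPGroup p P) (c : G) (hc : c ∈ Subgroup.centralizer (P : Set G)) (g h : G) : Nat.card {xy : G × G // IsConj g xy.1 ∧ IsConj h xy.2 ∧ xy.1 * xy.2 = c} ≡ Nat.card {xy : G × G // IsConj g xy.1 ∧ IsConj h xy.2 ∧ xy.1 * xy.2 = c ∧ xy.1 ∈ Subgroup.centralizer (P : Set G) ∧ xy.2 ∈ Subgroup.centralizer (P : Set G)} [MOD p] := by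
  have hconj : ∀ (a u v : G), IsConj u v → IsConj u (a * v * a⁻¹) := by
    intro a u v huv
    exact huv.trans (isConj_iff.mpr ⟨a, rfl⟩)
  letI act : MulAction P {xy : G × G // IsConj g xy.1 ∧ IsConj h xy.2 ∧ xy.1 * xy.2 = c} :=
    { smul := fun a xy => ⟨((a : G) * xy.1.1 * (a : G)⁻¹, (a : G) * xy.1.2 * (a : G)⁻¹),
        hconj _ _ _ xy.2.1, hconj _ _ _ xy.2.2.1, by
          have h1 : xy.1.1 * xy.1.2 = c := xy.2.2.2
          have h2 : (a : G) * c = c * a := (Subgroup.mem_centralizer_iff.mp hc a a.2)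
          calc (a : G) * xy.1.1 * (a : G)⁻¹ * ((a : G) * xy.1.2 * (a : G)⁻¹)
              = (a : G) * (xy.1.1 * xy.1.2) * (a : G)⁻¹ := by group
            _ = c := by rw [h1, h2]; group⟩
      one_smul := by
        intro xy
        apply Subtype.ext
        apply Prod.ext
        · change ((1 : P) : G) * xy.1.1 * ((1 : P) : G)⁻¹ = xy.1.1
          simp
        · change ((1 : P) : G) * xy.1.2 * ((1 : P) : G)⁻¹ = xy.1.2
          simp
      mul_smul := by
        intro a b xy
        apply Subtype.ext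
        apply Prod.ext
        · change ((a * b : P) : G) * xy.1.1 * ((a * b : P) : G)⁻¹ = (a : G) * ((b : G) * xy.1.1 * (b : G)⁻¹) * (a : G)⁻¹
          simp [mul_assoc]
        · change ((a * b : P) : G) * xy.1.2 * ((a * b : P) : G)⁻¹ = (a : G) * ((b : G) * xy.1.2 * (b : G)⁻¹) * (a : G)⁻¹
          simp [mul_assoc] }
  have key := hP.card_modEq_card_fixedPoints {xy : G × G // IsConj g xy.1 ∧ IsConj h xy.2 ∧ xy.1 * xy.2 = c}
  refine key.trans ?_
  have : Nat.card (MulAction.fixedPoints P {xy : G × G // IsConj g xy.1 ∧ IsConj h xy.2 ∧ xy.1 * xy.2 = c}) = Nat.card {xy : G × G // IsConj g xy.1 ∧ IsConj h xy.2 ∧ xy.1 * xy.2 = c ∧ xy.1 ∈ Subgroup.centralizer (P : Set G) ∧ xy.2 ∈ Subgroup.centralizer (P : Set G)} := by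
    apply Nat.card_congr
    refine
      { toFun := fun z => ⟨z.1.1, z.1.2.1, z.1.2.2.1, z.1.2.2.2, ?_, ?_⟩
        invFun := fun z => ⟨⟨z.1, z.2.1, z.2.2.1, z.2.2.2.1⟩, ?_⟩
        left_inv := fun z => rfl
        right_inv := fun z => rfl }
    · rw [Subgroup.mem_centralizer_iff]
      intro a ha
      have h1 := z.2 ⟨a, ha⟩
      have h2 : a * z.1.1.1 * a⁻¹ = z.1.1.1 := congrArg (fun w => w.1.1) h1
      calc a * z.1.1.1 = a * z.1.1.1 * a⁻¹ * a := by group
        _ = z.1.1.1 * a := by rw [h2]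
    · rw [Subgroup.mem_centralizer_iff]
      intro a ha
      have h1 := z.2 ⟨a, ha⟩
      have h2 : a * z.1.1.2 * a⁻¹ = z.1.1.2 := congrArg (fun w => w.1.2) h1
      calc a * z.1.1.2 = a * z.1.1.2 * a⁻¹ * a := by group
        _ = z.1.1.2 * a := by rw [h2]
    · intro a
      apply Subtype.ext
      apply Prod.ext
      · change (a : G) * z.1.1 * (a : G)⁻¹ = z.1.1
        have := Subgroup.mem_centralizer_iff.mp z.2.2.2.2.1 a a.2
        rw [this]; group
      · change (a : G) * z.1.2 * (a : G)⁻¹ = z.1.2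
        have := Subgroup.mem_centralizer_iff.mp z.2.2.2.2.2 a a.2
        rw [this]; group
  rw [this]

end Cfsg.Agent.S0903
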