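import Mathlib
import Cfsg.Statements.S0905
import Cfsg.Agent.Lib.Helper6.NilClass2
import Cfsg.Agent.Lib.Helper12.Cores

set_option autoImplicit false
open Cfsg
open Cfsg.Agent.Lib.Helper6 Cfsg.Agent.Lib.Helper2
open scoped ComplexConjugate Classical

attribute [local instance] irrFintype

namespace Cfsg.Agent.S0905

/-- Let F be a field of characteristic p and let g be an element of the finite group G no conjugate of which centralizes O_p(G). Then the class sum of g is a nilpotent element of the group algebra F[G]. -/
theorem result {G : Type*} [Group G] [Finite G] (p : ℕ) [Fact p.Prime] (F : Type*) [Field F] [CharP F p] (g : G) (hg : ∀ x : G, IsConj g x → x ∉ Subgroup.centralizer (Cfsg.pCore p G : Set G)) : IsNilpotent (∑ᶠ x ∈ ConjClasses.carrier (ConjClasses.mk g), MonoidAlgebra.single x (1 : F) : MonoidAlgebra F G) := by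
  let _ := Fintype.ofFinite G
  have hn := Cfsg.Agent.Lib.Helper12.pCore_normal p G
  let K : Finset G := Finset.univ.filter fun x => IsConj g x
  have hK : ∀ x ∈ K, ∀ v : G, v * x * v⁻¹ ∈ K := by
    intro x hx v
    simp only [K, Finset.mem_filter, Finset.mem_univ, true_and] at hx ⊢
    exact hx.trans (isConj_iff.mpr ⟨v, rfl⟩)
  have hKP : ∀ x ∈ K, x ∉ Subgroup.centralizer (pCore p G : Set G) := by
    intro x hx
    simp only [K, Finset.mem_filter, Finset.mem_univ, true_and] at hx
    exact hg x hx
  have hnil := isNilpotent_classSum_zmod p (pCore p G)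
    (Cfsg.Agent.Lib.Helper12.pCore_isPGroup p G) K hK hKP
  have h1 := hnil.map (MonoidAlgebra.mapRingHom G (ZMod.castHom (dvd_refl p) F))
  have h2 : (∑ᶠ x ∈ ConjClasses.carrier (ConjClasses.mk g), MonoidAlgebra.single x (1 : F) :
      MonoidAlgebra F G) = ∑ x ∈ K, MonoidAlgebra.single x (1 : F) := by
    have : ConjClasses.carrier (ConjClasses.mk g) = (K : Set G) := by
      ext x
      rw [ConjClasses.mem_carrier_iff_mk_eq, ConjClasses.mk_eq_mk_iff_isConj]
      simp only [K, Finset.coe_filter, Finset.mem_univ, true_and, Set.mem_setOf_eq]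
      exact ⟨fun h => h.symm, fun h => h.symm⟩
    rw [this, finsum_mem_coe_finset]
  rw [h2]
  convert h1 using 1
  rw [map_sum]
  refine Finset.sum_congr rfl fun x _ => ?_
  simp [MonoidAlgebra.of_apply]

end Cfsg.Agent.S0905
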