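import Mathlib
import Cfsg.Statements.S0910
import Cfsg.Agent.Lib.Helper6.BlockBase
import Cfsg.Agent.Lib.Helper24.BurnsideCoprime
import Cfsg.Agent.Lib.Helper24.CharInt

set_option autoImplicit false
open Cfsg
open Cfsg.Agent.Lib.Helper6 Cfsg.Agent.Lib.Helper2
open scoped ComplexConjugate Classical

attribute [local instance] irrFintype

namespace Cfsg.Agent.S0910

/-- Let G be a non-abelian finite simple group and p a prime. If an irreducible character χ lies in the principal block (relative to a maximal ideal of the algebraic integers containing p) and χ 1 is a power of p, then χ is the principal character. -/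
theorem result {G : Type*} [Group G] [Finite G] (p : ℕ) [Fact p.Prime] (M : Ideal Cfsg.AlgInt) (hM : Cfsg.IsPModular p M) [IsSimpleGroup G] (hna : ∃ a b : G, a * b ≠ b * a) (χ : Cfsg.IrrCharacter G) (hχ : χ ∈ Cfsg.principalBlock M G) (k : ℕ) (hdeg : (χ : G → ℂ) 1 = (p : ℂ) ^ k) : (χ : G → ℂ) = fun _ => 1 := by
  let _ := Fintype.ofFinite G
  have hp : p.Prime := hM.1
  have := IsPModular.isPrime hM
  have hc := IsIrrCharacter.isCharacter χ.2
  have hdegN : charDegree (χ : G → ℂ) = p ^ k := by
    have h1 := Cfsg.Agent.Lib.Helper24.charDegree_cast hc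
    rw [hdeg] at h1
    exact_mod_cast h1
  by_contra hne
  -- the kernel is trivial
  have hkn := Cfsg.Agent.Lib.Helper24.kerOf_normal hc
  have hfaith : ∀ g : G, (χ : G → ℂ) g = (χ : G → ℂ) 1 → g = 1 := by
    rcases hkn.eq_bot_or_eq_top with h | h
    · intro g hg
      have : g ∈ Cfsg.Agent.Lib.Helper24.kerOf hc := (Cfsg.Agent.Lib.Helper24.mem_kerOf hc g).mpr hg
      rw [h] at this
      exact Subgroup.mem_bot.mp this
    · exfalso
      have hconst : ∀ g : G, (χ : G → ℂ) g = (χ : G → ℂ) 1 := by
        intro g
        apply (Cfsg.Agent.Lib.Helper24.mem_kerOf hc g).mp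
        rw [h]; exact Subgroup.mem_top g
      have h1 := Cfsg.Agent.Lib.Helper24.sum_mul_conj_self χ.2
      simp only [hconst, hdeg, Finset.sum_const, Finset.card_univ, nsmul_eq_mul, map_pow,
        map_natCast] at h1
      rw [← Nat.card_eq_fintype_card] at h1
      have hG0 : (Nat.card G : ℂ) ≠ 0 := by exact_mod_cast (Nat.card_pos (α := G)).ne'
      have h2 : ((p : ℂ) ^ k) * ((p : ℂ) ^ k) = 1 := by
        apply mul_left_cancel₀ hG0
        rw [mul_one]; exact h1
      have h3 : p ^ k * p ^ k = 1 := by exact_mod_cast h2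
      have h4 : p ^ k = 1 := Nat.eq_one_of_mul_eq_one_right h3
      apply hne
      funext g
      rw [hconst g, hdeg]
      exact_mod_cast h4
  have hcenter : ∀ g : G, g ∈ Subgroup.center G → g = 1 := by
    rcases (inferInstance : (Subgroup.center G).Normal).eq_bot_or_eq_top with h | h
    · intro g hg
      rw [h] at hg
      exact Subgroup.mem_bot.mp hg
    · exfalso
      obtain ⟨a, b, hab⟩ := hna
      apply hab
      have : a ∈ Subgroup.center G := by rw [h]; exact Subgroup.mem_top a
      exact (Subgroup.mem_center_iff.mp this b).symm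
  have hkey : ∀ g : G, g ≠ 1 → p ∣ (Subgroup.centralizer ({g} : Set G)).index := by
    intro g hg1
    by_contra hnd
    have hcop : Nat.Coprime (charDegree (χ : G → ℂ)) (Subgroup.centralizer ({g} : Set G)).index := by
      rw [hdegN]
      exact Nat.Coprime.pow_left k ((Nat.Prime.coprime_iff_not_dvd hp).mpr hnd)
    rcases Cfsg.Agent.Lib.Helper24.zero_or_norm_of_coprime χ.2 g hcop with h0 | h0
    · have h1 : SameBlock M (fun _ : G => (1 : ℂ)) (χ : G → ℂ) := hχ
      have h2 := h1 g
      unfold centralChar at h2
      rw [h0] at h2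
      simp only [mul_zero, zero_div, sub_zero, mul_one, div_one] at h2
      exact hnd ((memLocalIdeal_natCast_iff hM _).mp h2)
    · exact hg1 (hcenter g (Cfsg.Agent.Lib.Helper24.mem_center_of_norm_eq hc hfaith h0))
  by_cases hpG : p ∣ Nat.card G
  · obtain ⟨P⟩ : Nonempty (Sylow p G) := inferInstance
    have hPnt : Nontrivial (P : Subgroup G) := by
      rw [← Finite.one_lt_card_iff_nontrivial, P.card_eq_multiplicity]
      apply Nat.one_lt_pow _ hp.one_lt
      have := (Nat.Prime.dvd_iff_one_le_factorization hp (Nat.card_pos).ne').mp hpG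
      omega
    have hZ := IsPGroup.center_nontrivial P.isPGroup'
    obtain ⟨x, hx⟩ := exists_ne (1 : Subgroup.center (P : Subgroup G))
    have hx1 : ((x : (P : Subgroup G)) : G) ≠ 1 := by
      intro h
      apply hx
      apply Subtype.ext
      apply Subtype.ext
      exact h
    have hle : (P : Subgroup G) ≤ Subgroup.centralizer ({((x : (P : Subgroup G)) : G)} : Set G) := by
      intro y hy
      rw [Subgroup.mem_centralizer_singleton_iff]
      have := Subgroup.mem_center_iff.mp x.2 ⟨y, hy⟩
      exact congrArg Subtype.val this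
    exact P.not_dvd_index ((hkey _ hx1).trans (Subgroup.index_dvd_of_le hle))
  · obtain ⟨a, b, hab⟩ := hna
    have ha1 : a ≠ 1 := by
      intro h; apply hab; rw [h]; simp
    exact hpG ((hkey a ha1).trans (Subgroup.index_dvd_card _))

end Cfsg.Agent.S0910
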