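import Mathlib
import Cfsg.Statements.S0912
import Cfsg.Agent.Lib.Helper6.NilClass2
import Cfsg.Agent.Lib.Helper6.Defect
import Cfsg.Agent.Lib.Helper12.Cores

set_option autoImplicit false
open Cfsg
open Cfsg.Agent.Lib.Helper6 Cfsg.Agent.Lib.Helper2
open scoped ComplexConjugate Classical

attribute [local instance] irrFintype

namespace Cfsg.Agent.S0912

/-- Let B be a block of the finite group G relative to a maximal ideal M of the algebraic integers containing the prime p. Every defect group of B contains the largest normal p-subgroup O_p(G). -/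
theorem result {G : Type*} [Group G] [Finite G] (p : ℕ) [Fact p.Prime] (M : Ideal Cfsg.AlgInt) (hM : Cfsg.IsPModular p M) (B : Set (Cfsg.IrrCharacter G)) (hB : Cfsg.IsPBlock M B) (D : Subgroup G) (hD : Cfsg.IsDefectGroup p M B D) : Cfsg.pCore p G ≤ D := by
  let _ := Fintype.ofFinite G
  have := IsPModular.isPrime hM
  have hn := Cfsg.Agent.Lib.Helper12.pCore_normal p G
  have hPp := Cfsg.Agent.Lib.Helper12.pCore_isPGroup p G
  obtain ⟨g, hg, hDg⟩ := isDefectGroup_iff.mp hD
  obtain ⟨χ, hχ⟩ := IsPBlock.nonempty hB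
  have hgc : g ∈ Subgroup.centralizer (pCore p G : Set G) := by
    by_contra hcon
    exact (isDefectClass_iff.mp hg).2.2 χ hχ
      (centralChar_memLocalIdeal_of_not_mem_centralizer hM (pCore p G) hPp hcon χ.2)
  have hle : pCore p G ≤ cen g := le_cen_iff.mpr hgc
  obtain ⟨D', hD', hPD'⟩ := exists_isSylIn_ge hPp hle
  obtain ⟨c, -, rfl⟩ := isSylIn_exists_conj hD' hDg
  intro x hx
  rw [mem_cj]
  apply hPD'
  have := hn.conj_mem x hx c⁻¹
  simpa using this

end Cfsg.Agent.S0912
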