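import Mathlib
import Cfsg.Statements.S0920
import Cfsg.Agent.Lib.Helper6.FirstMain2

set_option autoImplicit false
open Cfsg
open Cfsg.Agent.Lib.Helper6 Cfsg.Agent.Lib.Helper2
open scoped ComplexConjugate Classical

attribute [local instance] irrFintype

namespace Cfsg.Agent.S0920

/-- Brauer's First Main Theorem. Let D be a p-subgroup of the finite group G with normalizer N, and fix a maximal ideal M of the algebraic integers containing p. Then (i) every block b of N having D as a defect group induces some block B of G having D as a defect group; (ii) every block of G with defect group D is induced by exactly one block of N with defect group D. -/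
theorem result {G : Type*} [Group G] [Finite G] (p : ℕ) [Fact p.Prime] (M : Ideal Cfsg.AlgInt) (hM : Cfsg.IsPModular p M) (D : Subgroup G) (hD : IsPGroup p D) : (∀ b : Set (Cfsg.IrrCharacter (Subgroup.normalizer (D : Set G))), Cfsg.IsPBlock M b → Cfsg.IsDefectGroup p M b (D.subgroupOf (Subgroup.normalizer (D : Set G))) → ∃ B : Set (Cfsg.IrrCharacter G), Cfsg.IsPBlock M B ∧ Cfsg.IsDefectGroup p M B D ∧ Cfsg.IsInducedBlock M (Subgroup.normalizer (D : Set G)) b B) ∧ (∀ B : Set (Cfsg.IrrCharacter G), Cfsg.IsPBlock M B → Cfsg.IsDefectGroup p M B D → ∃! b : Set (Cfsg.IrrCharacter (Subgroup.normalizer (D : Set G))), Cfsg.IsPBlock M b ∧ Cfsg.IsDefectGroup p M b (D.subgroupOf (Subgroup.normalizer (D : Set G))) ∧ Cfsg.IsInducedBlock M (Subgroup.normalizer (D : Set G)) b B) := by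
  let _ := Fintype.ofFinite G
  have := IsPModular.isPrime hM
  constructor
  · intro b hb hDb
    obtain ⟨B, hind⟩ := inducedBlockDefined_of_le hM hD (le_nor D) (centralizer_le_nor D) le_rfl hb
    exact ⟨B, hind.2.1, isDefectGroup_of_induced_nor hM hD hDb hind, hind⟩
  · intro B hB hDB
    obtain ⟨b, hb, hDb, hind⟩ := exists_brauer_correspondent hM hB hDB
    refine ⟨b, ⟨hb, hDb, hind⟩, ?_⟩
    rintro b' ⟨-, -, hind'⟩
    exact brauer_correspondent_unique hM hD hDb hind hind'

end Cfsg.Agent.S0920
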