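import Mathlib
import Cfsg.Statements.S0926
import Cfsg.Agent.Lib.Helper6.Height

set_option autoImplicit false
open Cfsg
open Cfsg.Agent.Lib.Helper6 Cfsg.Agent.Lib.Helper2 Cfsg.Agent.Lib.Helper24
open scoped ComplexConjugate Classical

attribute [local instance] irrFintype

namespace Cfsg.Agent.S0926

/-- Let B be a block of the finite group G with defect group D (relative to a maximal ideal M of the algebraic integers containing p), let χ ∈ B have height zero, and let x be a p-element. Then some conjugate of x lies in D if and only if χ does not vanish on the whole p-section of x (the elements whose p-part is conjugate to x). -/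
theorem result {G : Type*} [Group G] [Finite G] (p : ℕ) [Fact p.Prime] (M : Ideal Cfsg.AlgInt) (hM : Cfsg.IsPModular p M) (B : Set (Cfsg.IrrCharacter G)) (hB : Cfsg.IsPBlock M B) (D : Subgroup G) (hD : Cfsg.IsDefectGroup p M B D) (χ : Cfsg.IrrCharacter G) (hχ : χ ∈ B) (h0 : Cfsg.blockHeight p B (χ : G → ℂ) = 0) (x : G) (hx : ∃ k : ℕ, orderOf x = p ^ k) : (∃ g : G, g * x * g⁻¹ ∈ D) ↔ ∃ u : G, (∃ z : G, Cfsg.IsPPart p u z ∧ IsConj x z) ∧ (χ : G → ℂ) u ≠ 0 := by
  let _ := Fintype.ofFinite G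
  have := IsPModular.isPrime hM
  have hBeq : B = blockOf M (χ : G → ℂ) := IsPBlock.eq_blockOf hB hχ
  constructor
  · rintro ⟨g, hg⟩
    obtain ⟨y, hy, hDy⟩ := isDefectGroup_iff.mp hD
    have hxy : Commute (g * x * g⁻¹) y := Subgroup.mem_centralizer_singleton_iff.mp (hDy.le hg)
    obtain ⟨k, hk⟩ := hx
    have hord : orderOf (g * x * g⁻¹) = p ^ k := by
      rw [← hk]
      exact orderOf_injective (MulAut.conj g).toMonoidHom (MulAut.conj g).injective x
    have hxk : (g * x * g⁻¹) ^ (p ^ k) = 1 := by rw [← hord]; exact pow_orderOf_eq_one _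
    refine ⟨g * x * g⁻¹ * y, ⟨g * x * g⁻¹, ⟨y, rfl, hxy, ⟨k, hord⟩,
      IsDefectClass.regular hM hB hy⟩, isConj_iff.mpr ⟨g, rfl⟩⟩, ?_⟩
    intro h0'
    apply not_memLocalIdeal_mul_of_height_zero hM hB hy hχ h0 hxy hxk
    rw [h0']
    exact memLocalIdeal_zero
  · rintro ⟨u, ⟨z, hz, hxz⟩, hu⟩
    by_contra hcon
    push Not at hcon
    apply hu
    apply irr_eq_zero_of_pPart_not_mem hM χ hz
    intro D' hD' hzD'
    rw [← hBeq] at hD'
    obtain ⟨t, rfl⟩ := isDefectGroup_exists_conj hM hB hD hD'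
    obtain ⟨c, rfl⟩ := isConj_iff.mp hxz
    rw [mem_cj] at hzD'
    apply hcon (t⁻¹ * c)
    have : t⁻¹ * c * x * (t⁻¹ * c)⁻¹ = t⁻¹ * (c * x * c⁻¹) * t := by group
    rw [this]
    exact hzD'

end Cfsg.Agent.S0926
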