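import Mathlib
import Cfsg.Statements.S0927
import Cfsg.Agent.Lib.Helper6.Height

set_option autoImplicit false
open Cfsg
open Cfsg.Agent.Lib.Helper6 Cfsg.Agent.Lib.Helper2 Cfsg.Agent.Lib.Helper24
open scoped ComplexConjugate Classical

attribute [local instance] irrFintype

namespace Cfsg.Agent.S0927

/-- Let B be a block of the finite group G relative to a maximal ideal M of the algebraic integers containing p, let y represent a defect class of B and let P be a Sylow p-subgroup of the centralizer of y. (a) If x ∈ P and χ ∈ B has height zero, then χ (x * y) is not in the local ideal at M. (b) If x lies in the centre of P, then for every χ ∈ B the central character of χ at x * y is not in the local ideal at M. -/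
theorem result {G : Type*} [Group G] [Finite G] (p : ℕ) [Fact p.Prime] (M : Ideal Cfsg.AlgInt) (hM : Cfsg.IsPModular p M) (B : Set (Cfsg.IrrCharacter G)) (hB : Cfsg.IsPBlock M B) (y : G) (hy : Cfsg.IsDefectClass M B y) (P : Sylow p (Subgroup.centralizer ({y} : Set G))) (x : Subgroup.centralizer ({y} : Set G)) (hx : x ∈ (P : Subgroup (Subgroup.centralizer ({y} : Set G)))) : (∀ χ ∈ B, Cfsg.blockHeight p B (χ : G → ℂ) = 0 → ¬ Cfsg.MemLocalIdeal M ((χ : G → ℂ) ((x : G) * y))) ∧ ((∀ w ∈ (P : Subgroup (Subgroup.centralizer ({y} : Set G))), x * w = w * x) → ∀ χ ∈ B, ¬ Cfsg.MemLocalIdeal M (Cfsg.centralChar (χ : G → ℂ) ((x : G) * y))) := by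
  let _ := Fintype.ofFinite G
  have := IsPModular.isPrime hM
  have hxy : Commute (x : G) y := Subgroup.mem_centralizer_singleton_iff.mp x.2
  obtain ⟨k, hk⟩ := P.2 ⟨x, hx⟩
  have hxk : (x : G) ^ (p ^ k) = 1 := by
    have := congrArg (fun z : (P : Subgroup (Subgroup.centralizer ({y} : Set G))) =>
      ((z : Subgroup.centralizer ({y} : Set G)) : G)) hk
    simpa using this
  refine ⟨fun χ hχ h0 => not_memLocalIdeal_mul_of_height_zero hM hB hy hχ h0 hxy hxk, ?_⟩
  intro hcent
  apply not_memLocalIdeal_centralChar_of_exists hB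
  obtain ⟨χ₀, hχ₀, hdeg⟩ := exists_factorization_degree_eq hM hB hy
  have h0 : blockHeight p B (χ₀ : G → ℂ) = 0 := by
    rw [blockHeight, sInf_degree_eq hM hB hy, hdeg, Nat.sub_self]
  refine ⟨χ₀, hχ₀, ?_⟩
  rw [centralChar_eq_div]
  have hreg := IsDefectClass.regular hM hB hy
  -- centralizers
  have hle : cen ((x : G) * y) ≤ cen y := by
    intro c hc
    have hc' : Commute c ((x : G) * y) := Subgroup.mem_centralizer_singleton_iff.mp hc
    have h1 : ((x : G) * y) ^ (p ^ k) = y ^ (p ^ k) := by
      rw [hxy.mul_pow, hxk, one_mul]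
    obtain ⟨m, hm⟩ := exists_pow_eq_self_of_coprime (x := y) (n := p ^ k)
      (Nat.Coprime.pow_left k ((Nat.Prime.coprime_iff_not_dvd hM.1).mpr hreg))
    rw [cen, Subgroup.mem_centralizer_singleton_iff]
    have : Commute c y := by
      rw [← hm, ← h1]
      exact (hc'.pow_right _).pow_right _
    exact this.eq
  have hPle : (P : Subgroup (Subgroup.centralizer ({y} : Set G))).map
      (Subgroup.centralizer ({y} : Set G)).subtype ≤ cen ((x : G) * y) := by
    rintro _ ⟨w, hw, rfl⟩
    rw [cen, Subgroup.mem_centralizer_singleton_iff]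
    have h1 : (w : G) * (x : G) = (x : G) * (w : G) := by
      have := congrArg (fun z : Subgroup.centralizer ({y} : Set G) => (z : G)) (hcent w hw)
      exact this.symm
    have h2 : (w : G) * y = y * (w : G) := Subgroup.mem_centralizer_singleton_iff.mp w.2
    change (w : G) * ((x : G) * y) = (x : G) * y * (w : G)
    rw [← mul_assoc, h1, mul_assoc, h2, mul_assoc]
  have hcard1 : (Nat.card (cen ((x : G) * y))).factorization p ≤
      (Nat.card (cen y)).factorization p :=
    (Nat.factorization_le_iff_dvd Nat.card_pos.ne' Nat.card_pos.ne').mpr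
      (Subgroup.card_dvd_of_le hle) p
  have hcard2 : (Nat.card (cen y)).factorization p ≤
      (Nat.card (cen ((x : G) * y))).factorization p := by
    rw [← hM.1.pow_dvd_iff_le_factorization Nat.card_pos.ne']
    have h3 := Subgroup.card_dvd_of_le hPle
    rwa [Subgroup.card_map_of_injective (Subgroup.subtype_injective _),
      P.card_eq_multiplicity] at h3
  have e1 := factorization_card_eq (p := p) y
  have e2 := factorization_card_eq (p := p) ((x : G) * y)
  refine not_memLocalIdeal_mul
    (memLocalRing_natCast_div hM (index_cen_ne_zero _) (charDegree_pos χ₀.2).ne' (by omega))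
    (memLocalRing_of_isIntegral (irr_isIntegral χ₀.2 _))
    (not_memLocalIdeal_natCast_div hM (index_cen_ne_zero _) (charDegree_pos χ₀.2).ne' (by omega))
    (not_memLocalIdeal_mul_of_height_zero hM hB hy hχ₀ h0 hxy hxk)

end Cfsg.Agent.S0927
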