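import Mathlib
import Cfsg.Statements.S0929
import Cfsg.Agent.Lib.Helper6.FirstMain2
import Cfsg.Agent.Lib.Helper6.Vanish

set_option autoImplicit false
open Cfsg
open Cfsg.Agent.Lib.Helper6 Cfsg.Agent.Lib.Helper2
open scoped ComplexConjugate Classical

attribute [local instance] irrFintype

namespace Cfsg.Agent.S0929

/-- Let B be a block of the finite group G with defect group P (relative to a maximal ideal M of the algebraic integers containing p), and let g be an element at which the central character of some member of B is not in the local ideal at M. Then some conjugate x of g centralizes P and has its p-part in the centre of P. -/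
theorem result {G : Type*} [Group G] [Finite G] (p : ℕ) [Fact p.Prime] (M : Ideal Cfsg.AlgInt) (hM : Cfsg.IsPModular p M) (B : Set (Cfsg.IrrCharacter G)) (hB : Cfsg.IsPBlock M B) (P : Subgroup G) (hP : Cfsg.IsDefectGroup p M B P) (g : G) (hg : ∃ χ ∈ B, ¬ Cfsg.MemLocalIdeal M (Cfsg.centralChar (χ : G → ℂ) g)) : ∃ x : G, IsConj g x ∧ x ∈ Subgroup.centralizer (P : Set G) ∧ ∀ z : G, Cfsg.IsPPart p x z → z ∈ P ∧ ∀ w ∈ P, z * w = w * z := by
  let _ := Fintype.ofFinite G
  have := IsPModular.isPrime hM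
  have hp : p.Prime := hM.1
  obtain ⟨b, hb, hDb, hind⟩ := exists_brauer_correspondent hM hB hP
  obtain ⟨g₀, hg₀, hDg₀⟩ := isDefectGroup_iff.mp hP
  have hPp : IsPGroup p P := hDg₀.isPGroup
  obtain ⟨χ, hχ, hg⟩ := hg
  obtain ⟨ξ, hξ⟩ := IsPBlock.nonempty hb
  have h5 := om_brMap_sub_om hM hPp (le_nor P) le_rfl hind hξ hχ (isClassFunction_classInd g)
    (memLocalRing_classInd g)
  rw [om_classInd (irr_isClassFunction χ.2)] at h5
  have h6 : ¬ MemLocalIdeal M (om (ξ : nor P → ℂ) (brMap P (nor P) (classInd g))) :=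
    fun h => hg ((memLocalIdeal_congr h5).mp h)
  rw [om_eq_sum_classes (irr_isClassFunction ξ.2)
    (isClassFunction_brMap le_rfl (isClassFunction_classInd g))] at h6
  obtain ⟨C, hC⟩ : ∃ C : ConjClasses (nor P), ¬ MemLocalIdeal M
      (brMap P (nor P) (classInd g) (Quotient.out C) *
        centralChar (ξ : nor P → ℂ) (Quotient.out C)) := by
    by_contra hcon
    push Not at hcon
    exact h6 (MemLocalIdeal.sum _ fun C _ => hcon C)
  obtain ⟨x, hx⟩ : ∃ x : nor P, x = Quotient.out C := ⟨_, rfl⟩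
  rw [← hx, brMap_apply, classInd_apply] at hC
  have hx1 : (x : G) ∈ Subgroup.centralizer (P : Set G) := by
    by_contra h
    rw [if_neg h, zero_mul] at hC
    exact hC memLocalIdeal_zero
  rw [if_pos hx1] at hC
  have hx2 : IsConj g (x : G) := by
    by_contra h
    rw [if_neg h, zero_mul] at hC
    exact hC memLocalIdeal_zero
  rw [if_pos hx2, one_mul] at hC
  have hx3 : (ξ : nor P → ℂ) x ≠ 0 := by
    intro h
    apply hC
    unfold centralChar
    rw [h]
    simp only [mul_zero, zero_div]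
    exact memLocalIdeal_zero
  refine ⟨x, hx2, hx1, ?_⟩
  intro z hz
  obtain ⟨z', hz'⟩ := exists_isPPart hp x
  have hz'' : IsPPart p (x : G) (z' : G) := by
    obtain ⟨y, h1, h2, ⟨k, h3⟩, h4⟩ := hz'
    refine ⟨y, ?_, ?_, ⟨k, ?_⟩, ?_⟩
    · rw [← h1]; rfl
    · have := congrArg (Subtype.val) h2.eq
      exact this
    · rw [← h3]; exact Subgroup.orderOf_coe z'
    · rw [Subgroup.orderOf_coe y]; exact h4
  have hzz : z = z' := IsPPart.unique hp hz hz''
  have hn : (P.subgroupOf (nor P)).Normal :=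
    (Subgroup.normal_subgroupOf_iff_le_normalizer (le_nor P)).mpr le_rfl
  constructor
  · by_contra hzP
    apply hx3
    apply irr_eq_zero_of_pPart_not_mem hM ξ hz'
    intro D' hD' hzD'
    rw [← IsPBlock.eq_blockOf hb hξ] at hD'
    obtain ⟨n, hn'⟩ := isDefectGroup_exists_conj hM hb hDb hD'
    rw [hn', mem_cj] at hzD'
    have h7 := hn.conj_mem _ hzD' n
    have h8 : n * (n⁻¹ * z' * n) * n⁻¹ = z' := by group
    rw [h8, Subgroup.mem_subgroupOf, ← hzz] at h7
    exact hzP h7
  · obtain ⟨a, s, hs, hcard⟩ := Nat.exists_eq_pow_mul_and_not_dvd (Nat.card_pos (α := G)).ne' p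
      hp.ne_one
    obtain ⟨m, hm⟩ := IsPPart.exists_pow hp hs hz
    have e := IsPPart.pow_eq hp hcard hz
    have hzc : z ∈ Subgroup.centralizer (P : Set G) := by
      rw [← hm, ← e]
      exact Subgroup.pow_mem _ (Subgroup.pow_mem _ hx1 _) _
    intro w hw
    exact (Subgroup.mem_centralizer_iff.mp hzc w hw).symm

end Cfsg.Agent.S0929
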