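import Mathlib
import Cfsg.Statements.S0930
import Cfsg.Agent.Lib.Helper6.FirstMain2
import Cfsg.Agent.Lib.Helper6.Vanish
import Cfsg.Agent.S0927
import Cfsg.Agent.S0929

set_option autoImplicit false
open Cfsg
open Cfsg.Agent.Lib.Helper6 Cfsg.Agent.Lib.Helper2
open scoped ComplexConjugate Classical

attribute [local instance] irrFintype

namespace Cfsg.Agent.S0930

/-- Let H be a subgroup of the finite group G and fix a maximal ideal M of the algebraic integers containing the prime p. If the block b of H with defect group D induces the block B of G with defect group P, then every element of the centre of P is conjugate in G to an element of the centre of D. -/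
theorem result {G : Type*} [Group G] [Finite G] (p : ℕ) [Fact p.Prime] (M : Ideal Cfsg.AlgInt) (hM : Cfsg.IsPModular p M) (H : Subgroup G) (b : Set (Cfsg.IrrCharacter H)) (B : Set (Cfsg.IrrCharacter G)) (hind : Cfsg.IsInducedBlock M H b B) (D : Subgroup H) (hD : Cfsg.IsDefectGroup p M b D) (P : Subgroup G) (hP : Cfsg.IsDefectGroup p M B P) (x : G) (hx : x ∈ P) (hxc : ∀ w ∈ P, x * w = w * x) : ∃ g : G, g * x * g⁻¹ ∈ D.map H.subtype ∧ ∀ w ∈ D.map H.subtype, (g * x * g⁻¹) * w = w * (g * x * g⁻¹) := by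
  let _ := Fintype.ofFinite G
  let _ : Fintype H := Fintype.ofFinite H
  have := IsPModular.isPrime hM
  have hp : p.Prime := hM.1
  obtain ⟨hb, hB, hcong⟩ := hind
  obtain ⟨y, hy, Q, hQ⟩ := hP
  subst hQ
  obtain ⟨x', hx', rfl⟩ := hx
  have h27 := (Cfsg.Agent.S0927.result p M hM B hB y hy Q x' hx').2
    (fun w hw => Subtype.ext (hxc w ⟨w, hw, rfl⟩))
  obtain ⟨χ, hχ⟩ := IsPBlock.nonempty hB
  obtain ⟨ξ, hξ⟩ := IsPBlock.nonempty hb
  have h1 := h27 χ hχ
  have h2 : ¬ MemLocalIdeal M (inducedCentralChar H (ξ : H → ℂ) ((x' : G) * y)) :=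
    fun h => h1 ((memLocalIdeal_congr (hcong ξ hξ χ hχ _)).mp h)
  rw [inducedCentralChar_eq_om, om_eq_sum_classes (irr_isClassFunction ξ.2)
    (isClassFunction_res H (isClassFunction_classInd _))] at h2
  obtain ⟨C, hC⟩ : ∃ C : ConjClasses H, ¬ MemLocalIdeal M
      (classInd ((x' : G) * y) ((Quotient.out C : H) : G) *
        centralChar (ξ : H → ℂ) (Quotient.out C)) := by
    by_contra hcon
    push Not at hcon
    exact h2 (MemLocalIdeal.sum _ fun C _ => hcon C)
  obtain ⟨h, hh⟩ : ∃ h : H, h = Quotient.out C := ⟨_, rfl⟩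
  rw [← hh, classInd_apply] at hC
  have hx2 : IsConj ((x' : G) * y) (h : G) := by
    by_contra hcon
    rw [if_neg hcon, zero_mul] at hC
    exact hC memLocalIdeal_zero
  rw [if_pos hx2, one_mul] at hC
  obtain ⟨h', hh', hcD, hz⟩ := Cfsg.Agent.S0929.result p M hM b hb D hD h ⟨ξ, hξ, hC⟩
  obtain ⟨c, hc⟩ := isConj_iff.mp (hx2.trans (isConj_coe hh'))
  have hpp : IsPPart p ((x' : G) * y) (x' : G) := by
    refine ⟨y, rfl, ?_, ?_, IsDefectClass.regular hM hB hy⟩
    · exact (Subgroup.mem_centralizer_singleton_iff.mp x'.2)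
    · obtain ⟨k, hk⟩ := (IsPGroup.iff_orderOf.mp Q.2) ⟨x', hx'⟩
      refine ⟨k, ?_⟩
      rw [← hk, Subgroup.orderOf_mk, Subgroup.orderOf_coe]
  have hpp2 := IsPPart.conj hpp c
  rw [hc] at hpp2
  obtain ⟨z', hz'⟩ := exists_isPPart hp h'
  have hz'' : IsPPart p (h' : G) (z' : G) := by
    obtain ⟨y, h1, h2, ⟨k, h3⟩, h4⟩ := hz'
    refine ⟨y, ?_, ?_, ⟨k, ?_⟩, ?_⟩
    · rw [← h1]; rfl
    · have := congrArg (Subtype.val) h2.eq
      exact this
    · rw [← h3]; exact Subgroup.orderOf_coe z'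
    · rw [Subgroup.orderOf_coe y]; exact h4
  have hzz : c * (x' : G) * c⁻¹ = z' := IsPPart.unique hp hpp2 hz''
  obtain ⟨hzD, hzc⟩ := hz z' hz'
  refine ⟨c, ?_, ?_⟩
  · exact ⟨z', hzD, hzz.symm⟩
  · rintro _ ⟨w, hw, rfl⟩
    show c * (x' : G) * c⁻¹ * (w : G) = (w : G) * (c * (x' : G) * c⁻¹)
    rw [hzz]
    exact congrArg Subtype.val (hzc w hw)

end Cfsg.Agent.S0930
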