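import Mathlib
import Cfsg.Statements.S0931
import Cfsg.Agent.Lib.Helper6.FirstMain2
import Cfsg.Agent.Lib.Helper6.Vanish
import Cfsg.Agent.S0930

set_option autoImplicit false
open Cfsg
open Cfsg.Agent.Lib.Helper6 Cfsg.Agent.Lib.Helper2
open scoped ComplexConjugate Classical

attribute [local instance] irrFintype

namespace Cfsg.Agent.S0931

/-- Let H be a subgroup of the finite group G and fix a maximal ideal M of the algebraic integers containing the prime p. If the block b of H induces the block B of G, then b has defect 0 if and only if B has defect 0. -/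
theorem result {G : Type*} [Group G] [Finite G] (p : ℕ) [Fact p.Prime] (M : Ideal Cfsg.AlgInt) (hM : Cfsg.IsPModular p M) (H : Subgroup G) (b : Set (Cfsg.IrrCharacter H)) (B : Set (Cfsg.IrrCharacter G)) (hind : Cfsg.IsInducedBlock M H b B) : Cfsg.blockDefect p b = 0 ↔ Cfsg.blockDefect p B = 0 := by
  let _ := Fintype.ofFinite G
  let _ : Fintype H := Fintype.ofFinite H
  have := IsPModular.isPrime hM
  have hp : p.Prime := hM.1
  obtain ⟨D, hD⟩ := exists_isDefectGroup hM hind.1
  have hcD := IsDefectGroup.card_eq hM hind.1 hD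
  constructor
  · intro h0
    obtain ⟨P, hP⟩ := exists_isDefectGroup hM hind.2.1
    have hcP := IsDefectGroup.card_eq hM hind.2.1 hP
    rw [h0, pow_zero, Subgroup.card_eq_one] at hcD
    obtain ⟨g₀, hg₀, hDg₀⟩ := isDefectGroup_iff.mp hP
    have hPp : IsPGroup p P := hDg₀.isPGroup
    by_contra hne
    have hnt : Nontrivial P := by
      rw [← Finite.one_lt_card_iff_nontrivial, hcP]
      exact Nat.one_lt_pow hne hp.one_lt
    have hnt2 : Nontrivial (Subgroup.center P) := hPp.center_nontrivial
    obtain ⟨⟨z, hz⟩, hz1⟩ := exists_ne (1 : Subgroup.center P)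
    obtain ⟨g, hg, -⟩ := Cfsg.Agent.S0930.result p M hM H b B hind D hD P hP z z.2
      (fun w hw => by
        have := Subgroup.mem_center_iff.mp hz ⟨w, hw⟩
        exact (congrArg Subtype.val this).symm)
    rw [hcD, Subgroup.map_bot, Subgroup.mem_bot] at hg
    apply hz1
    apply Subtype.ext
    apply Subtype.ext
    show (z : G) = 1
    have : (z : G) = g⁻¹ * (g * z * g⁻¹) * g := by group
    rw [this, hg]
    group
  · intro h0
    obtain ⟨E, hE, hle⟩ := exists_isDefectGroup_ge_of_induced hM H hind hD
    have hcE := IsDefectGroup.card_eq hM hind.2.1 hE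
    rw [h0, pow_zero, Subgroup.card_eq_one] at hcE
    rw [hcE, le_bot_iff, (Subgroup.map_eq_bot_iff_of_injective _ H.subtype_injective)] at hle
    rw [hle, Subgroup.card_bot] at hcD
    by_contra hne
    have := Nat.one_lt_pow hne hp.one_lt
    omega

end Cfsg.Agent.S0931
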