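import Mathlib
import Cfsg.Statements.S0933
import Cfsg.Agent.Lib.Helper6.IndBase

set_option autoImplicit false
open Cfsg
open Cfsg.Agent.Lib.Helper6

namespace Cfsg.Agent.S0933

/-- Let H be a subgroup of the finite group G and ξ an irreducible character of H such that the induced function ξ^G is an irreducible character of G. Then, relative to any maximal ideal M of the algebraic integers containing the prime p, the block of ξ induces the block of ξ^G. -/
theorem result {G : Type*} [Group G] [Fintype G] (p : ℕ) [Fact p.Prime] (M : Ideal Cfsg.AlgInt) (hM : Cfsg.IsPModular p M) (H : Subgroup G) (ξ : Cfsg.IrrCharacter H) (hind : Cfsg.IsIrrCharacter G (Cfsg.indFun H (ξ : H → ℂ))) : Cfsg.IsInducedBlock M H (Cfsg.blockOf M (ξ : H → ℂ)) (Cfsg.blockOf M (Cfsg.indFun H (ξ : H → ℂ))) := by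
  classical
  have := IsPModular.isPrime hM
  let _ := Fintype.ofFinite H
  refine ⟨⟨ξ, rfl⟩, ⟨⟨_, hind⟩, rfl⟩, ?_⟩
  intro ξ' hξ' χ hχ g
  have h1 : MemLocalIdeal M (inducedCentralChar H (ξ' : H → ℂ) g
      - inducedCentralChar H (ξ : H → ℂ) g) := by
    rw [inducedCentralChar_eq_om, inducedCentralChar_eq_om]
    refine om_sub_memLocalIdeal ξ'.2 ξ.2 (SameBlock.symm hξ')
      (isClassFunction_res H (isClassFunction_classInd g)) ?_
    intro h
    rw [classInd_apply]
    split_ifs
    · exact memLocalRing_one
    · exact memLocalRing_zero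
  have h2 : MemLocalIdeal M (centralChar (indFun H (ξ : H → ℂ)) g - centralChar (χ : G → ℂ) g) :=
    hχ g
  rw [← inducedCentralChar_eq_centralChar] at h2
  have := MemLocalIdeal.add h1 h2
  rwa [sub_add_sub_cancel] at this

end Cfsg.Agent.S0933
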