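import Mathlib
import Cfsg.Statements.S0934
import Cfsg.Agent.Lib.Helper6.IndBase

set_option autoImplicit false
open Cfsg
open Cfsg.Agent.Lib.Helper6 Cfsg.Agent.Lib.Helper2
open scoped ComplexConjugate

attribute [local instance] irrFintype

namespace Cfsg.Agent.S0934

/-- Let H be a subgroup of the finite group G and fix a maximal ideal M of the algebraic integers containing the prime p. If the block b of H induces the block B of G and ξ ∈ b, then there is χ ∈ B whose restriction to H has nonzero inner product with ξ. -/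
theorem result {G : Type*} [Group G] [Fintype G] (p : ℕ) [Fact p.Prime] (M : Ideal Cfsg.AlgInt) (hM : Cfsg.IsPModular p M) (H : Subgroup G) [Fintype H] (b : Set (Cfsg.IrrCharacter H)) (B : Set (Cfsg.IrrCharacter G)) (hind : Cfsg.IsInducedBlock M H b B) (ξ : Cfsg.IrrCharacter H) (hξ : ξ ∈ b) : ∃ χ ∈ B, Cfsg.classInner (fun h : H => (χ : G → ℂ) h) (ξ : H → ℂ) ≠ 0 := by
  classical
  have := IsPModular.isPrime hM
  obtain ⟨hb, hB, hcong⟩ := hind
  obtain ⟨χ₀, hχ₀⟩ := IsPBlock.nonempty hB
  have hZ := IsPBlock.indicator_mem_ZS hB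
  by_contra hcon
  push Not at hcon
  have h1 := om_res_sub_memLocalIdeal H (irr_isClassFunction χ₀.2) (hcong ξ hξ χ₀ hχ₀)
    (isClassFunction_coef (Set.indicator B 1)) hZ
  rw [om_coef, Set.indicator_of_mem hχ₀] at h1
  have h2 : om (ξ : H → ℂ) (fun h : H => coef (Set.indicator B 1) (h : G)) = 0 := by
    rw [om]
    have : ∑ h : H, coef (Set.indicator B 1) (h : G) * (ξ : H → ℂ) h = 0 := by
      simp only [coef_apply, Finset.mul_sum, Finset.sum_mul]
      rw [Finset.sum_comm]
      apply Finset.sum_eq_zero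
      intro χ _
      by_cases hχ : χ ∈ B
      · have h3 := hcon χ hχ
        rw [classInner] at h3
        have h4 : ∑ h : H, (χ : G → ℂ) h * conj ((ξ : H → ℂ) h) = 0 := by
          rcases mul_eq_zero.mp h3 with h | h
          · exact absurd (inv_eq_zero.mp h) (card_subgroup_ne_zero H)
          · exact h
        have h5 : ∑ h : H, conj ((χ : G → ℂ) h) * (ξ : H → ℂ) h = 0 := by
          have := congrArg conj h4
          simpa [map_sum] using this
        have h6 : ∀ h : H, (Nat.card G : ℂ)⁻¹ * (Set.indicator B 1 χ * ((χ : G → ℂ) 1 *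
            conj ((χ : G → ℂ) h))) * (ξ : H → ℂ) h = (Nat.card G : ℂ)⁻¹ * (Set.indicator B 1 χ *
            (χ : G → ℂ) 1) * (conj ((χ : G → ℂ) h) * (ξ : H → ℂ) h) := fun h => by ring
        simp_rw [h6]
        rw [← Finset.mul_sum, h5, mul_zero]
      · simp [Set.indicator_of_notMem hχ]
    rw [this, zero_div]
  rw [h2] at h1
  have h7 := MemLocalIdeal.neg h1
  simp only [Pi.one_apply, zero_sub, neg_neg] at h7
  exact not_memLocalIdeal_one h7

end Cfsg.Agent.S0934
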