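import Mathlib
import Cfsg.Statements.S0937
import Cfsg.Agent.Lib.Helper6.RegSum

set_option autoImplicit false
open Cfsg
open Cfsg.Agent.Lib.Helper6 Cfsg.Agent.Lib.Helper2
open scoped ComplexConjugate Classical

attribute [local instance] irrFintype

namespace Cfsg.Agent.S0937

/-- Let H be a subgroup of the finite group G and fix a maximal ideal M of the algebraic integers containing the prime p. If the block b of H induces the block B of G and χ ∈ B has height zero, then there is ξ ∈ b of height zero whose multiplicity in the restriction of χ to H is a natural number not divisible by p. -/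
theorem result {G : Type*} [Group G] [Fintype G] (p : ℕ) [Fact p.Prime] (M : Ideal Cfsg.AlgInt) (hM : Cfsg.IsPModular p M) (H : Subgroup G) [Fintype H] (b : Set (Cfsg.IrrCharacter H)) (B : Set (Cfsg.IrrCharacter G)) (hind : Cfsg.IsInducedBlock M H b B) (χ : Cfsg.IrrCharacter G) (hχ : χ ∈ B) (h0 : Cfsg.blockHeight p B (χ : G → ℂ) = 0) : ∃ ξ ∈ b, Cfsg.blockHeight p b (ξ : H → ℂ) = 0 ∧ ∃ n : ℕ, Cfsg.classInner (fun h : H => (χ : G → ℂ) h) (ξ : H → ℂ) = (n : ℂ) ∧ ¬ p ∣ n := by
  have := IsPModular.isPrime hM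
  obtain ⟨hb, hB, hcong⟩ := hind
  have hcl := isClassFunction_creg (p := p) (irr_isClassFunction χ.2)
  have hS := memLocalRing_creg (M := M) (p := p) (IsIrrCharacter.isCharacter χ.2)
  obtain ⟨ξ₀, hξ₀, hξ₀0⟩ := exists_height_zero (p := p) (IsPBlock.nonempty hb)
  have h1 := om_res_sub_memLocalIdeal H (irr_isClassFunction χ.2) (hcong ξ₀ hξ₀ χ hχ) hcl hS
  have h2 : ¬ MemLocalIdeal M (om (ξ₀ : H → ℂ) (fun h : H => creg p (χ : G → ℂ) (h : G))) :=
    fun h => not_memLocalIdeal_om_creg hM hB hχ h0 ((memLocalIdeal_congr h1).mp h)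
  have hchar : IsCharacter H (fun h : H => (χ : G → ℂ) h) :=
    IsCharacter.restrict _ (IsIrrCharacter.isCharacter χ.2)
  have hn : ∀ ξ : IrrCharacter H, ∃ n : ℕ,
      classInner (fun h : H => (χ : G → ℂ) h) (ξ : H → ℂ) = n := fun ξ =>
    IsCharacter.classInner_nat hchar (IsIrrCharacter.isCharacter ξ.2)
  choose n hn using hn
  have h3 : (fun h : H => creg p (χ : G → ℂ) (h : G)) =
      ∑ ξ : IrrCharacter H, (n ξ : ℂ) • creg p (ξ : H → ℂ) := by
    rw [creg_res]
    have h4 := classFunction_eq_sum (IsCharacter.isClassFunction hchar)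
    have h5 : (fun h : H => conj ((χ : G → ℂ) h)) =
        ∑ ξ : IrrCharacter H, (n ξ : ℂ) • (fun h : H => conj ((ξ : H → ℂ) h)) := by
      ext h
      have h6 := congrFun h4 h
      simp only [Finset.sum_apply, Pi.smul_apply, smul_eq_mul, hn] at h6 ⊢
      rw [h6, map_sum]
      refine Finset.sum_congr rfl fun ξ _ => ?_
      rw [map_mul, Complex.conj_natCast]
    rw [creg, h5, regPart_sum]
    refine Finset.sum_congr rfl fun ξ _ => ?_
    rw [regPart_smul, creg]
  rw [h3, om_sum] at h2
  by_contra hcon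
  push Not at hcon
  apply h2
  refine MemLocalIdeal.sum _ fun ξ _ => ?_
  rw [om_smul]
  have hSξ : MemLocalRing M (om (ξ₀ : H → ℂ) (creg p (ξ : H → ℂ))) :=
    om_memLocalRing ξ₀.2 (isClassFunction_creg (irr_isClassFunction ξ.2))
      (memLocalRing_creg (IsIrrCharacter.isCharacter ξ.2))
  by_cases hξ : ξ ∈ b
  · by_cases hξ0 : blockHeight p b (ξ : H → ℂ) = 0
    · have h7 := hcon ξ hξ hξ0 (n ξ) (hn ξ)
      exact MemLocalIdeal.mul_right ((memLocalIdeal_natCast_iff hM _).mpr h7) hSξ
    · refine MemLocalIdeal.mul_left (memLocalRing_natCast _) ?_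
      rw [om_creg_symm]
      refine MemLocalIdeal.mul_right
        (degree_div_memLocalIdeal hM (lt_factorization_of_height_ne_zero hξ₀ hξ₀0 hξ0)) ?_
      exact om_memLocalRing ξ.2 (isClassFunction_creg (irr_isClassFunction ξ₀.2))
        (memLocalRing_creg (IsIrrCharacter.isCharacter ξ₀.2))
  · rw [om_creg_eq_zero' hM hb hξ₀ hξ, mul_zero]
    exact memLocalIdeal_zero

end Cfsg.Agent.S0937
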