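import Mathlib
import Cfsg.Statements.S0938
import Cfsg.Agent.Lib.Helper6.NormalIdem

set_option autoImplicit false
open Cfsg
open Cfsg.Agent.Lib.Helper6 Cfsg.Agent.Lib.Helper2
open scoped ComplexConjugate Classical

attribute [local instance] irrFintype

namespace Cfsg.Agent.S0938

/-- Let B be a block of the finite group G relative to a maximal ideal M of the algebraic integers containing the prime p, and let χ ∈ B. Then the kernel of B (the set of g with ψ g = ψ 1 for all ψ ∈ B) is a normal subgroup of order prime to p contained in the kernel of χ, and it contains every normal subgroup of order prime to p on which χ takes the value χ(1); that is, it is O_p' of the kernel of χ. -/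
theorem result {G : Type*} [Group G] [Finite G] (p : ℕ) [Fact p.Prime] (M : Ideal Cfsg.AlgInt) (hM : Cfsg.IsPModular p M) (B : Set (Cfsg.IrrCharacter G)) (hB : Cfsg.IsPBlock M B) (χ : Cfsg.IrrCharacter G) (hχ : χ ∈ B) : ∃ K : Subgroup G, K.Normal ∧ (K : Set G) = Cfsg.blockKer B ∧ ¬ p ∣ Nat.card K ∧ (∀ g ∈ K, (χ : G → ℂ) g = (χ : G → ℂ) 1) ∧ ∀ N : Subgroup G, N.Normal → ¬ p ∣ Nat.card N → (∀ g ∈ N, (χ : G → ℂ) g = (χ : G → ℂ) 1) → N ≤ K := by
  let _ := Fintype.ofFinite G
  have hp : p.Prime := hM.1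
  have := IsPModular.isPrime hM
  let K : Subgroup G := ⨅ ψ : B, Cfsg.Agent.Lib.Helper24.kerOf (IsIrrCharacter.isCharacter ψ.1.2)
  have hmem : ∀ g, g ∈ K ↔ ∀ ψ ∈ B, (ψ : G → ℂ) g = (ψ : G → ℂ) 1 := by
    intro g
    simp only [K, Subgroup.mem_iInf, Cfsg.Agent.Lib.Helper24.mem_kerOf]
    exact ⟨fun h ψ hψ => h ⟨ψ, hψ⟩, fun h ψ => h ψ.1 ψ.2⟩
  have hKn : K.Normal := by
    constructor
    intro n hn g
    rw [hmem] at hn ⊢
    intro ψ hψ
    rw [irr_isClassFunction ψ.2 n g]
    exact hn ψ hψ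
  refine ⟨K, hKn, ?_, ?_, ?_, ?_⟩
  · ext g
    exact hmem g
  · intro hd
    obtain ⟨x, hx⟩ := exists_prime_orderOf_dvd_card' (G := K) p hd
    have hx' : orderOf (x : G) = p := by rw [Subgroup.orderOf_coe]; exact hx
    have h1 := weak_block_orthogonality hM hB (x := (1 : G)) (y := (x : G))
      (by rw [orderOf_one]; exact hp.one_lt.ne' ∘ Nat.dvd_one.mp) (by rw [hx'])
    have h2 : ∑ χ : IrrCharacter G, B.indicator 1 χ * ((χ : G → ℂ) 1 * conj ((χ : G → ℂ) (x : G))) =
        ∑ χ : IrrCharacter G, B.indicator 1 χ * ((χ : G → ℂ) 1 * conj ((χ : G → ℂ) 1)) := by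
      refine Finset.sum_congr rfl fun ψ _ => ?_
      by_cases hψ : ψ ∈ B
      · rw [(hmem x).mp x.2 ψ hψ]
      · rw [Set.indicator_of_notMem hψ, zero_mul, zero_mul]
    rw [h2] at h1
    have h3 : ∀ ψ : IrrCharacter G, B.indicator 1 ψ * ((ψ : G → ℂ) 1 * conj ((ψ : G → ℂ) 1)) =
        (((B.indicator 1 ψ : ℝ) * Complex.normSq ((ψ : G → ℂ) 1) : ℝ) : ℂ) := by
      intro ψ
      rw [Complex.mul_conj]
      by_cases hψ : ψ ∈ B
      · rw [Set.indicator_of_mem hψ, Set.indicator_of_mem hψ]; simp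
      · rw [Set.indicator_of_notMem hψ, Set.indicator_of_notMem hψ]; simp
    simp_rw [h3] at h1
    rw [← Complex.ofReal_sum] at h1
    have h4 := Complex.ofReal_eq_zero.mp h1
    have h5 := (Finset.sum_eq_zero_iff_of_nonneg (fun ψ _ => by
      by_cases hψ : ψ ∈ B
      · rw [Set.indicator_of_mem hψ]; simpa using Complex.normSq_nonneg _
      · rw [Set.indicator_of_notMem hψ]; simp)).mp h4 χ (Finset.mem_univ _)
    rw [Set.indicator_of_mem hχ, Pi.one_apply, one_mul, Complex.normSq_eq_zero] at h5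
    exact irr_one_ne_zero χ.2 h5
  · intro g hg
    exact (hmem g).mp hg χ hχ
  · intro N hN hNp hNχ g hg
    rw [hmem]
    intro ψ hψ
    exact ker_of_sameBlock hM N hNp χ.2 ψ.2 (IsPBlock.sameBlock hB hχ hψ) hNχ g hg

end Cfsg.Agent.S0938
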