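import Mathlib
import Cfsg.Statements.S0940
import Cfsg.Agent.Lib.Helper6.Frob
import Cfsg.Agent.Lib.Helper6.RegSum

set_option autoImplicit false
open Cfsg
open Cfsg.Agent.Lib.Helper6 Cfsg.Agent.Lib.Helper2
open scoped ComplexConjugate Classical

attribute [local instance] irrFintype

namespace Cfsg.Agent.S0940

/-- Let G be a finite group and M a maximal ideal of the algebraic integers containing the prime p. For every p-regular g, the idempotent coefficient of the principal block at g (the inverse of the group order times the sum over χ in the principal block of χ 1 * conj (χ g)) is congruent modulo the local ideal at M to N / R, where N is the number of pairs (x, y) with x of p-power order, y of order prime to p and x * y = g, and R is the number of elements of G of order prime to p. -/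
theorem result {G : Type*} [Group G] [Finite G] (p : ℕ) [Fact p.Prime] (M : Ideal Cfsg.AlgInt) (hM : Cfsg.IsPModular p M) (g : G) (hg : ¬ p ∣ orderOf g) : Cfsg.MemLocalIdeal M (Cfsg.blockCoeff (Cfsg.principalBlock M G) g - (Nat.card {xy : G × G // (∃ k : ℕ, orderOf xy.1 = p ^ k) ∧ ¬ p ∣ orderOf xy.2 ∧ xy.1 * xy.2 = g} : ℂ) / (Nat.card {y : G // ¬ p ∣ orderOf y} : ℂ)) := by
  let _ := Fintype.ofFinite G
  have := IsPModular.isPrime hM
  have hp : p.Prime := hM.1
  let one : IrrCharacter G := ⟨fun _ => 1, isIrrCharacter_one⟩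
  have hB : IsPBlock M (principalBlock M G) := ⟨one, rfl⟩
  have hone : one ∈ principalBlock M G := mem_blockOf_self one
  have hht : blockHeight p (principalBlock M G) (one : G → ℂ) = 0 := by
    have hdeg : charDegree (one : G → ℂ) = 1 := by simp [charDegree, one]
    rw [blockHeight, hdeg]
    simp
  -- the sum of the regular elements
  set σ : G → ℂ := creg p (one : G → ℂ) with hσ
  have hσv : ∀ y, σ y = if p ∣ orderOf y then 0 else 1 := by
    intro y
    simp [hσ, creg, regPart_apply, one]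
  have hσcl : IsClassFunction G σ := isClassFunction_creg (irr_isClassFunction one.2)
  have hσS : ∀ y, MemLocalRing M (σ y) := memLocalRing_creg (IsIrrCharacter.isCharacter one.2)
  set r : ℕ := Nat.card {y : G // ¬ p ∣ orderOf y} with hr
  have hR : om (one : G → ℂ) σ = (r : ℂ) := by
    rw [om]
    simp only [hσv, one, mul_one, div_one]
    rw [Finset.sum_ite, Finset.sum_const_zero, zero_add, Finset.sum_const, nsmul_eq_mul, mul_one,
      hr, Nat.card_eq_fintype_card, Fintype.card_subtype]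
  have hRu : ¬ MemLocalIdeal M (r : ℂ) := by
    rw [← hR]
    exact not_memLocalIdeal_om_creg hM hB hone hht
  have hr0 : (r : ℂ) ≠ 0 := by
    intro h
    apply hRu
    rw [h]
    exact memLocalIdeal_zero
  have hRinv : MemLocalRing M (r : ℂ)⁻¹ := MemLocalRing.inv (memLocalRing_natCast r) hRu
  set w : G → ℂ := (r : ℂ)⁻¹ • σ with hw
  have hwcl : IsClassFunction G w := isClassFunction_smul _ hσcl
  have hwS : ∀ y, MemLocalRing M (w y) := fun y => MemLocalRing.mul hRinv (hσS y)
  let a : IrrCharacter G → ℂ := fun χ => om (χ : G → ℂ) w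
  have haZ : a ∈ ZS M G := om_mem_ZS hwcl hwS
  have hca : coef a = w := (eq_coef_om hwcl).symm
  have hcong : ∀ χ, MemLocalIdeal M (a χ - (principalBlock M G).indicator 1 χ) := by
    intro χ
    simp only [a, hw, om_smul]
    by_cases hχ : χ ∈ principalBlock M G
    · rw [Set.indicator_of_mem hχ, Pi.one_apply]
      have h1 := om_sub_memLocalIdeal χ.2 one.2 (IsPBlock.sameBlock hB hχ hone) hσcl hσS
      rw [hR] at h1
      have h2 := MemLocalIdeal.mul_left hRinv h1
      rw [mul_sub, inv_mul_cancel₀ hr0] at h2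
      exact h2
    · rw [Set.indicator_of_notMem hχ, om_creg_eq_zero hM hB hone hχ, mul_zero, sub_zero]
      exact memLocalIdeal_zero
  obtain ⟨K, hK⟩ := exists_cpow_sub_memLocalIdeal hM haZ (IsPBlock.indicator_mem_ZS hB) hcong
  rw [hca] at hK
  -- the exponent
  set m := orderOf g with hm
  have hm0 : 0 < m := orderOf_pos g
  have hcop : Nat.Coprime p m := (Nat.Prime.coprime_iff_not_dvd hp).mpr hg
  set k := Nat.totient m * (K + Nat.card G) with hk
  have htot : 0 < Nat.totient m := Nat.totient_pos.mpr hm0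
  have hKk : K ≤ k := by
    calc K ≤ K + Nat.card G := Nat.le_add_right _ _
      _ ≤ Nat.totient m * (K + Nat.card G) := Nat.le_mul_of_pos_left _ htot
  have hGk : Nat.card G ≤ k := by
    calc Nat.card G ≤ K + Nat.card G := Nat.le_add_left _ _
      _ ≤ Nat.totient m * (K + Nat.card G) := Nat.le_mul_of_pos_left _ htot
  have hgN : g ^ (p ^ k) = g := by
    have h1 : p ^ k ≡ 1 [MOD m] := by
      rw [hk, pow_mul]
      have := (Nat.ModEq.pow_totient hcop).pow (K + Nat.card G)
      rwa [one_pow] at this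
    have := (pow_eq_pow_iff_modEq (x := g)).mpr h1
    rwa [pow_one] at this
  have hpel : ∀ y : G, y ^ (p ^ k) = 1 ↔ ∃ j : ℕ, orderOf y = p ^ j := by
    intro y
    constructor
    · intro h
      obtain ⟨j, -, hj⟩ := (Nat.dvd_prime_pow hp).mp (orderOf_dvd_of_pow_eq_one h)
      exact ⟨j, hj⟩
    · rintro ⟨j, hj⟩
      have h1 : p ^ j ≤ Nat.card G := by
        rw [← hj]
        exact Nat.le_of_dvd Nat.card_pos (orderOf_dvd_natCard y)
      have h2 : j ≤ k := ((Nat.lt_pow_self hp.one_lt).le.trans h1).trans hGk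
      apply orderOf_dvd_iff_pow_eq_one.mp
      rw [hj]
      exact pow_dvd_pow p h2
  -- Frobenius
  obtain ⟨t, ht, hsum⟩ := words_frobenius hp k (rsh g⁻¹ w) delta isClassFunction_delta
    (localSubring M) (fun y => hwS _) (fun y => by
      rw [delta_apply]
      split_ifs
      · exact memLocalRing_one
      · exact memLocalRing_zero)
  rw [← sum_cpow_mul, cpow_rsh g⁻¹ hwcl] at hsum
  have hL : ∑ y, rsh (g⁻¹ ^ (p ^ k)) (cpow w (p ^ k)) y * delta y = cpow w (p ^ k) g := by
    rw [Finset.sum_eq_single (1 : G)]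
    · rw [rsh_apply, delta_apply, if_pos rfl, mul_one, one_mul, inv_pow, inv_inv, hgN]
    · intro y _ hy
      rw [delta_apply, if_neg hy, mul_zero]
    · intro h; exact absurd (Finset.mem_univ _) h
  rw [hL] at hsum
  set n : ℕ := Nat.card {xy : G × G // (∃ k : ℕ, orderOf xy.1 = p ^ k) ∧ ¬ p ∣ orderOf xy.2 ∧
    xy.1 * xy.2 = g} with hn
  have hRS : ∑ y, rsh g⁻¹ w y ^ (p ^ k) * delta (y ^ (p ^ k)) = (n : ℂ) * ((r : ℂ)⁻¹) ^ (p ^ k) := by
    have h1 : ∀ y, rsh g⁻¹ w y ^ (p ^ k) * delta (y ^ (p ^ k)) =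
        if ((∃ j : ℕ, orderOf y = p ^ j) ∧ ¬ p ∣ orderOf (y * g)) then ((r : ℂ)⁻¹) ^ (p ^ k)
        else 0 := by
      intro y
      rw [rsh_apply, inv_inv, delta_apply, hw, Pi.smul_apply, hσv, smul_eq_mul]
      by_cases h1 : y ^ (p ^ k) = 1
      · by_cases h2 : p ∣ orderOf (y * g)
        · have h3 : ¬ ((∃ j : ℕ, orderOf y = p ^ j) ∧ ¬ p ∣ orderOf (y * g)) := fun h => h.2 h2
          rw [if_pos h2, if_neg h3, mul_zero, zero_pow (pow_pos hp.pos k).ne', zero_mul]
        · have h3 : (∃ j : ℕ, orderOf y = p ^ j) ∧ ¬ p ∣ orderOf (y * g) := ⟨(hpel y).mp h1, h2⟩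
          rw [if_neg h2, if_pos h1, if_pos h3, mul_one, mul_one]
      · have h3 : ¬ ((∃ j : ℕ, orderOf y = p ^ j) ∧ ¬ p ∣ orderOf (y * g)) :=
          fun h => h1 ((hpel y).mpr h.1)
        rw [if_neg h1, mul_zero, if_neg h3]
    simp_rw [h1]
    rw [← Finset.sum_filter, Finset.sum_const, nsmul_eq_mul]
    congr 2
    rw [hn, ← Fintype.card_subtype, ← Nat.card_eq_fintype_card]
    apply Nat.card_congr
    refine ⟨fun y => ⟨(y.1⁻¹, y.1 * g), ?_, y.2.2, by simp⟩,
      fun xy => ⟨xy.1.1⁻¹, ?_, ?_⟩, ?_, ?_⟩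
    · obtain ⟨j, hj⟩ := y.2.1
      exact ⟨j, by rw [orderOf_inv]; exact hj⟩
    · obtain ⟨j, hj⟩ := xy.2.1
      exact ⟨j, by rw [orderOf_inv]; exact hj⟩
    · have h3 : xy.1.1⁻¹ * g = xy.1.2 := inv_mul_eq_of_eq_mul xy.2.2.2.symm
      rw [h3]
      exact xy.2.2.1
    · intro y
      apply Subtype.ext
      simp
    · intro xy
      apply Subtype.ext
      apply Prod.ext
      · simp
      · show xy.1.1⁻¹ * g = xy.1.2
        exact inv_mul_eq_of_eq_mul xy.2.2.2.symm
  rw [hRS] at hsum
  -- Fermat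
  have hferm : MemLocalIdeal M (((r : ℂ)⁻¹) ^ (p ^ k) - (r : ℂ)⁻¹) := by
    have h1 : (p : ℤ) ∣ (r : ℤ) - (r : ℤ) ^ (p ^ k) := by
      rw [← (ZMod.intCast_zmod_eq_zero_iff_dvd _ p)]
      push_cast
      rw [ZMod.pow_card_pow, sub_self]
    have h2 := (memLocalIdeal_intCast_iff hM _).mpr h1
    push_cast at h2
    have h3 := MemLocalIdeal.mul_right h2 (MemLocalRing.mul hRinv (MemLocalRing.pow hRinv (p ^ k)))
    convert h3 using 1
    have h4 : (r : ℂ) ^ (p ^ k) ≠ 0 := pow_ne_zero _ hr0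
    rw [inv_pow]
    field_simp
  rw [blockCoeff_eq_coef]
  have hfin : coef ((principalBlock M G).indicator 1) g - (n : ℂ) / (r : ℂ) =
      -(cpow w (p ^ k) g - coef ((principalBlock M G).indicator 1) g) +
      ((n : ℂ) * (((r : ℂ)⁻¹) ^ (p ^ k) - (r : ℂ)⁻¹) + (p : ℂ) * t) := by
    rw [hsum]
    ring
  rw [hfin]
  exact MemLocalIdeal.add (MemLocalIdeal.neg (hK k hKk g))
    (MemLocalIdeal.add (MemLocalIdeal.mul_left (memLocalRing_natCast n) hferm)
      (MemLocalIdeal.mul_right (memLocalIdeal_p hM) ht))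

end Cfsg.Agent.S0940
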