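import Mathlib
import Cfsg.Statements.S0944
import Cfsg.Agent.Lib.Helper6.SubSum

set_option autoImplicit false
open Cfsg
open Cfsg.Agent.Lib.Helper6 Cfsg.Agent.Lib.Helper2
open scoped ComplexConjugate Classical

attribute [local instance] irrFintype

namespace Cfsg.Agent.S0944

/-- Let χ be an irreducible character of the finite group G and u an involution. Then χ u is a rational integer n with n ≡ χ 1 (mod 2). -/
theorem result {G : Type*} [Group G] [Finite G] (χ : Cfsg.IrrCharacter G) (u : G) (hu : orderOf u = 2) : ∃ n : ℤ, (χ : G → ℂ) u = (n : ℂ) ∧ (2 : ℤ) ∣ (Cfsg.charDegree (χ : G → ℂ) : ℤ) - n := by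
  let _ := Fintype.ofFinite G
  obtain ⟨n, hn⟩ := exists_int_of_orderOf_two (IsIrrCharacter.isCharacter χ.2) hu
  refine ⟨n, hn, ?_⟩
  have hmem : ∀ x ∈ Subgroup.zpowers u, x ≠ 1 → x = u := by
    intro x hx hx1
    obtain ⟨k, rfl⟩ := Subgroup.mem_zpowers_iff.mp hx
    have hzz : u ^ (2 : ℤ) = 1 := by
      have := pow_orderOf_eq_one u
      rw [hu] at this
      exact_mod_cast this
    rcases Int.even_or_odd' k with ⟨j, rfl | rfl⟩
    · exfalso; apply hx1
      rw [zpow_mul, hzz, one_zpow]
    · rw [zpow_add, zpow_mul, hzz, one_zpow, one_mul, zpow_one]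
  have h1 := card_dvd_degree_sub (IsIrrCharacter.isCharacter χ.2) (Subgroup.zpowers u) n
    (fun x hx hx1 => by rw [hmem x hx hx1]; exact hn)
  rw [Nat.card_zpowers, hu] at h1
  exact_mod_cast h1

end Cfsg.Agent.S0944
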