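import Mathlib
import Cfsg.Statements.S0954
import Cfsg.Agent.Lib.Helper6.Cover3

set_option autoImplicit false
open Cfsg
open Cfsg.Agent.Lib.Helper6 Cfsg.Agent.Lib.Helper2
open scoped ComplexConjugate Classical

attribute [local instance] irrFintype

namespace Cfsg.Agent.S0954

/-- Let N be a normal subgroup of the finite group G of order prime to p and of p-power index (a normal p-complement), and fix a maximal ideal M of the algebraic integers containing p. Then two irreducible characters χ, ψ of G lie in the same block if and only if some irreducible character of N has nonzero inner product with both the restriction of χ and the restriction of ψ. -/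
theorem result {G : Type*} [Group G] [Fintype G] (p : ℕ) [Fact p.Prime] (M : Ideal Cfsg.AlgInt) (hM : Cfsg.IsPModular p M) (N : Subgroup G) [N.Normal] [Fintype N] (hN : ¬ p ∣ Nat.card N) (hidx : ∃ k : ℕ, N.index = p ^ k) (χ ψ : Cfsg.IrrCharacter G) : Cfsg.SameBlock M (χ : G → ℂ) (ψ : G → ℂ) ↔ ∃ θ : Cfsg.IrrCharacter N, Cfsg.classInner (fun n : N => (χ : G → ℂ) n) (θ : N → ℂ) ≠ 0 ∧ Cfsg.classInner (fun n : N => (ψ : G → ℂ) n) (θ : N → ℂ) ≠ 0 := by
  have := IsPModular.isPrime hM
  have hp : p.Prime := hM.1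
  obtain ⟨k, hk⟩ := hidx
  constructor
  · intro h
    obtain ⟨θ, hθ⟩ := exists_constituent N χ.2
    exact ⟨θ, hθ, constituent_of_sameBlock hM N hN h θ hθ⟩
  · rintro ⟨θ, h1, h2⟩
    have hb : IsPBlock M (blockOf M (θ : N → ℂ)) := ⟨θ, rfl⟩
    have hB : IsPBlock M (blockOf M (χ : G → ℂ)) := ⟨χ, rfl⟩
    have hB' : IsPBlock M (blockOf M (ψ : G → ℂ)) := ⟨ψ, rfl⟩
    have h3 := covers_unique N hM (fun g hg => mem_of_index_pow hp N hk hg) hb hB hB'
      ⟨χ, mem_blockOf_self χ, θ, mem_blockOf_self θ, h1⟩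
      ⟨ψ, mem_blockOf_self ψ, θ, mem_blockOf_self θ, h2⟩
    have h4 : ψ ∈ blockOf M (χ : G → ℂ) := by rw [h3]; exact mem_blockOf_self ψ
    exact h4

end Cfsg.Agent.S0954
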