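import Mathlib
import Cfsg.Statements.S0955
import Cfsg.Agent.Lib.Helper6.FirstMain2
import Cfsg.Agent.Lib.Helper12.Cores

set_option autoImplicit false
open Cfsg
open Cfsg.Agent.Lib.Helper6 Cfsg.Agent.Lib.Helper2
open scoped ComplexConjugate Classical

attribute [local instance] irrFintype

namespace Cfsg.Agent.S0955

/-- Let D be a defect group of a block of the finite group G relative to a maximal ideal M of the algebraic integers containing the prime p. Then D is the largest normal p-subgroup of its own normalizer: O_p(N_G(D)) = D. -/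
theorem result {G : Type*} [Group G] [Finite G] (p : ℕ) [Fact p.Prime] (M : Ideal Cfsg.AlgInt) (hM : Cfsg.IsPModular p M) (B : Set (Cfsg.IrrCharacter G)) (hB : Cfsg.IsPBlock M B) (D : Subgroup G) (hD : Cfsg.IsDefectGroup p M B D) : (Cfsg.pCore p (Subgroup.normalizer (D : Set G))).map (Subgroup.normalizer (D : Set G)).subtype = D := by
  let _ := Fintype.ofFinite G
  have := IsPModular.isPrime hM
  obtain ⟨b, hb, hDb, hind⟩ := exists_brauer_correspondent hM hB hD
  obtain ⟨g₀, hg₀, hDg₀⟩ := isDefectGroup_iff.mp hD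
  have hDp : IsPGroup p D := hDg₀.isPGroup
  have hn : (D.subgroupOf (nor D)).Normal :=
    (Subgroup.normal_subgroupOf_iff_le_normalizer (le_nor D)).mpr le_rfl
  have hp' : IsPGroup p (D.subgroupOf (nor D)) :=
    hDp.of_equiv (Subgroup.subgroupOfEquivOfLe (le_nor D)).symm
  have h1 : Cfsg.pCore p (nor D) ≤ D.subgroupOf (nor D) :=
    normal_le_defectGroup hM hb hDb (Cfsg.Agent.Lib.Helper12.pCore_normal p _)
      (Cfsg.Agent.Lib.Helper12.pCore_isPGroup p _)
  have h2 : D.subgroupOf (nor D) ≤ Cfsg.pCore p (nor D) :=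
    Cfsg.Agent.Lib.Helper12.le_pCore hn hp'
  have h3 : Cfsg.pCore p (nor D) = D.subgroupOf (nor D) := le_antisymm h1 h2
  show (Cfsg.pCore p (nor D)).map (nor D).subtype = D
  rw [h3, Subgroup.map_subgroupOf_eq_of_le (le_nor D)]

end Cfsg.Agent.S0955
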