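import Mathlib
import Cfsg.Statements.S0956
import Cfsg.Agent.Lib.Helper6.Green2
import Cfsg.Agent.Lib.Helper6.FirstMain2

set_option autoImplicit false
open Cfsg
open Cfsg.Agent.Lib.Helper6 Cfsg.Agent.Lib.Helper2
open scoped ComplexConjugate Classical

attribute [local instance] irrFintype

namespace Cfsg.Agent.S0956

/-- Let D be a defect group of a block of the finite group G (relative to a maximal ideal M of the algebraic integers containing the prime p) and P a Sylow p-subgroup containing D. Then there is an element x of order prime to p such that D is a Sylow p-subgroup of the centralizer of x and D = P ∩ x P x⁻¹. -/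
theorem result {G : Type*} [Group G] [Finite G] (p : ℕ) [Fact p.Prime] (M : Ideal Cfsg.AlgInt) (hM : Cfsg.IsPModular p M) (B : Set (Cfsg.IrrCharacter G)) (hB : Cfsg.IsPBlock M B) (D : Subgroup G) (hD : Cfsg.IsDefectGroup p M B D) (P : Sylow p G) (hDP : D ≤ P) : ∃ x : G, ¬ p ∣ orderOf x ∧ (∃ S : Sylow p (Subgroup.centralizer ({x} : Set G)), (S : Subgroup (Subgroup.centralizer ({x} : Set G))).map (Subgroup.centralizer ({x} : Set G)).subtype = D) ∧ (P : Subgroup G) ⊓ (P : Subgroup G).map (MulAut.conj x).toMonoidHom = D := by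
  let _ := Fintype.ofFinite G
  have := IsPModular.isPrime hM
  have hp : p.Prime := hM.1
  obtain ⟨b, hb, hDb, hind⟩ := exists_brauer_correspondent hM hB hD
  have hn : (D.subgroupOf (nor D)).Normal :=
    (Subgroup.normal_subgroupOf_iff_le_normalizer (le_nor D)).mpr le_rfl
  have hPN : IsPGroup p (((P : Subgroup G) ⊓ nor D).subgroupOf (nor D)) :=
    (P.2.to_le inf_le_left).of_equiv (Subgroup.subgroupOfEquivOfLe inf_le_right).symm
  obtain ⟨P₁, hP₁⟩ := hPN.exists_le_sylow
  obtain ⟨g, hg1, hg2, hg3⟩ := weak_green hM hb (P₁ : Subgroup (nor D)) P₁.2 P₁.card_eq_multiplicity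
  obtain ⟨n, hn'⟩ := isDefectGroup_exists_conj hM hb hDb hg3
  have hcjn : cj n (D.subgroupOf (nor D)) = D.subgroupOf (nor D) := by
    ext v
    rw [mem_cj]
    constructor
    · intro h
      have h7 := hn.conj_mem _ h n
      have h8 : n * (n⁻¹ * v * n) * n⁻¹ = v := by group
      rwa [h8] at h7
    · intro h
      have h7 := hn.conj_mem _ h n⁻¹
      rwa [inv_inv] at h7
  rw [hcjn] at hn'
  rw [hn'] at hg2
  refine ⟨(g : G), ?_, ?_, ?_⟩
  · rw [Subgroup.orderOf_coe]; exact hg1
  · obtain ⟨S, hS⟩ := isSylIn_cen_of_subgroupOf hg2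
    exact ⟨S, hS.symm⟩
  · show (P : Subgroup G) ⊓ cj (g : G) (P : Subgroup G) = D
    have hDR : D ≤ (P : Subgroup G) ⊓ cj (g : G) (P : Subgroup G) := by
      refine le_inf hDP ?_
      intro v hv
      rw [mem_cj]
      apply hDP
      have h1 := (Subgroup.mem_normalizer_iff.mp (Subgroup.inv_mem _ g.2) v).mp hv
      rwa [inv_inv] at h1
    by_contra hne
    have hlt : D < (P : Subgroup G) ⊓ cj (g : G) (P : Subgroup G) :=
      lt_of_le_of_ne hDR (fun h => hne h.symm)
    obtain ⟨v, hvR, hvD, hvN⟩ := exists_mem_normalizer_not_mem (P.2.to_le inf_le_left) hlt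
    apply hvD
    have h1 : (⟨v, hvN⟩ : nor D) ∈ (P₁ : Subgroup (nor D)) := hP₁ ⟨hvR.1, hvN⟩
    have h2 : (⟨v, hvN⟩ : nor D) ∈ cj g (P₁ : Subgroup (nor D)) := by
      rw [mem_cj]
      apply hP₁
      refine ⟨mem_cj.mp hvR.2, ?_⟩
      exact (g⁻¹ * ⟨v, hvN⟩ * g : nor D).2
    have h3 : (⟨v, hvN⟩ : nor D) ∈ (P₁ : Subgroup (nor D)) ⊓ cj g (P₁ : Subgroup (nor D)) := ⟨h1, h2⟩
    rw [hn'] at h3
    exact h3

end Cfsg.Agent.S0956
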