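import Cfsg.Statements.S0957
import Mathlib
import Mathlib
import Cfsg.Agent.Lib.Helper21.Wielandt

set_option autoImplicit false
open Cfsg

namespace Cfsg.Agent.S0957

theorem card_dvd_card_sylow {p : ℕ} [Fact p.Prime] {H : Type*} [Group H] [Finite H] (S : Sylow p H)
    {A : Type*} [Group A] (hA : IsPGroup p A) (f : A →* H) (hf : Function.Injective f) :
    Nat.card A ∣ Nat.card S := by
  have h1 : IsPGroup p f.range := hA.of_surjective f.rangeRestrict f.rangeRestrict_surjective
  obtain ⟨S', hS'⟩ := h1.exists_le_sylow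
  have h2 : Nat.card A = Nat.card f.range :=
    Nat.card_congr (MonoidHom.ofInjective hf).toEquiv
  have h3 : Nat.card S' = Nat.card S := by
    rw [Sylow.card_eq_multiplicity, Sylow.card_eq_multiplicity]
  rw [h2, ← h3]
  exact Subgroup.card_dvd_of_le hS'

/-- Let P be a Sylow p-subgroup of the finite group G, let g, h ∈ G and let p ^ d be the order of a Sylow p-subgroup of the centralizer of g. Then the number of pairs (y, z) with y conjugate to g, z conjugate to h and z * y⁻¹ ∈ P is divisible by the order of P divided by p ^ d. -/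
theorem result {G : Type*} [Group G] [Finite G] (p : ℕ) [Fact p.Prime] (P : Sylow p G) (g h : G) (S : Sylow p (Subgroup.centralizer ({g} : Set G))) : Nat.card P / Nat.card S ∣ Nat.card {yz : G × G // IsConj g yz.1 ∧ IsConj h yz.2 ∧ yz.2 * yz.1⁻¹ ∈ (P : Subgroup G)} := by
  classical
  let X := {yz : G × G // IsConj g yz.1 ∧ IsConj h yz.2 ∧ yz.2 * yz.1⁻¹ ∈ (P : Subgroup G)}
  letI : MulAction (P : Subgroup G) X :=
    { smul := fun u x => ⟨((u : G) * x.1.1 * (u : G)⁻¹, (u : G) * x.1.2 * (u : G)⁻¹),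
        x.2.1.trans (isConj_iff.mpr ⟨u, rfl⟩), x.2.2.1.trans (isConj_iff.mpr ⟨u, rfl⟩), by
          have e : (u : G) * x.1.2 * (u : G)⁻¹ * ((u : G) * x.1.1 * (u : G)⁻¹)⁻¹ =
            (u : G) * (x.1.2 * x.1.1⁻¹) * (u : G)⁻¹ := by group
          show (u : G) * x.1.2 * (u : G)⁻¹ * ((u : G) * x.1.1 * (u : G)⁻¹)⁻¹ ∈ (P : Subgroup G)
          rw [e]
          exact Subgroup.mul_mem _ (Subgroup.mul_mem _ u.2 x.2.2.2) (Subgroup.inv_mem _ u.2)⟩
      one_smul := fun x => Subtype.ext (Prod.ext (by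
          show ((1 : (P : Subgroup G)) : G) * x.1.1 * ((1 : (P : Subgroup G)) : G)⁻¹ = x.1.1
          simp) (by
          show ((1 : (P : Subgroup G)) : G) * x.1.2 * ((1 : (P : Subgroup G)) : G)⁻¹ = x.1.2
          simp))
      mul_smul := fun u v x => Subtype.ext (Prod.ext (by
          show ((u * v : (P : Subgroup G)) : G) * x.1.1 * ((u * v : (P : Subgroup G)) : G)⁻¹ =
            (u : G) * ((v : G) * x.1.1 * (v : G)⁻¹) * (u : G)⁻¹
          rw [Subgroup.coe_mul]; group) (by
          show ((u * v : (P : Subgroup G)) : G) * x.1.2 * ((u * v : (P : Subgroup G)) : G)⁻¹ =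
            (u : G) * ((v : G) * x.1.2 * (v : G)⁻¹) * (u : G)⁻¹
          rw [Subgroup.coe_mul]; group)) }
  have hsmul : ∀ (u : (P : Subgroup G)) (x : X), (u • x).1.1 = (u : G) * x.1.1 * (u : G)⁻¹ :=
    fun _ _ => rfl
  have hSP : Nat.card S ∣ Nat.card P :=
    card_dvd_card_sylow P S.2 ((Subgroup.centralizer ({g} : Set G)).subtype.comp
      (S : Subgroup (Subgroup.centralizer ({g} : Set G))).subtype)
      (fun a b hab => Subtype.ext (Subtype.ext hab))
  obtain ⟨r, hr⟩ := hSP
  have hSpos : 0 < Nat.card S := Nat.card_pos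
  have hdiv : Nat.card P / Nat.card S = r := by
    rw [hr]; exact Nat.mul_div_cancel_left r hSpos
  rw [hdiv]
  show r ∣ Nat.card X
  apply Cfsg.Agent.Lib.Helper21.dvd_card_of_dvd_orbits (H := (P : Subgroup G))
  intro x
  obtain ⟨c, hc⟩ := isConj_iff.mp x.2.1.symm
  -- c * y * c⁻¹ = g
  have hQ : IsPGroup p (MulAction.stabilizer (P : Subgroup G) x) := P.2.to_subgroup _
  have hmem : ∀ u : MulAction.stabilizer (P : Subgroup G) x,
      c * ((u : (P : Subgroup G)) : G) * c⁻¹ ∈ Subgroup.centralizer ({g} : Set G) := by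
    intro u
    rw [Subgroup.mem_centralizer_singleton_iff]
    have h1 : (u : (P : Subgroup G)) • x = x := u.2
    have h2 : ((u : (P : Subgroup G)) : G) * x.1.1 * ((u : (P : Subgroup G)) : G)⁻¹ = x.1.1 := by
      rw [← hsmul, h1]
    have h3 : ((u : (P : Subgroup G)) : G) * x.1.1 = x.1.1 * ((u : (P : Subgroup G)) : G) :=
      mul_inv_eq_iff_eq_mul.mp h2
    rw [← hc]
    calc c * ((u : (P : Subgroup G)) : G) * c⁻¹ * (c * x.1.1 * c⁻¹)
        = c * (((u : (P : Subgroup G)) : G) * x.1.1) * c⁻¹ := by group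
      _ = c * (x.1.1 * ((u : (P : Subgroup G)) : G)) * c⁻¹ := by rw [h3]
      _ = c * x.1.1 * c⁻¹ * (c * ((u : (P : Subgroup G)) : G) * c⁻¹) := by group
  let f : MulAction.stabilizer (P : Subgroup G) x →* Subgroup.centralizer ({g} : Set G) :=
    { toFun := fun u => ⟨c * ((u : (P : Subgroup G)) : G) * c⁻¹, hmem u⟩
      map_one' := Subtype.ext (by simp)
      map_mul' := fun u v => Subtype.ext (by
        show c * (((u * v : MulAction.stabilizer (P : Subgroup G) x) : (P : Subgroup G)) : G) * c⁻¹ =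
          c * ((u : (P : Subgroup G)) : G) * c⁻¹ * (c * ((v : (P : Subgroup G)) : G) * c⁻¹)
        rw [Subgroup.coe_mul, Subgroup.coe_mul]; group) }
  have hf : Function.Injective f := by
    intro u v huv
    have h1 : c * ((u : (P : Subgroup G)) : G) * c⁻¹ = c * ((v : (P : Subgroup G)) : G) * c⁻¹ :=
      congrArg Subtype.val huv
    exact Subtype.ext (Subtype.ext (mul_left_cancel (mul_right_cancel h1)))
  obtain ⟨m, hm⟩ := card_dvd_card_sylow S hQ f hf
  have h1 : Nat.card (MulAction.orbit (P : Subgroup G) x) *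
      Nat.card (MulAction.stabilizer (P : Subgroup G) x) = Nat.card P := by
    rw [Nat.card_coe_set_eq, ← MulAction.index_stabilizer, mul_comm]
    exact Subgroup.card_mul_index _
  have hQpos : 0 < Nat.card (MulAction.stabilizer (P : Subgroup G) x) := Nat.card_pos
  rw [hr, hm] at h1
  have h2 : Nat.card (MulAction.orbit (P : Subgroup G) x) = m * r := by
    apply Nat.eq_of_mul_eq_mul_right hQpos
    rw [h1]; ring
  rw [h2]
  exact Dvd.intro_left m rfl

end Cfsg.Agent.S0957
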