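import Mathlib
import Cfsg.Statements.S0958
import Cfsg.Agent.Lib.Helper6.FirstMain

set_option autoImplicit false
open Cfsg
open Cfsg.Agent.Lib.Helper6 Cfsg.Agent.Lib.Helper2
open scoped ComplexConjugate Classical

attribute [local instance] irrFintype

namespace Cfsg.Agent.S0958

/-- Let P be a p-subgroup of the finite group G and H a subgroup with P ⊔ C_G(P) ≤ H ≤ N_G(P); fix a maximal ideal M of the algebraic integers containing p. Then a block B of G is induced by some block of H if and only if some conjugate of P is contained in a defect group of B. -/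
theorem result {G : Type*} [Group G] [Finite G] (p : ℕ) [Fact p.Prime] (M : Ideal Cfsg.AlgInt) (hM : Cfsg.IsPModular p M) (P H : Subgroup G) (hP : IsPGroup p P) (hPH : P ⊔ Subgroup.centralizer (P : Set G) ≤ H) (hHN : H ≤ Subgroup.normalizer (P : Set G)) (B : Set (Cfsg.IrrCharacter G)) (hB : Cfsg.IsPBlock M B) : (∃ b : Set (Cfsg.IrrCharacter H), Cfsg.IsInducedBlock M H b B) ↔ ∃ D : Subgroup G, Cfsg.IsDefectGroup p M B D ∧ ∃ x : G, P.map (MulAut.conj x).toMonoidHom ≤ D := by
  let _ := Fintype.ofFinite G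
  let _ : Fintype H := Fintype.ofFinite H
  have := IsPModular.isPrime hM
  have hPH' : P ≤ H := le_sup_left.trans hPH
  have hCH : Subgroup.centralizer (P : Set G) ≤ H := le_sup_right.trans hPH
  constructor
  · rintro ⟨b, hind⟩
    obtain ⟨Db, hDb⟩ := exists_isDefectGroup hM hind.1
    have hn : (P.subgroupOf H).Normal := (Subgroup.normal_subgroupOf_iff_le_normalizer hPH').mpr hHN
    have hp' : IsPGroup p (P.subgroupOf H) := hP.of_equiv (Subgroup.subgroupOfEquivOfLe hPH').symm
    have h1 := normal_le_defectGroup hM hind.1 hDb hn hp'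
    obtain ⟨E, hE, hle⟩ := exists_isDefectGroup_ge_of_induced hM H hind hDb
    refine ⟨E, hE, 1, ?_⟩
    have h2 : P.map (MulAut.conj (1 : G)).toMonoidHom = P := cj_one P
    rw [h2, ← Subgroup.map_subgroupOf_eq_of_le hPH']
    exact (Subgroup.map_mono h1).trans hle
  · rintro ⟨D, hD, x, hx⟩
    obtain ⟨g₀, hg₀, hDg₀⟩ := isDefectGroup_iff.mp hD
    have hg₁ : x⁻¹ * g₀ * x⁻¹⁻¹ ∈ Subgroup.centralizer (P : Set G) := by
      rw [← le_cen_iff, cen, centralizer_singleton_cj, ← cj_inv_le_iff, inv_inv]
      exact hx.trans hDg₀.le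
    apply exists_induced_of_unit hM hP hPH' hCH hHN hB hg₁
    rw [isClassFunction_coef]
    exact (isDefectClass_iff.mp hg₀).2.1

end Cfsg.Agent.S0958
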