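import Mathlib
import Cfsg.Statements.S0959
import Cfsg.Agent.Lib.Helper6.Vanish

set_option autoImplicit false
open Cfsg
open Cfsg.Agent.Lib.Helper6 Cfsg.Agent.Lib.Helper2
open scoped ComplexConjugate Classical

attribute [local instance] irrFintype

namespace Cfsg.Agent.S0959

/-- Let B be a block of the finite group G with defect group D (relative to a maximal ideal M of the algebraic integers containing the prime p), and let P be a p-subgroup. Then there is an element g whose idempotent coefficient for B is a local integer outside the local ideal at M and which has a conjugate centralizing P, if and only if some conjugate of P is contained in D. -/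
theorem result {G : Type*} [Group G] [Finite G] (p : ℕ) [Fact p.Prime] (M : Ideal Cfsg.AlgInt) (hM : Cfsg.IsPModular p M) (B : Set (Cfsg.IrrCharacter G)) (hB : Cfsg.IsPBlock M B) (D : Subgroup G) (hD : Cfsg.IsDefectGroup p M B D) (P : Subgroup G) (hP : IsPGroup p P) : (∃ g : G, Cfsg.MemLocalRing M (Cfsg.blockCoeff B g) ∧ ¬ Cfsg.MemLocalIdeal M (Cfsg.blockCoeff B g) ∧ ∃ c : G, IsConj g c ∧ c ∈ Subgroup.centralizer (P : Set G)) ↔ ∃ x : G, P.map (MulAut.conj x).toMonoidHom ≤ D := by
  let _ := Fintype.ofFinite G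
  have := IsPModular.isPrime hM
  constructor
  · rintro ⟨g, -, hg, c, hgc, hcP⟩
    rw [blockCoeff_eq_coef, Cfsg.Agent.Lib.Helper6.IsClassFunction.eq_of_isConj (isClassFunction_coef _) hgc] at hg
    obtain ⟨D', hD', hPD'⟩ := exists_isDefectGroup_ge hM hB hg hP (le_cen_iff.mpr hcP)
    obtain ⟨t, rfl⟩ := isDefectGroup_exists_conj hM hB hD hD'
    exact ⟨t⁻¹, cj_inv_le_iff.mpr hPD'⟩
  · rintro ⟨x, hx⟩
    obtain ⟨g₀, hg₀, hDg₀⟩ := isDefectGroup_iff.mp hD
    refine ⟨g₀, hg₀.1, hg₀.2.1, x⁻¹ * g₀ * x⁻¹⁻¹, isConj_iff.mpr ⟨x⁻¹, rfl⟩, ?_⟩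
    rw [← le_cen_iff, cen, centralizer_singleton_cj, ← cj_inv_le_iff, inv_inv]
    exact hx.trans hDg₀.le

end Cfsg.Agent.S0959
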