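import Mathlib
import Cfsg.Statements.S0962
import Cfsg.Agent.Lib.Helper6.MinMax

set_option autoImplicit false
open Cfsg
open Cfsg.Agent.Lib.Helper6 Cfsg.Agent.Lib.Helper2
open scoped ComplexConjugate Classical

attribute [local instance] irrFintype

namespace Cfsg.Agent.S0962

/-- Fix a maximal ideal M of the algebraic integers containing the prime p and a natural number d. The number of blocks of the finite group G of defect at least d is at most the number of conjugacy classes of p-regular elements of G of defect at least d, where the defect of a class is the exponent of p in the order of the centralizer of any of its elements. -/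
theorem result {G : Type*} [Group G] [Finite G] (p : ℕ) [Fact p.Prime] (M : Ideal Cfsg.AlgInt) (hM : Cfsg.IsPModular p M) (d : ℕ) : Nat.card {B : Set (Cfsg.IrrCharacter G) // Cfsg.IsPBlock M B ∧ d ≤ Cfsg.blockDefect p B} ≤ Nat.card {C : ConjClasses G // ∃ g : G, ConjClasses.mk g = C ∧ Cfsg.IsPRegular p g ∧ d ≤ (Nat.card (Subgroup.centralizer ({g} : Set G))).factorization p} := by
  let _ := Fintype.ofFinite G
  have := IsPModular.isPrime hM
  apply card_blocks_le hM (fun B => d ≤ blockDefect p B)
    (fun C => ∃ g : G, ConjClasses.mk g = C ∧ IsPRegular p g ∧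
      d ≤ (Nat.card (Subgroup.centralizer ({g} : Set G))).factorization p)
  intro B B' hB hBσ hB' hBσ' χ hχ C hC
  set g := Quotient.out C with hg
  have hgC : ConjClasses.mk g = C := Quotient.out_eq C
  by_cases hreg : p ∣ orderOf g
  · rw [coef_indicator_eq_zero hM hB hreg, zero_mul]
    exact memLocalIdeal_zero
  · by_cases hlt : d ≤ (Nat.card (cen g)).factorization p
    · exact absurd ⟨g, hgC, hreg, hlt⟩ hC
    · refine MemLocalIdeal.mul_left (IsPBlock.indicator_mem_ZS hB g) ?_
      by_contra hc
      have := blockDefect_le_of_centralChar_unit hM hB' hχ hc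
      omega

end Cfsg.Agent.S0962
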