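import Mathlib
import Cfsg.Statements.S0963
import Cfsg.Agent.Lib.Helper6.Cover2

set_option autoImplicit false
open Cfsg
open Cfsg.Agent.Lib.Helper6 Cfsg.Agent.Lib.Helper2
open scoped ComplexConjugate Classical

attribute [local instance] irrFintype

namespace Cfsg.Agent.S0963

/-- Let N be a normal subgroup of the finite group G, χ an irreducible character of G and θ an irreducible character of N. Then θ occurs in the restriction of χ to N if and only if, for every n ∈ N, the central character of χ at n (class size in G times χ n over χ 1) equals the sum of θ m / θ 1 over the elements m of N conjugate in G to n. -/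
theorem result {G : Type*} [Group G] [Fintype G] (N : Subgroup G) [N.Normal] [Fintype N] (χ : Cfsg.IrrCharacter G) (θ : Cfsg.IrrCharacter N) : Cfsg.classInner (fun n : N => (χ : G → ℂ) n) (θ : N → ℂ) ≠ 0 ↔ ∀ n : N, Cfsg.centralChar (χ : G → ℂ) (n : G) = Cfsg.inducedCentralChar N (θ : N → ℂ) (n : G) := by
  constructor
  · intro h n
    exact centralChar_eq_of_constituent N χ.2 θ h n
  · intro h
    obtain ⟨θ', hθ'⟩ := exists_constituent N χ.2
    have ha := orbSet_indicator_conj N ({θ'} : Set (IrrCharacter N))
    have h1 := om_extend_coef N ha χ.2 θ' hθ'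
    have hmem : θ' ∈ orbSet N ({θ'} : Set (IrrCharacter N)) := ⟨1, by rw [conjIrr_one]; rfl⟩
    rw [Set.indicator_of_mem hmem, Pi.one_apply,
      om_eq_sum_classes (irr_isClassFunction χ.2) (isClassFunction_extend_coef N ha)] at h1
    have h3 := apply_eq_sum_classes N ha θ
    have h4 : ((orbSet N ({θ'} : Set (IrrCharacter N))).indicator 1 θ : ℂ) = 1 := by
      rw [h3, ← h1]
      refine Finset.sum_congr rfl fun C _ => ?_
      by_cases hC : Quotient.out C ∈ N
      · rw [h ⟨_, hC⟩]
      · rw [extendByZero_not_mem N _ hC, zero_mul, zero_mul]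
    have h5 : θ ∈ orbSet N ({θ'} : Set (IrrCharacter N)) := by
      by_contra hcon
      rw [Set.indicator_of_notMem hcon] at h4
      exact zero_ne_one h4
    obtain ⟨g, hg⟩ := h5
    rw [← classInner_conjIrr N (irr_isClassFunction χ.2) θ g, Set.mem_singleton_iff.mp hg]
    exact hθ'

end Cfsg.Agent.S0963
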