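import Mathlib
import Cfsg.Statements.S0966
import Cfsg.Agent.Lib.Helper6.Cover3

set_option autoImplicit false
open Cfsg
open Cfsg.Agent.Lib.Helper6 Cfsg.Agent.Lib.Helper2
open scoped ComplexConjugate Classical

attribute [local instance] irrFintype

namespace Cfsg.Agent.S0966

/-- Let N be a normal subgroup of p-power index in the finite group G and b a block of N relative to a maximal ideal M of the algebraic integers containing p. Then there is exactly one block B of G containing a character whose restriction to N has a constituent in b. -/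
theorem result {G : Type*} [Group G] [Fintype G] (p : ℕ) [Fact p.Prime] (M : Ideal Cfsg.AlgInt) (hM : Cfsg.IsPModular p M) (N : Subgroup G) [N.Normal] [Fintype N] (hidx : ∃ k : ℕ, N.index = p ^ k) (b : Set (Cfsg.IrrCharacter N)) (hb : Cfsg.IsPBlock M b) : ∃! B : Set (Cfsg.IrrCharacter G), Cfsg.IsPBlock M B ∧ ∃ χ ∈ B, ∃ θ ∈ b, Cfsg.classInner (fun n : N => (χ : G → ℂ) n) (θ : N → ℂ) ≠ 0 := by
  have := IsPModular.isPrime hM
  have hp : p.Prime := hM.1
  obtain ⟨k, hk⟩ := hidx
  obtain ⟨B, hB, hcov⟩ := exists_covers (G := G) N hb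
  refine ⟨B, ⟨hB, hcov⟩, ?_⟩
  rintro B' ⟨hB', hcov'⟩
  exact covers_unique N hM (fun g hg => mem_of_index_pow hp N hk hg) hb hB' hB hcov' hcov

end Cfsg.Agent.S0966
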