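import Mathlib
import Cfsg.Statements.S0968
import Cfsg.Agent.Lib.Helper6.CentralProd3

set_option autoImplicit false
open Cfsg
open Cfsg.Agent.Lib.Helper6 Cfsg.Agent.Lib.Helper2
open scoped ComplexConjugate Classical

attribute [local instance] irrFintype

namespace Cfsg.Agent.S0968

/-- Let P be a p-subgroup of the finite group G with P ⊔ C_G(P) = G, and let B be a block with defect group P relative to a maximal ideal M of the algebraic integers containing p. Then there is exactly one θ ∈ B with θ x = θ 1 for all x ∈ P; for this θ the exponent of p in θ(1) equals the exponent of p in the index of P; and the number of members of B equals the number of conjugacy classes of P. -/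
theorem result {G : Type*} [Group G] [Finite G] (p : ℕ) [Fact p.Prime] (M : Ideal Cfsg.AlgInt) (hM : Cfsg.IsPModular p M) (P : Subgroup G) (hP : IsPGroup p P) (hG : P ⊔ Subgroup.centralizer (P : Set G) = ⊤) (B : Set (Cfsg.IrrCharacter G)) (hB : Cfsg.IsPBlock M B) (hD : Cfsg.IsDefectGroup p M B P) : (∃! θ : Cfsg.IrrCharacter G, θ ∈ B ∧ ∀ x ∈ P, (θ : G → ℂ) x = (θ : G → ℂ) 1) ∧ (∀ θ ∈ B, (∀ x ∈ P, (θ : G → ℂ) x = (θ : G → ℂ) 1) → (Cfsg.charDegree (θ : G → ℂ)).factorization p = P.index.factorization p) ∧ Nat.card B = Nat.card (ConjClasses P) := by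
  let _ := Fintype.ofFinite G
  have hn := normal_of_sup hG
  have hreg := regCent_of_sup hM.1 hP hG
  obtain ⟨χ, hχ, hker⟩ := exists_mem_ker hM hP hreg hB
  refine ⟨⟨χ, ⟨hχ, hker⟩, fun θ hθ => ker_unique hM hP hreg hB hD hθ.1 hχ hθ.2 hker⟩,
    fun θ hθ hk => factorization_degree_of_ker hM hB hD hθ hk, ?_⟩
  have hex : ∀ θ : B, ∃ ζ : IrrCharacter P, ∀ (y : P) (x : G), ¬ p ∣ orderOf x →
      ((θ : IrrCharacter G) : G → ℂ) ((y : G) * x) = (ζ : P → ℂ) y * (χ : G → ℂ) x :=
    fun θ => exists_zeta hM hP hG hB hD hχ θ.2 hker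
  choose Φ hΦ using hex
  have hbij : Function.Bijective Φ := by
    constructor
    · intro θ θ' h
      apply Subtype.ext
      apply Subtype.ext
      funext g
      obtain ⟨z, hz⟩ := exists_isPPart hM.1 g
      by_cases hzP : z ∈ P
      · obtain ⟨w, rfl, -, -, hw⟩ := hz
        rw [hΦ θ ⟨z, hzP⟩ w hw, hΦ θ' ⟨z, hzP⟩ w hw, h]
      · rw [irr_eq_zero_of_normal_defect hM hB hD θ.2 hz hzP,
          irr_eq_zero_of_normal_defect hM hB hD θ'.2 hz hzP]
    · intro ζ
      obtain ⟨θ, hθ, h⟩ := exists_of_zeta hM hP hG hB hD hχ hker ζ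
      refine ⟨⟨θ, hθ⟩, ?_⟩
      apply Subtype.ext
      funext y
      have h1 := hΦ ⟨θ, hθ⟩ y 1 (not_dvd_orderOf_one hM.1)
      have h2 := h y 1 (not_dvd_orderOf_one hM.1)
      rw [h2] at h1
      exact (mul_right_cancel₀ (irr_one_ne_zero χ.2) h1).symm
  rw [Nat.card_eq_of_bijective Φ hbij, card_irr_eq_card_conjClasses]

end Cfsg.Agent.S0968
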