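import Mathlib
import Cfsg.Statements.S0972
import Cfsg.Agent.Lib.Helper6.NormalDefect

set_option autoImplicit false
open Cfsg
open Cfsg.Agent.Lib.Helper6 Cfsg.Agent.Lib.Helper2
open scoped ComplexConjugate Classical

attribute [local instance] irrFintype

namespace Cfsg.Agent.S0972

/-- Let B be a block of the finite group G (relative to a maximal ideal M of the algebraic integers containing the prime p) with a defect group P that is normal in G. Then P is commutative if and only if every member of B has height zero. -/
theorem result {G : Type*} [Group G] [Finite G] (p : ℕ) [Fact p.Prime] (M : Ideal Cfsg.AlgInt) (hM : Cfsg.IsPModular p M) (B : Set (Cfsg.IrrCharacter G)) (hB : Cfsg.IsPBlock M B) (P : Subgroup G) [P.Normal] (hP : Cfsg.IsDefectGroup p M B P) : (∀ a ∈ P, ∀ c ∈ P, a * c = c * a) ↔ ∀ χ ∈ B, Cfsg.blockHeight p B (χ : G → ℂ) = 0 := by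
  let _ := Fintype.ofFinite G
  have := IsPModular.isPrime hM
  obtain ⟨g, hg, hDg⟩ := isDefectGroup_iff.mp hP
  have hPp : IsPGroup p P := hDg.isPGroup
  have hsInf := sInf_degree_eq hM hB hg
  have hidx := index_factorization_of_defect hM hDg
  constructor
  · intro hab χ hχ
    have h1 := Cfsg.Agent.Lib.Helper13.ito_degree_dvd P hab χ
    have h2 : (charDegree (χ : G → ℂ)).factorization p ≤ P.index.factorization p :=
      (Nat.factorization_le_iff_dvd (Cfsg.Agent.Lib.Helper24.charDegree_pos χ.2).ne'
        Subgroup.index_ne_zero_of_finite).mpr h1 p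
    rw [blockHeight, hsInf, ← hidx]
    omega
  · intro hh
    have hlin : ∀ ζ : IrrCharacter P, charDegree (ζ : P → ℂ) = 1 := by
      intro ζ
      obtain ⟨χ, hχ, hc⟩ := exists_over_of_pGroup hM hB hPp ζ
      by_contra hne
      have hpd : p ∣ charDegree (ζ : P → ℂ) := by
        have h1 := Cfsg.Agent.Lib.Helper24.degree_dvd_card ζ.2
        obtain ⟨n, hn⟩ := IsPGroup.iff_card.mp hPp
        rw [hn] at h1
        obtain ⟨j, -, hj⟩ := (Nat.dvd_prime_pow hM.1).mp h1
        rw [hj] at hne ⊢
        apply dvd_pow_self
        rintro rfl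
        exact hne (pow_zero p)
      apply not_memLocalIdeal_of_height_zero hM hB hg hχ (hh χ hχ)
      apply memLocalIdeal_of_constituents hM (P := P) _ (IsIrrCharacter.isCharacter χ.2)
      · intro ζ' hζ'
        obtain ⟨x, hx⟩ := Cfsg.Agent.Lib.Helper25.Twist.exists_conj_of_constituents P χ.2 ζ.2 ζ'.2
          hc hζ'
        have h3 : charDegree (ζ' : P → ℂ) = charDegree (ζ : P → ℂ) := by
          unfold charDegree
          rw [hx, conjFun_one_apply]
        rw [h3]
        exact hpd
      · rw [Subgroup.mem_centralizer_iff]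
        intro y hy
        exact Subgroup.mem_centralizer_singleton_iff.mp (hDg.le hy)
    intro a ha c hc
    have h4 := comm_of_all_linear hlin ⟨a, ha⟩ ⟨c, hc⟩
    exact congrArg Subtype.val h4

end Cfsg.Agent.S0972
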