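import Mathlib
import Cfsg.Statements.S0973
import Cfsg.Agent.Lib.Helper6.CentralProd3
import Cfsg.Agent.Lib.Helper6.IndDefect
import Cfsg.Agent.Lib.Helper24.PCBlock
import Cfsg.Agent.Lib.Helper24.BrauerMax3

set_option autoImplicit false
open Cfsg
open Cfsg.Agent.Lib.Helper6 Cfsg.Agent.Lib.Helper2
open scoped ComplexConjugate Classical

attribute [local instance] irrFintype

namespace Cfsg.Agent.S0973

/-- Let B be a block of the finite group G with defect group P (relative to a maximal ideal M of the algebraic integers containing p), and let L = P ⊔ C_G(P). Then (i) some block b of L with defect group P (viewed in L) induces B, and (ii) if b and b' are blocks of L both inducing B, there is n ∈ N_G(P) carrying b to b': for every θ ∈ b there is θ' ∈ b' with θ' x = θ (n x n⁻¹) for all x ∈ L. -/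
theorem result {G : Type*} [Group G] [Finite G] (p : ℕ) [Fact p.Prime] (M : Ideal Cfsg.AlgInt) (hM : Cfsg.IsPModular p M) (B : Set (Cfsg.IrrCharacter G)) (hB : Cfsg.IsPBlock M B) (P : Subgroup G) (hP : Cfsg.IsDefectGroup p M B P) : (∃ b : Set (Cfsg.IrrCharacter ↥(P ⊔ Subgroup.centralizer (P : Set G))), Cfsg.IsDefectGroup p M b (P.subgroupOf (P ⊔ Subgroup.centralizer (P : Set G))) ∧ Cfsg.IsInducedBlock M (P ⊔ Subgroup.centralizer (P : Set G)) b B) ∧ ∀ b b' : Set (Cfsg.IrrCharacter ↥(P ⊔ Subgroup.centralizer (P : Set G))), Cfsg.IsInducedBlock M (P ⊔ Subgroup.centralizer (P : Set G)) b B → Cfsg.IsInducedBlock M (P ⊔ Subgroup.centralizer (P : Set G)) b' B → ∃ n ∈ Subgroup.normalizer (P : Set G), ∀ θ ∈ b, ∃ θ' ∈ b', ∀ x : ↥(P ⊔ Subgroup.centralizer (P : Set G)), ∀ hx : n * (x : G) * n⁻¹ ∈ P ⊔ Subgroup.centralizer (P : Set G), (θ' : ↥(P ⊔ Subgroup.centralizer (P : Set G)) → ℂ) x = (θ : ↥(P ⊔ Subgroup.centralizer (P : Set G)) → ℂ) ⟨n * (x : G)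 * n⁻¹, hx⟩ := by
  let _ := Fintype.ofFinite G
  have := IsPModular.isPrime hM
  obtain ⟨L, hL⟩ : ∃ L, L = P ⊔ Subgroup.centralizer (P : Set G) := ⟨_, rfl⟩
  rw [← hL]
  obtain ⟨g, hg, hDg⟩ := isDefectGroup_iff.mp hP
  have hPp : IsPGroup p P := hDg.isPGroup
  have hPL : P ≤ L := hL ▸ le_sup_left
  have hCL : Subgroup.centralizer (P : Set G) ≤ L := hL ▸ le_sup_right
  have hLN : L ≤ Subgroup.normalizer (P : Set G) :=
    hL ▸ sup_le Subgroup.le_normalizer (Subgroup.centralizer_le_normalizer _)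
  constructor
  · have hgP : g ∈ Subgroup.centralizer (P : Set G) := by
      rw [Subgroup.mem_centralizer_iff]
      intro y hy
      exact Subgroup.mem_centralizer_singleton_iff.mp (hDg.le hy)
    obtain ⟨b, hb⟩ := exists_induced_of_unit hM hPp hPL hCL hLN hB hgP
      (isDefectClass_iff.mp hg).2.1
    refine ⟨b, ?_, hb⟩
    obtain ⟨Db, hDb⟩ := exists_isDefectGroup hM hb.1
    have hn : (P.subgroupOf L).Normal := (Subgroup.normal_subgroupOf_iff_le_normalizer hPL).mpr hLN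
    have hPp' : IsPGroup p (P.subgroupOf L) :=
      (Cfsg.Agent.Lib.Helper24.isCopy_subgroupOf hPL).isPGroup_iff.mpr hPp
    have h1 : P.subgroupOf L ≤ Db := normal_le_defectGroup hM hb.1 hDb hn hPp'
    obtain ⟨E, hE, hle⟩ := exists_isDefectGroup_ge_of_induced hM L hb hDb
    have hc : Nat.card Db ≤ Nat.card (P.subgroupOf L) := by
      rw [(Cfsg.Agent.Lib.Helper24.isCopy_subgroupOf hPL).card_eq,
        IsDefectGroup.card_eq hM hB hP, ← IsDefectGroup.card_eq hM hB hE,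
        ← Subgroup.card_map_of_injective (Subgroup.subtype_injective L)]
      exact Subgroup.card_le_of_le hle
    have h2 : P.subgroupOf L = Db := Subgroup.eq_of_le_of_card_ge h1 hc
    rw [h2]
    exact hDb
  · intro b b' hb hb'
    obtain ⟨ξ, hξ⟩ := IsPBlock.nonempty hb.1
    obtain ⟨ζ, hζ⟩ := Cfsg.Agent.Lib.Helper24.exists_constituent_incl hCL ξ
    obtain ⟨ξ', hξ'⟩ := IsPBlock.nonempty hb'.1
    obtain ⟨ζ', hζ'⟩ := Cfsg.Agent.Lib.Helper24.exists_constituent_incl hCL ξ'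
    have hpair := Cfsg.Agent.Lib.Helper24.isBrauerPairOf_of_induced hM hPp hPL hCL hLN hb hξ hζ
    have hpair' := Cfsg.Agent.Lib.Helper24.isBrauerPairOf_of_induced hM hPp hPL hCL hLN hb' hξ' hζ'
    obtain ⟨n, hn, hnc, he⟩ := Cfsg.Agent.Lib.Helper24.pairs_on_defectGroup_conj hM hP hpair hpair'
    have hs := Cfsg.Agent.Lib.Helper24.sbc_eq_of_constituent hM hPp hL hb.1 hξ hCL hζ
    have hs' := Cfsg.Agent.Lib.Helper24.sbc_eq_of_constituent hM hPp hL hb'.1 hξ' hCL hζ'
    have hnL : Cfsg.Agent.Lib.Helper24.IsConjSub n L L := by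
      have h1 := Cfsg.Agent.Lib.Helper24.isConjSub_of_mem_normalizer hn
      have h2 := h1.centralizer
      have e3 : L.map (MulAut.conj n).toMonoidHom = L := by
        rw [hL, Subgroup.map_sup, ← h1.eq_map, ← h2.eq_map]
      have h3 := Cfsg.Agent.Lib.Helper24.isConjSub_map n L
      rw [e3] at h3
      exact h3
    have hbb : b' = Cfsg.Agent.Lib.Helper24.conjSet hnL b := by
      apply Cfsg.Agent.Lib.Helper24.sbc_injective
      rw [Cfsg.Agent.Lib.Helper24.sbc_conjSet, hs, hs', he, Cfsg.Agent.Lib.Helper24.sbc_conjSet]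
    refine ⟨n⁻¹, Subgroup.inv_mem _ hn, fun θ hθ => ?_⟩
    refine ⟨Cfsg.Agent.Lib.Helper24.irrMap (Cfsg.Agent.Lib.Helper24.conjIso hnL) θ, ?_, ?_⟩
    · rw [hbb]
      exact ⟨θ, hθ, rfl⟩
    · intro x hx
      rw [Cfsg.Agent.Lib.Helper24.irrMap_apply]
      have h5 : Cfsg.Agent.Lib.Helper24.conjIso hnL x = ⟨n⁻¹ * (x : G) * n⁻¹⁻¹, hx⟩ := by
        apply Subtype.ext
        rw [Cfsg.Agent.Lib.Helper24.conjIso_coe]
        simp
      rw [h5]

end Cfsg.Agent.S0973
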