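import Cfsg.Statements.S0985
import Cfsg.Agent.Lib.Helper19.Derangement

set_option autoImplicit false
open Cfsg

namespace Cfsg.Agent.S0985

/-- If the number of Sylow p-subgroups of a finite group is not congruent to 1 modulo p^k, then there are two distinct Sylow p-subgroups P and R such that the index of P ∩ R in P is at most p^(k-1). -/
theorem result {G : Type*} [Group G] [Finite G] (p k : ℕ) [Fact p.Prime] (h : ¬ Nat.card (Sylow p G) ≡ 1 [MOD p ^ k]) : ∃ P R : Sylow p G, P ≠ R ∧ ((R : Subgroup G).subgroupOf (P : Subgroup G)).index ≤ p ^ (k - 1) := by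
  classical
  by_contra hcon
  push Not at hcon
  apply h
  obtain ⟨P⟩ : Nonempty (Sylow p G) := inferInstance
  have hp := (Fact.out : p.Prime)
  let Y : SubMulAction (P : Subgroup G) (Sylow p G) :=
    { carrier := {R | R ≠ P}
      smul_mem' := by
        intro g R hR heq
        apply hR
        have h1 : (g : G) • P = P := Sylow.smul_eq_iff_mem_normalizer.2 (Subgroup.le_normalizer g.2)
        have h2 : (g : G) • R = P := heq
        have h3 : (g : G) • R = (g : G) • P := by rw [h1, h2]
        exact smul_left_cancel _ h3 }
  have hY : Nat.card Y + 1 = Nat.card (Sylow p G) := by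
    have := Nat.card_congr (Equiv.sumCompl (fun R : Sylow p G => R = P))
    rw [Nat.card_sum, Nat.card_unique] at this
    have h2 : Nat.card Y = Nat.card {R : Sylow p G // ¬ R = P} := rfl
    omega
  have hdvd : p ^ k ∣ Nat.card Y := by
    apply Cfsg.Agent.Lib.Helper19.dvd_card_of_dvd_orbits (H := (P : Subgroup G))
    intro y
    have h1 := MulAction.index_stabilizer (P : Subgroup G) y
    have h2 : MulAction.stabilizer (P : Subgroup G) y
        = ((y : Sylow p G) : Subgroup G).subgroupOf (P : Subgroup G) := by
      ext g
      rw [MulAction.mem_stabilizer_iff, Subgroup.mem_subgroupOf]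
      have h3 : g • y = y ↔ (g : G) • (y : Sylow p G) = (y : Sylow p G) := by
        constructor
        · intro h; exact congrArg Subtype.val h
        · intro h; exact Subtype.ext h
      rw [h3, Sylow.smul_eq_iff_mem_normalizer]
      have h4 := P.2.inf_normalizer_sylow (y : Sylow p G)
      constructor
      · intro hg
        have : (g : G) ∈ (P : Subgroup G) ⊓ ((y : Sylow p G) : Subgroup G) := by
          rw [← h4]; exact Subgroup.mem_inf.mpr ⟨g.2, hg⟩
        exact this.2
      · intro hg
        exact Subgroup.le_normalizer hg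
    rw [Nat.card_coe_set_eq, ← h1, h2]
    obtain ⟨n, hn⟩ := P.2.index (((y : Sylow p G) : Subgroup G).subgroupOf (P : Subgroup G))
    have h5 := hcon P y (fun h => y.2 h.symm)
    rw [hn] at h5 ⊢
    apply pow_dvd_pow
    have h6 : k - 1 < n := (Nat.pow_lt_pow_iff_right hp.one_lt).1 h5
    omega
  obtain ⟨t, ht⟩ := hdvd
  rw [← hY, ht]
  unfold Nat.ModEq
  rw [Nat.mul_add_mod]

end Cfsg.Agent.S0985
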