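import Cfsg.Statements.S0986
import Cfsg.Agent.Lib.Helper12.Conj

set_option autoImplicit false
open Cfsg

namespace Cfsg.Agent.S0986

/-- Let P and Q be distinct Sylow p-subgroups of a finite group G chosen so that the order of P ∩ Q is as large as possible among intersections of two distinct Sylow p-subgroups, and let N be the normalizer of P ∩ Q. Then N has more than one Sylow p-subgroup, any two distinct Sylow p-subgroups of N intersect exactly in P ∩ Q, and each Sylow p-subgroup of N lies in exactly one Sylow p-subgroup of G. -/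
theorem result {G : Type*} [Group G] [Finite G] (p : ℕ) [Fact p.Prime] (P Q : Sylow p G) (hPQ : P ≠ Q) (hmax : ∀ P' Q' : Sylow p G, P' ≠ Q' → Nat.card ↥((P' : Subgroup G) ⊓ (Q' : Subgroup G)) ≤ Nat.card ↥((P : Subgroup G) ⊓ (Q : Subgroup G))) : 1 < Nat.card (Sylow p ↥(Subgroup.normalizer (((P : Subgroup G) ⊓ (Q : Subgroup G) : Subgroup G) : Set G))) ∧ (∀ S T : Sylow p ↥(Subgroup.normalizer (((P : Subgroup G) ⊓ (Q : Subgroup G) : Subgroup G) : Set G)), S ≠ T → (S : Subgroup _) ⊓ (T : Subgroup _) = ((P : Subgroup G) ⊓ (Q : Subgroup G)).subgroupOf (Subgroup.normalizer (((P : Subgroup G) ⊓ (Q : Subgroup G) : Subgroup G) : Set G))) ∧ ∀ S : Sylow p ↥(Subgroup.normalizer (((P : Subgroup G) ⊓ (Q : Subgroup G) : Subgroup G) : Set G)), ∃! T : Sylow p G, (S : Subgroup _).map (Subgroup.normalizer (((P : Subgroup G) ⊓ (Q : Subgroup G) : Subgroup G) : Set G)).subtype ≤ (T : Subgroup G) := by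
  classical
  open Cfsg.Agent.Lib.Helper12 in
  obtain ⟨D, hD⟩ : ∃ D : Subgroup G, D = (P : Subgroup G) ⊓ (Q : Subgroup G) := ⟨_, rfl⟩
  rw [← hD] at hmax ⊢
  obtain ⟨N, hN⟩ : ∃ N : Subgroup G, N = Subgroup.normalizer (D : Set G) := ⟨_, rfl⟩
  rw [← hN]
  have hDN : D ≤ N := hN ▸ Subgroup.le_normalizer
  have hDp : IsPGroup p D := P.2.to_le (hD ▸ inf_le_left)
  have hlt : ∀ (P Q : Sylow p G), P ≠ Q → (P : Subgroup G) ⊓ Q < P := by
    intro P Q hPQ
    refine lt_of_le_of_ne inf_le_left (fun h => hPQ ?_)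
    have h1 : (P : Subgroup G) ≤ Q := inf_eq_left.1 h
    exact Sylow.ext (P.3 Q.2 h1).symm
  have hDP : D < P := hD ▸ hlt P Q hPQ
  have hDQ : D < Q := by
    rw [hD, inf_comm]; exact hlt Q P hPQ.symm
  have hDPN : D < (P : Subgroup G) ⊓ N := hN ▸ lt_inf_normalizer P.2 hDP
  have hDQN : D < (Q : Subgroup G) ⊓ N := hN ▸ lt_inf_normalizer Q.2 hDQ
  have F3 : ∀ S' : Subgroup G, IsSylIn p S' N → D ≤ S' ∧ Nat.card D < Nat.card S' := by
    intro S' hS'
    constructor
    · obtain ⟨x, hx, hxD⟩ := hS'.exists_conj_le hDN hDp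
      rwa [cj_eq_of_mem_normalizer (hN ▸ hx)] at hxD
    · exact lt_of_lt_of_le (card_lt_card_of_lt hDPN)
        (hS'.card_le inf_le_right (P.2.to_le inf_le_left))
  have huniq : ∀ S' : Subgroup G, IsSylIn p S' N → ∀ T T' : Sylow p G, S' ≤ T → S' ≤ T' →
      T = T' := by
    intro S' hS' T T' hT hT'
    by_contra hne
    have h1 := hmax T T' hne
    have h2 := Subgroup.card_le_of_le (le_inf hT hT')
    have h3 := (F3 S' hS').2
    omega
  have hmemmap : ∀ (S : Subgroup N) (x : N), (x : G) ∈ S.map N.subtype ↔ x ∈ S := by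
    intro S x
    exact Subgroup.mem_map_iff_mem N.subtype_injective
  refine ⟨?_, ?_, ?_⟩
  · by_contra hcon
    push Not at hcon
    have hss : Subsingleton (Sylow p N) := Finite.card_le_one_iff_subsingleton.1 hcon
    obtain ⟨U1, hU1, hPU⟩ := exists_isSylIn_ge (p := p) (H := N) (R := (P : Subgroup G) ⊓ N)
      inf_le_right (P.2.to_le inf_le_left)
    obtain ⟨U2, hU2, hQU⟩ := exists_isSylIn_ge (p := p) (H := N) (R := (Q : Subgroup G) ⊓ N)
      inf_le_right (Q.2.to_le inf_le_left)
    have h1 : hU1.toSylow = hU2.toSylow := Subsingleton.elim _ _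
    have h2 : U1.subgroupOf N = U2.subgroupOf N := congrArg (fun S : Sylow p N => (S : Subgroup N)) h1
    have h3 : U1 = U2 := by
      have := congrArg (Subgroup.map N.subtype) h2
      rwa [Subgroup.map_subgroupOf_eq_of_le hU1.1, Subgroup.map_subgroupOf_eq_of_le hU2.1] at this
    obtain ⟨T, hT⟩ := hU1.2.1.exists_le_sylow
    have hTP : T = P := by
      by_contra hne
      have h4 := hmax T P hne
      have h5 := Subgroup.card_le_of_le (le_inf (hPU.trans hT) inf_le_left :
        (P : Subgroup G) ⊓ N ≤ (T : Subgroup G) ⊓ P)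
      have h6 := card_lt_card_of_lt hDPN
      omega
    have hTQ : T = Q := by
      by_contra hne
      have h4 := hmax T Q hne
      have h5 := Subgroup.card_le_of_le (le_inf (hQU.trans (h3 ▸ hT)) inf_le_left :
        (Q : Subgroup G) ⊓ N ≤ (T : Subgroup G) ⊓ Q)
      have h6 := card_lt_card_of_lt hDQN
      omega
    exact hPQ (hTP.symm.trans hTQ)
  · intro S T hST
    have hS' := isSylIn_of_sylow S
    have hT' := isSylIn_of_sylow T
    obtain ⟨S1, hS1⟩ := hS'.2.1.exists_le_sylow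
    obtain ⟨T1, hT1⟩ := hT'.2.1.exists_le_sylow
    have hne : S1 ≠ T1 := by
      intro heq
      apply hST
      have hU : IsPGroup p ((S1 : Subgroup G) ⊓ N : Subgroup G) := S1.2.to_le inf_le_left
      have h1 := hS'.eq_of_le inf_le_right hU (le_inf hS1 hS'.1)
      have h2 := hT'.eq_of_le inf_le_right hU (le_inf (heq ▸ hT1) hT'.1)
      have h3 : (S : Subgroup N).map N.subtype = (T : Subgroup N).map N.subtype := h1.trans h2.symm
      exact Sylow.ext (Subgroup.map_injective N.subtype_injective h3)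
    have h1 : D ≤ (S : Subgroup N).map N.subtype ⊓ (T : Subgroup N).map N.subtype :=
      le_inf (F3 _ hS').1 (F3 _ hT').1
    have h2 : D = (S : Subgroup N).map N.subtype ⊓ (T : Subgroup N).map N.subtype :=
      Subgroup.eq_of_le_of_card_ge h1
        ((Subgroup.card_le_of_le (inf_le_inf hS1 hT1)).trans (hmax S1 T1 hne))
    ext x
    rw [Subgroup.mem_subgroupOf, h2, Subgroup.mem_inf, Subgroup.mem_inf, hmemmap, hmemmap]
  · intro S
    have hS' := isSylIn_of_sylow S
    obtain ⟨T, hT⟩ := hS'.2.1.exists_le_sylow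
    exact ⟨T, hT, fun T' hT' => huniq _ hS' T' T hT' hT⟩

end Cfsg.Agent.S0986
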