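import Cfsg.Statements.S0987
import Cfsg.Agent.Lib.Helper1.Cores

set_option autoImplicit false
open Cfsg

namespace Cfsg.Agent.S0987

theorem minFac_mul_of_lt {q m : ℕ} (hq : q.Prime) (hm : ∀ s : ℕ, s.Prime → s ∣ m → q ≤ s) :
    (q * m).minFac = q := by
  have h1 : (q * m).minFac ≤ q := Nat.minFac_le_of_dvd hq.two_le (Dvd.intro _ rfl)
  by_cases hm0 : q * m = 1
  · have := Nat.eq_one_of_mul_eq_one_right hm0
    exact absurd this hq.one_lt.ne'
  have h2 : (q * m).minFac.Prime := Nat.minFac_prime hm0
  have h3 : (q * m).minFac ∣ q * m := Nat.minFac_dvd _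
  rcases (h2.dvd_mul).1 h3 with h | h
  · exact (Nat.prime_dvd_prime_iff_eq h2 hq).1 h
  · exact le_antisymm h1 (hm _ h2 h)

/-- a normal subgroup having the order of a Sylow subgroup forces all Sylow subgroups normal -/
theorem sylow_normal_of_normal_card {G : Type*} [Group G] [Finite G] {r : ℕ} [Fact r.Prime]
    (K : Subgroup G) (hK : K.Normal) (R : Sylow r G) (hc : Nat.card K = Nat.card R) :
    (R : Subgroup G).Normal := by
  have hKp : IsPGroup r K := by
    obtain ⟨k, hk⟩ := IsPGroup.iff_card.1 R.2
    exact IsPGroup.of_card (hc.trans hk)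
  obtain ⟨T, hT⟩ := hKp.exists_le_sylow
  have h1 : K = T := Subgroup.eq_of_le_of_card_ge hT (by rw [hc, T.card_eq_multiplicity, R.card_eq_multiplicity])
  obtain ⟨g, hg⟩ := MulAction.exists_smul_eq G T R
  have hTn : (T : Subgroup G).Normal := h1 ▸ hK
  rw [Sylow.smul_eq_of_normal] at hg
  exact hg ▸ hTn

/-- If a finite group has order pqr for primes p < q < r, then its Sylow r-subgroups are normal. -/
theorem result {G : Type*} [Group G] [Finite G] (p q r : ℕ) (hp : p.Prime) (hq : q.Prime) [Fact r.Prime] (hpq : p < q) (hqr : q < r) (hG : Nat.card G = p * q * r) (R : Sylow r G) : (R : Subgroup G).Normal := by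
  have hr := (Fact.out : r.Prime)
  have := Fact.mk hp
  have hqp : q ≠ p := by omega
  have hrp : r ≠ p := by omega
  have hqr' : q ≠ r := by omega
  have hpr : p ≠ r := by omega
  have hminG : (Nat.card G).minFac = p := by
    rw [hG, mul_assoc]
    apply minFac_mul_of_lt hp
    intro s hs hsd
    rcases (hs.dvd_mul).1 hsd with h | h
    · rw [(Nat.prime_dvd_prime_iff_eq hs hq).1 h]; omega
    · rw [(Nat.prime_dvd_prime_iff_eq hs hr).1 h]; omega
  obtain ⟨P⟩ : Nonempty (Sylow p G) := inferInstance
  have hPc : Nat.card P = p := by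
    rw [P.card_eq_multiplicity, hG, Nat.factorization_mul (Nat.mul_ne_zero hp.ne_zero hq.ne_zero) hr.ne_zero,
      Nat.factorization_mul hp.ne_zero hq.ne_zero, hp.factorization, hq.factorization,
      hr.factorization]
    simp [Finsupp.single_apply, hqp, hrp]
  have hPcyc : IsCyclic P := isCyclic_of_prime_card hPc
  have hcompl := IsCyclic.isComplement' hminG hPcyc
  obtain ⟨M, hM⟩ : ∃ M, M = (MonoidHom.transferSylow P (hPcyc.normalizer_le_centralizer hminG)).ker :=
    ⟨_, rfl⟩
  rw [← hM] at hcompl
  have hMn : M.Normal := hM ▸ MonoidHom.normal_ker _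
  have hMc : Nat.card M = q * r := by
    have h1 := hcompl.card_mul_card
    rw [hPc, hG] at h1
    have h2 : p * Nat.card M = p * (q * r) := by rw [mul_comm, h1]; ring
    exact Nat.eq_of_mul_eq_mul_left hp.pos h2
  obtain ⟨S⟩ : Nonempty (Sylow r M) := inferInstance
  have hSc : Nat.card S = r := by
    rw [S.card_eq_multiplicity, hMc, Nat.factorization_mul hq.ne_zero hr.ne_zero, hq.factorization,
      hr.factorization]
    simp [Finsupp.single_apply, hqr']
  have hSi : (S : Subgroup M).index = (Nat.card M).minFac := by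
    have h1 := (S : Subgroup M).card_mul_index
    rw [hSc, hMc] at h1
    have h2 : (S : Subgroup M).index = q := by
      have : r * (S : Subgroup M).index = r * q := by rw [h1]; ring
      exact Nat.eq_of_mul_eq_mul_left hr.pos this
    rw [h2, hMc]
    symm
    apply minFac_mul_of_lt hq
    intro s hs hsd
    rw [(Nat.prime_dvd_prime_iff_eq hs hr).1 hsd]; omega
  have hSn : (S : Subgroup M).Normal := Subgroup.normal_of_index_eq_minFac_card hSi
  have hSch : (S : Subgroup M).Characteristic := S.characteristic_of_normal hSn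
  have hKn : ((S : Subgroup M).map M.subtype).Normal :=
    Cfsg.Agent.Lib.Helper1.normal_map_of_char (S : Subgroup M)
  apply sylow_normal_of_normal_card _ hKn R
  rw [Subgroup.card_map_of_injective M.subtype_injective, hSc, R.card_eq_multiplicity, hG,
    Nat.factorization_mul (Nat.mul_ne_zero hp.ne_zero hq.ne_zero) hr.ne_zero,
    Nat.factorization_mul hp.ne_zero hq.ne_zero, hp.factorization, hq.factorization,
    hr.factorization]
  simp [Finsupp.single_apply, hqr', hpr]

end Cfsg.Agent.S0987
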