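import Cfsg.Statements.S0989
import Mathlib

set_option autoImplicit false
open Cfsg

namespace Cfsg.Agent.S0989

open scoped Nat

theorem card_subgroupOf {G : Type*} [Group G] (H K : Subgroup G) :
    Nat.card ↥(H.subgroupOf K) = Nat.card ↥(H ⊓ K) := by
  rw [← Subgroup.subgroupOf_map_subtype H K]
  exact (Subgroup.card_map_of_injective K.subtype_injective).symm

theorem key {G : Type*} [Group G] [Finite G] (σ : G) (N : Subgroup G)
    (hC : Subgroup.centralizer ({σ} : Set G) ≤ N) (T : Set G)
    (hT : ∀ τ, τ ∈ T ↔ ∃ g ∈ N, g * σ * g⁻¹ = τ) :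
    Nat.card N = Nat.card (Subgroup.centralizer ({σ} : Set G)) * Nat.card T := by
  letI act : MulAction N G := MulAction.compHom G ((MulAut.conj : G →* MulAut G).comp N.subtype)
  have hsmul : ∀ (g : N) (h : G), g • h = (g : G) * h * (g : G)⁻¹ := fun g h => rfl
  have h1 : MulAction.stabilizer N σ = (Subgroup.centralizer ({σ} : Set G)).subgroupOf N := by
    ext g
    rw [MulAction.mem_stabilizer_iff, hsmul, Subgroup.mem_subgroupOf,
      Subgroup.mem_centralizer_singleton_iff, mul_inv_eq_iff_eq_mul]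
  have h2 : MulAction.orbit N σ = T := by
    ext τ
    rw [hT, MulAction.mem_orbit_iff]
    constructor
    · rintro ⟨g, hg⟩
      exact ⟨g, g.2, by rw [← hg, hsmul]⟩
    · rintro ⟨g, hg, h⟩
      exact ⟨⟨g, hg⟩, by rw [hsmul]; exact h⟩
  have h3 := (MulAction.stabilizer N σ).card_mul_index
  rw [MulAction.index_stabilizer, h1, card_subgroupOf, inf_eq_left.mpr hC, h2] at h3
  rw [← h3]
  rfl

theorem cycleType_of_order {α : Type*} [Fintype α] [DecidableEq α] (p : ℕ) [hp : Fact p.Prime]
    (hα : Fintype.card α = p ∨ Fintype.card α = p + 1) (σ : Equiv.Perm α) (hσ : orderOf σ = p) :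
    σ.cycleType = {p} := by
  obtain ⟨n, hn⟩ := Equiv.Perm.cycleType_prime_order (σ := σ) (by rw [hσ]; exact hp.out)
  have h1 := Equiv.Perm.sum_cycleType_le σ
  rw [hn, Multiset.sum_replicate, hσ, smul_eq_mul] at h1
  have h2 : 2 ≤ p := hp.out.two_le
  have h3 : n = 0 := by
    by_contra hne
    have h4 : 2 * p ≤ (n + 1) * p := Nat.mul_le_mul_right p (by omega)
    rcases hα with h | h <;> omega
  rw [hn, h3, hσ]
  rfl

/-- In the symmetric group on p or p + 1 letters, p a prime, the normalizer of a Sylow p-subgroup has order p * (p - 1). -/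
theorem result {α : Type*} [Fintype α] [DecidableEq α] (p : ℕ) [Fact p.Prime] (hα : Fintype.card α = p ∨ Fintype.card α = p + 1) (P : Sylow p (Equiv.Perm α)) : Nat.card ↥(Subgroup.normalizer ((P : Subgroup (Equiv.Perm α)) : Set (Equiv.Perm α))) = p * (p - 1) := by
  have hp : p.Prime := Fact.out
  have h2 : 2 ≤ p := hp.two_le
  have hcardP : Nat.card P = p := by
    rw [Sylow.card_eq_multiplicity, Nat.card_eq_fintype_card, Fintype.card_perm]
    have e0 : (p !).factorization p = 1 := by
      obtain ⟨m, rfl⟩ : ∃ m, p = m + 1 := ⟨p - 1, by omega⟩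
      rw [Nat.factorial_succ, Nat.factorization_mul (by omega) (Nat.factorial_ne_zero m)]
      simp only [Finsupp.coe_add, Pi.add_apply]
      rw [hp.factorization_self, Nat.factorization_factorial_eq_zero_of_lt (by omega)]
    rcases hα with h | h
    · rw [h, e0, pow_one]
    · rw [h, Nat.factorial_succ, Nat.factorization_mul (by omega) (Nat.factorial_ne_zero p)]
      simp only [Finsupp.coe_add, Pi.add_apply]
      rw [e0, Nat.factorization_eq_zero_of_not_dvd, zero_add, pow_one]
      intro hd
      have := (Nat.dvd_add_right (dvd_refl p)).mp hd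
      have := Nat.le_of_dvd (by norm_num) this
      omega
  haveI : Nontrivial ↥(P : Subgroup (Equiv.Perm α)) := by
    apply Finite.one_lt_card_iff_nontrivial.mp
    have : Nat.card ↥(P : Subgroup (Equiv.Perm α)) = p := hcardP
    omega
  obtain ⟨⟨σ, hσP⟩, hσ1⟩ := exists_ne (1 : ↥(P : Subgroup (Equiv.Perm α)))
  have hσ1' : σ ≠ 1 := fun h => hσ1 (Subtype.ext h)
  have horder : ∀ τ ∈ (P : Subgroup (Equiv.Perm α)), τ ≠ 1 → orderOf τ = p := by
    intro τ hτ hτ1
    have h3 : orderOf τ ∣ p := by
      have := Subgroup.orderOf_dvd_natCard (P : Subgroup (Equiv.Perm α)) hτ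
      rwa [show Nat.card ↥(P : Subgroup (Equiv.Perm α)) = p from hcardP] at this
    rcases (Nat.dvd_prime hp).mp h3 with h | h
    · exact absurd (orderOf_eq_one_iff.mp h) hτ1
    · exact h
  have hzp : ∀ τ ∈ (P : Subgroup (Equiv.Perm α)), τ ≠ 1 →
      Subgroup.zpowers τ = (P : Subgroup (Equiv.Perm α)) := by
    intro τ hτ hτ1
    apply Subgroup.eq_of_le_of_card_ge
    · rw [Subgroup.zpowers_le]; exact hτ
    · rw [Nat.card_zpowers, horder τ hτ hτ1]
      exact hcardP.le
  have hct := cycleType_of_order p hα σ (horder σ hσP hσ1')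
  have hcent : Nat.card (Subgroup.centralizer ({σ} : Set (Equiv.Perm α))) = p := by
    rw [Equiv.Perm.nat_card_centralizer, hct]
    simp only [Multiset.sum_singleton, Multiset.prod_singleton, Multiset.toFinset_singleton,
      Finset.prod_singleton, Multiset.count_singleton_self, Nat.factorial_one, mul_one]
    rcases hα with h | h
    · rw [h]; simp
    · rw [h]; simp
  have hCN : Subgroup.centralizer ({σ} : Set (Equiv.Perm α))
      ≤ Subgroup.normalizer ((P : Subgroup (Equiv.Perm α)) : Set (Equiv.Perm α)) := by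
    intro g hg
    rw [Subgroup.mem_centralizer_singleton_iff] at hg
    rw [Subgroup.mem_normalizer_iff]
    have hcomm : ∀ x ∈ (P : Subgroup (Equiv.Perm α)), g * x * g⁻¹ = x := by
      intro x hx
      rw [← hzp σ hσP hσ1'] at hx
      obtain ⟨i, rfl⟩ := hx
      have : Commute g (σ ^ i) := (show Commute g σ from hg).zpow_right i
      rw [this.eq, mul_inv_cancel_right]
    intro x
    constructor
    · intro hx; rw [hcomm x hx]; exact hx
    · intro hx
      have h5 := hcomm _ hx
      have h6 : g * x * g⁻¹ = x := by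
        have : g * (g * x * g⁻¹) * g⁻¹ = g * x * g⁻¹ := h5
        have h7 := mul_left_cancel (mul_right_cancel this)
        exact h7
      rw [← h6]; exact hx
  have hkey := key σ _ hCN {τ | τ ∈ (P : Subgroup (Equiv.Perm α)) ∧ τ ≠ 1} (by
    intro τ
    simp only [Set.mem_setOf_eq]
    constructor
    · rintro ⟨hτ, hτ1⟩
      have h8 := cycleType_of_order p hα τ (horder τ hτ hτ1)
      have h9 : IsConj σ τ := Equiv.Perm.isConj_iff_cycleType_eq.mpr (by rw [hct, h8])
      obtain ⟨g, hg⟩ := isConj_iff.mp h9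
      refine ⟨g, ?_, hg⟩
      rw [Subgroup.mem_normalizer_iff]
      have hpow : ∀ i : ℤ, g * σ ^ i * g⁻¹ = τ ^ i := by
        intro i
        rw [← hg, conj_zpow]
      intro x
      constructor
      · intro hx
        rw [← hzp σ hσP hσ1'] at hx
        obtain ⟨i, rfl⟩ := hx
        show g * σ ^ i * g⁻¹ ∈ _
        rw [hpow]
        exact Subgroup.zpow_mem _ hτ i
      · intro hx
        rw [← hzp τ hτ hτ1] at hx
        obtain ⟨i, hi⟩ := hx
        have hi' : τ ^ i = g * x * g⁻¹ := hi
        rw [← hpow] at hi'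
        have := mul_left_cancel (mul_right_cancel hi')
        rw [← this]
        exact Subgroup.zpow_mem _ hσP i
    · rintro ⟨g, hg, rfl⟩
      refine ⟨(Subgroup.mem_normalizer_iff.mp hg σ).mp hσP, ?_⟩
      intro h
      apply hσ1'
      have : g * σ * g⁻¹ = g * 1 * g⁻¹ := by rw [h]; group
      exact mul_left_cancel (mul_right_cancel this))
  rw [hkey, hcent]
  congr 1
  have e : {τ | τ ∈ (P : Subgroup (Equiv.Perm α)) ∧ τ ≠ 1}
      = ((P : Subgroup (Equiv.Perm α)) : Set (Equiv.Perm α)) \ {1} := by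
    ext τ
    constructor
    · rintro ⟨h1, h2⟩
      exact ⟨h1, h2⟩
    · rintro ⟨h1, h2⟩
      exact ⟨h1, h2⟩
  rw [e, Nat.card_coe_set_eq, Set.ncard_diff_singleton_of_mem (Subgroup.one_mem _),
    ← Nat.card_coe_set_eq]
  have : Nat.card ↥((P : Subgroup (Equiv.Perm α)) : Set (Equiv.Perm α)) = p := hcardP
  rw [this]

end Cfsg.Agent.S0989
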