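import Cfsg.Statements.S0990
import Mathlib

set_option autoImplicit false
open Cfsg

namespace Cfsg.Agent.S0990

theorem card_subgroupOf {G : Type*} [Group G] (H K : Subgroup G) :
    Nat.card ↥(H.subgroupOf K) = Nat.card ↥(H ⊓ K) := by
  rw [← Subgroup.subgroupOf_map_subtype H K]
  exact (Subgroup.card_map_of_injective K.subtype_injective).symm

theorem normalizer_subgroupOf' {G : Type*} [Group G] (P A : Subgroup G) [A.Normal] (h : P ≤ A) :
    Subgroup.normalizer ((P.subgroupOf A : Subgroup ↥A) : Set ↥A)
      = (Subgroup.normalizer (P : Set G)).subgroupOf A := by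
  ext a
  rw [Subgroup.mem_subgroupOf, Subgroup.mem_normalizer_iff, Subgroup.mem_normalizer_iff]
  constructor
  · intro H x
    constructor
    · intro hx
      have := (H ⟨x, h hx⟩).mp (by rw [Subgroup.mem_subgroupOf]; exact hx)
      rw [Subgroup.mem_subgroupOf] at this
      exact this
    · intro hx
      have hxA : x ∈ A := by
        have h1 := h hx
        have h2 := (inferInstance : A.Normal).conj_mem _ h1 (a : G)⁻¹
        have h3 : (a : G)⁻¹ * ((a : G) * x * (a : G)⁻¹) * ((a : G)⁻¹)⁻¹ = x := by group
        rwa [h3] at h2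
      have := (H ⟨x, hxA⟩).mpr (by rw [Subgroup.mem_subgroupOf]; exact hx)
      rw [Subgroup.mem_subgroupOf] at this
      exact this
  · intro H x
    rw [Subgroup.mem_subgroupOf, Subgroup.mem_subgroupOf]
    exact H x

/-- Let p be an odd prime and P a Sylow p-subgroup of the symmetric group on a finite set with at least two elements. Then P is contained in the alternating group, and twice the order of the normalizer of P inside the alternating group equals the order of the normalizer of P in the symmetric group. -/
theorem result {α : Type*} [Fintype α] [DecidableEq α] (hα : 2 ≤ Fintype.card α) (p : ℕ) [Fact p.Prime] (hp : p ≠ 2) (P : Sylow p (Equiv.Perm α)) : (P : Subgroup (Equiv.Perm α)) ≤ alternatingGroup α ∧ 2 * Nat.card ↥(Subgroup.normalizer ((((P : Subgroup (Equiv.Perm α)).subgroupOf (alternatingGroup α) : Subgroup ↥(alternatingGroup α)) : Set ↥(alternatingGroup α)))) = Nat.card ↥(Subgroup.normalizer ((P : Subgroup (Equiv.Perm α)) : Set (Equiv.Perm α))) := by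
  haveI : Nontrivial α := Fintype.one_lt_card_iff_nontrivial.mp (by omega)
  have hodd : Odd p := (Fact.out : p.Prime).odd_of_ne_two hp
  have hPA : (P : Subgroup (Equiv.Perm α)) ≤ alternatingGroup α := by
    intro g hg
    rw [Equiv.Perm.mem_alternatingGroup]
    obtain ⟨k, hk⟩ := P.2 ⟨g, hg⟩
    have hk' : g ^ (p ^ k) = 1 := by
      have := congrArg Subtype.val hk
      simpa using this
    have h1 : (Equiv.Perm.sign g) ^ (p ^ k) = 1 := by rw [← map_pow, hk', map_one]
    rcases Int.units_eq_one_or (Equiv.Perm.sign g) with h | h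
    · exact h
    · rw [h, (hodd.pow).neg_one_pow] at h1
      exact absurd h1 (by decide)
  refine ⟨hPA, ?_⟩
  rw [normalizer_subgroupOf' _ _ hPA, card_subgroupOf]
  have hfr := Sylow.normalizer_sup_eq_top (P.subtype hPA)
  have e1 : ((P.subtype hPA : Sylow p ↥(alternatingGroup α)) : Subgroup ↥(alternatingGroup α)).map
      (alternatingGroup α).subtype = (P : Subgroup (Equiv.Perm α)) := by
    rw [Sylow.coe_subtype, Subgroup.subgroupOf_map_subtype, inf_eq_left]
    exact hPA
  rw [e1] at hfr
  set N := Subgroup.normalizer ((P : Subgroup (Equiv.Perm α)) : Set (Equiv.Perm α)) with hN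
  have h2 : (alternatingGroup α).relIndex N = 2 := by
    rw [← Subgroup.relIndex_sup_right, hfr, Subgroup.relIndex_top_right, alternatingGroup.index_eq_two]
  have h3 := ((alternatingGroup α).subgroupOf N).card_mul_index
  rw [card_subgroupOf] at h3
  have h4 : ((alternatingGroup α).subgroupOf N).index = 2 := h2
  rw [h4, inf_comm] at h3
  omega

end Cfsg.Agent.S0990
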