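import Cfsg.Statements.S0991
import Mathlib

set_option autoImplicit false
open Cfsg

namespace Cfsg.Agent.S0991

/-- Embedding Theorem: if a non-abelian finite simple group has a proper subgroup of index n, then it is isomorphic to a subgroup of the alternating group of degree n. -/
theorem result {G : Type*} [Group G] [Finite G] [IsSimpleGroup G] (hG : ¬ IsMulCommutative G) (H : Subgroup G) (hH : H ≠ ⊤) : ∃ f : G →* ↥(alternatingGroup (Fin H.index)), Function.Injective f := by
  classical
  let e : (G ⧸ H) ≃ Fin H.index := Finite.equivFin (G ⧸ H)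
  let f0 : G →* Equiv.Perm (Fin H.index) :=
    (e.permCongrHom.toMonoidHom).comp (MulAction.toPermHom G (G ⧸ H))
  have hinj : Function.Injective f0 := by
    have h1 : Function.Injective (MulAction.toPermHom G (G ⧸ H)) := by
      rw [← MonoidHom.ker_eq_bot_iff]
      rcases (MonoidHom.normal_ker (MulAction.toPermHom G (G ⧸ H))).eq_bot_or_eq_top with h | h
      · exact h
      · exfalso
        apply hH
        rw [eq_top_iff]
        have h2 : (MulAction.toPermHom G (G ⧸ H)).ker = H.normalCore :=
          (Subgroup.normalCore_eq_ker H).symm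
        rw [← h, h2]
        exact Subgroup.normalCore_le H
    exact e.permCongrHom.injective.comp h1
  have hsign : ∀ g, Equiv.Perm.sign (f0 g) = 1 := by
    intro g
    have h1 : (Equiv.Perm.sign.comp f0).ker = ⊤ := by
      rcases (MonoidHom.normal_ker (Equiv.Perm.sign.comp f0)).eq_bot_or_eq_top with h | h
      · exfalso
        apply hG
        have h2 : Function.Injective (Equiv.Perm.sign.comp f0) := (MonoidHom.ker_eq_bot_iff _).1 h
        exact ⟨⟨fun a b => h2 (by rw [map_mul, map_mul, mul_comm])⟩⟩
      · exact h
    have : g ∈ (Equiv.Perm.sign.comp f0).ker := h1 ▸ Subgroup.mem_top g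
    exact this
  refine ⟨f0.codRestrict (alternatingGroup (Fin H.index)) (fun g => ?_), ?_⟩
  · exact Equiv.Perm.mem_alternatingGroup.2 (hsign g)
  · intro a b hab
    apply hinj
    exact congrArg Subtype.val hab

end Cfsg.Agent.S0991
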