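import Cfsg.Statements.S0992
import Mathlib
import Cfsg.Agent.S0988

set_option autoImplicit false
open Cfsg

namespace Cfsg.Agent.S0992

open Cfsg.Agent.S0988

theorem kleinFour_of_not_cyclic {T : Type*} [Group T] (h4 : Nat.card T = 4) (hnc : ¬ IsCyclic T) :
    IsKleinFour T := by
  haveI : Finite T := Nat.finite_of_card_ne_zero (by omega)
  refine ⟨h4, ?_⟩
  have hdvd : Monoid.exponent T ∣ 4 := h4 ▸ Group.exponent_dvd_nat_card
  have hord : ∀ x : T, orderOf x ∣ 4 := fun x => h4 ▸ orderOf_dvd_natCard x
  have hord2 : ∀ x : T, x ^ 2 = 1 := by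
    intro x
    have h1 := hord x
    have h2 : orderOf x ≤ 4 := Nat.le_of_dvd (by norm_num) h1
    have h3 : orderOf x ≠ 4 := fun h => hnc (isCyclic_of_orderOf_eq_card x (by rw [h, h4]))
    have h4' : orderOf x ∣ 2 := by
      generalize orderOf x = n at *
      interval_cases n <;> first | omega | decide | (exfalso; revert h1; decide)
    exact orderOf_dvd_iff_pow_eq_one.1 h4'
  have h5 : Monoid.exponent T ∣ 2 := Monoid.exponent_dvd_of_forall_pow_eq_one hord2
  rcases (Nat.dvd_prime Nat.prime_two).1 h5 with h | h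
  · exfalso
    have : Subsingleton T := Monoid.exp_eq_one_iff.1 h
    have := Finite.card_le_one_iff_subsingleton.2 this
    omega
  · exact h

/-- Let G be a non-abelian finite simple group of even order not divisible by 8, and T a Sylow 2-subgroup. Then T is a Klein four-group and the centralizer of T has index 3 in the normalizer of T. -/
theorem result {G : Type*} [Group G] [Finite G] [IsSimpleGroup G] (hG : ¬ IsMulCommutative G) (h2 : Even (Nat.card G)) (h8 : ¬ 8 ∣ Nat.card G) (T : Sylow 2 G) : IsKleinFour ↥(T : Subgroup G) ∧ (Subgroup.centralizer ((T : Subgroup G) : Set G)).relIndex (Subgroup.normalizer ((T : Subgroup G) : Set G)) = 3 := by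
  haveI : Fact (Nat.Prime 2) := ⟨Nat.prime_two⟩
  have hmin : (Nat.card G).minFac = 2 := (Nat.minFac_eq_two_iff _).2 h2.two_dvd
  obtain ⟨k, hk⟩ := IsPGroup.iff_card.1 T.2
  have hTdvd : Nat.card T ∣ Nat.card G := Subgroup.card_subgroup_dvd_card _
  have hk2 : k ≤ 2 := by
    by_contra hlt
    apply h8
    refine dvd_trans ?_ hTdvd
    rw [hk]
    exact pow_dvd_pow 2 (show 3 ≤ k by omega)
  have hk1 : 1 ≤ k := by
    by_contra hlt
    have hk0 : k = 0 := by omega
    have h1 := T.not_dvd_index
    apply h1
    have h3 := (T : Subgroup G).card_mul_index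
    have hT1 : Nat.card (T : Subgroup G) = 1 := by rw [hk, hk0, pow_zero]
    rw [hT1, one_mul] at h3
    rw [h3]
    exact h2.two_dvd
  have hTG : Nat.card T ≠ Nat.card G := by
    intro h
    apply hG
    rcases (show k = 1 ∨ k = 2 by omega) with rfl | rfl
    · have hc : Nat.card G = 2 := by rw [← h, hk, pow_one]
      haveI : IsCyclic G := isCyclic_of_prime_card hc
      exact ⟨⟨(IsCyclic.commGroup (α := G)).mul_comm⟩⟩
    · exact IsPGroup.isMulCommutative_of_card_eq_prime_sq (p := 2) (by rw [← h, hk])
  have hT1 : Nat.card T ≠ 1 := by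
    rw [hk]
    have : 2 ^ 1 ≤ 2 ^ k := Nat.pow_le_pow_right (by norm_num) hk1
    omega
  have hnc : ¬ IsCyclic T := fun hcyc =>
    burnside_contra 2 T hT1 hTG (hcyc.normalizer_le_centralizer hmin)
  have hk' : k = 2 := by
    rcases (show k = 1 ∨ k = 2 by omega) with rfl | rfl
    · exact absurd (isCyclic_of_prime_card (p := 2) (by rw [hk, pow_one])) hnc
    · rfl
  subst hk'
  have hT4 : Nat.card (T : Subgroup G) = 4 := by rw [hk]; norm_num
  refine ⟨kleinFour_of_not_cyclic hT4 hnc, ?_⟩
  haveI : IsMulCommutative (T : Subgroup G) := IsPGroup.isMulCommutative_of_card_eq_prime_sq (p := 2) hk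
  have hm1 : (Subgroup.centralizer ((T : Subgroup G) : Set G)).relIndex (Subgroup.normalizer ((T : Subgroup G) : Set G)) ≠ 1 :=
    fun h => burnside_contra 2 T hT1 hTG (Subgroup.relIndex_eq_one.1 h)
  have key := Subgroup.card_dvd_of_injective _
    (QuotientGroup.kerLift_injective (T : Subgroup G).normalizerMonoidHom)
  rw [Subgroup.normalizerMonoidHom_ker, ← Subgroup.index, ← Subgroup.relIndex] at key
  have key2 : Nat.card (MulAut (T : Subgroup G)) ∣ 24 := by
    have h1 := Subgroup.card_dvd_of_injective (MulAut.toPerm (T : Subgroup G)) (by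
      intro a b hab
      apply MulEquiv.ext
      intro x
      exact congrArg (fun f : Equiv.Perm (T : Subgroup G) => f x) hab)
    rw [Nat.card_perm, hT4] at h1
    exact h1
  have hodd : ¬ 2 ∣ (Subgroup.centralizer ((T : Subgroup G) : Set G)).relIndex (Subgroup.normalizer ((T : Subgroup G) : Set G)) := by
    intro h
    apply T.not_dvd_index
    exact h.trans ((Subgroup.relIndex_dvd_of_le_left _ (T : Subgroup G).le_centralizer).trans
      (Subgroup.relIndex_dvd_index_of_le Subgroup.le_normalizer))
  have h24 := key.trans key2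
  generalize (Subgroup.centralizer ((T : Subgroup G) : Set G)).relIndex (Subgroup.normalizer ((T : Subgroup G) : Set G)) = m at *
  have hle : m ≤ 24 := Nat.le_of_dvd (by norm_num) h24
  interval_cases m <;> first | rfl | omega

end Cfsg.Agent.S0992
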