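import Cfsg.Statements.S0995
import Mathlib
import Cfsg.Agent.Lib.Helper23.SelfCentCount

set_option autoImplicit false
open Cfsg

namespace Cfsg.Agent.S0995

open Cfsg.Agent.Lib.Helper23

/-- Let G be a finite perfect group containing an element z of prime order p whose centralizer is the cyclic group it generates. Let t be the number of conjugacy classes of elements of order p. Then t divides p - 1, the number of Sylow p-subgroups has the form 1 + n * p, and |G| * t = (p - 1) * p * (1 + n * p). -/
theorem result {G : Type*} [Group G] [Finite G] (hperf : commutator G = ⊤) (p : ℕ) [Fact p.Prime] (z : G) (hz : orderOf z = p) (hC : Subgroup.centralizer ({z} : Set G) = Subgroup.zpowers z) : ∃ n t : ℕ, t = Nat.card {c : ConjClasses G // ∃ g : G, ConjClasses.mk g = c ∧ orderOf g = p} ∧ t ∣ p - 1 ∧ Nat.card (Sylow p G) = 1 + n * p ∧ Nat.card G * t = (p - 1) * p * (1 + n * p) := by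
  have hp : p.Prime := Fact.out
  have h1 := sc_classes_mul hz hC
  have h2 := sc_card_sylow_eq_index hz hC
  have h3 : Nat.card (Sylow p G) ≡ 1 [MOD p] := card_sylow_modEq_one p G
  set N := Subgroup.normalizer (Subgroup.zpowers z : Set G) with hN
  have hle : Subgroup.zpowers z ≤ N := Subgroup.le_normalizer
  have h4 : Nat.card G = Nat.card (Sylow p G) * Nat.card N := by
    rw [h2, mul_comm, Subgroup.card_mul_index]
  have h5 : Nat.card N = (Subgroup.zpowers z).relIndex N * p := by
    have := Subgroup.relIndex_mul_relIndex ⊥ (Subgroup.zpowers z) N bot_le hle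
    rw [Subgroup.relIndex_bot_left, Subgroup.relIndex_bot_left, Nat.card_zpowers, hz] at this
    rw [← this, mul_comm]
  have hpos : 0 < Nat.card (Sylow p G) := Nat.card_pos
  obtain ⟨n, hn⟩ : ∃ n, Nat.card (Sylow p G) = 1 + n * p := by
    have h6 : p ∣ Nat.card (Sylow p G) - 1 := (Nat.modEq_iff_dvd' hpos).mp h3.symm
    obtain ⟨n, hn⟩ := h6
    exact ⟨n, by rw [mul_comm n p, ← hn]; omega⟩
  have heq : Nat.card {c : ConjClasses G // ∃ g : G, ConjClasses.mk g = c ∧ orderOf g = p} =
      Nat.card {C : ConjClasses G // ∃ g ∈ C.carrier, orderOf g = p} := by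
    apply Nat.card_congr
    apply Equiv.subtypeEquivRight
    intro c
    constructor
    · rintro ⟨g, hg, ho⟩
      exact ⟨g, ConjClasses.mem_carrier_iff_mk_eq.mpr hg, ho⟩
    · rintro ⟨g, hg, ho⟩
      exact ⟨g, ConjClasses.mem_carrier_iff_mk_eq.mp hg, ho⟩
  refine ⟨n, _, rfl, ?_, hn, ?_⟩
  · rw [heq]
    exact ⟨_, h1.symm⟩
  · rw [heq, h4, h5, ← hn, ← h1]
    ring

end Cfsg.Agent.S0995
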