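import Cfsg.Statements.S1005
import Cfsg.Agent.Lib.Helper24.Ord168b
-- import your own Cfsg.Agent.* helpers here

set_option autoImplicit false
open Cfsg

namespace Cfsg.Agent.S1005

open Cfsg.Agent.Lib.Helper24.Ord168 Cfsg.Agent.Lib.Helper22
open scoped Pointwise

/-- In a simple group of order 168 every element has order 1, 2, 3, 4 or 7; there are exactly 21 elements of order 2, and any two of them are conjugate. -/
theorem result {G : Type*} [Group G] [Finite G] [IsSimpleGroup G] (h : Nat.card G = 168) : (∀ g : G, orderOf g = 1 ∨ orderOf g = 2 ∨ orderOf g = 3 ∨ orderOf g = 4 ∨ orderOf g = 7) ∧ Nat.card {g : G // orderOf g = 2} = 21 ∧ ∀ s t : G, orderOf s = 2 → orderOf t = 2 → IsConj s t := by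
  classical
  have : Fact (Nat.Prime 7) := ⟨by norm_num⟩
  have hord := orders h
  obtain ⟨T⟩ : Nonempty (Sylow 2 G) := inferInstance
  obtain ⟨z, hzT, hz2, hzc⟩ := exists_central_invol h T
  obtain ⟨w, hwT, hw4⟩ := exists_order4 h T
  have idx : ∀ a : G, Nat.card (Subgroup.centralizer ({a} : Set G)) *
      (Subgroup.centralizer ({a} : Set G)).index = 168 := fun a => by
    rw [Subgroup.card_mul_index, h]
  have hCz : Nat.card (Subgroup.centralizer ({z} : Set G)) = 8 := by
    have h1 := card_cent_dvd8 h z (Or.inl hz2)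
    have h2 : (T : Subgroup G) ≤ Subgroup.centralizer ({z} : Set G) := by
      intro u hu
      rw [Subgroup.mem_centralizer_singleton_iff]
      exact hzc u hu
    have h3 := Subgroup.card_dvd_of_le h2
    rw [c2 h T] at h3
    exact Nat.dvd_antisymm h1 h3
  have hiz : (Subgroup.centralizer ({z} : Set G)).index = 21 := by
    have := idx z
    rw [hCz] at this
    omega
  have ne1 : ∀ (a : G) (k : ℕ), orderOf a = k → 1 < k → a ≠ 1 := by
    rintro a k hk hk1 rfl
    rw [orderOf_one] at hk
    omega
  have hselfmem : ∀ a : G, a ∈ Subgroup.centralizer ({a} : Set G) := fun a => by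
    rw [Subgroup.mem_centralizer_singleton_iff]
  have hconj8 : ∀ t : G, orderOf t = 2 → Nat.card (Subgroup.centralizer ({t} : Set G)) = 8 →
      IsConj z t := by
    intro t ht hC
    obtain ⟨T', hT'⟩ := exists_sylow_eq_of_card8 h _ hC
    obtain ⟨g, hg⟩ := MulAction.exists_smul_eq G T T'
    have hco : (T' : Subgroup G) = MulAut.conj g • (T : Subgroup G) := by
      rw [← hg, Sylow.coe_subgroup_smul]
    have hmemT' : ∀ u ∈ (T : Subgroup G), g * u * g⁻¹ ∈ (T' : Subgroup G) := by
      intro u hu
      rw [hco]
      exact (Subgroup.mem_smul_pointwise_iff_exists _ _ _).mpr ⟨u, hu, rfl⟩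
    have e := central_unique h T' (g * z * g⁻¹) t (hmemT' z hzT) (hT' ▸ hselfmem t)
      (by
        intro h0
        apply ne1 z 2 hz2 (by norm_num)
        have : z = g⁻¹ * (g * z * g⁻¹) * g := by group
        rw [this, h0]
        group)
      (ne1 t 2 ht (by norm_num))
      (by
        intro v hv
        rw [hco] at hv
        obtain ⟨u, hu, rfl⟩ := (Subgroup.mem_smul_pointwise_iff_exists _ _ _).mp hv
        show g * u * g⁻¹ * (g * z * g⁻¹) = g * z * g⁻¹ * (g * u * g⁻¹)
        have e1 : g * u * g⁻¹ * (g * z * g⁻¹) = g * (u * z) * g⁻¹ := by group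
        have e2 : g * z * g⁻¹ * (g * u * g⁻¹) = g * (z * u) * g⁻¹ := by group
        rw [e1, e2, hzc u hu])
      (by
        intro v hv
        rw [hT', Subgroup.mem_centralizer_singleton_iff] at hv
        exact hv)
    exact isConj_iff.mpr ⟨g, e⟩
  have hCw : Nat.card (Subgroup.centralizer ({w} : Set G)) ≤ 4 := by
    have h1 := card_cent_dvd8 h w (Or.inr hw4)
    have h8 : Nat.card (Subgroup.centralizer ({w} : Set G)) ≠ 8 := by
      intro hC
      obtain ⟨T', hT'⟩ := exists_sylow_eq_of_card8 h _ hC
      obtain ⟨z', hz'T, hz'2, hz'c⟩ := exists_central_invol h T'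
      have e := central_unique h T' w z' (hT' ▸ hselfmem w) hz'T (ne1 w 4 hw4 (by norm_num))
        (ne1 z' 2 hz'2 (by norm_num))
        (by
          intro v hv
          rw [hT', Subgroup.mem_centralizer_singleton_iff] at hv
          exact hv) hz'c
      rw [e, hz'2] at hw4
      omega
    have hle := Nat.le_of_dvd (by norm_num) h1
    obtain ⟨n, hn⟩ : ∃ n, n = Nat.card (Subgroup.centralizer ({w} : Set G)) := ⟨_, rfl⟩
    rw [← hn] at h1 h8 hle ⊢
    interval_cases n <;> omega
  have hiw : 42 ≤ (Subgroup.centralizer ({w} : Set G)).index := by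
    have := idx w
    by_contra hcon
    push Not at hcon
    have h2 : Nat.card (Subgroup.centralizer ({w} : Set G)) *
        (Subgroup.centralizer ({w} : Set G)).index ≤ 4 * 41 :=
      Nat.mul_le_mul hCw (by omega)
    omega
  obtain ⟨y, hy⟩ := exists_prime_orderOf_dvd_card' (G := G) 3 (by rw [h]; norm_num)
  obtain ⟨x, hx⟩ := exists_prime_orderOf_dvd_card' (G := G) 7 (by rw [h]; norm_num)
  have hiy : (Subgroup.centralizer ({y} : Set G)).index = 56 := by
    have := idx y
    rw [card_centralizer_of_order 3 2 Nat.prime_two (by norm_num) (c3 h) (by rw [h]; norm_num)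
      (N3 h) y hy] at this
    omega
  have hix : (Subgroup.centralizer ({x} : Set G)).index = 24 := by
    have := idx x
    rw [card_centralizer_of_order 7 3 Nat.prime_three (by norm_num) (c7 h) (by rw [h]; norm_num)
      (N7 h) x hx] at this
    omega
  cases nonempty_fintype G
  have hsum : Fintype.card G = ∑ k ∈ ({1, 2, 3, 4, 7} : Finset ℕ),
      (Finset.univ.filter (fun a : G => orderOf a = k)).card := by
    rw [← Finset.card_univ]
    apply Finset.card_eq_sum_card_fiberwise
    intro a _
    have := hord a
    simp only [Finset.coe_insert, Finset.coe_singleton, Set.mem_insert_iff,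
      Set.mem_singleton_iff]
    exact this
  have hN : ∀ k, (Finset.univ.filter (fun a : G => orderOf a = k)).card =
      Nat.card {g : G // orderOf g = k} := by
    intro k
    rw [Nat.card_eq_fintype_card, Fintype.card_subtype]
  simp only [hN] at hsum
  rw [Finset.sum_insert (by decide), Finset.sum_insert (by decide), Finset.sum_insert (by decide),
    Finset.sum_insert (by decide), Finset.sum_singleton, ← Nat.card_eq_fintype_card, h] at hsum
  have b3 := class_le y 3 hy
  have b7 := class_le x 7 hx
  have b4 := class_le w 4 hw4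
  rw [hiy] at b3
  rw [hix] at b7
  have hall : ∀ t : G, orderOf t = 2 → IsConj z t := by
    intro t ht
    by_contra hc
    have b2 := two_class_le z t 2 hz2 ht hc
    rw [hiz] at b2
    have hit : (Subgroup.centralizer ({t} : Set G)).index ≤ 25 := by omega
    have h1 := card_cent_dvd8 h t (Or.inl ht)
    have h2 := idx t
    apply hc
    apply hconj8 t ht
    have hle := Nat.le_of_dvd (by norm_num) h1
    by_contra h8
    have h4 : Nat.card (Subgroup.centralizer ({t} : Set G)) ≤ 4 := by
      obtain ⟨n, hn⟩ : ∃ n, n = Nat.card (Subgroup.centralizer ({t} : Set G)) := ⟨_, rfl⟩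
      rw [← hn] at h1 h8 hle ⊢
      interval_cases n <;> omega
    have h5 : Nat.card (Subgroup.centralizer ({t} : Set G)) *
        (Subgroup.centralizer ({t} : Set G)).index ≤ 4 * 25 := Nat.mul_le_mul h4 hit
    omega
  refine ⟨hord, ?_, ?_⟩
  · rw [← hiz, index_centralizer_eq_card_isConj]
    apply Nat.card_congr
    exact Equiv.subtypeEquivRight
      (fun g => ⟨hall g, fun hc => (orderOf_eq_of_isConj hc).trans hz2⟩)
  · intro s t hs ht
    exact (hall s hs).symm.trans (hall t ht)

end Cfsg.Agent.S1005
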