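import Cfsg.Statements.S1006
import Cfsg.Agent.Lib.Helper24.Ord168b
import Cfsg.Agent.S1005
-- import your own Cfsg.Agent.* helpers here

set_option autoImplicit false
open Cfsg

namespace Cfsg.Agent.S1006

open Cfsg.Agent.Lib.Helper24.Ord168 Cfsg.Agent.Lib.Helper22
open scoped Pointwise

/-- In a simple group of order 168 there are 56 elements of order 3, all conjugate; 42 elements of order 4, all conjugate; and 48 elements of order 7 falling into two conjugacy classes of size 24, an element of order 7 not being conjugate to its inverse. -/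
theorem result {G : Type*} [Group G] [Finite G] [IsSimpleGroup G] (h : Nat.card G = 168) : Nat.card {g : G // orderOf g = 3} = 56 ∧ (∀ s t : G, orderOf s = 3 → orderOf t = 3 → IsConj s t) ∧ Nat.card {g : G // orderOf g = 4} = 42 ∧ (∀ s t : G, orderOf s = 4 → orderOf t = 4 → IsConj s t) ∧ Nat.card {g : G // orderOf g = 7} = 48 ∧ ∀ x : G, orderOf x = 7 → Nat.card {g : G // IsConj x g} = 24 ∧ ¬ IsConj x x⁻¹ := by
  classical
  have : Fact (Nat.Prime 7) := ⟨by norm_num⟩
  have hord := orders h
  obtain ⟨T⟩ : Nonempty (Sylow 2 G) := inferInstance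
  obtain ⟨w, hwT, hw4⟩ := exists_order4 h T
  have idx : ∀ a : G, Nat.card (Subgroup.centralizer ({a} : Set G)) *
      (Subgroup.centralizer ({a} : Set G)).index = 168 := fun a => by
    rw [Subgroup.card_mul_index, h]
  have ne1 : ∀ (a : G) (k : ℕ), orderOf a = k → 1 < k → a ≠ 1 := by
    rintro a k hk hk1 rfl
    rw [orderOf_one] at hk
    omega
  have hselfmem : ∀ a : G, a ∈ Subgroup.centralizer ({a} : Set G) := fun a => by
    rw [Subgroup.mem_centralizer_singleton_iff]
  have hiw : ∀ w : G, orderOf w = 4 → 42 ≤ (Subgroup.centralizer ({w} : Set G)).index := by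
    intro w hw4
    have hCw : Nat.card (Subgroup.centralizer ({w} : Set G)) ≤ 4 := by
      have h1 := card_cent_dvd8 h w (Or.inr hw4)
      have h8 : Nat.card (Subgroup.centralizer ({w} : Set G)) ≠ 8 := by
        intro hC
        obtain ⟨T', hT'⟩ := exists_sylow_eq_of_card8 h _ hC
        obtain ⟨z', hz'T, hz'2, hz'c⟩ := exists_central_invol h T'
        have e := central_unique h T' w z' (hT' ▸ hselfmem w) hz'T (ne1 w 4 hw4 (by norm_num))
          (ne1 z' 2 hz'2 (by norm_num))
          (by
            intro v hv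
            rw [hT', Subgroup.mem_centralizer_singleton_iff] at hv
            exact hv) hz'c
        rw [e, hz'2] at hw4
        omega
      have hle := Nat.le_of_dvd (by norm_num) h1
      obtain ⟨n, hn⟩ : ∃ n, n = Nat.card (Subgroup.centralizer ({w} : Set G)) := ⟨_, rfl⟩
      rw [← hn] at h1 h8 hle ⊢
      interval_cases n <;> omega
    have := idx w
    by_contra hcon
    push Not at hcon
    have h2 : Nat.card (Subgroup.centralizer ({w} : Set G)) *
        (Subgroup.centralizer ({w} : Set G)).index ≤ 4 * 41 :=
      Nat.mul_le_mul hCw (by omega)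
    omega
  have hiy : ∀ y : G, orderOf y = 3 → (Subgroup.centralizer ({y} : Set G)).index = 56 := by
    intro y hy
    have := idx y
    rw [card_centralizer_of_order 3 2 Nat.prime_two (by norm_num) (c3 h) (by rw [h]; norm_num)
      (N3 h) y hy] at this
    omega
  have hix : ∀ x : G, orderOf x = 7 → (Subgroup.centralizer ({x} : Set G)).index = 24 := by
    intro x hx
    have := idx x
    rw [card_centralizer_of_order 7 3 Nat.prime_three (by norm_num) (c7 h) (by rw [h]; norm_num)
      (N7 h) x hx] at this
    omega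
  have hninv : ∀ x : G, orderOf x = 7 → ¬ IsConj x x⁻¹ := by
    intro x hx hc
    obtain ⟨g, hg⟩ := isConj_iff.mp hc
    obtain ⟨P, hP⟩ := exists_sylow_eq_zpowers 7 (c7 h) x hx
    have hle : ((g • P : Sylow 7 G) : Subgroup G) ≤ (P : Subgroup G) := by
      rw [Sylow.coe_subgroup_smul]
      intro u hu
      obtain ⟨v, hv, rfl⟩ := (Subgroup.mem_smul_pointwise_iff_exists _ _ _).mp hu
      rw [hP] at hv ⊢
      obtain ⟨k, rfl⟩ := hv
      show g * x ^ k * g⁻¹ ∈ Subgroup.zpowers x
      rw [← conj_zpow, hg]
      exact Subgroup.zpow_mem _ (Subgroup.inv_mem _ (Subgroup.mem_zpowers x)) k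
    have heq : g • P = P := Sylow.ext (Subgroup.eq_of_le_of_card_ge hle (by rw [c7 h, c7 h]))
    have hgN : g ∈ Subgroup.normalizer ((P : Subgroup G) : Set G) :=
      Sylow.smul_eq_iff_mem_normalizer.mp heq
    have hg21 : g ^ 21 = 1 := by
      have h1 := orderOf_dvd_natCard (⟨g, hgN⟩ : Subgroup.normalizer ((P : Subgroup G) : Set G))
      rw [N7 h P, Subgroup.orderOf_mk] at h1
      exact orderOf_dvd_iff_pow_eq_one.mp h1
    have hgx : g * x = x⁻¹ * g := by
      have : g * x = (g * x * g⁻¹) * g := by group
      rw [this, hg]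
    have hgx' : g * x⁻¹ = x * g := by
      have : g * x⁻¹ = x * (x⁻¹ * g) * x⁻¹ := by group
      rw [this, ← hgx]
      group
    have h2 : Commute (g ^ 2) x := by
      show g ^ 2 * x = x * g ^ 2
      rw [pow_two, mul_assoc, hgx, ← mul_assoc, hgx', mul_assoc]
    have h20 : Commute (g ^ 20) x := by
      have : g ^ 20 = (g ^ 2) ^ 10 := by rw [← pow_mul]
      rw [this]
      exact h2.pow_left 10
    have hginv : g = (g ^ 20)⁻¹ := by
      have : g ^ 20 * g = 1 := by rw [← pow_succ]; exact hg21
      exact (inv_eq_of_mul_eq_one_right this).symm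
    have hcg : Commute g x := by
      rw [hginv]
      exact h20.inv_left
    have hxx : x = x⁻¹ := by
      rw [← hg, hcg.eq]
      group
    have hx2 : x ^ 2 = 1 := by
      rw [pow_two]
      nth_rewrite 1 [hxx]
      exact inv_mul_cancel x
    have := orderOf_dvd_iff_pow_eq_one.mpr hx2
    rw [hx] at this
    omega
  obtain ⟨y, hy⟩ := exists_prime_orderOf_dvd_card' (G := G) 3 (by rw [h]; norm_num)
  obtain ⟨x, hx⟩ := exists_prime_orderOf_dvd_card' (G := G) 7 (by rw [h]; norm_num)
  cases nonempty_fintype G
  have hsum : Fintype.card G = ∑ k ∈ ({1, 2, 3, 4, 7} : Finset ℕ),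
      (Finset.univ.filter (fun a : G => orderOf a = k)).card := by
    rw [← Finset.card_univ]
    apply Finset.card_eq_sum_card_fiberwise
    intro a _
    have := hord a
    simp only [Finset.coe_insert, Finset.coe_singleton, Set.mem_insert_iff,
      Set.mem_singleton_iff]
    exact this
  have hN : ∀ k, (Finset.univ.filter (fun a : G => orderOf a = k)).card =
      Nat.card {g : G // orderOf g = k} := by
    intro k
    rw [Nat.card_eq_fintype_card, Fintype.card_subtype]
  simp only [hN] at hsum
  rw [Finset.sum_insert (by decide), Finset.sum_insert (by decide), Finset.sum_insert (by decide),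
    Finset.sum_insert (by decide), Finset.sum_singleton, ← Nat.card_eq_fintype_card, h,
    (Cfsg.Agent.S1005.result h).2.1] at hsum
  have b1 := class_le (1 : G) 1 orderOf_one
  have b1' : (Subgroup.centralizer ({(1 : G)} : Set G)).index ≠ 0 := Subgroup.index_ne_zero_of_finite
  have b3 := class_le y 3 hy
  have b7 := two_class_le x x⁻¹ 7 hx (by rw [orderOf_inv, hx]) (hninv x hx)
  have b4 := class_le w 4 hw4
  have b4' := hiw w hw4
  rw [hiy y hy] at b3
  rw [hix x hx, hix x⁻¹ (by rw [orderOf_inv, hx])] at b7
  refine ⟨by omega, ?_, by omega, ?_, by omega, ?_⟩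
  · intro s t hs ht
    by_contra hc
    have := two_class_le s t 3 hs ht hc
    rw [hiy s hs, hiy t ht] at this
    omega
  · intro s t hs ht
    by_contra hc
    have := two_class_le s t 4 hs ht hc
    have e1 := hiw s hs
    have e2 := hiw t ht
    omega
  · intro x hx
    exact ⟨by rw [← index_centralizer_eq_card_isConj, hix x hx], hninv x hx⟩

end Cfsg.Agent.S1006
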