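import Cfsg.Statements.S1009
import Cfsg.Agent.Lib.Helper12.Conj
import Cfsg.Agent.Lib.Helper4.Basic

set_option autoImplicit false
open Cfsg

namespace Cfsg.Agent.S1009

/-- Brodkey's Theorem: if a finite group has abelian Sylow p-subgroups, then there are two Sylow p-subgroups whose intersection equals the intersection of all Sylow p-subgroups. -/
theorem result {G : Type*} [Group G] [Finite G] (p : ℕ) [Fact p.Prime] (hab : ∀ P : Sylow p G, IsMulCommutative ↥(P : Subgroup G)) : ∃ P Q : Sylow p G, (P : Subgroup G) ⊓ (Q : Subgroup G) = ⨅ R : Sylow p G, (R : Subgroup G) := by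
  classical
  open Cfsg.Agent.Lib.Helper12 Pointwise in
  obtain ⟨⟨P, Q⟩, hmin⟩ := Finite.exists_min (fun PQ : Sylow p G × Sylow p G =>
    Nat.card ((PQ.1 : Subgroup G) ⊓ (PQ.2 : Subgroup G) : Subgroup G))
  refine ⟨P, Q, le_antisymm ?_ (le_inf (iInf_le _ P) (iInf_le _ Q))⟩
  rw [le_iInf_iff]
  intro R
  have hnorm : ∀ S : Sylow p G, (P : Subgroup G) ⊓ Q ≤ S →
      (S : Subgroup G) ≤ Subgroup.normalizer (((P : Subgroup G) ⊓ Q : Subgroup G) : Set G) := by
    intro S hS x hx
    have hc := (Cfsg.Agent.Lib.Helper4.isMulCommutative_iff (S : Subgroup G)).1 (hab S)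
    rw [Subgroup.mem_normalizer_iff]
    intro d
    constructor
    · intro hd
      have : x * d * x⁻¹ = d := by rw [hc x hx d (hS hd)]; group
      rw [this]; exact hd
    · intro hd
      have h1 : x * (x * d * x⁻¹) = (x * d * x⁻¹) * x := hc x hx _ (hS hd)
      have h2 : x * d * x⁻¹ = d := by
        have : x * d = x * d * x⁻¹ * x := by group
        have h3 : x * (x * d * x⁻¹) = x * d := by rw [h1]; group
        exact mul_left_cancel h3
      rw [← h2]; exact hd
  have hPN := hnorm P inf_le_left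
  have hQN := hnorm Q inf_le_right
  have hPsyl : IsSylIn p (P : Subgroup G)
      (Subgroup.normalizer (((P : Subgroup G) ⊓ Q : Subgroup G) : Set G)) :=
    (isSylIn_top P).of_le hPN le_top
  obtain ⟨n, hnN, hn⟩ := hPsyl.exists_conj_le
    (R := (R : Subgroup G) ⊓ Subgroup.normalizer (((P : Subgroup G) ⊓ Q : Subgroup G) : Set G))
    inf_le_right (R.2.to_le inf_le_left)
  have hcoe : ((n • R : Sylow p G) : Subgroup G) = cj n (R : Subgroup G) := rfl
  have h1 : ((n • R : Sylow p G) : Subgroup G) ⊓ Q ≤ (P : Subgroup G) ⊓ Q := by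
    intro y hy
    refine Subgroup.mem_inf.mpr ⟨?_, hy.2⟩
    apply hn
    rw [mem_cj]
    have hy1 : y ∈ cj n (R : Subgroup G) := hcoe ▸ hy.1
    refine Subgroup.mem_inf.mpr ⟨mem_cj.1 hy1, ?_⟩
    exact mul_mem (mul_mem (inv_mem hnN) (hQN hy.2)) hnN
  have h2 := hmin (n • R, Q)
  have h3 : ((n • R : Sylow p G) : Subgroup G) ⊓ Q = (P : Subgroup G) ⊓ Q :=
    Subgroup.eq_of_le_of_card_ge h1 h2
  intro d hd
  have h4 : n * d * n⁻¹ ∈ (P : Subgroup G) ⊓ Q := (Subgroup.mem_normalizer_iff.1 hnN d).1 hd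
  rw [← h3] at h4
  have h5 : n * d * n⁻¹ ∈ cj n (R : Subgroup G) := hcoe ▸ h4.1
  exact conj_mem_cj_iff.1 h5

end Cfsg.Agent.S1009
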