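import Cfsg.Statements.S1014
import Cfsg.Agent.Lib.Helper11.Small.Parity

set_option autoImplicit false
open Cfsg


namespace Cfsg.Agent.S1014

open Cfsg.Agent.Lib.Helper11.Small

/-- No finite simple group has order 1104. -/
theorem result {G : Type*} [Group G] [Finite G] [IsSimpleGroup G] : Nat.card G ≠ 1104 := by
  classical
  intro hG
  haveI : Fact (Nat.Prime 23) := ⟨by norm_num⟩
  haveI : Fact (Nat.Prime 2) := ⟨by norm_num⟩
  obtain ⟨P⟩ : Nonempty (Sylow 23 G) := inferInstance
  have hc : ∀ R : Sylow 23 G, Nat.card R = 23 := fun R => by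
    have := syl_card 23 1 48 (by rw [hG]; norm_num) (by norm_num) R
    simpa using this
  have hPc := hc P
  have hidx : (P : Subgroup G).index = 48 := by
    have h1 := (P : Subgroup G).card_mul_index
    rw [hPc, hG] at h1
    omega
  have hn1 : Nat.card (Sylow 23 G) ∣ 48 := hidx ▸ P.card_dvd_index
  have hn2 : Nat.card (Sylow 23 G) ≡ 1 [MOD 23] := card_sylow_modEq_one 23 G
  have hn3 := syl_not_unique 23 P (by omega) (by omega)
  have hn4 : Nat.card (Sylow 23 G) = 24 := by
    generalize Nat.card (Sylow 23 G) = n at *
    have hle : n ≤ 48 := Nat.le_of_dvd (by norm_num) hn1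
    unfold Nat.ModEq at hn2
    interval_cases n <;> first | rfl | omega
  have hNi := hn4
  rw [P.card_eq_index_normalizer] at hNi
  set N := Subgroup.normalizer (P : Set G) with hN
  have hNc : Nat.card N = 46 := by
    have := N.card_mul_index
    rw [hNi, hG] at this
    omega
  -- an involution of N
  obtain ⟨t', ht'⟩ := exists_prime_orderOf_dvd_card' (G := N) 2 (by rw [hNc]; norm_num)
  have htN : (t' : G) ∈ N := t'.2
  have hto : orderOf (t' : G) = 2 := by rw [Subgroup.orderOf_coe]; exact ht'
  set t : G := (t' : G) with ht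
  have ht2 : t * t = 1 := by
    have := pow_orderOf_eq_one t
    rw [hto, pow_two] at this
    exact this
  by_cases hcen : ∀ x ∈ (P : Subgroup G), t * x = x * t
  · -- N centralises P
    apply burnside_no 23 P (by omega) (by omega)
    set K := Subgroup.centralizer (P : Set G) ⊓ N with hK
    have hPK : (P : Subgroup G) ≤ K := by
      refine le_inf ?_ Subgroup.le_normalizer
      haveI : IsCyclic (P : Subgroup G) := isCyclic_of_prime_card hPc
      intro a ha
      rw [Subgroup.mem_centralizer_iff]
      intro b hb
      have := (IsCyclic.commGroup (α := (P : Subgroup G))).mul_comm ⟨b, hb⟩ ⟨a, ha⟩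
      exact congrArg Subtype.val this
    have htK : t ∈ K := by
      have h1 : t ∈ Subgroup.centralizer (P : Set G) := by
        rw [Subgroup.mem_centralizer_iff]
        intro b hb
        exact (hcen b hb).symm
      exact ⟨h1, htN⟩
    have hd1 : 23 ∣ Nat.card K := by
      have := Subgroup.card_dvd_of_le hPK
      rwa [hPc] at this
    have hd2 : 2 ∣ Nat.card K := by
      have := Subgroup.orderOf_dvd_natCard K htK
      rwa [hto] at this
    have hd3 : Nat.card K ∣ 46 := by
      have := Subgroup.card_dvd_of_le (inf_le_right : K ≤ N)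
      rwa [hNc] at this
    have hK46 : Nat.card K = 46 := by
      have h46 : 46 ∣ Nat.card K := by
        have := Nat.Coprime.mul_dvd_of_dvd_of_dvd (by norm_num : Nat.Coprime 23 2) hd1 hd2
        simpa using this
      exact Nat.dvd_antisymm hd3 h46
    have hKN : K = N := Subgroup.eq_of_le_of_card_ge inf_le_right (by rw [hK46, hNc])
    show N ≤ _
    rw [← hKN]
    exact inf_le_left
  · push_neg at hcen
    obtain ⟨x0, hx0, hne⟩ := hcen
    have hinv := inverts 23 P hPc t htN ht2 x0 hx0 hne
    letI : Fintype (Sylow 23 G) := Fintype.ofFinite _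
    have hsign : Equiv.Perm.sign (MulAction.toPermHom G (Sylow 23 G) t) = -1 := by
      apply sign_neg _ _ (by rw [← Nat.card_eq_fintype_card, hn4]) P
      · exact Sylow.smul_eq_iff_mem_normalizer.2 htN
      · intro Q0 Q1 h0 h1 hf0 hf1
        have hf0' : t • Q0 = Q0 := hf0
        have hf1' : t • Q1 = Q1 := hf1
        obtain ⟨x, hxP, hx⟩ := orbit_all 23 P hPc (by rw [hn4]) Q0 Q1 (hc Q0) h0 h1
        have h3 : x⁻¹ • Q0 = x • Q0 := by
          have e1 : t • (x • Q0) = x • Q0 := by rw [hx]; exact hf1'
          have e2 : t • (x • Q0) = (t * x * t⁻¹) • (t • Q0) := by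
            rw [smul_smul, smul_smul, inv_mul_cancel_right]
          rw [e2, hf0', hinv x hxP] at e1
          exact e1
        have h4 : (x * x) • Q0 = Q0 := by
          rw [mul_smul, ← h3, smul_inv_smul]
        have h5 : x * x = 1 := stab_trivial 23 P Q0 hPc (hc Q0) h0 (x * x) (mul_mem hxP hxP) h4
        have h6 : orderOf x ∣ 2 := orderOf_dvd_of_pow_eq_one (by rw [pow_two]; exact h5)
        have h7 : orderOf x ∣ 23 := by
          have := Subgroup.orderOf_dvd_natCard (P : Subgroup G) hxP
          rwa [hPc] at this
        have h8 : orderOf x = 1 := by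
          have := Nat.dvd_gcd h6 h7
          simpa using this
        rw [orderOf_eq_one_iff] at h8
        rw [← hx, h8, one_smul]
      · rw [← map_pow, pow_two, ht2, map_one]
    set ψ : G →* ℤˣ := (Equiv.Perm.sign).comp (MulAction.toPermHom G (Sylow 23 G)) with hψ
    rcases ψ.normal_ker.eq_bot_or_eq_top with h | h
    · have hinj : Function.Injective ψ := (MonoidHom.ker_eq_bot_iff _).1 h
      have := Subgroup.card_dvd_of_injective ψ hinj
      rw [hG, Nat.card_eq_fintype_card, Fintype.card_units_int] at this
      revert this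
      decide
    · have : t ∈ ψ.ker := h ▸ Subgroup.mem_top t
      rw [MonoidHom.mem_ker] at this
      have h2 : ψ t = -1 := hsign
      rw [h2] at this
      revert this
      decide

end Cfsg.Agent.S1014
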