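import Cfsg.Statements.S1015
import Cfsg.Agent.Lib.Helper11.Small.Basic

set_option autoImplicit false
open Cfsg


namespace Cfsg.Agent.S1015

open Cfsg.Agent.Lib.Helper11.Small

/-- No finite simple group has order 1200. -/
theorem result {G : Type*} [Group G] [Finite G] [IsSimpleGroup G] : Nat.card G ≠ 1200 := by
  intro hG
  haveI : Fact (Nat.Prime 5) := ⟨by norm_num⟩
  obtain ⟨P⟩ : Nonempty (Sylow 5 G) := inferInstance
  have hc : ∀ R : Sylow 5 G, Nat.card R = 25 := fun R => by
    have := syl_card 5 2 48 (by rw [hG]; norm_num) (by norm_num) R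
    simpa using this
  have hPc := hc P
  have hidx : (P : Subgroup G).index = 48 := by
    have h1 := (P : Subgroup G).card_mul_index
    rw [hPc, hG] at h1
    omega
  have hn1 : Nat.card (Sylow 5 G) ∣ 48 := hidx ▸ P.card_dvd_index
  have hn2 : Nat.card (Sylow 5 G) ≡ 1 [MOD 5] := card_sylow_modEq_one 5 G
  have hn3 := syl_not_unique 5 P (by omega) (by omega)
  have hn4 : Nat.card (Sylow 5 G) = 6 ∨ Nat.card (Sylow 5 G) = 16 := by
    generalize Nat.card (Sylow 5 G) = n at *
    have hle : n ≤ 48 := Nat.le_of_dvd (by norm_num) hn1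
    unfold Nat.ModEq at hn2
    interval_cases n <;> first | (left; rfl) | (right; rfl) | omega
  rcases hn4 with hn4 | hn4
  · have h6 := hn4
    rw [P.card_eq_index_normalizer] at h6
    have hne : Subgroup.normalizer (P : Set G) ≠ ⊤ := by
      intro h
      rw [h, Subgroup.index_top] at h6
      omega
    have := card_dvd_factorial _ hne
    rw [h6, hG] at this
    revert this
    decide
  · -- a second Sylow subgroup
    obtain ⟨Q, hQP⟩ : ∃ Q : Sylow 5 G, Q ≠ P := by
      by_contra hcon
      push_neg at hcon
      haveI : Subsingleton (Sylow 5 G) := ⟨fun a b => (hcon a).trans (hcon b).symm⟩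
      have := Finite.card_le_one_iff_subsingleton.2 this
      omega
    -- the stabiliser of Q in P is non-trivial
    have hst : (MulAction.stabilizer (P : Subgroup G) Q).index ≤ 16 := by
      rw [MulAction.index_stabilizer, ← hn4, ← Set.ncard_univ]
      exact Set.ncard_le_ncard (Set.subset_univ _) (Set.toFinite _)
    have hst2 := (MulAction.stabilizer (P : Subgroup G) Q).card_mul_index
    rw [hPc] at hst2
    have hst3 : Nat.card (MulAction.stabilizer (P : Subgroup G) Q) ≠ 1 := by
      intro h
      rw [h] at hst2
      omega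
    obtain ⟨x, hx, hx1⟩ : ∃ x ∈ MulAction.stabilizer (P : Subgroup G) Q, x ≠ 1 := by
      by_contra hcon
      push_neg at hcon
      apply hst3
      rw [(Subgroup.eq_bot_iff_forall _).2 hcon, Subgroup.card_bot]
    have hxQ : (x : G) ∈ (Q : Subgroup G) := by
      have h1 : (x : G) • Q = Q := hx
      have h2 : (x : G) ∈ Subgroup.normalizer (Q : Set G) := Sylow.smul_eq_iff_mem_normalizer.1 h1
      have h3 : (x : G) ∈ (P : Subgroup G) ⊓ Subgroup.normalizer (Q : Set G) := ⟨x.2, h2⟩
      rw [P.2.inf_normalizer_sylow Q] at h3
      exact h3.2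
    have hx1' : (x : G) ≠ 1 := fun h => hx1 (Subtype.ext h)
    have hcomm : ∀ R : Sylow 5 G, (x : G) ∈ (R : Subgroup G) →
        (R : Subgroup G) ≤ Subgroup.centralizer {(x : G)} := by
      intro R hxR y hy
      have h := IsPGroup.commutative_of_card_eq_prime_sq (p := 5) (G := (R : Subgroup G))
        (by rw [hc R]; norm_num)
      rw [Subgroup.mem_centralizer_singleton_iff]
      have := h ⟨y, hy⟩ ⟨x, hxR⟩
      exact congrArg Subtype.val this
    set H := Subgroup.centralizer {(x : G)} with hH
    have hPH := hcomm P x.2
    have hQH := hcomm Q hxQ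
    have hHtop : H ≠ ⊤ := by
      intro htop
      have hN : (Subgroup.zpowers (x : G)).Normal := by
        constructor
        intro n hn g
        have hg : g ∈ H := htop ▸ Subgroup.mem_top g
        have hgx : Commute g (x : G) := by
          rw [hH, Subgroup.mem_centralizer_singleton_iff] at hg
          exact hg
        obtain ⟨k, rfl⟩ := Subgroup.mem_zpowers_iff.1 hn
        have : g * (x : G) ^ k * g⁻¹ = (x : G) ^ k := by
          rw [(hgx.zpow_right k).eq, mul_inv_cancel_right]
        rw [this]
        exact hn
      rcases hN.eq_bot_or_eq_top with h | h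
      · exact hx1' (Subgroup.zpowers_eq_bot.1 h)
      · have h1 : Subgroup.zpowers (x : G) ≤ (P : Subgroup G) :=
          Subgroup.zpowers_le.2 x.2
        rw [h] at h1
        have h2 : (P : Subgroup G) = ⊤ := top_le_iff.1 h1
        have h3 : Nat.card (P : Subgroup G) = 25 := hPc
        rw [h2, Subgroup.card_top, hG] at h3
        omega
    -- Sylow subgroups of H
    let P' : Sylow 5 H := P.subtype hPH
    let Q' : Sylow 5 H := Q.subtype hQH
    have hPQ' : Q' ≠ P' := by
      intro h
      apply hQP
      exact Sylow.subtype_injective (hP := hQH) (hQ := hPH) h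
    have hm1 : Nat.card (Sylow 5 H) ≡ 1 [MOD 5] := card_sylow_modEq_one 5 H
    have hm2 : Nat.card (Sylow 5 H) ≠ 1 := by
      intro h
      haveI : Subsingleton (Sylow 5 H) := (Finite.card_le_one_iff_subsingleton).1 h.le
      exact hPQ' (Subsingleton.elim _ _)
    have hm3 : Nat.card (Sylow 5 H) ∣ (P' : Subgroup H).index := P'.card_dvd_index
    have hm4 : Nat.card (P' : Subgroup H) = 25 := by
      have : Nat.card (P' : Subgroup H) = Nat.card (P : Subgroup G) := by
        show Nat.card ((P : Subgroup G).subgroupOf H) = _
        exact Nat.card_congr (Subgroup.subgroupOfEquivOfLe hPH).toEquiv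
      rw [this]; exact hPc
    have hm5 := (P' : Subgroup H).card_mul_index
    rw [hm4] at hm5
    have hm6 := H.card_mul_index
    rw [hG] at hm6
    have hpos : 0 < Nat.card (Sylow 5 H) := Nat.card_pos
    have hipos : 0 < (P' : Subgroup H).index := by
      rcases Nat.eq_zero_or_pos (P' : Subgroup H).index with h | h
      · rw [h] at hm5
        have : 0 < Nat.card H := Nat.card_pos
        omega
      · exact h
    have hm7 : 6 ≤ (P' : Subgroup H).index := by
      have hle := Nat.le_of_dvd hipos hm3
      unfold Nat.ModEq at hm1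
      omega
    have hm8 : H.index ≤ 8 := by
      by_contra hcon
      push_neg at hcon
      have : 150 * 9 ≤ Nat.card H * H.index := Nat.mul_le_mul (by omega) hcon
      omega
    have hfin := card_dvd_factorial H hHtop
    have hfin2 := hfin.trans (Nat.factorial_dvd_factorial hm8)
    rw [hG] at hfin2
    revert hfin2
    decide

end Cfsg.Agent.S1015
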