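import Cfsg.Statements.S1018
import Cfsg.Agent.Lib.Helper12.Conj

set_option autoImplicit false
open Cfsg

namespace Cfsg.Agent.S1018

/-- a nonidentity element of a group of prime order generates it -/
theorem zpowers_eq_of_mem {G : Type*} [Group G] [Finite G] {p : ℕ} [hp : Fact p.Prime]
    {P : Subgroup G} (hP : Nat.card P = p) {u : G} (hu : u ∈ P) (hu1 : u ≠ 1) :
    Subgroup.zpowers u = P := by
  apply Subgroup.eq_of_le_of_card_ge (Subgroup.zpowers_le.2 hu)
  rw [hP, Nat.card_zpowers]
  have h1 : orderOf u ∣ p := by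
    have := orderOf_dvd_natCard (⟨u, hu⟩ : P)
    rwa [Subgroup.orderOf_mk, hP] at this
  rcases (Nat.dvd_prime hp.out).1 h1 with h | h
  · exact absurd (orderOf_eq_one_iff.1 h) hu1
  · exact h.ge

/-- general form of the second part, for an arbitrary action -/
theorem fixed_le_orbits {G Ω : Type*} [Group G] [Finite G] [MulAction G Ω] [Finite Ω] {p : ℕ}
    [Fact p.Prime] (P : Subgroup G) (hP : Nat.card P = p) (x : G)
    (hxN : x ∈ Subgroup.normalizer (P : Set G)) (hxC : x ∉ Subgroup.centralizer (P : Set G)) :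
    Nat.card (MulAction.fixedBy Ω x) ≤ Nat.card (MulAction.orbitRel.Quotient P Ω) := by
  apply Nat.card_le_card_of_injective
    (fun ω : MulAction.fixedBy Ω x => (Quotient.mk'' (ω : Ω) : MulAction.orbitRel.Quotient P Ω))
  intro ω ω' h
  have h1 : (ω : Ω) ∈ MulAction.orbit P (ω' : Ω) := by
    have := Quotient.exact' h
    exact this
  obtain ⟨u, hu⟩ := h1
  have hu' : (u : G) • (ω' : Ω) = ω := hu
  apply Subtype.ext
  by_contra hne
  have hω : x • (ω : Ω) = ω := ω.2
  have hω' : x • (ω' : Ω) = ω' := ω'.2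
  have hc : ((u : G)⁻¹ * (x * u * x⁻¹)) • (ω' : Ω) = ω' := by
    have h2 : x⁻¹ • (ω' : Ω) = ω' := by
      rw [inv_smul_eq_iff, hω']
    rw [mul_smul, mul_smul, mul_smul, h2, hu', hω, ← hu', inv_smul_smul]
  have hcP : (u : G)⁻¹ * (x * u * x⁻¹) ∈ P :=
    P.mul_mem (P.inv_mem u.2) ((Subgroup.mem_normalizer_iff.1 hxN u).1 u.2)
  have hu1 : (u : G) ≠ 1 := by
    intro h0
    rw [h0, one_smul] at hu'
    exact hne hu'.symm
  by_cases hc1 : (u : G)⁻¹ * (x * u * x⁻¹) = 1
  · apply hxC
    have h3 : x * u * x⁻¹ = u := by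
      rw [inv_mul_eq_one] at hc1; exact hc1.symm
    have h4 : Subgroup.zpowers (u : G) ≤ Subgroup.centralizer {x} := by
      rw [Subgroup.zpowers_le, Subgroup.mem_centralizer_iff]
      intro z hz
      rw [Set.mem_singleton_iff] at hz
      subst hz
      calc z * u = (z * u * z⁻¹) * z := by group
        _ = u * z := by rw [h3]
    rw [zpowers_eq_of_mem hP u.2 hu1] at h4
    rw [Subgroup.mem_centralizer_iff]
    intro v hv
    exact (Subgroup.mem_centralizer_iff.1 (h4 hv) x rfl).symm
  · have h3 : Subgroup.zpowers ((u : G)⁻¹ * (x * u * x⁻¹)) ≤ MulAction.stabilizer G (ω' : Ω) := by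
      rw [Subgroup.zpowers_le]; exact hc
    rw [zpowers_eq_of_mem hP hcP hc1] at h3
    have h4 : (u : G) • (ω' : Ω) = ω' := h3 u.2
    exact hne (hu'.symm.trans h4)

/-- Let P be a Sylow p-subgroup of order p of a finite group G, and consider the action of G on the left cosets of the normalizer N of P. Then every element of order p fixes exactly one coset, and an element of N that does not centralize P fixes at most as many cosets as there are orbits of P. -/
theorem result {G : Type*} [Group G] [Finite G] (p : ℕ) [Fact p.Prime] (P : Sylow p G) (hP : Nat.card ↥(P : Subgroup G) = p) : (∀ y : G, orderOf y = p → Nat.card (MulAction.fixedBy (G ⧸ Subgroup.normalizer ((P : Subgroup G) : Set G)) y) = 1) ∧ ∀ x : G, x ∈ Subgroup.normalizer ((P : Subgroup G) : Set G) → x ∉ Subgroup.centralizer ((P : Subgroup G) : Set G) → Nat.card (MulAction.fixedBy (G ⧸ Subgroup.normalizer ((P : Subgroup G) : Set G)) x) ≤ Nat.card (MulAction.orbitRel.Quotient ↥(P : Subgroup G) (G ⧸ Subgroup.normalizer ((P : Subgroup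 G) : Set G))) := by
  open Cfsg.Agent.Lib.Helper12 in
  refine ⟨?_, fun x hxN hxC => fixed_le_orbits (P : Subgroup G) hP x hxN hxC⟩
  intro y hy
  have hy1 : y ≠ 1 := by
    intro h
    rw [h, orderOf_one] at hy
    exact (Fact.out : p.Prime).one_lt.ne hy
  have key : ∀ g : G, y • (QuotientGroup.mk g : G ⧸ Subgroup.normalizer ((P : Subgroup G) : Set G))
      = QuotientGroup.mk g ↔ Subgroup.zpowers (g⁻¹ * y * g) = P := by
    intro g
    change (QuotientGroup.mk (y * g) : G ⧸ Subgroup.normalizer ((P : Subgroup G) : Set G))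
      = QuotientGroup.mk g ↔ _
    rw [QuotientGroup.eq]
    have h1 : (y * g)⁻¹ * g = (g⁻¹ * y * g)⁻¹ := by group
    rw [h1, inv_mem_iff]
    have hz1 : g⁻¹ * y * g ≠ 1 := by
      intro h
      apply hy1
      have : y = g * (g⁻¹ * y * g) * g⁻¹ := by group
      rw [this, h]; group
    constructor
    · intro hN
      have hzp : IsPGroup p (Subgroup.zpowers (g⁻¹ * y * g)) := by
        apply IsPGroup.of_card (n := 1)
        have h2 : orderOf (g⁻¹ * y * g) = orderOf y := by
          have := (MulAut.conj g⁻¹).orderOf_eq y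
          rw [MulAut.conj_apply, inv_inv] at this
          exact this
        rw [Nat.card_zpowers, h2, hy, pow_one]
      have h3 := hzp.inf_normalizer_sylow P
      have h4 : g⁻¹ * y * g ∈ Subgroup.zpowers (g⁻¹ * y * g) ⊓ (P : Subgroup G) := by
        rw [← h3]
        exact Subgroup.mem_inf.mpr ⟨Subgroup.mem_zpowers _, hN⟩
      exact zpowers_eq_of_mem hP h4.2 hz1
    · intro h
      apply Subgroup.le_normalizer
      rw [← h]
      exact Subgroup.mem_zpowers _
  rw [Nat.card_eq_one_iff_unique]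
  constructor
  · constructor
    rintro ⟨a, ha⟩ ⟨b, hb⟩
    apply Subtype.ext
    obtain ⟨g, rfl⟩ := QuotientGroup.mk_surjective a
    obtain ⟨g', rfl⟩ := QuotientGroup.mk_surjective b
    have h1 := (key g).1 ha
    have h2 := (key g').1 hb
    change (QuotientGroup.mk g : G ⧸ Subgroup.normalizer ((P : Subgroup G) : Set G))
      = QuotientGroup.mk g'
    rw [QuotientGroup.eq, mem_normalizer_iff_cj]
    have h3 : ∀ g : G, Subgroup.zpowers (g⁻¹ * y * g) = cj g⁻¹ (Subgroup.zpowers y) := by
      intro g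
      rw [cj, MonoidHom.map_zpowers]
      simp
    rw [h3] at h1 h2
    rw [cj_mul]
    nth_rewrite 1 [← h2]
    rw [cj_cj_inv, h1]
  · have hzp : IsPGroup p (Subgroup.zpowers y) := by
      apply IsPGroup.of_card (n := 1)
      rw [Nat.card_zpowers, hy, pow_one]
    obtain ⟨Q, hQ⟩ := hzp.exists_le_sylow
    obtain ⟨g, hg⟩ := MulAction.exists_smul_eq G P Q
    refine ⟨⟨QuotientGroup.mk g, (key g).2 ?_⟩⟩
    have hyQ : y ∈ cj g (P : Subgroup G) := by
      have : ((g • P : Sylow p G) : Subgroup G) = cj g (P : Subgroup G) := rfl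
      rw [← this, hg]
      exact hQ (Subgroup.mem_zpowers y)
    apply zpowers_eq_of_mem hP (mem_cj.1 hyQ)
    intro h
    apply hy1
    have : y = g * (g⁻¹ * y * g) * g⁻¹ := by group
    rw [this, h]; group

end Cfsg.Agent.S1018
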