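import Cfsg.Statements.S1019
import Cfsg.Agent.Lib.Helper2.Ortho

set_option autoImplicit false
open Cfsg

namespace Cfsg.Agent.S1019

/-- Let H be a subgroup of a finite group G and x an element of H. In the action of G on the left cosets of H, the number of cosets fixed by x, multiplied by the size of the conjugacy class of x, equals the index of H multiplied by the number of conjugates of x that lie in H. -/
theorem result {G : Type*} [Group G] [Finite G] (H : Subgroup G) (x : G) (hx : x ∈ H) : Nat.card (MulAction.fixedBy (G ⧸ H) x) * Nat.card {g : G // IsConj x g} = H.index * Nat.card {g : G // IsConj x g ∧ g ∈ H} := by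
  classical
  let S : Set G := {g : G | g⁻¹ * x * g ∈ H}
  have hS1 : S = QuotientGroup.mk ⁻¹' (MulAction.fixedBy (G ⧸ H) x) := by
    ext g
    simp only [S, Set.mem_ofPred_eq, Set.mem_preimage, MulAction.mem_fixedBy]
    change _ ↔ (QuotientGroup.mk (x * g) : G ⧸ H) = QuotientGroup.mk g
    rw [QuotientGroup.eq]
    have h1 : (x * g)⁻¹ * g = (g⁻¹ * x * g)⁻¹ := by group
    rw [h1, inv_mem_iff]
  have hc1 : Nat.card S = Nat.card H * Nat.card (MulAction.fixedBy (G ⧸ H) x) := by
    rw [hS1, Nat.card_congr (QuotientGroup.preimageMkEquivSubgroupProdSet H _), Nat.card_prod]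
  let f : S → {g : G // IsConj x g ∧ g ∈ H} := fun g =>
    ⟨(g : G)⁻¹ * x * g, by
      refine ⟨isConj_iff.2 ⟨(g : G)⁻¹, by simp⟩, g.2⟩⟩
  have hfib : ∀ y : {g : G // IsConj x g ∧ g ∈ H},
      Nat.card {s : S // f s = y} = Nat.card (Subgroup.centralizer ({x} : Set G)) := by
    intro y
    obtain ⟨c, hc⟩ := isConj_iff.1 y.2.1
    have hg0 : c⁻¹ ∈ S := by
      change c⁻¹⁻¹ * x * c⁻¹ ∈ H
      rw [inv_inv, hc]; exact y.2.2
    symm
    let e : Subgroup.centralizer ({x} : Set G) → {s : S // f s = y} := fun z =>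
      ⟨⟨(z : G) * c⁻¹, by
        change ((z : G) * c⁻¹)⁻¹ * x * ((z : G) * c⁻¹) ∈ H
        have hz : (z : G)⁻¹ * x * z = x := by
          have := Subgroup.mem_centralizer_iff.1 z.2 x rfl
          rw [mul_assoc, this]; group
        have : ((z : G) * c⁻¹)⁻¹ * x * ((z : G) * c⁻¹) = c * ((z : G)⁻¹ * x * z) * c⁻¹ := by group
        rw [this, hz, hc]; exact y.2.2⟩, by
        apply Subtype.ext
        change ((z : G) * c⁻¹)⁻¹ * x * ((z : G) * c⁻¹) = y
        have hz : (z : G)⁻¹ * x * z = x := by
          have := Subgroup.mem_centralizer_iff.1 z.2 x rfl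
          rw [mul_assoc, this]; group
        have : ((z : G) * c⁻¹)⁻¹ * x * ((z : G) * c⁻¹) = c * ((z : G)⁻¹ * x * z) * c⁻¹ := by group
        rw [this, hz, hc]⟩
    apply Nat.card_congr (Equiv.ofBijective e ⟨?_, ?_⟩)
    · intro z z' hzz
      have h1 : (z : G) * c⁻¹ = (z' : G) * c⁻¹ := congrArg (fun s => ((s.1 : S) : G)) hzz
      exact Subtype.ext (mul_right_cancel h1)
    · rintro ⟨⟨s, hs⟩, hsy⟩
      have h1 : s⁻¹ * x * s = y := congrArg Subtype.val hsy
      refine ⟨⟨s * c, ?_⟩, ?_⟩
      · rw [Subgroup.mem_centralizer_iff]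
        intro w hw
        rw [Set.mem_singleton_iff] at hw
        subst hw
        have h2 : s⁻¹ * w * s = c * w * c⁻¹ := by rw [h1, hc]
        calc w * (s * c) = s * (s⁻¹ * w * s) * c := by group
          _ = s * (c * w * c⁻¹) * c := by rw [h2]
          _ = s * c * w := by group
      · apply Subtype.ext
        apply Subtype.ext
        change s * c * c⁻¹ = s
        group
  have hc2 : Nat.card S = Nat.card {g : G // IsConj x g ∧ g ∈ H} *
      Nat.card (Subgroup.centralizer ({x} : Set G)) := by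
    cases nonempty_fintype {g : G // IsConj x g ∧ g ∈ H}
    rw [← Nat.card_congr (Equiv.sigmaFiberEquiv f), Nat.card_sigma]
    simp_rw [hfib]
    rw [Finset.sum_const, Finset.card_univ, smul_eq_mul, ← Nat.card_eq_fintype_card]
  have hc3 := Cfsg.Agent.Lib.Helper2.card_isConj_mul_card_centralizer x
  have hc4 := H.index_mul_card
  have hpos : 0 < Nat.card H := Nat.card_pos
  apply Nat.eq_of_mul_eq_mul_left hpos
  calc Nat.card H * (Nat.card (MulAction.fixedBy (G ⧸ H) x) * Nat.card {g : G // IsConj x g})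
      = Nat.card S * Nat.card {g : G // IsConj x g} := by rw [hc1]; ring
    _ = Nat.card {g : G // IsConj x g ∧ g ∈ H} * (Nat.card {g : G // IsConj x g} *
        Nat.card (Subgroup.centralizer ({x} : Set G))) := by rw [hc2]; ring
    _ = Nat.card {g : G // IsConj x g ∧ g ∈ H} * (H.index * Nat.card H) := by rw [hc3, hc4]
    _ = _ := by ring

end Cfsg.Agent.S1019
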