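import Cfsg.Statements.S1023
import Cfsg.Agent.Lib.Helper7.AddSmall
import Cfsg.Agent.Lib.Helper7.AddE7
import Cfsg.Agent.Lib.Helper7.AddE8

set_option autoImplicit false
open Cfsg

namespace Cfsg.Agent.S1023

open Cfsg.Agent.Lib.Helper7 in
/-- Additivity of root elements: for every type G₂, B₂, D₄, F₄, E₆, E₇, E₈ and every root `r`, `x_r(t₁) x_r(t₂) = x_r(t₁ + t₂)` as matrices. -/
theorem result {F : Type*} [Field F] (D : Cfsg.Lie.ChevalleyDatum) (hD : D ∈ [Cfsg.Lie.chevG2, Cfsg.Lie.chevB2, Cfsg.Lie.chevD4, Cfsg.Lie.chevF4, Cfsg.Lie.chevE6, Cfsg.Lie.chevE7, Cfsg.Lie.chevE8]) (r : ℕ) (hr : r < D.nroots) (t₁ t₂ : F) :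
    D.x F r t₁ * D.x F r t₂ = D.x F r (t₁ + t₂) := by
  simp only [List.mem_cons, List.not_mem_nil, or_false] at hD
  rcases hD with rfl | rfl | rfl | rfl | rfl | rfl | rfl
  · exact x_add agreeG2 r hr (allLt_sound (addG2 r hr)) t₁ t₂
  · exact x_add agreeB2 r hr (allLt_sound (addB2 r hr)) t₁ t₂
  · exact x_add agreeD4 r hr (allLt_sound (addD4 r hr)) t₁ t₂
  · exact x_add agreeF4 r hr (allLt_sound (addF4 r hr)) t₁ t₂
  · exact x_add agreeE6 r hr (allLt_sound (addE6 r hr)) t₁ t₂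
  · exact x_add agreeE7 r hr (allLt_sound (addE7 r hr)) t₁ t₂
  · exact x_add agreeE8 r hr (allLt_sound (addE8 r hr)) t₁ t₂

end Cfsg.Agent.S1023
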