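import Cfsg.Statements.S1024
import Cfsg.Agent.Lib.Helper7.Fast

set_option autoImplicit false
open Cfsg

namespace Cfsg.Agent.S1024

open Cfsg.Lie Cfsg.Lie.ChevalleyDatum

theorem xMat_zero {F : Type*} [Field F] (D : ChevalleyDatum) (r : Fin D.nroots) :
    D.xMat F r 0 = 1 := by
  have hsum : ∀ l : List (ℕ × ℤ), (∀ km ∈ l, km.1 ≠ 0) →
      (l.map fun km => ((km.2 : ℤ) : F) * (0 : F) ^ km.1).sum = 0 := by
    intro l hl
    induction l with
    | nil => simp
    | cons a l ih =>
      simp only [List.map_cons, List.sum_cons]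
      rw [ih (fun km h => hl km (List.mem_cons_of_mem _ h))]
      simp [hl a (List.mem_cons_self)]
  have hcc : ∀ s u : ℕ, ∀ km ∈ D.chainCoeff r.val s u, km.1 ≠ 0 := by
    intro s u km hkm
    unfold chainCoeff at hkm
    simp only [List.mem_flatMap, List.mem_map] at hkm
    obtain ⟨e, _, q, _, rfl⟩ := hkm
    simp
  ext row col
  rcases col with i | s
  · rcases row with i' | u
    · simp [xMat, Matrix.one_apply]
    · simp [xMat, Matrix.one_apply]
  · by_cases hs : s = r
    · subst hs
      rcases row with i' | u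
      · simp [xMat, Matrix.one_apply]
      · simp [xMat, Matrix.one_apply]
    · by_cases hs2 : s.val = D.negIdx.getD r.val 0
      · rcases row with i' | u
        · simp [xMat, Matrix.one_apply, hs, hs2]
        · simp [xMat, Matrix.one_apply, hs, hs2]
      · rcases row with i' | u
        · simp [xMat, Matrix.one_apply, hs, hs2]
        · simp only [xMat, Matrix.of_apply, hs, hs2, if_false]
          rw [hsum _ (hcc _ _)]
          simp [Matrix.one_apply]

/-- `x_r(0) = 1`, and `x_r(t) = 1` forces `t = 0`: the map `t ↦ x_r(t)` is injective. -/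
theorem result {F : Type*} [Field F] (D : Cfsg.Lie.ChevalleyDatum) (hD : D ∈ [Cfsg.Lie.chevG2, Cfsg.Lie.chevB2, Cfsg.Lie.chevD4, Cfsg.Lie.chevF4, Cfsg.Lie.chevE6, Cfsg.Lie.chevE7, Cfsg.Lie.chevE8]) (r : ℕ) (hr : r < D.nroots) (t : F) :
    D.x F r t = 1 ↔ t = 0 := by
  have key : ∀ r < D.nroots, D.negIdx.getD r 0 < D.nroots ∧ D.negIdx.getD r 0 ≠ r := by
    simp only [List.mem_cons, List.not_mem_nil, or_false] at hD
    rcases hD with rfl | rfl | rfl | rfl | rfl | rfl | rfl <;> decide +kernel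
  obtain ⟨h1, h2⟩ := key r hr
  simp only [ChevalleyDatum.x, hr, dif_pos]
  constructor
  · intro h
    have h3 := congrFun (congrFun h (Sum.inr ⟨r, hr⟩)) (Sum.inr ⟨D.negIdx.getD r 0, h1⟩)
    have h4 : (⟨D.negIdx.getD r 0, h1⟩ : Fin D.nroots) ≠ ⟨r, hr⟩ := by
      intro h5; exact h2 (congrArg Fin.val h5)
    have h2' : D.negIdx[r]?.getD 0 ≠ r := by simpa using h2
    simp [xMat, Matrix.one_apply, h2', h2'.symm] at h3
    exact h3
  · rintro rfl
    exact xMat_zero D _

end Cfsg.Agent.S1024
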