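import Cfsg.Statements.S1031
import Cfsg.Agent.Lib.Helper7.F3G2
import Cfsg.Agent.Lib.Helper7.F3B2
import Cfsg.Agent.Lib.Helper7.F3D4
import Cfsg.Agent.Lib.Helper7.F3F4
import Cfsg.Agent.Lib.Helper7.F3E6
import Cfsg.Agent.Lib.Helper7.F3E7
import Cfsg.Agent.Lib.Helper7.F3E8

set_option autoImplicit false
open Cfsg

namespace Cfsg.Agent.S1031

open Cfsg.Agent.Lib.Helper7

theorem aux {F : Type*} [Field F] {D : Cfsg.Lie.ChevalleyDatum} {X : Fast} {W : FastW} (h : Agree D X)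
    (hW : AgreeW D X W) (hf : ∀ i < X.l, ∀ s < X.n, f3Chk X W i s = true)
    (i s : ℕ) (hi : i < D.rank) (hs : s < D.nroots) :
    ∃ η : ℤ, (η = 1 ∨ η = -1) ∧
      ∀ t : F, D.nMat F (D.simple i) 1 * D.x F s t = D.x F (D.reflectRoot i s) ((η : F) * t) * D.nMat F (D.simple i) 1 := by
  have hi' : i < X.l := by rw [← h.hl]; exact hi
  have hs' : s < X.n := by rw [← h.hn]; exact hs
  exact ⟨eta X W i s, eta_cases X W i s, fun t => n_conj h hW i hi' s hs' (hf i hi' s hs') t⟩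

/-- For a fundamental root `p = p_{i+1}` and any root `s`: `n_p x_s(t) n_p⁻¹ = x_{w_p(s)}(η t)` with a sign `η = ±1` independent of `t`, where `w_p(s)` is the reflected root (`reflectRoot`). Stated as `n_p x_s(t) = x_{w_p(s)}(η t) n_p`. -/
theorem result {F : Type*} [Field F] (D : Cfsg.Lie.ChevalleyDatum) (hD : D ∈ [Cfsg.Lie.chevG2, Cfsg.Lie.chevB2, Cfsg.Lie.chevD4, Cfsg.Lie.chevF4, Cfsg.Lie.chevE6, Cfsg.Lie.chevE7, Cfsg.Lie.chevE8]) (i s : ℕ) (hi : i < D.rank) (hs : s < D.nroots) :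
    ∃ η : ℤ, (η = 1 ∨ η = -1) ∧
      ∀ t : F, D.nMat F (D.simple i) 1 * D.x F s t = D.x F (D.reflectRoot i s) ((η : F) * t) * D.nMat F (D.simple i) 1 := by
  simp only [List.mem_cons, List.not_mem_nil, or_false] at hD
  rcases hD with rfl | rfl | rfl | rfl | rfl | rfl | rfl
  · exact aux agreeG2 agreeWG2 f3G2 i s hi hs
  · exact aux agreeB2 agreeWB2 f3B2 i s hi hs
  · exact aux agreeD4 agreeWD4 f3D4 i s hi hs
  · exact aux agreeF4 agreeWF4 f3F4 i s hi hs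
  · exact aux agreeE6 agreeWE6 f3E6 i s hi hs
  · exact aux agreeE7 agreeWE7 f3E7 i s hi hs
  · exact aux agreeE8 agreeWE8 f3E8 i s hi hs

end Cfsg.Agent.S1031
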