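import Cfsg.Statements.S1032
import Cfsg.Agent.Lib.Helper7.HDG2
import Cfsg.Agent.Lib.Helper7.HDB2
import Cfsg.Agent.Lib.Helper7.HDD4
import Cfsg.Agent.Lib.Helper7.HDF4
import Cfsg.Agent.Lib.Helper7.HDE6
import Cfsg.Agent.Lib.Helper7.HDE7
import Cfsg.Agent.Lib.Helper7.HDE8
import Cfsg.Agent.Lib.Helper7.HXG2
import Cfsg.Agent.Lib.Helper7.HXB2
import Cfsg.Agent.Lib.Helper7.HXD4
import Cfsg.Agent.Lib.Helper7.HXF4
import Cfsg.Agent.Lib.Helper7.HXE6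
import Cfsg.Agent.Lib.Helper7.HXE7
import Cfsg.Agent.Lib.Helper7.HXE8

set_option autoImplicit false
open Cfsg

namespace Cfsg.Agent.S1032

open Cfsg.Agent.Lib.Helper7

theorem aux {F : Type*} [Field F] {D : Cfsg.Lie.ChevalleyDatum} {X : Fast} {W : FastW} (h : Agree D X)
    (hW : AgreeW D X W) (hd : ∀ r < X.n, hdiagChk X r = true) (hx : ∀ i < X.l, ∀ s < X.n, hxChk X W i s = true)
    (i s : ℕ) (hi : i < D.rank) (hs : s < D.nroots) (c : F) (hc : c ≠ 0) (t : F) :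
    D.hMat F (D.simple i) c * D.x F s t = D.x F s (c ^ (D.cartan i s) * t) * D.hMat F (D.simple i) c := by
  have hi' : i < X.l := by rw [← h.hl]; exact hi
  have hs' : s < X.n := by rw [← h.hn]; exact hs
  exact h_conj h hW i hi' (hd _ (hW.hsl i hi')) s hs' (hx i hi' s hs') hc t

/-- For a fundamental root `p`, a root `s` and `c ≠ 0`: `h_p(c) x_s(t) h_p(c)⁻¹ = x_s(c^{A_{p,s}} t)`, stated as `h_p(c) x_s(t) = x_s(c^{A_{p,s}} t) h_p(c)`. -/
theorem result {F : Type*} [Field F] (D : Cfsg.Lie.ChevalleyDatum) (hD : D ∈ [Cfsg.Lie.chevG2, Cfsg.Lie.chevB2, Cfsg.Lie.chevD4, Cfsg.Lie.chevF4, Cfsg.Lie.chevE6, Cfsg.Lie.chevE7, Cfsg.Lie.chevE8]) (i s : ℕ) (hi : i < D.rank) (hs : s < D.nroots) (c : F) (hc : c ≠ 0) (t : F) :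
    D.hMat F (D.simple i) c * D.x F s t = D.x F s (c ^ (D.cartan i s) * t) * D.hMat F (D.simple i) c := by
  simp only [List.mem_cons, List.not_mem_nil, or_false] at hD
  rcases hD with rfl | rfl | rfl | rfl | rfl | rfl | rfl
  · exact aux agreeG2 agreeWG2 hdG2 hxG2 i s hi hs c hc t
  · exact aux agreeB2 agreeWB2 hdB2 hxB2 i s hi hs c hc t
  · exact aux agreeD4 agreeWD4 hdD4 hxD4 i s hi hs c hc t
  · exact aux agreeF4 agreeWF4 hdF4 hxF4 i s hi hs c hc t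
  · exact aux agreeE6 agreeWE6 hdE6 hxE6 i s hi hs c hc t
  · exact aux agreeE7 agreeWE7 hdE7 hxE7 i s hi hs c hc t
  · exact aux agreeE8 agreeWE8 hdE8 hxE8 i s hi hs c hc t

end Cfsg.Agent.S1032
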