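import Cfsg.Statements.S1033
import Cfsg.Agent.Lib.Helper7.HDG2
import Cfsg.Agent.Lib.Helper7.HDB2
import Cfsg.Agent.Lib.Helper7.HDD4
import Cfsg.Agent.Lib.Helper7.HDF4
import Cfsg.Agent.Lib.Helper7.HDE6
import Cfsg.Agent.Lib.Helper7.HDE7
import Cfsg.Agent.Lib.Helper7.HDE8

set_option autoImplicit false
open Cfsg

namespace Cfsg.Agent.S1033

open Cfsg.Agent.Lib.Helper7

theorem aux {F : Type*} [Field F] {D : Cfsg.Lie.ChevalleyDatum} {X : Fast} {W : FastW} (h : Agree D X)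
    (hW : AgreeW D X W) (hd : ∀ r < X.n, hdiagChk X r = true) (ha : ∀ i < X.l, simpAChk X W i = true)
    (i : ℕ) (hi : i < D.rank) (c : F) (hc : c ≠ 0) :
    D.hMat F (D.simple i) c = Matrix.diagonal (Sum.elim (fun _ => (1 : F)) (fun s : Fin D.nroots => c ^ (D.cartan i s))) := by
  have hi' : i < X.l := by rw [← h.hl]; exact hi
  exact hMat_simple h hW i hi' (hd _ (hW.hsl i hi')) (ha i hi') hc

/-- `h_p(c)` (for a fundamental root `p = p_{i+1}` and `c ≠ 0`) is diagonal: it fixes each `h_{p_j}` and scales `e_s` by `c^{A_{p,s}}`. -/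
theorem result {F : Type*} [Field F] (D : Cfsg.Lie.ChevalleyDatum) (hD : D ∈ [Cfsg.Lie.chevG2, Cfsg.Lie.chevB2, Cfsg.Lie.chevD4, Cfsg.Lie.chevF4, Cfsg.Lie.chevE6, Cfsg.Lie.chevE7, Cfsg.Lie.chevE8]) (i : ℕ) (hi : i < D.rank) (c : F) (hc : c ≠ 0) :
    D.hMat F (D.simple i) c = Matrix.diagonal (Sum.elim (fun _ => (1 : F)) (fun s : Fin D.nroots => c ^ (D.cartan i s))) := by
  simp only [List.mem_cons, List.not_mem_nil, or_false] at hD
  rcases hD with rfl | rfl | rfl | rfl | rfl | rfl | rfl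
  · exact aux agreeG2 agreeWG2 hdG2 simpAG2 i hi c hc
  · exact aux agreeB2 agreeWB2 hdB2 simpAB2 i hi c hc
  · exact aux agreeD4 agreeWD4 hdD4 simpAD4 i hi c hc
  · exact aux agreeF4 agreeWF4 hdF4 simpAF4 i hi c hc
  · exact aux agreeE6 agreeWE6 hdE6 simpAE6 i hi c hc
  · exact aux agreeE7 agreeWE7 hdE7 simpAE7 i hi c hc
  · exact aux agreeE8 agreeWE8 hdE8 simpAE8 i hi c hc

end Cfsg.Agent.S1033
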