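import Cfsg.Statements.S1041
import Cfsg.Agent.Lib.Helper7.Fast

set_option autoImplicit false
open Cfsg

namespace Cfsg.Agent.S1041

open Cfsg.Lie Cfsg.Lie.ChevalleyDatum in
/-- `U` and `V` generate the whole Chevalley group. -/
theorem result {F : Type*} [Field F] (D : Cfsg.Lie.ChevalleyDatum) (hD : D ∈ [Cfsg.Lie.chevG2, Cfsg.Lie.chevB2, Cfsg.Lie.chevD4, Cfsg.Lie.chevF4, Cfsg.Lie.chevE6, Cfsg.Lie.chevE7, Cfsg.Lie.chevE8]) : D.posUnipotent F ⊔ D.negUnipotent F = D.group F := by
  have key : ∀ r < D.nroots, D.IsPosRoot r ∨ D.IsNegRoot r := by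
    simp only [List.mem_cons, List.not_mem_nil, or_false] at hD
    rcases hD with rfl | rfl | rfl | rfl | rfl | rfl | rfl <;> decide +kernel
  apply le_antisymm
  · rw [sup_le_iff]
    constructor
    · unfold posUnipotent group
      apply Subgroup.closure_mono
      rintro g ⟨r, t, hr, hg⟩
      exact ⟨⟨r, hr.1⟩, t, by rw [hg]; simp [ChevalleyDatum.x, hr.1]⟩
    · unfold negUnipotent group
      apply Subgroup.closure_mono
      rintro g ⟨r, t, hr, hg⟩
      exact ⟨⟨r, hr.1⟩, t, by rw [hg]; simp [ChevalleyDatum.x, hr.1]⟩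
  · unfold group
    rw [Subgroup.closure_le]
    rintro g ⟨r, t, hg⟩
    rcases key r r.2 with h | h
    · apply Subgroup.mem_sup_left
      apply Subgroup.subset_closure
      exact ⟨r, t, h, by rw [hg]; simp [ChevalleyDatum.x, r.2]⟩
    · apply Subgroup.mem_sup_right
      apply Subgroup.subset_closure
      exact ⟨r, t, h, by rw [hg]; simp [ChevalleyDatum.x, r.2]⟩

end Cfsg.Agent.S1041
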