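import Cfsg.Statements.S1048
import Cfsg.Agent.Lib.Helper7.Par5T

set_option autoImplicit false
open Cfsg

namespace Cfsg.Agent.S1048

/-- `U_J ⊴ P_J`, `P_J = U_J L_J` and `U_J ∩ L_J = 1` (Levi decomposition of the standard parabolic subgroup). -/
theorem result {F : Type*} [Field F] (D : Cfsg.Lie.ChevalleyDatum) (hD : D ∈ [Cfsg.Lie.chevG2, Cfsg.Lie.chevB2, Cfsg.Lie.chevD4, Cfsg.Lie.chevF4, Cfsg.Lie.chevE6, Cfsg.Lie.chevE7, Cfsg.Lie.chevE8]) (J : Set ℕ) :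
    D.parabolicSubgroup F J ≤ Subgroup.normalizer (D.unipotentRadical F J : Set (GL D.Idx F)) ∧
      D.unipotentRadical F J ⊔ D.leviSubgroup F J = D.parabolicSubgroup F J ∧
      D.unipotentRadical F J ⊓ D.leviSubgroup F J = ⊥ := by
  simp only [List.mem_cons, List.mem_nil_iff, or_false] at hD
  rcases hD with rfl | rfl | rfl | rfl | rfl | rfl | rfl
  · exact ⟨Lib.Helper7.parTabG2.par_le_normalizer J, Lib.Helper7.parTabG2.urad_sup_levi J, Lib.Helper7.parTabG2.urad_inf_levi Lib.Helper7.wt_G2 J⟩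
  · exact ⟨Lib.Helper7.parTabB2.par_le_normalizer J, Lib.Helper7.parTabB2.urad_sup_levi J, Lib.Helper7.parTabB2.urad_inf_levi Lib.Helper7.wt_B2 J⟩
  · exact ⟨Lib.Helper7.parTabD4.par_le_normalizer J, Lib.Helper7.parTabD4.urad_sup_levi J, Lib.Helper7.parTabD4.urad_inf_levi Lib.Helper7.wt_D4 J⟩
  · exact ⟨Lib.Helper7.parTabF4.par_le_normalizer J, Lib.Helper7.parTabF4.urad_sup_levi J, Lib.Helper7.parTabF4.urad_inf_levi Lib.Helper7.wt_F4 J⟩
  · exact ⟨Lib.Helper7.parTabE6.par_le_normalizer J, Lib.Helper7.parTabE6.urad_sup_levi J, Lib.Helper7.parTabE6.urad_inf_levi Lib.Helper7.wt_E6 J⟩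
  · exact ⟨Lib.Helper7.parTabE7.par_le_normalizer J, Lib.Helper7.parTabE7.urad_sup_levi J, Lib.Helper7.parTabE7.urad_inf_levi Lib.Helper7.wt_E7 J⟩
  · exact ⟨Lib.Helper7.parTabE8.par_le_normalizer J, Lib.Helper7.parTabE8.urad_sup_levi J, Lib.Helper7.parTabE8.urad_inf_levi Lib.Helper7.wt_E8 J⟩

end Cfsg.Agent.S1048
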