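import Cfsg.Statements.S1057
import Cfsg.Agent.Lib.Helper3.G22r.Iso
import Cfsg.Agent.Lib.Helper3.U33.Psu
import Cfsg.Agent.Lib.Helper3.ExcIso2

set_option autoImplicit false
open Cfsg

namespace Cfsg.Agent.S1057

/-- G₂(2)′ ≅ PSU₃(3). -/
theorem result {F K : Type*} [Field F] [Fintype F] [Field K] [Fintype K] (hF : Fintype.card F = 2) (hK : Fintype.card K = 9) :
    Nonempty (↥(commutator ↥(Cfsg.Lie.chevG2.group F)) ≃* Cfsg.PSU 3 K 3) := by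
  have : Fact (Nat.Prime 2) := ⟨by norm_num⟩
  obtain ⟨e0⟩ := Cfsg.Agent.Lib.Helper3.chev_of_card (F := F) (K := ZMod 2) Cfsg.Lie.chevG2
    (by rw [hF, ZMod.card])
  obtain ⟨e1⟩ := Cfsg.Agent.Lib.Helper3.commutator_congr e0
  obtain ⟨e2⟩ := Cfsg.Agent.Lib.Helper3.G22r.comm_iso
  obtain ⟨e3⟩ := Cfsg.Agent.Lib.Helper3.G22r.iso
  obtain ⟨e4⟩ := Cfsg.Agent.Lib.Helper3.U33.psu_iso
  obtain ⟨e5⟩ := Cfsg.Agent.Lib.Helper3.psu_of_card (n := 3) (q := 3) (F := K)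
    (K := Cfsg.Agent.Lib.Helper3.F9) (by rw [hK, Cfsg.Agent.Lib.Helper3.F9.card_eq])
  exact ⟨e1.trans (e2.trans (e3.trans (e4.symm.trans e5.symm)))⟩

end Cfsg.Agent.S1057
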