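import Cfsg.Statements.S1058
import Cfsg.Agent.Lib.Helper3.S6b.Iso
import Cfsg.Agent.Lib.Helper3.ChevCongr

set_option autoImplicit false
open Cfsg

namespace Cfsg.Agent.S1058

/-- B₂(2) ≅ S₆. -/
theorem result {F : Type*} [Field F] [Fintype F] (hF : Fintype.card F = 2) :
    Nonempty (↥(Cfsg.Lie.chevB2.group F) ≃* Equiv.Perm (Fin 6)) := by
  have : Fact (Nat.Prime 2) := ⟨by norm_num⟩
  obtain ⟨e0⟩ := Cfsg.Agent.Lib.Helper3.chev_of_card (F := F) (K := ZMod 2) Cfsg.Lie.chevB2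
    (by rw [hF, ZMod.card])
  obtain ⟨e1⟩ := Cfsg.Agent.Lib.Helper3.S6b.s6_iso
  exact ⟨e0.trans e1⟩

end Cfsg.Agent.S1058
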