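import Cfsg.Statements.S1059
import Cfsg.Agent.Lib.Helper7.OrderFin
import Cfsg.Agent.Lib.Helper7.HCAll
import Cfsg.Agent.Lib.Helper7.PoG2
import Cfsg.Agent.Lib.Helper7.S5G2

set_option autoImplicit false
open Cfsg

namespace Cfsg.Agent.S1059

/-- `|G₂(q)| = q⁶ (q² - 1)(q⁶ - 1)`. -/
theorem result {F : Type*} [Field F] [Fintype F] {q : ℕ} (hq : Fintype.card F = q) : Nat.card ↥(Cfsg.Lie.chevG2.group F) = q ^ 6 * (q ^ 2 - 1) * (q ^ 6 - 1) := by
  subst hq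
  have h := Lib.Helper7.Sys5.order_formula Lib.Helper7.sys5G2 (F := F) 3 (by decide) 1 [2, 6] rfl
    Lib.Helper7.hcardG2 (Lib.Helper7.poinG2 _)
  have hn : Cfsg.Lie.chevG2.nroots / 2 = 6 := by decide
  rw [hn] at h
  simpa [mul_assoc] using h

end Cfsg.Agent.S1059
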