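import Cfsg.Statements.S1062
import Cfsg.Agent.Lib.Helper7.OrderFin
import Cfsg.Agent.Lib.Helper7.HCAll
import Cfsg.Agent.Lib.Helper7.PoF4
import Cfsg.Agent.Lib.Helper7.S5F4

set_option autoImplicit false
open Cfsg

namespace Cfsg.Agent.S1062

/-- `|F₄(q)| = q²⁴ (q² - 1)(q⁶ - 1)(q⁸ - 1)(q¹² - 1)`. -/
theorem result {F : Type*} [Field F] [Fintype F] {q : ℕ} (hq : Fintype.card F = q) : Nat.card ↥(Cfsg.Lie.chevF4.group F) = q ^ 24 * (q ^ 2 - 1) * (q ^ 6 - 1) * (q ^ 8 - 1) * (q ^ 12 - 1) := by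
  subst hq
  have h := Lib.Helper7.Sys5.order_formula Lib.Helper7.sys5F4 (F := F) 15 (by decide) 1 [2, 6, 8, 12] rfl
    Lib.Helper7.hcardF4 (Lib.Helper7.poinF4 _)
  have hn : Cfsg.Lie.chevF4.nroots / 2 = 24 := by decide
  rw [hn] at h
  simpa [mul_assoc] using h

end Cfsg.Agent.S1062
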