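import Cfsg.Statements.S1064
import Cfsg.Agent.Lib.Helper7.OrderFin
import Cfsg.Agent.Lib.Helper7.HCAll
import Cfsg.Agent.Lib.Helper7.PoE7
import Cfsg.Agent.Lib.Helper7.S5E7

set_option autoImplicit false
open Cfsg

namespace Cfsg.Agent.S1064

/-- `gcd(2, q-1) · |E₇(q)| = q⁶³ ∏_{d ∈ {2,6,8,10,12,14,18}} (q^d - 1)`. -/
theorem result {F : Type*} [Field F] [Fintype F] {q : ℕ} (hq : Fintype.card F = q) : Nat.gcd 2 (q - 1) * Nat.card ↥(Cfsg.Lie.chevE7.group F) = q ^ 63 * (q ^ 2 - 1) * (q ^ 6 - 1) * (q ^ 8 - 1) * (q ^ 10 - 1) * (q ^ 12 - 1) * (q ^ 14 - 1) * (q ^ 18 - 1) := by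
  subst hq
  have h := Lib.Helper7.Sys5.order_formula Lib.Helper7.sys5E7 (F := F) 127 (by decide) (Nat.gcd 2 (Fintype.card F - 1)) [2, 6, 8, 10, 12, 14, 18] rfl
    Lib.Helper7.hcardE7 (Lib.Helper7.poinE7 _)
  have hn : Cfsg.Lie.chevE7.nroots / 2 = 63 := by decide
  rw [hn] at h
  simpa [mul_assoc] using h

end Cfsg.Agent.S1064
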