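import Cfsg.Statements.S1065
import Cfsg.Agent.Lib.Helper7.OrderFin
import Cfsg.Agent.Lib.Helper7.HCAll
import Cfsg.Agent.Lib.Helper7.PoE8
import Cfsg.Agent.Lib.Helper7.S5E8

set_option autoImplicit false
open Cfsg

namespace Cfsg.Agent.S1065

/-- `|E₈(q)| = q¹²⁰ ∏_{d ∈ {2,8,12,14,18,20,24,30}} (q^d - 1)`. -/
theorem result {F : Type*} [Field F] [Fintype F] {q : ℕ} (hq : Fintype.card F = q) : Nat.card ↥(Cfsg.Lie.chevE8.group F) = q ^ 120 * (q ^ 2 - 1) * (q ^ 8 - 1) * (q ^ 12 - 1) * (q ^ 14 - 1) * (q ^ 18 - 1) * (q ^ 20 - 1) * (q ^ 24 - 1) * (q ^ 30 - 1) := by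
  subst hq
  have h := Lib.Helper7.Sys5.order_formula Lib.Helper7.sys5E8 (F := F) 255 (by decide) 1 [2, 8, 12, 14, 18, 20, 24, 30] rfl
    Lib.Helper7.hcardE8 (Lib.Helper7.poinE8 _)
  have hn : Cfsg.Lie.chevE8.nroots / 2 = 120 := by decide
  rw [hn] at h
  simpa [mul_assoc] using h

end Cfsg.Agent.S1065
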