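import Cfsg.Statements.S1076
import Cfsg.Agent.Lib.Helper7.HDG2
import Cfsg.Agent.Lib.Helper7.HDB2
import Cfsg.Agent.Lib.Helper7.HDD4
import Cfsg.Agent.Lib.Helper7.HDF4
import Cfsg.Agent.Lib.Helper7.HDE6
import Cfsg.Agent.Lib.Helper7.HDE7
import Cfsg.Agent.Lib.Helper7.HDE8

set_option autoImplicit false
open Cfsg

namespace Cfsg.Agent.S1076

open Cfsg.Agent.Lib.Helper7

theorem aux {F : Type*} [Field F] {D : Cfsg.Lie.ChevalleyDatum} {X : Fast} (h : Agree D X)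
    (hd : ∀ r < X.n, hdiagChk X r = true)
    (r : ℕ) (hr : r < D.nroots) (t₁ t₂ : F) (h₁ : t₁ ≠ 0) (h₂ : t₂ ≠ 0) :
    D.hMat F r t₁ * D.hMat F r t₂ = D.hMat F r (t₁ * t₂) := by
  have hr' : r < X.n := by rw [← h.hn]; exact hr
  exact hMat_mul h r hr' (hd r hr') h₁ h₂

/-- `h_r(t₁) h_r(t₂) = h_r(t₁ t₂)` for non-zero `t₁, t₂` (the third family of defining relations), as a matrix identity. -/
theorem result {F : Type*} [Field F] (D : Cfsg.Lie.ChevalleyDatum) (hD : D ∈ [Cfsg.Lie.chevG2, Cfsg.Lie.chevB2, Cfsg.Lie.chevD4, Cfsg.Lie.chevF4, Cfsg.Lie.chevE6, Cfsg.Lie.chevE7, Cfsg.Lie.chevE8]) (r : ℕ) (hr : r < D.nroots) (t₁ t₂ : F) (h₁ : t₁ ≠ 0) (h₂ : t₂ ≠ 0) :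
    D.hMat F r t₁ * D.hMat F r t₂ = D.hMat F r (t₁ * t₂) := by
  simp only [List.mem_cons, List.not_mem_nil, or_false] at hD
  rcases hD with rfl | rfl | rfl | rfl | rfl | rfl | rfl
  · exact aux agreeG2 hdG2 r hr t₁ t₂ h₁ h₂
  · exact aux agreeB2 hdB2 r hr t₁ t₂ h₁ h₂
  · exact aux agreeD4 hdD4 r hr t₁ t₂ h₁ h₂
  · exact aux agreeF4 hdF4 r hr t₁ t₂ h₁ h₂
  · exact aux agreeE6 hdE6 r hr t₁ t₂ h₁ h₂
  · exact aux agreeE7 hdE7 r hr t₁ t₂ h₁ h₂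
  · exact aux agreeE8 hdE8 r hr t₁ t₂ h₁ h₂

end Cfsg.Agent.S1076
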