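import Cfsg.Statements.S1096
import Cfsg.Agent.Lib.Helper7.HDG2
import Cfsg.Agent.Lib.Helper7.HDB2
import Cfsg.Agent.Lib.Helper7.HDD4
import Cfsg.Agent.Lib.Helper7.HDF4
import Cfsg.Agent.Lib.Helper7.HDE6
import Cfsg.Agent.Lib.Helper7.HDE7
import Cfsg.Agent.Lib.Helper7.HDE8
import Cfsg.Agent.Lib.Helper7.NHG2
import Cfsg.Agent.Lib.Helper7.NHB2
import Cfsg.Agent.Lib.Helper7.NHD4
import Cfsg.Agent.Lib.Helper7.NHF4
import Cfsg.Agent.Lib.Helper7.NHE6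
import Cfsg.Agent.Lib.Helper7.NHE7
import Cfsg.Agent.Lib.Helper7.NHE8

set_option autoImplicit false
open Cfsg

namespace Cfsg.Agent.S1096

open Cfsg.Agent.Lib.Helper7

theorem aux {F : Type*} [Field F] {D : Cfsg.Lie.ChevalleyDatum} {X : Fast} {W : FastW} (h : Agree D X)
    (hW : AgreeW D X W) (hd : ∀ r < X.n, hdiagChk X r = true) (hx : ∀ i < X.l, ∀ s < X.n, nhChk X W i s = true)
    (i j : ℕ) (hi : i < D.rank) (hj : j < D.rank) (t : F) (ht : t ≠ 0) :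
    D.nMat F (D.simple i) 1 * D.hMat F (D.simple j) t = D.hMat F (D.reflectRoot i (D.simple j)) t * D.nMat F (D.simple i) 1 := by
  have hi' : i < X.l := by rw [← h.hl]; exact hi
  have hj' : j < X.l := by rw [← h.hl]; exact hj
  have hs : D.simple j < X.n := by rw [hW.hsimple j hj']; exact hW.hsl j hj'
  exact nh_conj h hW hd i hi' _ hs (hx i hi' _ hs) ht

/-- `n_p h_{p_j}(t) n_p⁻¹ = h_{w_p(p_j)}(t)` for fundamental `p`, `p_j` and `t ≠ 0`, stated as `n_p h_{p_j}(t) = h_{w_p(p_j)}(t) n_p`. -/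
theorem result {F : Type*} [Field F] (D : Cfsg.Lie.ChevalleyDatum) (hD : D ∈ [Cfsg.Lie.chevG2, Cfsg.Lie.chevB2, Cfsg.Lie.chevD4, Cfsg.Lie.chevF4, Cfsg.Lie.chevE6, Cfsg.Lie.chevE7, Cfsg.Lie.chevE8]) (i j : ℕ) (hi : i < D.rank) (hj : j < D.rank) (t : F) (ht : t ≠ 0) :
    D.nMat F (D.simple i) 1 * D.hMat F (D.simple j) t = D.hMat F (D.reflectRoot i (D.simple j)) t * D.nMat F (D.simple i) 1 := by
  simp only [List.mem_cons, List.not_mem_nil, or_false] at hD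
  rcases hD with rfl | rfl | rfl | rfl | rfl | rfl | rfl
  · exact aux agreeG2 agreeWG2 hdG2 nhG2 i j hi hj t ht
  · exact aux agreeB2 agreeWB2 hdB2 nhB2 i j hi hj t ht
  · exact aux agreeD4 agreeWD4 hdD4 nhD4 i j hi hj t ht
  · exact aux agreeF4 agreeWF4 hdF4 nhF4 i j hi hj t ht
  · exact aux agreeE6 agreeWE6 hdE6 nhE6 i j hi hj t ht
  · exact aux agreeE7 agreeWE7 hdE7 nhE7 i j hi hj t ht
  · exact aux agreeE8 agreeWE8 hdE8 nhE8 i j hi hj t ht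

end Cfsg.Agent.S1096
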