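import Cfsg.Statements.S1099
import Cfsg.Agent.Lib.Helper7.ExcT

set_option autoImplicit false
open Cfsg

namespace Cfsg.Agent.S1099

/-- Graph automorphism of G₂ in characteristic 3 (K perfect): `x_a(t) ↦ x_b(t³)`, `x_b(t) ↦ x_a(t)`, `x_{-a}(t) ↦ x_{-b}(t³)`, `x_{-b}(t) ↦ x_{-a}(t)` extend to an automorphism of the group. -/
theorem result {K : Type*} [Field K] [CharP K 3] (hperf : ∀ x : K, ∃ y : K, y ^ 3 = x) :
    ∃ α : ↥(Cfsg.Lie.chevG2.group K) ≃* ↥(Cfsg.Lie.chevG2.group K), ∀ (g : ↥(Cfsg.Lie.chevG2.group K)) (t : K),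
      (((g : GL Cfsg.Lie.chevG2.Idx K) : Matrix _ _ K) = Cfsg.Lie.chevG2.x K Cfsg.Lie.g2a t →
        ((α g : GL Cfsg.Lie.chevG2.Idx K) : Matrix _ _ K) = Cfsg.Lie.chevG2.x K Cfsg.Lie.g2b (t ^ 3)) ∧
      (((g : GL Cfsg.Lie.chevG2.Idx K) : Matrix _ _ K) = Cfsg.Lie.chevG2.x K Cfsg.Lie.g2b t →
        ((α g : GL Cfsg.Lie.chevG2.Idx K) : Matrix _ _ K) = Cfsg.Lie.chevG2.x K Cfsg.Lie.g2a t) ∧
      (((g : GL Cfsg.Lie.chevG2.Idx K) : Matrix _ _ K) = Cfsg.Lie.chevG2.x K Cfsg.Lie.g2ma t →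
        ((α g : GL Cfsg.Lie.chevG2.Idx K) : Matrix _ _ K) = Cfsg.Lie.chevG2.x K Cfsg.Lie.g2mb (t ^ 3)) ∧
      (((g : GL Cfsg.Lie.chevG2.Idx K) : Matrix _ _ K) = Cfsg.Lie.chevG2.x K Cfsg.Lie.g2mb t →
        ((α g : GL Cfsg.Lie.chevG2.Idx K) : Matrix _ _ K) = Cfsg.Lie.chevG2.x K Cfsg.Lie.g2ma t) := by
  obtain ⟨α, h⟩ := Lib.Helper7.excG2 hperf
  refine ⟨α, fun g t => ⟨fun hg => ?_, fun hg => ?_, fun hg => ?_, fun hg => ?_⟩⟩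
  · have e : g = ⟨Lib.Helper7.sys5G2.xg (Lib.Helper7.rt Cfsg.Lie.chevG2 true 0) t, Lib.Helper7.sys5G2.xg_mem_group t⟩ :=
      Subtype.ext (Units.ext hg)
    rw [e, h true 0 (by decide) t]; rfl
  · have e : g = ⟨Lib.Helper7.sys5G2.xg (Lib.Helper7.rt Cfsg.Lie.chevG2 true 1) t, Lib.Helper7.sys5G2.xg_mem_group t⟩ :=
      Subtype.ext (Units.ext hg)
    rw [e, h true 1 (by decide) t]
    show Cfsg.Lie.chevG2.x K Cfsg.Lie.g2a (t ^ 1) = _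
    rw [pow_one]
  · have e : g = ⟨Lib.Helper7.sys5G2.xg (Lib.Helper7.rt Cfsg.Lie.chevG2 false 0) t, Lib.Helper7.sys5G2.xg_mem_group t⟩ :=
      Subtype.ext (Units.ext hg)
    rw [e, h false 0 (by decide) t]; rfl
  · have e : g = ⟨Lib.Helper7.sys5G2.xg (Lib.Helper7.rt Cfsg.Lie.chevG2 false 1) t, Lib.Helper7.sys5G2.xg_mem_group t⟩ :=
      Subtype.ext (Units.ext hg)
    rw [e, h false 1 (by decide) t]
    show Cfsg.Lie.chevG2.x K Cfsg.Lie.g2ma (t ^ 1) = _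
    rw [pow_one]

end Cfsg.Agent.S1099
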