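import Cfsg.Statements.S1104
import Cfsg.Agent.Lib.Helper7.TwE6P

set_option autoImplicit false
open Cfsg

namespace Cfsg.Agent.S1104

/-- ²E₆(q) equals its derived subgroup. -/
theorem result {K : Type*} [Field K] [Fintype K] {q : ℕ} (hq : IsPrimePow q) (hK : Fintype.card K = q ^ 2) : commutator ↥(Cfsg.Lie.twistedE6 K q) = ⊤ := by
  obtain ⟨f, hf⟩ := Cfsg.Agent.Lib.Helper7.exists_frob hq (by norm_num) hK
  rw [← Cfsg.Agent.Lib.Helper7.twE6_Gam hK f hf]
  exact Cfsg.Agent.Lib.Helper7.twE6_perfect hK f hf hq.one_lt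

end Cfsg.Agent.S1104
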