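import Cfsg.Statements.S1118
import Cfsg.Agent.Lib.Helper19.RankOneA

set_option autoImplicit false
open Cfsg

namespace Cfsg.Agent.S1118

/-- In the rank-one set-up (`G` finite and doubly transitive on `Ω`, `t` an involution moving `a`, `Q` normal in `G_a` with `G_a = Q D`, `Q ⊓ D = 1` for the two-point stabiliser `D = G_a ⊓ G_{t • a}`, `|Q|` even, `|D|` odd), the normaliser of a subset of `Q` containing a non-identity element lies in `G_a`; consequently `N_G(Q) = N_G(G_a) = G_a`. -/
theorem result {G Ω : Type*} [Group G] [Finite G] [MulAction G Ω] {a : Ω} {t : G} {Q : Subgroup G}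
    (hS : Cfsg.IsRankOneSetup G Ω a t Q) :
    (∀ X : Set G, X ⊆ (Q : Set G) → (∃ x ∈ X, x ≠ 1) → Subgroup.normalizer X ≤ MulAction.stabilizer G a) ∧
      Subgroup.normalizer (Q : Set G) = MulAction.stabilizer G a ∧
      Subgroup.normalizer (MulAction.stabilizer G a : Set G) = MulAction.stabilizer G a := by
  open Cfsg.Agent.Lib.Helper19.R1 in
  have h1 : ∀ X : Set G, X ⊆ (Q : Set G) → (∃ x ∈ X, x ≠ 1) →
      Subgroup.normalizer X ≤ MulAction.stabilizer G a := by
    intro X hX ⟨x, hx, hx1⟩ g hg
    rw [Subgroup.mem_set_normalizer_iff] at hg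
    exact fix_of_conj hS (hX hx) hx1 (Q_fix hS (hX ((hg x).mp hx)))
  refine ⟨h1, ?_, ?_⟩
  · apply le_antisymm
    · obtain ⟨x, hx, hx1⟩ := exists_ne_one hS
      exact h1 _ subset_rfl ⟨x, hx, hx1⟩
    · intro g hg
      rw [Subgroup.mem_normalizer_iff]
      intro h
      refine ⟨fun hh => hS.conj_mem g hg h hh, fun hh => ?_⟩
      have := conj_mem' hS hg hh
      simpa [mul_assoc] using this
  · apply le_antisymm
    · intro g hg
      rw [Subgroup.mem_normalizer_iff] at hg
      obtain ⟨x, hx, hx1⟩ := exists_ne_one hS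
      exact fix_of_conj hS hx hx1 ((hg x).mp (hS.le hx))
    · exact Subgroup.le_normalizer

end Cfsg.Agent.S1118
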