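import Cfsg.Statements.S1123
import Cfsg.Agent.Lib.Helper19.RankOneC

set_option autoImplicit false
open Cfsg

namespace Cfsg.Agent.S1123

/-- In the rank-one set-up (`G` finite and doubly transitive on `Ω`, `t` an involution moving `a`, `Q` normal in `G_a` with `G_a = Q D`, `Q ⊓ D = 1` for the two-point stabiliser `D = G_a ⊓ G_{t • a}`, `|Q|` even, `|D|` odd), there is a unique pair `(s, r)` with `s` an involution of `G_a`, `r ∈ Q` and `t s t = r⁻¹ t r`. -/
theorem result {G Ω : Type*} [Group G] [Finite G] [MulAction G Ω] {a : Ω} {t : G} {Q : Subgroup G}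
    (hS : Cfsg.IsRankOneSetup G Ω a t Q) :
    ∃! p : G × G, p.1 ∈ Cfsg.involutionsIn (MulAction.stabilizer G a : Set G) ∧ p.2 ∈ Q ∧
      t * p.1 * t = p.2⁻¹ * t * p.2 := by
  open Cfsg.Agent.Lib.Helper19.R1 in
  obtain ⟨c₀, hc₀, huniq⟩ := invol_fix hS hS.ne_one hS.mul_self
  have hc₀a : c₀ ≠ a := by
    rintro rfl
    exact ta_ne hS hc₀
  obtain ⟨r, hr, hrc⟩ := Q_trans hS (ta_ne hS) hc₀a
  have htt := hS.mul_self
  refine ⟨(t * (r⁻¹ * t * r) * t, r), ⟨⟨?_, ?_, ?_⟩, hr, ?_⟩, ?_⟩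
  · show (t * (r⁻¹ * t * r) * t) • a = a
    simp only [mul_smul]
    rw [hrc, hc₀, ← hrc, inv_smul_smul, tta hS]
  · intro h
    replace h : t * (r⁻¹ * t * r) * t = 1 := h
    have h1 : r⁻¹ * t * r = 1 := by
      calc r⁻¹ * t * r = (t * t) * (r⁻¹ * t * r) * (t * t) := by rw [htt]; group
        _ = t * (t * (r⁻¹ * t * r) * t) * t := by group
        _ = 1 := by rw [h, mul_one, htt]
    apply hS.ne_one
    calc t = r * (r⁻¹ * t * r) * r⁻¹ := by group
      _ = 1 := by rw [h1]; group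
  · calc t * (r⁻¹ * t * r) * t * (t * (r⁻¹ * t * r) * t)
        = t * (r⁻¹ * t * r) * (t * t) * (r⁻¹ * t * r) * t := by group
      _ = t * (r⁻¹ * t * r) * (r⁻¹ * t * r) * t := by rw [htt, mul_one]
      _ = t * (r⁻¹ * (t * t) * r) * t := by group
      _ = 1 := by rw [htt]; simpa using htt
  · show t * (t * (r⁻¹ * t * r) * t) * t = r⁻¹ * t * r
    calc t * (t * (r⁻¹ * t * r) * t) * t = (t * t) * (r⁻¹ * t * r) * (t * t) := by group
      _ = _ := by rw [htt]; group
  · rintro ⟨s', r'⟩ ⟨⟨hs'a, hs'1, hs'2⟩, hr', h⟩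
    simp only at hs'a hs'1 hs'2 hr' h
    have hs'a' : s' • a = a := hs'a
    have h1 : (r'⁻¹ * t * r') • t • a = t • a := by
      rw [← h, mul_smul, mul_smul, tta hS, hs'a']
    have h2 : r' • t • a = c₀ := by
      apply huniq
      rw [mul_smul, mul_smul, inv_smul_eq_iff] at h1
      exact h1
    have h3 : r' = r := Q_unique hS hr' hr (ta_ne hS) (h2.trans hrc.symm)
    subst h3
    ext
    · simp only
      rw [← h]
      calc s' = (t * t) * s' * (t * t) := by rw [htt]; group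
        _ = _ := by group
    · rfl

end Cfsg.Agent.S1123
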