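import Cfsg.Statements.S1124
import Cfsg.Agent.Lib.Helper19.OddInv

set_option autoImplicit false
open scoped Pointwise
open Cfsg

namespace Cfsg.Agent.S1124

/-- Let `t` be an element of order 2 of a finite group normalising a subgroup `X` of odd order, `Y = C_X(t)` and `Z` the set of elements of `X` inverted by `t`. Then `(y, z) ↦ y z` is a bijection `Y × Z → X`, so `|X| = |Y| |Z|`, and the subgroup generated by `Z` is normal in `X`. -/
theorem result {M : Type*} [Group M] [Finite M]
    (t : M) (ht : orderOf t = 2) (X : Subgroup M) (hodd : Odd (Nat.card X))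
    (hnorm : ∀ x ∈ X, t * x * t⁻¹ ∈ X) :
    (∀ x ∈ X, ∃! p : M × M, p.1 ∈ X ⊓ Subgroup.centralizer {t} ∧ p.2 ∈ Cfsg.invertedBy X t ∧ x = p.1 * p.2) ∧
      Nat.card X = Nat.card ↥(X ⊓ Subgroup.centralizer {t}) * Nat.card (Cfsg.invertedBy X t) ∧
      ∀ x ∈ X, MulAut.conj x • Subgroup.closure (Cfsg.invertedBy X t) = Subgroup.closure (Cfsg.invertedBy X t) := by
  open Cfsg.Agent.Lib.Helper19.Inv in
  have htt : t * t = 1 := by
    have := pow_orderOf_eq_one t
    rwa [ht, pow_two] at this
  refine ⟨?_, card_factor htt hodd hnorm, ?_⟩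
  · intro x hx
    obtain ⟨y, z, ⟨hy, hyt⟩, hz, rfl⟩ := factor_exists htt hodd hnorm hx
    refine ⟨(y, z), ⟨⟨hy, Subgroup.mem_centralizer_singleton_iff.mpr hyt.symm⟩, hz, rfl⟩, ?_⟩
    rintro ⟨y', z'⟩ ⟨hy', hz', h⟩
    simp only at hy' hz' h
    obtain ⟨h1, h2⟩ := factor_unique hodd hyt
      (Subgroup.mem_centralizer_singleton_iff.mp hy'.2).symm hz hz' h
    rw [h1, h2]
  · intro x hx
    apply le_antisymm
    · intro w hw
      rw [Subgroup.mem_pointwise_smul_iff_inv_smul_mem] at hw
      have := conj_closure_le htt hodd hnorm hx hw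
      simpa [MulAut.smul_def, MulAut.conj_apply, mul_assoc] using this
    · intro w hw
      rw [Subgroup.mem_pointwise_smul_iff_inv_smul_mem]
      have := conj_closure_le htt hodd hnorm (inv_mem hx) hw
      simpa [MulAut.smul_def, MulAut.conj_apply, mul_assoc] using this

end Cfsg.Agent.S1124
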