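import Cfsg.Statements.S1125
import Cfsg.Agent.Lib.Helper19.RankOneD

set_option autoImplicit false
open Cfsg

namespace Cfsg.Agent.S1125

/-- In the rank-one set-up (`G` finite and doubly transitive on `Ω`, `t` an involution moving `a`, `Q` normal in `G_a` with `G_a = Q D`, `Q ⊓ D = 1` for the two-point stabiliser `D = G_a ⊓ G_{t • a}`, `|Q|` even, `|D|` odd), let `X ⊆ D` fix at least three points of `Ω`. Then `C_G(X)` is doubly transitive on the fixed-point set of `X`, `|C_Q(X)|` is even, and `C_{G_a}(X) = C_Q(X) C_D(X)`. -/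
theorem result {G Ω : Type*} [Group G] [Finite G] [MulAction G Ω] {a : Ω} {t : G} {Q : Subgroup G}
    (hS : Cfsg.IsRankOneSetup G Ω a t Q)
    (X : Set G) (hX : X ⊆ ((MulAction.stabilizer G a ⊓ MulAction.stabilizer G (t • a)) : Set G))
    (h3 : ∃ b c d : Ω, b ≠ c ∧ b ≠ d ∧ c ≠ d ∧ ∀ x ∈ X, x • b = b ∧ x • c = c ∧ x • d = d) :
    (∀ b₁ b₂ c₁ c₂ : Ω, (∀ x ∈ X, x • b₁ = b₁ ∧ x • b₂ = b₂ ∧ x • c₁ = c₁ ∧ x • c₂ = c₂) →
        b₁ ≠ b₂ → c₁ ≠ c₂ → ∃ g ∈ Subgroup.centralizer X, g • b₁ = c₁ ∧ g • b₂ = c₂) ∧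
      Even (Nat.card ↥(Subgroup.centralizer X ⊓ Q)) ∧
      (Subgroup.centralizer X ⊓ Q) ⊔ (Subgroup.centralizer X ⊓ (MulAction.stabilizer G a ⊓ MulAction.stabilizer G (t • a))) = Subgroup.centralizer X ⊓ MulAction.stabilizer G a := by
  open Cfsg.Agent.Lib.Helper19.R1 in
  have hXa : ∀ x ∈ X, x • a = a := fun x hx => (hX hx).1
  have hXb : ∀ x ∈ X, x • t • a = t • a := fun x hx => (hX hx).2
  refine ⟨?_, ?_, ?_⟩
  · intro b₁ b₂ c₁ c₂ h hb hc
    exact cent_two_trans hS h3 (fun x hx => (h x hx).1) (fun x hx => (h x hx).2.1)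
      (fun x hx => (h x hx).2.2.1) (fun x hx => (h x hx).2.2.2) hb hc
  · obtain ⟨u, huc, hu2, hua, hub⟩ := exists_swap_invol hS hX h3
    have hu1 : u ≠ 1 := by
      rintro rfl
      rw [one_smul] at hua
      exact ta_ne hS hua.symm
    obtain ⟨c, hc, hcu⟩ := invol_fix hS hu1 hu2
    have hXc : ∀ x ∈ X, x • c = c := by
      intro x hx
      apply hcu
      rw [← mul_smul, ← (Subgroup.mem_centralizer_iff.mp huc) x hx, mul_smul, hc]
    have hca : c ≠ a := by
      rintro rfl
      rw [hc] at hua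
      exact ta_ne hS hua.symm
    have hcb : c ≠ t • a := by
      rintro rfl
      rw [hc] at hub
      exact ta_ne hS hub
    obtain ⟨h, hh, hh1, hh2⟩ := cent_trans hS hXb hcb (ta_ne hS).symm hXc hXa
    have hs : h * u * h⁻¹ ∈ Subgroup.centralizer X ⊓ Q := by
      refine Subgroup.mem_inf.mpr ⟨mul_mem (mul_mem hh huc) (inv_mem hh), ?_⟩
      apply invol_mem_Q hS
      · rw [mul_smul, mul_smul, ← hh2, inv_smul_smul, hc]
      · calc h * u * h⁻¹ * (h * u * h⁻¹) = h * (u * u) * h⁻¹ := by group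
          _ = 1 := by rw [hu2]; group
    have ho : orderOf (⟨h * u * h⁻¹, hs⟩ : ↥(Subgroup.centralizer X ⊓ Q)) = 2 := by
      rw [Subgroup.orderOf_mk]
      apply orderOf_eq_prime
      · rw [pow_two]
        calc h * u * h⁻¹ * (h * u * h⁻¹) = h * (u * u) * h⁻¹ := by group
          _ = 1 := by rw [hu2]; group
      · intro h1
        apply hu1
        calc u = h⁻¹ * (h * u * h⁻¹) * h := by group
          _ = 1 := by rw [h1]; group
    rw [even_iff_two_dvd, ← ho]
    exact orderOf_dvd_natCard _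
  · apply le_antisymm
    · apply sup_le
      · exact inf_le_inf_left _ hS.le
      · exact inf_le_inf_left _ inf_le_left
    · rintro g ⟨hgc, hga⟩
      have hga' : g • a = a := hga
      have hgb : ∀ x ∈ X, x • g • t • a = g • t • a := by
        intro x hx
        rw [← mul_smul, (Subgroup.mem_centralizer_iff.mp hgc) x hx, mul_smul, hXb x hx]
      have hne : g • t • a ≠ a := by
        intro h
        exact ta_ne hS (smul_left_cancel g (h.trans hga'.symm))
      obtain ⟨y, hy, hyc, hyb⟩ := cent_Q_trans hS hXa (ta_ne hS) hne hXb hgb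
      have : g = y * (y⁻¹ * g) := by group
      rw [this]
      apply mul_mem
      · exact Subgroup.mem_sup_left ⟨hyc, hy⟩
      · apply Subgroup.mem_sup_right
        refine Subgroup.mem_inf.mpr ⟨mul_mem (inv_mem hyc) hgc, ?_, ?_⟩
        · show (y⁻¹ * g) • a = a
          rw [mul_smul, hga', inv_smul_eq_iff, Q_fix hS hy]
        · show (y⁻¹ * g) • t • a = t • a
          rw [mul_smul, ← hyb, inv_smul_smul]

end Cfsg.Agent.S1125
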