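import Cfsg.Statements.S1127
import Cfsg.Agent.Lib.Helper19.RankOneE
import Cfsg.Agent.S1123

set_option autoImplicit false
open Cfsg

namespace Cfsg.Agent.S1127

/-- In the rank-one set-up (`G` finite and doubly transitive on `Ω`, `t` an involution moving `a`, `Q` normal in `G_a` with `G_a = Q D`, `Q ⊓ D = 1` for the two-point stabiliser `D = G_a ⊓ G_{t • a}`, `|Q|` even, `|D|` odd): if `s` is an involution of `G_a` and `r ∈ Q` satisfy `t s t = r⁻¹ t r`, then `C_D(t) = C_D(s)`; moreover `C_D(t) ⊓ C_D(K) = C_D(I ∩ G_a)`, where `K` is the set of elements of `D` inverted by `t` and `I ∩ G_a` the set of involutions of `G_a`. -/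
theorem result {G Ω : Type*} [Group G] [Finite G] [MulAction G Ω] {a : Ω} {t : G} {Q : Subgroup G}
    (hS : Cfsg.IsRankOneSetup G Ω a t Q) :
    (∀ s r : G, s ∈ Cfsg.involutionsIn (MulAction.stabilizer G a : Set G) → r ∈ Q → t * s * t = r⁻¹ * t * r →
        (MulAction.stabilizer G a ⊓ MulAction.stabilizer G (t • a)) ⊓ Subgroup.centralizer {t} = (MulAction.stabilizer G a ⊓ MulAction.stabilizer G (t • a)) ⊓ Subgroup.centralizer {s}) ∧
      (MulAction.stabilizer G a ⊓ MulAction.stabilizer G (t • a)) ⊓ Subgroup.centralizer {t} ⊓ Subgroup.centralizer (Cfsg.invertedBy (MulAction.stabilizer G a ⊓ MulAction.stabilizer G (t • a)) t) =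
        (MulAction.stabilizer G a ⊓ MulAction.stabilizer G (t • a)) ⊓ Subgroup.centralizer (Cfsg.involutionsIn (MulAction.stabilizer G a : Set G)) := by
  open Cfsg.Agent.Lib.Helper19.R1 in
  have part1 : ∀ s r : G, s ∈ Cfsg.involutionsIn (MulAction.stabilizer G a : Set G) → r ∈ Q → t * s * t = r⁻¹ * t * r →
        (MulAction.stabilizer G a ⊓ MulAction.stabilizer G (t • a)) ⊓ Subgroup.centralizer {t} = (MulAction.stabilizer G a ⊓ MulAction.stabilizer G (t • a)) ⊓ Subgroup.centralizer {s} := by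
    intro s r hs hr h
    ext d
    rw [Subgroup.mem_inf, Subgroup.mem_inf (p' := Subgroup.centralizer {s}),
      Subgroup.mem_centralizer_singleton_iff, Subgroup.mem_centralizer_singleton_iff]
    constructor
    · rintro ⟨hd, hdt⟩
      exact ⟨hd, ((cent_t_eq_cent_s hS hs hr h hd).mp hdt.symm).symm⟩
    · rintro ⟨hd, hds⟩
      exact ⟨hd, ((cent_t_eq_cent_s hS hs hr h hd).mpr hds.symm).symm⟩
  refine ⟨part1, ?_⟩
  obtain ⟨⟨s, r⟩, hs, hr, h⟩ := (Cfsg.Agent.S1123.result hS).exists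
  simp only at hs hr h
  ext d
  constructor
  · intro hd0
    obtain ⟨hd1, hdK⟩ := Subgroup.mem_inf.mp hd0
    obtain ⟨hd, hdt⟩ := Subgroup.mem_inf.mp hd1
    refine Subgroup.mem_inf.mpr ⟨hd, ?_⟩
    rw [Subgroup.mem_centralizer_iff]
    intro s' hs'
    obtain ⟨k, hk, rfl⟩ := K_trans hS hs hs'
    have h1 : s * d = d * s :=
      (cent_t_eq_cent_s hS hs hr h hd).mp (Subgroup.mem_centralizer_singleton_iff.mp hdt).symm
    have h2 : k * d = d * k := (Subgroup.mem_centralizer_iff.mp hdK) k hk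
    have h3 : k⁻¹ * d = d * k⁻¹ := by
      calc k⁻¹ * d = k⁻¹ * (d * k) * k⁻¹ := by group
        _ = k⁻¹ * (k * d) * k⁻¹ := by rw [h2]
        _ = _ := by group
    calc k⁻¹ * s * k * d = k⁻¹ * s * (k * d) := by group
      _ = k⁻¹ * (s * d) * k := by rw [h2]; group
      _ = (k⁻¹ * d) * s * k := by rw [h1]; group
      _ = d * (k⁻¹ * s * k) := by rw [h3]; group
  · intro hd0
    obtain ⟨hd, hdJ⟩ := Subgroup.mem_inf.mp hd0
    rw [Subgroup.mem_centralizer_iff] at hdJ
    have h1 : s * d = d * s := hdJ s hs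
    have hdt : t * d = d * t := (cent_t_eq_cent_s hS hs hr h hd).mpr h1
    refine Subgroup.mem_inf.mpr ⟨Subgroup.mem_inf.mpr ⟨hd, Subgroup.mem_centralizer_singleton_iff.mpr hdt.symm⟩, ?_⟩
    rw [Subgroup.mem_centralizer_iff]
    intro k hk
    have hk' : d * k * d⁻¹ ∈ KK G a t := by
      refine ⟨mul_mem (mul_mem hd hk.1) (inv_mem hd), ?_⟩
      have e1 : t * d * t⁻¹ = d := by rw [hdt]; group
      calc t * (d * k * d⁻¹) * t⁻¹ = (t * d * t⁻¹) * (t * k * t⁻¹) * (t * d * t⁻¹)⁻¹ := by group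
        _ = (d * k * d⁻¹)⁻¹ := by rw [e1, hk.2]; group
    have h2 : (k⁻¹ * s * k) * d = d * (k⁻¹ * s * k) := hdJ _ (JJ_conj' hs hk.1.1)
    have h3 : (d * k * d⁻¹)⁻¹ * s * (d * k * d⁻¹) = k⁻¹ * s * k := by
      have e2 : d⁻¹ * s * d = s := by rw [mul_assoc, h1]; group
      calc (d * k * d⁻¹)⁻¹ * s * (d * k * d⁻¹) = d * (k⁻¹ * (d⁻¹ * s * d) * k) * d⁻¹ := by group
        _ = (d * (k⁻¹ * s * k)) * d⁻¹ := by rw [e2]
        _ = k⁻¹ * s * k := by rw [← h2]; group
    have h4 := K_inj hS hs hk' hk h3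
    calc k * d = (d * k * d⁻¹) * d := by rw [h4]
      _ = d * k := by group

end Cfsg.Agent.S1127
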