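import Cfsg.Statements.S1140

set_option autoImplicit false
open Cfsg

namespace Cfsg.Agent.S1140

/-- trace-dual-basis expansion of additive maps in terms of the automorphisms. -/
theorem key (F : Type*) [Field F] [Fintype F] [CharP F 2] :
    ∃ (n : ℕ) (s : Finset (F ≃+* F)) (u v : Fin n → F), ∀ f : F →+ F, ∀ x : F,
      f x = ∑ σ ∈ s, (∑ i, σ (u i) * f (v i)) * σ x := by
  classical
  let _ : Algebra (ZMod 2) F := ZMod.algebra F 2
  have hfd : FiniteDimensional (ZMod 2) F := inferInstance
  have hgal : IsGalois (ZMod 2) F := inferInstance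
  obtain ⟨b⟩ : Nonempty (Module.Basis (Fin (Module.finrank (ZMod 2) F)) (ZMod 2) F) :=
    ⟨Module.finBasis (ZMod 2) F⟩
  have hB := traceForm_nondegenerate (ZMod 2) F
  obtain ⟨b', hb'⟩ : ∃ b', b' = (Algebra.traceForm (ZMod 2) F).dualBasis hB b := ⟨_, rfl⟩
  refine ⟨_, Finset.univ.map ⟨fun σ : F ≃ₐ[ZMod 2] F => σ.toRingEquiv, ?_⟩, b, b', ?_⟩
  · intro σ τ h
    ext x
    exact congrArg (fun e : F ≃+* F => e x) h
  intro f x
  have hx : x = ∑ i, (b'.repr x i) • b' i := (b'.sum_repr x).symm
  have hf : f x = ∑ i, (b'.repr x i) • f (b' i) := by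
    conv_lhs => rw [hx]
    rw [map_sum]
    refine Finset.sum_congr rfl fun i _ => ?_
    exact ZMod.map_smul f _ _
  have hr : ∀ i, algebraMap (ZMod 2) F (b'.repr x i) = ∑ σ : F ≃ₐ[ZMod 2] F, σ x * σ (b i) := by
    intro i
    rw [hb', LinearMap.BilinForm.dualBasis_repr_apply, Algebra.traceForm_apply,
      trace_eq_sum_automorphisms]
    refine Finset.sum_congr rfl fun σ _ => ?_
    rw [map_mul]
  rw [hf, Finset.sum_map]
  simp only [Algebra.smul_def, hr, Finset.sum_mul]
  rw [Finset.sum_comm]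
  refine Finset.sum_congr rfl fun σ _ => ?_
  refine Finset.sum_congr rfl fun i _ => ?_
  show σ x * σ (b i) * f (b' i) = σ (b i) * f (b' i) * σ x
  ring

/-- For a finite field `F` of characteristic 2, the automorphisms of `F`, viewed as additive maps `F → F`, are linearly independent over `F` (acting on values) every additive endomorphism of `F` is an `F`-linear combination of them, and every biadditive map `F → F → F` is an `F`-combination of the maps `(x, y) ↦ σ(x) τ(y)`. -/
theorem result {F : Type*} [Field F] [Fintype F] [CharP F 2] :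
    LinearIndependent F (fun σ : F ≃+* F => ((σ : F →+* F) : F → F)) ∧
      (∀ f : F →+ F, ∃ (s : Finset (F ≃+* F)) (c : (F ≃+* F) → F), ∀ x : F, f x = ∑ σ ∈ s, c σ * σ x) ∧
      ∀ B : F →+ F →+ F, ∃ (s : Finset ((F ≃+* F) × (F ≃+* F))) (c : (F ≃+* F) × (F ≃+* F) → F),
        ∀ x y : F, B x y = ∑ p ∈ s, c p * (p.1 x * p.2 y) := by
  classical
  obtain ⟨n, s, u, v, hkey⟩ := key F
  refine ⟨?_, ?_, ?_⟩
  · have h := linearIndependent_monoidHom F F
    have h2 := h.comp (fun σ : F ≃+* F => ((σ : F →+* F) : F →* F)) (by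
      intro σ τ hστ
      ext x
      exact congrArg (fun e : F →* F => e x) hστ)
    exact h2
  · intro f
    exact ⟨s, fun σ => ∑ i, σ (u i) * f (v i), hkey f⟩
  · intro B
    -- coefficient maps
    have hg : ∀ τ : F ≃+* F, ∃ g : F →+ F, ∀ x, g x = ∑ i, τ (u i) * B x (v i) := by
      intro τ
      refine ⟨AddMonoidHom.mk' (fun x => ∑ i, τ (u i) * B x (v i)) ?_, fun x => rfl⟩
      intro x y
      rw [← Finset.sum_add_distrib]
      refine Finset.sum_congr rfl fun i _ => ?_
      rw [map_add, AddMonoidHom.add_apply, mul_add]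
    choose g hg using hg
    refine ⟨s ×ˢ s, fun p => ∑ i, p.1 (u i) * g p.2 (v i), ?_⟩
    intro x y
    rw [hkey (B x) y, Finset.sum_product_right]
    refine Finset.sum_congr rfl fun τ _ => ?_
    rw [← hg τ x, hkey (g τ) x, Finset.sum_mul]
    refine Finset.sum_congr rfl fun σ _ => ?_
    ring

end Cfsg.Agent.S1140
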