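import Cfsg.Statements.S1162
import Cfsg.Agent.Lib.Helper19.SuzE
import Cfsg.Agent.Lib.Helper19.SuzL

set_option autoImplicit false
open Cfsg

namespace Cfsg.Agent.S1162

/-- For the Suzuki group Sz(q), q = 2^(2m+1) ≥ 8, realised as the elements g of Sp₄(F) with g* = g^θ (θ the 2^(m+1)-th power map, so that θ² is squaring): `Sz(q)` is a simple group. -/
theorem result {F : Type*} [Field F] [Fintype F] {m : ℕ} (hm : 1 ≤ m) (hF : Fintype.card F = 2 ^ (2 * m + 1)) :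
    IsSimpleGroup ↥(Cfsg.Lie.Sz F (2 ^ (m + 1))) := by
  haveI : Cfsg.Agent.Lib.Helper19.Suz.Hyp F m := ⟨hm, hF⟩
  haveI : CharP F 2 := Cfsg.Agent.Lib.Helper19.Suz.Hyp.charP (m := m)
  haveI := Cfsg.Agent.Lib.Helper19.Suz.isSimple (F := F) m
  exact MulEquiv.isSimpleGroup (Cfsg.Agent.Lib.Helper19.Suz.lieEquiv (F := F) m).symm

end Cfsg.Agent.S1162
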