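import Mathlib
import Cfsg.Statements.S1165
import Cfsg.Agent.Lib.Helper8.RankOne

set_option autoImplicit false
open Cfsg

namespace Cfsg.Agent.S1165

open Cfsg.Agent.Lib.Helper8

theorem result {G Ω : Type*} [Group G] [Finite G] [MulAction G Ω] {a : Ω} {t : G} {Q : Subgroup G}
    (hS : Cfsg.IsRankOneSetup G Ω a t Q)
    (x g h f : G) (hx : x ∈ Q) (hx1 : x ≠ 1) (hg : g ∈ Q) (hh : h ∈ (MulAction.stabilizer G a ⊓ MulAction.stabilizer G (t • a))) (hf : f ∈ Q)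
    (heq : t * x * t = g * h * t * f) :
    (∀ g₁ h₁ f₁ : G, g₁ ∈ Q → h₁ ∈ (MulAction.stabilizer G a ⊓ MulAction.stabilizer G (t • a)) → f₁ ∈ Q → t * x⁻¹ * t = g₁ * h₁ * t * f₁ →
        f₁ = g⁻¹ ∧ h₁ = t * h⁻¹ * t) ∧
      (∀ g₂ h₂ f₂ : G, g₂ ∈ Q → h₂ ∈ (MulAction.stabilizer G a ⊓ MulAction.stabilizer G (t • a)) → f₂ ∈ Q → t * f * t = g₂ * h₂ * t * f₂ →
        f₂ = x ∧ h₂ = h⁻¹) ∧
      ∀ c ∈ (MulAction.stabilizer G a ⊓ MulAction.stabilizer G (t • a)), ∀ g₃ h₃ f₃ : G, g₃ ∈ Q → h₃ ∈ (MulAction.stabilizer G a ⊓ MulAction.stabilizer G (t • a)) → f₃ ∈ Q →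
        t * (c⁻¹ * x * c) * t = g₃ * h₃ * t * f₃ →
          f₃ = (t * c * t)⁻¹ * f * (t * c * t) ∧ h₃ = (t * c * t)⁻¹ * h * c := by
  have htinv : t⁻¹ = t := inv_eq_of_mul_eq_one_left hS.mul_self
  have htl : ∀ y, t * (t * y) = y := by
    intro y; rw [← mul_assoc, hS.mul_self, one_mul]
  have hD := fun {c : G} (hc : c ∈ MulAction.stabilizer G a ⊓ MulAction.stabilizer G (t • a)) =>
    rankOne_t_conj_mem hS hc
  have hQ : ∀ d ∈ MulAction.stabilizer G a ⊓ MulAction.stabilizer G (t • a), ∀ y ∈ Q, d⁻¹ * y * d ∈ Q := by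
    intro d hd y hy
    have := hS.conj_mem d⁻¹ (Subgroup.inv_mem _ (Subgroup.mem_inf.mp hd).1) y hy
    rwa [inv_inv] at this
  refine ⟨?_, ?_, ?_⟩
  · intro g₁ h₁ f₁ hg₁ hh₁ hf₁ e
    have e' : t * x⁻¹ * t = f⁻¹ * (t * h⁻¹ * t) * t * g⁻¹ := by
      have : t * x⁻¹ * t = (t * x * t)⁻¹ := by
        simp only [mul_assoc, mul_inv_rev, htinv]
      rw [this, heq]
      simp only [mul_assoc, mul_inv_rev, htinv, htl]
    obtain ⟨-, h2, h3⟩ := rankOne_unique hS hg₁ hh₁ hf₁ (Q.inv_mem hf) (hD (Subgroup.inv_mem _ hh)) (Q.inv_mem hg)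
      (e.symm.trans e')
    exact ⟨h3, h2⟩
  · intro g₂ h₂ f₂ hg₂ hh₂ hf₂ e
    have e' : t * f * t = (h⁻¹ * g⁻¹ * h) * h⁻¹ * t * x := by
      have : t * f = h⁻¹ * g⁻¹ * (t * x * t) := by rw [heq]; group
      rw [this]
      simp only [mul_assoc, hS.mul_self, mul_one, mul_inv_cancel_left]
    obtain ⟨-, h2, h3⟩ := rankOne_unique hS hg₂ hh₂ hf₂ (hQ h hh _ (Q.inv_mem hg)) (Subgroup.inv_mem _ hh) hx
      (e.symm.trans e')
    exact ⟨h3, h2⟩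
  · intro c hc g₃ h₃ f₃ hg₃ hh₃ hf₃ e
    have e' : t * (c⁻¹ * x * c) * t = ((t * c * t)⁻¹ * g * (t * c * t)) * ((t * c * t)⁻¹ * h * c) * t * ((t * c * t)⁻¹ * f * (t * c * t)) := by
      have e1 : t * (c⁻¹ * x * c) * t = (t * c * t)⁻¹ * (t * x * t) * (t * c * t) := by
        simp only [mul_assoc, mul_inv_rev, htinv, htl]
      rw [e1, heq]
      simp only [mul_assoc, mul_inv_rev, htinv, htl, mul_inv_cancel_left, inv_mul_cancel_left]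
    obtain ⟨-, h2, h3⟩ := rankOne_unique hS hg₃ hh₃ hf₃ (hQ _ (hD hc) _ hg)
      (Subgroup.mul_mem _ (Subgroup.mul_mem _ (Subgroup.inv_mem _ (hD hc)) hh) hc) (hQ _ (hD hc) _ hf)
      (e.symm.trans e')
    exact ⟨h3, h2⟩

end Cfsg.Agent.S1165
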