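import Mathlib
import Cfsg.Statements.S1166
import Cfsg.Agent.Lib.Helper8.RankOne

set_option autoImplicit false
open Cfsg

namespace Cfsg.Agent.S1166

open Cfsg.Agent.Lib.Helper8

theorem result {G Ω : Type*} [Group G] [Finite G] [MulAction G Ω] {a : Ω} {t : G} {Q : Subgroup G}
    (hS : Cfsg.IsRankOneSetup G Ω a t Q)
    (x y gx hx fx gy hy fy : G) (hxQ : x ∈ Q) (hx1 : x ≠ 1) (hyQ : y ∈ Q) (hy1 : y ≠ 1) (hxy : x * y ≠ 1)
    (hgx : gx ∈ Q) (hhx : hx ∈ (MulAction.stabilizer G a ⊓ MulAction.stabilizer G (t • a))) (hfx : fx ∈ Q) (ex : t * x * t = gx * hx * t * fx)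
    (hgy : gy ∈ Q) (hhy : hy ∈ (MulAction.stabilizer G a ⊓ MulAction.stabilizer G (t • a))) (hfy : fy ∈ Q) (ey : t * y * t = gy * hy * t * fy) :
    fx * gy ≠ 1 ∧
      ∀ gz hz fz g' h' f' : G, gz ∈ Q → hz ∈ (MulAction.stabilizer G a ⊓ MulAction.stabilizer G (t • a)) → fz ∈ Q → t * (fx * gy) * t = gz * hz * t * fz →
        g' ∈ Q → h' ∈ (MulAction.stabilizer G a ⊓ MulAction.stabilizer G (t • a)) → f' ∈ Q → t * (x * y) * t = g' * h' * t * f' →
          f' = (t * hy * t)⁻¹ * fz * (t * hy * t) * fy ∧ h' = hx * hz * hy := by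
  have htinv : t⁻¹ = t := inv_eq_of_mul_eq_one_left hS.mul_self
  have htl : ∀ y, t * (t * y) = y := by
    intro y; rw [← mul_assoc, hS.mul_self, one_mul]
  have htt : t • t • a = a := by rw [← mul_smul, hS.mul_self, one_smul]
  have hD := fun {c : G} (hc : c ∈ MulAction.stabilizer G a ⊓ MulAction.stabilizer G (t • a)) =>
    rankOne_t_conj_mem hS hc
  have hQ : ∀ d ∈ MulAction.stabilizer G a ⊓ MulAction.stabilizer G (t • a), ∀ y ∈ Q, d⁻¹ * y * d ∈ Q := by
    intro d hd y hy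
    have := hS.conj_mem d⁻¹ (Subgroup.inv_mem _ (Subgroup.mem_inf.mp hd).1) y hy
    rwa [inv_inv] at this
  have e0 : t * (x * y) * t = gx * hx * t * (fx * gy) * hy * t * fy := by
    have : t * (x * y) * t = (t * x * t) * (t * y * t) := by
      simp only [mul_assoc, htl]
    rw [this, ex, ey]
    simp only [mul_assoc]
  constructor
  · intro h1
    rw [h1, mul_one] at e0
    have hmem : t * (x * y) * t ∈ MulAction.stabilizer G a := by
      rw [e0]
      have : gx * hx * t * hy * t * fy = gx * hx * (t * hy * t) * fy := by simp only [mul_assoc]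
      rw [this]
      exact Subgroup.mul_mem _ (Subgroup.mul_mem _ (Subgroup.mul_mem _ (hS.le hgx) (Subgroup.mem_inf.mp hhx).1)
        (Subgroup.mem_inf.mp (hD hhy)).1) (hS.le hfy)
    have h2 : x * y ∈ Q ⊓ MulAction.stabilizer G (t • a) := by
      refine Subgroup.mem_inf.mpr ⟨Q.mul_mem hxQ hyQ, ?_⟩
      rw [MulAction.mem_stabilizer_iff] at hmem ⊢
      rw [mul_smul, mul_smul] at hmem
      have := congrArg (fun w => t • w) hmem
      rw [← mul_smul t t, hS.mul_self, one_smul] at this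
      exact this
    rw [hS.inf_eq_bot, Subgroup.mem_bot] at h2
    exact hxy h2
  · intro gz hz fz g' h' f' hgz hhz hfz ez hg' hh' hf' e
    have e' : t * (x * y) * t = (gx * (hx * gz * hx⁻¹)) * (hx * hz * hy) * t * ((t * hy * t)⁻¹ * fz * (t * hy * t) * fy) := by
      rw [e0]
      have e1 : t * (fx * gy) = gz * hz * t * fz * t := by
        rw [← ez]; simp only [mul_assoc, hS.mul_self, mul_one]
      have e2 : gx * hx * t * (fx * gy) * hy * t * fy = gx * hx * (t * (fx * gy)) * hy * t * fy := by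
        simp only [mul_assoc]
      rw [e2, e1]
      simp only [mul_assoc, mul_inv_rev, htinv, htl, mul_inv_cancel_left, inv_mul_cancel_left]
    obtain ⟨-, h2, h3⟩ := rankOne_unique hS hg' hh' hf'
      (Q.mul_mem hgx (hS.conj_mem hx (Subgroup.mem_inf.mp hhx).1 gz hgz))
      (Subgroup.mul_mem _ (Subgroup.mul_mem _ hhx hhz) hhy) (Q.mul_mem (hQ _ (hD hhy) _ hfz) hfy)
      (e.symm.trans e')
    exact ⟨h3, h2⟩

end Cfsg.Agent.S1166
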