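import Cfsg.Statements.S1168
import Cfsg.Agent.S1140

set_option autoImplicit false
open Cfsg

namespace Cfsg.Agent.S1168

/-- bundle a biadditive function. -/
def mkBi {F : Type*} [Field F] (A : F → F → F) (h1 : ∀ x x' y, A (x + x') y = A x y + A x' y)
    (h2 : ∀ x y y', A x (y + y') = A x y + A x y') : F →+ F →+ F :=
  AddMonoidHom.mk' (fun x => AddMonoidHom.mk' (A x) (h2 x)) (by
    intro x x'; ext y; exact h1 x x' y)

/-- For a finite field `F` of characteristic 2: if `q : F → F` is quadratic over the prime field, i.e. `(x, y) ↦ q (x + y) + q x + q y` is additive in each variable, then `q x = Σ c_{σ,τ} σ(x) τ(x)` for some coefficients indexed by pairs of field automorphisms. -/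
theorem result {F : Type*} [Field F] [Fintype F] [CharP F 2]
    (q : F → F)
    (hq : ∀ x y z : F, q (x + y + z) + q (x + y) + q (x + z) + q (y + z) + q x + q y + q z = 0) :
    ∃ (s : Finset ((F ≃+* F) × (F ≃+* F))) (c : (F ≃+* F) × (F ≃+* F) → F),
      ∀ x : F, q x = ∑ p ∈ s, c p * (p.1 x * p.2 x) := by
  classical
  have h2 : (2 : F) = 0 := CharTwo.two_eq_zero
  have hq0 : q 0 = 0 := by
    have h := hq 0 0 0
    simp only [add_zero] at h
    linear_combination h - 3 * q 0 * h2
  let _ : Algebra (ZMod 2) F := ZMod.algebra F 2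
  obtain ⟨b⟩ : Nonempty (Module.Basis (Fin (Module.finrank (ZMod 2) F)) (ZMod 2) F) :=
    ⟨Module.finBasis (ZMod 2) F⟩
  obtain ⟨ξ, hξ⟩ : ∃ ξ : Fin (Module.finrank (ZMod 2) F) → F → F,
      ∀ i x, ξ i x = algebraMap (ZMod 2) F (b.repr x i) := ⟨fun i x => _, fun _ _ => rfl⟩
  have hξadd : ∀ i x y, ξ i (x + y) = ξ i x + ξ i y := by
    intro i x y
    rw [hξ, hξ, hξ, map_add, Finsupp.add_apply, map_add]
  have hξb : ∀ i k, ξ i (b k) = if k = i then 1 else 0 := by
    intro i k
    rw [hξ, Module.Basis.repr_self_apply]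
    split_ifs <;> simp
  have L1 : ∀ (f : F →+ F) x, f x = ∑ i, ξ i x * f (b i) := by
    intro f x
    conv_lhs => rw [← b.sum_repr x]
    rw [map_sum]
    refine Finset.sum_congr rfl fun i _ => ?_
    rw [ZMod.map_smul f, Algebra.smul_def, hξ]
  obtain ⟨β, hβ⟩ : ∃ β : F → F → F, ∀ x y, β x y = q (x + y) + q x + q y :=
    ⟨fun x y => _, fun _ _ => rfl⟩
  have hβ1 : ∀ x x' y, β (x + x') y = β x y + β x' y := by
    intro x y z
    rw [hβ, hβ, hβ]
    linear_combination hq x y z - (q (x + z) + q (y + z) + q x + q y + q z) * h2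
  have hβs : ∀ x y, β x y = β y x := by
    intro x y
    rw [hβ, hβ, add_comm x y]
    ring
  have hβ2 : ∀ x y y', β x (y + y') = β x y + β x y' := by
    intro x y y'
    rw [hβs, hβ1, hβs y, hβs y']
  have hβd : ∀ x, β x x = 0 := by
    intro x
    rw [hβ]
    have : x + x = 0 := CharTwo.add_self_eq_zero x
    rw [this, hq0]
    linear_combination q x * h2
  have hβexp : ∀ x y, β x y = ∑ i, ∑ j, ξ i x * ξ j y * β (b i) (b j) := by
    intro x y
    have e1 : β x y = ∑ i, ξ i x * β (b i) y := L1 ((mkBi β hβ1 hβ2).flip y) x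
    rw [e1]
    refine Finset.sum_congr rfl fun i _ => ?_
    have e2 : β (b i) y = ∑ j, ξ j y * β (b i) (b j) := L1 (mkBi β hβ1 hβ2 (b i)) y
    rw [e2, Finset.mul_sum]
    refine Finset.sum_congr rfl fun j _ => ?_
    ring
  obtain ⟨γ, hγ⟩ : ∃ γ : Fin (Module.finrank (ZMod 2) F) → Fin (Module.finrank (ZMod 2) F) → F,
      ∀ i j, γ i j = if i < j then β (b i) (b j) else if i = j then q (b i) else 0 :=
    ⟨fun i j => _, fun _ _ => rfl⟩
  have hγs : ∀ i j, γ i j + γ j i = β (b i) (b j) := by
    intro i j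
    rw [hγ, hγ]
    rcases lt_trichotomy i j with h | h | h
    · rw [if_pos h, if_neg (not_lt.2 h.le), if_neg h.ne', add_zero]
    · subst h
      rw [if_neg (lt_irrefl _), if_pos rfl, hβd]
      linear_combination q (b i) * h2
    · rw [if_neg (not_lt.2 h.le), if_neg h.ne', if_pos h, zero_add, hβs]
  obtain ⟨A, hA⟩ : ∃ A : F → F → F, ∀ x y, A x y = ∑ i, ∑ j, ξ i x * ξ j y * γ i j :=
    ⟨fun x y => _, fun _ _ => rfl⟩
  have hA1 : ∀ x x' y, A (x + x') y = A x y + A x' y := by
    intro x x' y
    rw [hA, hA, hA, ← Finset.sum_add_distrib]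
    refine Finset.sum_congr rfl fun i _ => ?_
    rw [← Finset.sum_add_distrib]
    refine Finset.sum_congr rfl fun j _ => ?_
    rw [hξadd]
    ring
  have hA2 : ∀ x y y', A x (y + y') = A x y + A x y' := by
    intro x y y'
    rw [hA, hA, hA, ← Finset.sum_add_distrib]
    refine Finset.sum_congr rfl fun i _ => ?_
    rw [← Finset.sum_add_distrib]
    refine Finset.sum_congr rfl fun j _ => ?_
    rw [hξadd]
    ring
  have hAs : ∀ x y, A x y + A y x = β x y := by
    intro x y
    have e : ∑ i, ∑ j, ξ i y * ξ j x * γ i j = ∑ i, ∑ j, ξ j y * ξ i x * γ j i := Finset.sum_comm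
    rw [hA, hA y x, hβexp, e, ← Finset.sum_add_distrib]
    refine Finset.sum_congr rfl fun i _ => ?_
    rw [← Finset.sum_add_distrib]
    refine Finset.sum_congr rfl fun j _ => ?_
    rw [← hγs]
    ring
  have hAb : ∀ k, A (b k) (b k) = q (b k) := by
    intro k
    rw [hA, Finset.sum_eq_single k, Finset.sum_eq_single k]
    · rw [hξb, if_pos rfl, hγ, if_neg (lt_irrefl _), if_pos rfl]
      ring
    · intro j _ hj
      rw [hξb j k, if_neg (Ne.symm hj)]
      ring
    · intro h
      exact absurd (Finset.mem_univ _) h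
    · intro i _ hi
      apply Finset.sum_eq_zero
      intro j _
      rw [hξb i k, if_neg (Ne.symm hi)]
      ring
    · intro h
      exact absurd (Finset.mem_univ _) h
  have hq'add : ∀ x y, q (x + y) + A (x + y) (x + y) = (q x + A x x) + (q y + A y y) := by
    intro x y
    rw [hA1, hA2, hA2]
    have e := hAs x y
    rw [hβ] at e
    linear_combination e + q (x + y) * h2
  have hz : ∀ x, q x + A x x = 0 := by
    intro x
    have e : q x + A x x = ∑ i, ξ i x * (q (b i) + A (b i) (b i)) :=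
      L1 (AddMonoidHom.mk' (fun x => q x + A x x) hq'add) x
    rw [e]
    apply Finset.sum_eq_zero
    intro i _
    rw [hAb]
    linear_combination ξ i x * q (b i) * h2
  obtain ⟨s, c, hsc⟩ := (Cfsg.Agent.S1140.result (F := F)).2.2 (mkBi A hA1 hA2)
  refine ⟨s, c, fun x => ?_⟩
  rw [← hsc x x]
  show q x = A x x
  linear_combination hz x - A x x * h2

end Cfsg.Agent.S1168
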