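import Mathlib
import Cfsg.Statements.S1176
import Cfsg.Agent.Lib.Helper8.Isolated

set_option autoImplicit false
open Cfsg
open Cfsg.Agent.Lib.Helper8

namespace Cfsg.Agent.S1176

/-- Let x₀ be an involution of the finite group G and D its conjugacy class. Assume (a) for each x ∈ D the subgroup W(x) generated by the members of D commuting with x is a 2-group of nilpotency class at most 2, and (b) the product of two distinct commuting members of D again lies in D. Then for all x, y ∈ D, if xy has even order greater than 2, its order is 4. -/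
theorem result {G : Type*} [Group G] [Finite G] (x₀ : G) (hx₀ : orderOf x₀ = 2) (ha : ∀ x : G, IsConj x₀ x → IsPGroup 2 ↥(Subgroup.closure {y : G | IsConj x₀ y ∧ Commute y x}) ∧ ⁅⁅Subgroup.closure {y : G | IsConj x₀ y ∧ Commute y x}, Subgroup.closure {y : G | IsConj x₀ y ∧ Commute y x}⁆, Subgroup.closure {y : G | IsConj x₀ y ∧ Commute y x}⁆ = ⊥) (hb : ∀ x y : G, IsConj x₀ x → IsConj x₀ y → x ≠ y → Commute x y → IsConj x₀ (x * y)) (x y : G) (hx : IsConj x₀ x) (hy : IsConj x₀ y) (heven : Even (orderOf (x * y))) (hgt : 2 < orderOf (x * y)) : orderOf (x * y) = 4 := by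
  have hord : ∀ w : G, IsConj x₀ w → w * w = 1 := by
    intro w hw
    obtain ⟨g, rfl⟩ := isConj_iff.mp hw
    exact sq_of_orderOf_two (orderOf_conj_two hx₀ g)
  have hx2 := hord x hx
  have hy2 := hord y hy
  have hix : x * (x * y) * x⁻¹ = (x * y)⁻¹ := invol_inverts_mul' hy2 hx2
  have hiy : y * (x * y) * y⁻¹ = (x * y)⁻¹ := invol_inverts_mul hy2 hx2
  obtain ⟨m, hm⟩ := heven
  obtain ⟨u, hu⟩ : ∃ u, u = x * y := ⟨_, rfl⟩
  rw [← hu] at hix hiy hm hgt ⊢
  have hz2 : u ^ m * u ^ m = 1 := by rw [← pow_add, ← hm, pow_orderOf_eq_one]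
  have hz1 : u ^ m ≠ 1 := pow_ne_one_of_lt_orderOf (by omega) (by omega)
  have hzinv : (u ^ m)⁻¹ = u ^ m := inv_eq_of_mul_eq_one_left hz2
  have hcx : Commute x (u ^ m) := by
    have := inverts_pow hix m
    rw [hzinv, mul_inv_eq_iff_eq_mul] at this
    exact this
  have hcy : Commute y (u ^ m) := by
    have := inverts_pow hiy m
    rw [hzinv, mul_inv_eq_iff_eq_mul] at this
    exact this
  have hzD : IsConj x₀ (u ^ m) := by
    rcases Nat.even_or_odd' m with ⟨j, hj | hj⟩
    · have h1 : IsConj x₀ (u ^ m * x) := by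
        rw [hj, ← conj_by_pow_of_inverts hix j]
        exact hx.trans (isConj_iff.mpr ⟨u ^ j, rfl⟩)
      have h2 := hb (u ^ m * x) x h1 hx (by
        intro h
        exact hz1 (mul_eq_right.mp h)) (by
        exact (hcx.symm.mul_left (Commute.refl x)))
      rwa [mul_assoc, hx2, mul_one] at h2
    · have h1 : IsConj x₀ (u ^ m * y) := by
        have e : u ^ m * y = u ^ (2 * j) * x := by
          rw [hj, pow_succ, hu, mul_assoc, mul_assoc x y y, hy2, mul_one]
        rw [e, ← conj_by_pow_of_inverts hix j]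
        exact hx.trans (isConj_iff.mpr ⟨u ^ j, rfl⟩)
      have h2 := hb (u ^ m * y) y h1 hy (by
        intro h
        exact hz1 (mul_eq_right.mp h)) (by
        exact (hcy.symm.mul_left (Commute.refl y)))
      rwa [mul_assoc, hy2, mul_one] at h2
  obtain ⟨-, hcl⟩ := ha _ hzD
  have hxW : x ∈ Subgroup.closure {y : G | IsConj x₀ y ∧ Commute y (u ^ m)} :=
    Subgroup.subset_closure ⟨hx, hcx⟩
  have hyW : y ∈ Subgroup.closure {y : G | IsConj x₀ y ∧ Commute y (u ^ m)} :=
    Subgroup.subset_closure ⟨hy, hcy⟩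
  have h3 := Subgroup.commutator_mem_commutator (Subgroup.commutator_mem_commutator hxW hyW) hxW
  rw [hcl, Subgroup.mem_bot] at h3
  have hxi : x⁻¹ = x := inv_eq_of_mul_eq_one_left hx2
  have hyi : y⁻¹ = y := inv_eq_of_mul_eq_one_left hy2
  have h4 : u ^ 4 = 1 := by
    rw [← h3, commutatorElement_def, commutatorElement_def, hu]
    simp only [mul_inv_rev, hxi, hyi, inv_inv]
    simp only [pow_succ, pow_zero, one_mul, mul_assoc]
    simp only [← mul_assoc]
    rw [mul_assoc _ x x, hx2, mul_one]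
  have h5 : orderOf u ∣ 4 := orderOf_dvd_of_pow_eq_one h4
  have h6 : orderOf u ≤ 4 := Nat.le_of_dvd (by norm_num) h5
  interval_cases h : orderOf u
  · omega
  · rfl

end Cfsg.Agent.S1176
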