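import Mathlib
import Cfsg.Statements.S1177
import Cfsg.Agent.Lib.Helper8.Basic

set_option autoImplicit false
open Cfsg
open Cfsg.Agent.Lib.Helper8

namespace Cfsg.Agent.S1177

/-- Let A be a nontrivial elementary abelian 2-subgroup of a finite group G which is a T.I. set (each conjugate of A meets A trivially or equals A) and which does not commute elementwise with any conjugate of A other than A itself. Then for every a ∈ A, a ≠ 1, every conjugate of A contained in C_G(a) is equal to A (A is weakly closed in C_G(a)). -/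
theorem result {G : Type*} [Group G] [Finite G] (A : Subgroup G) (hA : Cfsg.IsElementaryAbelian 2 A) (hA1 : A ≠ ⊥) (hTI : ∀ g : G, A.map (MulAut.conj g).toMonoidHom ⊓ A = ⊥ ∨ A.map (MulAut.conj g).toMonoidHom = A) (hb : ∀ g : G, (∀ a ∈ A, ∀ b ∈ A.map (MulAut.conj g).toMonoidHom, a * b = b * a) → A.map (MulAut.conj g).toMonoidHom = A) (a : G) (ha : a ∈ A) (ha1 : a ≠ 1) (g : G) (hg : A.map (MulAut.conj g).toMonoidHom ≤ Subgroup.centralizer ({a} : Set G)) : A.map (MulAut.conj g).toMonoidHom = A := by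
  obtain ⟨hAc, hA2⟩ := hA
  have hAcomm : ∀ u ∈ A, ∀ v ∈ A, u * v = v * u := by
    intro u hu v hv
    have := hAc.is_comm.comm (⟨u, hu⟩ : A) ⟨v, hv⟩
    exact congrArg Subtype.val this
  have hAsq : ∀ u ∈ A, u * u = 1 := fun u hu => by rw [← pow_two]; exact hA2 u hu
  obtain ⟨B, hB⟩ : ∃ B, B = A.map (MulAut.conj g).toMonoidHom := ⟨_, rfl⟩
  rw [← hB] at hg ⊢
  have hmemB : ∀ b, b ∈ B ↔ g⁻¹ * b * g ∈ A := fun b => by rw [hB, mem_conjMap]
  have hBsq : ∀ b ∈ B, b * b = 1 := by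
    intro b hb
    have := hAsq _ ((hmemB b).mp hb)
    have e : g⁻¹ * b * g * (g⁻¹ * b * g) = g⁻¹ * (b * b) * g := by group
    rw [e] at this
    have h2 : b * b = g * (g⁻¹ * (b * b) * g) * g⁻¹ := by group
    rw [h2, this]; group
  have hBcomm : ∀ u ∈ B, ∀ v ∈ B, u * v = v * u := by
    intro u hu v hv
    have := hAcomm _ ((hmemB u).mp hu) _ ((hmemB v).mp hv)
    have e1 : g⁻¹ * u * g * (g⁻¹ * v * g) = g⁻¹ * (u * v) * g := by group
    have e2 : g⁻¹ * v * g * (g⁻¹ * u * g) = g⁻¹ * (v * u) * g := by group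
    rw [e1, e2] at this
    exact mul_left_cancel (mul_right_cancel this)
  -- `B` normalizes `A`
  have hBA : ∀ b ∈ B, b ∈ Subgroup.normalizer (A : Set G) := by
    intro b hb
    rw [← conjMap_eq_iff_mem_normalizer]
    rcases hTI b with h | h
    · exfalso
      apply ha1
      rw [← Subgroup.mem_bot, ← h]
      refine Subgroup.mem_inf.mpr ⟨?_, ha⟩
      rw [mem_conjMap]
      have := Subgroup.mem_centralizer_singleton_iff.mp (hg hb)
      rw [mul_assoc, ← this, inv_mul_cancel_left]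
      exact ha
    · exact h
  rcases hTI g with hAB | hAB
  swap
  · rw [hB]; exact hAB
  rw [← hB] at hAB
  -- transfer of the hypotheses to `B`
  have hconjB : ∀ h : G, A.map (MulAut.conj (g⁻¹ * h * g)).toMonoidHom = A →
      B.map (MulAut.conj h).toMonoidHom = B := by
    intro h hh
    have := congrArg (fun X => X.map (MulAut.conj g).toMonoidHom) hh
    simp only [conjMap_conjMap] at this
    rw [hB, conjMap_conjMap, ← this]
    congr 3
    group
  have hTIB : ∀ h b : G, b ∈ B → b ≠ 1 → b ∈ B.map (MulAut.conj h).toMonoidHom →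
      B.map (MulAut.conj h).toMonoidHom = B := by
    intro h b hb hb1 hbh
    rcases hTI (g⁻¹ * h * g) with h1 | h1
    · exfalso
      have h2 : g⁻¹ * b * g ∈ A.map (MulAut.conj (g⁻¹ * h * g)).toMonoidHom ⊓ A := by
        refine Subgroup.mem_inf.mpr ⟨?_, (hmemB b).mp hb⟩
        rw [mem_conjMap]
        rw [mem_conjMap, hmemB] at hbh
        have e : (g⁻¹ * h * g)⁻¹ * (g⁻¹ * b * g) * (g⁻¹ * h * g) = g⁻¹ * (h⁻¹ * b * h) * g := by group
        rw [e]; exact hbh
      rw [h1, Subgroup.mem_bot] at h2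
      apply hb1
      have e : b = g * (g⁻¹ * b * g) * g⁻¹ := by group
      rw [e, h2]; group
    · exact hconjB h h1
  have hbB : ∀ h : G, (∀ b ∈ B, ∀ c ∈ B.map (MulAut.conj h).toMonoidHom, b * c = c * b) →
      B.map (MulAut.conj h).toMonoidHom = B := by
    intro h hh
    apply hconjB
    apply hb
    intro u hu c hc
    rw [mem_conjMap] at hc
    have h1 : g * u * g⁻¹ ∈ B := by rw [hmemB]; convert hu using 1; group
    have h2 : g * c * g⁻¹ ∈ B.map (MulAut.conj h).toMonoidHom := by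
      rw [mem_conjMap, hmemB]; convert hc using 1; group
    have := hh _ h1 _ h2
    have e1 : g * u * g⁻¹ * (g * c * g⁻¹) = g * (u * c) * g⁻¹ := by group
    have e2 : g * c * g⁻¹ * (g * u * g⁻¹) = g * (c * u) * g⁻¹ := by group
    rw [e1, e2] at this
    exact mul_left_cancel (mul_right_cancel this)
  -- commutators `[y, b]` centralize `B`
  have hw : ∀ y ∈ A, ∀ b ∈ B, y * b * y⁻¹ * b⁻¹ ∈ A ∧ ∀ b' ∈ B, (y * b * y⁻¹ * b⁻¹) * b' = b' * (y * b * y⁻¹ * b⁻¹) := by
    intro y hy b hb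
    have hbi : b⁻¹ = b := inv_eq_of_mul_eq_one_left (hBsq b hb)
    have hyi : y⁻¹ = y := inv_eq_of_mul_eq_one_left (hAsq y hy)
    have hy' : b * y * b⁻¹ ∈ A := (Subgroup.mem_normalizer_iff.mp (hBA b hb) y).mp hy
    have hwA : y * b * y⁻¹ * b⁻¹ ∈ A := by
      have := A.mul_mem hy hy'
      rw [hyi]
      convert this using 1
      group
    refine ⟨hwA, ?_⟩
    by_cases hw1 : y * b * y⁻¹ * b⁻¹ = 1
    · intro b' _; rw [hw1, one_mul, mul_one]
    have hb1 : b ≠ 1 := by
      rintro rfl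
      apply hw1; group
    have hwb : (y * b * y⁻¹ * b⁻¹) * b = b * (y * b * y⁻¹ * b⁻¹) := by
      have h1 := hAcomm y hy _ hy'
      rw [hyi, hbi] at *
      calc y * b * y * b * b = y * (b * y * b) * b := by group
        _ = b * y * b * y * b := by rw [h1]
        _ = b * (y * b * y * b) := by group
    obtain ⟨w, hwdef⟩ : ∃ w, w = y * b * y⁻¹ * b⁻¹ := ⟨_, rfl⟩
    rw [← hwdef] at hwA hw1 hwb ⊢
    have hBw : B.map (MulAut.conj w).toMonoidHom = B := by
      apply hTIB w b hb hb1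
      rw [mem_conjMap, mul_assoc, ← hwb, inv_mul_cancel_left]
      exact hb
    intro b' hb'
    have h1 : w * b' * w⁻¹ * b'⁻¹ ∈ B ⊓ A := by
      refine Subgroup.mem_inf.mpr ⟨?_, ?_⟩
      · apply B.mul_mem _ (B.inv_mem hb')
        rw [← hBw]
        exact conj_mem_conjMap hb'
      · have := A.mul_mem hwA ((Subgroup.mem_normalizer_iff.mp (hBA b' hb') w⁻¹).mp (A.inv_mem hwA))
        convert this using 1
        group
    rw [hAB, Subgroup.mem_bot] at h1
    rw [mul_inv_eq_one, mul_inv_eq_iff_eq_mul] at h1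
    exact h1
  rw [hB]
  apply hb
  rw [← hB]
  intro y hy b hb
  have hBy : B.map (MulAut.conj y).toMonoidHom = B := by
    apply hbB
    intro b' hb' c hc
    rw [mem_conjMap] at hc
    obtain ⟨-, h2⟩ := hw y hy _ hc
    have e : c = (y * (y⁻¹ * c * y) * y⁻¹ * (y⁻¹ * c * y)⁻¹) * (y⁻¹ * c * y) := by group
    have h3 := h2 b' hb'
    have h4 := hBcomm _ hb' _ hc
    generalize y * (y⁻¹ * c * y) * y⁻¹ * (y⁻¹ * c * y)⁻¹ = w at e h3
    generalize y⁻¹ * c * y = d at e h4
    rw [e, ← mul_assoc, ← h3, mul_assoc, h4, mul_assoc]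
  have h1 : y * b * y⁻¹ * b⁻¹ ∈ B ⊓ A := by
    refine Subgroup.mem_inf.mpr ⟨?_, (hw y hy b hb).1⟩
    apply B.mul_mem _ (B.inv_mem hb)
    rw [← hBy]
    exact conj_mem_conjMap hb
  rw [hAB, Subgroup.mem_bot] at h1
  rw [mul_inv_eq_one, mul_inv_eq_iff_eq_mul] at h1
  exact h1

end Cfsg.Agent.S1177
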