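import Mathlib
import Cfsg.Statements.S1178
import Cfsg.Agent.Lib.Helper8.Basic

set_option autoImplicit false
open Cfsg

namespace Cfsg.Agent.S1178

open Cfsg.Agent.Lib.Helper8

/-- Let A be a subgroup of a Sylow 2-subgroup S of the finite group G which is weakly closed in S. If a conjugate g A g⁻¹ commutes elementwise with A, then g A g⁻¹ = A. -/
theorem result {G : Type*} [Group G] [Finite G] (S : Sylow 2 G) (A : Subgroup G) (hW : Cfsg.IsWeaklyClosed A (S : Subgroup G)) (g : G) (hc : ∀ a ∈ A, ∀ b ∈ A.map (MulAut.conj g).toMonoidHom, a * b = b * a) : A.map (MulAut.conj g).toMonoidHom = A := by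
  haveI : Fact (Nat.Prime 2) := ⟨Nat.prime_two⟩
  have hA2 : IsPGroup 2 A := S.2.to_le hW.1
  have hAg2 : IsPGroup 2 (A.map (MulAut.conj g).toMonoidHom) := isPGroup_conjMap hA2 g
  have hn : A ≤ Subgroup.normalizer ((A.map (MulAut.conj g).toMonoidHom : Subgroup G) : Set G) := by
    intro a ha
    rw [Subgroup.mem_normalizer_iff]
    intro b
    constructor
    · intro hb
      have : a * b * a⁻¹ = b := by rw [hc a ha b hb]; group
      rw [this]; exact hb
    · intro hb
      have h1 := hc a ha _ hb
      have : a * b * a⁻¹ = b := by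
        have h2 : a * (a * b * a⁻¹) = a * b := by rw [h1]; group
        exact mul_left_cancel h2
      rw [← this]; exact hb
  have hsup : IsPGroup 2 (A ⊔ A.map (MulAut.conj g).toMonoidHom : Subgroup G) :=
    IsPGroup.to_sup_of_normal_right' hA2 hAg2 hn
  obtain ⟨Q, hQ⟩ := hsup.exists_le_sylow
  obtain ⟨h, hh⟩ := sylow_conj Q S
  have h1 : A.map (MulAut.conj h).toMonoidHom ≤ S := by
    rw [hh]; exact conjMap_mono h (le_sup_left.trans hQ)
  have h2 : (A.map (MulAut.conj g).toMonoidHom).map (MulAut.conj h).toMonoidHom ≤ S := by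
    rw [hh]; exact conjMap_mono h (le_sup_right.trans hQ)
  have e1 := hW.2 h h1
  rw [conjMap_conjMap] at h2
  have e2 := hW.2 (h * g) h2
  rw [← conjMap_conjMap] at e2
  exact conjMap_injective h (e2.trans e1.symm)

end Cfsg.Agent.S1178
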