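import Mathlib
import Cfsg.Statements.S1242
import Cfsg.Agent.Lib.Helper8.Transfer

set_option autoImplicit false
open Cfsg

namespace Cfsg.Agent.S1242

open Cfsg.Agent.Lib.Helper8

theorem normal_of_commutator_le {H : Type*} [Group H] (K : Subgroup H) (h : commutator H ≤ K) : K.Normal := by
  constructor
  intro k hk g
  have : g * k * g⁻¹ = (g * k * g⁻¹ * k⁻¹) * k := by group
  rw [this]
  apply K.mul_mem _ hk
  apply h
  rw [commutator_def]
  exact Subgroup.commutator_mem_commutator (Subgroup.mem_top g) (Subgroup.mem_top k)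

theorem result {G : Type*} [Group G] [Finite G] {p : ℕ} [Fact p.Prime] (H : Subgroup G) (hidx : Nat.Coprime p H.index) (hfus : ∀ g ∈ H, (∃ k : ℕ, orderOf g = p ^ k) → ∀ a : G, a * g * a⁻¹ ∈ H → ∃ h ∈ H, h * g * h⁻¹ = a * g * a⁻¹) : (Cfsg.pResidual p G ⊔ commutator G) ⊓ H = (Cfsg.pResidual p ↥H ⊔ commutator ↥H).map H.subtype := by
  have hp : p.Prime := Fact.out
  apply le_antisymm
  · rintro x ⟨hx1, hxH⟩
    set K : Subgroup H := Cfsg.pResidual p ↥H ⊔ commutator ↥H with hK
    haveI hKn : K.Normal := normal_of_commutator_le K le_sup_right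
    refine ⟨⟨x, hxH⟩, ?_, rfl⟩
    show (⟨x, hxH⟩ : H) ∈ K
    set y : H := ⟨x, hxH⟩ with hy
    have hpos : orderOf y ≠ 0 := (orderOf_pos y).ne'
    obtain ⟨e, m, hm, hn⟩ := Nat.exists_eq_pow_mul_and_not_dvd hpos p hp.ne_one
    have hmcop : Nat.Coprime m p := ((Nat.Prime.coprime_iff_not_dvd hp).mpr hm).symm
    -- first: y^(p^e) ∈ K
    have h1 : y ^ (p ^ e) ∈ K := by
      apply Subgroup.mem_sup_left
      apply Subgroup.subset_closure
      show Nat.Coprime (orderOf (y ^ (p ^ e))) p
      rw [orderOf_pow_of_dvd (pow_ne_zero _ hp.ne_zero) (hn ▸ Dvd.intro _ rfl), hn,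
        Nat.mul_div_cancel_left _ (pow_pos hp.pos _)]
      exact hmcop
    -- second: y^m ∈ K
    have hm0 : m ≠ 0 := by rintro rfl; simp at hm
    have h2 : y ^ m ∈ K := by
      by_contra hcon
      have hord : orderOf (y ^ m) = p ^ e := by
        rw [orderOf_pow_of_dvd hm0 (hn ▸ Dvd.intro_left _ rfl), hn, Nat.mul_div_cancel _ (Nat.pos_of_ne_zero hm0)]
      obtain ⟨V, hV1, hV2⟩ := exists_hom_ne_one H K le_sup_right hidx (y ^ m) hcon ⟨e, hord⟩ (by
        intro k a hk
        have hgk : ((y ^ m : H) : G) ^ k ∈ H := H.pow_mem (y ^ m).2 k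
        have hgo : ∃ j : ℕ, orderOf (((y ^ m : H) : G) ^ k) = p ^ j := by
          have hd : orderOf (((y ^ m : H) : G) ^ k) ∣ p ^ e := by
            rw [← hord, ← Subgroup.orderOf_coe]
            exact orderOf_pow_dvd k
          obtain ⟨j, -, hj⟩ := (Nat.dvd_prime_pow hp).mp hd
          exact ⟨j, hj⟩
        obtain ⟨h, hh, hh2⟩ := hfus _ hgk hgo a⁻¹ (by simpa using hk)
        apply Subgroup.mem_sup_right
        have e1 : (⟨a⁻¹ * ((y ^ m : H) : G) ^ k * a, hk⟩ : H) = ⟨h, hh⟩ * (y ^ m) ^ k * ⟨h, hh⟩⁻¹ := by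
          apply Subtype.ext
          simp only [Subgroup.coe_mul, Subgroup.coe_pow, Subgroup.coe_inv]
          simp only [Subgroup.coe_pow, inv_inv] at hh2
          rw [hh2]
        rw [e1]
        have e2 : ((⟨h, hh⟩ : H) * (y ^ m) ^ k * ⟨h, hh⟩⁻¹)⁻¹ * (y ^ m) ^ k
            = (⟨h, hh⟩ : H) * ((y ^ m) ^ k)⁻¹ * (⟨h, hh⟩ : H)⁻¹ * ((y ^ m) ^ k)⁻¹⁻¹ := by group
        rw [e2, commutator_def]
        exact Subgroup.commutator_mem_commutator (Subgroup.mem_top _) (Subgroup.mem_top _))
      -- V kills the residual and the commutator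
      have hPG : IsPGroup p (H ⧸ K) := by
        intro q
        obtain ⟨h, rfl⟩ := QuotientGroup.mk_surjective q
        have hpos' : orderOf h ≠ 0 := (orderOf_pos h).ne'
        obtain ⟨e', m', hm', hn'⟩ := Nat.exists_eq_pow_mul_and_not_dvd hpos' p hp.ne_one
        refine ⟨e', ?_⟩
        rw [← QuotientGroup.mk_pow, QuotientGroup.eq_one_iff]
        apply Subgroup.mem_sup_left
        apply Subgroup.subset_closure
        show Nat.Coprime (orderOf (h ^ (p ^ e'))) p
        rw [orderOf_pow_of_dvd (pow_ne_zero _ hp.ne_zero) (hn' ▸ Dvd.intro _ rfl), hn',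
          Nat.mul_div_cancel_left _ (pow_pos hp.pos _)]
        exact ((Nat.Prime.coprime_iff_not_dvd hp).mpr hm').symm
      have hres : Cfsg.pResidual p G ≤ V.ker := by
        unfold Cfsg.pResidual
        rw [Subgroup.closure_le]
        intro g hg
        have hg' : Nat.Coprime (orderOf g) p := hg
        show g ∈ V.ker
        rw [MonoidHom.mem_ker]
        obtain ⟨j, hj⟩ := hPG (V g)
        have h3 : V g ^ orderOf g = 1 := by rw [← map_pow, pow_orderOf_eq_one, map_one]
        have h4 := pow_gcd_eq_one.mpr ⟨h3, hj⟩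
        rw [Nat.Coprime.pow_right j hg', pow_one] at h4
        exact h4
      have hxk : x ∈ V.ker := (sup_le hres hV2) hx1
      apply hV1
      have : ((y ^ m : H) : G) = x ^ m := rfl
      rw [this, map_pow, MonoidHom.mem_ker.mp hxk, one_pow]
    have h3 : (QuotientGroup.mk y : H ⧸ K) ^ (p ^ e) = 1 := by
      rw [← QuotientGroup.mk_pow, QuotientGroup.eq_one_iff]; exact h1
    have h4 : (QuotientGroup.mk y : H ⧸ K) ^ m = 1 := by
      rw [← QuotientGroup.mk_pow, QuotientGroup.eq_one_iff]; exact h2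
    have h5 := pow_gcd_eq_one.mpr ⟨h4, h3⟩
    rw [Nat.Coprime.pow_right e hmcop, pow_one] at h5
    exact (QuotientGroup.eq_one_iff y).mp h5
  · rw [Subgroup.map_sup]
    apply le_inf
    · apply sup_le_sup
      · unfold Cfsg.pResidual
        rw [MonoidHom.map_closure]
        apply Subgroup.closure_mono
        rintro _ ⟨h, hh, rfl⟩
        show Nat.Coprime (orderOf (h : G)) p
        rw [Subgroup.orderOf_coe]
        exact hh
      · rw [commutator_def, commutator_def, Subgroup.map_commutator]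
        exact Subgroup.commutator_mono le_top le_top
    · rw [← Subgroup.map_sup]
      exact Subgroup.map_subtype_le _

end Cfsg.Agent.S1242
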