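import Mathlib
import Cfsg.Statements.S1183
import Cfsg.Agent.Lib.Helper8.Isolated
import Cfsg.Agent.Lib.Helper8.Residual
import Cfsg.Agent.S1242
import Cfsg.Agent.S1182

set_option autoImplicit false
open Cfsg

namespace Cfsg.Agent.S1183

open Cfsg.Agent.Lib.Helper8

/-- the centralizer of an isolated involution contains a Sylow 2-subgroup -/
theorem exists_sylow_le {G : Type*} [Group G] [Finite G] (z : G) (hz : Cfsg.IsIsolatedInvolution z) :
    ∃ S : Sylow 2 G, (S : Subgroup G) ≤ Subgroup.centralizer ({z} : Set G) := by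
  haveI : Fact (Nat.Prime 2) := ⟨Nat.prime_two⟩
  have h2 : IsPGroup 2 (Subgroup.zpowers z) := by
    apply IsPGroup.of_card (n := 1)
    rw [Nat.card_zpowers, hz.1]; rfl
  obtain ⟨S, hS⟩ := h2.exists_le_sylow
  have hzS : z ∈ (S : Subgroup G) := hS (Subgroup.mem_zpowers z)
  refine ⟨S, ?_⟩
  intro s hs
  rw [Subgroup.mem_centralizer_singleton_iff]
  have hodd := isolated_odd_order hz s
  have hmem : s * z * s⁻¹ * z ∈ (S : Subgroup G) :=
    Subgroup.mul_mem _ (Subgroup.mul_mem _ (Subgroup.mul_mem _ hs hzS) (Subgroup.inv_mem _ hs)) hzS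
  obtain ⟨k, hk⟩ := (IsPGroup.iff_orderOf.mp S.2) ⟨_, hmem⟩
  rw [Subgroup.orderOf_mk] at hk
  have h1 : s * z * s⁻¹ * z = 1 := by
    rw [hk] at hodd
    rcases Nat.eq_zero_or_pos k with rfl | hpos
    · rw [pow_zero] at hk; exact orderOf_eq_one_iff.mp hk
    · exact absurd hodd (by rw [Nat.not_odd_iff_even]; exact (Nat.even_pow.mpr ⟨even_two, hpos.ne'⟩))
  have hzz := sq_of_orderOf_two hz.1
  calc s * z = (s * z * s⁻¹ * z) * (z * s) := by
        have : s * z * s⁻¹ * z * (z * s) = s * z * s⁻¹ * (z * z) * s := by group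
        rw [this, hzz]; group
    _ = z * s := by rw [h1, one_mul]

theorem result {G : Type*} [Group G] [Finite G] (z : G) (hz : Cfsg.IsIsolatedInvolution z) : Cfsg.pResidual 2 G = ⊤ ↔ Cfsg.pResidual 2 ↥(Subgroup.centralizer ({z} : Set G)) = ⊤ := by
  haveI : Fact (Nat.Prime 2) := ⟨Nat.prime_two⟩
  obtain ⟨S, hS⟩ := exists_sylow_le z hz
  have hidx : Nat.Coprime 2 (Subgroup.centralizer ({z} : Set G)).index := by
    rw [Nat.Prime.coprime_iff_not_dvd Nat.prime_two]
    intro h
    exact S.not_dvd_index (h.trans (Subgroup.index_dvd_of_le hS))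
  have key := Cfsg.Agent.S1242.result (p := 2) (Subgroup.centralizer ({z} : Set G)) hidx (by
    intro g hg _ a ha
    rw [Subgroup.mem_centralizer_singleton_iff] at hg ha
    obtain ⟨c, -, hc1, hc2⟩ := Cfsg.Agent.S1182.result z hz ⊤ (by rw [Subgroup.mem_normalizer_iff]; intro h; simp) g (a * g * a⁻¹) (Subgroup.mem_top _)
      (Subgroup.mem_top _) hg ha a (Subgroup.mem_top _) rfl
    exact ⟨c, Subgroup.mem_centralizer_singleton_iff.mpr hc1, hc2⟩)
  constructor
  · intro h
    rw [h, top_sup_eq, top_inf_eq] at key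
    apply pResidual_eq_top_of_sup_commutator
    apply Subgroup.map_injective (Subgroup.centralizer ({z} : Set G)).subtype_injective
    rw [← key, ← MonoidHom.range_eq_map, Subgroup.range_subtype]
  · intro h
    rw [h, top_sup_eq, ← MonoidHom.range_eq_map, Subgroup.range_subtype] at key
    have hC : Subgroup.centralizer ({z} : Set G) ≤ Cfsg.pResidual 2 G ⊔ commutator G := inf_eq_right.mp key
    apply pResidual_eq_top_of_sup_commutator
    haveI := pResidual_normal (G := G) 2
    haveI : (Cfsg.pResidual 2 G ⊔ commutator G).Normal := inferInstance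
    have hP : IsPGroup 2 (G ⧸ (Cfsg.pResidual 2 G ⊔ commutator G)) :=
      isPGroup_quotient_of_pResidual_le _ le_sup_left
    obtain ⟨n, hn⟩ := IsPGroup.iff_card.mp hP
    rw [← Subgroup.index_eq_card] at hn
    have hnd : ¬ 2 ∣ (Cfsg.pResidual 2 G ⊔ commutator G).index := by
      intro h2
      exact S.not_dvd_index (h2.trans (Subgroup.index_dvd_of_le (hS.trans hC)))
    rw [← Subgroup.index_eq_one, hn]
    rcases Nat.eq_zero_or_pos n with rfl | hpos
    · simp
    · exact absurd (hn ▸ dvd_pow_self 2 hpos.ne') hnd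

end Cfsg.Agent.S1183
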