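import Mathlib
import Cfsg.Statements.S1184
import Cfsg.Agent.Lib.Helper8.Isolated

set_option autoImplicit false
open Cfsg

namespace Cfsg.Agent.S1184

open Cfsg.Agent.Lib.Helper8

/-- Let z be an isolated involution of the finite group G. If s and t are distinct conjugates of z, then st does not commute with z. -/
theorem result {G : Type*} [Group G] [Finite G] (z : G) (hz : Cfsg.IsIsolatedInvolution z) (g h : G) (hne : g * z * g⁻¹ ≠ h * z * h⁻¹) : ¬ Commute (g * z * g⁻¹ * (h * z * h⁻¹)) z := by
  intro hc
  have hs := isolated_conj hz g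
  have hss := sq_of_orderOf_two hs.1
  have htt := sq_of_orderOf_two (orderOf_conj_two hz.1 h)
  have hsinv := inv_of_orderOf_two hs.1
  have htinv := inv_of_orderOf_two (orderOf_conj_two hz.1 h)
  generalize hsdef : g * z * g⁻¹ = s at *
  generalize htdef : h * z * h⁻¹ = t at *
  -- s inverts u = s * t
  have hsu : s * (s * t) * s⁻¹ = (s * t)⁻¹ := invol_inverts_mul' htt hss
  -- odd order of s * t
  have hodd : Odd (orderOf (s * t)) := by
    have h1 := isolated_odd_order hs (h * g⁻¹)
    have h2 : h * g⁻¹ * s * (h * g⁻¹)⁻¹ = t := by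
      rw [← hsdef, ← htdef]; group
    rw [h2] at h1
    have h3 : s * t = (t * s)⁻¹ := by rw [mul_inv_rev, hsinv, htinv]
    rw [h3, orderOf_inv]
    exact h1
  -- k conjugates z to s, k in zpowers (s * z)
  obtain ⟨k, hk0, -, -, hk3⟩ := isolated_exists_k hz g
  rw [hsdef] at hk0 hk3
  -- s * z normalizes zpowers u
  have hN : s * z ∈ Subgroup.normalizer ((Subgroup.zpowers (s * t) : Subgroup G) : Set G) := by
    apply Subgroup.mul_mem
    · rw [Subgroup.mem_normalizer_iff]
      intro x
      constructor
      · intro hx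
        obtain ⟨n, rfl⟩ := Subgroup.mem_zpowers_iff.mp hx
        have : s * (s * t) ^ n * s⁻¹ = ((s * t) ^ n)⁻¹ := by
          rw [← conj_zpow, hsu, inv_zpow]
        rw [this]
        exact Subgroup.inv_mem _ (Subgroup.zpow_mem_zpowers _ _)
      · intro hx
        obtain ⟨n, hn⟩ := Subgroup.mem_zpowers_iff.mp hx
        have : x = ((s * t) ^ n)⁻¹ := by
          have e : x = s⁻¹ * (s * x * s⁻¹) * s := by group
          rw [e, ← hn, hsinv]
          have : s * (s * t) ^ n * s⁻¹ = ((s * t) ^ n)⁻¹ := by
            rw [← conj_zpow, hsu, inv_zpow]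
          rw [hsinv] at this
          exact this
        rw [this]
        exact Subgroup.inv_mem _ (Subgroup.zpow_mem_zpowers _ _)
    · rw [Subgroup.mem_normalizer_iff]
      intro x
      have hzc : ∀ n : ℤ, z * (s * t) ^ n * z⁻¹ = (s * t) ^ n := by
        intro n
        have := (hc.zpow_left n).eq
        rw [← this]; group
      constructor
      · intro hx
        obtain ⟨n, rfl⟩ := Subgroup.mem_zpowers_iff.mp hx
        rw [hzc]
        exact Subgroup.zpow_mem_zpowers _ _
      · intro hx
        obtain ⟨n, hn⟩ := Subgroup.mem_zpowers_iff.mp hx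
        have : x = (s * t) ^ n := by
          have e : x = z⁻¹ * (z * x * z⁻¹) * z := by group
          rw [e, ← hn]
          have := (hc.zpow_left n).eq
          rw [mul_assoc, this]; group
        rw [this]
        exact Subgroup.zpow_mem_zpowers _ _
  have hkN : k ∈ Subgroup.normalizer ((Subgroup.zpowers (s * t) : Subgroup G) : Set G) := by
    have : Subgroup.zpowers (s * z) ≤ Subgroup.normalizer ((Subgroup.zpowers (s * t) : Subgroup G) : Set G) := by
      rw [Subgroup.zpowers_le]; exact hN
    exact this hk0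
  -- k⁻¹ u k is a power of u, so commutes with z
  have h1 : k⁻¹ * (s * t) * k⁻¹⁻¹ ∈ Subgroup.zpowers (s * t) :=
    (Subgroup.mem_normalizer_iff.mp (Subgroup.inv_mem _ hkN) (s * t)).mp (Subgroup.mem_zpowers _)
  obtain ⟨n, hn⟩ := Subgroup.mem_zpowers_iff.mp h1
  have h2 : Commute (k⁻¹ * (s * t) * k⁻¹⁻¹) z := by
    rw [← hn]; exact hc.zpow_left n
  -- so u commutes with s
  have h3 : (s * t) * s = s * (s * t) := by
    have := h2.eq
    calc (s * t) * s = (s * t) * (k * z * k⁻¹) := by rw [hk3]
      _ = k * ((k⁻¹ * (s * t) * k⁻¹⁻¹) * z) * k⁻¹ := by group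
      _ = k * (z * (k⁻¹ * (s * t) * k⁻¹⁻¹)) * k⁻¹ := by rw [this]
      _ = (k * z * k⁻¹) * (s * t) := by group
      _ = s * (s * t) := by rw [hk3]
  have h4 : (s * t) = (s * t)⁻¹ := by
    rw [← hsu, ← h3]; group
  have h5 : (s * t) ^ 2 = 1 := by
    rw [pow_two]
    nth_rewrite 2 [h4]
    group
  have h6 : s * t = 1 := by
    have hd : orderOf (s * t) ∣ 2 := orderOf_dvd_of_pow_eq_one h5
    have : orderOf (s * t) = 1 := by
      rcases (Nat.dvd_prime Nat.prime_two).mp hd with h | h
      · exact h
      · rw [h] at hodd; exact absurd hodd (by decide)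
    exact orderOf_eq_one_iff.mp this
  apply hne
  calc s = s * (t * t) := by rw [htt, mul_one]
    _ = (s * t) * t := by group
    _ = t := by rw [h6, one_mul]

end Cfsg.Agent.S1184
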