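import Mathlib
import Cfsg.Statements.S1185
import Cfsg.Agent.Lib.Helper8.Isolated

set_option autoImplicit false
open Cfsg

namespace Cfsg.Agent.S1185

open Cfsg.Agent.Lib.Helper8

/-- Let z be an isolated involution of the finite group G with centralizer C. Then for every g ∈ G there is exactly one element k in the coset gC that has odd order and is inverted by z. -/
theorem result {G : Type*} [Group G] [Finite G] (z : G) (hz : Cfsg.IsIsolatedInvolution z) (g : G) : ∃! k : G, (Odd (orderOf k) ∧ z * k * z⁻¹ = k⁻¹) ∧ g⁻¹ * k ∈ Subgroup.centralizer ({z} : Set G) := by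
  have key : ∀ k : G, g⁻¹ * k ∈ Subgroup.centralizer ({z} : Set G) ↔ k * z * k⁻¹ = g * z * g⁻¹ := by
    intro k
    rw [Subgroup.mem_centralizer_singleton_iff]
    constructor
    · intro h
      calc k * z * k⁻¹ = g * ((g⁻¹ * k) * z) * k⁻¹ := by group
        _ = g * (z * (g⁻¹ * k)) * k⁻¹ := by rw [h]
        _ = g * z * g⁻¹ := by group
    · intro h
      calc g⁻¹ * k * z = g⁻¹ * (k * z * k⁻¹) * k := by group
        _ = g⁻¹ * (g * z * g⁻¹) * k := by rw [h]
        _ = z * (g⁻¹ * k) := by group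
  obtain ⟨k, -, hk1, hk2, hk3⟩ := isolated_exists_k hz g
  refine ⟨k, ⟨⟨hk1, hk2⟩, (key k).mpr hk3⟩, ?_⟩
  rintro k' ⟨⟨h1, h2⟩, h3⟩
  exact inverted_unique h1 hk1 h2 hk2 (((key k').mp h3).trans hk3.symm)

end Cfsg.Agent.S1185
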