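import Mathlib
import Cfsg.Statements.S1186
import Cfsg.Agent.Lib.Helper8.Isolated2

set_option autoImplicit false
open Cfsg
open Cfsg.Agent.Lib.Helper8

namespace Cfsg.Agent.S1186

/-- Let z be an isolated involution of the finite group G, C = C_G(z), K the set of elements of odd order inverted by z, and s an involution of C. Then |G| = |C| · |C_K(sz)| · |C_K(s)|. -/
theorem result {G : Type*} [Group G] [Finite G] (z : G) (hz : Cfsg.IsIsolatedInvolution z) (s : G) (hs : orderOf s = 2) (hsz : Commute s z) : Nat.card G = Nat.card (Subgroup.centralizer ({z} : Set G)) * Nat.card {k : G // Odd (orderOf k) ∧ z * k * z⁻¹ = k⁻¹ ∧ Commute k (s * z)} * Nat.card {k : G // Odd (orderOf k) ∧ z * k * z⁻¹ = k⁻¹ ∧ Commute k s} := by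
  have hszz : Commute (s * z) z := hsz.mul_left (Commute.refl z)
  rw [card_inverted_commute hz (s * z) hszz, card_inverted_commute hz s hsz, mul_assoc,
    ← card_conjOf_eq_mul hz hs hsz]
  exact card_conjOf_mul_card_centralizer z

end Cfsg.Agent.S1186
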