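import Cfsg.Statements.S1187
import Cfsg.Agent.Lib.Helper17.ZCor2

set_option autoImplicit false
open Cfsg

namespace Cfsg.Agent.S1187

open Cfsg.Agent.Lib.Helper17 in

/-- Let z be an isolated involution of the finite group G and p a prime. If Q is a p-subgroup normalized by z that is maximal among p-subgroups normalized by z, then Q is a Sylow p-subgroup of G. -/
theorem result {G : Type*} [Group G] [Finite G] (z : G) (hz : Cfsg.IsIsolatedInvolution z) {p : ℕ} [Fact p.Prime] (Q : Subgroup G) (hQ : IsPGroup p Q) (hzQ : z ∈ Subgroup.normalizer (Q : Set G)) (hmax : ∀ R : Subgroup G, IsPGroup p R → z ∈ Subgroup.normalizer (R : Set G) → Q ≤ R → R = Q) : ∃ P : Sylow p G, (P : Subgroup G) = Q := by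
  by_cases hp : p = 2
  · subst hp
    have hzp : IsPGroup 2 (Subgroup.zpowers z) :=
      IsPGroup.of_card (n := 1) (by rw [zc_card_zpowers_two hz.1]; rfl)
    have hR : IsPGroup 2 (Subgroup.zpowers z ⊔ Q : Subgroup G) :=
      IsPGroup.to_sup_of_normal_right' hzp hQ (by rw [Subgroup.zpowers_le]; exact hzQ)
    have hzR0 : z ∈ (Subgroup.zpowers z ⊔ Q : Subgroup G) :=
      (le_sup_left : Subgroup.zpowers z ≤ _) (Subgroup.mem_zpowers z)
    have hzR : z ∈ Subgroup.normalizer ((Subgroup.zpowers z ⊔ Q : Subgroup G) : Set G) :=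
      Subgroup.le_normalizer hzR0
    have h1 := hmax _ hR hzR le_sup_right
    have hzQ' : z ∈ Q := by rw [← h1]; exact hzR0
    obtain ⟨P, hP⟩ := hQ.exists_le_sylow
    exact ⟨P, hmax P P.2 (Subgroup.le_normalizer (hP hzQ')) hP⟩
  · obtain ⟨P, hQP, hzP⟩ := zc_exists_invariant_sylow_ge hz hp Q hQ hzQ
    exact ⟨P, hmax P P.2 hzP hQP⟩

end Cfsg.Agent.S1187
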