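import Mathlib
import Cfsg.Statements.S1226
import Cfsg.Agent.Lib.Helper8.PComp
import Cfsg.Agent.Lib.Helper8.StrEmb

set_option autoImplicit false
open Cfsg
open Cfsg.Agent.Lib.Helper8

namespace Cfsg.Agent.S1226

/-- Let G be a finite group with a Sylow 2-subgroup T that is neither cyclic nor normal, such that the centralizer of every involution is an elementary abelian 2-group. Then N_G(T) is a strongly embedded subgroup of G. -/
theorem result {G : Type*} [Group G] [Finite G] (T : Sylow 2 G) (hnc : ¬ IsCyclic (T : Subgroup G)) (hnn : ¬ (T : Subgroup G).Normal) (hC : ∀ t : G, orderOf t = 2 → IsMulCommutative (Subgroup.centralizer ({t} : Set G)) ∧ ∀ c ∈ Subgroup.centralizer ({t} : Set G), c ^ 2 = 1) : Cfsg.IsStronglyEmbedded (Subgroup.normalizer ((T : Subgroup G) : Set G)) := by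
  classical
  -- `T` is nontrivial
  have hT1 : (T : Subgroup G) ≠ ⊥ := by
    intro h
    apply hnc
    rw [h]
    infer_instance
  obtain ⟨t, htT, hto, htc⟩ := exists_central_orderOf_eq T.2 hT1
  -- centralizers of involutions are 2-groups
  have hC2 : ∀ s : G, orderOf s = 2 → IsPGroup 2 (Subgroup.centralizer ({s} : Set G)) := by
    intro s hs c
    refine ⟨1, ?_⟩
    apply Subtype.ext
    simpa using (hC s hs).2 c.1 c.2
  have hTt : Subgroup.centralizer ({t} : Set G) = T := by
    have hle : (T : Subgroup G) ≤ Subgroup.centralizer ({t} : Set G) := by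
      intro x hx
      rw [Subgroup.mem_centralizer_singleton_iff]
      exact htc x hx
    exact (T.3 (hC2 t hto) hle)
  have hTs : ∀ s ∈ (T : Subgroup G), orderOf s = 2 → Subgroup.centralizer ({s} : Set G) = T := by
    intro s hs hso
    have hle : (T : Subgroup G) ≤ Subgroup.centralizer ({s} : Set G) := by
      intro x hx
      rw [Subgroup.mem_centralizer_singleton_iff]
      have hcomm := (hC t hto).1
      rw [hTt] at hcomm
      have := hcomm.is_comm.comm ⟨x, hx⟩ ⟨s, hs⟩
      exact congrArg Subtype.val this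
    exact (T.3 (hC2 s hso) hle)
  -- involutions of the normalizer lie in `T`
  have hinv : ∀ s ∈ Subgroup.normalizer ((T : Subgroup G) : Set G), orderOf s = 2 → s ∈ (T : Subgroup G) := by
    intro s hs hso
    have h1 : IsPGroup 2 (Subgroup.zpowers s) := by
      rw [IsPGroup.iff_card]
      exact ⟨1, by rw [Nat.card_zpowers, hso, pow_one]⟩
    have h2 : IsPGroup 2 ((T : Subgroup G) ⊔ Subgroup.zpowers s : Subgroup G) := by
      apply IsPGroup.to_sup_of_normal_left' T.2 h1
      rw [Subgroup.zpowers_le]
      exact hs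
    have h3 := T.3 h2 le_sup_left
    rw [← h3]
    exact (le_sup_right : Subgroup.zpowers s ≤ _) (Subgroup.mem_zpowers s)
  refine ⟨?_, ?_, ?_⟩
  · intro h
    apply hnn
    exact Subgroup.normalizer_eq_top_iff.mp h
  · rw [even_iff_two_dvd]
    exact two_dvd_card_of_mem hto (Subgroup.le_normalizer htT)
  · intro g hg
    by_contra hodd
    obtain ⟨y, hy, hyo⟩ := exists_invol_of_not_odd hodd
    apply hg
    have hy2 := Subgroup.mem_inf.mp hy
    have h1 := hinv _ hy2.1 hyo
    have h2 : g⁻¹ * y * g ∈ (T : Subgroup G) := hinv _ (mem_conjMap.mp hy2.2) (orderOf_conj_two' hyo g)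
    have h3 := hTs _ h1 hyo
    have h4 := hTs _ h2 (orderOf_conj_two' hyo g)
    rw [← conjMap_eq_iff_mem_normalizer]
    calc (T : Subgroup G).map (MulAut.conj g).toMonoidHom
        = (Subgroup.centralizer ({g⁻¹ * y * g} : Set G)).map (MulAut.conj g).toMonoidHom := by rw [h4]
      _ = Subgroup.centralizer ({y} : Set G) := conjMap_centralizer_singleton_se y g
      _ = T := h3

end Cfsg.Agent.S1226
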