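import Mathlib
import Cfsg.Statements.S1227
import Cfsg.Agent.Lib.Helper8.CIT

set_option autoImplicit false
open Cfsg
open Cfsg.Agent.Lib.Helper8

namespace Cfsg.Agent.S1227

/-- Let G be a finite group with a Sylow 2-subgroup T that is neither cyclic nor normal, such that the centralizer of every involution is an elementary abelian 2-group; put H = N_G(T), let u be an involution outside H and D = H ∩ uHu⁻¹. Then u inverts every element of D, |H| = |T|·(|T| − 1), and D is a complement to T in H. -/
theorem result {G : Type*} [Group G] [Finite G] (T : Sylow 2 G) (hnc : ¬ IsCyclic (T : Subgroup G)) (hnn : ¬ (T : Subgroup G).Normal) (hC : ∀ t : G, orderOf t = 2 → IsMulCommutative (Subgroup.centralizer ({t} : Set G)) ∧ ∀ c ∈ Subgroup.centralizer ({t} : Set G), c ^ 2 = 1) (u : G) (hu : orderOf u = 2) (huH : u ∉ Subgroup.normalizer ((T : Subgroup G) : Set G)) : (∀ d ∈ Subgroup.normalizer ((T : Subgroup G) : Set G) ⊓ (Subgroup.normalizer ((T : Subgroup G) : Set G)).map (MulAut.conj u).toMonoidHom, u * d *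 u⁻¹ = d⁻¹) ∧ Nat.card (Subgroup.normalizer ((T : Subgroup G) : Set G)) = Nat.card T * (Nat.card T - 1) ∧ Subgroup.IsComplement' ((Subgroup.normalizer ((T : Subgroup G) : Set G) ⊓ (Subgroup.normalizer ((T : Subgroup G) : Set G)).map (MulAut.conj u).toMonoidHom).subgroupOf (Subgroup.normalizer ((T : Subgroup G) : Set G))) ((T : Subgroup G).subgroupOf (Subgroup.normalizer ((T : Subgroup G) : Set G))) := by
  have h := cit_CIT T hnc hnn hC
  have hcard := cit_card T hnc hnn hC
  have hxy := (mk_one_ne_mk_iff (Subgroup.normalizer ((T : Subgroup G) : Set G)) u).mpr huH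
  have hux := smul_mk_one (Subgroup.normalizer ((T : Subgroup G) : Set G)) u
  have hcompl : Subgroup.IsComplement' ((Subgroup.normalizer ((T : Subgroup G) : Set G) ⊓ (Subgroup.normalizer ((T : Subgroup G) : Set G)).map (MulAut.conj u).toMonoidHom).subgroupOf (Subgroup.normalizer ((T : Subgroup G) : Set G))) ((T : Subgroup G).subgroupOf (Subgroup.normalizer ((T : Subgroup G) : Set G))) := by
    apply Subgroup.isComplement'_of_disjoint_and_mul_eq_univ
    · rw [disjoint_iff, eq_bot_iff]
      intro g hg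
      obtain ⟨hg1, hg2⟩ := Subgroup.mem_inf.mp hg
      rw [Subgroup.mem_subgroupOf] at hg1 hg2
      rw [mem_inf_conjMap_iff] at hg1
      rw [cit_mem_iff T hnc hC] at hg2
      rw [Subgroup.mem_bot]
      apply Subtype.ext
      exact h.eq_one_of_sq hxy hg2.2 hg1.1 hg1.2
    · rw [Set.eq_univ_iff_forall]
      intro g
      obtain ⟨d, c, hd1, hd2, hc1, hc2, hg⟩ := h.exists_factor hxy ((smul_mk_one_eq_iff _ g.1).mpr g.2)
      rw [Set.mem_mul]
      refine ⟨⟨d, (smul_mk_one_eq_iff _ d).mp hd1⟩, ?_, ⟨c, (smul_mk_one_eq_iff _ c).mp hc1⟩, ?_, ?_⟩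
      · exact (mem_inf_conjMap_iff _ u d).mpr ⟨hd1, hd2⟩
      · exact (cit_mem_iff T hnc hC c).mpr ⟨hc1, hc2⟩
      · apply Subtype.ext
        exact hg.symm
  refine ⟨?_, ?_, hcompl⟩
  · intro d hd
    rw [mem_inf_conjMap_iff] at hd
    exact h.inverts hxy hu hux hd.1 hd.2
  · have h1 := hcompl.card_mul_card
    have h2 : Nat.card ((T : Subgroup G).subgroupOf (Subgroup.normalizer ((T : Subgroup G) : Set G))) = Nat.card T :=
      Nat.card_congr (Subgroup.subgroupOfEquivOfLe Subgroup.le_normalizer).toEquiv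
    have h3 : Nat.card ((Subgroup.normalizer ((T : Subgroup G) : Set G) ⊓ (Subgroup.normalizer ((T : Subgroup G) : Set G)).map (MulAut.conj u).toMonoidHom).subgroupOf (Subgroup.normalizer ((T : Subgroup G) : Set G))) = Nat.card T - 1 := by
      rw [Nat.card_congr (Subgroup.subgroupOfEquivOfLe inf_le_left).toEquiv, hcard, Nat.add_sub_cancel,
        ← h.card_stabilizer_inf hxy]
      apply Nat.card_congr
      apply Equiv.subtypeEquivRight
      intro d
      exact mem_inf_conjMap_iff _ u d
    rw [← h1, h2, h3, mul_comm]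

end Cfsg.Agent.S1227
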