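import Mathlib
import Cfsg.Statements.S1228
import Cfsg.Agent.Lib.Helper8.CIT

set_option autoImplicit false
open Cfsg
open Cfsg.Agent.Lib.Helper8

namespace Cfsg.Agent.S1228

/-- Let G be a finite group with a Sylow 2-subgroup T that is neither cyclic nor normal, such that the centralizer of every involution is an elementary abelian 2-group; put H = N_G(T), let u be an involution outside H and D = H ∩ uHu⁻¹. Then N_G(D) = D ⊔ ⟨u⟩, and a coset gH is fixed by every element of D exactly when gH = H or gH = uH. -/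
theorem result {G : Type*} [Group G] [Finite G] (T : Sylow 2 G) (hnc : ¬ IsCyclic (T : Subgroup G)) (hnn : ¬ (T : Subgroup G).Normal) (hC : ∀ t : G, orderOf t = 2 → IsMulCommutative (Subgroup.centralizer ({t} : Set G)) ∧ ∀ c ∈ Subgroup.centralizer ({t} : Set G), c ^ 2 = 1) (u : G) (hu : orderOf u = 2) (huH : u ∉ Subgroup.normalizer ((T : Subgroup G) : Set G)) : Subgroup.normalizer ((Subgroup.normalizer ((T : Subgroup G) : Set G) ⊓ (Subgroup.normalizer ((T : Subgroup G) : Set G)).map (MulAut.conj u).toMonoidHom : Subgroup G) : Set G) = (Subgroup.normalizer ((T : Subgroup G) : Set G) ⊓ (Subgroup.normalizer ((T : Subgroup G) : Set G)).map (MulAut.conj u).toMonoidHom) ⊔ Subgroup.zpowers u ∧ ∀ g : G, ((∀ d ∈ Subgroup.normalizer ((T : Subgroup G) : Set G) ⊓ (Subgroup.normalizer ((T : Subgroup G) : Set G)).map (MulAut.conj u).toMonoidHom, d • (QuotientGroup.mk g : G ⧸ Subgroup.normalizer ((T : Subgroup G) : Set G)) = QuotientGroup.mk g) ↔ (QuotientGroup.mk g : G ⧸ Subgroup.normalizer ((T : Subgroup G)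 : Set G)) = QuotientGroup.mk 1 ∨ (QuotientGroup.mk g : G ⧸ Subgroup.normalizer ((T : Subgroup G) : Set G)) = QuotientGroup.mk u) := by
  have h := cit_CIT T hnc hnn hC
  have hcard := cit_card T hnc hnn hC
  have h4 := four_le_card_of_not_isCyclic T hnc
  have hxy := (mk_one_ne_mk_iff (Subgroup.normalizer ((T : Subgroup G) : Set G)) u).mpr huH
  have hux := smul_mk_one (Subgroup.normalizer ((T : Subgroup G) : Set G)) u
  have huy : u • (QuotientGroup.mk u : G ⧸ Subgroup.normalizer ((T : Subgroup G) : Set G)) = QuotientGroup.mk 1 :=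
    CIT.swap_symm hu hux
  have huu := sq_of_orderOf_two hu
  generalize hD : Subgroup.normalizer ((T : Subgroup G) : Set G) ⊓ (Subgroup.normalizer ((T : Subgroup G) : Set G)).map (MulAut.conj u).toMonoidHom = D
  have hmem : ∀ d : G, d ∈ D ↔ (d • (QuotientGroup.mk 1 : G ⧸ Subgroup.normalizer ((T : Subgroup G) : Set G)) = QuotientGroup.mk 1 ∧ d • (QuotientGroup.mk u : G ⧸ Subgroup.normalizer ((T : Subgroup G) : Set G)) = QuotientGroup.mk u) := by
    intro d
    rw [← hD]
    exact mem_inf_conjMap_iff _ u d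
  -- a nontrivial element of `D`
  obtain ⟨d₀, hd₀, hd₀1⟩ : ∃ d ∈ D, d ≠ 1 := by
    have h1 := h.card_stabilizer_inf hxy
    have h2 : 1 < Nat.card {d : G // d • (QuotientGroup.mk 1 : G ⧸ Subgroup.normalizer ((T : Subgroup G) : Set G)) = QuotientGroup.mk 1 ∧ d • (QuotientGroup.mk u : G ⧸ Subgroup.normalizer ((T : Subgroup G) : Set G)) = QuotientGroup.mk u} := by
      omega
    rw [Finite.one_lt_card_iff_nontrivial] at h2
    obtain ⟨⟨d, hd⟩, hne⟩ := exists_ne (⟨1, by simp⟩ : {d : G // d • (QuotientGroup.mk 1 : G ⧸ Subgroup.normalizer ((T : Subgroup G) : Set G)) = QuotientGroup.mk 1 ∧ d • (QuotientGroup.mk u : G ⧸ Subgroup.normalizer ((T : Subgroup G) : Set G)) = QuotientGroup.mk u})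
    exact ⟨d, (hmem d).mpr hd, fun hd1 => hne (Subtype.ext hd1)⟩
  have hfix : ∀ p : G ⧸ Subgroup.normalizer ((T : Subgroup G) : Set G), (∀ d ∈ D, d • p = p) ↔ (p = QuotientGroup.mk 1 ∨ p = QuotientGroup.mk u) := by
    intro p
    constructor
    · intro hp
      by_cases hp1 : p = QuotientGroup.mk 1
      · left; exact hp1
      · right
        exact h.eq_of_fix hxy hd₀1 ((hmem d₀).mp hd₀).1 ((hmem d₀).mp hd₀).2 (hp d₀ hd₀) hp1
    · rintro (rfl | rfl) d hd
      · exact ((hmem d).mp hd).1
      · exact ((hmem d).mp hd).2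
  refine ⟨?_, fun g => hfix _⟩
  apply le_antisymm
  · intro g hg
    have hconj : ∀ d ∈ D, g⁻¹ * d * g ∈ D := by
      intro d hd
      have := (Subgroup.mem_normalizer_iff.mp (Subgroup.inv_mem _ hg) d).mp hd
      simpa using this
    have hperm : ∀ p : G ⧸ Subgroup.normalizer ((T : Subgroup G) : Set G), (∀ d ∈ D, d • p = p) → (∀ d ∈ D, d • (g • p) = g • p) := by
      intro p hp d hd
      have : d • g • p = g • ((g⁻¹ * d * g) • p) := by
        rw [smul_smul, smul_smul]; congr 1; group
      rw [this, hp _ (hconj d hd)]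
    have h1 := (hfix _).mp (hperm _ ((hfix _).mpr (Or.inl rfl)))
    have h2 := (hfix _).mp (hperm _ ((hfix _).mpr (Or.inr rfl)))
    have hne : g • (QuotientGroup.mk 1 : G ⧸ Subgroup.normalizer ((T : Subgroup G) : Set G)) ≠ g • QuotientGroup.mk u :=
      fun hh => hxy (smul_left_cancel g hh)
    rcases h1 with h1 | h1
    · have h2' : g • (QuotientGroup.mk u : G ⧸ Subgroup.normalizer ((T : Subgroup G) : Set G)) = QuotientGroup.mk u := by
        rcases h2 with h2 | h2
        · exact absurd (h1.trans h2.symm) hne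
        · exact h2
      exact (le_sup_left : D ≤ _) ((hmem g).mpr ⟨h1, h2'⟩)
    · have h2' : g • (QuotientGroup.mk u : G ⧸ Subgroup.normalizer ((T : Subgroup G) : Set G)) = QuotientGroup.mk 1 := by
        rcases h2 with h2 | h2
        · exact h2
        · exact absurd (h1.trans h2.symm) hne
      have h3 : u * g ∈ D := by
        rw [hmem]
        constructor
        · rw [mul_smul, h1, huy]
        · rw [mul_smul, h2', hux]
      have h4 : g = u * (u * g) := by rw [← mul_assoc, huu, one_mul]
      rw [h4, sup_comm]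
      exact Subgroup.mul_mem_sup (Subgroup.mem_zpowers u) h3
  · apply sup_le Subgroup.le_normalizer
    rw [Subgroup.zpowers_le]
    apply mem_normalizer_of_conj_mem
    intro d hd
    rw [h.inverts hxy hu hux ((hmem d).mp hd).1 ((hmem d).mp hd).2]
    exact Subgroup.inv_mem _ hd

end Cfsg.Agent.S1228
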