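import Mathlib
import Cfsg.Statements.S1229
import Cfsg.Agent.Lib.Helper8.CIT

set_option autoImplicit false
open Cfsg
open Cfsg.Agent.Lib.Helper8

namespace Cfsg.Agent.S1229

/-- Let G be a finite group with a Sylow 2-subgroup T that is neither cyclic nor normal, such that the centralizer of every involution is an elementary abelian 2-group; put H = N_G(T) and X = G/H. Then G is triply transitive on X, an element fixing three distinct points of X is the identity, and T acts regularly on X minus the point H. -/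
theorem result {G : Type*} [Group G] [Finite G] (T : Sylow 2 G) (hnc : ¬ IsCyclic (T : Subgroup G)) (hnn : ¬ (T : Subgroup G).Normal) (hC : ∀ t : G, orderOf t = 2 → IsMulCommutative (Subgroup.centralizer ({t} : Set G)) ∧ ∀ c ∈ Subgroup.centralizer ({t} : Set G), c ^ 2 = 1) : (∀ x₁ x₂ x₃ y₁ y₂ y₃ : G ⧸ Subgroup.normalizer ((T : Subgroup G) : Set G), x₁ ≠ x₂ → x₁ ≠ x₃ → x₂ ≠ x₃ → y₁ ≠ y₂ → y₁ ≠ y₃ → y₂ ≠ y₃ → ∃ g : G, g • x₁ = y₁ ∧ g • x₂ = y₂ ∧ g • x₃ = y₃) ∧ (∀ g : G, ∀ x₁ x₂ x₃ : G ⧸ Subgroup.normalizer ((T : Subgroup G) : Set G), x₁ ≠ x₂ → x₁ ≠ x₃ → x₂ ≠ x₃ → g • x₁ = x₁ → g • x₂ = x₂ → g • x₃ = x₃ → g = 1) ∧ (∀ x y : G ⧸ Subgroup.normalizer ((T : Subgroup G) : Set G), x ≠ QuotientGroup.mk 1 → y ≠ QuotientGroup.mk 1 → ∃! t : G, t ∈ T ∧ t • x = y) := by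
  have h := cit_CIT T hnc hnn hC
  have hcard := cit_card T hnc hnn hC
  have h4 := four_le_card_of_not_isCyclic T hnc
  have hm : 2 ≤ Nat.card {t : G // orderOf t = 2 ∧
      t • (QuotientGroup.mk 1 : G ⧸ Subgroup.normalizer ((T : Subgroup G) : Set G)) = QuotientGroup.mk 1} := by
    omega
  refine ⟨?_, ?_, ?_⟩
  · intro x₁ x₂ x₃ y₁ y₂ y₃ a b c d e f
    exact h.three_trans _ hm x₁ x₂ x₃ y₁ y₂ y₃ a b c d e f
  · intro g x₁ x₂ x₃ a b c h1 h2 h3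
    exact h.eq_one_of_fix_three a b c h1 h2 h3
  · intro x y hx hy
    obtain ⟨c, hc1, hc2, hc3⟩ := h.exists_sq_smul_eq (Ne.symm hx) (Ne.symm hy) hm
    refine ⟨c, ⟨(cit_mem_iff T hnc hC c).mpr ⟨hc1, hc2⟩, hc3⟩, ?_⟩
    rintro c' ⟨hc'T, hc'⟩
    obtain ⟨h1, h2⟩ := (cit_mem_iff T hnc hC c').mp hc'T
    exact h.smul_injective_of_sq (Ne.symm hx) h1 h2 hc1 hc2 (hc'.trans hc3.symm)

end Cfsg.Agent.S1229
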