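import Mathlib
import Cfsg.Statements.S1231
import Cfsg.Agent.Lib.Helper8.Rank

set_option autoImplicit false
open Cfsg
open Cfsg.Agent.Lib.Helper8

namespace Cfsg.Agent.S1231

/-- Let H be a subgroup of the finite group G, p a prime, k ≥ 1, and P a Sylow p-subgroup of H whose p-rank is at least k. Then N_G(X) ≤ H for every subgroup X of P of p-rank at least k if and only if H ∩ gHg⁻¹ has p-rank less than k for every g ∉ H. -/
theorem result {G : Type*} [Group G] [Finite G] {p : ℕ} [Fact p.Prime] (k : ℕ) (hk : 1 ≤ k) (H : Subgroup G) (P : Sylow p ↥H) (hP : ¬ Cfsg.PRankLE p (k - 1) ↥(P : Subgroup ↥H)) : (∀ X : Subgroup G, X ≤ (P : Subgroup ↥H).map H.subtype → ¬ Cfsg.PRankLE p (k - 1) ↥X → Subgroup.normalizer (X : Set G) ≤ H) ↔ (∀ g : G, g ∉ H → Cfsg.PRankLE p (k - 1) ↥(H ⊓ H.map (MulAut.conj g).toMonoidHom)) := by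
  have hP' : BigRank p (k - 1) ((P : Subgroup ↥H).map H.subtype) :=
    ((not_pRankLE_iff p (k - 1) (P : Subgroup ↥H)).mp hP).map_injective H.subtype H.subtype_injective
  have hPp := isPGroup_sylow_map_subtype P
  generalize hP'def : (P : Subgroup ↥H).map H.subtype = P' at hP' hPp
  constructor
  · intro hN g hg
    by_contra hbig
    rw [not_pRankLE_iff] at hbig
    obtain ⟨A, hA0, hA1, hA2, hA3⟩ := hbig
    have hAp : IsPGroup p A := by
      intro a
      refine ⟨1, ?_⟩
      apply Subtype.ext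
      simpa using hA2 a.1 a.2
    obtain ⟨U, hU⟩ := exists_maximal_of_wellFoundedGT
      (fun U : Subgroup G => IsPGroup p U ∧ A ≤ U ∧ U ≤ H ⊓ H.map (MulAut.conj g).toMonoidHom)
      ⟨A, hAp, le_rfl, hA0⟩
    obtain ⟨⟨hUp, hAU, hUle⟩, hUmax⟩ := hU
    have hUbig : BigRank p (k - 1) U := ⟨A, hAU, hA1, hA2, hA3⟩
    have hUH : U ≤ H := hUle.trans inf_le_left
    have hUg : U.map (MulAut.conj g⁻¹).toMonoidHom ≤ H := by
      rintro _ ⟨x, hx, rfl⟩
      have := mem_conjMap.mp (hUle hx).2
      simpa using this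
    obtain ⟨c, hc, hcU⟩ := exists_conj_le_sylow P hUp hUH
    obtain ⟨c', hc', hc'U⟩ := exists_conj_le_sylow P (isPGroup_conjMap hUp g⁻¹) hUg
    rw [hP'def] at hcU hc'U
    rw [conjMap_conjMap] at hc'U
    have hN1 := hN _ hcU ((not_pRankLE_iff _ _ _).mpr (hUbig.conj c))
    have hN2 := hN _ hc'U ((not_pRankLE_iff _ _ _).mpr (hUbig.conj (c' * g⁻¹)))
    have hNU : Subgroup.normalizer (U : Set G) ≤ H ⊓ H.map (MulAut.conj g).toMonoidHom := by
      intro x hx
      apply Subgroup.mem_inf.mpr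
      constructor
      · have h1 := hN1 (conj_mem_normalizer_conjMap hx c)
        have h2 : x = c⁻¹ * (c * x * c⁻¹) * c := by group
        rw [h2]
        exact H.mul_mem (H.mul_mem (H.inv_mem hc) h1) hc
      · rw [mem_conjMap]
        have h1 := hN2 (conj_mem_normalizer_conjMap hx (c' * g⁻¹))
        have h2 : g⁻¹ * x * g = c'⁻¹ * (c' * g⁻¹ * x * (c' * g⁻¹)⁻¹) * c' := by group
        rw [h2]
        exact H.mul_mem (H.mul_mem (H.inv_mem hc') h1) hc'
    -- a conjugate of `U` inside `P'` is all of `P'`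
    have key : ∀ e : G, U.map (MulAut.conj e).toMonoidHom ≤ P' → U.map (MulAut.conj e).toMonoidHom = P' := by
      intro e he
      by_contra hne
      have hlt := exists_lt_le_normalizer hPp (lt_of_le_of_ne he hne)
      set V := P' ⊓ Subgroup.normalizer ((U.map (MulAut.conj e).toMonoidHom : Subgroup G) : Set G) with hV
      have hVp : IsPGroup p V := hPp.to_le inf_le_left
      have h1 : U ≤ V.map (MulAut.conj e⁻¹).toMonoidHom := by
        have := conjMap_mono e⁻¹ hlt.le
        rwa [conjMap_conjMap, inv_mul_cancel, conjMap_one] at this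
      have h2 : V.map (MulAut.conj e⁻¹).toMonoidHom ≤ Subgroup.normalizer (U : Set G) := by
        rintro _ ⟨x, hx, rfl⟩
        have := conj_mem_normalizer_conjMap (Subgroup.mem_inf.mp hx).2 e⁻¹
        rwa [conjMap_conjMap, inv_mul_cancel, conjMap_one] at this
      have h3 := hUmax ⟨isPGroup_conjMap hVp e⁻¹, hAU.trans h1, h2.trans hNU⟩ h1
      have h4 := conjMap_mono e h3
      rw [conjMap_conjMap, mul_inv_cancel, conjMap_one] at h4
      exact absurd hlt (not_lt_of_ge h4)
    have e1 := key c hcU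
    have e2 := key _ hc'U
    apply hg
    have h5 : c * g * c'⁻¹ ∈ Subgroup.normalizer (P' : Set G) := by
      rw [← conjMap_eq_iff_mem_normalizer]
      nth_rewrite 1 [← e2]
      rw [conjMap_conjMap]
      have : c * g * c'⁻¹ * (c' * g⁻¹) = c := by group
      rw [this, e1]
    have h6 := hN P' (hP'def ▸ le_rfl) ((not_pRankLE_iff _ _ _).mpr hP') h5
    have h7 : g = c⁻¹ * (c * g * c'⁻¹) * c' := by group
    rw [h7]
    exact H.mul_mem (H.mul_mem (H.inv_mem hc) h6) hc'
  · intro hH X hX hXbig g hg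
    by_contra hgH
    apply hXbig
    have h1 := hH g hgH
    by_contra h2
    rw [not_pRankLE_iff] at h2
    apply (not_pRankLE_iff p (k - 1) _).mpr _ h1
    apply h2.mono
    have hXH : X ≤ H := hX.trans (hP'def ▸ Subgroup.map_subtype_le _)
    apply le_inf hXH
    rw [← conjMap_eq_iff_mem_normalizer] at hg
    rw [← hg]
    exact conjMap_mono g hXH

end Cfsg.Agent.S1231
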