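import Cfsg.Statements.S1236
import Cfsg.Agent.Lib.Helper4.Basic

set_option autoImplicit false
open Cfsg

namespace Cfsg.Agent.S1236

open Cfsg.Agent.Lib.Helper4 DihedralGroup

/-- a cyclic group of exponent two has order at most two -/
theorem card_le_two {D : Type*} [Group D] [Finite D] [IsCyclic D] (h : ∀ d : D, d * d = 1) :
    Nat.card D ≤ 2 := by
  obtain ⟨g, hg⟩ := IsCyclic.exists_generator (α := D)
  rw [← orderOf_eq_card_of_forall_mem_zpowers hg]
  exact Nat.le_of_dvd (by norm_num) (orderOf_dvd_of_pow_eq_one (by rw [pow_two]; exact h g))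

theorem lemE {Q : Type*} [Group Q] [Finite Q] (C : Subgroup Q) (hC : IsCyclic C) (hidx : C.index = 2)
    (hH : ∀ w, w ∉ C → ∀ c ∈ C, w * c = c * w → c * c = 1)
    (V : Subgroup Q) (hV4 : Nat.card V = 4) (hV2 : ∀ v ∈ V, v * v = 1) :
    Subgroup.centralizer (V : Set Q) ≤ V := by
  have hCn : C.Normal := Subgroup.normal_of_index_eq_two hidx
  -- an element of V outside C
  have hw : ∃ w ∈ V, w ∉ C := by
    by_contra hcon
    push Not at hcon
    have hVC : V ≤ C := hcon
    have : IsCyclic V :=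
      isCyclic_of_injective (Subgroup.inclusion hVC) (Subgroup.inclusion_injective hVC)
    have h1 := card_le_two (D := V) (fun d => Subtype.ext (hV2 d d.2))
    omega
  obtain ⟨w, hwV, hwC⟩ := hw
  -- the centralizer of w has order at most 4
  have h1 := card_eq_inf_mul_relIndex (Subgroup.centralizer {w}) C
  have h2 : C.relIndex (Subgroup.centralizer {w}) ≤ 2 :=
    Nat.le_of_dvd (by norm_num) (hidx ▸ Subgroup.relIndex_dvd_index_of_normal C _)
  have h3 : Nat.card (Subgroup.centralizer {w} ⊓ C : Subgroup Q) ≤ 2 := by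
    have : IsCyclic (Subgroup.centralizer {w} ⊓ C : Subgroup Q) :=
      isCyclic_of_injective (Subgroup.inclusion (inf_le_right : Subgroup.centralizer {w} ⊓ C ≤ C))
        (Subgroup.inclusion_injective _)
    apply card_le_two
    rintro ⟨d, hd1, hd2⟩
    apply Subtype.ext
    exact hH w hwC d hd2 (Subgroup.mem_centralizer_singleton_iff.1 hd1).symm
  have h4 : Nat.card (Subgroup.centralizer {w}) ≤ 4 := by
    rw [h1]
    calc _ ≤ 2 * 2 := Nat.mul_le_mul h3 h2
      _ = 4 := by norm_num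
  -- V is abelian
  have hcomm : ∀ a ∈ V, ∀ b ∈ V, a * b = b * a := by
    intro a ha b hb
    have e1 := hV2 a ha
    have e2 := hV2 b hb
    have e3 := hV2 (a * b) (V.mul_mem ha hb)
    have ia : a⁻¹ = a := inv_eq_of_mul_eq_one_left e1
    have ib : b⁻¹ = b := inv_eq_of_mul_eq_one_left e2
    have iab : (a * b)⁻¹ = a * b := inv_eq_of_mul_eq_one_left e3
    calc a * b = (a * b)⁻¹ := iab.symm
      _ = b⁻¹ * a⁻¹ := mul_inv_rev a b
      _ = b * a := by rw [ia, ib]
  have h5 : V ≤ Subgroup.centralizer {w} := by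
    intro v hv
    rw [Subgroup.mem_centralizer_singleton_iff]
    exact hcomm v hv w hwV
  have h6 : V = Subgroup.centralizer {w} :=
    Subgroup.eq_of_le_of_card_ge h5 (by rw [hV4]; exact h4)
  intro c hc
  rw [h6, Subgroup.mem_centralizer_singleton_iff]
  exact (Subgroup.mem_centralizer_iff.1 hc w hwV).symm

theorem dihedral_case (m : ℕ) (hm : 2 ≤ m) (V : Subgroup (DihedralGroup m)) (hV4 : Nat.card V = 4)
    (hV2 : ∀ v ∈ V, v * v = 1) : Subgroup.centralizer (V : Set (DihedralGroup m)) ≤ V := by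
  have : NeZero m := ⟨by omega⟩
  have hmem : ∀ i : ZMod m, r i ∈ Subgroup.zpowers (r 1 : DihedralGroup m) := by
    intro i
    refine ⟨(i.val : ℤ), ?_⟩
    show (r 1 : DihedralGroup m) ^ (i.val : ℤ) = r i
    rw [r_one_zpow]
    congr 1
    simp
  have hidx : (Subgroup.zpowers (r 1 : DihedralGroup m)).index = 2 := by
    have h1 := (Subgroup.zpowers (r 1 : DihedralGroup m)).card_mul_index
    rw [Nat.card_zpowers, orderOf_r_one, nat_card, mul_comm 2 m] at h1
    exact Nat.eq_of_mul_eq_mul_left (by omega) h1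
  apply lemE (Subgroup.zpowers (r 1 : DihedralGroup m)) inferInstance hidx ?_ V hV4 hV2
  intro w hw c hc hwc
  obtain ⟨k, rfl⟩ := hc
  rcases w with i | j
  · exact absurd (hmem i) hw
  · simp only [r_one_zpow, sr_mul_r, r_mul_sr, r_mul_r] at hwc ⊢
    have h1 : j + (k : ZMod m) = j - k := by simpa using hwc
    have h2 : (k : ZMod m) + k = 0 := by linear_combination h1
    rw [h2]; rfl

theorem dihedral_case' {Q : Type*} [Group Q] (m : ℕ) (hm : 2 ≤ m) (e : Q ≃* DihedralGroup m)
    (V : Subgroup Q) (hV4 : Nat.card V = 4)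
    (hV2 : ∀ v ∈ V, v * v = 1) : Subgroup.centralizer (V : Set Q) ≤ V := by
  have h1 := dihedral_case m hm (V.map e.toMonoidHom)
    (by rw [Subgroup.card_map_of_injective e.injective]; exact hV4)
    (by
      rintro _ ⟨v, hv, rfl⟩
      show e v * e v = 1
      rw [← map_mul, hV2 v hv, map_one])
  intro c hc
  have h2 : e c ∈ Subgroup.centralizer ((V.map e.toMonoidHom : Subgroup _) : Set (DihedralGroup m)) := by
    rw [Subgroup.mem_centralizer_iff]
    rintro _ ⟨v, hv, rfl⟩
    show e v * e c = e c * e v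
    rw [← map_mul, ← map_mul, Subgroup.mem_centralizer_iff.1 hc v hv]
  obtain ⟨v, hv, hvc⟩ := h1 h2
  have h3 : v = c := e.injective hvc
  rw [← h3]; exact hv

theorem qd_case {Q : Type*} [Group Q] [Finite Q] (hQ : Cfsg.IsQuasiDihedral Q)
    (V : Subgroup Q) (hV4 : Nat.card V = 4)
    (hV2 : ∀ v ∈ V, v * v = 1) : Subgroup.centralizer (V : Set Q) ≤ V := by
  obtain ⟨n, hn, hcard, x, y, hx, hy, hyx⟩ := hQ
  have hidx : (Subgroup.zpowers x).index = 2 := by
    have h1 := (Subgroup.zpowers x).card_mul_index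
    rw [Nat.card_zpowers, hx, hcard, pow_succ] at h1
    exact Nat.eq_of_mul_eq_mul_left (by positivity) h1
  obtain ⟨n', rfl⟩ : ∃ n', n = n' + 3 := ⟨n - 3, by omega⟩
  -- key: c ^ s = c implies c * c = 1 for c in the cyclic subgroup
  have key : ∀ c ∈ Subgroup.zpowers x, c ^ (2 ^ (n' + 3 - 1) - 1) = c → c * c = 1 := by
    intro c hc hcs
    have h1 : orderOf c ∣ 2 ^ (n' + 3) := by
      rw [← hx]; exact orderOf_dvd_of_mem_zpowers hc
    obtain ⟨j, -, hj⟩ := (Nat.dvd_prime_pow Nat.prime_two).1 h1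
    have h2 : c ^ (2 ^ (n' + 3 - 1) - 2) = 1 := by
      have h3 : 2 ^ (n' + 3 - 1) - 1 = (2 ^ (n' + 3 - 1) - 2) + 1 := by
        have : 4 ≤ 2 ^ (n' + 3 - 1) := by
          have e1 : n' + 3 - 1 = n' + 2 := by omega
          rw [e1, pow_add]
          have : 1 ≤ 2 ^ n' := Nat.one_le_two_pow
          omega
        omega
      rw [h3, pow_succ] at hcs
      exact mul_eq_right.1 hcs
    have h4 : orderOf c ∣ 2 ^ (n' + 3 - 1) - 2 := orderOf_dvd_of_pow_eq_one h2
    have hj1 : j ≤ 1 := by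
      by_contra hcon
      push Not at hcon
      have h5 : 4 ∣ orderOf c := by
        rw [hj]
        exact (by norm_num : (4 : ℕ) = 2 ^ 2) ▸ pow_dvd_pow 2 hcon
      have h6 : 4 ∣ 2 ^ (n' + 3 - 1) - 2 := h5.trans h4
      have e1 : n' + 3 - 1 = n' + 2 := by omega
      rw [e1, pow_add] at h6
      have : 1 ≤ 2 ^ n' := Nat.one_le_two_pow
      omega
    have h7 : orderOf c ∣ 2 := by
      rw [hj]
      exact (pow_dvd_pow 2 hj1).trans (by norm_num)
    rw [← pow_two]
    exact orderOf_dvd_iff_pow_eq_one.1 h7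
  have hyC : y ∉ Subgroup.zpowers x := by
    intro hy'
    have h1 : y * x = x * y := by
      obtain ⟨k, rfl⟩ := hy'
      exact ((Commute.refl x).zpow_left k)
    have h2 : x ^ (2 ^ (n' + 3 - 1) - 1) = x := by
      rw [← hyx, h1, mul_inv_cancel_right]
    have h3 := key x (Subgroup.mem_zpowers x) h2
    have h4 : orderOf x ∣ 2 := orderOf_dvd_of_pow_eq_one (by rw [pow_two]; exact h3)
    rw [hx] at h4
    have h5 := Nat.le_of_dvd (by norm_num) h4
    have : 2 ^ (n' + 3) = 8 * 2 ^ n' := by rw [pow_add]; ring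
    have : 1 ≤ 2 ^ n' := Nat.one_le_two_pow
    omega
  apply lemE (Subgroup.zpowers x) inferInstance hidx ?_ V hV4 hV2
  intro w hw c hc hwc
  apply key c hc
  -- w = y * d with d in the cyclic group
  have hd : y⁻¹ * w ∈ Subgroup.zpowers x := by
    rw [Subgroup.mul_mem_iff_of_index_two hidx, Subgroup.inv_mem_iff]
    exact ⟨fun h => absurd h hyC, fun h => absurd h hw⟩
  have hdc : (y⁻¹ * w) * c = c * (y⁻¹ * w) := by
    obtain ⟨k, hk⟩ := hd
    obtain ⟨l, rfl⟩ := hc
    rw [← hk]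
    exact ((Commute.refl x).zpow_zpow k l)
  have hyc : y * c * y⁻¹ = c := by
    have h1 : y * c = c * y := by
      have e1 : w = y * (y⁻¹ * w) := by group
      rw [e1] at hwc
      -- y d c = c y d, d c = c d
      have e2 : y * (c * (y⁻¹ * w)) = c * (y * (y⁻¹ * w)) := by
        rw [← hdc, ← mul_assoc]; exact hwc
      have e3 : y * c * (y⁻¹ * w) = c * y * (y⁻¹ * w) := by
        rw [mul_assoc, e2, mul_assoc]
      exact mul_right_cancel e3
    rw [h1, mul_inv_cancel_right]
  obtain ⟨l, rfl⟩ := hc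
  have h2 : y * x ^ l * y⁻¹ = (x ^ l) ^ (2 ^ (n' + 3 - 1) - 1) := by
    rw [← conj_zpow, hyx, ← zpow_natCast, ← zpow_natCast, ← zpow_mul, ← zpow_mul, mul_comm]
  show (x ^ l) ^ (2 ^ (n' + 3 - 1) - 1) = x ^ l
  rw [← h2]; exact hyc

/-- Let R be a finite group, t a central involution of R such that R ⧸ ⟨t⟩ is dihedral (of order ≥ 4) or quasi-dihedral, and A ≤ R an elementary abelian subgroup of order 8 containing t. Then C_R(A) = A. -/
theorem result {R : Type*} [Group R] [Finite R] (t : R) (ht : orderOf t = 2) (htz : t ∈ Subgroup.center R) [(Subgroup.zpowers t).Normal] (hq : (∃ m : ℕ, 2 ≤ m ∧ Nonempty (R ⧸ Subgroup.zpowers t ≃* DihedralGroup m)) ∨ Cfsg.IsQuasiDihedral (R ⧸ Subgroup.zpowers t)) (A : Subgroup R) (hA : Cfsg.IsElementaryAbelian 2 A) (hA8 : Nat.card A = 8) (htA : t ∈ A) : Subgroup.centralizer (A : Set R) = A := by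
  obtain ⟨hAc, hA2⟩ := hA
  have hcomm : ∀ a ∈ A, ∀ b ∈ A, a * b = b * a := (isMulCommutative_iff A).1 hAc
  have hZA : Subgroup.zpowers t ≤ A := Subgroup.zpowers_le.2 htA
  have hV4 : Nat.card (A.map (QuotientGroup.mk' (Subgroup.zpowers t))) = 4 := by
    have h1 := Subgroup.relIndex_ker (K := A) (QuotientGroup.mk' (Subgroup.zpowers t))
    rw [QuotientGroup.ker_mk'] at h1
    have h2 := card_eq_inf_mul_relIndex A (Subgroup.zpowers t)
    rw [inf_eq_right.2 hZA, Nat.card_zpowers, ht, hA8] at h2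
    rw [← h1]; omega
  have hV2 : ∀ v ∈ A.map (QuotientGroup.mk' (Subgroup.zpowers t)), v * v = 1 := by
    rintro _ ⟨a, ha, rfl⟩
    rw [← map_mul, ← pow_two, hA2 a ha, map_one]
  have hcent : Subgroup.centralizer
      ((A.map (QuotientGroup.mk' (Subgroup.zpowers t)) : Subgroup _) : Set (R ⧸ Subgroup.zpowers t)) ≤
      A.map (QuotientGroup.mk' (Subgroup.zpowers t)) := by
    rcases hq with ⟨m, hm, ⟨e⟩⟩ | hqd
    · exact dihedral_case' m hm e _ hV4 hV2
    · exact qd_case hqd _ hV4 hV2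
  apply le_antisymm
  · intro c hc
    have h1 : QuotientGroup.mk' (Subgroup.zpowers t) c ∈ Subgroup.centralizer
        ((A.map (QuotientGroup.mk' (Subgroup.zpowers t)) : Subgroup _) :
          Set (R ⧸ Subgroup.zpowers t)) := by
      rw [Subgroup.mem_centralizer_iff]
      rintro _ ⟨a, ha, rfl⟩
      rw [← map_mul, ← map_mul, Subgroup.mem_centralizer_iff.1 hc a ha]
    obtain ⟨a, ha, hac⟩ := hcent h1
    have h2 : a⁻¹ * c ∈ Subgroup.zpowers t := QuotientGroup.eq.1 hac
    have h3 : c = a * (a⁻¹ * c) := by group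
    rw [h3]; exact A.mul_mem ha (hZA h2)
  · intro a ha
    rw [Subgroup.mem_centralizer_iff]
    intro b hb
    exact hcomm b hb a ha

end Cfsg.Agent.S1236
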