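import Mathlib
import Cfsg.Statements.S1239
import Cfsg.Agent.Lib.Helper8.WFus2
import Cfsg.Agent.Lib.Helper2.ZStarGen
import Cfsg.Agent.Lib.Helper2.ZStar

set_option autoImplicit false
open Cfsg
open Cfsg.Agent.Lib.Helper8

namespace Cfsg.Agent.S1239

/-- Let X be a finite group whose Sylow 2-subgroup S is quasi-dihedral or wreathed, and suppose some involution of S is isolated in X. Then the product of the largest normal odd-order subgroup O(X) with the centre of S is normal in X. -/
theorem result {X : Type*} [Group X] [Finite X] (S : Sylow 2 X) (hS : Cfsg.IsQuasiDihedral (S : Subgroup X) ∨ Cfsg.IsWreathed (S : Subgroup X)) (z : X) (hzS : z ∈ S) (hz : Cfsg.IsIsolatedInvolution z) : (Cfsg.oddCore X ⊔ (Subgroup.center (S : Subgroup X)).map (S : Subgroup X).subtype).Normal := by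
  haveI : Fact (Nat.Prime 2) := ⟨Nat.prime_two⟩
  have hz1 : z ≠ 1 := by
    intro h
    have := hz.1
    rw [h, orderOf_one] at this
    omega
  have hzz : z * z = 1 := by
    have := pow_orderOf_eq_one z
    rwa [hz.1, pow_two] at this
  -- elements of `S ∩ O(X)` are trivial
  have htriv : ∀ a ∈ S, a ∈ Cfsg.oddCore X → a = 1 := by
    intro a haS haO
    obtain ⟨k, hk⟩ := (IsPGroup.iff_orderOf.mp S.2) ⟨a, haS⟩
    rw [Subgroup.orderOf_mk] at hk
    have h2 : orderOf a ∣ Nat.card (Cfsg.oddCore X) := by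
      have := orderOf_dvd_natCard (⟨a, haO⟩ : Cfsg.oddCore X)
      rwa [Subgroup.orderOf_mk] at this
    have h3 : Nat.Coprime (2 ^ k) (Nat.card (Cfsg.oddCore X)) :=
      Nat.Coprime.pow_left k (Nat.coprime_two_left.mpr Cfsg.Agent.Lib.Helper2.odd_card_oddCore)
    have h4 : orderOf a = 1 := Nat.eq_one_of_dvd_coprimes h3 (hk ▸ dvd_rfl) h2
    exact orderOf_eq_one_iff.mp h4
  have hzc : ∀ s ∈ S, s * z = z * s := by
    intro s hs
    have h1 := Cfsg.Agent.Lib.Helper2.zstar_isolatedInvolution hz s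
    have h2 := htriv _ (S.mul_mem (S.mul_mem (S.mul_mem hs hzS) (S.inv_mem hs)) (S.inv_mem hzS)) h1
    calc s * z = (s * z * s⁻¹ * z⁻¹) * z * s := by group
      _ = z * s := by rw [h2, one_mul]
  have hzcen : (⟨z, hzS⟩ : (S : Subgroup X)) ∈ Subgroup.center (S : Subgroup X) := by
    rw [Subgroup.mem_center_iff]
    rintro ⟨s, hs⟩
    exact Subtype.ext (hzc s hs)
  -- every element of `Z(S)` is central modulo the core
  have hstar : ∀ u ∈ (Subgroup.center (S : Subgroup X)).map (S : Subgroup X).subtype,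
      Cfsg.InZStar 2 u := by
    rcases hS with hS | hS
    · obtain ⟨k, x, y, h⟩ := exists_qdat hS
      have hc2 : (x ^ (4 * 2 ^ k : ℤ)) * (x ^ (4 * 2 ^ k : ℤ)) = 1 := by
        have := pow_orderOf_eq_one (x ^ (4 * (2 ^ k : ℕ) : ℤ))
        rw [h.orderOf_z, pow_two] at this
        exact_mod_cast this
      have hcases : ∀ a ∈ Subgroup.center (S : Subgroup X), a = 1 ∨ a = x ^ (4 * 2 ^ k : ℤ) := by
        intro a ha
        rw [h.center_eq] at ha
        obtain ⟨i, rfl⟩ := Subgroup.mem_zpowers_iff.mp ha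
        push_cast
        rcases Int.even_or_odd' i with ⟨j, rfl | rfl⟩
        · left
          rw [zpow_mul, zpow_two, hc2, one_zpow]
        · right
          rw [zpow_add, zpow_mul, zpow_two, hc2, one_zpow, one_mul, zpow_one]
      have hzx : (⟨z, hzS⟩ : (S : Subgroup X)) = x ^ (4 * 2 ^ k : ℤ) := by
        rcases hcases _ hzcen with e | e
        · exact absurd (congrArg Subtype.val e) hz1
        · exact e
      rintro _ ⟨u, hu, rfl⟩
      rcases hcases u hu with rfl | rfl
      · intro g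
        simp
      · rw [← hzx]
        exact Cfsg.Agent.Lib.Helper2.zstar hz.1 hz.2
    · obtain ⟨k, x, y, t, h⟩ := exists_wdat hS
      have f := wfus_of_wdat (S : Subgroup X) h
      have hzx : ((x ^ ((2 ^ (k + 1) : ℕ) : ℤ) * y ^ ((2 ^ (k + 1) : ℕ) : ℤ) : S) : X) = z := by
        rcases h.center_sq _ hzcen (Subtype.ext hzz) with e | e
        · exact absurd (congrArg Subtype.val e) hz1
        · exact (congrArg Subtype.val e).symm
      rw [hzx] at f
      have hmain : ∀ u ∈ (Subgroup.center (S : Subgroup X)).map (S : Subgroup X).subtype,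
          ∀ g : X, g * u * g⁻¹ ∈ S → g * u * g⁻¹ = u := by
        rintro _ ⟨u, hu, rfl⟩ g hg
        obtain ⟨n, hn⟩ := S.2 u
        refine f.main hz n _ u.2 ?_ (congrArg Subtype.val hn) g hg
        intro s hs
        exact congrArg Subtype.val (Subgroup.mem_center_iff.mp hu ⟨s, hs⟩)
      intro u hu
      refine Cfsg.Agent.Lib.Helper2.zstar_general S ((Subgroup.map_subtype_le _) hu) ?_
      intro j g
      exact hmain _ (Subgroup.pow_mem _ hu j) g
  -- normality
  haveI hON : (Cfsg.oddCore X).Normal := Cfsg.pPrimeCore_normal 2 X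
  refine ⟨?_⟩
  intro n hn g
  obtain ⟨o, ho, c, hc, rfl⟩ := Subgroup.mem_sup_of_normal_left.mp hn
  have e : g * (o * c) * g⁻¹ = (g * o * g⁻¹) * (g * c * g⁻¹ * c⁻¹) * c := by group
  rw [e]
  exact Subgroup.mul_mem _ (Subgroup.mem_sup_left
    (Subgroup.mul_mem _ (hON.conj_mem o ho g) (hstar c hc g))) (Subgroup.mem_sup_right hc)

end Cfsg.Agent.S1239
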