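import Mathlib
import Cfsg.Statements.S1241
import Cfsg.Agent.Lib.Helper8.Transfer

set_option autoImplicit false
open Cfsg

namespace Cfsg.Agent.S1241

open Cfsg.Agent.Lib.Helper8
open scoped IsMulCommutative

theorem result {G : Type*} [Group G] [Finite G] {p : ℕ} [Fact p.Prime] (H K : Subgroup G) (hHK : K ≤ H) (hKn : (K.subgroupOf H).Normal) (hab : ∀ x ∈ H, ∀ y ∈ H, x * y * x⁻¹ * y⁻¹ ∈ K) (hidx : Nat.Coprime p H.index) (g : G) (hgH : g ∈ H) (hgK : g ∉ K) (hgp : ∃ k : ℕ, orderOf g = p ^ k) (hctrl : ∀ (m : ℤ) (a : G), a * g ^ m * a⁻¹ ∈ H → (a * g ^ m * a⁻¹) * (g ^ m)⁻¹ ∈ K) : g ∉ commutator G := by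
  intro hgc
  haveI := hKn
  have hcomm : IsMulCommutative (H ⧸ K.subgroupOf H) := by
    apply Subgroup.Normal.quotient_commutative_iff_commutator_le.mpr
    rw [commutator_def, Subgroup.commutator_le]
    intro x _ y _
    rw [Subgroup.mem_subgroupOf]
    exact hab x x.2 y y.2
  let ϕ : H →* H ⧸ K.subgroupOf H := QuotientGroup.mk' (K.subgroupOf H)
  have hV : MonoidHom.transfer ϕ g = ϕ ⟨g, hgH⟩ ^ H.index := by
    apply transfer_eq_pow_mod ϕ g hgH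
    intro k g₀ hk
    rw [← map_pow]
    apply QuotientGroup.eq.mpr
    rw [Subgroup.mem_subgroupOf]
    have h1 := hctrl k g₀⁻¹ (by simpa using hk)
    have h2 := K.inv_mem h1
    simp only [zpow_natCast, inv_inv] at h2
    have e : ((g₀⁻¹ * g ^ k * g₀) * (g ^ k)⁻¹)⁻¹ = g ^ k * (g₀⁻¹ * g ^ k * g₀)⁻¹ := by group
    rw [e] at h2
    -- need (x)⁻¹ * y ∈ K; use normality / commutativity
    have h3 : (g₀⁻¹ * g ^ k * g₀)⁻¹ * g ^ k ∈ K := by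
      have hx : (g₀⁻¹ * g ^ k * g₀)⁻¹ ∈ H := H.inv_mem hk
      have hy : g ^ k ∈ H := H.pow_mem hgH k
      have h4 := hab _ hx _ hy
      have e2 : (g₀⁻¹ * g ^ k * g₀)⁻¹ * g ^ k = ((g₀⁻¹ * g ^ k * g₀)⁻¹ * g ^ k * (g₀⁻¹ * g ^ k * g₀)⁻¹⁻¹ * (g ^ k)⁻¹) * (g ^ k * (g₀⁻¹ * g ^ k * g₀)⁻¹) := by group
      rw [e2]
      exact K.mul_mem h4 h2
    simpa using h3
  have hV1 : MonoidHom.transfer ϕ g = 1 := Abelianization.commutator_subset_ker (MonoidHom.transfer ϕ) hgc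
  rw [hV1] at hV
  obtain ⟨k, hk⟩ := hgp
  have h5 : ϕ ⟨g, hgH⟩ ^ (p ^ k) = 1 := by
    rw [← map_pow]
    have : (⟨g, hgH⟩ : H) ^ (p ^ k) = 1 := by
      apply Subtype.ext
      simp [← hk, pow_orderOf_eq_one]
    rw [this, map_one]
  have h6 := pow_gcd_eq_one.mpr ⟨h5, hV.symm⟩
  have h7 : Nat.gcd (p ^ k) H.index = 1 := Nat.Coprime.pow_left k hidx
  rw [h7, pow_one] at h6
  apply hgK
  have := (QuotientGroup.eq_one_iff (N := K.subgroupOf H) (⟨g, hgH⟩ : H)).mp h6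
  simpa [Subgroup.mem_subgroupOf] using this

end Cfsg.Agent.S1241
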