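import Mathlib
import Cfsg.Statements.S1243
import Cfsg.Agent.Lib.Helper8.Basic

set_option autoImplicit false
open Cfsg

namespace Cfsg.Agent.S1243

open Cfsg.Agent.Lib.Helper8

/-- Let T be a Sylow p-subgroup of the finite group G and W ≤ T a subgroup weakly closed in T. If d and g d g⁻¹ both centralize W, then g d g⁻¹ = h d h⁻¹ for some h ∈ N_G(W). -/
theorem result {G : Type*} [Group G] [Finite G] {p : ℕ} [Fact p.Prime] (T : Sylow p G) (W : Subgroup G) (hW : Cfsg.IsWeaklyClosed W (T : Subgroup G)) (d g : G) (hd : d ∈ Subgroup.centralizer (W : Set G)) (hgd : g * d * g⁻¹ ∈ Subgroup.centralizer (W : Set G)) : ∃ h ∈ Subgroup.normalizer (W : Set G), h * d * h⁻¹ = g * d * g⁻¹ := by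
  have hWp : IsPGroup p W := T.2.to_le hW.1
  have hWgp : IsPGroup p (W.map (MulAut.conj g).toMonoidHom) := isPGroup_conjMap hWp g
  have h1 : W ≤ Subgroup.centralizer ({g * d * g⁻¹} : Set G) := by
    intro w hw
    rw [Subgroup.mem_centralizer_singleton_iff]
    rw [Subgroup.mem_centralizer_iff] at hgd
    exact hgd w hw
  have h2 : W.map (MulAut.conj g).toMonoidHom ≤ Subgroup.centralizer ({g * d * g⁻¹} : Set G) := by
    intro w hw
    rw [mem_conjMap] at hw
    rw [Subgroup.mem_centralizer_singleton_iff]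
    rw [Subgroup.mem_centralizer_iff] at hd
    have := hd _ hw
    calc w * (g * d * g⁻¹) = g * ((g⁻¹ * w * g) * d) * g⁻¹ := by group
      _ = g * (d * (g⁻¹ * w * g)) * g⁻¹ := by rw [this]
      _ = g * d * g⁻¹ * w := by group
  obtain ⟨c, hc, hsup, -⟩ := exists_conj_sup_isPGroup _ _ _ hWp hWgp h1 h2
  obtain ⟨Q, hQ⟩ := hsup.exists_le_sylow
  obtain ⟨y, hy⟩ := sylow_conj Q T
  have k1 : W.map (MulAut.conj y).toMonoidHom ≤ T := by
    rw [hy]; exact conjMap_mono y (le_sup_left.trans hQ)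
  have k2 : ((W.map (MulAut.conj g).toMonoidHom).map (MulAut.conj c).toMonoidHom).map (MulAut.conj y).toMonoidHom ≤ T := by
    rw [hy]; exact conjMap_mono y (le_sup_right.trans hQ)
  have e1 := hW.2 y k1
  rw [conjMap_conjMap W g c, conjMap_conjMap] at k2
  have e2 := hW.2 _ k2
  rw [← conjMap_conjMap W (c * g) y] at e2
  have e3 : W.map (MulAut.conj (c * g)).toMonoidHom = W := conjMap_injective y (e2.trans e1.symm)
  refine ⟨c * g, (conjMap_eq_iff_mem_normalizer W _).mp e3, ?_⟩
  rw [Subgroup.mem_centralizer_singleton_iff] at hc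
  calc c * g * d * (c * g)⁻¹ = (c * (g * d * g⁻¹)) * c⁻¹ := by group
    _ = (g * d * g⁻¹ * c) * c⁻¹ := by rw [hc]
    _ = g * d * g⁻¹ := by group

end Cfsg.Agent.S1243
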