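import Cfsg.Statements.S1247
import Cfsg.Agent.Lib.Helper16.Bender2

set_option autoImplicit false
open Cfsg

namespace Cfsg.Agent.S1247

open Cfsg.Agent.Lib.Helper16


/-- Let G be a non-abelian finite simple group, A a maximal subgroup, F = F*(A) its generalized Fitting subgroup (viewed in G), and S ≤ F a subgroup subnormal in F with C_F(S) ≤ S. Let B be any subgroup of G containing S. Then (a) for every prime q not dividing |F(A)|, O_q(B) ∩ A = 1; and (b) for every prime p dividing |F(A)|, O_p(B) commutes elementwise with the subgroup of F generated by its elements of order prime to p. -/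
theorem result {G : Type*} [Group G] [Finite G] [IsSimpleGroup G] (hna : ¬ IsMulCommutative G) (A : Subgroup G) (hA : IsCoatom A) (S : Subgroup G) (hSF : S ≤ (Cfsg.generalizedFittingSubgroup ↥A).map A.subtype) (hSsn : (S.subgroupOf ((Cfsg.generalizedFittingSubgroup ↥A).map A.subtype)).IsSubnormal) (hSC : (Cfsg.generalizedFittingSubgroup ↥A).map A.subtype ⊓ Subgroup.centralizer (S : Set G) ≤ S) (B : Subgroup G) (hSB : S ≤ B) : (∀ q : ℕ, q.Prime → ¬ q ∣ Nat.card (Cfsg.fittingSubgroup ↥A) → (Cfsg.pCore q ↥B).map B.subtype ⊓ A = ⊥) ∧ (∀ p : ℕ, p.Prime → p ∣ Nat.card (Cfsg.fittingSubgroup ↥A) → ∀ x ∈ (Cfsg.pCore p ↥B).map B.subtype, ∀ y ∈ (Cfsg.pResidual p ↥(Cfsg.generalizedFittingSubgroup ↥A)).map ((Cfsg.generalizedFittingSubgroup ↥A).subtype) , x * (A.subtype y) = (A.subtype y) * x) := by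
  have hB : BSub S A := BSub.of_subnIn ⟨hSF, hSsn⟩ hSC
  have hmax := hmax_of_isCoatom hA
  constructor
  · intro q hq hd
    have : Fact q.Prime := ⟨hq⟩
    exact hB.pCoreOf_inf_eq_bot hSB q ((pCoreOf_eq_bot_iff_fitting q A).mpr hd)
  · intro p hp hd x hx y hy
    have : Fact p.Prime := ⟨hp⟩
    have hne : pCoreOf p A ≠ ⊥ := fun h => (pCoreOf_eq_bot_iff_fitting p A).mp h hd
    obtain ⟨w, hw, rfl⟩ := hy
    have h1 : Cfsg.pResidual p ↥(Cfsg.generalizedFittingSubgroup ↥A) ≤
        (Subgroup.centralizer (pCoreOf p B : Set G)).comap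
          (A.subtype.comp (Cfsg.generalizedFittingSubgroup ↥A).subtype) := by
      unfold Cfsg.pResidual
      rw [Subgroup.closure_le]
      intro g hg
      have hg' : (orderOf g).Coprime p := hg
      show ((g : ↥A) : G) ∈ Subgroup.centralizer (pCoreOf p B : Set G)
      apply hB.mem_centralizer_pCoreOf hSB hmax p hne
      · exact ⟨g.1, g.2, rfl⟩
      · rw [Subgroup.orderOf_coe, Subgroup.orderOf_coe]; exact hg'
    have h2 : ((w : ↥A) : G) ∈ Subgroup.centralizer (pCoreOf p B : Set G) := h1 hw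
    exact Subgroup.mem_centralizer_iff.mp h2 x hx

end Cfsg.Agent.S1247
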