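import Mathlib
import Cfsg.Statements.S1258
import Cfsg.Agent.Lib.Helper8.Components

set_option autoImplicit false
open Cfsg

namespace Cfsg.Agent.S1258

open Cfsg.Agent.Lib.Helper8
open scoped commutatorElement

theorem comm_mul_central {X : Type*} [Group X] {z z' : X} (hz : z ∈ Subgroup.center X)
    (hz' : z' ∈ Subgroup.center X) (a b : X) : ⁅a * z, b * z'⁆ = ⁅a, b⁆ := by
  rw [Subgroup.mem_center_iff] at hz hz'
  rw [commutatorElement_def, commutatorElement_def]
  calc a * z * (b * z') * (a * z)⁻¹ * (b * z')⁻¹
      = a * (z * (b * z')) * z⁻¹ * a⁻¹ * z'⁻¹ * b⁻¹ := by group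
    _ = a * ((b * z') * z) * z⁻¹ * a⁻¹ * z'⁻¹ * b⁻¹ := by rw [hz (b * z')]
    _ = a * b * (z' * a⁻¹) * z'⁻¹ * b⁻¹ := by group
    _ = a * b * (a⁻¹ * z') * z'⁻¹ * b⁻¹ := by rw [hz' a⁻¹]
    _ = a * b * a⁻¹ * b⁻¹ := by group

theorem commutator_le_of_sup_center {X : Type*} [Group X] (N : Subgroup X)
    (h : N ⊔ Subgroup.center X = ⊤) : commutator X ≤ ⁅N, N⁆ := by
  rw [commutator_def, Subgroup.commutator_le]
  intro a _ b _
  have ha : a ∈ N ⊔ Subgroup.center X := h ▸ Subgroup.mem_top a
  have hb : b ∈ N ⊔ Subgroup.center X := h ▸ Subgroup.mem_top b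
  rw [Subgroup.mem_sup_of_normal_right] at ha hb
  obtain ⟨n, hn, z, hz, rfl⟩ := ha
  obtain ⟨n', hn', z', hz', rfl⟩ := hb
  rw [comm_mul_central hz hz']
  exact Subgroup.commutator_mem_commutator hn hn'

theorem result {X : Type*} [Group X] [Finite X] (hs : IsSimpleGroup (X ⧸ Subgroup.center X)) (hna : ¬ IsMulCommutative (X ⧸ Subgroup.center X)) : commutator X ⊔ Subgroup.center X = ⊤ ∧ Cfsg.IsQuasisimple ↥(commutator X) := by
  have key : ∀ N : Subgroup X, N.Normal → N ≤ Subgroup.center X ∨ N ⊔ Subgroup.center X = ⊤ := by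
    intro N hN
    have hN' : (N.map (QuotientGroup.mk' (Subgroup.center X))).Normal :=
      hN.map _ (QuotientGroup.mk'_surjective _)
    rcases hs.eq_bot_or_eq_top_of_normal _ hN' with h | h
    · left
      rw [Subgroup.map_eq_bot_iff, QuotientGroup.ker_mk'] at h
      exact h
    · right
      have := congrArg (Subgroup.comap (QuotientGroup.mk' (Subgroup.center X))) h
      rw [Subgroup.comap_map_eq, QuotientGroup.ker_mk', Subgroup.comap_top] at this
      exact this
  have hnle : ¬ commutator X ≤ Subgroup.center X := by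
    intro h
    exact hna (Subgroup.Normal.quotient_commutative_iff_commutator_le.mpr h)
  have hsup : commutator X ⊔ Subgroup.center X = ⊤ := by
    rcases key (commutator X) inferInstance with h | h
    · exact absurd h hnle
    · exact h
  refine ⟨hsup, ?_⟩
  rw [isQuasisimple_iff_QS]
  refine ⟨?_, ?_, ?_⟩
  · apply le_antisymm
    · rw [commutator_def (G := X)]
      exact Subgroup.commutator_mono le_top le_top
    · exact commutator_le_of_sup_center _ hsup
  · intro h
    apply hnle
    rw [h]; exact bot_le
  · intro N hNK hn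
    have hNn : N.Normal := by
      rw [← Subgroup.normalizer_eq_top_iff, eq_top_iff, ← hsup]
      apply sup_le hn
      intro z hz
      rw [Subgroup.mem_center_iff] at hz
      rw [Subgroup.mem_normalizer_iff]
      intro x
      have : z * x * z⁻¹ = x := by rw [← hz x]; group
      rw [this]
    rcases key N hNn with h | h
    · right
      rw [Subgroup.commutator_eq_bot_iff_le_centralizer]
      intro n hn'
      have := h hn'
      rw [Subgroup.mem_center_iff] at this
      rw [Subgroup.mem_centralizer_iff]
      intro k _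
      exact this k
    · left
      apply le_antisymm hNK
      refine (commutator_le_of_sup_center N h).trans ?_
      exact commutator_le_left_of_le_normalizer Subgroup.le_normalizer

end Cfsg.Agent.S1258
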