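import Mathlib
import Cfsg.Statements.S1259
import Cfsg.Agent.Lib.Helper8.Components

set_option autoImplicit false
open Cfsg

namespace Cfsg.Agent.S1259

open Cfsg.Agent.Lib.Helper8

theorem result {X : Type*} [Group X] [Finite X] (hX : Cfsg.IsQuasisimple X) (H : Subgroup X) (hH : H.IsSubnormal) : H = ⊤ ∨ H ≤ Subgroup.center X := by
  rcases (qs_top_iff.mpr hX).eq_or_commutator_eq_bot (subnIn_top.mpr hH) with h | h
  · exact Or.inl h
  · exact Or.inr (Subgroup.commutator_top_right_eq_bot_iff_le_center.mp h)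

end Cfsg.Agent.S1259
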