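import Mathlib
import Cfsg.Statements.S1260
import Cfsg.Agent.Lib.Helper8.Components

set_option autoImplicit false
open Cfsg

namespace Cfsg.Agent.S1260

open Cfsg.Agent.Lib.Helper8

theorem result {G : Type*} [Group G] [Finite G] (H : Subgroup G) (hH : H.IsSubnormal) (K : Subgroup ↥H) : Cfsg.IsComponent K ↔ Cfsg.IsComponent (K.map H.subtype) := by
  rw [isComponent_iff_compIn, isComponent_iff]
  constructor
  · rintro ⟨h1, h2⟩
    exact ⟨h1.trans (subnIn_top.mpr hH), h2⟩
  · rintro ⟨h1, h2⟩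
    exact ⟨h1.of_le (Subgroup.map_subtype_le K) le_top, h2⟩

end Cfsg.Agent.S1260
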