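import Mathlib
import Cfsg.Statements.S1261
import Cfsg.Agent.Lib.Helper8.Components

set_option autoImplicit false
open Cfsg

namespace Cfsg.Agent.S1261

open Cfsg.Agent.Lib.Helper8

theorem result {G : Type*} [Group G] [Finite G] (L H : Subgroup G) (hL : Cfsg.IsComponent L) (hH : H.IsSubnormal) : L ≤ H ∨ ⁅L, H⁆ = ⊥ := by
  rw [isComponent_iff] at hL
  exact hL.2.le_or_commutator_eq_bot hL.1 (subnIn_top.mpr hH)

end Cfsg.Agent.S1261
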