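import Mathlib
import Cfsg.Statements.S1262
import Cfsg.Agent.Lib.Helper8.Components

set_option autoImplicit false
open Cfsg

namespace Cfsg.Agent.S1262

open Cfsg.Agent.Lib.Helper8

theorem result {G : Type*} [Group G] [Finite G] (L H : Subgroup G) (hL : Cfsg.IsComponent L) (hsolv : Group.IsSolvable ↥H) (hinv : L ≤ Subgroup.normalizer (H : Set G)) : ⁅L, H⁆ = ⊥ := by
  rw [isComponent_iff] at hL
  exact hL.2.commutator_eq_bot_of_isSolvable hL.1 le_top hsolv hinv

end Cfsg.Agent.S1262
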