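import Mathlib
import Cfsg.Statements.S1263
import Cfsg.Agent.Lib.Helper8.FStar

set_option autoImplicit false
open Cfsg

namespace Cfsg.Agent.S1263

open Cfsg.Agent.Lib.Helper8

theorem mem_center_map {G : Type*} [Group G] (A : Subgroup G) (x : G) :
    x ∈ (Subgroup.center ↥A).map A.subtype ↔ x ∈ A ∧ ∀ a ∈ A, a * x = x * a := by
  constructor
  · rintro ⟨y, hy, rfl⟩
    refine ⟨y.2, fun a ha => ?_⟩
    have := Subgroup.mem_center_iff.mp hy ⟨a, ha⟩
    exact congrArg Subtype.val this
  · rintro ⟨hx, h⟩
    refine ⟨⟨x, hx⟩, ?_, rfl⟩
    show (⟨x, hx⟩ : A) ∈ Subgroup.center A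
    rw [Subgroup.mem_center_iff]
    intro a
    exact Subtype.ext (h a a.2)

theorem comm_of_ne {G : Type*} [Group G] [Finite G] {L K : Subgroup G} (hL : Cfsg.IsComponent L)
    (hK : Cfsg.IsComponent K) (hne : L ≠ K) : ∀ l ∈ L, ∀ k ∈ K, k * l = l * k := by
  rw [isComponent_iff] at hL hK
  have := hL.2.commutator_eq_bot_of_ne hK.2 hL.1 hK.1 hne
  rw [Subgroup.commutator_eq_bot_iff_le_centralizer] at this
  intro l hl k hk
  exact Subgroup.mem_centralizer_iff.mp (this hl) k hk

theorem result {G : Type*} [Group G] [Finite G] : (Subgroup.center ↥(Cfsg.layer G)).map (Cfsg.layer G).subtype = ⨆ L : {K : Subgroup G // Cfsg.IsComponent K}, (Subgroup.center ↥(L : Subgroup G)).map (L : Subgroup G).subtype := by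
  classical
  apply le_antisymm
  · -- finset induction
    have key : ∀ s : Finset (Subgroup G), (∀ K ∈ s, Cfsg.IsComponent K) → ∀ e ∈ s.sup id,
        (∀ K ∈ s, ∀ k ∈ K, k * e = e * k) →
        e ∈ ⨆ L : {K : Subgroup G // Cfsg.IsComponent K}, (Subgroup.center ↥(L : Subgroup G)).map (L : Subgroup G).subtype := by
      intro s
      induction s using Finset.induction_on with
      | empty =>
        intro _ e he _
        simp only [Finset.sup_empty, Subgroup.mem_bot] at he
        rw [he]; exact Subgroup.one_mem _
      | insert L t hLt ih =>
        intro hs e he hc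
        have hL := hs L (Finset.mem_insert_self L t)
        have ht : ∀ K ∈ t, Cfsg.IsComponent K := fun K hK => hs K (Finset.mem_insert_of_mem hK)
        have hcen : t.sup id ≤ Subgroup.centralizer (L : Set G) := by
          apply Finset.sup_le
          intro K hK k hk
          rw [Subgroup.mem_centralizer_iff]
          intro l hl
          have hne : L ≠ K := by rintro rfl; exact hLt hK
          exact (comm_of_ne hL (ht K hK) hne l hl k hk).symm
        rw [Finset.sup_insert, id] at he
        obtain ⟨b, hb, a, ha, rfl⟩ := (mem_sup_of_le_normalizer (hcen.trans (Subgroup.centralizer_le_normalizer _))).mp he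
        have hbL : ∀ l ∈ L, l * b = b * l := fun l hl => Subgroup.mem_centralizer_iff.mp (hcen hb) l hl
        have haZ : a ∈ (Subgroup.center ↥L).map L.subtype := by
          rw [mem_center_map]
          refine ⟨ha, fun k hk => ?_⟩
          have h1 := hc L (Finset.mem_insert_self L t) k hk
          have h2 : b * (k * a) = b * (a * k) := by
            calc b * (k * a) = (b * k) * a := by group
              _ = (k * b) * a := by rw [hbL k hk]
              _ = k * (b * a) := by group
              _ = b * a * k := h1
              _ = b * (a * k) := by group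
          exact mul_left_cancel h2
        have hbZ := ih ht b hb (by
          intro K hK k hk
          have hne : L ≠ K := by rintro rfl; exact hLt hK
          have h1 := hc K (Finset.mem_insert_of_mem hK) k hk
          have h3 := comm_of_ne hL (ht K hK) hne a ha k hk
          have h2 : (k * b) * a = (b * k) * a := by
            calc (k * b) * a = k * (b * a) := by group
              _ = b * a * k := h1
              _ = b * (a * k) := by group
              _ = b * (k * a) := by rw [h3]
              _ = (b * k) * a := by group
          exact mul_right_cancel h2)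
        apply Subgroup.mul_mem _ hbZ
        exact (le_iSup (fun L : {K : Subgroup G // Cfsg.IsComponent K} =>
          (Subgroup.center ↥(L : Subgroup G)).map (L : Subgroup G).subtype) ⟨L, hL⟩) haZ
    intro e he
    rw [mem_center_map] at he
    have hfin : {K : Subgroup G | Cfsg.IsComponent K}.Finite := Set.toFinite _
    have hE : Cfsg.layer G = hfin.toFinset.sup id := by
      rw [Finset.sup_id_eq_sSup, Set.Finite.coe_toFinset]; rfl
    apply key hfin.toFinset (by simp) e (hE ▸ he.1)
    intro K hK k hk
    apply he.2
    exact le_layer_of_isComponent (by simpa using hK) hk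
  · apply iSup_le
    rintro ⟨L, hL⟩ z hz
    rw [mem_center_map] at hz ⊢
    refine ⟨le_layer_of_isComponent hL hz.1, ?_⟩
    have : Cfsg.layer G ≤ Subgroup.centralizer ({z} : Set G) := by
      apply sSup_le
      intro K hK k hk
      rw [Subgroup.mem_centralizer_singleton_iff]
      by_cases hne : L = K
      · subst hne; exact hz.2 k hk
      · exact comm_of_ne hL hK hne z hz.1 k hk
    intro a ha
    exact Subgroup.mem_centralizer_singleton_iff.mp (this ha)

end Cfsg.Agent.S1263
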