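import Mathlib
import Cfsg.Statements.S1264
import Cfsg.Agent.Lib.Helper8.FStar

set_option autoImplicit false
open Cfsg

namespace Cfsg.Agent.S1264

open Cfsg.Agent.Lib.Helper8

theorem result {G : Type*} [Group G] [Finite G] (N : Subgroup G) (hN : N ≤ Subgroup.centralizer (Cfsg.fittingSubgroup G : Set G)) (hnorm : Subgroup.centralizer (Cfsg.fittingSubgroup G : Set G) ≤ Subgroup.normalizer (N : Set G)) (hsolv : Group.IsSolvable ↥N) : N ≤ (Subgroup.center ↥(Cfsg.fittingSubgroup G)).map (Cfsg.fittingSubgroup G).subtype := by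
  haveI := fittingSubgroup_normal (G := G)
  have hC : (Subgroup.centralizer (Cfsg.fittingSubgroup G : Set G)).Normal := inferInstance
  have hsub : N.IsSubnormal := (SubnIn.of_normal hN hnorm).isSubnormal hC.isSubnormal
  have hF := le_fitting_of_isSolvable_of_le_centralizer hsub hN hsolv
  intro x hx
  refine ⟨⟨x, hF hx⟩, ?_, rfl⟩
  show (⟨x, hF hx⟩ : Cfsg.fittingSubgroup G) ∈ Subgroup.center _
  rw [Subgroup.mem_center_iff]
  intro y
  have := hN hx
  rw [Subgroup.mem_centralizer_iff] at this
  exact Subtype.ext (this y y.2)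

end Cfsg.Agent.S1264
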