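import Mathlib
import Cfsg.Statements.S1268
import Cfsg.Agent.Lib.Helper8.FStarP

set_option autoImplicit false
open Cfsg

namespace Cfsg.Agent.S1268

open Cfsg.Agent.Lib.Helper8

theorem result {G : Type*} [Group G] [Finite G] (p : ℕ) [Fact p.Prime] (h : Cfsg.generalizedFittingSubgroup G = Cfsg.pCore p G) (P : Subgroup G) (hP : IsPGroup p ↥P) : Cfsg.generalizedFittingSubgroup ↥(Subgroup.normalizer ((P : Subgroup G) : Set G)) = Cfsg.pCore p ↥(Subgroup.normalizer ((P : Subgroup G) : Set G)) := by
  exact generalizedFitting_normalizer_eq_pCore p h P _ hP Subgroup.le_normalizer le_rfl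
    (inf_le_right.trans (Subgroup.centralizer_le_normalizer _))

end Cfsg.Agent.S1268
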