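import Mathlib
import Cfsg.Statements.S1271
import Cfsg.Agent.Lib.Helper8.LBalance3

set_option autoImplicit false
open Cfsg
open Cfsg.Agent.Lib.Helper8

namespace Cfsg.Agent.S1271

/-- Let G be finite with O_{p'}(G) = 1. Suppose that for every component L of G and every subgroup H ≥ L in which L is normal, the quotient H / C_H(L) is balanced for the prime p. Then G is balanced for p. -/
theorem result {G : Type*} [Group G] [Finite G] (p : ℕ) [Fact p.Prime] (hO : Cfsg.pPrimeCore p G = ⊥) (h : ∀ L : Subgroup G, Cfsg.IsComponent L → ∀ H : Subgroup G, L ≤ H → (L.subgroupOf H).Normal → ∀ [((Subgroup.centralizer (L : Set G)).subgroupOf H).Normal], Cfsg.IsBalancedFor p (↥H ⧸ (Subgroup.centralizer (L : Set G)).subgroupOf H)) : Cfsg.IsBalancedFor p G := by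
  intro x hx
  rw [hO, le_bot_iff]
  have hp : p.Prime := Fact.out
  have hxp : x ^ p = 1 := hx ▸ pow_orderOf_eq_one x
  apply eq_bot_of_centralizes p hO (coprime_card_coreIn p _) (centralizerPPrimeCore_le_centralizer_pCore p hxp)
  intro L hL
  by_cases hne : ⁅L, Subgroup.zpowers x⁆ = L
  swap
  · exact commutator_centralizerPPrimeCore_eq_bot p hO hx hL hne
  have hL' := (isComponent_iff L).mp hL
  have hxL : x ∈ Subgroup.normalizer (L : Set G) := by
    apply mem_normalizer_of_conj_mem
    intro a ha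
    have h1 : a⁻¹ * x * a⁻¹⁻¹ * x⁻¹ ∈ ⁅L, Subgroup.zpowers x⁆ :=
      Subgroup.commutator_mem_commutator (L.inv_mem ha) (Subgroup.mem_zpowers x)
    rw [hne] at h1
    have := L.mul_mem ha h1
    rw [inv_inv] at this
    have e : a * (a⁻¹ * x * a * x⁻¹) = x * a * x⁻¹ := by group
    rwa [e] at this
  obtain ⟨W1, hW1c, hWW1, hW1le, hYn, hBn⟩ := exists_core_cover p hO hxp hL hxL
  obtain ⟨Y, hY⟩ : ∃ Y, Y = Subgroup.centralizer {x} ⊓ Subgroup.normalizer (L : Set G) := ⟨_, rfl⟩
  rw [← hY] at hW1le hYn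
  have hYL : Y ≤ Subgroup.normalizer (L : Set G) := hY ▸ inf_le_right
  have hYx : Y ≤ Subgroup.centralizer {x} := hY ▸ inf_le_left
  obtain ⟨H, hH⟩ : ∃ H, H = L ⊔ Y := ⟨_, rfl⟩
  have hHL : H ≤ Subgroup.normalizer (L : Set G) := hH ▸ sup_le Subgroup.le_normalizer hYL
  have hLH : L ≤ H := hH ▸ le_sup_left
  have hYH : Y ≤ H := hH ▸ le_sup_right
  have hW1H : W1 ≤ H := hW1le.trans hYH
  have hLn : (L.subgroupOf H).Normal := Subgroup.normal_subgroupOf_of_le_normalizer hHL
  haveI hCn : ((Subgroup.centralizer (L : Set G)).subgroupOf H).Normal :=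
    Subgroup.normal_subgroupOf_of_le_normalizer (hHL.trans (normalizer_le_normalizer_centralizer L))
  have hbal := h L hL H hLH hLn
  have hxY : x ∈ Y := by
    rw [hY]
    exact Subgroup.mem_inf.mpr ⟨Subgroup.mem_centralizer_singleton_iff.mpr rfl, hxL⟩
  have hxH : x ∈ H := hYH hxY
  have hord : orderOf (QuotientGroup.mk' ((Subgroup.centralizer (L : Set G)).subgroupOf H) ⟨x, hxH⟩) = p := by
    apply orderOf_eq_prime
    · rw [← map_pow]
      have : (⟨x, hxH⟩ : H) ^ p = 1 := Subtype.ext hxp
      rw [this, map_one]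
    · intro h1
      rw [← MonoidHom.mem_ker, QuotientGroup.ker_mk', Subgroup.mem_subgroupOf] at h1
      apply hL'.2.2.1
      rw [← hne, Subgroup.commutator_comm, Subgroup.commutator_eq_bot_iff_le_centralizer,
        Subgroup.zpowers_le]
      exact h1
  have h1 := hbal _ hord
  have h2 := map_le_centralizerPPrimeCore p ((Subgroup.centralizer (L : Set G)).subgroupOf H) ⟨x, hxH⟩
    (W1.subgroupOf H) (by
      rw [Nat.card_congr (Subgroup.subgroupOfEquivOfLe hW1H).toEquiv]; exact hW1c) (by
      intro u hu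
      rw [Subgroup.mem_centralizer_singleton_iff]
      apply Subtype.ext
      exact Subgroup.mem_centralizer_singleton_iff.mp (hYx (hW1le (Subgroup.mem_subgroupOf.mp hu)))) (by
      rintro ⟨g, hg⟩ hgx
      rw [Subgroup.mem_subgroupOf] at hgx
      have hgx' : g * x * g⁻¹ * x⁻¹ ∈ Subgroup.centralizer (L : Set G) := hgx
      have hgn : g ∈ Subgroup.normalizer (W1 : Set G) := by
        have hg' := hg
        rw [hH] at hg'
        obtain ⟨b, hb, a, ha, rfl⟩ := (mem_sup_of_le_normalizer hYL).mp hg'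
        apply Subgroup.mul_mem _ (hYn hb)
        apply hBn a ha
        have hbx : b * x = x * b := Subgroup.mem_centralizer_singleton_iff.mp (hYx hb)
        have hbx' : b⁻¹ * x⁻¹ = x⁻¹ * b⁻¹ := by rw [← mul_inv_rev, ← mul_inv_rev, hbx]
        have e : b * a * x * (b * a)⁻¹ * x⁻¹ = b * (a * x * a⁻¹ * x⁻¹) * b⁻¹ := by
          rw [mul_inv_rev, mul_assoc _ _ x⁻¹, mul_assoc a⁻¹, hbx']
          group
        rw [e] at hgx'
        have hbn := (normalizer_le_normalizer_centralizer L) (hYL hb)
        exact (Subgroup.mem_normalizer_iff.mp hbn _).mpr hgx'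
      rw [Subgroup.mem_normalizer_iff]
      intro u
      rw [Subgroup.mem_subgroupOf, Subgroup.mem_subgroupOf]
      exact Subgroup.mem_normalizer_iff.mp hgn u)
  have h3 := commutator_eq_bot_of_map_le_pPrimeCore p (L := L.subgroupOf H)
    (by rw [← qs_map_iff H.subtype H.subtype_injective, subgroupOf_map_subtype_eq hLH]; exact hL'.2)
    (by rw [← pqs_map_iff H.subtype H.subtype_injective, subgroupOf_map_subtype_eq hLH]
        exact pqs_of_isComponent p hO hL) hLn
    ((Subgroup.centralizer (L : Set G)).subgroupOf H) (by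
      rw [← Subgroup.map_eq_bot_iff_of_injective _ H.subtype_injective, Subgroup.map_commutator,
        subgroupOf_map_subtype_eq hLH, Subgroup.subgroupOf_map_subtype, eq_bot_iff]
      refine (Subgroup.commutator_mono le_rfl inf_le_left).trans ?_
      rw [le_bot_iff, Subgroup.commutator_comm, Subgroup.commutator_eq_bot_iff_le_centralizer])
    (W1.subgroupOf H) (h2.trans h1)
  have h4 : ⁅L, W1⁆ = ⊥ := by
    have := congrArg (Subgroup.map H.subtype) h3
    rwa [Subgroup.map_commutator, subgroupOf_map_subtype_eq hLH, subgroupOf_map_subtype_eq hW1H,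
      Subgroup.map_bot] at this
  rw [eq_bot_iff, ← h4]
  exact Subgroup.commutator_mono le_rfl hWW1

end Cfsg.Agent.S1271
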