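import Mathlib
import Cfsg.Statements.S1273
import Cfsg.Agent.Lib.Helper8.PComp

set_option autoImplicit false
open Cfsg
open Cfsg.Agent.Lib.Helper8

namespace Cfsg.Agent.S1273

/-- Let K be a p-component of the finite group X and N a normal subgroup of K whose index in K is prime to p. Then N = K. -/
theorem result {X : Type*} [Group X] [Finite X] (p : ℕ) [Fact p.Prime] (K : Subgroup X) (hK : Cfsg.IsPComponent p K) (N : Subgroup ↥K) [N.Normal] (hidx : (N.index).Coprime p) : N = ⊤ := by
  have hK' := ((isPComponent_iff p K).mp hK).2
  have h1 : (N.map K.subtype).subgroupOf K = N :=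
    Subgroup.comap_map_eq_self_of_injective K.subtype_injective N
  have h2 : N.map K.subtype = K := by
    apply hK'.eq_of_coprime_relIndex (Subgroup.map_subtype_le N)
    · rw [← Subgroup.normal_subgroupOf_iff_le_normalizer (Subgroup.map_subtype_le N), h1]
      infer_instance
    · unfold Subgroup.relIndex
      rw [h1]; exact hidx
  rw [← h1, h2, Subgroup.subgroupOf_self]

end Cfsg.Agent.S1273
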