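import Mathlib
import Cfsg.Statements.S1277
import Cfsg.Agent.Lib.Helper8.PComp

set_option autoImplicit false
open Cfsg
open Cfsg.Agent.Lib.Helper8

namespace Cfsg.Agent.S1277

/-- For a finite group X with core O(X): the image of E(X) in X / O(X) is all of E(X / O(X)) if and only if every 2-component of X is a component, i.e. L_{2'}(X) ≤ E(X). -/
theorem result {X : Type*} [Group X] [Finite X] : (Cfsg.layer X).map (QuotientGroup.mk' (Cfsg.oddCore X)) = Cfsg.layer (X ⧸ Cfsg.oddCore X) ↔ Cfsg.pLayer 2 X ≤ Cfsg.layer X := by
  constructor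
  · intro h
    apply sSup_le
    intro K hK
    have hK' := (isPComponent_iff 2 K).mp hK
    apply hK'.2.le_of_map_le (Subgroup.Normal.isSubnormal layer_normal)
    rw [h]
    exact le_layer_of_isComponent hK.2.1
  · intro h
    apply le_antisymm
    · rw [Subgroup.map_le_iff_le_comap]
      exact layer_le_pPrimeLayer 2
    · rw [← map_pLayer]
      exact Subgroup.map_mono h

end Cfsg.Agent.S1277
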