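import Mathlib
import Cfsg.Statements.S1279
import Cfsg.Agent.Lib.Helper8.PBalance

set_option autoImplicit false
open Cfsg
open Cfsg.Agent.Lib.Helper8

namespace Cfsg.Agent.S1279

/-- Let A be a noncyclic elementary abelian p-subgroup of the finite group G such that C_G(a) is solvable for every non-identity a ∈ A. Then a ↦ O_{p'}(C_G(a)) is a solvable A-signalizer functor on G. -/
theorem result {G : Type*} [Group G] [Finite G] (p : ℕ) [Fact p.Prime] (A : Subgroup G) (hA : Cfsg.IsElementaryAbelian p A) (hA2 : p ^ 2 ≤ Nat.card ↥A) (hsolv : ∀ a ∈ A, a ≠ 1 → Group.IsSolvable ↥(Subgroup.centralizer ({a} : Set G))) : Cfsg.IsSolvableSignalizerFunctor p A (fun a => Cfsg.centralizerPPrimeCore p a) := by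
  have hp : p.Prime := Fact.out
  have hcomm : ∀ a ∈ A, ∀ b ∈ A, a * b = b * a := by
    intro a ha b hb
    exact congrArg Subtype.val (hA.1.is_comm.comm ⟨a, ha⟩ ⟨b, hb⟩)
  have hθ : ∀ a : G, Cfsg.centralizerPPrimeCore p a ≤ Subgroup.centralizer ({a} : Set G) :=
    fun a => Subgroup.map_subtype_le _
  refine ⟨⟨?_, ?_, ?_, ?_⟩, ?_⟩
  · intro a _ _
    exact hθ a
  · intro a _ _
    unfold Cfsg.centralizerPPrimeCore
    rw [card_map_subtype, ← Nat.Prime.coprime_iff_not_dvd hp, Nat.coprime_comm]
    exact coprime_card_pPrimeCore p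
  · intro a ha _ b hb x hx
    have h1 : b ∈ Subgroup.centralizer ({a} : Set G) := by
      rw [Subgroup.mem_centralizer_singleton_iff]
      exact hcomm b hb a ha
    exact (Subgroup.mem_normalizer_iff.mp (le_normalizer_map_subtype _ h1) x).mp hx
  · intro a ha _ b hb hb1
    exact centralizerPPrimeCore_inf_le p (hA.2 a ha) (hcomm a ha b hb)
      (pLayer_eq_bot_of_isSolvable p (hsolv b hb hb1))
  · intro a ha ha1
    haveI := hsolv a ha ha1
    exact Group.isSolvable_of_isSolvable_injective (Subgroup.inclusion_injective (hθ a))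

end Cfsg.Agent.S1279
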