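import Mathlib
import Cfsg.Statements.S1280
import Cfsg.Agent.Lib.Helper8.CoprimeAct

set_option autoImplicit false
open Cfsg
open Cfsg.Agent.Lib.Helper8

namespace Cfsg.Agent.S1280

/-- Let θ be a solvable A-signalizer functor (A a noncyclic elementary abelian p-subgroup of the finite group G), and X, Y members of its family with Y ≤ N_G(X). Then X ⊔ Y (= XY) is again in the family. -/
theorem result {G : Type*} [Group G] [Finite G] (p : ℕ) [Fact p.Prime] (A : Subgroup G) (hA : Cfsg.IsElementaryAbelian p A) (hA2 : p ^ 2 ≤ Nat.card ↥A) (θ : G → Subgroup G) (hθ : Cfsg.IsSolvableSignalizerFunctor p A θ) (X Y : Subgroup G) (hX : X ∈ Cfsg.signalizerFamily p A θ) (hY : Y ∈ Cfsg.signalizerFamily p A θ) (hn : Y ≤ Subgroup.normalizer (X : Set G)) : X ⊔ Y ∈ Cfsg.signalizerFamily p A θ := by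
  have hp : p.Prime := Fact.out
  obtain ⟨hXs, hXp, hXA, hXθ⟩ := hX
  obtain ⟨hYs, hYp, hYA, hYθ⟩ := hY
  refine ⟨isSolvable_sup_of_le_normalizer hXs hYs hn, ?_, ?_, ?_⟩
  · intro hdvd
    rcases (Nat.Prime.dvd_mul hp).mp (hdvd.trans (card_sup_dvd hn)) with h | h
    · exact hXp h
    · exact hYp h
  · intro b hb u hu
    obtain ⟨y, hy, x, hx, rfl⟩ := (mem_sup_of_le_normalizer hn).mp hu
    have : b * (y * x) * b⁻¹ = (b * y * b⁻¹) * (b * x * b⁻¹) := by group
    rw [this, sup_comm]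
    exact Subgroup.mul_mem_sup (hYA b hb y hy) (hXA b hb x hx)
  · intro a ha ha1 c hc
    obtain ⟨hc1, hc2⟩ := Subgroup.mem_inf.mp hc
    obtain ⟨y, hy, x, hx, rfl⟩ := (mem_sup_of_le_normalizer hn).mp hc1
    have hB : IsPGroup p (Subgroup.zpowers a) := isPGroup_zpowers_of_pow_eq_one (hA.2 a ha)
    have hBA : Subgroup.zpowers a ≤ A := by rw [Subgroup.zpowers_le]; exact ha
    have hcop : (Nat.card (X ⊓ Y : Subgroup G)).Coprime p := by
      apply Nat.Coprime.coprime_dvd_left (Subgroup.card_dvd_of_le inf_le_left)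
      rw [Nat.coprime_comm, Nat.Prime.coprime_iff_not_dvd hp]
      exact hXp
    have hBN : Subgroup.zpowers a ≤ Subgroup.normalizer ((X ⊓ Y : Subgroup G) : Set G) := by
      apply le_normalizer_inf
      · intro c hc
        exact mem_normalizer_of_conj_mem _ _ (fun u hu => hXA c (hBA hc) u hu)
      · intro c hc
        exact mem_normalizer_of_conj_mem _ _ (fun u hu => hYA c (hBA hc) u hu)
    rw [← centralizer_zpowers_eq] at hc2
    have hk : ∀ b ∈ Subgroup.zpowers a, b⁻¹ * y * b * y⁻¹ ∈ X ⊓ Y := by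
      intro b hb
      have hbA := hBA hb
      have hy' : b⁻¹ * y * b ∈ Y := by
        have := hYA b⁻¹ (A.inv_mem hbA) y hy
        simpa using this
      have hx' : b⁻¹ * x * b ∈ X := by
        have := hXA b⁻¹ (A.inv_mem hbA) x hx
        simpa using this
      apply Subgroup.mem_inf.mpr
      constructor
      · have hcomm : b * (y * x) = (y * x) * b := (Subgroup.mem_centralizer_iff.mp hc2 b hb)
        have e1 : b⁻¹ * y * b * y⁻¹ = y * (x * (b⁻¹ * x * b)⁻¹) * y⁻¹ := by
          have e2 : (b⁻¹ * y * b) * (b⁻¹ * x * b) = y * x := by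
            calc (b⁻¹ * y * b) * (b⁻¹ * x * b) = b⁻¹ * ((y * x) * b) := by group
              _ = b⁻¹ * (b * (y * x)) := by rw [hcomm]
              _ = y * x := by group
          calc b⁻¹ * y * b * y⁻¹ = ((b⁻¹ * y * b) * (b⁻¹ * x * b)) * (b⁻¹ * x * b)⁻¹ * y⁻¹ := by group
            _ = (y * x) * (b⁻¹ * x * b)⁻¹ * y⁻¹ := by rw [e2]
            _ = y * (x * (b⁻¹ * x * b)⁻¹) * y⁻¹ := by group
        rw [e1]
        exact (Subgroup.mem_normalizer_iff.mp (hn hy) _).mp (X.mul_mem hx (X.inv_mem hx'))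
      · exact Y.mul_mem hy' (Y.inv_mem hy)
    obtain ⟨n, hn', m, hm, rfl⟩ := exists_mul_centralizer hB hcop hBN hk
    have hmY : m ∈ Y := by
      have : m = n⁻¹ * (n * m) := by group
      rw [this]
      exact Y.mul_mem (Y.inv_mem (Subgroup.mem_inf.mp hn').2) hy
    have hx'' : m⁻¹ * n * m * x ∈ X := by
      apply X.mul_mem _ hx
      have := (Subgroup.mem_normalizer_iff.mp (hn (Y.inv_mem hmY)) n).mp (Subgroup.mem_inf.mp hn').1
      simpa using this
    have hx''c : m⁻¹ * n * m * x ∈ Subgroup.centralizer ((Subgroup.zpowers a : Subgroup G) : Set G) := by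
      have : m⁻¹ * n * m * x = m⁻¹ * (n * m * x) := by group
      rw [this]
      exact Subgroup.mul_mem _ (Subgroup.inv_mem _ hm) hc2
    rw [centralizer_zpowers_eq] at hm hx''c
    have h1 := hYθ a ha ha1 (Subgroup.mem_inf.mpr ⟨hmY, hm⟩)
    have h2 := hXθ a ha ha1 (Subgroup.mem_inf.mpr ⟨hx'', hx''c⟩)
    have : n * m * x = m * (m⁻¹ * n * m * x) := by group
    rw [this]
    exact (θ a).mul_mem h1 h2

end Cfsg.Agent.S1280
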