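import Mathlib
import Cfsg.Statements.S1281
import Cfsg.Agent.Lib.Helper8.CoprimeAct

set_option autoImplicit false
open Cfsg
open Cfsg.Agent.Lib.Helper8

namespace Cfsg.Agent.S1281

/-- Let θ be a solvable A-signalizer functor on the finite group G (A a noncyclic elementary abelian p-subgroup) and N a normal subgroup of order prime to p. Then for all non-identity a, b ∈ A, the image of θ a in G / N meets the centralizer of the image of b inside the image of θ b. -/
theorem result {G : Type*} [Group G] [Finite G] (p : ℕ) [Fact p.Prime] (A : Subgroup G) (hA : Cfsg.IsElementaryAbelian p A) (hA2 : p ^ 2 ≤ Nat.card ↥A) (θ : G → Subgroup G) (hθ : Cfsg.IsSolvableSignalizerFunctor p A θ) (N : Subgroup G) [N.Normal] (hN : ¬ p ∣ Nat.card ↥N) (a b : G) (ha : a ∈ A) (ha1 : a ≠ 1) (hb : b ∈ A) (hb1 : b ≠ 1) : (θ a).map (QuotientGroup.mk' N) ⊓ Subgroup.centralizer {QuotientGroup.mk' N b} ≤ (θ b).map (QuotientGroup.mk' N) := by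
  have hp : p.Prime := Fact.out
  obtain ⟨⟨hθ1, hθ2, hθ3, hθ4⟩, -⟩ := hθ
  rintro y hy
  obtain ⟨hy1, hy2⟩ := Subgroup.mem_inf.mp hy
  obtain ⟨x, hx, rfl⟩ := hy1
  rw [Subgroup.mem_centralizer_singleton_iff] at hy2
  have hB : IsPGroup p (Subgroup.zpowers b) := isPGroup_zpowers_of_pow_eq_one (hA.2 b hb)
  have hBA : Subgroup.zpowers b ≤ A := by rw [Subgroup.zpowers_le]; exact hb
  have hcop : (Nat.card (θ a ⊓ N : Subgroup G)).Coprime p := by
    apply Nat.Coprime.coprime_dvd_left (Subgroup.card_dvd_of_le inf_le_left)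
    rw [Nat.coprime_comm, Nat.Prime.coprime_iff_not_dvd hp]
    exact hθ2 a ha ha1
  have hBN : Subgroup.zpowers b ≤ Subgroup.normalizer ((θ a ⊓ N : Subgroup G) : Set G) := by
    apply le_normalizer_inf
    · intro c hc
      exact mem_normalizer_of_conj_mem _ _ (fun u hu => hθ3 a ha ha1 c (hBA hc) u hu)
    · exact le_normalizer_of_normal' inferInstance
  have hk : ∀ c ∈ Subgroup.zpowers b, c⁻¹ * x * c * x⁻¹ ∈ θ a ⊓ N := by
    intro c hc
    apply Subgroup.mem_inf.mpr
    constructor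
    · apply (θ a).mul_mem _ ((θ a).inv_mem hx)
      have := hθ3 a ha ha1 c⁻¹ (A.inv_mem (hBA hc)) x hx
      simpa using this
    · rw [← QuotientGroup.ker_mk' N, MonoidHom.mem_ker]
      obtain ⟨j, rfl⟩ := Subgroup.mem_zpowers_iff.mp hc
      have hcomm : Commute (QuotientGroup.mk' N x) ((QuotientGroup.mk' N b) ^ j) :=
        Commute.zpow_right hy2 j
      rw [map_mul, map_mul, map_mul, map_inv, map_inv, map_zpow, mul_assoc _ (QuotientGroup.mk' N x), hcomm.eq]
      group
  obtain ⟨n, hn, m, hm, rfl⟩ := exists_mul_centralizer hB hcop hBN hk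
  rw [centralizer_zpowers_eq] at hm
  have hmθ : m ∈ θ a := by
    have : m = n⁻¹ * (n * m) := by group
    rw [this]
    exact (θ a).mul_mem ((θ a).inv_mem (Subgroup.mem_inf.mp hn).1) hx
  refine ⟨m, hθ4 a ha ha1 b hb hb1 (Subgroup.mem_inf.mpr ⟨hmθ, hm⟩), ?_⟩
  rw [map_mul]
  have : QuotientGroup.mk' N n = 1 := by
    rw [← MonoidHom.mem_ker, QuotientGroup.ker_mk']
    exact (Subgroup.mem_inf.mp hn).2
  rw [this, one_mul]

end Cfsg.Agent.S1281
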