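import Mathlib
import Cfsg.Statements.S1285
import Cfsg.Agent.Lib.Helper8.Signalizer2
import Cfsg.Agent.Lib.Helper8.PBalance

set_option autoImplicit false
open Cfsg
open Cfsg.Agent.Lib.Helper8

namespace Cfsg.Agent.S1285

/-- Let θ be a solvable A-signalizer functor on the finite group G with A elementary abelian of rank at least 3, and suppose that for some prime q every θ a (a ∈ A non-identity) is a q-group. Then θ is complete. -/
theorem result {G : Type*} [Group G] [Finite G] (p : ℕ) [Fact p.Prime] (A : Subgroup G) (hA : Cfsg.IsElementaryAbelian p A) (hA3 : p ^ 3 ≤ Nat.card ↥A) (θ : G → Subgroup G) (hθ : Cfsg.IsSolvableSignalizerFunctor p A θ) (q : ℕ) [Fact q.Prime] (hq : ∀ a ∈ A, a ≠ 1 → IsPGroup q ↥(θ a)) : Cfsg.IsCompleteSignalizerFunctor p A θ := by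
  have hp : p.Prime := Fact.out
  refine ⟨hθ.1, ?_⟩
  by_cases hqp : q = p
  · subst hqp
    refine ⟨⊥, ?_, ?_, ?_⟩
    · intro b _ x hx
      rw [Subgroup.mem_bot] at hx ⊢
      rw [hx]; group
    · rw [Subgroup.card_bot]; exact hp.one_lt.ne' ∘ Nat.dvd_one.mp
    · intro a ha ha1
      obtain ⟨n, hn⟩ := IsPGroup.iff_card.mp (hq a ha ha1)
      have h1 := hθ.1.2.1 a ha ha1
      have hn0 : n = 0 := by
        by_contra h
        exact h1 (hn ▸ dvd_pow_self q h)
      rw [hn0, pow_zero] at hn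
      rw [bot_inf_eq, eq_comm]
      exact Subgroup.card_eq_one.mp hn
  · have hbot : (⊥ : Subgroup G) ∈ Cfsg.signalizerFamily p A θ := by
      refine ⟨inferInstance, ?_, ?_, ?_⟩
      · rw [Subgroup.card_bot]; exact hp.one_lt.ne' ∘ Nat.dvd_one.mp
      · intro b _ x hx
        rw [Subgroup.mem_bot] at hx ⊢
        rw [hx]; group
      · intro a _ _
        rw [bot_inf_eq]; exact bot_le
    obtain ⟨Q, hQ, -⟩ := exists_maxQ_ge (q := q) hbot IsPGroup.of_bot
    refine ⟨Q, hQ.1.2.2.1, hQ.1.2.1, ?_⟩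
    intro a ha ha1
    obtain ⟨S, hS⟩ := maxQ_sylow_centralizer p A hA hA3 θ hθ q hqp Q hQ (Subgroup.zpowers a)
      (Subgroup.zpowers_le.mpr ha) (Subgroup.zpowers_ne_bot.mpr ha1)
    have hT : Cfsg.signalizerInf (Subgroup.zpowers a) θ = θ a := by
      apply le_antisymm (signalizerInf_le (Subgroup.mem_zpowers a) ha1)
      intro x hx
      rw [mem_signalizerInf]
      intro b hb hb1
      apply hθ.1.2.2.2 a ha ha1 b (Subgroup.zpowers_le.mpr ha hb) hb1
      refine Subgroup.mem_inf.mpr ⟨hx, ?_⟩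
      have h1 := hθ.1.1 a ha ha1 hx
      rw [← centralizer_zpowers_eq] at h1
      exact Subgroup.centralizer_le (by simpa using hb) h1
    rw [centralizer_zpowers_eq] at hS
    rw [← hS, ← hT]
    exact (sylow_map_subtype_maximal S (hT ▸ hq a ha ha1) le_rfl (Subgroup.map_subtype_le _)).symm

end Cfsg.Agent.S1285
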