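import Mathlib
import Cfsg.Statements.S1286

set_option autoImplicit false
open Cfsg

namespace Cfsg.Agent.S1286

abbrev SL33 := Matrix.SpecialLinearGroup (Fin 3) (ZMod 3)

def eA : SL33 := ⟨!![-1, 0, 0; 0, -1, 0; 0, 0, 1], by decide +kernel⟩
def eB : SL33 := ⟨!![1, 0, 0; 0, -1, 0; 0, 0, -1], by decide +kernel⟩
def eX : SL33 := ⟨!![1, 1, 0; 0, 1, 0; 0, 0, 1], by decide +kernel⟩
def eY : SL33 := ⟨!![1, 0, 0; 0, 1, 1; 0, 0, 1], by decide +kernel⟩

def sA : Subgroup SL33 where
  carrier := {g | g = 1 ∨ g = eA ∨ g = eB ∨ g = eA * eB}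
  mul_mem' := by
    rintro _ _ (rfl | rfl | rfl | rfl) (rfl | rfl | rfl | rfl) <;>
      simp only [Set.mem_ofPred_eq] <;> decide +kernel
  one_mem' := Or.inl rfl
  inv_mem' := by
    rintro _ (rfl | rfl | rfl | rfl) <;>
      simp only [Set.mem_ofPred_eq] <;> decide +kernel

theorem mem_sA {g : SL33} : g ∈ sA ↔ g = 1 ∨ g = eA ∨ g = eB ∨ g = eA * eB := Iff.rfl

open Classical in
noncomputable def th (g : SL33) : Subgroup SL33 :=
  if g = eA then Subgroup.zpowers eX else if g = eB then Subgroup.zpowers eY else ⊥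

theorem th_A : th eA = Subgroup.zpowers eX := by simp [th]
theorem th_B : th eB = Subgroup.zpowers eY := by
  have : eB ≠ eA := by decide +kernel
  simp [th, this]
theorem th_C : th (eA * eB) = ⊥ := by
  have h1 : eA * eB ≠ eA := by decide +kernel
  have h2 : eA * eB ≠ eB := by decide +kernel
  simp [th, h1, h2]


theorem conj_mem_zpowers {G : Type*} [Group G] {b x : G} (h : b * x * b⁻¹ ∈ Subgroup.zpowers x)
    {w : G} (hw : w ∈ Subgroup.zpowers x) : b * w * b⁻¹ ∈ Subgroup.zpowers x := by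
  obtain ⟨k, rfl⟩ := hw
  have : b * x ^ k * b⁻¹ = (b * x * b⁻¹) ^ k := by
    rw [conj_zpow]
  rw [this]
  exact Subgroup.zpow_mem _ h k

theorem eq_one_of_inverted {G : Type*} [Group G] {b x : G} (h : b * x * b⁻¹ = x⁻¹) (h3 : x ^ 3 = 1)
    {w : G} (hw : w ∈ Subgroup.zpowers x) (hc : w ∈ Subgroup.centralizer {b}) : w = 1 := by
  obtain ⟨k, rfl⟩ := hw
  have h1 : b * x ^ k * b⁻¹ = (x ^ k)⁻¹ := by
    rw [← conj_zpow, h, inv_zpow]
  have h2 : b * x ^ k = x ^ k * b := (Subgroup.mem_centralizer_singleton_iff.mp hc).symm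
  rw [h2, mul_inv_cancel_right] at h1
  have h4 : (x ^ k) ^ 3 = 1 := by
    rw [← zpow_natCast, ← zpow_mul, mul_comm, zpow_mul, zpow_natCast, h3, one_zpow]
  have h5 : (x ^ k) ^ 2 = 1 := by
    rw [pow_two]
    nth_rewrite 1 [h1]
    exact inv_mul_cancel _
  calc x ^ k = (x ^ k) ^ 3 * ((x ^ k) ^ 2)⁻¹ := by group
    _ = 1 := by rw [h4, h5]; simp

theorem card_zp {x : SL33} (h3 : x ^ 3 = 1) (h1 : x ≠ 1) : ¬ 2 ∣ Nat.card (Subgroup.zpowers x) := by
  rw [Nat.card_zpowers, orderOf_eq_prime h3 h1]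
  decide

theorem isSF : Cfsg.IsSignalizerFunctor 2 sA th := by
  have hx3 : eX ^ 3 = 1 := by decide +kernel
  have hy3 : eY ^ 3 = 1 := by decide +kernel
  refine ⟨?_, ?_, ?_, ?_⟩
  · rintro a (rfl | rfl | rfl | rfl) ha1
    · exact absurd rfl ha1
    · rw [th_A, Subgroup.zpowers_le, Subgroup.mem_centralizer_singleton_iff]
      decide +kernel
    · rw [th_B, Subgroup.zpowers_le, Subgroup.mem_centralizer_singleton_iff]
      decide +kernel
    · rw [th_C]; exact bot_le
  · rintro a (rfl | rfl | rfl | rfl) ha1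
    · exact absurd rfl ha1
    · rw [th_A]; exact card_zp hx3 (by decide +kernel)
    · rw [th_B]; exact card_zp hy3 (by decide +kernel)
    · rw [th_C]; simp
  · rintro a (rfl | rfl | rfl | rfl) ha1 b hb x hx
    · exact absurd rfl ha1
    · rw [th_A] at hx ⊢
      refine conj_mem_zpowers ?_ hx
      rcases hb with (rfl | rfl | rfl | rfl)
      · exact ⟨1, by decide +kernel⟩
      · exact ⟨1, by decide +kernel⟩
      · exact ⟨-1, by decide +kernel⟩
      · exact ⟨-1, by decide +kernel⟩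
    · rw [th_B] at hx ⊢
      refine conj_mem_zpowers ?_ hx
      rcases hb with (rfl | rfl | rfl | rfl)
      · exact ⟨1, by decide +kernel⟩
      · exact ⟨-1, by decide +kernel⟩
      · exact ⟨1, by decide +kernel⟩
      · exact ⟨-1, by decide +kernel⟩
    · rw [th_C] at hx ⊢
      rw [Subgroup.mem_bot] at hx ⊢
      rw [hx]; group
  · rintro a (rfl | rfl | rfl | rfl) ha1 b hb hb1 w ⟨hw, hc⟩
    · exact absurd rfl ha1
    · rw [th_A] at hw
      rcases hb with (rfl | rfl | rfl | rfl)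
      · exact absurd rfl hb1
      · rw [th_A]; exact hw
      · rw [eq_one_of_inverted (by decide +kernel) hx3 hw hc]; exact one_mem _
      · rw [eq_one_of_inverted (by decide +kernel) hx3 hw hc]; exact one_mem _
    · rw [th_B] at hw
      rcases hb with (rfl | rfl | rfl | rfl)
      · exact absurd rfl hb1
      · rw [eq_one_of_inverted (by decide +kernel) hy3 hw hc]; exact one_mem _
      · rw [th_B]; exact hw
      · rw [eq_one_of_inverted (by decide +kernel) hy3 hw hc]; exact one_mem _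
    · rw [th_C] at hw
      rw [Subgroup.mem_bot.mp hw]; exact one_mem _

theorem card_sA : Nat.card sA = 4 := by
  have h : (sA : Set SL33) = ↑({1, eA, eB, eA * eB} : Finset SL33) := by
    ext g
    simp only [SetLike.mem_coe, mem_sA, Finset.coe_insert, Finset.coe_singleton,
      Set.mem_insert_iff, Set.mem_singleton_iff]
  have h2 : Nat.card sA = Set.ncard (sA : Set SL33) := rfl
  rw [h2, h, Set.ncard_coe_finset]
  decide +kernel

/-- There exist a finite group X, an elementary abelian subgroup A of order 4 and a solvable A-signalizer functor θ on X for the prime 2 which is not complete. -/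
theorem result : ∃ (X : Type) (_ : Group X) (_ : Finite X) (A : Subgroup X) (θ : X → Subgroup X), Cfsg.IsElementaryAbelian 2 A ∧ Nat.card ↥A = 4 ∧ Cfsg.IsSolvableSignalizerFunctor 2 A θ ∧ ¬ Cfsg.IsCompleteSignalizerFunctor 2 A θ := by
  refine ⟨SL33, inferInstance, inferInstance, sA, th, ⟨⟨⟨?_⟩⟩, ?_⟩, card_sA, ⟨isSF, ?_⟩, ?_⟩
  · rintro ⟨a, (rfl | rfl | rfl | rfl)⟩ ⟨b, (rfl | rfl | rfl | rfl)⟩ <;> apply Subtype.ext <;>
      simp only [Subgroup.coe_mul] <;> decide +kernel
  · rintro a (rfl | rfl | rfl | rfl) <;> decide +kernel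
  · rintro a (rfl | rfl | rfl | rfl) ha1
    · exact absurd rfl ha1
    · rw [th_A]; infer_instance
    · rw [th_B]; infer_instance
    · rw [th_C]; infer_instance
  · rintro ⟨-, W, -, -, hW⟩
    have hA := hW eA (Or.inr (Or.inl rfl)) (by decide +kernel)
    have hB := hW eB (Or.inr (Or.inr (Or.inl rfl))) (by decide +kernel)
    have hC := hW (eA * eB) (Or.inr (Or.inr (Or.inr rfl))) (by decide +kernel)
    rw [th_A] at hA
    rw [th_B] at hB
    rw [th_C] at hC
    have hx : eX ∈ W := by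
      have : eX ∈ W ⊓ Subgroup.centralizer {eA} := hA ▸ Subgroup.mem_zpowers eX
      exact this.1
    have hy : eY ∈ W := by
      have : eY ∈ W ⊓ Subgroup.centralizer {eB} := hB ▸ Subgroup.mem_zpowers eY
      exact this.1
    have hz : eX * eY * eX⁻¹ * eY⁻¹ ∈ W ⊓ Subgroup.centralizer {eA * eB} := by
      refine ⟨W.mul_mem (W.mul_mem (W.mul_mem hx hy) (W.inv_mem hx)) (W.inv_mem hy), ?_⟩
      show _ ∈ Subgroup.centralizer {eA * eB}
      rw [Subgroup.mem_centralizer_singleton_iff]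
      decide +kernel
    rw [hC, Subgroup.mem_bot] at hz
    exact absurd hz (by decide +kernel)

end Cfsg.Agent.S1286
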