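import Mathlib
import Cfsg.Statements.S1289
import Cfsg.Agent.Lib.Helper8.PComp

set_option autoImplicit false
open Cfsg
open Cfsg.Agent.Lib.Helper8

namespace Cfsg.Agent.S1289

/-- A p-component K of the finite group X is subnormal, perfect, of order divisible by p, and minimal among the subnormal perfect subgroups of X of order divisible by p. -/
theorem result {X : Type*} [Group X] [Finite X] (p : ℕ) [Fact p.Prime] (K : Subgroup X) (hK : Cfsg.IsPComponent p K) : K.IsSubnormal ∧ ⁅K, K⁆ = K ∧ p ∣ Nat.card ↥K ∧ ∀ H : Subgroup X, H ≤ K → H.IsSubnormal → ⁅H, H⁆ = H → p ∣ Nat.card ↥H → H = K := by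
  have hK' := (isPComponent_iff p K).mp hK
  have hp : p.Prime := Fact.out
  refine ⟨hK'.1, hK'.2.1, ?_, ?_⟩
  · by_contra h
    exact hK'.2.2.1 ((Nat.Prime.coprime_iff_not_dvd hp).mpr h).symm
  · intro H hHK hH hperf hdvd
    by_contra hne
    obtain ⟨N, hHN, hNK, hKN, -⟩ := ((subnIn_top.mpr hH).of_le hHK le_top).exists_normal hne
    rcases hK'.2.2.2 N hNK.le hKN with h | h
    · exact hNK.ne h
    · have h1 : H ≤ ⁅N, K⁆ := by
        rw [← hperf]; exact Subgroup.commutator_mono hHN hHK
      have h2 := Nat.Coprime.coprime_dvd_left (Subgroup.card_dvd_of_le h1) h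
      exact (Nat.Prime.coprime_iff_not_dvd hp).mp h2.symm hdvd

end Cfsg.Agent.S1289
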