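import Mathlib
import Cfsg.Statements.S1297
import Cfsg.Agent.Lib.Helper8.LBalance4

set_option autoImplicit false
open Cfsg
open Cfsg.Agent.Lib.Helper8

namespace Cfsg.Agent.S1297

/-- Let G be finite. Suppose that for every involution x, writing C = C_G(x), every component K of C / O(C) has K / Z(K) locally balanced. Then G is balanced. -/
theorem result {G : Type*} [Group G] [Finite G] (h : ∀ x : G, orderOf x = 2 → ∀ K : Subgroup (↥(Subgroup.centralizer ({x} : Set G)) ⧸ Cfsg.oddCore ↥(Subgroup.centralizer ({x} : Set G))), Cfsg.IsComponent K → Cfsg.IsLocallyBalanced (↥K ⧸ Subgroup.center ↥K)) : Cfsg.IsBalanced G := by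
  haveI : Fact (Nat.Prime 2) := ⟨Nat.prime_two⟩
  have hloc : ∀ (K : Type _) [Group K], Cfsg.IsLocallyBalanced K → Cfsg.IsLocallyKBalanced 2 1 K := by
    intro K _ hK H hH A hA hA2
    have hA1 : A ≠ ⊥ := by
      intro h
      rw [h, Subgroup.card_bot] at hA2
      norm_num at hA2
    obtain ⟨⟨a, ha⟩, ha1⟩ := Subgroup.ne_bot_iff_exists_ne_one.mp hA1
    have ha1' : a ≠ 1 := fun h => ha1 (Subtype.ext h)
    have ho : orderOf a = 2 := orderOf_eq_prime (hA.2 a ha) ha1'
    rw [eq_bot_iff, ← hK H hH a ho]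
    exact signalizerDelta_le ha ha1'
  have hbal : Cfsg.IsKBalanced 2 1 G :=
    isKBalanced_of_locally 2 1 le_rfl (fun x hx K hK => hloc _ (h x hx K hK))
  have key : ∀ x y : G, orderOf x = 2 → orderOf y = 2 → x * y = y * x →
      Cfsg.centralizerPPrimeCore 2 x ⊓ Subgroup.centralizer {y} ≤
        Cfsg.centralizerPPrimeCore 2 y ⊓ Subgroup.centralizer {x} := by
    intro x y hx hy hxy
    have hx2 : x ^ 2 = 1 := hx ▸ pow_orderOf_eq_one x
    refine le_inf ?_ (inf_le_left.trans (coreIn_le 2 _))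
    have h1 := hbal (Subgroup.zpowers x) (Cfsg.Agent.Lib.Helper4.elemAb_zpowers hx2)
      (by rw [Nat.card_zpowers, hx, pow_one]) y hy (by
        intro a ha
        have : Subgroup.zpowers x ≤ Subgroup.centralizer {y} := by
          rw [Subgroup.zpowers_le, Subgroup.mem_centralizer_singleton_iff]; exact hxy
        exact Subgroup.mem_centralizer_singleton_iff.mp (this ha))
    refine le_trans (inf_le_inf_right _ ?_) h1
    apply le_iInf
    rintro ⟨a, ha, ha1⟩
    obtain ⟨i, rfl⟩ := Subgroup.mem_zpowers_iff.mp ha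
    have : x ^ i = x := by
      rcases Int.even_or_odd' i with ⟨j, hj | hj⟩
      · exfalso
        apply ha1
        rw [hj, zpow_mul, zpow_ofNat, hx2, one_zpow]
      · rw [hj, zpow_add, zpow_mul, zpow_ofNat, hx2, one_zpow, one_mul, zpow_one]
    show _ ≤ Cfsg.centralizerPPrimeCore 2 (x ^ i)
    rw [this]
  intro x y hx hy hxy
  exact le_antisymm (key x y hx hy hxy) (key y x hy hx hxy.symm)

end Cfsg.Agent.S1297
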