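import Mathlib
import Cfsg.Statements.S1303
import Cfsg.Agent.Lib.Helper8.Cores

set_option autoImplicit false
open Cfsg
open Cfsg.Agent.Lib.Helper8

namespace Cfsg.Agent.S1303

abbrev SL := Matrix.SpecialLinearGroup (Fin 2) (ZMod 3)

def sQ : Subgroup SL where
  carrier := {g | g ^ 4 = 1}
  mul_mem' := by
    have : ∀ a b : SL, a ^ 4 = 1 → b ^ 4 = 1 → (a * b) ^ 4 = 1 := by decide +kernel
    intro a b ha hb
    exact this a b ha hb
  one_mem' := one_pow 4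
  inv_mem' := by
    intro a ha
    show (a⁻¹) ^ 4 = 1
    rw [inv_pow, show a ^ 4 = 1 from ha, inv_one]

theorem mem_sQ {g : SL} : g ∈ sQ ↔ g ^ 4 = 1 := Iff.rfl

instance sQ_normal : sQ.Normal := ⟨by
  intro n hn g
  rw [mem_sQ] at hn ⊢
  rw [conj_pow, hn]; group⟩

theorem sQ_pgroup : IsPGroup 2 sQ := by
  rintro ⟨g, hg⟩
  refine ⟨2, Subtype.ext ?_⟩
  exact hg

theorem core_bot : Cfsg.pPrimeCore 2 SL = ⊥ := by
  rw [Cfsg.pPrimeCore, eq_bot_iff]
  refine sSup_le ?_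
  rintro N ⟨hN, hc⟩
  have key : ∀ w ∈ N, w ^ 4 = 1 → w = 1 := by
    intro w hw h4
    have h1 : orderOf w ∣ 2 ^ 2 := orderOf_dvd_of_pow_eq_one h4
    have h2 : orderOf w ∣ Nat.card N := by
      have := orderOf_dvd_natCard (⟨w, hw⟩ : N)
      rwa [Subgroup.orderOf_mk] at this
    have h3 : Nat.Coprime (Nat.card N) (2 ^ 2) := Nat.Coprime.pow_right 2 hc
    have h4 : orderOf w = 1 := Nat.eq_one_of_dvd_coprimes h3 h2 h1
    exact orderOf_eq_one_iff.mp h4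
  have dec : ∀ g : SL, g ≠ 1 → (g ^ 3 ≠ 1 ∧ (g ^ 3) ^ 4 = 1) ∨
      ∃ h : SL, g⁻¹ * (h * g * h⁻¹) ≠ 1 ∧ (g⁻¹ * (h * g * h⁻¹)) ^ 4 = 1 := by decide +kernel
  intro g hg
  rw [Subgroup.mem_bot]
  by_contra hg1
  rcases dec g hg1 with ⟨h1, h2⟩ | ⟨h, h1, h2⟩
  · exact h1 (key _ (N.pow_mem hg 3) h2)
  · exact h1 (key _ (N.mul_mem (N.inv_mem hg) (hN.conj_mem g hg h)) h2)

theorem sQ_le : sQ ≤ Cfsg.pPrimePCore 2 SL := by
  rw [Cfsg.pPrimePCore, ← Subgroup.map_le_iff_le_comap]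
  refine le_pCore_of_normal ?_ ?_
  · exact Subgroup.Normal.map inferInstance _ (QuotientGroup.mk'_surjective _)
  · exact sQ_pgroup.map _

/-- The group X = SL(2, 3): it is 2-constrained, O_{2'}(X) = 1, its centre A = Z(X) contains every involution of X = C_X(A), and X has a subgroup of order 3 (normalized by A) not contained in O_{2'}(X). -/
theorem result : Cfsg.IsPConstrained 2 (Matrix.SpecialLinearGroup (Fin 2) (ZMod 3)) ∧ Cfsg.pPrimeCore 2 (Matrix.SpecialLinearGroup (Fin 2) (ZMod 3)) = ⊥ ∧ (∀ t : Matrix.SpecialLinearGroup (Fin 2) (ZMod 3), orderOf t = 2 → t ∈ Subgroup.center (Matrix.SpecialLinearGroup (Fin 2) (ZMod 3))) ∧ ∃ Q : Subgroup (Matrix.SpecialLinearGroup (Fin 2) (ZMod 3)), Nat.card ↥Q = 3 ∧ ¬ (Q ≤ Cfsg.pPrimeCore 2 (Matrix.SpecialLinearGroup (Fin 2) (ZMod 3))) := by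
  have : Fact (Nat.Prime 2) := ⟨Nat.prime_two⟩
  refine ⟨?_, core_bot, ?_, ?_⟩
  · intro P
    -- sQ.subgroupOf K is a normal 2-subgroup of K hence in P
    have h1 : sQ.subgroupOf (Cfsg.pPrimePCore 2 SL) ≤ P := by
      obtain ⟨P0, hP0⟩ := (sQ_pgroup.comap_subtype (K := Cfsg.pPrimePCore 2 SL)).exists_le_sylow
      obtain ⟨g, hg⟩ := MulAction.exists_smul_eq (Cfsg.pPrimePCore 2 SL) P0 P
      rw [← hg]
      intro x hx
      rw [Sylow.coe_subgroup_smul, Subgroup.mem_smul_pointwise_iff_exists]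
      refine ⟨g⁻¹ * x * g, hP0 ?_, ?_⟩
      · have := (inferInstance : (sQ.subgroupOf (Cfsg.pPrimePCore 2 SL)).Normal).conj_mem x hx g⁻¹
        simpa using this
      · simp [MulAut.smul_def, mul_assoc]
    have h2 : sQ ≤ (P : Subgroup (Cfsg.pPrimePCore 2 SL)).map (Cfsg.pPrimePCore 2 SL).subtype := by
      intro x hx
      exact ⟨⟨x, sQ_le hx⟩, h1 (Subgroup.mem_subgroupOf.mpr hx), rfl⟩
    intro c hc
    apply sQ_le
    have dec : ∀ c : SL, (∀ q : SL, q ^ 4 = 1 → q * c = c * q) → c ^ 4 = 1 := by decide +kernel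
    refine dec c ?_
    intro q hq
    exact Subgroup.mem_centralizer_iff.mp hc q (h2 hq)
  · intro t ht
    have dec : ∀ t : SL, t ^ 2 = 1 → ∀ g : SL, g * t = t * g := by decide +kernel
    rw [Subgroup.mem_center_iff]
    have h2 : t ^ 2 = 1 := by
      have := pow_orderOf_eq_one t
      rwa [ht] at this
    exact dec t h2
  · obtain ⟨u, hu3, hu1⟩ : ∃ u : SL, u ^ 3 = 1 ∧ u ≠ 1 := by decide +kernel
    refine ⟨Subgroup.zpowers u, ?_, ?_⟩
    · rw [Nat.card_zpowers, orderOf_eq_prime hu3 hu1]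
    · rw [core_bot]
      intro h
      exact hu1 (Subgroup.mem_bot.mp (h (Subgroup.mem_zpowers u)))

end Cfsg.Agent.S1303
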