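-- Statement S1304 (row 1304).
import Mathlib
import Cfsg.Statements.S1304

set_option autoImplicit false
open Cfsg
open scoped commutatorElement

namespace Cfsg.Agent.S1304

/-- Let X be a perfect group and α an automorphism of X with α(x) x⁻¹ central for every x. Then α is the identity. -/
theorem result {X : Type*} [Group X] (hperf : commutator X = ⊤) (α : X ≃* X) (h : ∀ x : X, α x * x⁻¹ ∈ Subgroup.center X) : ∀ x : X, α x = x := by
  -- the fixed points of α form a subgroup containing all commutators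
  have hfix : ∀ x y : X, α ⁅x, y⁆ = ⁅x, y⁆ := by
    intro x y
    have hx := Subgroup.mem_center_iff.mp (h x)
    have hy := Subgroup.mem_center_iff.mp (h y)
    set a := α x * x⁻¹ with ha
    set b := α y * y⁻¹ with hb
    have hax : α x = a * x := by simp [ha]
    have hby : α y = b * y := by simp [hb]
    simp only [commutatorElement_def, map_mul, map_inv, hax, hby, mul_inv_rev]
    have h1 : ∀ g, g * a = a * g := hx
    have h2 : ∀ g, g * b = b * g := hy
    have h1' : ∀ g, g * a⁻¹ = a⁻¹ * g := by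
      intro g
      have := h1 (a⁻¹ * g * a⁻¹)
      calc g * a⁻¹ = a * (a⁻¹ * g * a⁻¹) := by group
        _ = (a⁻¹ * g * a⁻¹) * a := (h1 _).symm
        _ = a⁻¹ * g := by group
    have h2' : ∀ g, g * b⁻¹ = b⁻¹ * g := by
      intro g
      calc g * b⁻¹ = b * (b⁻¹ * g * b⁻¹) := by group
        _ = (b⁻¹ * g * b⁻¹) * b := (h2 _).symm
        _ = b⁻¹ * g := by group
    calc a * x * (b * y) * (x⁻¹ * a⁻¹) * (y⁻¹ * b⁻¹)
        = a * (x * b) * y * x⁻¹ * a⁻¹ * y⁻¹ * b⁻¹ := by group
      _ = a * (b * x) * y * x⁻¹ * a⁻¹ * y⁻¹ * b⁻¹ := by rw [h2 x]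
      _ = a * b * ((x * y * x⁻¹) * a⁻¹) * y⁻¹ * b⁻¹ := by group
      _ = a * b * (a⁻¹ * (x * y * x⁻¹)) * y⁻¹ * b⁻¹ := by rw [h1']
      _ = a * (b * a⁻¹) * ((x * y * x⁻¹ * y⁻¹) * b⁻¹) := by group
      _ = a * (a⁻¹ * b) * (b⁻¹ * (x * y * x⁻¹ * y⁻¹)) := by rw [h1', h2']
      _ = x * y * x⁻¹ * y⁻¹ := by group
  let F : Subgroup X :=
    { carrier := {x | α x = x}
      mul_mem' := by intro a b ha hb; simp only [Set.mem_ofPred_eq] at *; rw [map_mul, ha, hb]
      one_mem' := by simp
      inv_mem' := by intro a ha; simp only [Set.mem_ofPred_eq] at *; rw [map_inv, ha] }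
  have hle : commutator X ≤ F := by
    rw [commutator_eq_closure, Subgroup.closure_le]
    rintro _ ⟨x, y, rfl⟩
    exact hfix x y
  intro x
  have : x ∈ F := hle (hperf ▸ Subgroup.mem_top x)
  exact this

end Cfsg.Agent.S1304
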