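import Mathlib
import Cfsg.Statements.S1306
import Cfsg.Agent.Lib.Helper8.PComp
import Cfsg.Agent.Lib.Helper8.Isolated

set_option autoImplicit false
open Cfsg
open Cfsg.Agent.Lib.Helper8

namespace Cfsg.Agent.S1306

/-- Let G be finite, x an involution and L ≤ C_G(x) a component of C_G(x). Suppose L is a component of C_G(y) for every involution y ∈ C_G(L), and ⁅L, g L g⁻¹⁆ ≠ 1 whenever g L g⁻¹ ≠ L. Then L is a standard subgroup of G. -/
theorem result {G : Type*} [Group G] [Finite G] (x : G) (hx : orderOf x = 2) (L : Subgroup G) (hLx : L ≤ Subgroup.centralizer ({x} : Set G)) (hL : Cfsg.IsComponent (L.subgroupOf (Subgroup.centralizer ({x} : Set G)))) (hne : ∀ y : G, orderOf y = 2 → y ∈ Subgroup.centralizer (L : Set G) → L ≤ Subgroup.centralizer ({y} : Set G) ∧ Cfsg.IsComponent (L.subgroupOf (Subgroup.centralizer ({y} : Set G)))) (hnc : ∀ g : G, L.map (MulAut.conj g).toMonoidHom ≠ L → ⁅L, L.map (MulAut.conj g).toMonoidHom⁆ ≠ ⊥) : Cfsg.IsStandardSubgroup L := by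
  have hxL : x ∈ Subgroup.centralizer (L : Set G) := by
    rw [Subgroup.mem_centralizer_iff]
    intro l hl
    exact Subgroup.mem_centralizer_singleton_iff.mp (hLx hl)
  have hcent : ∀ (y g : G), (Subgroup.centralizer ({g⁻¹ * y * g} : Set G)).map (MulAut.conj g).toMonoidHom
      = Subgroup.centralizer ({y} : Set G) := by
    intro y g
    ext z
    rw [mem_conjMap, Subgroup.mem_centralizer_singleton_iff, Subgroup.mem_centralizer_singleton_iff]
    constructor
    · intro h
      have : g * (g⁻¹ * z * g * (g⁻¹ * y * g)) * g⁻¹ = g * (g⁻¹ * y * g * (g⁻¹ * z * g)) * g⁻¹ := by rw [h]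
      simpa [mul_assoc] using this
    · intro h
      calc g⁻¹ * z * g * (g⁻¹ * y * g) = g⁻¹ * (z * y) * g := by group
        _ = g⁻¹ * (y * z) * g := by rw [h]
        _ = g⁻¹ * y * g * (g⁻¹ * z * g) := by group
  have key : ∀ (y g : G), orderOf y = 2 → y ∈ Subgroup.centralizer (L : Set G) →
      g⁻¹ * y * g ∈ Subgroup.centralizer (L : Set G) → L.map (MulAut.conj g).toMonoidHom = L := by
    intro y g hy hyL hygL
    obtain ⟨h1, h2⟩ := hne y hy hyL
    rw [isComponent_subgroupOf_iff h1] at h2
    have hy' : orderOf (g⁻¹ * y * g) = 2 := by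
      have := orderOf_conj_two (g := g⁻¹) hy
      simpa using this
    obtain ⟨h3, h4⟩ := hne _ hy' hygL
    rw [isComponent_subgroupOf_iff h3] at h4
    have h5 : SubnIn (L.map (MulAut.conj g).toMonoidHom) (Subgroup.centralizer ({y} : Set G)) := by
      have := h4.1.map (MulAut.conj g).toMonoidHom
      rwa [hcent] at this
    by_contra hcon
    exact hnc g hcon (h2.2.commutator_eq_bot_of_ne (h4.2.conj g) h2.1 h5 (Ne.symm hcon))
  have hnorm : Subgroup.normalizer (L : Set G) = Subgroup.normalizer (Subgroup.centralizer (L : Set G) : Set G) := by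
    apply le_antisymm (normalizer_le_normalizer_centralizer L)
    intro g hg
    rw [← conjMap_eq_iff_mem_normalizer]
    apply key x g hx hxL
    have := (Subgroup.mem_normalizer_iff.mp (Subgroup.inv_mem _ hg) x).mp hxL
    simpa using this
  refine ⟨?_, ⟨?_, ?_⟩, hnc, hnorm⟩
  · rw [isComponent_subgroupOf_iff hLx] at hL
    exact (isQuasisimple_iff_QS L).mpr hL.2
  · rw [even_iff_two_dvd, ← hx, ← Subgroup.orderOf_mk x hxL]
    exact orderOf_dvd_natCard _
  · intro g hg
    rw [← Nat.not_even_iff_odd, even_iff_two_dvd]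
    intro hdvd
    obtain ⟨y, hy⟩ := exists_prime_orderOf_dvd_card' 2 hdvd
    apply hg
    rw [← hnorm, ← conjMap_eq_iff_mem_normalizer]
    have hy2 := Subgroup.mem_inf.mp y.2
    apply key (y : G) g (by rw [Subgroup.orderOf_coe]; exact hy) hy2.1
    exact mem_conjMap.mp hy2.2

end Cfsg.Agent.S1306
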