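import Cfsg.Statements.S1314
import Cfsg.Agent.Lib.Helper8.Cores

set_option autoImplicit false
open Cfsg

namespace Cfsg.Agent.S1314

open Cfsg.Agent.Lib.Helper8
open scoped commutatorElement

theorem aux {G : Type*} [Group G] [Finite G] (x : G) (hx : orderOf x = 2) (L La : Subgroup G)
    (hLa : La = L.map (MulAut.conj x).toMonoidHom) (hperf : ⁅L, L⁆ = L) (hcomm : ⁅L, La⁆ = ⊥) :
    ∃ π : ↥L →* G, (∀ l : ↥L, π l = (l : G) * (x * (l : G) * x⁻¹)) ∧ π.ker ≤ Subgroup.center ↥L ∧
      π.range ≤ Subgroup.centralizer ({x} : Set G) ∧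
      ⁅(L ⊔ La) ⊓ Subgroup.centralizer ({x} : Set G), (L ⊔ La) ⊓ Subgroup.centralizer ({x} : Set G)⁆
        = π.range := by
  rw [Subgroup.commutator_eq_bot_iff_le_centralizer] at hcomm
  have hc : ∀ l ∈ L, ∀ m ∈ La, m * l = l * m := fun l hl m hm =>
    (Subgroup.mem_centralizer_iff.mp (hcomm hl)) m hm
  have hmemLa : ∀ l ∈ L, x * l * x⁻¹ ∈ La := fun l hl => by
    rw [hLa]; exact ⟨l, hl, rfl⟩
  have hx2 : x * x = 1 := by
    have := pow_orderOf_eq_one x
    rwa [hx, pow_two] at this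
  have hxi : x⁻¹ = x := inv_eq_of_mul_eq_one_left hx2
  let π : ↥L →* G := MonoidHom.mk' (fun l => (l : G) * (x * (l : G) * x⁻¹)) (by
    intro l l'
    show ((l * l' : L) : G) * (x * ((l * l' : L) : G) * x⁻¹) = _
    have := hc l'.1 l'.2 _ (hmemLa l.1 l.2)
    rw [Subgroup.coe_mul]
    calc (l : G) * l' * (x * ((l : G) * l') * x⁻¹)
        = (l : G) * (l' * (x * l * x⁻¹)) * (x * l' * x⁻¹) := by group
      _ = (l : G) * ((x * l * x⁻¹) * l') * (x * l' * x⁻¹) := by rw [this]
      _ = _ := by group)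
  have hπ : ∀ l : ↥L, π l = (l : G) * (x * (l : G) * x⁻¹) := fun l => rfl
  have hrC : π.range ≤ Subgroup.centralizer ({x} : Set G) := by
    rintro _ ⟨l, rfl⟩
    rw [Subgroup.mem_centralizer_singleton_iff, hπ]
    have := hc l.1 l.2 _ (hmemLa l.1 l.2)
    calc (l : G) * (x * l * x⁻¹) * x = (x * l * x⁻¹) * l * x := by rw [this]
      _ = x * (l * (x⁻¹ * l * x)) := by group
      _ = x * (l * (x * l * x⁻¹)) := by
          nth_rewrite 1 [hxi]
          nth_rewrite 3 [← hxi]
          rfl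
  have hrM : π.range ≤ L ⊔ La := by
    rintro _ ⟨l, rfl⟩
    rw [hπ]
    exact mul_mem ((le_sup_left : L ≤ L ⊔ La) l.2) ((le_sup_right : La ≤ L ⊔ La) (hmemLa l.1 l.2))
  have hLn : La ≤ Subgroup.normalizer (L : Set G) := by
    refine le_trans ?_ (Subgroup.centralizer_le_normalizer _)
    intro m hm
    rw [Subgroup.mem_centralizer_iff]
    intro l hl
    exact (hc l hl m hm).symm
  refine ⟨π, hπ, ?_, hrC, ?_⟩
  · intro l hl
    rw [MonoidHom.mem_ker, hπ] at hl
    have h1 : (l : G) ∈ La := by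
      have : (l : G) = (x * l * x⁻¹)⁻¹ := eq_inv_of_mul_eq_one_left hl
      rw [this]
      exact inv_mem (hmemLa l.1 l.2)
    rw [Subgroup.mem_center_iff]
    intro g
    apply Subtype.ext
    exact (hc g.1 g.2 _ h1).symm
  · apply le_antisymm
    · have hdec : ∀ c ∈ (L ⊔ La) ⊓ Subgroup.centralizer ({x} : Set G), ∃ b : ↥L, ∃ z : G,
          (∀ w ∈ L ⊔ La, z * w = w * z) ∧ c = π b * z := by
        intro c hcC
        obtain ⟨hcM, hcx⟩ := Subgroup.mem_inf.mp hcC
        obtain ⟨m, hm, l, hl, rfl⟩ := (mem_sup_of_le_normalizer hLn).mp hcM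
        rw [hLa] at hm
        obtain ⟨b, hb, rfl⟩ := hm
        rw [Subgroup.mem_centralizer_singleton_iff] at hcx
        have hcx' : x * b * x⁻¹ * l * x = x * (x * b * x⁻¹ * l) := hcx
        have h1 : b⁻¹ * l = x * (l * b⁻¹) * x⁻¹ := by
          have e1 : x * b * x⁻¹ * l = x * (x * b * x⁻¹ * l) * x⁻¹ := by
            rw [← hcx']; group
          have e2 : x * (x * b * x⁻¹ * l) * x⁻¹ = (x * x) * b * (x⁻¹ * l * x⁻¹) := by group
          rw [e2, hx2, one_mul] at e1
          have e3 : x⁻¹ * l * x⁻¹ = x * l * x⁻¹ := by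
            nth_rewrite 1 [hxi]; rfl
          rw [e3, hc l hl _ (hmemLa b hb)] at e1
          -- e1 : l * (x b x⁻¹) = b * (x l x⁻¹)
          calc b⁻¹ * l = b⁻¹ * (l * (x * b * x⁻¹)) * (x * b * x⁻¹)⁻¹ := by group
            _ = b⁻¹ * (b * (x * l * x⁻¹)) * (x * b * x⁻¹)⁻¹ := by rw [e1]
            _ = _ := by group
        have hzL : b⁻¹ * l ∈ L := mul_mem (inv_mem hb) hl
        have hzLa : b⁻¹ * l ∈ La := by
          rw [h1]; exact hmemLa _ (mul_mem hl (inv_mem hb))
        refine ⟨⟨b, hb⟩, b⁻¹ * l, ?_, ?_⟩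
        · have h2 : L ⊔ La ≤ Subgroup.centralizer ({b⁻¹ * l} : Set G) := by
            apply sup_le
            · intro l' hl'
              rw [Subgroup.mem_centralizer_singleton_iff]
              exact (hc l' hl' _ hzLa).symm
            · intro m' hm'
              rw [Subgroup.mem_centralizer_singleton_iff]
              exact hc _ hzL m' hm'
          intro w hw
          have := h2 hw
          rw [Subgroup.mem_centralizer_singleton_iff] at this
          exact this.symm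
        · rw [hπ]
          show x * b * x⁻¹ * l = b * (x * b * x⁻¹) * (b⁻¹ * l)
          rw [← hc b hb _ (hmemLa b hb)]
          group
      rw [Subgroup.commutator_le]
      intro c hcC c' hcC'
      obtain ⟨b, z, hz, rfl⟩ := hdec c hcC
      obtain ⟨b', z', hz', rfl⟩ := hdec c' hcC'
      have hpM : π b ∈ L ⊔ La := hrM ⟨b, rfl⟩
      have hpM' : π b' ∈ L ⊔ La := hrM ⟨b', rfl⟩
      have hcM' : π b' * z' ∈ L ⊔ La := (Subgroup.mem_inf.mp hcC').1
      have h1 : z * (π b' * z') * z⁻¹ = π b' * z' := by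
        rw [hz _ hcM', mul_inv_cancel_right]
      have h2 : z' * (π b)⁻¹ * z'⁻¹ = (π b)⁻¹ := by
        rw [hz' _ (inv_mem hpM), mul_inv_cancel_right]
      have h3 : ⁅π b * z, π b' * z'⁆ = ⁅π b, π b'⁆ := by
        calc ⁅π b * z, π b' * z'⁆ = π b * (z * (π b' * z') * z⁻¹) * (π b)⁻¹ * z'⁻¹ * (π b')⁻¹ := by
              rw [commutatorElement_def]; group
          _ = π b * (π b' * z') * (π b)⁻¹ * z'⁻¹ * (π b')⁻¹ := by rw [h1]
          _ = π b * π b' * (z' * (π b)⁻¹ * z'⁻¹) * (π b')⁻¹ := by group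
          _ = π b * π b' * (π b)⁻¹ * (π b')⁻¹ := by rw [h2]
          _ = _ := by rw [commutatorElement_def]
      rw [h3, ← map_commutatorElement]
      exact ⟨_, rfl⟩
    · have htop : ⁅(⊤ : Subgroup L), (⊤ : Subgroup L)⁆ = ⊤ := by
        apply Subgroup.map_injective L.subtype_injective
        rw [Subgroup.map_commutator, ← MonoidHom.range_eq_map, Subgroup.range_subtype, hperf]
      rw [MonoidHom.range_eq_map, ← htop, Subgroup.map_commutator, ← MonoidHom.range_eq_map]
      exact Subgroup.commutator_mono (le_inf hrM hrC) (le_inf hrM hrC)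

/-- Let x be an involution of a group G and L a perfect subgroup with ⁅L, x L x⁻¹⁆ = 1. Then l ↦ l (x l x⁻¹) is a group homomorphism π from L to G whose kernel is central in L and whose image lies in C_G(x); and the commutator subgroup of C_{L ⊔ xLx⁻¹}(x) equals the image of π. -/
theorem result {G : Type*} [Group G] [Finite G] (x : G) (hx : orderOf x = 2) (L : Subgroup G) (hperf : ⁅L, L⁆ = L) (hcomm : ⁅L, L.map (MulAut.conj x).toMonoidHom⁆ = ⊥) : ∃ π : ↥L →* G, (∀ l : ↥L, π l = (l : G) * (x * (l : G) * x⁻¹)) ∧ π.ker ≤ Subgroup.center ↥L ∧ π.range ≤ Subgroup.centralizer ({x} : Set G) ∧ ⁅(L ⊔ L.map (MulAut.conj x).toMonoidHom) ⊓ Subgroup.centralizer ({x} : Set G), (L ⊔ L.map (MulAut.conj x).toMonoidHom) ⊓ Subgroup.centralizer ({x} : Set G)⁆ = π.range := by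
  exact aux x hx L _ rfl hperf hcomm

end Cfsg.Agent.S1314
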