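import Cfsg.Statements.S1316
import Mathlib
import Cfsg.Agent.Lib.Helper9.Layer

set_option autoImplicit false
open Cfsg

namespace Cfsg.Agent.S1316

open Cfsg.Agent.Lib.Helper8 Cfsg.Agent.Lib.Helper9

/-- For a finite group X, E(X) equals the intersection of the derived series of F*(X) (its last term). -/
theorem result {X : Type*} [Group X] [Finite X] : (⨅ n : ℕ, (derivedSeries ↥(Cfsg.generalizedFittingSubgroup X) n).map (Cfsg.generalizedFittingSubgroup X).subtype) = Cfsg.layer X := by
  have hn := layer_normal (G := X)
  apply le_antisymm
  · let f : ↥(Cfsg.generalizedFittingSubgroup X) →* X ⧸ Cfsg.layer X :=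
      (QuotientGroup.mk' (Cfsg.layer X)).comp (Cfsg.generalizedFittingSubgroup X).subtype
    have hsol : Group.IsSolvable f.range := by
      have hr : f.range = (Cfsg.fittingSubgroup X).map (QuotientGroup.mk' (Cfsg.layer X)) := by
        rw [MonoidHom.range_comp, Subgroup.range_subtype]
        unfold Cfsg.generalizedFittingSubgroup
        rw [Subgroup.map_sup, QuotientGroup.map_mk'_self, bot_sup_eq]
      rw [hr]
      have := fitting_solvable (G := X)
      exact Group.isSolvable_of_surjective
        ((QuotientGroup.mk' (Cfsg.layer X)).subgroupMap_surjective (Cfsg.fittingSubgroup X))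
    obtain ⟨n, hn'⟩ := (Group.isSolvable_def _).mp hsol
    refine (iInf_le _ n).trans ?_
    have h1 := map_derivedSeries_le_derivedSeries f.rangeRestrict n
    rw [hn', le_bot_iff] at h1
    rintro _ ⟨y, hy, rfl⟩
    have h2 : f.rangeRestrict y = 1 := by
      have : f.rangeRestrict y ∈ (derivedSeries _ n).map f.rangeRestrict := ⟨y, hy, rfl⟩
      rw [h1] at this
      exact this
    have h3 : f y = 1 := congrArg Subtype.val h2
    exact (QuotientGroup.eq_one_iff _).mp h3
  · apply le_iInf
    intro n
    induction n with
    | zero =>
      rw [derivedSeries_zero, ← MonoidHom.range_eq_map, Subgroup.range_subtype]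
      exact le_sup_left
    | succ n ih =>
      rw [derivedSeries_succ, Subgroup.map_commutator]
      calc Cfsg.layer X = ⁅Cfsg.layer X, Cfsg.layer X⁆ := layer_perfect.symm
        _ ≤ _ := Subgroup.commutator_mono ih ih

end Cfsg.Agent.S1316
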