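import Cfsg.Statements.S1317
import Mathlib
import Cfsg.Agent.Lib.Helper9.Layer

set_option autoImplicit false
open Cfsg

namespace Cfsg.Agent.S1317

open Cfsg.Agent.Lib.Helper8 Cfsg.Agent.Lib.Helper9

/-- For a finite group X, the centre of the layer E(X) is F(X) ∩ E(X). -/
theorem result {X : Type*} [Group X] [Finite X] : (Subgroup.center ↥(Cfsg.layer X)).map (Cfsg.layer X).subtype = Cfsg.fittingSubgroup X ⊓ Cfsg.layer X := by
  apply le_antisymm
  · rintro _ ⟨z, hz, rfl⟩
    refine Subgroup.mem_inf.mpr ⟨?_, z.2⟩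
    apply layer_inf_centralizer_le_fitting
    refine Subgroup.mem_inf.mpr ⟨z.2, ?_⟩
    rw [Subgroup.mem_centralizer_iff]
    intro y hy
    have hz' : z ∈ Subgroup.center ↥(Cfsg.layer X) := hz
    rw [Subgroup.mem_center_iff] at hz'
    exact congrArg Subtype.val (hz' ⟨y, hy⟩)
  · intro z hz
    obtain ⟨hz1, hz2⟩ := Subgroup.mem_inf.mp hz
    refine ⟨⟨z, hz2⟩, ?_, rfl⟩
    show (⟨z, hz2⟩ : ↥(Cfsg.layer X)) ∈ Subgroup.center ↥(Cfsg.layer X)
    rw [Subgroup.mem_center_iff]
    intro y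
    apply Subtype.ext
    have h1 := layer_comm_fitting (G := X)
    rw [Subgroup.commutator_eq_bot_iff_le_centralizer] at h1
    have h2 := h1 y.2
    rw [Subgroup.mem_centralizer_iff] at h2
    exact (h2 z hz1).symm

end Cfsg.Agent.S1317
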