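import Cfsg.Statements.S1318
import Mathlib
import Cfsg.Agent.Lib.Helper9.Layer

set_option autoImplicit false
open Cfsg

namespace Cfsg.Agent.S1318

open Cfsg.Agent.Lib.Helper8 Cfsg.Agent.Lib.Helper9

/-- Let X be finite and S ≤ F*(X) a subgroup subnormal in F*(X). Then F(S) = F(X) ∩ S (inside X) and S = F(S)E(S). -/
theorem result {X : Type*} [Group X] [Finite X] (S : Subgroup X) (hS : S ≤ Cfsg.generalizedFittingSubgroup X) (hsn : (S.subgroupOf (Cfsg.generalizedFittingSubgroup X)).IsSubnormal) : (Cfsg.fittingSubgroup ↥S).map S.subtype = Cfsg.fittingSubgroup X ⊓ S ∧ Cfsg.fittingSubgroup ↥S ⊔ Cfsg.layer ↥S = ⊤ := by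
  have hsn' : S.IsSubnormal :=
    SubnIn.isSubnormal ⟨hS, hsn⟩ (generalizedFittingSubgroup_normal (G := X)).isSubnormal
  have hF := map_fitting_eq hsn'
  refine ⟨hF, ?_⟩
  rw [eq_top_iff]
  have h1 := le_sup_of_subnormal_of_le_fstar hS hsn'
  have h2 : S ≤ (Cfsg.fittingSubgroup ↥S ⊔ Cfsg.layer ↥S).map S.subtype := by
    rw [Subgroup.map_sup, hF]
    refine h1.trans (sup_le ?_ le_sup_left)
    refine le_trans ?_ le_sup_right
    apply sSup_le
    intro L hL
    exact comp_le_map_layer hL.1 hL.2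
  intro x _
  obtain ⟨y, hy, hyx⟩ := h2 x.2
  have : y = x := Subtype.ext hyx
  rw [← this]; exact hy

end Cfsg.Agent.S1318
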