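import Cfsg.Statements.S1320
import Mathlib
import Cfsg.Agent.Lib.Helper9.Layer

set_option autoImplicit false
open Cfsg

namespace Cfsg.Agent.S1320

open Cfsg.Agent.Lib.Helper8 Cfsg.Agent.Lib.Helper9

/-- Let B be a normal subgroup of the finite group A. Then F*(A) ∩ B = F*(B). -/
theorem result {A : Type*} [Group A] [Finite A] (B : Subgroup A) [B.Normal] : Cfsg.generalizedFittingSubgroup A ⊓ B = (Cfsg.generalizedFittingSubgroup ↥B).map B.subtype := by
  have hB : B.Normal := inferInstance
  have hBsn : B.IsSubnormal := hB.isSubnormal
  have hF := map_fitting_eq hBsn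
  unfold Cfsg.generalizedFittingSubgroup
  rw [Subgroup.map_sup, hF]
  apply le_antisymm
  · have hn := generalizedFittingSubgroup_normal (G := A)
    have hSn : (Cfsg.generalizedFittingSubgroup A ⊓ B).Normal := inferInstance
    have h1 := le_sup_of_subnormal_of_le_fstar (S := Cfsg.generalizedFittingSubgroup A ⊓ B) inf_le_left
      hSn.isSubnormal
    unfold Cfsg.generalizedFittingSubgroup at h1
    refine h1.trans (sup_le ?_ ?_)
    · refine le_trans ?_ le_sup_left
      apply sSup_le
      intro L hL
      exact comp_le_map_layer hL.1 (hL.2.trans inf_le_right)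
    · refine le_trans ?_ le_sup_right
      exact inf_le_inf le_rfl inf_le_right
  · apply le_inf
    · exact sup_le_sup (map_layer_le hBsn) inf_le_left
    · exact sup_le (Subgroup.map_subtype_le _) inf_le_right

end Cfsg.Agent.S1320
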