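import Cfsg.Statements.S1321
import Mathlib
import Cfsg.Agent.Lib.Helper9.Layer

set_option autoImplicit false
open Cfsg

namespace Cfsg.Agent.S1321

open Cfsg.Agent.Lib.Helper8 Cfsg.Agent.Lib.Helper9
open scoped commutatorElement

/-- Let X be finite and U ≤ X. Then E(X) is generated by C_{E(X)}(U) together with ⁅E(X), U⁆ (indeed it is their product, ⁅E(X), U⁆ being normal in E(X)). -/
theorem result {X : Type*} [Group X] [Finite X] (U : Subgroup X) : Cfsg.layer X = (Cfsg.layer X ⊓ Subgroup.centralizer (U : Set X)) ⊔ ⁅Cfsg.layer X, U⁆ ∧ ⁅Cfsg.layer X, U⁆ ≤ Cfsg.layer X := by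
  have hn := layer_normal (G := X)
  have hle : ⁅Cfsg.layer X, U⁆ ≤ Cfsg.layer X :=
    commutator_le_left_of_le_normalizer (le_normalizer_of_normal' hn)
  refine ⟨le_antisymm ?_ (sup_le inf_le_left hle), hle⟩
  have hK : (⁅Cfsg.layer X, U⁆ : Subgroup X).IsSubnormal := by
    refine (SubnIn.of_normal hle ?_).isSubnormal hn.isSubnormal
    intro e he
    apply mem_normalizer_of_conj_mem
    intro x hx
    -- e x e⁻¹ = [e, x] x ; need [E,U] normalized by E
    have key : ∀ y ∈ (⁅Cfsg.layer X, U⁆ : Subgroup X), e * y * e⁻¹ ∈ (⁅Cfsg.layer X, U⁆ : Subgroup X) := by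
      intro y hy
      induction hy using Subgroup.closure_induction with
      | mem y hy =>
        obtain ⟨a, ha, u, hu, rfl⟩ := hy
        have h1 : e * ⁅a, u⁆ * e⁻¹ = ⁅e * a, u⁆ * ⁅e, u⁆⁻¹ := by
          simp only [commutatorElement_def]; group
        rw [h1]
        exact Subgroup.mul_mem _ (Subgroup.commutator_mem_commutator ((Cfsg.layer X).mul_mem he ha) hu)
          (Subgroup.inv_mem _ (Subgroup.commutator_mem_commutator he hu))
      | one => simp
      | mul a b _ _ ha hb =>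
        have : e * (a * b) * e⁻¹ = (e * a * e⁻¹) * (e * b * e⁻¹) := by group
        rw [this]; exact Subgroup.mul_mem _ ha hb
      | inv a _ ha =>
        have : e * a⁻¹ * e⁻¹ = (e * a * e⁻¹)⁻¹ := by group
        rw [this]; exact Subgroup.inv_mem _ ha
    exact key x hx
  apply sSup_le
  intro L hL
  have hLE : L ≤ Cfsg.layer X := le_layer_of_isComponent hL
  rcases comp_le_or_comm hL hK with h | h
  · exact h.trans le_sup_right
  · refine le_trans ?_ le_sup_left
    refine le_inf hLE ?_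
    rw [← Subgroup.commutator_eq_bot_iff_le_centralizer]
    have h1 : ⁅⁅L, U⁆, L⁆ = ⊥ := by
      rw [eq_bot_iff]
      calc ⁅⁅L, U⁆, L⁆ ≤ ⁅⁅Cfsg.layer X, U⁆, L⁆ :=
            Subgroup.commutator_mono (Subgroup.commutator_mono hLE le_rfl) le_rfl
        _ = ⁅L, ⁅Cfsg.layer X, U⁆⁆ := Subgroup.commutator_comm _ _
        _ = ⊥ := h
    have h2 : ⁅⁅U, L⁆, L⁆ = ⊥ := by rw [Subgroup.commutator_comm U L]; exact h1
    have h3 : ⁅⁅L, L⁆, U⁆ = ⊥ := Subgroup.commutator_commutator_eq_bot_of_rotate h1 h2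
    rwa [comp_perfect hL] at h3

end Cfsg.Agent.S1321
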