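import Cfsg.Statements.S1324
import Mathlib
import Cfsg.Agent.Lib.Helper9.Generation

set_option autoImplicit false
open Cfsg

namespace Cfsg.Agent.S1324

open Cfsg.Agent.Lib.Helper9

/-- Let A be a noncyclic elementary abelian p-subgroup of a finite group H normalizing a subgroup X of order prime to p. Then X is generated by the subgroups X ∩ C_H(B), B ranging over the subgroups of A of index at most p. -/
theorem result {H : Type*} [Group H] [Finite H] (p : ℕ) [Fact p.Prime] (A X : Subgroup H) (hA : Cfsg.IsElementaryAbelian p A) (hA2 : p ^ 2 ≤ Nat.card ↥A) (hX : ¬ p ∣ Nat.card ↥X) (hAX : A ≤ Subgroup.normalizer (X : Set H)) : X = ⨆ B : {B : Subgroup H // B ≤ A ∧ B.relIndex A ≤ p}, X ⊓ Subgroup.centralizer ((B : Subgroup H) : Set H) := by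
  have hp : p.Prime := Fact.out
  have hpA : p ≤ Nat.card ↥A := le_trans (by nlinarith [hp.one_lt]) hA2
  apply le_antisymm
  · conv_lhs => rw [gen_hyperplanes p A X hA hpA hX hAX]
    apply iSup_le
    intro B
    exact le_iSup (fun B : {B : Subgroup H // B ≤ A ∧ B.relIndex A ≤ p} =>
      X ⊓ Subgroup.centralizer ((B : Subgroup H) : Set H)) ⟨B.1, B.2.1, B.2.2.le⟩
  · exact iSup_le (fun _ => inf_le_left)

end Cfsg.Agent.S1324
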