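import Cfsg.Statements.S1328
import Cfsg.Agent.Lib.Helper16.Unbal

set_option autoImplicit false
open Cfsg

namespace Cfsg.Agent.S1328

open Cfsg.Agent.Lib.Helper8 Cfsg.Agent.Lib.Helper16


/-- Let G be finite, H ≤ G with O(H) = 1, t an involution of G normalizing H, and Y a nontrivial subgroup of O(C_H(t)). Then some component E of H is normalized by t and by Y and centralized by neither t nor Y. -/
theorem result {G : Type*} [Group G] [Finite G] (H : Subgroup G) (hO : Cfsg.oddCore ↥H = ⊥) (t : G) (ht : orderOf t = 2) (htH : t ∈ Subgroup.normalizer (H : Set G)) (Y : Subgroup G) (hY1 : Y ≠ ⊥) (hY : Y ≤ (Cfsg.oddCore ↥(H ⊓ Subgroup.centralizer ({t} : Set G))).map (H ⊓ Subgroup.centralizer ({t} : Set G)).subtype) : ∃ E : Subgroup ↥H, Cfsg.IsComponent E ∧ (E.map H.subtype).map (MulAut.conj t).toMonoidHom = E.map H.subtype ∧ Y ≤ Subgroup.normalizer ((E.map H.subtype : Subgroup G) : Set G) ∧ ¬ (t ∈ Subgroup.centralizer ((E.map H.subtype : Subgroup G) : Set G)) ∧ ¬ (Y ≤ Subgroup.centralizer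 ((E.map H.subtype : Subgroup G) : Set G)) := by
  obtain ⟨E, hE, h1, h2, h3, h4⟩ := exists_component_unbalanced H hO t ht htH Y hY1 hY
  have e : (E.subgroupOf H).map H.subtype = E := subgroupOf_map_subtype_eq hE.1.1
  refine ⟨E.subgroupOf H, (isComponent_subgroupOf_iff hE.1.1).mpr hE, ?_, ?_, ?_, ?_⟩
  · rw [e]; exact conj_eq_of_mem_normalizer h1
  · rw [e]; exact h2
  · rw [e]; exact h3
  · rw [e]; exact h4

end Cfsg.Agent.S1328
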