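import Cfsg.Statements.S1331
import Mathlib
import Cfsg.Agent.Lib.Helper9.Generation

set_option autoImplicit false
open Cfsg

namespace Cfsg.Agent.S1331

open Cfsg.Agent.Lib.Helper9

/-- Let θ be a solvable A-signalizer functor on the finite group G for the prime p, A elementary abelian of rank at least 3, X a member of the family of θ, and B ≤ A with |B| ≥ p². Then X is generated by the subgroups X ∩ ⋂_{d ∈ D, d ≠ 1} θ d, D ranging over the subgroups of index p in B. -/
theorem result {G : Type*} [Group G] [Finite G] (p : ℕ) [Fact p.Prime] (A : Subgroup G) (hA : Cfsg.IsElementaryAbelian p A) (hA3 : p ^ 3 ≤ Nat.card ↥A) (θ : G → Subgroup G) (hθ : Cfsg.IsSolvableSignalizerFunctor p A θ) (X : Subgroup G) (hX : X ∈ Cfsg.signalizerFamily p A θ) (B : Subgroup G) (hB : B ≤ A) (hB2 : p ^ 2 ≤ Nat.card ↥B) : X = ⨆ D : {D : Subgroup G // D ≤ B ∧ D.relIndex B = p}, X ⊓ Cfsg.signalizerInf (D : Subgroup G) θ := by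
  have hp : p.Prime := Fact.out
  have hpB : p ≤ Nat.card ↥B := le_trans (by nlinarith [hp.one_lt]) hB2
  obtain ⟨-, hXp, hinv, hθX⟩ := hX
  have hBX : B ≤ Subgroup.normalizer (X : Set G) := by
    intro b hb
    exact Cfsg.Agent.Lib.Helper8.mem_normalizer_of_conj_mem X b (fun x hx => hinv b (hB hb) x hx)
  apply le_antisymm
  · conv_lhs => rw [gen_hyperplanes p B X (Cfsg.Agent.Lib.Helper4.elemAb_of_le hB hA) hpB hXp hBX]
    apply iSup_le
    intro D
    refine le_trans ?_ (le_iSup (fun D : {D : Subgroup G // D ≤ B ∧ D.relIndex B = p} =>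
      X ⊓ Cfsg.signalizerInf (D : Subgroup G) θ) D)
    refine le_inf inf_le_left ?_
    unfold Cfsg.signalizerInf
    apply le_iInf
    rintro ⟨d, hd, hd1⟩
    refine le_trans ?_ (hθX d (hB (D.2.1 hd)) hd1)
    refine inf_le_inf le_rfl ?_
    apply Subgroup.centralizer_le
    intro z hz
    have : z = d := hz
    rw [this]; exact hd
  · exact iSup_le (fun _ => inf_le_left)

end Cfsg.Agent.S1331
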