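import Mathlib
import Cfsg.Statements.S1335
import Cfsg.Agent.Lib.Helper9.Basic

set_option autoImplicit false
open Cfsg

namespace Cfsg.Agent.S1335

open Cfsg.Agent.Lib.Helper9

/-- Let H be a subgroup of the finite group G, p a prime, k ≥ 1, P a Sylow p-subgroup of H of p-rank at least k, and suppose N_G(X) ≤ H for every subgroup X ≤ P of p-rank at least k. Then P is a Sylow p-subgroup of G. -/
theorem result {G : Type*} [Group G] [Finite G] {p : ℕ} [Fact p.Prime] (k : ℕ) (hk : 1 ≤ k) (H : Subgroup G) (P : Sylow p ↥H) (hP : ¬ Cfsg.PRankLE p (k - 1) ↥(P : Subgroup ↥H)) (hΓ : (∀ X : Subgroup G, X ≤ (P : Subgroup ↥H).map H.subtype → ¬ Cfsg.PRankLE p (k - 1) ↥X → Subgroup.normalizer (X : Set G) ≤ H)) : ∃ Q : Sylow p G, (Q : Subgroup G) = (P : Subgroup ↥H).map H.subtype := by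
  set P' : Subgroup G := (P : Subgroup ↥H).map H.subtype with hP'
  have hP'p : IsPGroup p P' := P.2.map H.subtype
  -- rank transfers
  have hrk : ¬ Cfsg.PRankLE p (k - 1) ↥P' := by
    intro h
    apply hP
    exact pRankLE_of_injective
      ((P : Subgroup ↥H).equivMapOfInjective H.subtype H.subtype_injective).toMonoidHom
      (MulEquiv.injective _) h
  have hN : Subgroup.normalizer (P' : Set G) ≤ H := hΓ P' le_rfl hrk
  obtain ⟨Q, hQ⟩ := hP'p.exists_le_sylow
  refine ⟨Q, ?_⟩
  by_contra hne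
  have hlt : P' < (Q : Subgroup G) := lt_of_le_of_ne hQ (Ne.symm hne)
  obtain ⟨x, hxQ, hxN, hxP⟩ := exists_mem_normalizer_not_mem Q.2 hlt
  -- R = N_Q(P') is a p-subgroup of H containing P'
  set R : Subgroup G := Subgroup.normalizer (P' : Set G) ⊓ (Q : Subgroup G) with hR
  have hRp : IsPGroup p R := Q.2.to_le inf_le_right
  have hRH : R ≤ H := inf_le_left.trans hN
  have hPR : P' ≤ R := le_inf Subgroup.le_normalizer hQ
  have hRp' : IsPGroup p (R.subgroupOf H) :=
    hRp.comap_of_injective H.subtype H.subtype_injective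
  have hle : (P : Subgroup ↥H) ≤ R.subgroupOf H := by
    intro y hy
    rw [Subgroup.mem_subgroupOf]
    exact hPR ⟨y, hy, rfl⟩
  have heq := P.is_maximal' hRp' hle
  have hxR : x ∈ R := ⟨hxN, hxQ⟩
  have : (⟨x, hRH hxR⟩ : H) ∈ (P : Subgroup ↥H) := by
    rw [← heq, Subgroup.mem_subgroupOf]
    exact hxR
  exact hxP ⟨_, this, rfl⟩

end Cfsg.Agent.S1335
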