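import Cfsg.Statements.S1336
import Cfsg.Agent.Lib.Helper17.SylGraph
import Cfsg.Agent.Lib.Helper4.Basic

set_option autoImplicit false
open Cfsg

namespace Cfsg.Agent.S1336

open Cfsg.Agent.Lib.Helper17 Cfsg.Agent.Lib.Helper4

/-- the vertex predicate -/
def Vtx {G : Type*} [Group G] (p : ℕ) (A : Subgroup G) : Prop :=
  IsElementaryAbelian p A ∧ p ^ 1 ≤ Nat.card ↥A

/-- the edge relation -/
def Rel {G : Type*} [Group G] (p : ℕ) (A B : Subgroup G) : Prop :=
  IsElementaryAbelian p A ∧ p ^ 1 ≤ Nat.card ↥A ∧ IsElementaryAbelian p B ∧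
        p ^ 1 ≤ Nat.card ↥B ∧ ∀ a ∈ A, ∀ b ∈ B, a * b = b * a

theorem vtx_zpowers {G : Type*} [Group G] {p : ℕ} {w : G} (hw : orderOf w = p) :
    Vtx p (Subgroup.zpowers w) :=
  ⟨elemAb_zpowers (by rw [← hw, pow_orderOf_eq_one]), by rw [Nat.card_zpowers, hw, pow_one]⟩

theorem vtx_ne_bot {G : Type*} [Group G] {p : ℕ} [hp : Fact p.Prime] {A : Subgroup G}
    (hA : Vtx p A) : A ≠ ⊥ := by
  intro h
  have h1 := hA.2
  rw [h, Subgroup.card_bot, pow_one] at h1
  exact absurd hp.out.one_lt (by omega)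

theorem not_conn_of_strEmb {G : Type*} [Group G] {p : ℕ} [Fact p.Prime] [Finite G] {H : Subgroup G}
    (h : StrEmb p H) : ¬ Cfsg.IsKConnected p 1 G := by
  intro hc
  obtain ⟨y, hy⟩ := exists_prime_orderOf_dvd_card' p h.dvd
  have hy' : orderOf (y : G) = p := by rw [Subgroup.orderOf_coe]; exact hy
  have hy1 : (y : G) ≠ 1 := by
    intro h1
    rw [h1, orderOf_one] at hy'
    exact (Fact.out : p.Prime).one_lt.ne hy'
  obtain ⟨g, hg⟩ : ∃ g, g ∉ H := by
    by_contra hcon
    push Not at hcon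
    exact h.ne_top (eq_top_iff.mpr fun x _ => hcon x)
  have hyg : orderOf (g * (y : G) * g⁻¹) = p := by
    rw [← MulAut.conj_apply, (MulAut.conj g).orderOf_eq]; exact hy'
  have hE := vtx_zpowers hy'
  have hE' := vtx_zpowers hyg
  have hchain : Relation.ReflTransGen (Rel p) (Subgroup.zpowers (y : G))
      (Subgroup.zpowers (g * (y : G) * g⁻¹)) := hc _ _ hE.1 hE.2 hE'.1 hE'.2
  have key : ∀ B, Relation.ReflTransGen (Rel p) (Subgroup.zpowers (y : G)) B → B ≤ H := by
    intro B hB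
    induction hB with
    | refl => rw [Subgroup.zpowers_le]; exact y.2
    | @tail b c _ hbc ih =>
      obtain ⟨hb1, hb2, hc1, hc2, hcomm⟩ := hbc
      obtain ⟨w, hw, hw1⟩ := exists_ne_one_of_ne_bot (vtx_ne_bot (p := p) ⟨hb1, hb2⟩)
      intro x hx
      apply h.centralizer_le hw1 (k := 1) (by rw [pow_one]; exact hb1.2 w hw) (ih hw)
      rw [Subgroup.mem_centralizer_singleton_iff]
      exact (hcomm w hw x hx).symm
  have h2 := key _ hchain (Subgroup.mem_zpowers _)
  apply hg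
  apply h.mem_of_conj (y := g * (y : G) * g⁻¹) (k := 1) _ _ h2
  · have : g⁻¹ * (g * (y : G) * g⁻¹) * g = y := by group
    rw [this]; exact y.2
  · intro h3
    rw [h3, orderOf_one] at hyg
    exact (Fact.out : p.Prime).one_lt.ne hyg
  · rw [pow_one, ← hyg, pow_orderOf_eq_one]

theorem conn_in_sylow {G : Type*} [Group G] {p : ℕ} [hp : Fact p.Prime] [Finite G] (S : Sylow p G)
    {A B : Subgroup G} (hA : Vtx p A) (hB : Vtx p B) (hAS : A ≤ S) (hBS : B ≤ S) :
    Relation.ReflTransGen (Rel p) A B := by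
  haveI : Nontrivial ↥(S : Subgroup G) := by
    rw [Subgroup.nontrivial_iff_ne_bot]
    intro h
    apply vtx_ne_bot hA
    rw [eq_bot_iff, ← h]; exact hAS
  haveI := S.2.center_nontrivial
  have hdvd : p ∣ Nat.card (Subgroup.center ↥(S : Subgroup G)) := by
    rcases (S.2.to_subgroup (Subgroup.center _)).card_eq_or_dvd with h | h
    · exfalso
      exact (Subgroup.nontrivial_iff_ne_bot _).mp this (Subgroup.card_eq_one.mp h)
    · exact h
  obtain ⟨z, hz⟩ := exists_prime_orderOf_dvd_card' p hdvd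
  have hz' : orderOf (((z : ↥(S : Subgroup G)) : G)) = p := by
    rw [Subgroup.orderOf_coe, Subgroup.orderOf_coe]; exact hz
  have hzc : ∀ s ∈ (S : Subgroup G), Commute s (((z : ↥(S : Subgroup G)) : G)) := by
    intro s hs
    have := Subgroup.mem_center_iff.mp z.2 ⟨s, hs⟩
    exact congrArg Subtype.val this
  have hZ := vtx_zpowers hz'
  have h1 : Rel p A (Subgroup.zpowers (((z : ↥(S : Subgroup G)) : G))) := by
    refine ⟨hA.1, hA.2, hZ.1, hZ.2, ?_⟩
    intro a ha b hb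
    obtain ⟨i, rfl⟩ := Subgroup.mem_zpowers_iff.mp hb
    exact (hzc a (hAS ha)).zpow_right i
  have h2 : Rel p (Subgroup.zpowers (((z : ↥(S : Subgroup G)) : G))) B := by
    refine ⟨hZ.1, hZ.2, hB.1, hB.2, ?_⟩
    intro a ha b hb
    obtain ⟨i, rfl⟩ := Subgroup.mem_zpowers_iff.mp ha
    exact ((hzc b (hBS hb)).zpow_right i).symm
  exact Relation.ReflTransGen.tail (Relation.ReflTransGen.single h1) h2

theorem conn_of_sylConn {G : Type*} [Group G] {p : ℕ} [Fact p.Prime] [Finite G] {S T : Sylow p G}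
    (h : sylConn S T) : ∀ {A B : Subgroup G}, Vtx p A → Vtx p B → A ≤ S → B ≤ T →
      Relation.ReflTransGen (Rel p) A B := by
  induction h with
  | refl => intro A B hA hB hAS hBS; exact conn_in_sylow S hA hB hAS hBS
  | @tail T' T _ hadj ih =>
    intro A B hA hB hAS hBT
    obtain ⟨y, hy, hy1⟩ := exists_ne_one_of_ne_bot hadj.2
    obtain ⟨hyT', hyT⟩ := Subgroup.mem_inf.mp hy
    obtain ⟨k, hk⟩ := exists_pow_eq_one_of_isPGroup T.2 hyT
    have hdvd : p ∣ orderOf y := prime_dvd_orderOf_of_pow hy1 hk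
    have hw : orderOf (y ^ (orderOf y / p)) = p :=
      orderOf_pow_orderOf_div (orderOf_pos y).ne' hdvd
    have hW := vtx_zpowers hw
    exact (ih hA hW hAS (Subgroup.zpowers_le.mpr (Subgroup.pow_mem _ hyT' _))).trans
      (conn_in_sylow T hW hB (Subgroup.zpowers_le.mpr (Subgroup.pow_mem _ hyT _)) hBT)

/-- Let G be finite and p prime. Then G has a proper subgroup H with p ∣ |H| and p ∤ |H ∩ gHg⁻¹| for every g ∉ H (a strongly p-embedded subgroup) if and only if G is not 1-connected for p. -/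
theorem result {G : Type*} [Group G] [Finite G] (p : ℕ) [Fact p.Prime] : (∃ H : Subgroup G, H ≠ ⊤ ∧ p ∣ Nat.card ↥H ∧ ∀ g : G, g ∉ H → ¬ p ∣ Nat.card ↥(H ⊓ H.map (MulAut.conj g).toMonoidHom)) ↔ ¬ Cfsg.IsKConnected p 1 G := by
  constructor
  · rintro ⟨H, h1, h2, h3⟩
    exact not_conn_of_strEmb ⟨h1, h2, h3⟩
  · intro hnc
    by_contra hno
    apply hnc
    have hconn : Cfsg.IsSylowChainConnected p G := by
      by_contra h
      obtain ⟨H, hH⟩ := exists_strEmb_of_not_connected h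
      exact hno ⟨H, hH.ne_top, hH.dvd, hH.cond⟩
    rw [chainConnected_iff] at hconn
    intro E E' hE hEc hE' hEc'
    obtain ⟨S, hS⟩ := (elemAb_isPGroup hE).exists_le_sylow
    obtain ⟨T, hT⟩ := (elemAb_isPGroup hE').exists_le_sylow
    exact conn_of_sylConn (hconn S T) ⟨hE, hEc⟩ ⟨hE', hEc'⟩ hS hT

end Cfsg.Agent.S1336
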