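import Mathlib
import Cfsg.Statements.S1337
import Cfsg.Agent.Lib.Helper4.NormalFour


set_option autoImplicit false
open Cfsg

namespace Cfsg.Agent.S1337

open Cfsg.Agent.Lib.Helper4

theorem card_ge_cube {P : Type*} [Group P] [Finite P] {p : ℕ} [hp : Fact p.Prime] (hP : IsPGroup p P)
    (B : Subgroup P) (hB : p ^ 2 < Nat.card B) : p ^ 3 ≤ Nat.card B := by
  obtain ⟨j, hj⟩ := (hP.to_subgroup B).exists_card_eq
  rw [hj] at hB ⊢
  have := (Nat.pow_lt_pow_iff_right hp.out.one_lt).mp hB
  exact Nat.pow_le_pow_right hp.out.pos this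

theorem card_inf_centralizer_ge {P : Type*} [Group P] [Finite P] {p : ℕ} [hp : Fact p.Prime]
    (hP : IsPGroup p P) (U : Subgroup P) [U.Normal] (hU : Nat.card U = p ^ 2) (B : Subgroup P)
    (hB : p ^ 2 < Nat.card B) :
    p ^ 2 ≤ Nat.card (B ⊓ Subgroup.centralizer (U : Set P) : Subgroup P) := by
  have hidx := Cfsg.Agent.Lib.Helper1.index_centralizer_le_of_card_le_sq hP U hU le_rfl
  set T := Subgroup.centralizer (U : Set P) with hT
  have hrel : T.relIndex B ≤ p :=
    (Nat.le_of_dvd (Nat.pos_of_ne_zero Subgroup.index_ne_zero_of_finite)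
      (Subgroup.relIndex_dvd_index_of_normal T B)).trans hidx
  have h1 := card_eq_inf_mul_relIndex B T
  obtain ⟨j, hj⟩ := (hP.to_subgroup (B ⊓ T)).exists_card_eq
  rw [hj] at h1 ⊢
  apply Nat.pow_le_pow_right hp.out.pos
  by_contra hlt
  have hj1 : j ≤ 1 := by omega
  have h2 : Nat.card B ≤ p ^ 1 * p := by
    rw [h1]
    exact Nat.mul_le_mul (Nat.pow_le_pow_right hp.out.pos hj1) hrel
  have h3 : p ^ 1 * p = p ^ 2 := by ring
  omega

theorem not_rank_of {P : Type*} [Group P] {p : ℕ} {X D : Subgroup P}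
    (hD : Cfsg.IsElementaryAbelian p D) (hDX : D ≤ Subgroup.centralizer (X : Set P))
    (hc : p ^ 2 < Nat.card D) : ¬ Cfsg.PRankLE p 2 ↥(Subgroup.centralizer (X : Set P)) := by
  intro h
  have h1 := elemAb_subgroupOf (Subgroup.centralizer (X : Set P)) hD
  have := h _ h1.1 h1.2
  rw [card_subgroupOf_of_le hDX] at this
  omega


/-- Let P be a finite p-group of p-rank greater than 2. Then P has a normal elementary abelian subgroup U of order p², and for every elementary abelian X ≤ P with |X| ≥ p²: X is joined to U by a chain of pairwise commuting elementary abelian subgroups of order ≥ p² if and only if C_P(X) has p-rank greater than 2. -/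
theorem result {P : Type*} [Group P] [Finite P] (p : ℕ) [Fact p.Prime] (hP : IsPGroup p P) (hrk : ¬ Cfsg.PRankLE p 2 P) : ∃ U : Subgroup P, U.Normal ∧ Cfsg.IsElementaryAbelian p U ∧ Nat.card ↥U = p ^ 2 ∧ ∀ X : Subgroup P, Cfsg.IsElementaryAbelian p X → p ^ 2 ≤ Nat.card ↥X → (Relation.ReflTransGen (fun A B : Subgroup P => Cfsg.IsElementaryAbelian p A ∧ p ^ 2 ≤ Nat.card ↥A ∧ Cfsg.IsElementaryAbelian p B ∧ p ^ 2 ≤ Nat.card ↥B ∧ ∀ a ∈ A, ∀ b ∈ B, a * b = b * a) X U ↔ ¬ Cfsg.PRankLE p 2 ↥(Subgroup.centralizer (X : Set P))) := by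
  have hpp : p.Prime := Fact.out
  unfold Cfsg.PRankLE at hrk
  push Not at hrk
  obtain ⟨A0, hA0c, hA0e, hA0card⟩ := hrk
  have hA0 : Cfsg.IsElementaryAbelian p A0 := ⟨hA0c, hA0e⟩
  obtain ⟨U, hUn, hUe, hUc⟩ : ∃ U : Subgroup P, U.Normal ∧ Cfsg.IsElementaryAbelian p U ∧
      Nat.card U = p ^ 2 := by
    by_cases hp2 : p = 2
    · subst hp2
      obtain ⟨E, hEA, hEc⟩ := Sylow.exists_subgroup_le_card_pow_prime_of_le_card (n := 3) hpp hP
        (card_ge_cube hP A0 hA0card)
      obtain ⟨Ω, hΩn, hΩ2, hΩc⟩ := exists_normal_exponent_two hP E (by rw [hEc]; norm_num)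
        (fun e he => hA0e e (hEA he))
      obtain ⟨U, -, hUn, hUe, hUc⟩ :=
        Cfsg.Agent.Lib.Helper17.exists_normal_sq_of_exponent hP Ω hΩ2 hΩc
      exact ⟨U, hUn, hUe, hUc⟩
    · have hnc : ¬ IsCyclic (⊤ : Subgroup P) := by
        intro hc
        have hcyc : IsCyclic A0 := Subgroup.isCyclic_of_le (le_top : A0 ≤ ⊤)
        obtain ⟨c0, hc0⟩ := (Subgroup.isCyclic_iff_exists_zpowers_eq_top _).mp hcyc
        have hc0m : c0 ∈ A0 := hc0 ▸ Subgroup.mem_zpowers c0
        have h1 : Nat.card A0 ≤ p := by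
          rw [← hc0, Nat.card_zpowers]
          exact Nat.le_of_dvd hpp.pos (orderOf_dvd_of_pow_eq_one (hA0e c0 hc0m))
        have h2 : p ≤ p ^ 2 := by nlinarith [hpp.pos]
        omega
      obtain ⟨U, -, hUn, hUe, hUc⟩ :=
        Cfsg.Agent.Lib.Helper17.exists_normal_rank_two hp2 hP ⊤ inferInstance hnc
      exact ⟨U, hUn, hUe, hUc⟩
  refine ⟨U, hUn, hUe, hUc, fun X hX hXc => ⟨?_, ?_⟩⟩
  · intro hpath
    induction hpath using Relation.ReflTransGen.head_induction_on with
    | refl =>
      have hF := card_inf_centralizer_ge hP U hUc A0 hA0card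
      set F0 := A0 ⊓ Subgroup.centralizer (U : Set P) with hF0
      have hF0e : Cfsg.IsElementaryAbelian p F0 := elemAb_of_le inf_le_left hA0
      have hD : Cfsg.IsElementaryAbelian p (F0 ⊔ U : Subgroup P) :=
        elemAb_sup hF0e hUe (fun a ha b hb => ((Subgroup.mem_centralizer_iff.mp ha.2) b hb).symm)
      apply not_rank_of hD
      · apply sup_le inf_le_right
        intro u hu
        rw [Subgroup.mem_centralizer_iff]
        intro v hv
        exact ((isMulCommutative_iff U).mp hUe.1) v hv u hu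
      · by_contra hle
        push Not at hle
        have e1 : U = F0 ⊔ U := Subgroup.eq_of_le_of_card_ge le_sup_right (by rw [hUc]; exact hle)
        have h1 : F0 ≤ U := by rw [e1]; exact le_sup_left
        have e2 : F0 = U := Subgroup.eq_of_le_of_card_ge h1 (by rw [hUc]; exact hF)
        have h2 : U ≤ A0 := e2 ▸ inf_le_left
        have h3 : A0 ≤ Subgroup.centralizer (U : Set P) := by
          intro a ha
          rw [Subgroup.mem_centralizer_iff]
          intro u hu
          exact ((isMulCommutative_iff A0).mp hA0c) u (h2 hu) a ha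
        have e3 : F0 = A0 := inf_eq_left.mpr h3
        rw [← e3, e2, hUc] at hA0card
        omega
    | head hrel hpath' ih =>
      rename_i X' Y'
      obtain ⟨hX'e, hX'c, hY'e, hY'c, hcomm⟩ := hrel
      by_cases hle : p ^ 2 < Nat.card (X' ⊔ Y' : Subgroup P)
      · apply not_rank_of (elemAb_sup hX'e hY'e hcomm) _ hle
        apply sup_le
        · intro u hu
          rw [Subgroup.mem_centralizer_iff]
          intro v hv
          exact ((isMulCommutative_iff X').mp hX'e.1) v hv u hu
        · intro u hu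
          rw [Subgroup.mem_centralizer_iff]
          intro v hv
          exact hcomm v hv u hu
      · push Not at hle
        have e1 : X' = X' ⊔ Y' := Subgroup.eq_of_le_of_card_ge le_sup_left (hle.trans hX'c)
        have e2 : Y' = X' ⊔ Y' := Subgroup.eq_of_le_of_card_ge le_sup_right (hle.trans hY'c)
        have e3 : X' = Y' := e1.trans e2.symm
        rw [e3]
        exact ih hY'e hY'c
  · intro hr
    unfold Cfsg.PRankLE at hr
    push Not at hr
    obtain ⟨B, hBc, hBe, hBcard⟩ := hr
    set B' := B.map (Subgroup.centralizer (X : Set P)).subtype with hB'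
    have hB'e : Cfsg.IsElementaryAbelian p B' := elemAb_map _ ⟨hBc, hBe⟩
    have hB'card : p ^ 2 < Nat.card B' := by rw [hB', card_map_subtype]; exact hBcard
    have hB'X : B' ≤ Subgroup.centralizer (X : Set P) := Subgroup.map_subtype_le _
    have hF := card_inf_centralizer_ge hP U hUc B' hB'card
    set F := B' ⊓ Subgroup.centralizer (U : Set P) with hFdef
    have hFe : Cfsg.IsElementaryAbelian p F := elemAb_of_le inf_le_left hB'e
    refine Relation.ReflTransGen.head (b := B') ⟨hX, hXc, hB'e, hB'card.le, ?_⟩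
      (Relation.ReflTransGen.head (b := F) ⟨hB'e, hB'card.le, hFe, hF, ?_⟩
        (Relation.ReflTransGen.single ⟨hFe, hF, hUe, hUc.ge, ?_⟩))
    · intro a ha b hb
      exact (Subgroup.mem_centralizer_iff.mp (hB'X hb)) a ha
    · intro a ha b hb
      exact ((isMulCommutative_iff B').mp hB'e.1) a ha b hb.1
    · intro a ha b hb
      exact ((Subgroup.mem_centralizer_iff.mp ha.2) b hb).symm

end Cfsg.Agent.S1337
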