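import Cfsg.Statements.S1344
import Cfsg.Agent.Lib.Helper9.ExtLayer
import Cfsg.Agent.Lib.Helper8.PComp

set_option autoImplicit false
open Cfsg

namespace Cfsg.Agent.S1344

open Cfsg.Agent.Lib.Helper8 Cfsg.Agent.Lib.Helper9

theorem key {X : Type*} [Group X] [Finite X] (K : Subgroup X) (hK : Cfsg.IsPComponent 2 K)
    (P : Sylow 2 K) (d : X)
    (hd : d ∈ Subgroup.centralizer (((P : Subgroup K).map K.subtype : Subgroup X) : Set X)) :
    d ∈ Subgroup.normalizer (K : Set X) := by
  have : Fact (Nat.Prime 2) := ⟨Nat.prime_two⟩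
  rw [← conjMap_eq_iff_mem_normalizer]
  obtain ⟨L, hL⟩ : ∃ L, L = K.map (MulAut.conj d).toMonoidHom := ⟨_, rfl⟩
  rw [← hL]
  have hLc : Cfsg.IsPComponent 2 L := hL ▸ Cfsg.Agent.Lib.Helper8.isPComponent_conj hK d
  have hKL : K ≤ Subgroup.normalizer (L : Set X) :=
    (le_pLayer_of_isPComponent hK).trans (pLayer_le_normalizer hLc)
  obtain ⟨hperf, hnc, hN⟩ := ((isPComponent_iff 2 K).mp hK).2
  have hNn : K ≤ Subgroup.normalizer ((K ⊓ L : Subgroup X) : Set X) := by
    intro k hk
    rw [← conjMap_eq_iff_mem_normalizer, Subgroup.map_inf_eq _ _ _ (MulAut.conj k).injective,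
      (conjMap_eq_iff_mem_normalizer _ _).mpr (Subgroup.le_normalizer hk),
      (conjMap_eq_iff_mem_normalizer _ _).mpr (hKL hk)]
  have hcard : Nat.card L = Nat.card K := by
    rw [hL]; exact Subgroup.card_map_of_injective (MulAut.conj d).injective
  rcases hN (K ⊓ L) inf_le_left hNn with h | h
  · have h1 : K ≤ L := inf_eq_left.mp h
    exact (Subgroup.eq_of_le_of_card_ge h1 hcard.le).symm
  · exfalso
    apply hnc
    have hnorm : ((K ⊓ L).subgroupOf K).Normal := by
      rw [← Subgroup.normalizer_eq_top_iff, eq_top_iff]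
      intro k _
      have := hNn k.2
      rw [Subgroup.mem_normalizer_iff] at this ⊢
      intro x
      rw [Subgroup.mem_subgroupOf, Subgroup.mem_subgroupOf]
      exact this x.1
    have hPN : (P : Subgroup K) ≤ (K ⊓ L).subgroupOf K := by
      intro x hx
      rw [Subgroup.mem_subgroupOf]
      refine ⟨x.2, ?_⟩
      rw [hL]
      refine ⟨x.1, x.2, ?_⟩
      have := (Subgroup.mem_centralizer_iff.mp hd) x.1 ⟨x, hx, rfl⟩
      show d * x.1 * d⁻¹ = x.1
      rw [← this, mul_inv_cancel_right]
    refine coprime_card_of_perfect K 2 ?_ ((K ⊓ L).subgroupOf K) ?_ ?_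
    · apply Subgroup.map_injective K.subtype_injective
      rw [Subgroup.map_commutator, ← MonoidHom.range_eq_map, Subgroup.range_subtype, hperf]
    · have h1 := Subgroup.index_dvd_of_le hPN
      have h2 : ¬ 2 ∣ (P : Subgroup K).index := P.not_dvd_index
      have h3 : ¬ 2 ∣ ((K ⊓ L).subgroupOf K).index := fun h => h2 (h.trans h1)
      exact ((Nat.Prime.coprime_iff_not_dvd Nat.prime_two).mpr h3).symm
    · rw [← Subgroup.card_map_of_injective K.subtype_injective, Subgroup.map_commutator,
        ← MonoidHom.range_eq_map, Subgroup.range_subtype, Subgroup.map_subgroupOf_eq_of_le inf_le_left]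
      exact h

/-- Let K be a 2-component of the finite group X. Then K ≤ L*_{2'}(X) and K is normal in L*_{2'}(X). -/
theorem result {X : Type*} [Group X] [Finite X] (K : Subgroup X) (hK : Cfsg.IsPComponent 2 K) : K ≤ Cfsg.extendedTwoLayer X ∧ (K.subgroupOf (Cfsg.extendedTwoLayer X)).Normal := by
  have : Fact (Nat.Prime 2) := ⟨Nat.prime_two⟩
  have hKl : K ≤ Cfsg.pLayer 2 X := le_pLayer_of_isPComponent hK
  have hKe : K ≤ Cfsg.extendedTwoLayer X := hKl.trans (le_sup_left.trans le_sup_left)
  refine ⟨hKe, ?_⟩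
  obtain ⟨P⟩ : Nonempty (Sylow 2 K) := inferInstance
  have hPM : (P : Subgroup K).map K.subtype ≤ extM X :=
    (Subgroup.map_subtype_le _).trans (hKl.trans le_sup_left)
  have hPp : IsPGroup 2 (((P : Subgroup K).map K.subtype).subgroupOf (extM X)) :=
    (P.2.map K.subtype).comap_of_injective _ (extM X).subtype_injective
  obtain ⟨T, hT⟩ := hPp.exists_le_sylow
  have hle : Cfsg.extendedTwoLayer X ≤ Subgroup.normalizer (K : Set X) := by
    rw [extendedTwoLayer_eq_of_sylow T]
    refine sup_le (sup_le (pLayer_le_normalizer hK) ?_) ?_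
    · intro g hg
      rw [← conjMap_eq_iff_mem_normalizer]
      apply isPComponent_unique (Cfsg.Agent.Lib.Helper8.isPComponent_conj hK g) hK
      rw [map_conjMap]
      have : (QuotientGroup.mk' (Cfsg.pPrimeCore 2 X)) g = 1 := (QuotientGroup.eq_one_iff g).mpr hg
      rw [this]
      ext x
      simp
    · intro d hd
      apply key K hK P d
      have h1 := coreOf_le _ _ hd
      refine Subgroup.centralizer_le ?_ h1
      intro x hx
      exact ⟨⟨x, hPM hx⟩, hT (Subgroup.mem_subgroupOf.mpr hx), rfl⟩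
  rw [← Subgroup.normalizer_eq_top_iff, eq_top_iff]
  intro k _
  have := hle k.2
  rw [Subgroup.mem_normalizer_iff] at this ⊢
  intro x
  rw [Subgroup.mem_subgroupOf, Subgroup.mem_subgroupOf]
  exact this x.1

end Cfsg.Agent.S1344
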