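import Mathlib
import Cfsg.Statements.S1386
import Cfsg.Agent.Lib.Helper9.Basic
import Cfsg.Agent.Lib.Helper4.Basic

set_option autoImplicit false
open Cfsg

namespace Cfsg.Agent.S1386

open Cfsg.Agent.Lib.Helper9

theorem comm_of_cyclic {G : Type*} [Group G] {W : Subgroup G} (hW : IsCyclic W) {a b : G}
    (ha : a ∈ W) (hb : b ∈ W) : a * b = b * a := by
  have : (⟨a, ha⟩ : W) * ⟨b, hb⟩ = ⟨b, hb⟩ * ⟨a, ha⟩ := by
    let _ := IsCyclic.commGroup (α := W)
    exact mul_comm _ _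
  exact congrArg Subtype.val this

theorem card_sup {G : Type*} [Group G] [Finite G] {A B : Subgroup G}
    (hcomm : ∀ a ∈ A, ∀ b ∈ B, a * b = b * a) (hd : A ⊓ B = ⊥) :
    Nat.card ↥(A ⊔ B) = Nat.card A * Nat.card B := by
  have hN : A ≤ Subgroup.normalizer (B : Set G) := by
    intro a ha
    rw [Subgroup.mem_normalizer_iff]
    intro b
    constructor
    · intro hb
      have : a * b * a⁻¹ = b := by rw [hcomm a ha b hb]; group
      rwa [this]
    · intro hb
      have h1 := hcomm a ha _ hb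
      have h2 : a * b * a⁻¹ = b := by
        have : a * (a * b * a⁻¹) * a⁻¹ = a * b * a⁻¹ := by rw [h1]; group
        have h3 : a * (a * b * a⁻¹) * a⁻¹ = a * b * a⁻¹ → a * b * a⁻¹ = b := by
          intro h
          have := congrArg (fun t => a⁻¹ * t * a) h
          simpa [mul_assoc] using this
        exact h3 this
      rwa [h2] at hb
  have := Cfsg.Agent.Lib.Helper4.card_mul_card_eq_of_le_normalizer A B hN
  rw [hd] at this
  simpa using this.symm

/-- Let G be a finite group, W₁, W₂ subgroups forming a self-normalizing cyclic pair, S a subgroup with W₂ ≤ S and W₁ a complement to S' in S, and (W₁, U, W₂') type-P data for S. Then W₂' = W₂ (that is, C_{S'}(W₁) = W₂). -/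
theorem result {G : Type*} [Group G] [Finite G] (W₁ W₂ S U W₂' : Subgroup G) (hW : Cfsg.IsSelfNormalizingCyclic W₁ W₂)
    (hSW : Cfsg.IsComplIn ⁅S, S⁆ W₁ S) (hW₂S : W₂ ≤ S) (hP : Cfsg.IsTypePWith S W₁ U W₂') :
    W₂' = W₂ := by
  obtain ⟨hW1, hW2, hdisj, hcomm, hcyc, hnorm⟩ := hW
  obtain ⟨hW1', hW2', hdisj', hcomm', hcyc', hnorm'⟩ := hP.selfNormalizing
  obtain ⟨-, -, -, hfac⟩ := hSW
  obtain ⟨x, hx, hx1⟩ : ∃ x ∈ W₁, x ≠ 1 := by
    obtain ⟨x, hx⟩ := Subgroup.ne_bot_iff_exists_ne_one.mp hW1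
    exact ⟨x, x.2, fun h => hx (Subtype.ext h)⟩
  obtain ⟨y, hy, hy1⟩ : ∃ y ∈ W₂, y ≠ 1 := by
    obtain ⟨y, hy⟩ := Subgroup.ne_bot_iff_exists_ne_one.mp hW2
    exact ⟨y, y.2, fun h => hy (Subtype.ext h)⟩
  -- Step 1: W₂ ≤ W₁ ⊔ W₂'
  have h1 : W₂ ≤ W₁ ⊔ W₂' := by
    intro w hw
    obtain ⟨a, ha, b, hb, rfl⟩ := hfac w (hW₂S hw)
    have hbx : b * x = x * b := comm_of_cyclic hcyc (Subgroup.mem_sup_left hb) (Subgroup.mem_sup_left hx)
    have hwx : x * (a * b) = (a * b) * x := hcomm x hx _ hw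
    have hax : x * a = a * x := by
      have : x * a * b = a * x * b := by
        calc x * a * b = x * (a * b) := by group
          _ = a * b * x := hwx
          _ = a * (b * x) := by group
          _ = a * (x * b) := by rw [hbx]
          _ = a * x * b := by group
      exact mul_right_cancel this
    have haW : a ∈ W₂' := by
      rw [← hP.W₂_centralizer x hx hx1]
      refine Subgroup.mem_inf.mpr ⟨ha, ?_⟩
      rw [Subgroup.mem_centralizer_iff]
      intro z hz
      rw [Set.mem_singleton_iff] at hz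
      subst hz
      exact hax
    exact Subgroup.mul_mem _ (Subgroup.mem_sup_right haW) (Subgroup.mem_sup_left hb)
  have h2 : W₁ ⊔ W₂ ≤ W₁ ⊔ W₂' := sup_le le_sup_left h1
  -- Step 3
  have hz : x * y ∈ (↑(W₁ ⊔ W₂) : Set G) \ (↑W₁ ∪ ↑W₂) := by
    refine ⟨Subgroup.mul_mem _ (Subgroup.mem_sup_left hx) (Subgroup.mem_sup_right hy), ?_⟩
    rintro (h | h)
    · have : y ∈ W₁ := by
        have h3 : y = x⁻¹ * (x * y) := by group
        rw [h3]; exact W₁.mul_mem (W₁.inv_mem hx) h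
      have : y ∈ W₁ ⊓ W₂ := Subgroup.mem_inf.mpr ⟨this, hy⟩
      rw [hdisj, Subgroup.mem_bot] at this
      exact hy1 this
    · have : x ∈ W₂ := by
        have h3 : x = (x * y) * y⁻¹ := by group
        rw [h3]; exact W₂.mul_mem h (W₂.inv_mem hy)
      have : x ∈ W₁ ⊓ W₂ := Subgroup.mem_inf.mpr ⟨hx, this⟩
      rw [hdisj, Subgroup.mem_bot] at this
      exact hx1 this
  have h3 : W₁ ⊔ W₂' ≤ W₁ ⊔ W₂ := by
    rw [← hnorm {x * y} (Set.singleton_subset_iff.mpr hz) (Set.singleton_nonempty _)]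
    intro g hg
    have hgz : g * (x * y) = (x * y) * g := comm_of_cyclic hcyc' hg (h2 hz.1)
    rw [Subgroup.mem_set_normalizer_iff]
    intro n
    simp only [Set.mem_singleton_iff]
    constructor
    · rintro rfl
      rw [hgz]; group
    · intro h
      have : n = g⁻¹ * (g * n * g⁻¹) * g := by group
      rw [this, h, mul_assoc, ← hgz]; group
  have h4 : W₁ ⊔ W₂' = W₁ ⊔ W₂ := le_antisymm h3 h2
  have h5 : Nat.card W₁ * Nat.card W₂' = Nat.card W₁ * Nat.card W₂ := by
    rw [← card_sup hcomm' hdisj', ← card_sup hcomm hdisj, h4]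
  have h6 : Nat.card W₂' = Nat.card W₂ := Nat.eq_of_mul_eq_mul_left Nat.card_pos h5
  exact eq_of_card_eq_of_le_isCyclic hcyc (h4 ▸ le_sup_right) le_sup_right h6

end Cfsg.Agent.S1386
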