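import Mathlib
import Cfsg.Statements.S1387
import Cfsg.Agent.Lib.Helper9.Cores

set_option autoImplicit false
open Cfsg

namespace Cfsg.Agent.S1387

open Cfsg.Agent.Lib.Helper9

/-- Let M be a subgroup of a finite group G with type-P data (W₁, U, W₂) and H = M_F. Then the Fitting subgroup F(M) is generated by H and the centralizer of H in U. -/
theorem result {G : Type*} [Group G] [Finite G] (M W₁ U W₂ : Subgroup G) (hP : Cfsg.IsTypePWith M W₁ U W₂) :
    Cfsg.fittingOf M = Cfsg.fittingHallOf M ⊔ (U ⊓ Subgroup.centralizer (Cfsg.fittingHallOf M : Set G)) := by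
  have hcop := coprime_card_of_isComplIn_fittingHallOf (commutator_self_le M) hP.U_compl
  obtain ⟨hHD, hUD, hdisj, hfac⟩ := hP.U_compl
  apply le_antisymm
  · rw [← hP.fitting_eq]
    apply sup_le le_sup_left
    intro c hc
    have hcF : c ∈ fittingOf M := by
      rw [← hP.fitting_eq]; exact Subgroup.mem_sup_right hc
    obtain ⟨a, ha, b, hb, rfl⟩ := hfac c (hP.fitting_le hcF)
    have hcC := (Subgroup.mem_inf.mp hc).2
    set c := a * b with hcdef
    have hb' : b = a⁻¹ * c := by rw [hcdef]; group
    have hcomm : Commute a⁻¹ c := by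
      have := (Subgroup.mem_centralizer_iff.mp hcC) a ha
      exact (show Commute a c from this).inv_left
    set m := Nat.card (fittingHallOf M) with hm
    have ham : a ^ m = 1 := by
      have := Subgroup.orderOf_dvd_natCard _ ha
      exact orderOf_dvd_iff_pow_eq_one.mp this
    have hbm : b ^ m = c ^ m := by
      rw [hb', hcomm.mul_pow, inv_pow, ham]; simp
    have hbmC : b ^ m ∈ Subgroup.centralizer (fittingHallOf M : Set G) := by
      rw [hbm]; exact Subgroup.pow_mem _ hcC _
    have hcop' : Nat.Coprime m (orderOf b) :=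
      (Nat.Coprime.of_dvd_left (Subgroup.orderOf_dvd_natCard _ hb) hcop).symm
    obtain ⟨j, hj⟩ := exists_pow_eq_self_of_coprime hcop'
    have hbC : b ∈ Subgroup.centralizer (fittingHallOf M : Set G) := by
      rw [← hj]; exact Subgroup.pow_mem _ hbmC _
    exact Subgroup.mul_mem _ (Subgroup.mem_sup_left ha)
      (Subgroup.mem_sup_right (Subgroup.mem_inf.mpr ⟨hb, hbC⟩))
  · rw [← hP.fitting_eq]
    exact sup_le_sup_left (inf_le_inf_right _ (hUD.trans (commutator_self_le M))) _

end Cfsg.Agent.S1387
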