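import Mathlib
import Cfsg.Statements.S1388
import Cfsg.Agent.Lib.Helper9.Cores
import Cfsg.Agent.Lib.Helper1.Coprime
import Cfsg.Agent.S1387

set_option autoImplicit false
open Cfsg

namespace Cfsg.Agent.S1388

open Cfsg.Agent.Lib.Helper9
open scoped commutatorElement

/-- Let M be a subgroup of a finite group G with type-P data (W₁, U, W₂) and H = M_F. Then the derived subgroup of U centralizes H, and if U ≠ 1 then U does not centralize H. -/
theorem result {G : Type*} [Group G] [Finite G] (M W₁ U W₂ : Subgroup G) (hP : Cfsg.IsTypePWith M W₁ U W₂) :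
    ⁅U, U⁆ ≤ Subgroup.centralizer (Cfsg.fittingHallOf M : Set G) ∧ (U ≠ ⊥ → ¬ U ≤ Subgroup.centralizer (Cfsg.fittingHallOf M : Set G)) := by
  have hcop := coprime_card_of_isComplIn_fittingHallOf (commutator_self_le M) hP.U_compl
  have hUc := hP.U_compl
  obtain ⟨hHD, hUD, hdisj, hfac⟩ := hP.U_compl
  have hUM : U ≤ M := hUD.trans (commutator_self_le M)
  have hNH := le_normalizer_fittingHallOf M
  set H := fittingHallOf M with hH
  constructor
  · intro u hu
    have huU : u ∈ U := commutator_self_le U hu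
    have h1 : u ∈ H ⊔ (U ⊓ Subgroup.centralizer (H : Set G)) := by
      rw [← Cfsg.Agent.S1387.result M W₁ U W₂ hP, ← hP.fitting_eq]
      exact hP.derived_two_le (Subgroup.commutator_mono hUD hUD hu)
    have hN : U ⊓ Subgroup.centralizer (H : Set G) ≤ Subgroup.normalizer (H : Set G) :=
      inf_le_left.trans (hUM.trans hNH)
    obtain ⟨h, hh, v, hv, rfl⟩ := (Cfsg.Agent.Lib.Helper1.mem_sup_of_le_normalizer hN).mp h1
    have hvU := (Subgroup.mem_inf.mp hv).1
    have hhU : h ∈ U := by
      have : h = (h * v) * v⁻¹ := by group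
      rw [this]; exact U.mul_mem huU (U.inv_mem hvU)
    have : h ∈ H ⊓ U := Subgroup.mem_inf.mpr ⟨hh, hhU⟩
    rw [hdisj, Subgroup.mem_bot] at this
    rw [this, one_mul]
    exact (Subgroup.mem_inf.mp hv).2
  · intro hU1 hUC
    apply hU1
    -- cardinalities
    have hcardD : Nat.card ↥⁅M, M⁆ = Nat.card H * Nat.card U :=
      card_of_isComplIn hUc (hUM.trans hNH)
    have hND : M ≤ Subgroup.normalizer ((⁅M, M⁆ : Subgroup G) : Set G) := by
      rw [Subgroup.le_normalizer_iff]
      intro m hm k hk
      have h1 : m * k * m⁻¹ = ⁅m, k⁆ * k := by rw [commutatorElement_def]; group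
      rw [h1]
      exact Subgroup.mul_mem _ (Subgroup.commutator_mem_commutator hm (commutator_self_le M hk)) hk
    have hW1M : W₁ ≤ M := hP.W₁_compl.2.1
    have hcardM : Nat.card M = Nat.card ↥⁅M, M⁆ * Nat.card W₁ :=
      card_of_isComplIn hP.W₁_compl (hW1M.trans hND)
    -- U is normal in M'
    have hUnD : ⁅M, M⁆ ≤ Subgroup.normalizer (U : Set G) := by
      rw [Subgroup.le_normalizer_iff]
      intro d hd u hu
      obtain ⟨a, ha, b, hb, rfl⟩ := hfac d hd
      have hau : a * (b * u * b⁻¹) = (b * u * b⁻¹) * a := by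
        have hbu : b * u * b⁻¹ ∈ U := U.mul_mem (U.mul_mem hb hu) (U.inv_mem hb)
        exact (Subgroup.mem_centralizer_iff.mp (hUC hbu)) a ha
      have : a * b * u * (a * b)⁻¹ = b * u * b⁻¹ := by
        calc a * b * u * (a * b)⁻¹ = a * (b * u * b⁻¹) * a⁻¹ := by group
          _ = (b * u * b⁻¹) * a * a⁻¹ := by rw [hau]
          _ = b * u * b⁻¹ := by group
      rw [this]
      exact U.mul_mem (U.mul_mem hb hu) (U.inv_mem hb)
    have hrelD : U.relIndex ⁅M, M⁆ = Nat.card H := by
      have h1 := Cfsg.Agent.Lib.Helper4.card_eq_mul_relIndex hUD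
      rw [hcardD, mul_comm] at h1
      exact (Nat.eq_of_mul_eq_mul_left Nat.card_pos h1).symm
    -- U is normal in M
    have hUnM : M ≤ Subgroup.normalizer (U : Set G) := by
      rw [Subgroup.le_normalizer_iff]
      intro m hm u hu
      have hle : U.map (MulAut.conj m).toMonoidHom ≤ U := by
        apply le_of_le_normalizer_of_coprime_relIndex (K := ⁅M, M⁆) _ hUnD
        · rw [Subgroup.card_map_of_injective (MulAut.conj m).injective, hrelD]
          exact hcop
        · rintro _ ⟨x, hx, rfl⟩
          exact (Subgroup.le_normalizer_iff.mp hND) m hm x (hUD hx)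
      exact hle ⟨u, hu, rfl⟩
    have hrelM : U.relIndex M = Nat.card H * Nat.card W₁ := by
      have h1 := Cfsg.Agent.Lib.Helper4.card_eq_mul_relIndex hUM
      rw [hcardM, hcardD] at h1
      have h2 : Nat.card U * (Nat.card H * Nat.card W₁) = Nat.card U * U.relIndex M := by
        rw [← h1]; ring
      exact (Nat.eq_of_mul_eq_mul_left Nat.card_pos h2).symm
    have hrelW : W₁.relIndex M = Nat.card H * Nat.card U := by
      have h1 := Cfsg.Agent.Lib.Helper4.card_eq_mul_relIndex hW1M
      rw [hcardM, hcardD] at h1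
      have h2 : Nat.card W₁ * (Nat.card H * Nat.card U) = Nat.card W₁ * W₁.relIndex M := by
        rw [← h1]; ring
      exact (Nat.eq_of_mul_eq_mul_left Nat.card_pos h2).symm
    have hcopW : (Nat.card U).Coprime (Nat.card W₁) := by
      have := hP.W₁_hall
      rw [hrelW] at this
      exact (Nat.Coprime.coprime_mul_left_right this).symm
    have hmem : U.subgroupOf M ∈ {N : Subgroup M | N.Normal ∧ Group.IsNilpotent N ∧ (Nat.card N).Coprime N.index} := by
      refine ⟨Subgroup.normal_subgroupOf_of_le_normalizer hUnM, ?_, ?_⟩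
      · have := hP.U_nilpotent
        exact Group.nilpotent_of_mulEquiv (Subgroup.subgroupOfEquivOfLe hUM).symm
      · rw [Nat.card_congr (Subgroup.subgroupOfEquivOfLe hUM).toEquiv]
        show (Nat.card U).Coprime (U.relIndex M)
        rw [hrelM]
        exact Nat.Coprime.mul_right hcop hcopW
    have hle : U.subgroupOf M ≤ fittingHall M := le_sSup hmem
    have hUH : U ≤ H := by
      intro u hu
      exact ⟨⟨u, hUM hu⟩, hle (show (⟨u, hUM hu⟩ : M) ∈ U.subgroupOf M from hu), rfl⟩
    rw [eq_bot_iff, ← hdisj]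
    exact le_inf hUH le_rfl

end Cfsg.Agent.S1388
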