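import Cfsg.Statements.S1394
import Cfsg.Agent.Lib.Helper29.TransBG
-- import your own Cfsg.Agent.* helpers here

set_option autoImplicit false
open Cfsg

namespace Cfsg.Agent.S1394

/-- Let G be a minimal simple group of odd order, A a subgroup satisfying the transitivity hypothesis whose centre has rank at least 2, K = O_{π(A)'}(C_G(A)), and q a prime dividing the order of C_G(A) but not that of A. Then any two maximal A-invariant q-subgroups of G are conjugate by an element of K. -/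
theorem result {G : Type*} [Group G] [Finite G] (hG : Cfsg.IsMinSimpleOddOrder G)
    (A : Subgroup G) (hA : Cfsg.TransitivityHypothesis A) (hZ : ¬ Cfsg.RankLE 1 ↥(A ⊓ Subgroup.centralizer (A : Set G)))
    (q : ℕ) (hq : q.Prime) (hqA : ¬ q ∣ Nat.card A) (hqC : q ∣ Nat.card (Subgroup.centralizer (A : Set G))) :
    ∀ Q₁ ∈ Cfsg.maxInvSubgroups ⊤ A {q}, ∀ Q₂ ∈ Cfsg.maxInvSubgroups ⊤ A {q}, ∃ k ∈ Cfsg.piCoreOf (Cfsg.primesNotDvd (Nat.card A)) (Subgroup.centralizer (A : Set G)), Q₂ = Q₁.map (MulAut.conj k).toMonoidHom := by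
  haveI : Fact q.Prime := ⟨hq⟩
  obtain ⟨r, hr, E, hEZ, hE, hcard⟩ := Cfsg.Agent.Lib.Helper29.exists_elemAb_of_not_rankLE hZ
  haveI : Fact r.Prime := ⟨hr⟩
  rw [pow_one] at hcard
  have hEA : E ≤ A := hEZ.trans inf_le_left
  have hrA : r ∣ Nat.card A := by
    have h1 : Nat.card E ∣ Nat.card A := Subgroup.card_dvd_of_le hEA
    obtain ⟨n, hn⟩ := IsPGroup.iff_card.mp (Cfsg.Agent.Lib.Helper4.elemAb_isPGroup hE)
    rcases n with _ | n
    · rw [hn] at hcard
      have := hr.pos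
      simp at hcard
      omega
    · exact (Dvd.intro_left (r ^ n) (by rw [hn, pow_succ])).trans h1
  have hrq : ∀ Q : Subgroup G, IsPGroup q Q → ¬ r ∣ Nat.card Q := by
    intro Q hQ hd
    have := Cfsg.Agent.Lib.Helper29.primes_of_isPGroup hQ r hr hd
    rw [Set.mem_singleton_iff] at this
    exact hqA (this ▸ hrA)
  -- an element of order `q` centralizing `A`
  obtain ⟨x, hx⟩ := exists_prime_orderOf_dvd_card' (G := Subgroup.centralizer (A : Set G)) q hqC
  have hx1 : (x : G) ≠ 1 := by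
    intro h
    have : x = 1 := Subtype.ext h
    rw [this, orderOf_one] at hx
    exact hq.one_lt.ne hx
  have hXq : IsPGroup q (Subgroup.zpowers (x : G)) := by
    apply IsPGroup.of_card (n := 1)
    rw [Nat.card_zpowers, Subgroup.orderOf_coe, hx, pow_one]
  have hXA : A ≤ Subgroup.normalizer (Subgroup.zpowers (x : G) : Set G) := by
    refine le_trans ?_ (Subgroup.centralizer_le_normalizer _)
    intro a ha
    rw [Subgroup.mem_centralizer_iff]
    intro y hy
    obtain ⟨n, rfl⟩ := Subgroup.mem_zpowers_iff.mp hy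
    have h1 : Commute a (x : G) := (Subgroup.mem_centralizer_iff.mp x.2) a ha
    exact (h1.zpow_right n).symm
  obtain ⟨Q₀, h₀, hXQ₀⟩ := Cfsg.Agent.Lib.Helper29.exists_maxInv_ge hXq hXA
  have key : ∀ Q ∈ Cfsg.maxInvSubgroups ⊤ A {q}, ∃ k ∈ Cfsg.piCoreOf (Cfsg.primesNotDvd (Nat.card A))
      (Subgroup.centralizer (A : Set G)), Q = Cfsg.Agent.Lib.Helper12.cj k Q₀ := by
    intro Q hQ
    have hi := Cfsg.Agent.Lib.Helper29.mem_inv_iff.mp hQ.1
    have hb : Q ≠ ⊥ := by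
      intro h
      have h2 : Q₀ = Q := hQ.2 Q₀ h₀.1 (h ▸ bot_le)
      have h3 : (x : G) ∈ Q := h2 ▸ hXQ₀ (Subgroup.mem_zpowers _)
      rw [h, Subgroup.mem_bot] at h3
      exact hx1 h3
    obtain ⟨b, hbE, hb1, hf⟩ := Cfsg.Agent.Lib.Helper29.exists_fix_of_rank_two r E Q hE hcard
      (hrq _ hi.1) (hEA.trans hi.2) hb
    refine Cfsg.Agent.Lib.Helper29.TH.conj_of_common hG hA q hqA Q₀ Q h₀ hQ
      (Subgroup.centralizer ({b} : Set G)) (Cfsg.Agent.Lib.Helper29.centralizer_singleton_ne_top hG hb1) ?_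
      ?_ (by rwa [inf_comm])
    · intro a ha
      rw [Subgroup.mem_centralizer_singleton_iff]
      exact ((Subgroup.mem_centralizer_iff.mp (Subgroup.mem_inf.mp (hEZ hbE)).2) a ha)
    · intro h
      have h3 : (x : G) ∈ Subgroup.centralizer ({b} : Set G) ⊓ Q₀ := by
        refine Subgroup.mem_inf.mpr ⟨?_, hXQ₀ (Subgroup.mem_zpowers _)⟩
        rw [Subgroup.mem_centralizer_singleton_iff]
        exact ((Subgroup.mem_centralizer_iff.mp x.2) b (hEA hbE)).symm
      rw [h, Subgroup.mem_bot] at h3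
      exact hx1 h3
  intro Q₁ h₁ Q₂ h₂
  obtain ⟨k₁, hk₁, e₁⟩ := key Q₁ h₁
  obtain ⟨k₂, hk₂, e₂⟩ := key Q₂ h₂
  refine ⟨k₂ * k₁⁻¹, mul_mem hk₂ (inv_mem hk₁), ?_⟩
  show Q₂ = Cfsg.Agent.Lib.Helper12.cj (k₂ * k₁⁻¹) Q₁
  rw [e₁, e₂, Cfsg.Agent.Lib.Helper12.cj_mul, Cfsg.Agent.Lib.Helper12.cj_inv_cj]

end Cfsg.Agent.S1394
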