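import Cfsg.Statements.S1396
import Cfsg.Agent.Lib.Helper29.TransTH
-- import your own Cfsg.Agent.* helpers here

set_option autoImplicit false
open Cfsg

namespace Cfsg.Agent.S1396

/-- Let G be a minimal simple group of odd order, p a prime dividing the order of G and A an abelian p-subgroup. Suppose either (1) A consists exactly of the elements x of C_G(A) with x^p = 1, and every proper subgroup of G has p-length at most one, or (2) A is normal and self-centralizing in some Sylow p-subgroup of G and has rank at least 2. Then A satisfies the transitivity hypothesis. -/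
theorem result {G : Type*} [Group G] [Finite G] (hG : Cfsg.IsMinSimpleOddOrder G)
    (p : ℕ) [Fact p.Prime] (hp : p ∣ Nat.card G) (A : Subgroup G) (hAp : IsPGroup p A) (hAc : IsMulCommutative A)
    (h : (∀ x ∈ Subgroup.centralizer (A : Set G), x ^ p = 1 ↔ x ∈ A) ∧ (∀ H : Subgroup G, H ≠ ⊤ → Cfsg.PLengthLE p 1 H) ∨
      ∃ P : Sylow p G, Cfsg.IsSCN (P : Subgroup G) A ∧ ¬ Cfsg.PRankLE p 1 A) :
    Cfsg.TransitivityHypothesis A := by
  have hpp : p.Prime := Fact.out
  rcases h with ⟨h1, -⟩ | ⟨P, hscn, hrk⟩
  · apply Cfsg.Agent.Lib.Helper29.TH_of_odd hG p hp A hAp _ hAc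
    · intro x hx ho
      exact (h1 x hx).mp (by rw [← ho]; exact pow_orderOf_eq_one x)
    · intro hbot
      obtain ⟨x, hx⟩ := exists_prime_orderOf_dvd_card' (G := G) p hp
      have h2 : x ∈ Subgroup.centralizer (A : Set G) := by
        rw [hbot, Subgroup.mem_centralizer_iff]
        intro a ha
        have : a = 1 := ha
        rw [this]; simp
      have h3 := (h1 x h2).mp (by rw [← hx]; exact pow_orderOf_eq_one x)
      rw [hbot, Subgroup.mem_bot] at h3
      rw [h3, orderOf_one] at hx
      exact hpp.one_lt.ne hx
  · apply Cfsg.Agent.Lib.Helper29.TH_of_odd hG p hp A hAp _ hAc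
    · intro x hx ho
      apply Cfsg.Agent.Lib.Helper29.mem_of_isSCN p P A hscn x hx
      apply IsPGroup.of_card (n := 1)
      rw [Nat.card_zpowers, ho, pow_one]
    · intro hbot
      apply hrk
      intro B _ _
      have h2 : Nat.card B ≤ Nat.card A := Subgroup.card_le_card_group B
      have h3 : Nat.card A = 1 := by rw [hbot, Subgroup.card_bot]
      rw [h3] at h2
      have := hpp.one_lt
      rw [pow_one]
      omega

end Cfsg.Agent.S1396
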