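import Mathlib
import Cfsg.Statements.S1441
import Cfsg.Agent.Lib.Helper9.Coprime

set_option autoImplicit false
open Cfsg

namespace Cfsg.Agent.S1441

open Cfsg.Agent.Lib.Helper9

/-- Let G be a finite group, H a solvable subgroup and A a subgroup normalizing H. Suppose there is a chain H = H₀ ≥ H₁ ≥ ⋯ ≥ H_n = 1 of subgroups normal in H and normalized by A such that A acts trivially on each factor H_{i-1}/H_i (that is, [H_{i-1}, A] ≤ H_i). Then every prime dividing the index of C_A(H) in A divides the order of H. -/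
theorem result {G : Type*} [Group G] [Finite G] (H A : Subgroup G) (hH : Group.IsSolvable H) (hA : (A ≤ Subgroup.normalizer (H : Set G)))
    (n : ℕ) (c : Fin (n + 1) → Subgroup G) (hc0 : c 0 = H) (hcn : c (Fin.last n) = ⊥) (hanti : Antitone c)
    (hcN : ∀ i, H ≤ Subgroup.normalizer ((c i : Subgroup G) : Set G)) (hcA : ∀ i, A ≤ Subgroup.normalizer ((c i : Subgroup G) : Set G))
    (htriv : ∀ i : Fin n, ⁅c i.castSucc, A⁆ ≤ c i.succ) :
    ∀ p : ℕ, p.Prime → p ∣ (A ⊓ Subgroup.centralizer (H : Set G)).relIndex A → p ∣ Nat.card H := by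
  intro p hp hdvd
  by_contra hpH
  have : Fact p.Prime := ⟨hp⟩
  -- every p-element of A centralizes H
  have key : ∀ a ∈ A, (∃ k, orderOf a = p ^ k) → ∀ i : Fin (n + 1), ∀ x ∈ c i, a * x * a⁻¹ = x := by
    intro a ha ⟨k, hk⟩ i
    induction i using Fin.reverseInduction with
    | last =>
      intro x hx
      rw [hcn, Subgroup.mem_bot] at hx
      subst hx; group
    | cast i ih =>
      intro x hx
      set d := x⁻¹ * (a * x * a⁻¹) with hd
      have hd1 : d ∈ c i.succ := by
        apply htriv i
        have := Subgroup.commutator_mem_commutator (Subgroup.inv_mem _ hx) ha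
        rw [commutatorElement_def] at this
        have h2 : x⁻¹ * a * x⁻¹⁻¹ * a⁻¹ = d := by rw [hd]; group
        rwa [h2] at this
      have hdH : d ∈ H := by
        rw [← hc0]
        exact hanti (Fin.zero_le _) hd1
      have hda : a * d = d * a := by
        have := ih d hd1
        calc a * d = (a * d * a⁻¹) * a := by group
          _ = d * a := by rw [this]
      have h : a * x * a⁻¹ = x * d := by rw [hd]; group
      have h1 : d = 1 := by
        apply eq_one_of_conj_eq_mul h hda
        rw [hk]
        apply Nat.Coprime.pow_left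
        have h3 : Nat.Coprime p (Nat.card H) := (Nat.Prime.coprime_iff_not_dvd hp).mpr hpH
        exact Nat.Coprime.of_dvd_right (Subgroup.orderOf_dvd_natCard H hdH) h3
      rw [h, h1, mul_one]
  obtain ⟨P⟩ : Nonempty (Sylow p A) := inferInstance
  have hPle : (P : Subgroup A) ≤ (A ⊓ Subgroup.centralizer (H : Set G)).subgroupOf A := by
    intro y hy
    rw [Subgroup.mem_subgroupOf]
    refine Subgroup.mem_inf.mpr ⟨y.2, ?_⟩
    rw [Subgroup.mem_centralizer_iff]
    intro h hh
    have hord : ∃ k, orderOf (y : G) = p ^ k := by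
      obtain ⟨k, hk⟩ := (IsPGroup.iff_orderOf.mp P.2) ⟨y, hy⟩
      refine ⟨k, ?_⟩
      have h1 : orderOf (⟨y, hy⟩ : (P : Subgroup A)) = orderOf y := Subgroup.orderOf_mk y hy
      rw [Subgroup.orderOf_coe, ← h1, hk]
    have := key y y.2 hord 0 h (hc0 ▸ hh)
    calc h * y = (y * h * (y:G)⁻¹) * y := by rw [this]
      _ = y * h := by group
  have h1 : ((A ⊓ Subgroup.centralizer (H : Set G)).subgroupOf A).index ∣ (P : Subgroup A).index :=
    Subgroup.index_dvd_of_le hPle
  exact P.not_dvd_index (hdvd.trans h1)

end Cfsg.Agent.S1441
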