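import Mathlib
import Cfsg.Statements.S1442
import Cfsg.Agent.Lib.Helper9.Coprime

set_option autoImplicit false
open Cfsg

namespace Cfsg.Agent.S1442

open Cfsg.Agent.Lib.Helper9

/-- Let G be a finite group, H a nilpotent subgroup and A a subgroup normalizing H with the orders of A and H coprime. Put C = H ∩ C_G(A). If H ∩ C_G(C) ≤ C then A centralizes H. -/
theorem result {G : Type*} [Group G] [Finite G] (H A : Subgroup G) (hH : Group.IsNilpotent H) (hA : (A ≤ Subgroup.normalizer (H : Set G))) (hcop : (Nat.card A).Coprime (Nat.card H))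
    (hC : H ⊓ Subgroup.centralizer (((H ⊓ Subgroup.centralizer (A : Set G)) : Subgroup G) : Set G) ≤ (H ⊓ Subgroup.centralizer (A : Set G))) :
    A ≤ Subgroup.centralizer (H : Set G) := by
  set C : Subgroup G := H ⊓ Subgroup.centralizer (A : Set G) with hCdef
  have hCH : C ≤ H := inf_le_left
  have hEq : C = H := by
    by_contra hne
    have hlt : C < H := lt_of_le_of_ne hCH hne
    obtain ⟨x, hxH, hxN, hxC⟩ := exists_mem_normalizer_not_mem_of_nilpotent hH hlt
    apply hxC
    refine Subgroup.mem_inf.mpr ⟨hxH, ?_⟩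
    rw [Subgroup.mem_centralizer_iff]
    intro a ha
    have haN := hA ha
    have haxH : a * x * a⁻¹ ∈ H := (Subgroup.mem_normalizer_iff.mp haN x).1 hxH
    set d := x⁻¹ * (a * x * a⁻¹) with hd
    have hdH : d ∈ H := H.mul_mem (H.inv_mem hxH) haxH
    have hdC : d ∈ C := by
      apply hC
      refine Subgroup.mem_inf.mpr ⟨hdH, ?_⟩
      rw [Subgroup.mem_centralizer_iff]
      intro c hc
      have hc1 : a * c = c * a := by
        have := (Subgroup.mem_centralizer_iff.mp hc.2) a ha
        exact this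
      have hc2 : x * c * x⁻¹ ∈ C := (Subgroup.mem_normalizer_iff.mp hxN c).1 hc
      have hc3 : a * (x * c * x⁻¹) = (x * c * x⁻¹) * a :=
        (Subgroup.mem_centralizer_iff.mp hc2.2) a ha
      -- d c d⁻¹ = c
      have h1 : a⁻¹ * c * a = c := by rw [mul_assoc, ← hc1]; group
      have h2 : a * (x * c * x⁻¹) * a⁻¹ = x * c * x⁻¹ := by rw [hc3]; group
      have h3 : d * c * d⁻¹ = c := by
        calc d * c * d⁻¹ = x⁻¹ * (a * (x * (a⁻¹ * c * a) * x⁻¹) * a⁻¹) * x := by rw [hd]; group
          _ = x⁻¹ * (a * (x * c * x⁻¹) * a⁻¹) * x := by rw [h1]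
          _ = x⁻¹ * (x * c * x⁻¹) * x := by rw [h2]
          _ = c := by group
      calc c * d = (d * c * d⁻¹) * d := by rw [h3]
        _ = d * c := by group
    have hda : a * d = d * a := (Subgroup.mem_centralizer_iff.mp hdC.2) a ha
    have := conj_eq_of_coprime hcop ha hdH hda
    calc a * x = (a * x * a⁻¹) * a := by group
      _ = x * a := by rw [this]
  intro a ha
  rw [Subgroup.mem_centralizer_iff]
  intro h hh
  have : h ∈ C := hEq ▸ hh
  exact ((Subgroup.mem_centralizer_iff.mp this.2) a ha).symm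

end Cfsg.Agent.S1442
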