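import Cfsg.Statements.S1443
import Mathlib
import Cfsg.Agent.Lib.Helper9.Omega
import Cfsg.Agent.Lib.Helper4.Basic
import Cfsg.Agent.S0028

set_option autoImplicit false
open Cfsg

namespace Cfsg.Agent.S1443

open Cfsg.Agent.Lib.Helper9

/-- Let G be a finite group, p an odd prime, H a p-subgroup, E an elementary abelian subgroup of H, and A a subgroup of order coprime to p normalizing H. If A centralizes every element of order p in H ∩ C_G(E), then A centralizes H. -/
theorem result {G : Type*} [Group G] [Finite G] (p : ℕ) [Fact p.Prime] (hp : p ≠ 2) (H E A : Subgroup G) (hH : IsPGroup p H) (hE : E ≤ H) (hEe : Cfsg.IsElementaryAbelian p E)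
    (hA : (A ≤ Subgroup.normalizer (H : Set G))) (hcop : (Nat.card A).Coprime p)
    (hfix : ∀ x ∈ (H ⊓ Subgroup.centralizer (E : Set G)), orderOf x = p → A ≤ Subgroup.centralizer ({x} : Set G)) :
    A ≤ Subgroup.centralizer (H : Set G) := by
  have hEE : E ≤ Subgroup.centralizer (E : Set G) := by
    intro e he
    rw [Subgroup.mem_centralizer_iff]
    intro f hf
    exact (Cfsg.Agent.Lib.Helper4.isMulCommutative_iff E).mp hEe.1 f hf e he
  have hAE : A ≤ Subgroup.centralizer (E : Set G) := by
    intro a ha
    rw [Subgroup.mem_centralizer_iff]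
    intro e he
    by_cases he1 : e = 1
    · rw [he1, one_mul, mul_one]
    · have ho : orderOf e = p := orderOf_eq_prime (hEe.2 e he) he1
      have := hfix e (Subgroup.mem_inf.mpr ⟨hE he, hEE he⟩) ho ha
      rw [Subgroup.mem_centralizer_singleton_iff] at this
      exact this.symm
  have hEA : E ≤ Subgroup.centralizer (A : Set G) := Subgroup.le_centralizer_iff.mp hAE
  have hAK : A ≤ Subgroup.normalizer ((H ⊓ Subgroup.centralizer (E : Set G) : Subgroup G) : Set G) := by
    apply Cfsg.Agent.Lib.Helper8.le_normalizer_inf hA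
    intro a ha
    apply Cfsg.Agent.Lib.Helper8.mem_normalizer_of_conj_mem
    intro x hx
    rw [Subgroup.mem_centralizer_iff] at hx ⊢
    intro e he
    have h1 := Subgroup.mem_centralizer_iff.mp (hAE ha) e he
    have h2 := hx e he
    have h3 : e * a⁻¹ = a⁻¹ * e := by
      calc e * a⁻¹ = a⁻¹ * (a * e) * a⁻¹ := by group
        _ = a⁻¹ * (e * a) * a⁻¹ := by rw [h1]
        _ = a⁻¹ * e := by group
    calc e * (a * x * a⁻¹) = (e * a) * x * a⁻¹ := by group
      _ = a * (e * x) * a⁻¹ := by rw [h1]; group
      _ = a * x * (e * a⁻¹) := by rw [h2]; group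
      _ = a * x * a⁻¹ * e := by rw [h3]; group
  have hAcK := centralizes_of_centralizes_order_p p hp A hcop _ (hH.to_le inf_le_left) hAK hfix
  exact Cfsg.Agent.S0028.result p E A H (Cfsg.Agent.Lib.Helper4.elemAb_isPGroup hEe) hcop hH hEA
    (hE.trans Subgroup.le_normalizer) hA (Subgroup.le_centralizer_iff.mp hAcK)

end Cfsg.Agent.S1443
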