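import Cfsg.Statements.S1457
import Cfsg.Agent.S1465

set_option autoImplicit false
open Cfsg

namespace Cfsg.Agent.S1457

/-- Let G be a solvable group of odd order, p a prime, S a Sylow p-subgroup of G and A an abelian subgroup of S normal in S. Then A ≤ O_{p',p}(G). -/
theorem result {G : Type*} [Group G] [Finite G] [Group.IsSolvable G] (hodd : Odd (Nat.card G)) (p : ℕ) [Fact p.Prime] (S : Sylow p G) (A : Subgroup G) (hA : A ≤ (S : Subgroup G)) (hAc : IsMulCommutative A)
    (hAn : (S : Subgroup G) ≤ Subgroup.normalizer (A : Set G)) :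
    A ≤ Cfsg.pPrimePCore p G := by
  have hpp : p.Prime := Fact.out
  by_cases hp : p = 2
  · subst hp
    have h1 : Nat.card (S : Subgroup G) = 1 := by
      obtain ⟨k, hk⟩ := S.2.exists_card_eq
      have h2 : Odd (Nat.card (S : Subgroup G)) := Odd.of_dvd_nat hodd (Subgroup.card_subgroup_dvd_card _)
      rw [hk] at h2 ⊢
      rcases Nat.eq_zero_or_pos k with rfl | hkpos
      · simp
      · exact absurd h2 (Nat.not_odd_iff_even.mpr ((Nat.even_pow' hkpos.ne').mpr even_two))
    rw [Subgroup.card_eq_one] at h1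
    rw [h1] at hA
    exact hA.trans bot_le
  have hn : (Cfsg.pPrimeCore p G).Normal := (Cfsg.Agent.Lib.Helper1.pPrimeCore_spec p).1
  set π := QuotientGroup.mk' (Cfsg.pPrimeCore p G) with hπ
  have hπs : Function.Surjective π := QuotientGroup.mk'_surjective _
  have hQn : (Cfsg.pCore p (G ⧸ Cfsg.pPrimeCore p G)).Normal := Cfsg.Agent.Lib.Helper1.pCore_normal p
  have hQp : IsPGroup p (Cfsg.pCore p (G ⧸ Cfsg.pPrimeCore p G)) := Cfsg.Agent.Lib.Helper1.pCore_isPGroup p
  have hoddq : Odd (Nat.card (G ⧸ Cfsg.pPrimeCore p G)) :=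
    Odd.of_dvd_nat hodd (Subgroup.card_quotient_dvd_card _)
  have hQS : Cfsg.pCore p (G ⧸ Cfsg.pPrimeCore p G) ≤ (S : Subgroup G).map π := by
    have := hQp.le_sylow_of_normal (S.mapSurjective hπs)
    exact this
  have key := (Cfsg.Agent.S1465.result hoddq p hp (Cfsg.pCore p (G ⧸ Cfsg.pPrimeCore p G)) hQp {A.map π} (by
    intro B hB
    rw [Set.mem_singleton_iff] at hB
    subst hB
    refine ⟨?_, (S.2.to_le hA).map π, ?_⟩
    · exact Subgroup.map_isMulCommutative A π
    · refine hQS.trans ?_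
      exact (Subgroup.map_mono hAn).trans (Subgroup.le_normalizer_map π))).2
    (Cfsg.Agent.Lib.Helper1.pPrimeCore_quotient_eq_bot p) inf_le_left
  rw [sSup_singleton] at key
  exact Subgroup.map_le_iff_le_comap.mp key

end Cfsg.Agent.S1457
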