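import Mathlib
import Cfsg.Statements.S1460
import Cfsg.Agent.Lib.Helper9.Cores
import Cfsg.Agent.Lib.Helper1.Coprime

set_option autoImplicit false
open Cfsg

namespace Cfsg.Agent.S1460

open Cfsg.Agent.Lib.Helper9
open scoped commutatorElement Pointwise

theorem commutator_eq_map {G : Type*} [Group G] (N : Subgroup G) :
    ⁅N, N⁆ = (commutator N).map N.subtype := by
  rw [commutator_def, Subgroup.map_commutator, ← MonoidHom.range_eq_map, Subgroup.range_subtype]

theorem part3 {G : Type*} [Group G] [Finite G] [Group.IsSolvable G] (K U H : Subgroup G) [K.Normal] (hKU : K ⊔ U = ⊤) (hH : H ≤ U) (hcop : (Nat.card H).Coprime (Nat.card K)) :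
    ∀ g : G, H.map (MulAut.conj g).toMonoidHom ≤ U → ∃ u ∈ U, ∃ c ∈ K ⊓ Subgroup.centralizer (H : Set G), g = u * c := by
  intro g hg
  have hUN : U ≤ Subgroup.normalizer (K : Set G) := by
    rw [Subgroup.normalizer_eq_top]; exact le_top
  have hKH : K ⊓ H = ⊥ := (Subgroup.disjoint_of_coprime_natCard hcop.symm).eq_bot
  obtain ⟨k', hk', u', hu', hgi⟩ :=
    (Cfsg.Agent.Lib.Helper1.mem_sup_of_le_normalizer hUN).mp (hKU ▸ Subgroup.mem_top g⁻¹)
  set u₀ := u'⁻¹ with hu₀
  set k := k'⁻¹ with hk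
  have hu₀U : u₀ ∈ U := U.inv_mem hu'
  have hkK : k ∈ K := K.inv_mem hk'
  have hgk : g = u₀ * k := by
    have : g = (g⁻¹)⁻¹ := by group
    rw [this, hgi, hu₀, hk]; group
  -- k H k⁻¹ ≤ U
  have hkH : ∀ h ∈ H, k * h * k⁻¹ ∈ U := by
    intro h hh
    have h1 : g * h * g⁻¹ ∈ U := hg ⟨h, hh, rfl⟩
    have h2 : k * h * k⁻¹ = u₀⁻¹ * (g * h * g⁻¹) * u₀ := by rw [hgk]; group
    rw [h2]
    exact U.mul_mem (U.mul_mem (U.inv_mem hu₀U) h1) hu₀U
  set N₀ := K ⊓ U with hN₀
  have hHN : H ≤ Subgroup.normalizer (N₀ : Set G) := by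
    rw [Subgroup.le_normalizer_iff]
    intro h hh n hn
    refine Subgroup.mem_inf.mpr ⟨‹K.Normal›.conj_mem n hn.1 h, ?_⟩
    exact U.mul_mem (U.mul_mem (hH hh) hn.2) (U.inv_mem (hH hh))
  have hB : (MulAut.conj k • H : Subgroup G) ≤ N₀ ⊔ H := by
    intro x hx
    rw [Cfsg.Agent.Lib.Helper1.mem_conj_smul] at hx
    set h := k⁻¹ * x * k with hh
    have hx' : x = k * h * k⁻¹ := by rw [hh]; group
    have h1 : x = (k * (h * k⁻¹ * h⁻¹)) * h := by rw [hx']; group
    rw [h1]
    apply Subgroup.mul_mem _ (Subgroup.mem_sup_left _) (Subgroup.mem_sup_right hx)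
    refine Subgroup.mem_inf.mpr ⟨K.mul_mem hkK (‹K.Normal›.conj_mem _ (K.inv_mem hkK) h), ?_⟩
    have h2 : k * (h * k⁻¹ * h⁻¹) = (k * h * k⁻¹) * h⁻¹ := by group
    rw [h2]
    exact U.mul_mem (hkH h hx) (U.inv_mem (hH hx))
  have hcop' : (Nat.card N₀).Coprime (Nat.card H) :=
    Nat.Coprime.of_dvd_left (Subgroup.card_dvd_of_le inf_le_left) hcop.symm
  obtain ⟨w, hw, hwH⟩ := Cfsg.Agent.Lib.Helper1.szi_card N₀ H (MulAut.conj k • H) hHN hB
    (Cfsg.Agent.Lib.Helper1.card_conj_smul k H) hcop' (Or.inl inferInstance)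
  set c := w⁻¹ * k with hc
  have hcK : c ∈ K := K.mul_mem (K.inv_mem hw.1) hkK
  have hcH : ∀ h ∈ H, c * h * c⁻¹ ∈ H := by
    intro h hh
    have h1 : k * h * k⁻¹ ∈ (MulAut.conj k • H : Subgroup G) :=
      Cfsg.Agent.Lib.Helper1.conj_mem_conj_smul hh
    rw [← hwH, Cfsg.Agent.Lib.Helper1.mem_conj_smul] at h1
    have h2 : c * h * c⁻¹ = w⁻¹ * (k * h * k⁻¹) * w := by rw [hc]; group
    rw [h2]; exact h1
  have hcC : c ∈ Subgroup.centralizer (H : Set G) := by
    rw [Subgroup.mem_centralizer_iff]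
    intro h hh
    have h1 : c * h * c⁻¹ * h⁻¹ ∈ K ⊓ H := by
      refine Subgroup.mem_inf.mpr ⟨?_, H.mul_mem (hcH h hh) (H.inv_mem hh)⟩
      have h2 : c * h * c⁻¹ * h⁻¹ = c * (h * c⁻¹ * h⁻¹) := by group
      rw [h2]
      exact K.mul_mem hcK (‹K.Normal›.conj_mem _ (K.inv_mem hcK) h)
    rw [hKH, Subgroup.mem_bot] at h1
    have h3 : c * h = (c * h * c⁻¹ * h⁻¹) * (h * c) := by group
    rw [h3, h1, one_mul]
  refine ⟨u₀ * w, U.mul_mem hu₀U hw.2, c, Subgroup.mem_inf.mpr ⟨hcK, hcC⟩, ?_⟩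
  rw [hgk, hc]; group

/-- Let G be a finite solvable group, K a normal subgroup and U a subgroup with G = KU, and H ≤ U a subgroup whose order is coprime to that of K. Then H ∩ G' = H ∩ U'; N_G(H) is generated by K ∩ C_G(H) and U ∩ N_G(H); and if gHg⁻¹ ≤ U for some g ∈ G then g = u c with u ∈ U and c ∈ K ∩ C_G(H). -/
theorem result {G : Type*} [Group G] [Finite G] [Group.IsSolvable G] (K U H : Subgroup G) [K.Normal] (hKU : K ⊔ U = ⊤) (hH : H ≤ U) (hcop : (Nat.card H).Coprime (Nat.card K)) :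
    H ⊓ commutator G = H ⊓ ⁅U, U⁆ ∧
      Subgroup.normalizer (H : Set G) = (K ⊓ Subgroup.centralizer (H : Set G)) ⊔ (U ⊓ Subgroup.normalizer (H : Set G)) ∧
      ∀ g : G, H.map (MulAut.conj g).toMonoidHom ≤ U → ∃ u ∈ U, ∃ c ∈ K ⊓ Subgroup.centralizer (H : Set G), g = u * c := by
  have h3 := part3 K U H hKU hH hcop
  refine ⟨?_, ?_, h3⟩
  · apply le_antisymm
    · intro h hh
      obtain ⟨hhH, hhG⟩ := Subgroup.mem_inf.mp hh
      refine Subgroup.mem_inf.mpr ⟨hhH, ?_⟩
      -- image in G/K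
      let π := QuotientGroup.mk' K
      have hmapU : U.map π = ⊤ := by
        have h1 : (K ⊔ U).map π = ⊤ := by
          rw [hKU, ← MonoidHom.range_eq_map]
          exact MonoidHom.range_eq_top.mpr (QuotientGroup.mk'_surjective K)
        rw [Subgroup.map_sup] at h1
        have h2 : K.map π = ⊥ := QuotientGroup.map_mk'_self K
        rwa [h2, bot_sup_eq] at h1
      have hcomm : (commutator G).map π = (⁅U, U⁆).map π := by
        rw [commutator_def, Subgroup.map_commutator, Subgroup.map_commutator, hmapU,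
          Subgroup.map_top_of_surjective π (QuotientGroup.mk'_surjective K)]
      have h4 : π h ∈ (⁅U, U⁆).map π := by
        rw [← hcomm]; exact ⟨h, hhG, rfl⟩
      obtain ⟨t, ht, hth⟩ := h4
      have hnK : t⁻¹ * h ∈ K := QuotientGroup.eq.mp hth
      rw [commutator_eq_map] at ht ⊢
      obtain ⟨t', ht', rfl⟩ := ht
      let ρ := QuotientGroup.mk' (commutator ↥U)
      let hU : ↥U := ⟨h, hH hhH⟩
      let nU : ↥U := t'⁻¹ * hU
      have hρ : ρ hU = ρ nU := by
        have h5 : ρ t' = 1 := (QuotientGroup.eq_one_iff t').mpr ht'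
        show ρ hU = ρ (t'⁻¹ * hU)
        rw [map_mul, map_inv, h5]; simp
      have ho1 : orderOf (ρ hU) ∣ Nat.card H := by
        refine (orderOf_map_dvd ρ hU).trans ?_
        rw [← Subgroup.orderOf_coe]
        exact Subgroup.orderOf_dvd_natCard H hhH
      have ho2 : orderOf (ρ hU) ∣ Nat.card K := by
        rw [hρ]
        refine (orderOf_map_dvd ρ nU).trans ?_
        rw [← Subgroup.orderOf_coe]
        exact Subgroup.orderOf_dvd_natCard K hnK
      have ho3 : orderOf (ρ hU) = 1 := Nat.eq_one_of_dvd_coprimes hcop ho1 ho2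
      rw [orderOf_eq_one_iff] at ho3
      exact ⟨hU, (QuotientGroup.eq_one_iff hU).mp ho3, rfl⟩
    · exact inf_le_inf_left _ (Subgroup.commutator_mono le_top le_top)
  · apply le_antisymm
    · intro g hg
      have hgH : H.map (MulAut.conj g).toMonoidHom ≤ U := by
        rw [Subgroup.mem_normalizer_iff_map_conj_eq] at hg
        have : H.map (MulAut.conj g).toMonoidHom = H := hg
        rw [this]; exact hH
      obtain ⟨u, hu, c, hc, rfl⟩ := h3 g hgH
      have hcN : c ∈ Subgroup.normalizer (H : Set G) :=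
        Subgroup.centralizer_le_normalizer _ hc.2
      have huN : u ∈ Subgroup.normalizer (H : Set G) := by
        have : u = (u * c) * c⁻¹ := by group
        rw [this]
        exact Subgroup.mul_mem _ hg (Subgroup.inv_mem _ hcN)
      exact Subgroup.mul_mem _ (Subgroup.mem_sup_right (Subgroup.mem_inf.mpr ⟨hu, huN⟩))
        (Subgroup.mem_sup_left hc)
    · exact sup_le (inf_le_right.trans (Subgroup.centralizer_le_normalizer _)) inf_le_right

end Cfsg.Agent.S1460
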