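import Mathlib
import Cfsg.Statements.S1461
import Cfsg.Agent.Lib.Helper9.PLength
import Cfsg.Agent.S1460

set_option autoImplicit false
open Cfsg

namespace Cfsg.Agent.S1461

open Cfsg.Agent.Lib.Helper9
open scoped Pointwise

/-- Let G be a finite solvable group, p a prime with G = O_{p',p,p'}(G), and S a Sylow p-subgroup. Then: if S ≤ G' then S ≤ [N_G(S), N_G(S)]; if Y ⊆ S and xYx⁻¹ ⊆ S then x = g c for some g ∈ N_G(S) and c centralizing Y; and for every p-subgroup Q there is x ∈ C_G(Q ∩ S) with xQx⁻¹ ≤ S. -/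
theorem result {G : Type*} [Group G] [Finite G] [Group.IsSolvable G] (p : ℕ) [Fact p.Prime] (hpl : Cfsg.PLengthLE p 1 G) (S : Sylow p G) :
    ((S : Subgroup G) ≤ commutator G → (S : Subgroup G) ≤ ⁅Subgroup.normalizer ((S : Subgroup G) : Set G), Subgroup.normalizer ((S : Subgroup G) : Set G)⁆) ∧
      (∀ (Y : Set G) (x : G), Y ⊆ (S : Subgroup G) → (fun y => x * y * x⁻¹) '' Y ⊆ (S : Subgroup G) →
        ∃ g ∈ Subgroup.normalizer ((S : Subgroup G) : Set G), ∃ c ∈ Subgroup.centralizer Y, g * c = x) ∧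
      ∀ Q : Subgroup G, IsPGroup p Q → ∃ x ∈ Subgroup.centralizer ((Q ⊓ (S : Subgroup G) : Subgroup G) : Set G), Q.map (MulAut.conj x).toMonoidHom ≤ (S : Subgroup G) := by
  obtain ⟨K, hKn, hKp, hfac⟩ := exists_of_pLengthLE_one' p hpl S
  obtain ⟨n, hn⟩ := IsPGroup.iff_card.mp S.2
  have hcop : (Nat.card (S : Subgroup G)).Coprime (Nat.card K) := by
    rw [hn]; exact (Nat.Coprime.pow_right n hKp).symm
  have hKS : K ⊓ (S : Subgroup G) = ⊥ := (Subgroup.disjoint_of_coprime_natCard hcop.symm).eq_bot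
  -- key: if k ∈ K, y ∈ S, k y k⁻¹ ∈ S then k commutes with y
  have key : ∀ k ∈ K, ∀ y ∈ (S : Subgroup G), k * y * k⁻¹ ∈ (S : Subgroup G) → y * k = k * y := by
    intro k hk y hy hky
    have h1 : k * y * k⁻¹ * y⁻¹ ∈ K ⊓ (S : Subgroup G) := by
      refine Subgroup.mem_inf.mpr ⟨?_, Subgroup.mul_mem _ hky (Subgroup.inv_mem _ hy)⟩
      have h2 : k * y * k⁻¹ * y⁻¹ = k * (y * k⁻¹ * y⁻¹) := by group
      rw [h2]
      exact K.mul_mem hk (hKn.conj_mem _ (K.inv_mem hk) y)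
    rw [hKS, Subgroup.mem_bot] at h1
    have h3 : k * y = (k * y * k⁻¹ * y⁻¹) * (y * k) := by group
    rw [h3, h1, one_mul]
  refine ⟨?_, ?_, ?_⟩
  · intro hS
    have hsup : K ⊔ Subgroup.normalizer ((S : Subgroup G) : Set G) = ⊤ := by
      rw [eq_top_iff]
      intro x _
      obtain ⟨k, hk, m, hm, rfl⟩ := hfac x
      exact Subgroup.mul_mem _ (Subgroup.mem_sup_left hk) (Subgroup.mem_sup_right hm)
    have h1 := (Cfsg.Agent.S1460.result K (Subgroup.normalizer ((S : Subgroup G) : Set G)) S hsup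
      Subgroup.le_normalizer hcop).1
    have h2 : (S : Subgroup G) ⊓ commutator G = (S : Subgroup G) := inf_of_le_left hS
    rw [h2] at h1
    intro s hs
    have h3 := h1 ▸ hs
    exact (Subgroup.mem_inf.mp h3).2
  · intro Y x hY hx
    obtain ⟨k, hk, m, hm, hxi⟩ := hfac x⁻¹
    have hx' : x = m⁻¹ * k⁻¹ := by
      have : x = (x⁻¹)⁻¹ := by group
      rw [this, hxi]; group
    refine ⟨m⁻¹, Subgroup.inv_mem _ hm, k⁻¹, ?_, hx'.symm⟩
    rw [Subgroup.mem_centralizer_iff]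
    intro y hy
    apply key k⁻¹ (K.inv_mem hk) y (hY hy)
    have h1 : x * y * x⁻¹ ∈ (S : Subgroup G) := hx ⟨y, hy, rfl⟩
    have h2 : k⁻¹ * y * k⁻¹⁻¹ = m * (x * y * x⁻¹) * m⁻¹ := by rw [hx']; group
    rw [h2]
    exact (Subgroup.mem_normalizer_iff.mp hm _).1 h1
  · intro Q hQ
    obtain ⟨P, hP⟩ := hQ.exists_le_sylow
    obtain ⟨g, rfl⟩ := MulAction.exists_smul_eq G S P
    obtain ⟨k, hk, m, hm, rfl⟩ := hfac g
    have hQk : ∀ y ∈ Q, k⁻¹ * y * k ∈ (S : Subgroup G) := by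
      intro y hy
      have h1 := hP hy
      rw [Sylow.smul_def, Sylow.pointwise_smul_def] at h1
      have h2 : y ∈ MulAut.conj (k * m) • (S : Subgroup G) := h1
      rw [Cfsg.Agent.Lib.Helper1.mem_conj_smul] at h2
      have h3 : k⁻¹ * y * k = m * ((k * m)⁻¹ * y * (k * m)) * m⁻¹ := by group
      rw [h3]
      exact (Subgroup.mem_normalizer_iff.mp hm _).1 h2
    refine ⟨k⁻¹, ?_, ?_⟩
    · rw [Subgroup.mem_centralizer_iff]
      intro y hy
      apply key k⁻¹ (K.inv_mem hk) y hy.2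
      simpa using hQk y hy.1
    · rintro _ ⟨y, hy, rfl⟩
      simpa using hQk y hy

end Cfsg.Agent.S1461
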