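import Cfsg.Statements.S1462
import Mathlib
import Cfsg.Agent.S1443
import Cfsg.Agent.S0044
import Cfsg.Agent.Lib.Helper9.PLength
import Cfsg.Agent.Lib.Helper8.FStarP
import Cfsg.Agent.Lib.Helper1.Cores

set_option autoImplicit false
open Cfsg

namespace Cfsg.Agent.S1462

open Cfsg.Agent.Lib.Helper9 Cfsg.Agent.Lib.Helper4

/-- Let G be a finite solvable group, p an odd prime with G = O_{p',p,p'}(G), E an elementary abelian p-subgroup contained in no larger elementary abelian p-subgroup of G, and L a subgroup of order coprime to p normalized by E. Then L ≤ O_{p'}(G). -/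
theorem result {G : Type*} [Group G] [Finite G] [Group.IsSolvable G] (p : ℕ) [Fact p.Prime] (hp : p ≠ 2) (hpl : Cfsg.PLengthLE p 1 G) (E L : Subgroup G) (hE : Cfsg.IsElementaryAbelian p E)
    (hEmax : ∀ B : Subgroup G, Cfsg.IsElementaryAbelian p B → E ≤ B → B = E) (hL : (Nat.card L).Coprime p) (hEL : E ≤ Subgroup.normalizer (L : Set G)) :
    L ≤ Cfsg.pPrimeCore p G := by
  have hpp : p.Prime := Fact.out
  set K₀ := Cfsg.pPrimeCore p G with hK₀
  have hK₀n : K₀.Normal := inferInstance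
  have hK₀cop : (Nat.card K₀).Coprime p := Cfsg.Agent.Lib.Helper8.coprime_card_pPrimeCore p
  set π := QuotientGroup.mk' K₀ with hπ
  have hπK : ∀ n ∈ K₀, π n = 1 := fun n hn => (QuotientGroup.eq_one_iff n).mpr hn
  have hπK' : ∀ n, π n = 1 → n ∈ K₀ := fun n hn => (QuotientGroup.eq_one_iff n).mp hn
  have hπs : Function.Surjective π := QuotientGroup.mk'_surjective K₀
  -- a Sylow subgroup containing `E`
  obtain ⟨S, hES⟩ := (elemAb_isPGroup hE).exists_le_sylow
  obtain ⟨K, hKn, hKp, hQ⟩ := exists_of_pLengthLE_one p hpl S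
  have hKK₀ : K ≤ K₀ := Cfsg.Agent.Lib.Helper8.le_pPrimeCore_of_normal hKn hKp
  set P := Cfsg.pCore p (G ⧸ K₀) with hP
  have hPp : IsPGroup p P := Cfsg.Agent.Lib.Helper8.isPGroup_pCore p
  have hPn : P.Normal := inferInstance
  have hSP : (S : Subgroup G).map π ≤ P := by
    apply Cfsg.Agent.Lib.Helper8.le_pCore_of_normal _ (S.2.map π)
    constructor
    rintro _ ⟨s, hs, rfl⟩ gbar
    obtain ⟨g, rfl⟩ := hπs gbar
    have h1 : (S : Subgroup G).map (MulAut.conj g).toMonoidHom ≤ K ⊔ S := hQ _ (S.2.map _)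
    have h2 : g * s * g⁻¹ ∈ K ⊔ (S : Subgroup G) := h1 ⟨s, hs, rfl⟩
    obtain ⟨k, hk, s', hs', hks⟩ := Subgroup.mem_sup_of_normal_left.mp h2
    refine ⟨s', hs', ?_⟩
    rw [← map_inv, ← map_mul, ← map_mul, ← hks, map_mul, hπK k (hKK₀ hk), one_mul]
  have hEP : E.map π ≤ P := (Subgroup.map_mono hES).trans hSP
  -- `C(P) ≤ P`
  have hbot := Cfsg.Agent.Lib.Helper1.pPrimeCore_quotient_eq_bot (G := G) p
  have hCP : Subgroup.centralizer (P : Set (G ⧸ K₀)) ≤ P := by
    have h1 := Cfsg.Agent.S0044.result (G := G ⧸ K₀)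
    rw [Cfsg.Agent.Lib.Helper8.fitting_eq_pCore_of_pPrimeCore_eq_bot p hbot] at h1
    exact h1
  have hLcop : (Nat.card (L.map π)).Coprime p :=
    Nat.Coprime.of_dvd_left (Subgroup.card_map_dvd L π) hL
  have hLP : L.map π ⊓ P = ⊥ := by
    rw [← disjoint_iff]
    apply Subgroup.disjoint_of_coprime_natCard
    obtain ⟨k, hk⟩ := IsPGroup.iff_card.mp hPp
    rw [hk]
    exact Nat.Coprime.pow_right k hLcop
  -- `L̄` centralizes `Ē`
  have hLE : ∀ l ∈ L, ∀ e ∈ E, π e * π l = π l * π e := by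
    intro l hl e he
    have h1 : π (e * l * e⁻¹ * l⁻¹) ∈ L.map π ⊓ P := by
      refine Subgroup.mem_inf.mpr ⟨⟨_, L.mul_mem ((Subgroup.mem_normalizer_iff.mp (hEL he) l).mp hl)
        (L.inv_mem hl), rfl⟩, ?_⟩
      have h2 : e * l * e⁻¹ * l⁻¹ = e * (l * e⁻¹ * l⁻¹) := by group
      rw [h2, map_mul, map_mul, map_mul, map_inv π l]
      exact P.mul_mem (hEP ⟨e, he, rfl⟩) (hPn.conj_mem _ (hEP ⟨e⁻¹, E.inv_mem he, rfl⟩) _)
    rw [hLP, Subgroup.mem_bot, map_mul, map_mul, map_mul, map_inv, map_inv] at h1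
    calc π e * π l = (π e * π l * (π e)⁻¹ * (π l)⁻¹) * (π l * π e) := by group
      _ = π l * π e := by rw [h1, one_mul]
  have hfix : ∀ x ∈ P ⊓ Subgroup.centralizer ((E.map π : Subgroup (G ⧸ K₀)) : Set (G ⧸ K₀)), orderOf x = p →
      L.map π ≤ Subgroup.centralizer ({x} : Set (G ⧸ K₀)) := by
    intro xbar hx hox
    obtain ⟨-, hxC⟩ := Subgroup.mem_inf.mp hx
    obtain ⟨x₀, rfl⟩ := hπs xbar
    -- lift to an element centralizing `E`
    have hk : ∀ e ∈ E, x₀⁻¹ * e * x₀ * e⁻¹ ∈ K₀ := by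
      intro e he
      apply hπK'
      have h1 := Subgroup.mem_centralizer_iff.mp hxC _ ⟨e, he, rfl⟩
      rw [map_mul, map_mul, map_mul, map_inv, map_inv, mul_assoc (π x₀)⁻¹, h1]
      group
    have hcopE : (Nat.card K₀).Coprime (Nat.card E) := by
      obtain ⟨k, hk⟩ := IsPGroup.iff_card.mp (elemAb_isPGroup hE)
      rw [hk]; exact Nat.Coprime.pow_right k hK₀cop
    obtain ⟨n, hn, hxn⟩ := Cfsg.Agent.Lib.Helper1.coprime_key K₀ E
      (by rw [Subgroup.normalizer_eq_top_iff.mpr hK₀n]; exact le_top) hcopE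
      (Or.inr (Cfsg.Agent.Lib.Helper1.solvable_of_isPGroup (elemAb_isPGroup hE))) x₀ hk
    set x := x₀ * n with hx'
    have hπx : π x = π x₀ := by rw [hx', map_mul, hπK n hn, mul_one]
    have hxpK : x ^ p ∈ K₀ := by
      apply hπK'
      rw [map_pow, hπx, ← hox, pow_orderOf_eq_one]
    set m := orderOf (x ^ p) with hm
    have hmcop : m.Coprime p :=
      Nat.Coprime.of_dvd_left (Subgroup.orderOf_dvd_natCard K₀ hxpK) hK₀cop
    obtain ⟨j, -, hj⟩ := Nat.exists_mul_mod_eq_one_of_coprime hmcop hpp.one_lt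
    set x₁ := x ^ (m * j) with hx₁
    have hπx₁ : π x₁ = π x₀ := by
      rw [hx₁, map_pow, hπx, ← pow_mod_orderOf, hox, hj, pow_one]
    have hx₁p : x₁ ^ p = 1 := by
      rw [hx₁, ← pow_mul, mul_comm, ← mul_assoc, pow_mul, pow_mul, hm, pow_orderOf_eq_one, one_pow]
    have hx₁C : ∀ e ∈ E, e * x₁ = x₁ * e := by
      intro e he
      have h1 : Commute e x := Subgroup.mem_centralizer_iff.mp hxn e he
      exact (h1.pow_right _).eq
    have hB : Cfsg.IsElementaryAbelian p (E ⊔ Subgroup.zpowers x₁) := by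
      apply elemAb_sup hE (elemAb_zpowers hx₁p)
      intro e he b hb
      obtain ⟨i, rfl⟩ := Subgroup.mem_zpowers_iff.mp hb
      exact ((show Commute e x₁ from hx₁C e he).zpow_right i).eq
    have hBE := hEmax _ hB le_sup_left
    have hx₁E : x₁ ∈ E := by
      rw [← hBE]
      exact (le_sup_right : Subgroup.zpowers x₁ ≤ _) (Subgroup.mem_zpowers x₁)
    rintro _ ⟨l, hl, rfl⟩
    rw [Subgroup.mem_centralizer_singleton_iff, ← hπx₁]
    exact (hLE l hl x₁ hx₁E).symm
  have hLnorm : L.map π ≤ Subgroup.normalizer (P : Set (G ⧸ K₀)) := by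
    rw [Subgroup.normalizer_eq_top_iff.mpr hPn]; exact le_top
  have h1 := Cfsg.Agent.S1443.result p hp P (E.map π) (L.map π) hPp hEP (elemAb_map π hE) hLnorm hLcop hfix
  have h2 : L.map π ≤ L.map π ⊓ P := le_inf le_rfl (h1.trans hCP)
  rw [hLP, le_bot_iff] at h2
  intro l hl
  apply hπK'
  have : π l ∈ L.map π := ⟨l, hl, rfl⟩
  rw [h2] at this
  exact this

end Cfsg.Agent.S1462
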