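import Mathlib
import Cfsg.Statements.S1470

set_option autoImplicit false
open Cfsg

namespace Cfsg.Agent.S1470

open Polynomial

/-- the norm of `t + k` as the value of a monic polynomial of degree `finrank` -/
theorem norm_add_algebraMap {K F : Type*} [Field K] [Field F] [Algebra K F] [FiniteDimensional K F]
    (t : F) (k : K) :
    Algebra.norm K (t + algebraMap K F k) = ((Algebra.lmul K F (-t)).charpoly).eval k := by
  rw [LinearMap.eval_charpoly, Algebra.norm_apply]
  congr 1
  ext x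
  simp [Algebra.algebraMap_eq_smul_one, add_comm]

/-- Let p and q be odd primes with (p^q − 1)/(p − 1) coprime to p − 1, and let E be the set of elements a of the field with p ^ q elements whose norm to the prime field is 1 and for which 2 − a also has norm 1. If a⁻¹ ∈ E for every a ∈ E and E has at least two elements, then p ≤ q. -/
theorem result (p q : ℕ) [Fact p.Prime] [Fact q.Prime] (hp : p ≠ 2) (hq : q ≠ 2) (hA : Nat.Coprime ((p ^ q - 1) / (p - 1)) (p - 1))
    (hinv : ∀ a ∈ {a : GaloisField p q | Algebra.norm (ZMod p) a = 1 ∧ Algebra.norm (ZMod p) (2 - a) = 1}, a⁻¹ ∈ {a : GaloisField p q | Algebra.norm (ZMod p) a = 1 ∧ Algebra.norm (ZMod p) (2 - a) = 1})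
    (h2 : 2 ≤ Set.ncard {a : GaloisField p q | Algebra.norm (ZMod p) a = 1 ∧ Algebra.norm (ZMod p) (2 - a) = 1}) :
    p ≤ q := by
  set E : Set (GaloisField p q) := {a : GaloisField p q | Algebra.norm (ZMod p) a = 1 ∧ Algebra.norm (ZMod p) (2 - a) = 1} with hE
  have hq0 : q ≠ 0 := (Fact.out : q.Prime).ne_zero
  obtain ⟨a, haE, ha1⟩ := Set.exists_ne_of_one_lt_ncard (show 1 < E.ncard from h2) 1
  let T : Set (GaloisField p q) := {t | t ≠ 0 ∧ 1 + t⁻¹ ∈ E}
  have hne0 : ∀ b ∈ E, b ≠ 0 := by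
    rintro b hb rfl
    have := hb.1
    simp at this
  have hneg : ∀ t ∈ T, -t ∈ T := by
    rintro t ⟨ht0, ht⟩
    refine ⟨neg_ne_zero.mpr ht0, ?_⟩
    have h1 : 1 + (-t)⁻¹ = 2 - (1 + t⁻¹) := by rw [inv_neg]; ring
    rw [h1]
    refine ⟨ht.2, ?_⟩
    have h3 : (2 : GaloisField p q) - (2 - (1 + t⁻¹)) = 1 + t⁻¹ := by ring
    rw [h3]; exact ht.1
  have hinv' : ∀ t ∈ T, -t - 1 ∈ T := by
    rintro t ⟨ht0, ht⟩
    have h1 : 1 + t⁻¹ ≠ 0 := hne0 _ ht
    have h2 : t + 1 ≠ 0 := by
      intro h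
      apply h1
      field_simp
      rw [h, mul_zero]
    refine ⟨?_, ?_⟩
    · intro h
      apply h2
      linear_combination -h
    · have h3 : 1 + (-t - 1)⁻¹ = (1 + t⁻¹)⁻¹ := by
        have h4 : -t - 1 ≠ 0 := by
          intro h; apply h2; linear_combination -h
        field_simp
        ring
      rw [h3]
      exact hinv _ ht
  have hsucc : ∀ t ∈ T, t + 1 ∈ T := by
    intro t ht
    have := hneg _ (hinv' t ht)
    have h1 : -(-t - 1) = t + 1 := by ring
    rwa [h1] at this
  have hnorm : ∀ t ∈ T, Algebra.norm (ZMod p) (t + 1) = Algebra.norm (ZMod p) t := by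
    rintro t ⟨ht0, ht⟩
    have h1 : t + 1 = (1 + t⁻¹) * t := by field_simp
    rw [h1, map_mul, ht.1, one_mul]
  set t₀ : GaloisField p q := (a - 1)⁻¹ with ht₀
  have ht₀T : t₀ ∈ T := by
    refine ⟨inv_ne_zero (sub_ne_zero.mpr ha1), ?_⟩
    have : 1 + t₀⁻¹ = a := by rw [ht₀, inv_inv]; ring
    rw [this]; exact haE
  have hall : ∀ k : ℕ, t₀ + k ∈ T ∧ Algebra.norm (ZMod p) (t₀ + k) = Algebra.norm (ZMod p) t₀ := by
    intro k
    induction k with
    | zero => simpa using ht₀T
    | succ k ih =>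
      have h1 : t₀ + ((k + 1 : ℕ) : GaloisField p q) = (t₀ + k) + 1 := by push_cast; ring
      rw [h1]
      exact ⟨hsucc _ ih.1, (hnorm _ ih.1).trans ih.2⟩
  set c := Algebra.norm (ZMod p) t₀ with hc
  set f : (ZMod p)[X] := (Algebra.lmul (ZMod p) (GaloisField p q) (-t₀)).charpoly - C c with hf
  have hdeg : (Algebra.lmul (ZMod p) (GaloisField p q) (-t₀)).charpoly.natDegree = q := by
    rw [LinearMap.charpoly_natDegree, GaloisField.finrank p hq0]
  have hmonic := LinearMap.charpoly_monic (Algebra.lmul (ZMod p) (GaloisField p q) (-t₀))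
  have hq1 : 0 < q := Nat.pos_of_ne_zero hq0
  have hfdeg : f.natDegree = q := by
    rw [hf, natDegree_sub_C, hdeg]
  have hf0 : f ≠ 0 := by
    intro h
    rw [h] at hfdeg
    simp at hfdeg
    omega
  have hroots : ∀ k : ZMod p, f.IsRoot k := by
    intro k
    obtain ⟨n, rfl⟩ : ∃ n : ℕ, (n : ZMod p) = k := ⟨k.val, ZMod.natCast_zmod_val k⟩
    rw [IsRoot.def, hf, eval_sub, eval_C, ← norm_add_algebraMap, map_natCast, (hall n).2, sub_self]
  have hcard : Fintype.card (ZMod p) ≤ f.natDegree := by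
    have h1 : (Finset.univ : Finset (ZMod p)) ⊆ f.roots.toFinset := by
      intro k _
      rw [Multiset.mem_toFinset, mem_roots hf0]
      exact hroots k
    calc Fintype.card (ZMod p) = (Finset.univ : Finset (ZMod p)).card := rfl
      _ ≤ f.roots.toFinset.card := Finset.card_le_card h1
      _ ≤ Multiset.card f.roots := Multiset.toFinset_card_le _
      _ ≤ f.natDegree := card_roots' f
  rw [ZMod.card, hfdeg] at hcard
  exact hcard

end Cfsg.Agent.S1470
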