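import Cfsg.Statements.S1474
import Mathlib
import Cfsg.Agent.Lib.Helper9.CN
import Cfsg.Agent.Lib.Helper9.Cores
import Cfsg.Agent.Lib.Helper1.Fitting
import Cfsg.Agent.S0069

set_option autoImplicit false
open Cfsg

namespace Cfsg.Agent.S1474
open Cfsg.Agent.Lib.Helper9 Subgroup

theorem frob_of_fpf {G : Type*} [Group G] (H E : Subgroup G) [hHn : H.Normal] (hc : IsComplement' H E)
    (hH : H ≠ ⊥) (hH' : H ≠ ⊤)
    (hfpf : ∀ e ∈ E, e ≠ 1 → H ⊓ centralizer ({e} : Set G) = ⊥) : Cfsg.IsFrobeniusComplement E := by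
  have hdis : ∀ x, x ∈ H → x ∈ E → x = 1 := fun x h1 h2 =>
    Subgroup.mem_bot.mp (hc.disjoint.eq_bot ▸ Subgroup.mem_inf.mpr ⟨h1, h2⟩)
  refine ⟨?_, ?_, ?_⟩
  · intro h
    have := hc.sup_eq_top
    rw [h, sup_bot_eq] at this
    exact hH' this
  · intro h
    have := hc.disjoint.eq_bot
    rw [h, inf_top_eq] at this
    exact hH this
  · intro g hg
    rw [eq_bot_iff]
    intro x hx
    obtain ⟨hxE, hxg⟩ := Subgroup.mem_inf.mp hx
    rw [Subgroup.mem_bot]
    by_contra hx1
    obtain ⟨y, hy, hyx⟩ := Subgroup.mem_smul_pointwise_iff_exists _ _ _ |>.mp hxg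
    have hyx' : g * y * g⁻¹ = x := hyx
    have hgtop : g ∈ H ⊔ E := hc.sup_eq_top ▸ Subgroup.mem_top g
    obtain ⟨h, hh, e₀, he₀, rfl⟩ := mem_sup_of_normal_left.mp hgtop
    have hy' : e₀ * y * e₀⁻¹ ∈ E := E.mul_mem (E.mul_mem he₀ hy) (E.inv_mem he₀)
    have hx2 : x = h * (e₀ * y * e₀⁻¹) * h⁻¹ := by rw [← hyx']; group
    have h1 : x * (e₀ * y * e₀⁻¹)⁻¹ ∈ H := by
      have h2 : x * (e₀ * y * e₀⁻¹)⁻¹ = h * ((e₀ * y * e₀⁻¹) * h⁻¹ * (e₀ * y * e₀⁻¹)⁻¹) := by
        rw [hx2]; group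
      rw [h2]
      exact H.mul_mem hh (hHn.conj_mem _ (H.inv_mem hh) _)
    have h3 := hdis _ h1 (E.mul_mem hxE (E.inv_mem hy'))
    have h4 : x = e₀ * y * e₀⁻¹ := mul_inv_eq_one.mp h3
    have h5 : h ∈ H ⊓ centralizer ({x} : Set G) := by
      refine Subgroup.mem_inf.mpr ⟨hh, ?_⟩
      rw [mem_centralizer_singleton_iff]
      rw [← h4] at hx2
      calc h * x = (h * x * h⁻¹) * h := by group
        _ = x * h := by rw [← hx2]
    rw [hfpf x hxE hx1, Subgroup.mem_bot] at h5
    apply hg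
    rw [h5, one_mul]
    exact he₀

theorem mem_sylow_of_nilpotent {G : Type*} [Group G] [Finite G] {q : ℕ} [Fact q.Prime] {T : Subgroup G}
    (hT : Group.IsNilpotent T) (Q : Sylow q G) (hQT : (Q : Subgroup G) ≤ T) {x : G} (hx : x ∈ T)
    (hxq : IsPGroup q (zpowers x)) : x ∈ Q := by
  let P : Sylow q T := default
  have hPn : (P : Subgroup T).Normal := inferInstance
  have huniq : ∀ R : Sylow q T, R = P := by
    intro R
    have := Sylow.unique_of_normal P hPn
    exact Subsingleton.elim _ _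
  have h1 : ∀ R : Subgroup G, IsPGroup q R → R.subgroupOf T ≤ P := by
    intro R hR
    obtain ⟨R', hR'⟩ := (hR.comap_subtype (H := R) (K := T)).exists_le_sylow
    rw [huniq R'] at hR'
    exact hR'
  have h2 : (Q : Subgroup G) ≤ (P : Subgroup T).map T.subtype := by
    intro y hy
    exact ⟨⟨y, hQT hy⟩, h1 Q Q.2 hy, rfl⟩
  have h3 : (P : Subgroup T).map T.subtype = Q := Q.is_maximal' (P.2.map _) h2
  show x ∈ (Q : Subgroup G)
  rw [← h3]
  exact ⟨⟨x, hx⟩, h1 _ hxq (Subgroup.mem_zpowers x), rfl⟩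

theorem main {G : Type*} [Group G] [Finite G] (hCN : Cfsg.IsCNGroup G) (hnn : ¬ Group.IsNilpotent G) (p : ℕ) [Fact p.Prime] (P : Sylow p G)
    (hP1 : (P : Subgroup G) ≠ ⊥) (hPn : (P : Subgroup G).Normal) (H : Subgroup G) [hHn : H.Normal]
    (hHdef : H = Cfsg.fittingHall G) :
    H ≠ ⊥ ∧ H ≠ ⊤ ∧
      (∃ E : Subgroup G, Subgroup.IsComplement' H E ∧ Cfsg.IsFrobeniusComplement E ∧
        ∀ e ∈ E, e ≠ 1 → H ⊓ Subgroup.centralizer ({e} : Set G) = ⊥) ∧
      Group.IsNilpotent (G ⧸ H) := by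
  have hmem : ∀ N : Subgroup G, N.Normal → Group.IsNilpotent N → (Nat.card N).Coprime N.index → N ≤ H := by
    intro N h1 h2 h3
    rw [hHdef]
    exact le_sSup ⟨h1, h2, h3⟩
  have hHnil : Group.IsNilpotent H := by
    apply isNilpotent_of_le' _ Cfsg.Agent.Lib.Helper1.fitting_nilpotent
    rw [hHdef]
    apply sSup_le_sSup
    rintro N ⟨h1, h2, -⟩
    exact ⟨h1, h2⟩
  have hcop : (Nat.card H).Coprime H.index := hHdef ▸ fittingHall_coprime G
  have hPH : (P : Subgroup G) ≤ H := hmem _ hPn P.2.isNilpotent P.card_coprime_index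
  have hH1 : H ≠ ⊥ := fun h => hP1 (le_bot_iff.mp (h ▸ hPH))
  have hH2 : H ≠ ⊤ := by
    intro h
    apply hnn
    rw [h] at hHnil
    exact isNilpotent_of_injective' (Subgroup.topEquiv (G := G)).symm.toMonoidHom
      (Subgroup.topEquiv (G := G)).symm.injective hHnil
  obtain ⟨E, hE⟩ := Subgroup.exists_right_complement'_of_coprime hcop
  have hcardE : H.index = Nat.card E := hE.symm.index_eq_card
  have hdis : ∀ x, x ∈ H → x ∈ E → x = 1 := fun x h1 h2 =>
    Subgroup.mem_bot.mp (hE.disjoint.eq_bot ▸ Subgroup.mem_inf.mpr ⟨h1, h2⟩)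
  have hfpf : ∀ e ∈ E, e ≠ 1 → H ⊓ centralizer ({e} : Set G) = ⊥ := by
    intro e he he1
    by_contra hne
    obtain ⟨h', hh'⟩ := Subgroup.ne_bot_iff_exists_ne_one.mp hne
    obtain ⟨h, hh, hh1⟩ : ∃ h : G, h ∈ H ⊓ centralizer ({e} : Set G) ∧ h ≠ 1 :=
      ⟨h', h'.2, fun h0 => hh' (Subtype.ext h0)⟩
    obtain ⟨hhH, hhe⟩ := Subgroup.mem_inf.mp hh
    rw [mem_centralizer_singleton_iff] at hhe
    have hord1 : orderOf e ≠ 1 := fun h0 => he1 (orderOf_eq_one_iff.mp h0)
    have hqp : (orderOf e).minFac.Prime := Nat.minFac_prime hord1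
    obtain ⟨q, hq⟩ : ∃ q, q = (orderOf e).minFac := ⟨_, rfl⟩
    rw [← hq] at hqp
    have := Fact.mk hqp
    have hqd : q ∣ orderOf e := hq ▸ Nat.minFac_dvd _
    obtain ⟨e', he'⟩ : ∃ e', e' = e ^ (orderOf e / q) := ⟨_, rfl⟩
    have hord : orderOf e' = q := by
      rw [he']; exact orderOf_pow_orderOf_div (orderOf_pos e).ne' hqd
    have he'E : e' ∈ E := he' ▸ E.pow_mem he _
    have he'1 : e' ≠ 1 := by
      intro h0
      rw [h0, orderOf_one] at hord
      exact hqp.one_lt.ne hord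
    have he'h : h * e' = e' * h := by
      rw [he']
      exact ((Commute.pow_right (show Commute h e from hhe) _)).eq
    have hqE : q ∣ Nat.card E := hqd.trans (by
      have := orderOf_dvd_natCard (⟨e, he⟩ : E)
      rwa [Subgroup.orderOf_mk] at this)
    have hqH : ∀ x ∈ H, (orderOf x).Coprime q := by
      intro x hx
      have h1 : orderOf x ∣ Nat.card H := by
        have := orderOf_dvd_natCard (⟨x, hx⟩ : H)
        rwa [Subgroup.orderOf_mk] at this
      rw [hcardE] at hcop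
      exact Nat.Coprime.coprime_dvd_left h1 (Nat.Coprime.coprime_dvd_right hqE hcop)
    have he'q : IsPGroup q (zpowers e') := by
      apply IsPGroup.of_card (n := 1)
      rw [Nat.card_zpowers, hord, pow_one]
    -- a central element of `H`
    have hHnt : (⊤ : Subgroup H) ≠ ⊥ := by
      have := (nontrivial_iff_ne_bot H).mpr hH1
      exact top_ne_bot
    obtain ⟨z, -, hzc, hz1⟩ := Cfsg.Agent.Lib.Helper20.normal_inf_center_ne_bot (⊤ : Subgroup H) hHnt
    have hz1' : (z : G) ≠ 1 := fun h0 => hz1 (Subtype.ext h0)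
    have hzH : ∀ x ∈ H, x * (z : G) = z * x := by
      intro x hx
      exact congrArg Subtype.val ((Subgroup.mem_center_iff.mp hzc) ⟨x, hx⟩)
    have h1 : (z : G) * e' = e' * z := by
      apply commute_of_nilpotent (hCN h hh1) (p := q) _ _ he'q (hqH _ z.2)
      · rw [mem_centralizer_singleton_iff]; exact he'h.symm
      · rw [mem_centralizer_singleton_iff]; exact (hzH h hhH).symm
    have h2 : ∀ x ∈ H, x * e' = e' * x := by
      intro x hx
      apply commute_of_nilpotent (hCN z hz1') (p := q) _ _ he'q (hqH x hx)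
      · rw [mem_centralizer_singleton_iff]; exact h1.symm
      · rw [mem_centralizer_singleton_iff]; exact hzH x hx
    obtain ⟨Q, hQ⟩ := he'q.exists_le_sylow
    have he'Q : e' ∈ Q := hQ (Subgroup.mem_zpowers e')
    obtain ⟨C, hC⟩ : ∃ C, C = centralizer (H : Set G) := ⟨_, rfl⟩
    have hCn : C.Normal := hC ▸ inferInstance
    have hCnil : Group.IsNilpotent C := by
      apply isNilpotent_of_le' _ (hCN z hz1')
      rw [hC]
      exact centralizer_le (by simp)
    have he'C : e' ∈ C := by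
      rw [hC, mem_centralizer_iff]
      intro x hx
      exact h2 x hx
    have hQnil : Group.IsNilpotent (Q : Subgroup G) := Q.2.isNilpotent
    have hXn : (C.subgroupOf (Q : Subgroup G)).Normal := inferInstance
    have hX1 : C.subgroupOf (Q : Subgroup G) ≠ ⊥ := by
      intro h0
      have h3 : (⟨e', he'Q⟩ : (Q : Subgroup G)) ∈ C.subgroupOf (Q : Subgroup G) := he'C
      rw [h0, Subgroup.mem_bot] at h3
      exact he'1 (congrArg Subtype.val h3)
    obtain ⟨y, hyC, hyc, hy1⟩ := Cfsg.Agent.Lib.Helper20.normal_inf_center_ne_bot _ hX1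
    have hy1' : (y : G) ≠ 1 := fun h0 => hy1 (Subtype.ext h0)
    have hyC' : (y : G) ∈ C := hyC
    have hQC : (Q : Subgroup G) ≤ C := by
      intro x hx
      rw [hC, mem_centralizer_iff]
      intro w hw
      apply commute_of_nilpotent (hCN y hy1') (p := q) _ _ (Q.2.to_le (zpowers_le.mpr hx)) (hqH w hw)
      · rw [mem_centralizer_singleton_iff]
        exact congrArg Subtype.val ((Subgroup.mem_center_iff.mp hyc) ⟨x, hx⟩)
      · rw [mem_centralizer_singleton_iff]
        rw [hC, mem_centralizer_iff] at hyC'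
        exact hyC' w hw
    have hQn : (Q : Subgroup G).Normal := by
      constructor
      intro x hx g
      apply mem_sylow_of_nilpotent hCnil Q hQC (hCn.conj_mem x (hQC hx) g)
      have h3 : zpowers (g * x * g⁻¹) = (zpowers x).map (MulAut.conj g).toMonoidHom := by
        rw [MonoidHom.map_zpowers]; rfl
      rw [h3]
      exact (Q.2.to_le (zpowers_le.mpr hx)).map _
    have hQH := hmem _ hQn hQnil Q.card_coprime_index
    exact he'1 (hdis e' (hQH he'Q) he'E)
  refine ⟨hH1, hH2, ⟨E, hE, frob_of_fpf H E hE hH1 hH2 hfpf, hfpf⟩, ?_⟩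
  have hE1 : E ≠ ⊥ := (frob_of_fpf H E hE hH1 hH2 hfpf).1
  have hcen := Cfsg.Agent.S0069.result H E hE hH1 hE1 hfpf
  obtain ⟨z₀, hz₀⟩ := Subgroup.ne_bot_iff_exists_ne_one.mp hcen
  have hz₀1 : ((z₀ : E) : G) ≠ 1 := fun h0 => hz₀ (Subtype.ext (Subtype.ext h0))
  have hEnil : Group.IsNilpotent E := by
    apply isNilpotent_of_le' _ (hCN _ hz₀1)
    intro x hx
    rw [mem_centralizer_singleton_iff]
    exact congrArg Subtype.val ((Subgroup.mem_center_iff.mp z₀.2) ⟨x, hx⟩)
  have hsurj : Function.Surjective ((QuotientGroup.mk' H).comp E.subtype) := by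
    intro x
    obtain ⟨g, rfl⟩ := QuotientGroup.mk'_surjective H x
    have hgtop : g ∈ H ⊔ E := hE.sup_eq_top ▸ Subgroup.mem_top g
    obtain ⟨h, hh, e₀, he₀, rfl⟩ := mem_sup_of_normal_left.mp hgtop
    refine ⟨⟨e₀, he₀⟩, ?_⟩
    show QuotientGroup.mk' H e₀ = QuotientGroup.mk' H (h * e₀)
    have hh1 : QuotientGroup.mk' H h = 1 := (QuotientGroup.eq_one_iff h).mpr hh
    rw [map_mul, hh1, one_mul]
  exact Group.nilpotent_of_surjective _ hsurj


/-- Let G be a finite group in which every non-identity element has nilpotent centralizer, not itself nilpotent, and having a nontrivial normal Sylow p-subgroup for some prime p. Let H be the largest normal nilpotent Hall subgroup of G. Then H is a nontrivial proper normal subgroup with a complement E that is a Frobenius complement in G (no non-identity element of E centralizes a non-identity element of H), and G/H is nilpotent. -/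
theorem result {G : Type*} [Group G] [Finite G] (hCN : Cfsg.IsCNGroup G) (hnn : ¬ Group.IsNilpotent G) (p : ℕ) [Fact p.Prime] (P : Sylow p G)
    (hP1 : (P : Subgroup G) ≠ ⊥) (hPn : (P : Subgroup G).Normal) :
    Cfsg.fittingHall G ≠ ⊥ ∧ Cfsg.fittingHall G ≠ ⊤ ∧
      (∃ E : Subgroup G, Subgroup.IsComplement' (Cfsg.fittingHall G) E ∧ Cfsg.IsFrobeniusComplement E ∧
        ∀ e ∈ E, e ≠ 1 → Cfsg.fittingHall G ⊓ Subgroup.centralizer ({e} : Set G) = ⊥) ∧
      Group.IsNilpotent (G ⧸ Cfsg.fittingHall G) := by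
  exact main hCN hnn p P hP1 hPn (Cfsg.fittingHall G) rfl

end Cfsg.Agent.S1474
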