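import Cfsg.Statements.S1475
import Mathlib
import Cfsg.Agent.S0041
import Cfsg.Agent.Lib.Helper1.Hall
import Cfsg.Agent.Lib.Helper9.Basic
import Cfsg.Agent.Lib.Helper4.Basic

set_option autoImplicit false
open Cfsg

namespace Cfsg.Agent.S1475

open Cfsg.Agent.Lib.Helper1 Cfsg.Agent.Lib.Helper9

theorem eppo_aux {G : Type*} [Group G] [Finite G] (h : ∀ g : G, IsPrimePow (orderOf g) ∨ g = 1) {x y : G}
    (hc : Commute x y) (hcop : (orderOf x).Coprime (orderOf y)) (hx : x ≠ 1) (hy : y ≠ 1) : False := by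
  have ho := hc.orderOf_mul_eq_mul_orderOf_of_coprime hcop
  have hx1 : orderOf x ≠ 1 := fun h1 => hx (orderOf_eq_one_iff.mp h1)
  have hy1 : orderOf y ≠ 1 := fun h1 => hy (orderOf_eq_one_iff.mp h1)
  have hxpos : 0 < orderOf x := orderOf_pos x
  have hypos : 0 < orderOf y := orderOf_pos y
  rcases h (x * y) with hpp | h1
  · rw [ho] at hpp
    rcases (hcop.isPrimePow_dvd_mul hpp).mp dvd_rfl with h2 | h2
    · have := Nat.le_of_dvd hxpos h2
      have h3 : orderOf x * 2 ≤ orderOf x * orderOf y := Nat.mul_le_mul_left _ (by omega)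
      omega
    · have := Nat.le_of_dvd hypos h2
      have h3 : 2 * orderOf y ≤ orderOf x * orderOf y := Nat.mul_le_mul_right _ (by omega)
      omega
  · rw [h1, orderOf_one] at ho
    have := Nat.eq_one_of_mul_eq_one_right ho.symm
    exact hx1 this

/-- Let G be a finite solvable group such that the order of every element is a prime power (1 included). Then at most two distinct primes divide the order of G. -/
theorem result {G : Type*} [Group G] [Finite G] [Group.IsSolvable G] (h : ∀ g : G, IsPrimePow (orderOf g) ∨ g = 1) :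
    (Nat.card G).primeFactors.card ≤ 2 := by
  by_contra hcon
  push Not at hcon
  have hnt : Nontrivial G := by
    by_contra hn
    rw [not_nontrivial_iff_subsingleton] at hn
    have : Nat.card G = 1 := Nat.card_eq_one_iff_unique.mpr ⟨hn, ⟨1⟩⟩
    rw [this] at hcon
    simp at hcon
  obtain ⟨p, V, hp, hVn, hVne, hVc, hVp⟩ := exists_normal_elementary_abelian (G := G)
  have := Fact.mk hp
  have hVcomm : IsMulCommutative V := (Cfsg.Agent.Lib.Helper4.isMulCommutative_iff V).mpr hVc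
  obtain ⟨k, m, hpm, hn⟩ := Nat.exists_eq_pow_mul_and_not_dvd (Nat.card_pos (α := G)).ne' p hp.ne_one
  have hcopm : m.Coprime (p ^ k) := (Nat.Coprime.pow_left k ((Nat.Prime.coprime_iff_not_dvd hp).mpr hpm)).symm
  obtain ⟨K, hK⟩ := hall_exists (G := G) m (p ^ k) (by rw [hn, mul_comm]) hcopm
  have hcopKp : (Nat.card K).Coprime p := by
    rw [hK]; exact ((Nat.Prime.coprime_iff_not_dvd hp).mpr hpm).symm
  -- two primes different from p
  have h2 : 1 < ((Nat.card G).primeFactors.erase p).card := by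
    have := Finset.pred_card_le_card_erase (s := (Nat.card G).primeFactors) (a := p)
    omega
  obtain ⟨q, hq, r, hr, hqr⟩ := Finset.one_lt_card.mp h2
  rw [Finset.mem_erase, Nat.mem_primeFactors] at hq hr
  have hdvdK : ∀ t : ℕ, t.Prime → t ≠ p → t ∣ Nat.card G → t ∣ Nat.card K := by
    intro t ht htp hdvd
    rw [hK]
    rw [hn] at hdvd
    exact (Nat.Coprime.dvd_mul_left (Nat.Coprime.pow_right k ((Nat.coprime_primes ht hp).mpr htp))).mp hdvd
  have hqK := hdvdK q hq.2.1 hq.1 hq.2.2.1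
  have hrK := hdvdK r hr.2.1 hr.1 hr.2.2.1
  -- fixed point free action
  have hfpf : ∀ g ∈ K, g ≠ 1 → V ⊓ Subgroup.centralizer {g} = ⊥ := by
    intro g hg hg1
    rw [eq_bot_iff]
    intro v hv
    obtain ⟨hv1, hv2⟩ := Subgroup.mem_inf.mp hv
    rw [Subgroup.mem_bot]
    by_contra hv0
    have hov : orderOf v = p := orderOf_eq_prime (hVp v hv1) hv0
    have hog : (orderOf g).Coprime p :=
      Nat.Coprime.of_dvd_left (Subgroup.orderOf_dvd_natCard K hg) hcopKp
    rw [Subgroup.mem_centralizer_singleton_iff] at hv2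
    exact eppo_aux h (show Commute g v from hv2.symm) (by rw [hov]; exact hog) hg1 hv0
  have hKne : K ≠ ⊥ := by
    intro hb
    rw [hb, Subgroup.card_bot] at hqK
    exact hq.2.1.one_lt.ne' (Nat.dvd_one.mp hqK)
  have hKnt : Nontrivial K := (Subgroup.nontrivial_iff_ne_bot K).mpr hKne
  obtain ⟨D', hD'n, hD'ne, hD'c⟩ := exists_normal_abelian (G := K)
  set D := D'.map K.subtype with hD
  have hDK : D ≤ K := Subgroup.map_subtype_le D'
  have hDc : IsMulCommutative D := by
    rw [Cfsg.Agent.Lib.Helper4.isMulCommutative_iff]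
    rintro _ ⟨a, ha, rfl⟩ _ ⟨b, hb, rfl⟩
    exact congrArg Subtype.val (hD'c a ha b hb)
  have hDne : D ≠ ⊥ := by
    intro hb
    apply hD'ne
    rwa [hD, Subgroup.map_eq_bot_iff_of_injective _ K.subtype_injective] at hb
  have hnormV : ∀ B : Subgroup G, B ≤ Subgroup.normalizer (V : Set G) := by
    intro B
    rw [Subgroup.normalizer_eq_top_iff.mpr hVn]; exact le_top
  have hDcyc : IsCyclic D := Cfsg.Agent.S0041.result D V hVne (hnormV D)
    (fun a ha ha1 => hfpf a (hDK ha) ha1) (Or.inl hDc)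
  -- a prime s dividing |D|
  have hD1 : Nat.card D ≠ 1 := fun h1 => hDne (Subgroup.card_eq_one.mp h1)
  obtain ⟨s, hs, hsD⟩ := Nat.exists_prime_and_dvd hD1
  have := Fact.mk hs
  obtain ⟨a, ha⟩ := exists_prime_orderOf_dvd_card' (G := D) s hsD
  have haG : orderOf (a : G) = s := by rw [Subgroup.orderOf_coe]; exact ha
  -- a prime t ≠ s dividing |K|
  obtain ⟨t, ht, hts, htK⟩ : ∃ t : ℕ, t.Prime ∧ t ≠ s ∧ t ∣ Nat.card K := by
    by_cases hqs : q = s
    · exact ⟨r, hr.2.1, fun h' => hqr (hqs.trans h'.symm), hrK⟩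
    · exact ⟨q, hq.2.1, hqs, hqK⟩
  have := Fact.mk ht
  obtain ⟨y, hy⟩ := exists_prime_orderOf_dvd_card' (G := K) t htK
  have hyG : orderOf (y : G) = t := by rw [Subgroup.orderOf_coe]; exact hy
  set M := Subgroup.zpowers (a : G) with hM
  have hMD : M ≤ D := by rw [hM, Subgroup.zpowers_le]; exact a.2
  have hMcard : Nat.card M = s := by rw [hM, Nat.card_zpowers, haG]
  have hKM : K ≤ Subgroup.normalizer (M : Set G) := by
    intro g hg
    rw [Subgroup.mem_normalizer_iff_map_conj_eq]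
    apply eq_of_card_eq_of_le_isCyclic hDcyc _ hMD
    · exact Subgroup.card_map_of_injective (MulAut.conj g).injective
    · rintro _ ⟨x, hx, rfl⟩
      obtain ⟨x', hx', rfl⟩ := hMD hx
      exact ⟨(⟨g, hg⟩ : K) * x' * (⟨g, hg⟩ : K)⁻¹, hD'n.conj_mem x' hx' _, rfl⟩
  set Y := Subgroup.zpowers (y : G) with hY
  have hYK : Y ≤ K := by rw [hY, Subgroup.zpowers_le]; exact y.2
  have hYcard : Nat.card Y = t := by rw [hY, Nat.card_zpowers, hyG]
  have hcard := Cfsg.Agent.Lib.Helper4.card_mul_card_eq_of_le_normalizer Y M (hYK.trans hKM)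
  have hinf : Y ⊓ M = ⊥ := by
    rw [← disjoint_iff]
    apply Subgroup.disjoint_of_coprime_natCard
    rw [hYcard, hMcard]
    exact (Nat.coprime_primes ht hs).mpr hts
  rw [hinf, Subgroup.card_bot, mul_one, hYcard, hMcard] at hcard
  have hAK : Y ⊔ M ≤ K := sup_le hYK (hMD.trans hDK)
  have hAcyc : IsCyclic ↥(Y ⊔ M) := Cfsg.Agent.S0041.result (Y ⊔ M) V hVne (hnormV _)
    (fun a ha ha1 => hfpf a (hAK ha) ha1) (Or.inr ⟨t, s, ht, hs, hcard.symm⟩)
  have hcomm : IsMulCommutative ↥(Y ⊔ M) := IsCyclic.isMulCommutative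
  have hay : (a : G) * y = y * a :=
    (Cfsg.Agent.Lib.Helper4.isMulCommutative_iff _).mp hcomm _
      ((le_sup_right : M ≤ Y ⊔ M) (Subgroup.mem_zpowers _)) _ ((le_sup_left : Y ≤ Y ⊔ M) (Subgroup.mem_zpowers _))
  refine eppo_aux h (show Commute (a : G) (y : G) from hay) ?_ ?_ ?_
  · rw [haG, hyG]; exact (Nat.coprime_primes hs ht).mpr hts.symm
  · intro h1
    rw [h1, orderOf_one] at haG
    exact hs.one_lt.ne haG
  · intro h1
    rw [h1, orderOf_one] at hyG
    exact ht.one_lt.ne hyG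

end Cfsg.Agent.S1475
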