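import Mathlib
import Cfsg.Statements.S1477
import Cfsg.Agent.Lib.Helper4.CN


set_option autoImplicit false
open Cfsg

namespace Cfsg.Agent.S1477

open Cfsg.Agent.Lib.Helper4


/-- Let G be a finite group in which every non-identity element has nilpotent centralizer, and H a nilpotent subgroup not properly contained in any nilpotent subgroup. Then the order of H is coprime to its index; if the order of H is not a prime power then H ∩ gHg⁻¹ = 1 whenever gHg⁻¹ ≠ H; and if H ∩ gHg⁻¹ = 1 whenever gHg⁻¹ ≠ H, then C_G(x) ≤ H for every non-identity x ∈ H. -/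
theorem result {G : Type*} [Group G] [Finite G] (hCN : Cfsg.IsCNGroup G) (H : Subgroup G) (hH : Group.IsNilpotent H)
    (hmax : ∀ L : Subgroup G, Group.IsNilpotent L → H ≤ L → L = H) :
    (Nat.card H).Coprime H.index ∧
      (¬ IsPrimePow (Nat.card H) → Nat.card H ≠ 1 → ∀ g : G, H.map (MulAut.conj g).toMonoidHom ≠ H → H ⊓ H.map (MulAut.conj g).toMonoidHom = ⊥) ∧
      ((∀ g : G, H.map (MulAut.conj g).toMonoidHom ≠ H → H ⊓ H.map (MulAut.conj g).toMonoidHom = ⊥) → ∀ x ∈ H, x ≠ 1 → Subgroup.centralizer ({x} : Set G) ≤ H) := by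
  have hM : IsMaxNilp H := ⟨hH, hmax⟩
  refine ⟨?_, ?_, ?_⟩
  · apply Nat.coprime_of_dvd
    intro p hp hpH hpI
    have : Fact p.Prime := ⟨hp⟩
    obtain ⟨P, hP⟩ := hM.exists_sylow_le hCN hpH
    exact P.not_dvd_index (hpI.trans (Subgroup.index_dvd_of_le hP))
  · intro hnpp hne1 g hg
    by_contra hcon
    obtain ⟨⟨w, hw⟩, hw1⟩ := (Subgroup.ne_bot_iff_exists_ne_one).mp hcon
    have hw1' : (w : G) ≠ 1 := fun h => hw1 (Subtype.ext h)
    obtain ⟨p, n, hp, hxo⟩ := exists_prime_order_pow hw1'
    have : Fact p.Prime := ⟨hp⟩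
    have hxm : (w : G) ^ n ∈ H ⊓ H.map (MulAut.conj g).toMonoidHom := Subgroup.pow_mem _ hw n
    have hq : ∃ q : ℕ, q.Prime ∧ q ≠ p ∧ q ∣ Nat.card H := by
      by_contra hq
      push Not at hq
      have hcard : Nat.card H = p ^ (Nat.card H).primeFactorsList.length :=
        Nat.eq_prime_pow_of_unique_prime_dvd Nat.card_pos.ne' (fun {d} hd hdvd => by
          by_contra hne
          exact hq d hd hne hdvd)
      apply hnpp
      rw [isPrimePow_nat_iff]
      refine ⟨p, _, hp, ?_, hcard.symm⟩
      rcases Nat.eq_zero_or_pos (Nat.card H).primeFactorsList.length with h0 | h0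
      · rw [h0, pow_zero] at hcard
        exact absurd hcard hne1
      · exact h0
    obtain ⟨q, hqp, hqne, hqH⟩ := hq
    have : Fact q.Prime := ⟨hqp⟩
    have hx1 : (w : G) ^ n ≠ 1 := by
      intro h
      rw [h, orderOf_one] at hxo
      exact hp.one_lt.ne hxo
    obtain ⟨L, hCL, hL⟩ := exists_isMaxNilp_ge (hCN _ hx1)
    have e1 : H = L := hM.eq_of_centralizer_le hCN hL hqne.symm hxm.1 hxo hqH hCL
    have e2 : H.map (MulAut.conj g).toMonoidHom = L :=
      (hM.map_conj g).eq_of_centralizer_le hCN hL hqne.symm hxm.2 hxo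
        (by rw [Subgroup.card_map_of_injective (MulAut.conj g).injective]; exact hqH) hCL
    exact hg (e2.trans e1.symm)
  · intro hTI x hx hx1
    obtain ⟨p, n, hp, hxo⟩ := exists_prime_order_pow hx1
    have hx1' : x ^ n ≠ 1 := by
      intro h
      rw [h, orderOf_one] at hxo
      exact hp.one_lt.ne hxo
    obtain ⟨L, hCL, hL⟩ := exists_isMaxNilp_ge (hCN _ hx1')
    have hxL : x ^ n ∈ L := hCL (Subgroup.mem_centralizer_singleton_iff.mpr rfl)
    have hxH : x ^ n ∈ H := H.pow_mem hx n
    have hle : Subgroup.centralizer ({x} : Set G) ≤ Subgroup.centralizer ({x ^ n} : Set G) := by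
      intro c hc
      rw [Subgroup.mem_centralizer_singleton_iff] at hc ⊢
      exact ((show Commute c x from hc).pow_right n).eq
    have hLH : L = H := by
      rcases hM.conj_or_coprime hCN hL with ⟨g, hg⟩ | hco
      · by_contra hne
        have h1 := hTI g (fun h => hne (hg.trans h))
        have h2 : x ^ n ∈ H ⊓ H.map (MulAut.conj g).toMonoidHom := ⟨hxH, hg ▸ hxL⟩
        rw [h1, Subgroup.mem_bot] at h2
        exact hx1' h2
      · exfalso
        have d1 : p ∣ Nat.card H := by
          rw [← hxo]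
          have := orderOf_dvd_natCard (⟨x ^ n, hxH⟩ : H)
          rwa [Subgroup.orderOf_mk] at this
        have d2 : p ∣ Nat.card L := by
          rw [← hxo]
          have := orderOf_dvd_natCard (⟨x ^ n, hxL⟩ : L)
          rwa [Subgroup.orderOf_mk] at this
        exact hp.one_lt.ne' (Nat.eq_one_of_dvd_coprimes hco d1 d2)
    exact hLH ▸ (hle.trans hCL)

end Cfsg.Agent.S1477
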