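import Cfsg.Statements.S1481
import Cfsg.Agent.Lib.Helper29.BenderInv
import Cfsg.Agent.Lib.Helper1.CoprimeSylow
-- import your own Cfsg.Agent.* helpers here

set_option autoImplicit false
open Cfsg

namespace Cfsg.Agent.S1481

/-- Let G be a finite group and H a local subgroup (the normalizer of a nontrivial subgroup of prime-power order) not properly contained in any local subgroup; let F = F(H), suppose at least two primes divide #F, put X = H ∩ C_G(F), let M ≤ F with F ∩ C_G(M) ≤ M, and let R be a solvable subgroup normalized by M and by X. Then for every prime q not dividing #F there is exactly one maximal M-invariant q-subgroup of R, and it is a Sylow q-subgroup of the largest normal subgroup of R of order coprime to #F. -/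
theorem result {G : Type*} [Group G] [Finite G] (H : Subgroup G) (hH : Cfsg.IsLocalSubgroup H) (hHmax : ∀ L : Subgroup G, Cfsg.IsLocalSubgroup L → H ≤ L → L = H)
    (hF2 : 2 ≤ (Nat.card (Cfsg.fittingOf H)).primeFactors.card)
    (M : Subgroup G) (hM : M ≤ Cfsg.fittingOf H) (hCM : Cfsg.fittingOf H ⊓ Subgroup.centralizer (M : Set G) ≤ M)
    (R : Subgroup G) (hR : Group.IsSolvable R) (hMR : M ≤ Subgroup.normalizer (R : Set G))
    (hXR : H ⊓ Subgroup.centralizer (Cfsg.fittingOf H : Set G) ≤ Subgroup.normalizer (R : Set G))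
    (q : ℕ) [Fact q.Prime] (hq : ¬ q ∣ Nat.card (Cfsg.fittingOf H)) :
    ∃! Q : Subgroup G, Q ∈ Cfsg.maxInvSubgroups R M {q} ∧
      (∀ Q' : Subgroup G, Q' ∈ Cfsg.maxInvSubgroups R M {q} →
        Q' ≤ Cfsg.piCoreOf (Cfsg.primesNotDvd (Nat.card (Cfsg.fittingOf H))) R ∧
        ¬ q ∣ Q'.relIndex (Cfsg.piCoreOf (Cfsg.primesNotDvd (Nat.card (Cfsg.fittingOf H))) R)) := by
  open Cfsg.Agent.Lib.Helper29 Cfsg.Agent.Lib.Helper1 in
  have hB : BInv H M R := by
    refine ⟨?_, ?_, hM, hCM, hR, hMR, hXR⟩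
    · intro r hr hrH
      have := Fact.mk hr
      refine (hHmax _ ⟨r, zCoreOf r H, hr, (Cfsg.Agent.Lib.Helper16.pCoreOf_isPGroup H).to_le inf_le_left,
        Cfsg.Agent.Lib.Helper16.center_ne_bot (Cfsg.Agent.Lib.Helper16.pCoreOf_isPGroup H) hrH, rfl⟩
        (le_normalizer_zCoreOf r H)).le
    · intro q
      obtain ⟨r, hr, hrq⟩ := Finset.exists_mem_ne (by omega : 1 < (Nat.card (Cfsg.fittingOf H)).primeFactors.card) q
      have hrp := Nat.prime_of_mem_primeFactors hr
      have := Fact.mk hrp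
      exact ⟨r, hrp, hrq, pCoreOf_ne_bot_of_dvd (Nat.dvd_of_mem_primeFactors hr)⟩
  open Cfsg.Agent.Lib.Helper29 Cfsg.Agent.Lib.Helper1 in
  obtain ⟨O, hO⟩ : ∃ O, O = Cfsg.piCoreOf (Cfsg.primesNotDvd (Nat.card (Cfsg.fittingOf H))) R := ⟨_, rfl⟩
  rw [← hO]
  have hOR : O ≤ R := hO ▸ piCoreOf_le _ _
  have hMO : M ≤ Subgroup.normalizer (O : Set G) := hO ▸ hMR.trans (normalizer_le_normalizer_piCoreOf _ R)
  have hOF : (Nat.card (Cfsg.fittingOf H)).Coprime (Nat.card O) :=
    coprime_of_primesNotDvd (hO ▸ piCoreOf_pi _ _)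
  have hcop : (Nat.card M).Coprime (Nat.card O) := Nat.Coprime.of_dvd_left (Subgroup.card_dvd_of_le hM) hOF
  have hOc : O ⊓ Subgroup.centralizer (M : Set G) = ⊥ := hB.cent_M_eq_bot hOR hOF.symm hMO
  have hsol := hB.solvable_M
  obtain ⟨P, hP⟩ := coprime_exists_invariant_sylow M O hMO hcop (Or.inl hsol) q
  have huniq : ∀ P' : Sylow q O, M ≤ Subgroup.normalizer (sylImg P' : Set G) → P' = P := by
    intro P' hP'
    obtain ⟨c, hc, hcP⟩ := coprime_invariant_sylow_conj M O hMO hcop (Or.inl hsol) q P P' hP hP'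
    have hc1 : (c : G) ∈ O ⊓ Subgroup.centralizer (M : Set G) := Subgroup.mem_inf.mpr ⟨c.2, hc⟩
    rw [hOc, Subgroup.mem_bot] at hc1
    have hc2 : c = 1 := Subtype.ext hc1
    rw [hc2, map_one, one_smul] at hcP
    exact hcP.symm
  have hinvO : ∀ Q' ∈ Cfsg.invSubgroups R M {q}, Q' ≤ sylImg P := by
    rintro Q' ⟨hQR, hQq, hQM⟩
    have hQO : Q' ≤ O := by
      rw [hO]
      apply hB.le_piCoreOf hQR _ hQM
      apply Nat.Coprime.symm
      apply coprime_of_primesNotDvd
      intro s hs hsd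
      have : s = q := hQq s hs hsd
      subst this
      exact ⟨hs, hq⟩
    obtain ⟨P', hQP', hP'⟩ := coprime_invariant_psubgroup_le M O hMO hcop (Or.inl hsol) q Q' hQO
      (isPGroup_of_primes hQq) hQM
    rw [huniq P' hP'] at hQP'
    exact hQP'
  have hQinv : sylImg P ∈ Cfsg.invSubgroups R M {q} :=
    ⟨(sylImg_le P).trans hOR, primes_of_isPGroup (sylImg_isPGroup P), hP⟩
  have hQmax : sylImg P ∈ Cfsg.maxInvSubgroups R M {q} :=
    ⟨hQinv, fun R' hR' hle => le_antisymm (hinvO R' hR') hle⟩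
  have heq : ∀ Q' ∈ Cfsg.maxInvSubgroups R M {q}, Q' = sylImg P := by
    intro Q' hQ'
    exact (hQ'.2 _ hQinv (hinvO Q' hQ'.1)).symm
  refine ⟨sylImg P, ⟨hQmax, ?_⟩, fun Q₁ hQ₁ => heq Q₁ hQ₁.1⟩
  intro Q' hQ'
  rw [heq Q' hQ']
  refine ⟨sylImg_le P, ?_⟩
  have h1 : (sylImg P).relIndex O = (P : Subgroup O).index := by
    rw [Subgroup.relIndex]
    congr 1
    exact Subgroup.comap_map_eq_self_of_injective O.subtype_injective _
  rw [h1]
  exact P.not_dvd_index

end Cfsg.Agent.S1481
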