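import Cfsg.Statements.S1482
import Cfsg.Agent.Lib.Helper29.BenderU
-- import your own Cfsg.Agent.* helpers here

set_option autoImplicit false
open Cfsg

namespace Cfsg.Agent.S1482

/-- Let G be a minimal simple group of odd order, H a maximal subgroup whose Fitting subgroup F has at least two prime divisors, and M a subgroup of F containing the centre of F such that the only M-invariant subgroup of G of order coprime to #F is the trivial one. Then H is the only maximal subgroup of G containing M. -/
theorem result {G : Type*} [Group G] [Finite G] (hG : Cfsg.IsMinSimpleOddOrder G) (H : Subgroup G) (hH : IsCoatom H) (hF2 : 2 ≤ (Nat.card (Cfsg.fittingOf H)).primeFactors.card)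
    (M : Subgroup G) (hM : M ≤ Cfsg.fittingOf H) (hZM : Cfsg.fittingOf H ⊓ Subgroup.centralizer (Cfsg.fittingOf H : Set G) ≤ M)
    (hinv : ∀ Y ∈ Cfsg.invSubgroups ⊤ M (Cfsg.primesNotDvd (Nat.card (Cfsg.fittingOf H))), Y = ⊥) :
    ∀ L : Subgroup G, IsCoatom L → M ≤ L → L = H := by
  intro L hL hML
  open Cfsg.Agent.Lib.Helper29 in
  apply bender_center_uniqueness hG hH hL
  · intro q
    obtain ⟨r, hr, hrq⟩ := Finset.exists_mem_ne (by omega : 1 < (Nat.card (Cfsg.fittingOf H)).primeFactors.card) q
    have hrp := Nat.prime_of_mem_primeFactors hr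
    have := Fact.mk hrp
    exact ⟨r, hrp, hrq, pCoreOf_ne_bot_of_dvd (Nat.dvd_of_mem_primeFactors hr)⟩
  · intro r hr
    have := Fact.mk hr
    exact ((zCoreOf_le_center_fitting r H).trans hZM).trans hML
  · intro q hq hqH
    have := Fact.mk hq
    apply hinv
    refine ⟨le_top, ?_, hML.trans (Cfsg.Agent.Lib.Helper16.le_normalizer_pCoreOf L)⟩
    intro s hs hsd
    have hsq : s = q := by
      obtain ⟨n, hn⟩ := IsPGroup.iff_card.mp (Cfsg.Agent.Lib.Helper16.pCoreOf_isPGroup (p := q) L)
      rw [hn] at hsd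
      exact (Nat.prime_dvd_prime_iff_eq hs hq).mp (hs.dvd_of_dvd_pow hsd)
    subst hsq
    refine ⟨hs, fun hd => ?_⟩
    exact pCoreOf_ne_bot_of_dvd hd hqH

end Cfsg.Agent.S1482
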