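import Mathlib
import Cfsg.Statements.S1483
import Cfsg.Agent.Lib.Helper4.CN


set_option autoImplicit false
open Cfsg

namespace Cfsg.Agent.S1483

open Cfsg.Agent.Lib.Helper4


/-- Let G be a minimal simple group of odd order in which every non-identity element has nilpotent centralizer. Then any two nilpotent subgroups each contained in no larger nilpotent subgroup are either conjugate or of coprime orders; and for primes p, q, r: if some elements x, y ≠ 1 of p-power and q-power order commute, and some elements y', z ≠ 1 of q-power and r-power order commute, then some elements of p-power and r-power order, both ≠ 1, commute. -/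
theorem result {G : Type*} [Group G] [Finite G] (hG : Cfsg.IsMinSimpleOddOrder G) (hCN : Cfsg.IsCNGroup G) :
    (∀ H₁ H₂ : Subgroup G, (Group.IsNilpotent ↥H₁ ∧ ∀ L : Subgroup G, Group.IsNilpotent L → H₁ ≤ L → L = H₁) → (Group.IsNilpotent ↥H₂ ∧ ∀ L : Subgroup G, Group.IsNilpotent L → H₂ ≤ L → L = H₂) → (∃ g : G, H₂ = H₁.map (MulAut.conj g).toMonoidHom) ∨ (Nat.card H₁).Coprime (Nat.card H₂)) ∧
      ∀ (p q r : ℕ), p.Prime → q.Prime → r.Prime → ∀ (x y y' z : G), x ≠ 1 → y ≠ 1 → y' ≠ 1 → z ≠ 1 →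
        IsPGroup p (Subgroup.zpowers x) → IsPGroup q (Subgroup.zpowers y) → IsPGroup q (Subgroup.zpowers y') → IsPGroup r (Subgroup.zpowers z) →
        x * y = y * x → y' * z = z * y' →
        ∃ x' z' : G, x' ≠ 1 ∧ z' ≠ 1 ∧ IsPGroup p (Subgroup.zpowers x') ∧ IsPGroup r (Subgroup.zpowers z') ∧ x' * z' = z' * x' := by
  have key : ∀ H₁ H₂ : Subgroup G, IsMaxNilp H₁ → IsMaxNilp H₂ →
      (∃ g : G, H₂ = H₁.map (MulAut.conj g).toMonoidHom) ∨ (Nat.card H₁).Coprime (Nat.card H₂) :=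
    fun H₁ H₂ h1 h2 => h1.conj_or_coprime hCN h2
  refine ⟨fun H₁ H₂ h1 h2 => key H₁ H₂ h1 h2, ?_⟩
  intro p q r hp hq hr x y y' z hx hy hy' hz hxp hyq hy'q hzr hxy hyz
  by_cases hpr : p = r
  · subst hpr
    exact ⟨x, x, hx, hx, hxp, hxp, rfl⟩
  obtain ⟨H₁, hC1, h1⟩ := exists_isMaxNilp_ge (hCN y hy)
  obtain ⟨H₂, hC2, h2⟩ := exists_isMaxNilp_ge (hCN y' hy')
  have hxH : x ∈ H₁ := hC1 (Subgroup.mem_centralizer_singleton_iff.mpr hxy)
  have hyH : y ∈ H₁ := hC1 (Subgroup.mem_centralizer_singleton_iff.mpr rfl)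
  have hzH : z ∈ H₂ := hC2 (Subgroup.mem_centralizer_singleton_iff.mpr hyz.symm)
  have hy'H : y' ∈ H₂ := hC2 (Subgroup.mem_centralizer_singleton_iff.mpr rfl)
  have hdvd : ∀ (u : G) (K : Subgroup G), u ≠ 1 → u ∈ K → IsPGroup q (Subgroup.zpowers u) →
      q ∣ Nat.card K := by
    intro u K hu huK hup
    have h3 : orderOf u ∣ Nat.card K := by
      have := orderOf_dvd_natCard (⟨u, huK⟩ : K)
      rwa [Subgroup.orderOf_mk] at this
    obtain ⟨b, hb⟩ := hup ⟨u, Subgroup.mem_zpowers u⟩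
    have hb' : u ^ q ^ b = 1 := by simpa using congrArg Subtype.val hb
    obtain ⟨j, -, hj⟩ := (Nat.dvd_prime_pow hq).mp (orderOf_dvd_of_pow_eq_one hb')
    rcases Nat.eq_zero_or_pos j with rfl | hjpos
    · rw [pow_zero, orderOf_eq_one_iff] at hj
      exact absurd hj hu
    · exact ((dvd_pow_self q hjpos.ne').trans hj.symm.dvd).trans h3
  rcases key H₁ H₂ h1 h2 with ⟨g, hg⟩ | hco
  · obtain ⟨a, ha⟩ := hxp ⟨x, Subgroup.mem_zpowers x⟩
    have ha' : x ^ p ^ a = 1 := by simpa using congrArg Subtype.val ha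
    obtain ⟨c, hc⟩ := hzr ⟨z, Subgroup.mem_zpowers z⟩
    have hc' : z ^ r ^ c = 1 := by simpa using congrArg Subtype.val hc
    have hgx : (g * x * g⁻¹) ^ p ^ a = 1 := by rw [conj_pow, ha']; group
    refine ⟨g * x * g⁻¹, z, ?_, hz, isPGroup_zpowers_of_pow hgx, hzr, ?_⟩
    · intro h
      apply hx
      have : x = g⁻¹ * (g * x * g⁻¹) * g := by group
      rw [this, h]; group
    · have hgxH : g * x * g⁻¹ ∈ H₂ := by
        rw [hg]
        exact ⟨x, hxH, by simp⟩
      exact commute_of_coprime_pow_mem h2.1 hgxH hzH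
        (Nat.Coprime.pow a c ((Nat.coprime_primes hp hr).mpr hpr)) hgx hc'
  · exfalso
    exact hq.one_lt.ne' (Nat.eq_one_of_dvd_coprimes hco (hdvd y H₁ hy hyH hyq)
      (hdvd y' H₂ hy' hy'H hy'q))

end Cfsg.Agent.S1483
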