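import Cfsg.Statements.S1485
import Cfsg.Agent.Lib.Helper13.Clifford3

set_option autoImplicit false
open Cfsg

namespace Cfsg.Agent.S1485

open Cfsg.Agent.Lib.Helper13 Cfsg.Agent.Lib.Helper2

theorem result {G : Type*} [Group G] [Fintype G] (H : Subgroup G) [hN : H.Normal] (θ : H → ℂ) (hθ : Cfsg.IsIrrCharacter H θ) : (fun h : H => Cfsg.indFun H θ h) = ((Nat.card {g : G // ∀ h : H, θ ⟨g * h * g⁻¹, hN.conj_mem h h.2 g⟩ = θ h} : ℂ) / (Nat.card H : ℂ)) • ∑ᶠ ψ ∈ {ψ : H → ℂ | ∃ g : G, ψ = fun h : H => θ ⟨g * h * g⁻¹, hN.conj_mem h h.2 g⟩}, ψ := by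
  classical
  rw [card_stmtInertia, stmtConjSet_eq]
  have hset : Set.range (fun x : G => Cfsg.Agent.Lib.Helper2.conjFun H x θ) =
      ((Finset.univ.image (fun x : G => Cfsg.Agent.Lib.Helper2.conjFun H x θ) :
        Finset (H → ℂ)) : Set (H → ℂ)) := by
    simp
  rw [hset, finsum_mem_coe_finset]
  have h1 : (fun h : H => Cfsg.indFun H θ h) =
      (Nat.card H : ℂ)⁻¹ • ∑ x : G, Cfsg.Agent.Lib.Helper2.conjFun H x θ := by
    ext h
    rw [indFun_coe_of_normal]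
    simp
  rw [h1, sum_conjFun_eq, smul_smul]
  congr 1
  rw [div_eq_mul_inv, mul_comm]

end Cfsg.Agent.S1485
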