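import Cfsg.Statements.S1486
import Cfsg.Agent.Lib.Helper13.Clifford3

set_option autoImplicit false
open Cfsg

namespace Cfsg.Agent.S1486

open Cfsg.Agent.Lib.Helper13 Cfsg.Agent.Lib.Helper2

theorem result {G : Type*} [Group G] [Fintype G] (H : Subgroup G) [hN : H.Normal] (θ φ : H → ℂ) (hθ : Cfsg.IsIrrCharacter H θ) (hφ : Cfsg.IsIrrCharacter H φ) : ((∃ g : G, φ = fun h : H => θ ⟨g * h * g⁻¹, hN.conj_mem h h.2 g⟩) → Cfsg.indFun H φ = Cfsg.indFun H θ) ∧ ((¬ ∃ g : G, φ = fun h : H => θ ⟨g * h * g⁻¹, hN.conj_mem h h.2 g⟩) → Cfsg.classInner (Cfsg.indFun H φ) (Cfsg.indFun H θ) = 0) := by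
  classical
  constructor
  · rintro ⟨g, rfl⟩
    rw [stmtConj_eq, indFun_conjFun]
  · intro hne
    rw [classInner_indFun_indFun]
    apply mul_eq_zero_of_right
    apply Finset.sum_eq_zero
    intro x _
    rw [classInner_irr hφ (IsIrrCharacter.conjFun H hθ x), if_neg]
    intro hx
    apply hne
    refine ⟨x⁻¹, ?_⟩
    rw [stmtConj_eq, inv_inv]
    exact hx

end Cfsg.Agent.S1486
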