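import Cfsg.Statements.S1487
import Cfsg.Agent.Lib.Helper13.Clifford3

set_option autoImplicit false
open Cfsg

namespace Cfsg.Agent.S1487

open Cfsg.Agent.Lib.Helper13 Cfsg.Agent.Lib.Helper2

theorem result {G : Type*} [Group G] [Fintype G] (A H : Subgroup G) [A.Normal] [H.Normal] (hAH : A ≤ H) (θ : H → ℂ) (hθ : Cfsg.IsIrrCharacter H θ) : (∀ a : H, (a : G) ∈ A → θ a = θ 1) ↔ (∀ a : G, a ∈ A → Cfsg.indFun H θ a = Cfsg.indFun H θ 1) := by
  classical
  have hA : A.Normal := inferInstance
  have hone : ∀ x : G, Cfsg.Agent.Lib.Helper2.conjFun H x θ 1 = θ 1 := by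
    intro x
    rw [conjFun_apply]
    congr 1
    apply Subtype.ext
    simp
  have hind1 : Cfsg.indFun H θ 1 = (Nat.card H : ℂ)⁻¹ * ∑ _x : G, θ 1 := by
    have := indFun_coe_of_normal H θ 1
    simp_rw [hone] at this
    exact this
  constructor
  · intro h a ha
    have h1 := indFun_coe_of_normal H θ ⟨a, hAH ha⟩
    simp only at h1
    rw [h1, hind1]
    congr 1
    refine Finset.sum_congr rfl fun x _ => ?_
    rw [conjFun_apply]
    apply h
    simpa using hA.conj_mem a ha x⁻¹
  · intro h a ha
    have h1 := indFun_coe_of_normal H θ a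
    rw [h a ha, hind1] at h1
    have h2 : ∑ x : G, Cfsg.Agent.Lib.Helper2.conjFun H x θ a = ∑ _x : G, θ 1 :=
      (mul_left_cancel₀ (inv_ne_zero (card_subgroup_ne_zero H)) h1).symm
    obtain ⟨n, hn, -⟩ := IsCharacter.norm_apply_le (IsIrrCharacter.isCharacter hθ) 1
    have h3 := eq_of_sum_eq_card_mul (fun x : G => Cfsg.Agent.Lib.Helper2.conjFun H x θ a) n
      (by
        intro x
        obtain ⟨m, hm, hle⟩ := IsCharacter.norm_apply_le (IsIrrCharacter.isCharacter hθ)
          (⟨x⁻¹ * a * x, by simpa using (inferInstance : H.Normal).conj_mem a a.2 x⁻¹⟩ : H)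
        have : m = n := by
          have : (m : ℂ) = n := hm.symm.trans hn
          exact_mod_cast this
        rw [this] at hle
        exact hle)
      (by
        rw [h2, Finset.sum_const, Finset.card_univ, nsmul_eq_mul, hn]
        simp)
    have h4 := h3 1
    simp only [conjFun_one] at h4
    rw [h4, hn]
    simp

end Cfsg.Agent.S1487
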