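import Cfsg.Statements.S1488
import Cfsg.Agent.Lib.Helper13.Clifford3
import Cfsg.Agent.Lib.Helper2.Inflation

set_option autoImplicit false
open Cfsg

namespace Cfsg.Agent.S1488

open Cfsg.Agent.Lib.Helper13 Cfsg.Agent.Lib.Helper2

theorem result {G : Type*} [Group G] [Fintype G] (A H : Subgroup G) [A.Normal] (hAH : A ≤ H) [Fintype (G ⧸ A)] [Fintype ↥(H.map (QuotientGroup.mk' A))] (θ : H → ℂ) (θ₁ : ↥(H.map (QuotientGroup.mk' A)) → ℂ) (hθ : ∀ x : H, θ₁ ⟨QuotientGroup.mk' A x, Subgroup.mem_map_of_mem _ x.2⟩ = θ x) (g : G) : Cfsg.indFun (H.map (QuotientGroup.mk' A)) θ₁ (QuotientGroup.mk' A g) = Cfsg.indFun H θ g := by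
  classical
  have hmem : ∀ u : G, QuotientGroup.mk' A u ∈ H.map (QuotientGroup.mk' A) ↔ u ∈ H := by
    intro u
    constructor
    · rintro ⟨h, hh, hhu⟩
      have h1 : h⁻¹ * u ∈ A := QuotientGroup.eq.mp hhu
      have h2 : u = h * (h⁻¹ * u) := by group
      rw [h2]
      exact H.mul_mem hh (hAH h1)
    · intro hu
      exact Subgroup.mem_map_of_mem _ hu
  have hext : ∀ u : G, Cfsg.extendByZero (H.map (QuotientGroup.mk' A)) θ₁ (QuotientGroup.mk' A u) =
      Cfsg.extendByZero H θ u := by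
    intro u
    by_cases hu : u ∈ H
    · rw [extendByZero_mem H θ hu, extendByZero_mem _ θ₁ ((hmem u).mpr hu)]
      exact hθ ⟨u, hu⟩
    · rw [extendByZero_not_mem H θ hu, extendByZero_not_mem _ θ₁ (fun h => hu ((hmem u).mp h))]
  have hcard : Nat.card A * Nat.card (H.map (QuotientGroup.mk' A)) = Nat.card H := by
    have h1 := Subgroup.relIndex_mul_relIndex ⊥ A H bot_le hAH
    rw [Subgroup.relIndex_bot_left, Subgroup.relIndex_bot_left] at h1
    have h2 := Subgroup.relIndex_ker (K := H) (QuotientGroup.mk' A)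
    rw [QuotientGroup.ker_mk'] at h2
    rw [← h2, h1]
  simp only [Cfsg.indFun]
  have hsum : ∑ x : G, Cfsg.extendByZero H θ (x⁻¹ * g * x) =
      Nat.card A • ∑ q : G ⧸ A, Cfsg.extendByZero (H.map (QuotientGroup.mk' A)) θ₁
        (q⁻¹ * QuotientGroup.mk' A g * q) := by
    rw [← sum_comp_mk A (fun q : G ⧸ A => Cfsg.extendByZero (H.map (QuotientGroup.mk' A)) θ₁
        (q⁻¹ * QuotientGroup.mk' A g * q))]
    refine Finset.sum_congr rfl fun x _ => ?_
    rw [← hext]
    rfl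
  rw [hsum, ← hcard, nsmul_eq_mul]
  have hA : (Nat.card A : ℂ) ≠ 0 := card_subgroup_ne_zero A
  have hH : (Nat.card (H.map (QuotientGroup.mk' A)) : ℂ) ≠ 0 := by
    exact_mod_cast Nat.card_pos.ne'
  push_cast
  field_simp

end Cfsg.Agent.S1488
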