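import Cfsg.Statements.S1489
import Cfsg.Agent.Lib.Helper13.Clifford2

set_option autoImplicit false
open Cfsg

namespace Cfsg.Agent.S1489

open Cfsg.Agent.Lib.Helper13 Cfsg.Agent.Lib.Helper2

theorem result {G : Type*} [Group G] [Fintype G] (H T : Subgroup G) [hN : H.Normal] [Fintype T] (θ : H → ℂ) (hθ : Cfsg.IsIrrCharacter H θ) (hT : ∀ g : G, g ∈ T ↔ ∀ h : H, θ ⟨g * h * g⁻¹, hN.conj_mem h h.2 g⟩ = θ h) (hHT : H ≤ T) (ψ ψ' : T → ℂ) (hψ : Cfsg.IsIrrCharacter T ψ) (hψ' : Cfsg.IsIrrCharacter T ψ') (hc : Cfsg.classInner (Cfsg.indFun (H.subgroupOf T) (fun x => θ ⟨(x : T), Subgroup.mem_subgroupOf.mp x.2⟩)) ψ ≠ 0) (hc' : Cfsg.classInner (Cfsg.indFun (H.subgroupOf T) (fun x => θ ⟨(x : T), Subgroup.mem_subgroupOf.mp x.2⟩)) ψ' ≠ 0) : Cfsg.IsIrrCharacter G (Cfsg.indFun T ψ) ∧ (Cfsg.indFun T ψ = Cfsg.indFun T ψ' → ψ = ψ') := by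
  classical
  have := finite_irr (G := T)
  cases nonempty_fintype (Cfsg.IrrCharacter T)
  have hT' : ∀ g, g ∈ T ↔ Cfsg.Agent.Lib.Helper2.conjFun H g θ = θ := fun g => (hT g).trans (stmtInv_iff H θ g)
  obtain ⟨h1, h2, -⟩ := clifford_main H hθ T hT'
  have hirr := h1 ψ hψ hc
  refine ⟨hirr, fun heq => ?_⟩
  by_contra hne
  have h3 := h2 ψ ψ' hψ hψ' hc hc' hne
  rw [← heq, classInner_irr hirr hirr, if_pos rfl] at h3
  exact one_ne_zero h3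

end Cfsg.Agent.S1489
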