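import Cfsg.Statements.S1490
import Cfsg.Agent.Lib.Helper13.Clifford4

set_option autoImplicit false
open Cfsg

namespace Cfsg.Agent.S1490

open Cfsg.Agent.Lib.Helper13 Cfsg.Agent.Lib.Helper2

theorem result {G : Type*} [Group G] [Fintype G] (H T : Subgroup G) [hN : H.Normal] (θ : H → ℂ) (hθ : Cfsg.IsIrrCharacter H θ) (hT : ∀ g : G, g ∈ T ↔ ∀ h : H, θ ⟨g * h * g⁻¹, hN.conj_mem h h.2 g⟩ = θ h) (hab : ∀ x ∈ T, ∀ y ∈ T, x * y * x⁻¹ * y⁻¹ ∈ H) : ∃ (e : ℕ) (C : Finset (G → ℂ)), 0 < e ∧ (∀ χ ∈ C, Cfsg.IsIrrCharacter G χ) ∧ e ^ 2 * C.card * Nat.card H = Nat.card T ∧ Cfsg.indFun H θ = (e : ℂ) • ∑ χ ∈ C, χ ∧ ∀ χ ∈ C, χ 1 = (T.index : ℂ) * e * θ 1 := by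
  classical
  have := finite_irr (G := T)
  cases nonempty_fintype (Cfsg.IrrCharacter T)
  have hT' : ∀ g, g ∈ T ↔ Cfsg.Agent.Lib.Helper2.conjFun H g θ = θ :=
    fun g => (hT g).trans (stmtInv_iff H θ g)
  have hHT : H ≤ T := le_inertia H hθ T hT'
  obtain ⟨c1, c2, c3⟩ := clifford_main H hθ T hT'
  obtain ⟨e, S, he, hS, hcard, hdeg⟩ := abelian_quotient_decomp (H.subgroupOf T)
    (IsIrrCharacter.toSubgroupOf hHT hθ)
    (fun t => by rw [conjFun_toSubgroupOf, (hT' t).mp t.2])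
    (fun x y => Subgroup.mem_subgroupOf.mpr (hab x x.2 y y.2))
  have hne : ∀ ψ ∈ S, Cfsg.classInner (Cfsg.indFun (H.subgroupOf T) (toSubgroupOf H T θ))
      (ψ : T → ℂ) ≠ 0 := by
    intro ψ hψ
    rw [hS ψ, if_pos hψ]
    exact_mod_cast he.ne'
  have hinj : Set.InjOn (fun ψ : Cfsg.IrrCharacter T => Cfsg.indFun T (ψ : T → ℂ)) S := by
    intro ψ hψ ψ' hψ' heq
    by_contra hcon
    have h1 := c2 ψ ψ' ψ.2 ψ'.2 (hne ψ hψ) (hne ψ' hψ') (fun h => hcon (Subtype.ext h))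
    have heq' : Cfsg.indFun T (ψ : T → ℂ) = Cfsg.indFun T (ψ' : T → ℂ) := heq
    have hirr := c1 ψ ψ.2 (hne ψ hψ)
    rw [← heq', classInner_irr hirr hirr, if_pos rfl] at h1
    exact one_ne_zero h1
  refine ⟨e, S.image (fun ψ : Cfsg.IrrCharacter T => Cfsg.indFun T (ψ : T → ℂ)), he, ?_, ?_, ?_, ?_⟩
  · intro χ hχ
    obtain ⟨ψ, hψ, rfl⟩ := Finset.mem_image.mp hχ
    exact c1 ψ ψ.2 (hne ψ hψ)
  · rw [Finset.card_image_of_injOn hinj, ← card_subgroupOf_of_le hHT]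
    exact hcard
  · rw [Finset.sum_image hinj, c3, Finset.smul_sum,
      ← Finset.sum_filter_add_sum_filter_not Finset.univ (fun ψ => ψ ∈ S)]
    have e2 : ∑ ψ ∈ Finset.univ.filter (fun ψ => ¬ ψ ∈ S),
        Cfsg.classInner (Cfsg.indFun (H.subgroupOf T) (toSubgroupOf H T θ)) (ψ : T → ℂ) •
          Cfsg.indFun T (ψ : T → ℂ) = 0 := by
      apply Finset.sum_eq_zero
      intro ψ hψ
      rw [hS ψ, if_neg (Finset.mem_filter.mp hψ).2, zero_smul]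
    rw [e2, add_zero, Finset.filter_mem_eq_inter, Finset.univ_inter]
    refine Finset.sum_congr rfl fun ψ hψ => ?_
    rw [hS ψ, if_pos hψ]
  · intro χ hχ
    obtain ⟨ψ, hψ, rfl⟩ := Finset.mem_image.mp hχ
    rw [Cfsg.Agent.Lib.Helper24.indFun_one, hdeg ψ hψ, mul_assoc]
    rfl

end Cfsg.Agent.S1490
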