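import Cfsg.Statements.S1491
import Cfsg.Agent.Lib.Helper13.Clifford4
import Cfsg.Agent.Lib.Helper13.DetExt3

set_option autoImplicit false
open Cfsg

namespace Cfsg.Agent.S1491

open Cfsg.Agent.Lib.Helper13 Cfsg.Agent.Lib.Helper2

/-- Let H be a normal subgroup of the finite group G and θ an irreducible character of H with inertia group T, where T/H is abelian (commutators of T lie in H) and the index of H in T is coprime to the order of H. Then the function induced from θ is the sum of a set of exactly [T:H] irreducible characters of G, each of degree [G:T] * θ(1). -/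
theorem result {G : Type*} [Group G] [Fintype G] (H T : Subgroup G) [hN : H.Normal] (θ : H → ℂ) (hθ : Cfsg.IsIrrCharacter H θ) (hT : ∀ g : G, g ∈ T ↔ ∀ h : H, θ ⟨g * h * g⁻¹, hN.conj_mem h h.2 g⟩ = θ h) (hab : ∀ x ∈ T, ∀ y ∈ T, x * y * x⁻¹ * y⁻¹ ∈ H) (hcop : Nat.Coprime (Nat.card H) (H.relIndex T)) : ∃ C : Finset (G → ℂ), (∀ χ ∈ C, Cfsg.IsIrrCharacter G χ) ∧ C.card = H.relIndex T ∧ Cfsg.indFun H θ = ∑ χ ∈ C, χ ∧ ∀ χ ∈ C, χ 1 = (T.index : ℂ) * θ 1 := by
  classical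
  have := finite_irr (G := T)
  cases nonempty_fintype (Cfsg.IrrCharacter T)
  have hT' : ∀ g, g ∈ T ↔ Cfsg.Agent.Lib.Helper2.conjFun H g θ = θ :=
    fun g => (hT g).trans (stmtInv_iff H θ g)
  have hHT : H ≤ T := le_inertia H hθ T hT'
  obtain ⟨c1, c2, c3⟩ := clifford_main H hθ T hT'
  have hθ' := IsIrrCharacter.toSubgroupOf hHT hθ
  have hinv' : ∀ t : T, Cfsg.Agent.Lib.Helper2.conjFun (H.subgroupOf T) t (toSubgroupOf H T θ) =
      toSubgroupOf H T θ := fun t => by rw [conjFun_toSubgroupOf, (hT' t).mp t.2]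
  obtain ⟨e, S, he, hS, hcard, hdeg⟩ := abelian_quotient_decomp (H.subgroupOf T) hθ' hinv'
    (fun x y => Subgroup.mem_subgroupOf.mpr (hab x x.2 y y.2))
  have hsolv : Group.IsSolvable (T ⧸ H.subgroupOf T) := by
    apply Group.isSolvable_of_comm
    intro a b
    induction a using QuotientGroup.induction_on with
    | H a =>
    induction b using QuotientGroup.induction_on with
    | H b =>
    rw [← QuotientGroup.mk_mul, ← QuotientGroup.mk_mul, QuotientGroup.eq]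
    have h1 : b⁻¹ * a⁻¹ * b⁻¹⁻¹ * a⁻¹⁻¹ ∈ H.subgroupOf T :=
      Subgroup.mem_subgroupOf.mpr (hab _ (b⁻¹).2 _ (a⁻¹).2)
    have h2 : (a * b)⁻¹ * (b * a) = b⁻¹ * a⁻¹ * b⁻¹⁻¹ * a⁻¹⁻¹ := by
      group
    rw [h2]
    exact h1
  have hcop' : Nat.Coprime (Nat.card (H.subgroupOf T)) (H.subgroupOf T).index := by
    rw [card_subgroupOf_of_le hHT]
    exact hcop
  obtain ⟨χ₀, hχ₀, hχ₀N⟩ := exists_extension_of_coprime_solvable (H.subgroupOf T) hsolv hθ' hinv'
    hcop'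
  have he1 : e = 1 := by
    have h1 := hS ⟨χ₀, hχ₀⟩
    rw [frobenius_reciprocity _ _ _ (IsCharacter.isClassFunction (IsIrrCharacter.isCharacter hχ₀))]
      at h1
    have h2 : (fun h : H.subgroupOf T => χ₀ h) = toSubgroupOf H T θ := funext hχ₀N
    rw [h2, classInner_irr hθ' hθ', if_pos rfl] at h1
    split_ifs at h1
    · exact_mod_cast h1.symm
    · exact absurd h1 one_ne_zero
  subst he1
  have hne : ∀ ψ ∈ S, Cfsg.classInner (Cfsg.indFun (H.subgroupOf T) (toSubgroupOf H T θ))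
      (ψ : T → ℂ) ≠ 0 := by
    intro ψ hψ
    rw [hS ψ, if_pos hψ]
    exact_mod_cast he.ne'
  have hinj : Set.InjOn (fun ψ : Cfsg.IrrCharacter T => Cfsg.indFun T (ψ : T → ℂ)) S := by
    intro ψ hψ ψ' hψ' heq
    by_contra hcon
    have h1 := c2 ψ ψ' ψ.2 ψ'.2 (hne ψ hψ) (hne ψ' hψ') (fun h => hcon (Subtype.ext h))
    have heq' : Cfsg.indFun T (ψ : T → ℂ) = Cfsg.indFun T (ψ' : T → ℂ) := heq
    have hirr := c1 ψ ψ.2 (hne ψ hψ)
    rw [← heq', classInner_irr hirr hirr, if_pos rfl] at h1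
    exact one_ne_zero h1
  refine ⟨S.image (fun ψ : Cfsg.IrrCharacter T => Cfsg.indFun T (ψ : T → ℂ)), ?_, ?_, ?_, ?_⟩
  · intro χ hχ
    obtain ⟨ψ, hψ, rfl⟩ := Finset.mem_image.mp hχ
    exact c1 ψ ψ.2 (hne ψ hψ)
  · rw [Finset.card_image_of_injOn hinj]
    have h1 := Subgroup.card_mul_index (H.subgroupOf T)
    rw [← hcard, one_pow, one_mul, mul_comm] at h1
    exact (Nat.eq_of_mul_eq_mul_right Nat.card_pos h1).symm
  · rw [Finset.sum_image hinj, c3,
      ← Finset.sum_filter_add_sum_filter_not Finset.univ (fun ψ => ψ ∈ S)]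
    have e2 : ∑ ψ ∈ Finset.univ.filter (fun ψ => ¬ ψ ∈ S),
        Cfsg.classInner (Cfsg.indFun (H.subgroupOf T) (toSubgroupOf H T θ)) (ψ : T → ℂ) •
          Cfsg.indFun T (ψ : T → ℂ) = 0 := by
      apply Finset.sum_eq_zero
      intro ψ hψ
      rw [hS ψ, if_neg (Finset.mem_filter.mp hψ).2, zero_smul]
    rw [e2, add_zero, Finset.filter_mem_eq_inter, Finset.univ_inter]
    refine Finset.sum_congr rfl fun ψ hψ => ?_
    rw [hS ψ, if_pos hψ]
    simp
  · intro χ hχ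
    obtain ⟨ψ, hψ, rfl⟩ := Finset.mem_image.mp hχ
    rw [Cfsg.Agent.Lib.Helper24.indFun_one, hdeg ψ hψ, Nat.cast_one, one_mul]
    rfl

end Cfsg.Agent.S1491
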