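import Cfsg.Statements.S1492
import Cfsg.Agent.Lib.Lead.DegBound

set_option autoImplicit false
open Cfsg

namespace Cfsg.Agent.S1492

/-- Let ψ be an irreducible character of the finite group G and B ≤ D ≤ C subgroups with B normal in C, every commutator of an element of D with an element of C lying in B (so D/B is central in C/B), and ψ constant equal to ψ 1 on B. Then ψ(1) ^ 2 * |C| * |D| ≤ |G| ^ 2. -/
theorem result {G : Type*} [Group G] [Finite G] (ψ : G → ℂ) (hψ : Cfsg.IsIrrCharacter G ψ) (B C D : Subgroup G) (hBD : B ≤ D) (hDC : D ≤ C) (hBn : ∀ c ∈ C, ∀ b ∈ B, c * b * c⁻¹ ∈ B) (hcent : ∀ d ∈ D, ∀ c ∈ C, d * c * d⁻¹ * c⁻¹ ∈ B) (hker : ∀ b ∈ B, ψ b = ψ 1) : ‖ψ 1‖ ^ 2 * (Nat.card C : ℝ) * (Nat.card D : ℝ) ≤ (Nat.card G : ℝ) ^ 2 := by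
  classical
  cases nonempty_fintype G
  have h := Cfsg.Agent.Lib.Lead.DegBound.degree_bound hψ B C D hDC hcent hker
  have h1 : ‖ψ 1‖ = (Cfsg.charDegree ψ : ℝ) := by
    rw [← Cfsg.Agent.Lib.Helper24.charDegree_cast
      (Cfsg.Agent.Lib.Helper2.IsIrrCharacter.isCharacter hψ)]
    simp
  rw [h1]
  exact_mod_cast h

end Cfsg.Agent.S1492
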