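import Cfsg.Statements.S1494
import Mathlib
import Cfsg.Agent.Lib.Helper6.Height

set_option autoImplicit false
open Cfsg

namespace Cfsg.Agent.S1494

open Cfsg.Agent.Lib.Helper2 Cfsg.Agent.Lib.Helper6 Cfsg.Agent.Lib.Helper24
open scoped ComplexConjugate Classical

attribute [local instance] irrFintype

/-- a `p`-th root of unity is congruent to `1` modulo `1 - ε`. -/
theorem root_sub_one {p : ℕ} (hp : p.Prime) {w : ℂ} (hw : w ^ p = 1) :
    ∃ c : ℂ, IsIntegral ℤ c ∧ w - 1 = (1 - Complex.exp (2 * Real.pi * Complex.I / p)) * c := by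
  have hprim := Complex.isPrimitiveRoot_exp p hp.ne_zero
  haveI : NeZero p := ⟨hp.ne_zero⟩
  set ε := Complex.exp (2 * Real.pi * Complex.I / p) with hε
  obtain ⟨j, -, rfl⟩ := hprim.eq_pow_of_pow_eq_one hw
  have hint : IsIntegral ℤ ε :=
    IsIntegral.of_pow hp.pos (by rw [hprim.pow_eq_one]; exact isIntegral_one)
  refine ⟨-∑ i ∈ Finset.range j, ε ^ i, (IsIntegral.sum _ fun i _ => hint.pow i).neg, ?_⟩
  have := mul_geom_sum ε j
  linear_combination -this

theorem aux {G : Type*} [Group G] [Fintype G] {χ : G → ℂ} (hχ : IsCharacter G χ) {p : ℕ}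
    (hp : p.Prime) {x y : G} (hx : x ^ p = 1) (hxy : Commute x y) :
    ∃ ω : ℂ, IsIntegral ℤ ω ∧
      χ (x * y) - χ y = (1 - Complex.exp (2 * Real.pi * Complex.I / p)) * ω := by
  let xh : cen x := ⟨x, Subgroup.mem_centralizer_singleton_iff.mpr rfl⟩
  let yh : cen x := ⟨y, Subgroup.mem_centralizer_singleton_iff.mpr hxy.symm.eq⟩
  have hxc : xh ∈ Subgroup.center (cen x) := by
    rw [Subgroup.mem_center_iff]
    intro c
    apply Subtype.ext
    exact (Subgroup.mem_centralizer_singleton_iff.mp c.2)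
  obtain ⟨n, hn⟩ := IsCharacter.exists_eq_sum (IsCharacter.restrict (cen x) hχ)
  have h1 : ∀ c : cen x, χ c = ∑ ξ : IrrCharacter (cen x), (n ξ : ℂ) * (ξ : cen x → ℂ) c := by
    intro c
    have := congrFun hn c
    simpa using this
  have h2 : χ (x * y) = χ ((xh * yh : cen x) : G) := rfl
  have h3 : χ y = χ (yh : G) := rfl
  have key : ∀ ξ : IrrCharacter (cen x), ∃ c : ℂ, IsIntegral ℤ c ∧
      (ξ : cen x → ℂ) (xh * yh) - (ξ : cen x → ℂ) yh =
        (1 - Complex.exp (2 * Real.pi * Complex.I / p)) * c := by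
    intro ξ
    have h4 := centralChar_pow_of_central ξ.2 hxc p
    have hxh : xh ^ p = 1 := Subtype.ext (by simpa using hx)
    rw [hxh] at h4
    have h5 : centralChar (ξ : cen x → ℂ) xh ^ p = 1 := by
      have h0 := irr_one_ne_zero ξ.2
      have : centralChar (ξ : cen x → ℂ) xh ^ p * (ξ : cen x → ℂ) 1 = 1 * (ξ : cen x → ℂ) 1 := by
        rw [← h4, one_mul]
      exact mul_right_cancel₀ h0 this
    obtain ⟨c, hc, hc'⟩ := root_sub_one hp h5
    refine ⟨c * (ξ : cen x → ℂ) yh, hc.mul (irr_isIntegral ξ.2 yh), ?_⟩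
    rw [irr_central_mul ξ.2 hxc]
    linear_combination (ξ : cen x → ℂ) yh * hc'
  choose c hc hc' using key
  have hnat : ∀ k : ℕ, IsIntegral ℤ (k : ℂ) := fun k => by
    have := isIntegral_algebraMap (R := ℤ) (A := ℂ) (x := (k : ℤ))
    simpa using this
  refine ⟨∑ ξ : IrrCharacter (cen x), (n ξ : ℂ) * c ξ, IsIntegral.sum _ fun ξ _ =>
    (hnat (n ξ)).mul (hc ξ), ?_⟩
  rw [h2, h3, h1, h1, ← Finset.sum_sub_distrib, Finset.mul_sum]
  refine Finset.sum_congr rfl fun ξ _ => ?_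
  rw [← mul_sub, hc']
  ring

/-- Let χ be a generalized character of the finite group G, p a prime, x an element of order p and y an element commuting with x. Then χ(x * y) − χ(y) = (1 − ε) * ω for some algebraic integer ω, where ε = exp(2πi/p). -/
theorem result {G : Type*} [Group G] [Finite G] (χ : G → ℂ) (hχ : Cfsg.IsGeneralizedCharacter G χ) (p : ℕ) (hp : p.Prime) (x y : G) (hx : orderOf x = p) (hxy : x * y = y * x) : ∃ ω : ℂ, IsIntegral ℤ ω ∧ χ (x * y) - χ y = (1 - Complex.exp (2 * Real.pi * Complex.I / p)) * ω := by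
  letI := Fintype.ofFinite G
  obtain ⟨χ₁, χ₂, h₁, h₂, rfl⟩ := hχ
  have hxp : x ^ p = 1 := by rw [← hx]; exact pow_orderOf_eq_one x
  obtain ⟨ω₁, hi₁, e₁⟩ := aux h₁ hp hxp hxy
  obtain ⟨ω₂, hi₂, e₂⟩ := aux h₂ hp hxp hxy
  refine ⟨ω₁ - ω₂, hi₁.sub hi₂, ?_⟩
  simp only [Pi.sub_apply]
  linear_combination e₁ - e₂

end Cfsg.Agent.S1494
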