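import Cfsg.Statements.S1495
import Mathlib

set_option autoImplicit false
open Cfsg

namespace Cfsg.Agent.S1495

/-- Let p be a prime, ε = exp(2πi/p), and n an integer such that n = (1 − ε) * ω for some algebraic integer ω. Then p divides n. -/
theorem result (p : ℕ) (hp : p.Prime) (n : ℤ) (ω : ℂ) (hω : IsIntegral ℤ ω) (h : (n : ℂ) = (1 - Complex.exp (2 * Real.pi * Complex.I / p)) * ω) : (p : ℤ) ∣ n := by
  set ζ : ℂ := Complex.exp (2 * Real.pi * Complex.I / p) with hζdef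
  have hζ : IsPrimitiveRoot ζ p := Complex.isPrimitiveRoot_exp p hp.ne_zero
  have : NeZero p := ⟨hp.ne_zero⟩
  have hprod : (p : ℂ) = ∏ μ ∈ primitiveRoots p ℂ, (1 - μ) := by
    have h1 := Polynomial.cyclotomic_eq_prod_X_sub_primitiveRoots hζ
    have h2 := congrArg (Polynomial.eval 1) h1
    have : Fact p.Prime := ⟨hp⟩
    rw [Polynomial.eval_one_cyclotomic_prime, Polynomial.eval_prod] at h2
    simpa using h2
  have hint : ∀ μ ∈ primitiveRoots p ℂ, IsIntegral ℤ μ := by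
    intro μ hμ
    exact ((mem_primitiveRoots hp.pos).mp hμ).isIntegral hp.pos
  have hc : ∀ μ ∈ primitiveRoots p ℂ, ∃ c : ℂ, IsIntegral ℤ c ∧ (1 - μ) * c = 1 - ζ := by
    intro μ hμ
    have hμ' := (mem_primitiveRoots hp.pos).mp hμ
    obtain ⟨j, _, hj⟩ := hμ'.eq_pow_of_pow_eq_one hζ.pow_eq_one
    refine ⟨∑ i ∈ Finset.range j, μ ^ i, ?_, ?_⟩
    · exact IsIntegral.sum _ (fun i _ => (hint μ hμ).pow i)
    · rw [mul_neg_geom_sum, hj]
  by_contra hndvd
  have hcop : IsCoprime (p : ℤ) n :=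
    ((Nat.prime_iff_prime_int.mp hp).irreducible.coprime_iff_not_dvd).mpr hndvd
  obtain ⟨a, b, hab⟩ := hcop
  have hζmem : ζ ∈ primitiveRoots p ℂ := (mem_primitiveRoots hp.pos).mpr hζ
  -- `1 - ζ` is a unit among algebraic integers
  obtain ⟨w, hw, hw1⟩ : ∃ w : ℂ, IsIntegral ℤ w ∧ (1 - ζ) * w = 1 := by
    refine ⟨(a : ℂ) * ∏ μ ∈ (primitiveRoots p ℂ).erase ζ, (1 - μ) + (b : ℂ) * ω, ?_, ?_⟩
    · apply IsIntegral.add
      · apply IsIntegral.mul isIntegral_algebraMap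
        apply IsIntegral.prod
        intro μ hμ
        exact isIntegral_one.sub (hint μ (Finset.mem_of_mem_erase hμ))
      · exact IsIntegral.mul isIntegral_algebraMap hω
    · have h1 : (1 - ζ) * ∏ μ ∈ (primitiveRoots p ℂ).erase ζ, (1 - μ) = p := by
        rw [hprod]
        exact Finset.mul_prod_erase _ (fun μ => 1 - μ) hζmem
      have h2 : ((a * p + b * n : ℤ) : ℂ) = 1 := by rw [hab]; simp
      push_cast at h2
      calc (1 - ζ) * ((a : ℂ) * ∏ μ ∈ (primitiveRoots p ℂ).erase ζ, (1 - μ) + (b : ℂ) * ω)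
          = (a : ℂ) * ((1 - ζ) * ∏ μ ∈ (primitiveRoots p ℂ).erase ζ, (1 - μ)) + (b : ℂ) * ((1 - ζ) * ω) := by ring
        _ = 1 := by rw [h1, ← h, h2]
  choose! c hcint hceq using hc
  have hW : (p : ℂ) * ∏ μ ∈ primitiveRoots p ℂ, (c μ * w) = 1 := by
    rw [hprod, ← Finset.prod_mul_distrib]
    apply Finset.prod_eq_one
    intro μ hμ
    rw [← mul_assoc, hceq μ hμ, hw1]
  have hWint : IsIntegral ℤ (∏ μ ∈ primitiveRoots p ℂ, (c μ * w)) :=
    IsIntegral.prod _ (fun μ hμ => (hcint μ hμ).mul hw)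
  have hp0 : (p : ℂ) ≠ 0 := by exact_mod_cast hp.ne_zero
  have hWeq : ∏ μ ∈ primitiveRoots p ℂ, (c μ * w) = algebraMap ℚ ℂ ((p : ℚ)⁻¹) := by
    rw [map_inv₀, map_natCast]
    exact eq_inv_of_mul_eq_one_right hW
  rw [hWeq, isIntegral_algebraMap_iff (algebraMap ℚ ℂ).injective] at hWint
  obtain ⟨m, hm⟩ := IsIntegrallyClosed.isIntegral_iff.mp hWint
  have hpq : (p : ℚ) ≠ 0 := by exact_mod_cast hp.ne_zero
  have h3 : (m : ℚ) * p = 1 := by
    have : (algebraMap ℤ ℚ) m = (m : ℚ) := rfl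
    rw [← this, hm, inv_mul_cancel₀ hpq]
  have h4 : m * (p : ℤ) = 1 := by exact_mod_cast h3
  have h5 : (p : ℤ) ∣ 1 := Dvd.intro_left m h4
  have h6 : p ∣ 1 := by exact_mod_cast h5
  exact hp.one_lt.ne' (Nat.dvd_one.mp h6)

end Cfsg.Agent.S1495
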