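import Cfsg.Statements.S1499
import Mathlib
import Cfsg.Agent.Lib.Helper10.Dade

set_option autoImplicit false
open Cfsg

namespace Cfsg.Agent.S1499

/-- Under the Dade hypothesis for (A, L, H), let a, b ∈ A. If an element of the coset a·H(a) is conjugate in G to an element of b·H(b), then a and b are conjugate by an element of L. Moreover the set normaliser of the coset a·H(a) is the centraliser of a. -/
theorem result {G : Type*} [Group G] [Finite G] (A : Set G) (L : Subgroup G) (H : G → Subgroup G) (hD : Cfsg.DadeHypothesis A L H) (a b : G) (ha : a ∈ A) (hb : b ∈ A) : ((∃ u ∈ H a, ∃ v ∈ H b, ∃ g : G, g * (a * u) * g⁻¹ = b * v) → ∃ x ∈ L, x * a * x⁻¹ = b) ∧ Subgroup.normalizer ((fun u : G => a * u) '' (H a : Set G)) = Subgroup.centralizer ({a} : Set G) := by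
  constructor
  · rintro ⟨u, hu, v, hv, g, hg⟩
    have h1 := Cfsg.Agent.Lib.Helper10.dade_conj_eq hD ha hb hu hv hg
    obtain ⟨x, hx, hxa⟩ := hD.fusion a ha g (h1 ▸ hb)
    exact ⟨x, hx, hxa.trans h1⟩
  · have hsub : ∀ c ∈ Subgroup.centralizer ({a} : Set G), ∀ n ∈ (fun u : G => a * u) '' (H a : Set G),
        c * n * c⁻¹ ∈ (fun u : G => a * u) '' (H a : Set G) := by
      rintro c hc _ ⟨u, hu, rfl⟩
      refine ⟨c * u * c⁻¹, hD.conj_mem_H a ha c hc u hu, ?_⟩
      rw [Subgroup.mem_centralizer_singleton_iff] at hc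
      simp only
      calc a * (c * u * c⁻¹) = (a * c) * u * c⁻¹ := by group
        _ = (c * a) * u * c⁻¹ := by rw [hc]
        _ = c * (a * u) * c⁻¹ := by group
    apply le_antisymm
    · intro g hg
      rw [Subgroup.mem_set_normalizer_iff] at hg
      have h1 : a ∈ (fun u : G => a * u) '' (H a : Set G) := ⟨1, (H a).one_mem, by simp⟩
      obtain ⟨v, hv, hgv⟩ := (hg a).mp h1
      have h2 : g * (a * 1) * g⁻¹ = a * v := by simpa using hgv.symm
      have h3 := Cfsg.Agent.Lib.Helper10.dade_conj_eq hD ha ha (H a).one_mem hv h2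
      rw [Subgroup.mem_centralizer_singleton_iff]
      calc g * a = (g * a * g⁻¹) * g := by group
        _ = a * g := by rw [h3]
    · intro c hc
      rw [Subgroup.mem_set_normalizer_iff]
      intro n
      refine ⟨hsub c hc n, fun hn => ?_⟩
      have := hsub c⁻¹ (Subgroup.inv_mem _ hc) _ hn
      simpa [mul_assoc] using this

end Cfsg.Agent.S1499
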