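import Cfsg.Statements.S1503
import Cfsg.Agent.Lib.Lead.CycTIb

set_option autoImplicit false
open Cfsg

namespace Cfsg.Agent.S1503

/-- Let W₁, W₂ ≤ G with W = W₁ ⊔ W₂ and let χ an orthonormal family of irreducible characters of G up to sign, indexed by the linear characters ω of W, with χ_1 = 1, χ_ω = ω on W outside W₁ ∪ W₂, and the induction identity for (1 − φ)(1 − ψ). If θ is an irreducible character of G orthogonal to χ ω for every linear character ω of W, then θ vanishes at every element of W lying outside W₁ ∪ W₂. -/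
theorem result {G : Type*} [Group G] [Fintype G] (W₁ W₂ : Subgroup G) (hW : Cfsg.IsSelfNormalizingCyclic W₁ W₂) (χ : (↥(W₁ ⊔ W₂) →* ℂˣ) → (G → ℂ)) (hχ : Cfsg.IsCyclicTIFamily W₁ W₂ χ) (θ : G → ℂ) (hθ : Cfsg.IsIrrCharacter G θ) (horth : ∀ ω, Cfsg.classInner θ (χ ω) = 0) (w : ↥(W₁ ⊔ W₂)) (hw₁ : (w : G) ∉ W₁) (hw₂ : (w : G) ∉ W₂) : θ w = 0 := by
  classical
  haveI := Fintype.ofFinite ↥(W₁ ⊔ W₂)
  have hcomm := hW.2.2.2.1
  have hθc : Cfsg.IsClassFunction G θ :=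
    Cfsg.Agent.Lib.Helper2.IsCharacter.isClassFunction
      (Cfsg.Agent.Lib.Helper2.IsIrrCharacter.isCharacter hθ)
  have hWc := Cfsg.Agent.Lib.Lead.Glaub.comm_of_cyclic (W₁ ⊔ W₂) hW.2.2.2.2.1
  refine Cfsg.Agent.Lib.Lead.CycTI.vanish_of_orth hW.2.2.1 hcomm hWc (fun w => θ w) ?_ w hw₁ hw₂
  intro φ ψ h1 h2 e1 e2
  have h3 := hχ.induced_eq φ ψ e1 e2 h1 h2
  have h5 : Cfsg.indFun (W₁ ⊔ W₂) (Cfsg.Agent.Lib.Lead.CycTI.al φ ψ) =
      χ 1 - χ φ - χ ψ + χ (φ * ψ) := by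
    change Cfsg.indFun (W₁ ⊔ W₂) (fun w => 1 - (φ w : ℂ) - (ψ w : ℂ) + (φ w : ℂ) * (ψ w : ℂ)) = _
    rw [h3, hχ.map_one]
    rfl
  rw [← Cfsg.Agent.Lib.Helper2.classInner_conj_symm,
    ← Cfsg.Agent.Lib.Helper2.frobenius_reciprocity _ _ _ hθc, h5,
    Cfsg.Agent.Lib.Helper2.classInner_conj_symm, Cfsg.Agent.Lib.Helper2.classInner_add_right,
    Cfsg.Agent.Lib.Helper2.classInner_sub_right, Cfsg.Agent.Lib.Helper2.classInner_sub_right,
    horth, horth, horth, horth]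
  ring

end Cfsg.Agent.S1503
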