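import Cfsg.Statements.S1504
import Cfsg.Agent.Lib.Lead.CycTIb

set_option autoImplicit false
open Cfsg

namespace Cfsg.Agent.S1504

/-- Let W₁, W₂ be subgroups of a finite group with W₁ ⊓ W₂ = ⊥ whose elements commute, and W = W₁ ⊔ W₂. For linear characters φ, ψ of W with φ trivial on W₂ and ψ trivial on W₁, the function (1 − φ)(1 − ψ) vanishes on W₁ ∪ W₂; and the family of these functions, indexed by pairs (φ, ψ) with φ ≠ 1 ≠ ψ, is linearly independent over ℂ. -/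
theorem result {G : Type*} [Group G] [Finite G] (W₁ W₂ : Subgroup G) (hdisj : W₁ ⊓ W₂ = ⊥) (hcomm : ∀ a ∈ W₁, ∀ b ∈ W₂, a * b = b * a) : (∀ φ ψ : ↥(W₁ ⊔ W₂) →* ℂˣ, (∀ w : ↥(W₁ ⊔ W₂), (w : G) ∈ W₂ → φ w = 1) → (∀ w : ↥(W₁ ⊔ W₂), (w : G) ∈ W₁ → ψ w = 1) → ∀ w : ↥(W₁ ⊔ W₂), ((w : G) ∈ W₁ ∨ (w : G) ∈ W₂) → (1 - (φ w : ℂ) - (ψ w : ℂ) + (φ w : ℂ) * (ψ w : ℂ)) = 0) ∧ LinearIndependent ℂ (fun p : {p : (↥(W₁ ⊔ W₂) →* ℂˣ) × (↥(W₁ ⊔ W₂) →* ℂˣ) // p.1 ≠ 1 ∧ p.2 ≠ 1 ∧ (∀ w : ↥(W₁ ⊔ W₂), (w : G) ∈ W₂ → p.1 w = 1) ∧ (∀ w : ↥(W₁ ⊔ W₂), (w : G) ∈ W₁ → p.2 w = 1)} => fun w : ↥(W₁ ⊔ W₂) => 1 - (p.1.1 w : ℂ) - (p.1.2 w : ℂ) + (p.1.1 w : ℂ) * (p.1.2 w : ℂ)) := by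
  classical
  haveI := Fintype.ofFinite ↥(W₁ ⊔ W₂)
  refine ⟨?_, ?_⟩
  · intro φ ψ h1 h2 w hw
    exact Cfsg.Agent.Lib.Lead.CycTI.al_vanish (φ := φ) (ψ := ψ) h1 h2 w hw
  · rw [linearIndependent_iff']
    intro s g hg i hi
    have h1 := congrArg (fun F => classInner F (Cfsg.Agent.Lib.Lead.CycTI.fn (i.1.1 * i.1.2))) hg
    beta_reduce at h1
    rw [Cfsg.Agent.Lib.Helper2.classInner_sum_left, Cfsg.Agent.Lib.Helper2.classInner_zero_left] at h1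
    rw [Finset.sum_eq_single i] at h1
    · rw [Cfsg.Agent.Lib.Helper2.classInner_smul_left] at h1
      have h2 := Cfsg.Agent.Lib.Lead.CycTI.inner_al_mul hcomm i.2.2.2.1 i.2.2.2.1 i.2.2.2.2 i.2.2.2.2
        i.2.1 i.2.2.1
      rw [if_pos ⟨rfl, rfl⟩] at h2
      change g i * classInner (Cfsg.Agent.Lib.Lead.CycTI.al i.1.1 i.1.2) _ = 0 at h1
      rw [h2, mul_one] at h1
      exact h1
    · intro j _ hj
      rw [Cfsg.Agent.Lib.Helper2.classInner_smul_left]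
      have h2 := Cfsg.Agent.Lib.Lead.CycTI.inner_al_mul hcomm j.2.2.2.1 i.2.2.2.1 j.2.2.2.2 i.2.2.2.2
        i.2.1 i.2.2.1
      rw [if_neg] at h2
      · change g j * classInner (Cfsg.Agent.Lib.Lead.CycTI.al j.1.1 j.1.2) _ = 0
        rw [h2, mul_zero]
      · rintro ⟨e1, e2⟩
        exact hj (Subtype.ext (Prod.ext e1 e2))
    · intro h
      exact absurd hi h

end Cfsg.Agent.S1504
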