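import Cfsg.Statements.S1505
import Cfsg.Agent.Lib.Lead.CycTIb

set_option autoImplicit false
open Cfsg

namespace Cfsg.Agent.S1505

open Classical in
/-- Let W₁, W₂ ≤ G form a self-normalising cyclic subgroup W = W₁ ⊔ W₂. For nontrivial linear characters φ, φ' of W trivial on W₂ and ψ, ψ' trivial on W₁, put α = (1 − φ)(1 − ψ) and α' = (1 − φ')(1 − ψ'). Then the function induced from α to G has inner product 1 with the principal character, and the inner product of the functions induced from α and α' is 1 + a + b + ab where a = 1 if φ = φ' (else 0) and b = 1 if ψ = ψ' (else 0). -/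
theorem result {G : Type*} [Group G] [Fintype G] (W₁ W₂ : Subgroup G) (hW : Cfsg.IsSelfNormalizingCyclic W₁ W₂) (φ φ' ψ ψ' : ↥(W₁ ⊔ W₂) →* ℂˣ) (hφ : φ ≠ 1) (hφ' : φ' ≠ 1) (hψ : ψ ≠ 1) (hψ' : ψ' ≠ 1) (hφ₂ : ∀ w : ↥(W₁ ⊔ W₂), (w : G) ∈ W₂ → φ w = 1 ∧ φ' w = 1) (hψ₁ : ∀ w : ↥(W₁ ⊔ W₂), (w : G) ∈ W₁ → ψ w = 1 ∧ ψ' w = 1) : Cfsg.classInner (Cfsg.indFun (W₁ ⊔ W₂) (fun w => 1 - (φ w : ℂ) - (ψ w : ℂ) + (φ w : ℂ) * (ψ w : ℂ))) (fun _ => 1) = 1 ∧ Cfsg.classInner (Cfsg.indFun (W₁ ⊔ W₂) (fun w => 1 - (φ w : ℂ) - (ψ w : ℂ) + (φ w : ℂ) * (ψ w : ℂ))) (Cfsg.indFun (W₁ ⊔ W₂) (fun w => 1 - (φ' w : ℂ) - (ψ' w : ℂ) + (φ' w : ℂ) * (ψ' w : ℂ))) = 1 + (if φ = φ' then 1 else 0) + (if ψ = ψ' then 1 else 0) + (if φ = φ' then 1 else 0) * (if ψ = ψ' then 1 else 0) := by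
  haveI := Fintype.ofFinite ↥(W₁ ⊔ W₂)
  have hcomm := hW.2.2.2.1
  have h1 : Cfsg.Agent.Lib.Lead.CycTI.T1 W₁ W₂ φ := fun w hw => (hφ₂ w hw).1
  have h1' : Cfsg.Agent.Lib.Lead.CycTI.T1 W₁ W₂ φ' := fun w hw => (hφ₂ w hw).2
  have h2 : Cfsg.Agent.Lib.Lead.CycTI.T2 W₁ W₂ ψ := fun w hw => (hψ₁ w hw).1
  have h2' : Cfsg.Agent.Lib.Lead.CycTI.T2 W₁ W₂ ψ' := fun w hw => (hψ₁ w hw).2
  refine ⟨?_, ?_⟩
  · rw [Cfsg.Agent.Lib.Helper2.frobenius_reciprocity _ _ _ (fun _ _ => rfl)]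
    have h3 := Cfsg.Agent.Lib.Lead.CycTI.inner_al_fn φ ψ 1
    have e3 : ¬ (φ * ψ = 1) := by
      intro h
      have := (Cfsg.Agent.Lib.Lead.CycTI.mul_eq_mul_iff hcomm h1 Cfsg.Agent.Lib.Lead.CycTI.T1.one h2
        Cfsg.Agent.Lib.Lead.CycTI.T2.one).mp (by rw [Cfsg.Agent.Lib.Lead.CycTI.hom_one_mul]; exact h)
      exact hφ this.1
    rw [if_pos rfl, if_neg hφ, if_neg hψ, if_neg e3] at h3
    have e4 : (Cfsg.Agent.Lib.Lead.CycTI.fn (1 : ↥(W₁ ⊔ W₂) →* ℂˣ)) = fun _ => 1 := by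
      ext w
      simp [Cfsg.Agent.Lib.Lead.CycTI.fn]
    rw [e4] at h3
    have e5 : (1 : ℂ) - 0 - 0 + 0 = 1 := by ring
    rw [e5] at h3
    exact h3
  · have h3 := Cfsg.Agent.Lib.Lead.CycTI.inner_indFun hW (Cfsg.Agent.Lib.Lead.CycTI.al φ ψ)
      (Cfsg.Agent.Lib.Lead.CycTI.al φ' ψ') (Cfsg.Agent.Lib.Lead.CycTI.al_vanish h1 h2)
      (Cfsg.Agent.Lib.Lead.CycTI.al_vanish h1' h2')
    rw [Cfsg.Agent.Lib.Lead.CycTI.inner_al_al hcomm h1 h1' h2 h2' hφ hψ hφ' hψ'] at h3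
    convert h3 <;> rfl

end Cfsg.Agent.S1505
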