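import Cfsg.Statements.S1506
import Cfsg.Agent.Lib.Lead.CycTIb

set_option autoImplicit false
open Cfsg

namespace Cfsg.Agent.S1506

/-- Let W₁, W₂ ≤ G form a self-normalising cyclic subgroup W = W₁ ⊔ W₂ and χ an orthonormal family of irreducible characters of G up to sign, indexed by the linear characters ω of W, with χ_1 = 1, χ_ω = ω on W outside W₁ ∪ W₂, and the induction identity for (1 − φ)(1 − ψ). Let θ be a class function of G vanishing at every element of W outside W₁ ∪ W₂. For linear characters φ, φ' of W trivial on W₂ and ψ, ψ' trivial on W₁, the inner products a(ω) = ⟨θ, χ ω⟩ satisfy a(φψ) + a(φ'ψ') = a(φψ') + a(φ'ψ). -/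
theorem result {G : Type*} [Group G] [Fintype G] (W₁ W₂ : Subgroup G) (hW : Cfsg.IsSelfNormalizingCyclic W₁ W₂) (χ : (↥(W₁ ⊔ W₂) →* ℂˣ) → (G → ℂ)) (hχ : Cfsg.IsCyclicTIFamily W₁ W₂ χ) (θ : G → ℂ) (hθ : Cfsg.IsClassFunction G θ) (hθV : ∀ w : ↥(W₁ ⊔ W₂), (w : G) ∉ W₁ → (w : G) ∉ W₂ → θ w = 0) (φ φ' ψ ψ' : ↥(W₁ ⊔ W₂) →* ℂˣ) (hφ₂ : ∀ w : ↥(W₁ ⊔ W₂), (w : G) ∈ W₂ → φ w = 1 ∧ φ' w = 1) (hψ₁ : ∀ w : ↥(W₁ ⊔ W₂), (w : G) ∈ W₁ → ψ w = 1 ∧ ψ' w = 1) : Cfsg.classInner θ (χ (φ * ψ)) + Cfsg.classInner θ (χ (φ' * ψ')) = Cfsg.classInner θ (χ (φ * ψ')) + Cfsg.classInner θ (χ (φ' * ψ)) := by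
  classical
  haveI := Fintype.ofFinite ↥(W₁ ⊔ W₂)
  have hcomm := hW.2.2.2.1
  have key : ∀ φ ψ : ↥(W₁ ⊔ W₂) →* ℂˣ, Cfsg.Agent.Lib.Lead.CycTI.T1 W₁ W₂ φ →
      Cfsg.Agent.Lib.Lead.CycTI.T2 W₁ W₂ ψ →
      Cfsg.classInner θ (χ (φ * ψ)) = Cfsg.classInner θ (χ φ) + Cfsg.classInner θ (χ ψ) -
        Cfsg.classInner θ (χ 1) := by
    intro φ ψ h1 h2
    by_cases e1 : φ = 1
    · rw [e1, Cfsg.Agent.Lib.Lead.CycTI.hom_one_mul]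
      ring
    by_cases e2 : ψ = 1
    · rw [e2, Cfsg.Agent.Lib.Lead.CycTI.hom_mul_one]
      ring
    have h3 := hχ.induced_eq φ ψ e1 e2 h1 h2
    have h4 : Cfsg.classInner (Cfsg.indFun (W₁ ⊔ W₂) (Cfsg.Agent.Lib.Lead.CycTI.al φ ψ)) θ = 0 := by
      rw [Cfsg.Agent.Lib.Helper2.frobenius_reciprocity _ _ _ hθ]
      simp only [Cfsg.classInner]
      apply mul_eq_zero_of_right
      apply Finset.sum_eq_zero
      intro w _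
      by_cases h : (w : G) ∈ W₁ ∨ (w : G) ∈ W₂
      · rw [Cfsg.Agent.Lib.Lead.CycTI.al_vanish h1 h2 w h, zero_mul]
      · push Not at h
        rw [hθV w h.1 h.2, map_zero, mul_zero]
    have h5 : Cfsg.indFun (W₁ ⊔ W₂) (Cfsg.Agent.Lib.Lead.CycTI.al φ ψ) =
        χ 1 - χ φ - χ ψ + χ (φ * ψ) := by
      change Cfsg.indFun (W₁ ⊔ W₂) (fun w => 1 - (φ w : ℂ) - (ψ w : ℂ) + (φ w : ℂ) * (ψ w : ℂ)) = _
      rw [h3, hχ.map_one]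
      rfl
    rw [h5] at h4
    have h6 := Cfsg.Agent.Lib.Helper2.classInner_conj_symm (χ 1 - χ φ - χ ψ + χ (φ * ψ)) θ
    rw [h4, map_zero, Cfsg.Agent.Lib.Helper2.classInner_add_right,
      Cfsg.Agent.Lib.Helper2.classInner_sub_right, Cfsg.Agent.Lib.Helper2.classInner_sub_right] at h6
    linear_combination -h6
  have t1 : Cfsg.Agent.Lib.Lead.CycTI.T1 W₁ W₂ φ := fun w hw => (hφ₂ w hw).1
  have t1' : Cfsg.Agent.Lib.Lead.CycTI.T1 W₁ W₂ φ' := fun w hw => (hφ₂ w hw).2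
  have t2 : Cfsg.Agent.Lib.Lead.CycTI.T2 W₁ W₂ ψ := fun w hw => (hψ₁ w hw).1
  have t2' : Cfsg.Agent.Lib.Lead.CycTI.T2 W₁ W₂ ψ' := fun w hw => (hψ₁ w hw).2
  rw [key φ ψ t1 t2, key φ' ψ' t1' t2', key φ ψ' t1 t2', key φ' ψ t1' t2]
  ring

end Cfsg.Agent.S1506
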