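import Cfsg.Statements.S1507
import Cfsg.Agent.Lib.Lead.CycTIf
import Cfsg.Agent.S1506

set_option autoImplicit false
open Cfsg

namespace Cfsg.Agent.S1507

open Classical in
/-- Let W₁, W₂ ≤ G form a self-normalising cyclic subgroup W = W₁ ⊔ W₂ of odd order with Nat.card W₁ < Nat.card W₂, and χ an orthonormal family of irreducible characters of G up to sign, indexed by the linear characters ω of W, with χ_1 = 1, χ_ω = ω on W outside W₁ ∪ W₂, and the induction identity for (1 − φ)(1 − ψ). Let θ be a class function of G vanishing on W outside W₁ ∪ W₂, and suppose fewer than 2 · Nat.card W₁ linear characters ω of W have ⟨θ, χ ω⟩ ≠ 0. Then one of: all ⟨θ, χ ω⟩ vanish; or there are ψ₀ and a with ⟨θ, χ ω⟩ = a when ω ψ₀⁻¹ is trivial on W₂ and 0 otherwise; or there are φ₀ and a with ⟨θ, χ ω⟩ = a when ω φ₀⁻¹ is trivial on W₁ and 0 otherwise. -/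
theorem result {G : Type*} [Group G] [Fintype G] (W₁ W₂ : Subgroup G) (hW : Cfsg.IsSelfNormalizingCyclic W₁ W₂) (hodd : Odd (Nat.card ↥(W₁ ⊔ W₂))) (χ : (↥(W₁ ⊔ W₂) →* ℂˣ) → (G → ℂ)) (hχ : Cfsg.IsCyclicTIFamily W₁ W₂ χ) (hlt : Nat.card W₁ < Nat.card W₂) (θ : G → ℂ) (hθ : Cfsg.IsClassFunction G θ) (hθV : ∀ w : ↥(W₁ ⊔ W₂), (w : G) ∉ W₁ → (w : G) ∉ W₂ → θ w = 0) (hfew : Nat.card {ω : ↥(W₁ ⊔ W₂) →* ℂˣ // Cfsg.classInner θ (χ ω) ≠ 0} < 2 * Nat.card W₁) : (∀ ω, Cfsg.classInner θ (χ ω) = 0) ∨ (∃ (ψ₀ : ↥(W₁ ⊔ W₂) →* ℂˣ) (a : ℂ), ∀ ω, Cfsg.classInner θ (χ ω) = if (∀ w : ↥(W₁ ⊔ W₂), (w : G) ∈ W₂ → (ω * ψ₀⁻¹) w = 1) then a else 0) ∨ (∃ (φ₀ : ↥(W₁ ⊔ W₂) →* ℂˣ) (a : ℂ), ∀ ω, Cfsg.classInner θ (χ ω) = if (∀ w : ↥(W₁ ⊔ W₂), (w : G) ∈ W₁ → (ω * φ₀⁻¹) w = 1) then a else 0) := by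
  have hcomm := hW.2.2.2.1
  have hdisj := hW.2.2.1
  have hWc := Cfsg.Agent.Lib.Lead.Glaub.comm_of_cyclic (W₁ ⊔ W₂) hW.2.2.2.2.1
  have hadd : ∀ φ ψ, Cfsg.Agent.Lib.Lead.CycTI.T1 W₁ W₂ φ → Cfsg.Agent.Lib.Lead.CycTI.T2 W₁ W₂ ψ →
      Cfsg.classInner θ (χ (φ * ψ)) = Cfsg.classInner θ (χ φ) + Cfsg.classInner θ (χ ψ) -
        Cfsg.classInner θ (χ 1) := by
    intro φ ψ h1 h2
    have h3 := Cfsg.Agent.S1506.result W₁ W₂ hW χ hχ θ hθ hθV φ 1 ψ 1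
      (fun w hw => ⟨h1 w hw, rfl⟩) (fun w hw => ⟨h2 w hw, rfl⟩)
    rw [Cfsg.Agent.Lib.Lead.CycTI.hom_one_mul, Cfsg.Agent.Lib.Lead.CycTI.hom_one_mul,
      Cfsg.Agent.Lib.Lead.CycTI.hom_mul_one] at h3
    linear_combination h3
  have hbij := Cfsg.Agent.Lib.Lead.CycTI.mul_bij hdisj hcomm
  rcases Cfsg.Agent.Lib.Lead.CycTI.few_nonzero hdisj hcomm hWc hodd hlt
    (fun ω => Cfsg.classInner θ (χ ω)) hadd hfew with h | ⟨ψ₀, hψ₀, c, h⟩ | ⟨φ₀, hφ₀, c, h⟩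
  · exact Or.inl h
  · right
    left
    refine ⟨ψ₀, c, ?_⟩
    intro ω
    obtain ⟨p, rfl⟩ := hbij.2 ω
    change Cfsg.classInner θ (χ (p.1.1 * p.2.1)) = if (∀ w : ↥(W₁ ⊔ W₂), (w : G) ∈ W₂ →
      (p.1.1 * p.2.1 * ψ₀⁻¹) w = 1) then c else 0
    have h1 := h p.1.1 p.2.1 p.1.2 p.2.2
    beta_reduce at h1
    rw [h1]
    by_cases e : p.2.1 = ψ₀
    · rw [if_pos e, if_pos]
      intro w hw
      rw [MonoidHom.mul_apply, MonoidHom.mul_apply, MonoidHom.inv_apply, p.1.2 w hw, e, one_mul,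
        mul_inv_cancel]
    · rw [if_neg e, if_neg]
      intro hcon
      apply e
      apply Cfsg.Agent.Lib.Lead.CycTI.T2.ext hcomm p.2.2 hψ₀
      intro w hw
      have h2 := hcon w hw
      rw [MonoidHom.mul_apply, MonoidHom.mul_apply, MonoidHom.inv_apply, p.1.2 w hw, one_mul] at h2
      exact mul_inv_eq_one.mp h2
  · right
    right
    refine ⟨φ₀, c, ?_⟩
    intro ω
    obtain ⟨p, rfl⟩ := hbij.2 ω
    change Cfsg.classInner θ (χ (p.1.1 * p.2.1)) = if (∀ w : ↥(W₁ ⊔ W₂), (w : G) ∈ W₁ →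
      (p.1.1 * p.2.1 * φ₀⁻¹) w = 1) then c else 0
    have h1 := h p.1.1 p.2.1 p.1.2 p.2.2
    beta_reduce at h1
    rw [h1]
    by_cases e : p.1.1 = φ₀
    · rw [if_pos e, if_pos]
      intro w hw
      rw [MonoidHom.mul_apply, MonoidHom.mul_apply, MonoidHom.inv_apply, p.2.2 w hw, e, mul_one,
        mul_inv_cancel]
    · rw [if_neg e, if_neg]
      intro hcon
      apply e
      apply Cfsg.Agent.Lib.Lead.CycTI.T1.ext hcomm p.1.2 hφ₀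
      intro w hw
      have h2 := hcon w hw
      rw [MonoidHom.mul_apply, MonoidHom.mul_apply, MonoidHom.inv_apply, p.2.2 w hw, mul_one] at h2
      exact mul_inv_eq_one.mp h2

end Cfsg.Agent.S1507
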