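import Cfsg.Statements.S1510
import Cfsg.Agent.Lib.Lead.CycTIb

set_option autoImplicit false
open Cfsg

namespace Cfsg.Agent.S1510

/-- Let L be a finite group with a normal subgroup K and a nontrivial cyclic subgroup W₁ of order coprime to its index, K ⊓ W₁ = ⊥ and K ⊔ W₁ = ⊤; let W₂ ≠ ⊥ be a cyclic subgroup of K with K ⊓ C_L(x) = W₂ for every non-identity x ∈ W₁, and suppose W₁ ⊔ W₂ has odd order. Then (W₁, W₂) is a self-normalising cyclic pair in L. -/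
theorem result {L : Type*} [Group L] [Fintype L] (K W₁ W₂ : Subgroup L) [hK : K.Normal] (hKW₁ : K ⊓ W₁ = ⊥) (hKW₁' : K ⊔ W₁ = ⊤) (hW₁ : W₁ ≠ ⊥) (hW₁c : IsCyclic W₁) (hHall : Nat.Coprime (Nat.card W₁) W₁.index) (hW₂ : W₂ ≠ ⊥) (hW₂c : IsCyclic W₂) (hW₂K : W₂ ≤ K) (hC : ∀ x ∈ W₁, x ≠ 1 → K ⊓ Subgroup.centralizer ({x} : Set L) = W₂) (hodd : Odd (Nat.card ↥(W₁ ⊔ W₂))) : Cfsg.IsSelfNormalizingCyclic W₁ W₂ := by
  classical
  obtain ⟨π, hπH, hπker⟩ := Cfsg.Agent.Lib.Lead.Glaub.exists_retract K W₁ hKW₁' hKW₁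
  have hCC := Cfsg.Agent.Lib.Lead.Glaub.typeP_cent K W₁ W₂ hW₂K hC W₁ le_rfl hW₁
  have hcop := Cfsg.Agent.Lib.Lead.Glaub.typeP_cop K W₁ hKW₁ hKW₁' hHall
  have hS₁ := Cfsg.Agent.Lib.Lead.Glaub.comm_of_cyclic W₁ hW₁c
  have hS₂ := Cfsg.Agent.Lib.Lead.Glaub.comm_of_cyclic W₂ hW₂c
  have hcomm : ∀ x ∈ W₁, ∀ c ∈ W₂, x * c = c * x := by
    intro x hx c hc
    have h1 : c ∈ K ⊓ Subgroup.centralizer (W₁ : Set L) := hCC ▸ hc
    exact Subgroup.mem_centralizer_iff.mp h1.2 x hx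
  have hcop₂ : (Nat.card W₁).Coprime (Nat.card W₂) :=
    (Nat.Coprime.coprime_dvd_left (Subgroup.card_dvd_of_le hW₂K) hcop).symm
  have hdisj : W₁ ⊓ W₂ = ⊥ := by
    rw [eq_bot_iff, ← hKW₁]
    exact fun x hx => ⟨hW₂K hx.2, hx.1⟩
  have hdec := Cfsg.Agent.Lib.Lead.CycTI.dec hcomm
  have hcyc : IsCyclic ↥(W₁ ⊔ W₂) := by
    haveI : IsCyclic (W₁ × W₂) := Group.isCyclic_prod_iff.mpr ⟨hW₁c, hW₂c, hcop₂⟩
    let F : W₁ × W₂ →* ↥(W₁ ⊔ W₂) := MonoidHom.noncommCoprod (Subgroup.inclusion le_sup_left)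
      (Subgroup.inclusion le_sup_right) (by
        intro a b
        exact Subtype.ext (hcomm a a.2 b b.2))
    apply isCyclic_of_surjective F
    intro w
    obtain ⟨a, ha, b, hb, hw⟩ := hdec w w.2
    exact ⟨(⟨a, ha⟩, ⟨b, hb⟩), Subtype.ext hw.symm⟩
  have hWc := Cfsg.Agent.Lib.Lead.Glaub.comm_of_cyclic (W₁ ⊔ W₂) hcyc
  refine ⟨hW₁, hW₂, hdisj, hcomm, hcyc, ?_⟩
  intro X hX hXne
  set n₂ := Nat.card W₂ with hn₂
  -- powers
  have hpow : ∀ w ∈ W₁ ⊔ W₂, w ^ n₂ = ((π w : W₁) : L) ^ n₂ := by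
    intro w hw
    obtain ⟨a, ha, b, hb, rfl⟩ := hdec w hw
    have h1 : π (a * b) = ⟨a, ha⟩ := by
      rw [map_mul, (hπker b).mpr (hW₂K hb), mul_one]
      exact hπH ⟨a, ha⟩
    rw [h1, (show Commute a b from hcomm a ha b hb).mul_pow]
    have h2 : b ^ n₂ = 1 := by
      have := pow_card_eq_one' (x := (⟨b, hb⟩ : W₂))
      exact congrArg Subtype.val this
    rw [h2, mul_one]
  apply le_antisymm
  · intro g hg
    obtain ⟨w, hwX⟩ := hXne
    have hw := hX hwX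
    rw [Subgroup.mem_set_normalizer_iff] at hg
    have hw' := hX ((hg w).mp hwX)
    have h1 : π (g * w * g⁻¹) = π w := by
      rw [map_mul, map_mul, map_inv, hS₁ (π g) (π w), mul_inv_cancel_right]
    have h2 : g * w ^ n₂ * g⁻¹ = w ^ n₂ := by
      rw [← conj_pow, hpow _ hw'.1, h1, ← hpow _ hw.1]
    have h3 : w ^ n₂ ∈ W₁ := by
      rw [hpow _ hw.1]
      exact W₁.pow_mem (π w).2 _
    have h4 : w ^ n₂ ≠ 1 := by
      intro h5
      rw [hpow _ hw.1] at h5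
      have h6 : orderOf ((π w : W₁) : L) ∣ n₂ := orderOf_dvd_of_pow_eq_one h5
      have h7 : orderOf ((π w : W₁) : L) ∣ Nat.card W₁ := by
        rw [Subgroup.orderOf_coe]
        exact orderOf_dvd_natCard _
      have h8 : orderOf ((π w : W₁) : L) = 1 := Nat.eq_one_of_dvd_coprimes hcop₂ h7 h6
      rw [orderOf_eq_one_iff] at h8
      have h9 : π w = 1 := Subtype.ext h8
      obtain ⟨a, ha, b, hb, hab⟩ := hdec w hw.1
      have h10 : π w = ⟨a, ha⟩ := by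
        rw [hab, map_mul, (hπker b).mpr (hW₂K hb), mul_one]
        exact hπH ⟨a, ha⟩
      rw [h9] at h10
      have h11 : a = 1 := (congrArg Subtype.val h10).symm
      apply hw.2
      right
      rw [hab, h11, one_mul]
      exact hb
    have h5 : g * ((π g : W₁) : L)⁻¹ ∈ K := by
      rw [← hπker, map_mul, map_inv, hπH, mul_inv_cancel]
    have h6 : g * ((π g : W₁) : L)⁻¹ ∈ Subgroup.centralizer ({w ^ n₂} : Set L) := by
      rw [Subgroup.mem_centralizer_singleton_iff]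
      have h7 : ((π g : W₁) : L)⁻¹ * w ^ n₂ = w ^ n₂ * ((π g : W₁) : L)⁻¹ := by
        have := hS₁ (π g)⁻¹ ⟨w ^ n₂, h3⟩
        exact congrArg Subtype.val this
      have h8 : g * w ^ n₂ = w ^ n₂ * g := by
        exact mul_inv_eq_iff_eq_mul.mp h2
      rw [mul_assoc, h7, ← mul_assoc, h8, mul_assoc]
    have h7 : g * ((π g : W₁) : L)⁻¹ ∈ W₂ := by
      rw [← hC _ h3 h4]
      exact ⟨h5, h6⟩
    have h8 : g = g * ((π g : W₁) : L)⁻¹ * ((π g : W₁) : L) := by group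
    rw [h8]
    exact (W₁ ⊔ W₂).mul_mem (Subgroup.mem_sup_right h7) (Subgroup.mem_sup_left (π g).2)
  · intro g hg
    rw [Subgroup.mem_set_normalizer_iff]
    intro h
    constructor
    · intro hh
      have h1 := congrArg Subtype.val (hWc ⟨g, hg⟩ ⟨h, (hX hh).1⟩)
      simp only [Subgroup.coe_mul] at h1
      rw [h1, mul_inv_cancel_right]
      exact hh
    · intro hh
      have h1 := congrArg Subtype.val (hWc ⟨g⁻¹, (W₁ ⊔ W₂).inv_mem hg⟩ ⟨g * h * g⁻¹, (hX hh).1⟩)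
      simp only [Subgroup.coe_mul] at h1
      have h2 : g * h * g⁻¹ = h := by
        have : g⁻¹ * (g * h * g⁻¹) = h * g⁻¹ := by group
        rw [this] at h1
        have h3 : g * h * g⁻¹ * g⁻¹ = (g * h * g⁻¹) * g⁻¹ := rfl
        exact (mul_right_cancel h1).symm
      rw [h2] at hh
      exact hh

end Cfsg.Agent.S1510
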