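import Cfsg.Statements.S1513
import Cfsg.Agent.Lib.Lead.GlaubN
import Cfsg.Agent.Lib.Helper13.Clifford2

set_option autoImplicit false
open Cfsg

namespace Cfsg.Agent.S1513

open Cfsg.Agent.Lib.Lead.Glaub Cfsg.Agent.Lib.Helper2 Cfsg.Agent.Lib.Helper6 Cfsg.Agent.Lib.Helper13 in
/-- Let L be a finite group with K normal with complement W₁ ≠ 1 a cyclic Hall subgroup, and W₂ ≠ 1 a cyclic subgroup of K equal to C_K(x) for every non-identity x ∈ W₁, with W₁W₂ of odd order. For an irreducible character θ of K: if θ is not fixed under conjugation by some element of W₁, then the function induced from θ to L is an irreducible character of L; and the irreducible characters of K fixed by all of W₁ are exactly Nat.card W₂ in number, each inducing to the sum of Nat.card W₁ pairwise distinct irreducible characters of L. -/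
theorem result {L : Type*} [Group L] [Fintype L] (K W₁ W₂ : Subgroup L) [hK : K.Normal] (hKW₁ : K ⊓ W₁ = ⊥) (hKW₁' : K ⊔ W₁ = ⊤) (hW₁ : W₁ ≠ ⊥) (hW₁c : IsCyclic W₁) (hHall : Nat.Coprime (Nat.card W₁) W₁.index) (hW₂ : W₂ ≠ ⊥) (hW₂c : IsCyclic W₂) (hW₂K : W₂ ≤ K) (hC : ∀ x ∈ W₁, x ≠ 1 → K ⊓ Subgroup.centralizer ({x} : Set L) = W₂) (hodd : Odd (Nat.card ↥(W₁ ⊔ W₂))) : (∀ θ : K → ℂ, Cfsg.IsIrrCharacter K θ → (∃ x ∈ W₁, (fun k : K => θ ⟨x * k * x⁻¹, hK.conj_mem (k : L) k.2 x⟩) ≠ θ) → Cfsg.IsIrrCharacter L (Cfsg.indFun K θ)) ∧ Nat.card {θ : Cfsg.IrrCharacter K // ∀ x ∈ W₁, (fun k : K => (θ : K → ℂ) ⟨x * k * x⁻¹, hK.conj_mem (k : L) k.2 x⟩) = θ} = Nat.card W₂ ∧ (∀ θ : K → ℂ, Cfsg.IsIrrCharacter K θ → (∀ x ∈ W₁, (fun k : K => θ ⟨x * k * x⁻¹, hK.conj_mem (k : L) k.2 x⟩) = θ) → ∃ C : Finset (L → ℂ), C.card = Nat.card W₁ ∧ (∀ μ ∈ C, Cfsg.IsIrrCharacter L μ) ∧ Cfsg.indFun K θ = ∑ μ ∈ C, μ) := by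
  classical
  obtain ⟨π, hπH, hπker⟩ := exists_retract K W₁ hKW₁' hKW₁
  have hidx : K.index = Nat.card W₁ := index_eq_card_of_retract K W₁.subtype π hπH hπker
  have hidx' : W₁.index = Nat.card K := by
    have h1 := K.card_mul_index
    have h2 := W₁.card_mul_index
    rw [hidx] at h1
    rw [← h1, mul_comm] at h2
    exact Nat.eq_of_mul_eq_mul_right Nat.card_pos h2
  have hcop : (Nat.card K).Coprime (Nat.card W₁) := by
    rw [← hidx']
    exact hHall.symm
  have hcomm₁ : ∀ a b : W₁, a * b = b * a := fun a b => by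
    letI := IsCyclic.commGroup (α := W₁)
    exact mul_comm a b
  have hcomm₂ : ∀ a b : W₂, a * b = b * a := fun a b => by
    letI := IsCyclic.commGroup (α := W₂)
    exact mul_comm a b
  have hcent : ∀ S : Subgroup L, S ≤ W₁ → S ≠ ⊥ →
      W₂ = K ⊓ Subgroup.centralizer (S : Set L) := by
    intro S hS hS1
    apply le_antisymm
    · intro w hw
      refine ⟨hW₂K hw, ?_⟩
      change w ∈ Subgroup.centralizer (S : Set L)
      rw [Subgroup.mem_centralizer_iff]
      intro s hs
      by_cases hs1 : s = 1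
      · rw [hs1, one_mul, mul_one]
      · have h1 : w ∈ K ⊓ Subgroup.centralizer ({s} : Set L) := by
          rw [hC s (hS hs) hs1]
          exact hw
        exact Subgroup.mem_centralizer_iff.mp h1.2 s rfl
    · obtain ⟨x, hx, hx1⟩ : ∃ x : L, x ∈ S ∧ x ≠ 1 := by
        by_contra hcon
        push Not at hcon
        exact hS1 ((Subgroup.eq_bot_iff_forall S).mpr hcon)
      rw [← hC x (hS hx) hx1]
      apply inf_le_inf_left
      apply Subgroup.centralizer_le
      intro y hy
      rw [Set.mem_singleton_iff.mp hy]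
      exact hx
  have hnorm : ∀ S : Subgroup L, ∀ s ∈ S, ∀ g ∈ K, s * g * s⁻¹ ∈ K :=
    fun _ s _ g hg => hK.conj_mem g hg s
  have hcl : Nat.card (ConjClasses W₂) = Nat.card W₂ := by
    symm
    apply Nat.card_eq_of_bijective (ConjClasses.mk)
    refine ⟨?_, ConjClasses.mk_surjective⟩
    intro a b h
    obtain ⟨c, hc⟩ := isConj_iff.mp (ConjClasses.mk_eq_mk_iff_isConj.mp h)
    rw [hcomm₂ c a, mul_inv_cancel_right] at hc
    exact hc
  have hcount : ∀ S : Subgroup L, S ≤ W₁ → S ≠ ⊥ →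
      Nat.card {χ : IrrCharacter K // Inv (conjOn K S (hnorm S)) (χ : K → ℂ)} = Nat.card W₂ := by
    intro S hS hS1
    rw [← hcl]
    apply card_inv_sub K S W₂ (hnorm S)
    · exact Nat.Coprime.coprime_dvd_right (Subgroup.card_dvd_of_le hS) hcop
    · apply Group.isSolvable_of_comm
      intro a b
      have := hcomm₁ ⟨a, hS a.2⟩ ⟨b, hS b.2⟩
      exact Subtype.ext (congrArg (fun t : W₁ => (t : L)) this)
    · exact hcent S hS hS1
  have hinv : ∀ θ : K → ℂ, (Inv (conjOn K W₁ (hnorm W₁)) θ ↔ ∀ x ∈ W₁,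
      (fun k : K => θ ⟨x * k * x⁻¹, hK.conj_mem (k : L) k.2 x⟩) = θ) := by
    intro θ
    constructor
    · intro h x hx
      funext k
      exact h ⟨x, hx⟩ k
    · intro h s k
      exact congrFun (h s s.2) k
  refine ⟨?_, ?_, ?_⟩
  · rintro θ hθ ⟨x, hx, hxθ⟩
    apply isIrrCharacter_of_classInner_eq_one (IsCharacter.indFun K (IsIrrCharacter.isCharacter hθ))
    have hT : ∀ g, g ∈ K ↔ Cfsg.Agent.Lib.Helper2.conjFun K g θ = θ := by
      intro g
      constructor
      · intro hg
        exact conjFun_of_mem K (irr_isClassFunction hθ) hg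
      · intro hg
        have hk : g * ((π g : W₁) : L)⁻¹ ∈ K := by
          rw [← hπker, map_mul, map_inv, hπH, mul_inv_cancel]
        by_cases hw1 : ((π g : W₁) : L) = 1
        · rw [hw1, inv_one, mul_one] at hk
          exact hk
        exfalso
        set w : L := ((π g : W₁) : L) with hw
        have hwθ : Cfsg.Agent.Lib.Helper2.conjFun K w θ = θ := by
          have h1 : w = (g * w⁻¹)⁻¹ * g := by group
          rw [h1, conjFun_mul, hg]
          exact conjFun_of_mem K (irr_isClassFunction hθ) (K.inv_mem hk)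
        have hS : Subgroup.zpowers w ≤ W₁ := by
          rw [Subgroup.zpowers_le]
          exact (π g).2
        have hS1 : Subgroup.zpowers w ≠ ⊥ := by
          intro h
          exact hw1 (Subgroup.zpowers_eq_bot.mp h)
        have hθS : Inv (conjOn K (Subgroup.zpowers w) (hnorm _)) θ := by
          intro s k
          obtain ⟨n, hn⟩ := mem_powers_iff_mem_zpowers.mpr ((Subgroup.zpowers w).inv_mem s.2)
          have h2 := congrFun (conjFun_pow_of_fixed K hwθ n) k
          rw [← h2]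
          refine congrArg θ (Subtype.ext ?_)
          simp only [conjOn_apply]
          change _ = (w ^ n)⁻¹ * (k : L) * w ^ n
          have hn' : w ^ n = (s : L)⁻¹ := hn
          rw [hn', inv_inv]
        have c1 := hcount _ hS hS1
        have c2 := hcount W₁ le_rfl hW₁
        haveI : Finite {χ : IrrCharacter K // Inv (conjOn K (Subgroup.zpowers w) (hnorm _)) (χ : K → ℂ)} := by
          apply Nat.finite_of_card_ne_zero
          rw [c1]
          exact Nat.card_pos.ne'
        let ι : {χ : IrrCharacter K // Inv (conjOn K W₁ (hnorm W₁)) (χ : K → ℂ)} →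
            {χ : IrrCharacter K // Inv (conjOn K (Subgroup.zpowers w) (hnorm _)) (χ : K → ℂ)} :=
          fun χ => ⟨χ.1, fun s k => χ.2 ⟨s, hS s.2⟩ k⟩
        have hι : Function.Injective ι := by
          intro a b h
          exact Subtype.ext (congrArg (fun t => t.1) h)
        have hb := hι.bijective_of_nat_card_le (by rw [c1, c2])
        obtain ⟨χ, hχ⟩ := hb.2 ⟨⟨θ, hθ⟩, hθS⟩
        have h3 : (χ.1 : K → ℂ) = θ := congrArg (fun t => (t.1 : K → ℂ)) hχ
        have h4 := χ.2
        rw [h3] at h4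
        exact hxθ ((hinv θ).mp h4 x hx)
    rw [norm_indFun K hθ K hT]
    exact div_self (Nat.cast_ne_zero.mpr Nat.card_pos.ne')
  · rw [← hcount W₁ le_rfl hW₁]
    apply Nat.card_congr
    apply Equiv.subtypeEquivRight
    intro θ
    exact (hinv θ).symm
  · intro θ hθ hθinv
    have hG : GInv K θ := by
      intro g n
      have hk : g * ((π g : W₁) : L)⁻¹ ∈ K := by
        rw [← hπker, map_mul, map_inv, hπH, mul_inv_cancel]
      have h1 := irr_isClassFunction hθ (conjOn K W₁ (hnorm W₁) (π g) n) ⟨_, hk⟩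
      rw [(hinv θ).mpr hθinv (π g) n] at h1
      rw [← h1]
      refine congrArg θ (Subtype.ext ?_)
      simp only [Subgroup.coe_mul, conjOn_apply, Subgroup.coe_inv]
      group
    obtain ⟨χ, hχ, hχθ⟩ := exists_ext K (hidx ▸ hcop) ⟨θ, hθ⟩ hG
    have hθ' : (fun k : K => χ k) = θ := funext hχθ
    haveI := finite_hom hcomm₁
    haveI := Fintype.ofFinite (W₁ →* ℂˣ)
    have hinj : Function.Injective
        (fun f : W₁ →* ℂˣ => (fun γ : L => ((f (π γ) : ℂˣ) : ℂ) * χ γ)) := by
      intro f f' h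
      exact gal_inj K W₁.subtype π hπH hπker hχ (hθ'.symm ▸ hθ) h
    refine ⟨Finset.univ.image (fun f : W₁ →* ℂˣ => (fun γ : L => ((f (π γ) : ℂˣ) : ℂ) * χ γ)),
      ?_, ?_, ?_⟩
    · rw [Finset.card_image_of_injective _ hinj, Finset.card_univ, ← Nat.card_eq_fintype_card,
        card_hom hcomm₁]
    · intro μ hμ
      obtain ⟨f, -, rfl⟩ := Finset.mem_image.mp hμ
      exact gal_irr K π hπker hχ (hθ'.symm ▸ hθ) f
    · rw [Finset.sum_image (fun a _ b _ h => hinj h), ← hθ']
      exact ind_eq_sum K W₁.subtype π hπH hπker hcomm₁ hχ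

end Cfsg.Agent.S1513
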