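import Cfsg.Statements.S1511
import Cfsg.Agent.Lib.Lead.GlaubS
import Cfsg.Agent.S1513

set_option autoImplicit false
open Cfsg

namespace Cfsg.Agent.S1511

open Cfsg.Agent.Lib.Lead.Glaub Cfsg.Agent.Lib.Helper2 Cfsg.Agent.Lib.Helper6 Cfsg.Agent.Lib.Helper24 in
/-- Let L be a finite group with K normal with complement W₁ ≠ 1 a cyclic Hall subgroup, and W₂ ≠ 1 a cyclic subgroup of K equal to C_K(x) for every non-identity x ∈ W₁, with W₁W₂ of odd order. Then there are a map μ from the linear characters of W = W₁ ⊔ W₂ to irreducible characters of L, injective, and a sign δ(ω) ∈ {1, −1} depending only on the values of ω on W₂, such that: for ω, ω' agreeing on W₂, the function induced to L from ω − ω' equals δ(ω) • (μ ω − μ ω'); μ ω x = δ(ω) ω x for x ∈ W outside W₂; every irreducible character of L not of the form μ ω vanishes on W outside W₂; and μ ω 1 − δ(ω) is an integer multiple of Nat.card W₁.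 -/
theorem result {L : Type*} [Group L] [Fintype L] (K W₁ W₂ : Subgroup L) [hK : K.Normal] (hKW₁ : K ⊓ W₁ = ⊥) (hKW₁' : K ⊔ W₁ = ⊤) (hW₁ : W₁ ≠ ⊥) (hW₁c : IsCyclic W₁) (hHall : Nat.Coprime (Nat.card W₁) W₁.index) (hW₂ : W₂ ≠ ⊥) (hW₂c : IsCyclic W₂) (hW₂K : W₂ ≤ K) (hC : ∀ x ∈ W₁, x ≠ 1 → K ⊓ Subgroup.centralizer ({x} : Set L) = W₂) (hodd : Odd (Nat.card ↥(W₁ ⊔ W₂))) : ∃ (μ : (↥(W₁ ⊔ W₂) →* ℂˣ) → (L → ℂ)) (δ : (↥(W₁ ⊔ W₂) →* ℂˣ) → ℂ), Function.Injective μ ∧ (∀ ω, Cfsg.IsIrrCharacter L (μ ω)) ∧ (∀ ω, δ ω = 1 ∨ δ ω = -1) ∧ (∀ ω ω' : ↥(W₁ ⊔ W₂) →* ℂˣ, (∀ w : ↥(W₁ ⊔ W₂), (w : L) ∈ W₂ → ω w = ω' w) → δ ω = δ ω' ∧ Cfsg.indFun (W₁ ⊔ W₂) (fun w => (ω w : ℂ) - (ω' w : ℂ)) = δ ω • (μ ω - μ ω')) ∧ (∀ ω, ∀ w : ↥(W₁ ⊔ W₂), (w : L) ∉ W₂ → μ ω w = δ ω * (ω w : ℂ)) ∧ (∀ θ : L → ℂ, Cfsg.IsIrrCharacter L θ → (∀ ω, θ ≠ μ ω) → ∀ w : ↥(W₁ ⊔ W₂), (w : L) ∉ W₂ → θ w = 0) ∧ (∀ ω, ∃ n : ℤ, μ ω 1 - δ ω = n * (Nat.card W₁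 : ℂ)) := by
  classical
  have hnorm : ∀ s ∈ W₁, ∀ g ∈ K, s * g * s⁻¹ ∈ K := fun s _ g hg => hK.conj_mem g hg s
  have hoddW₁ : Odd (Nat.card W₁) := Odd.of_dvd_nat hodd (Subgroup.card_dvd_of_le le_sup_left)
  obtain ⟨X, e, hX, hXK, he, hval, hdeg, hsurj⟩ :=
    typeP_data K W₁ W₂ hKW₁ hKW₁' hW₁ hW₁c hHall hW₂c hW₂K hC hoddW₁
  obtain ⟨π, hπH, hπker⟩ := exists_retract K W₁ hKW₁' hKW₁
  have hCC := typeP_cent K W₁ W₂ hW₂K hC W₁ le_rfl hW₁
  have hS₁ := comm_of_cyclic W₁ hW₁c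
  have hS₂ := comm_of_cyclic W₂ hW₂c
  haveI := Fintype.ofFinite ↥(W₁ ⊔ W₂)
  have hcomm : ∀ x ∈ W₁, ∀ c ∈ W₂, x * c = c * x := by
    intro x hx c hc
    have h1 : c ∈ K ⊓ Subgroup.centralizer (W₁ : Set L) := hCC ▸ hc
    exact Subgroup.mem_centralizer_iff.mp h1.2 x hx
  have hdec : ∀ w ∈ W₁ ⊔ W₂, ∃ c ∈ W₂, ∃ x ∈ W₁, w = c * x := by
    intro w hw
    rw [sup_comm] at hw
    refine (Cfsg.Agent.Lib.Helper1.mem_sup_of_le_normalizer ?_).mp hw
    intro x hx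
    rw [Subgroup.mem_normalizer_iff]
    intro h
    constructor
    · intro hh
      rw [hcomm x hx h hh, mul_inv_cancel_right]
      exact hh
    · intro hh
      have h1 := hcomm x⁻¹ (W₁.inv_mem hx) _ hh
      have h2 : h = x⁻¹ * (x * h * x⁻¹) * x := by group
      rw [h2, h1, inv_mul_cancel_right]
      exact hh
  have hπc : ∀ c ∈ W₂, ∀ x : W₁, π (c * x) = x := by
    intro c hc x
    rw [map_mul, (hπker c).mpr (hW₂K hc), one_mul, hπH]
  obtain ⟨x₀, hx₀⟩ : ∃ x : W₁, x ≠ 1 := by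
    by_contra hcon
    push Not at hcon
    apply hW₁
    rw [Subgroup.eq_bot_iff_forall]
    intro x hx
    exact congrArg Subtype.val (hcon ⟨x, hx⟩)
  have hε0 : ∀ ε : ℤ, (ε = 1 ∨ ε = -1) → (ε : ℂ) ≠ 0 := by
    rintro ε (rfl | rfl) <;> simp
  -- restriction maps
  let bb : (↥(W₁ ⊔ W₂) →* ℂˣ) → (W₂ →* ℂˣ) := fun ω => ω.comp (Subgroup.inclusion le_sup_right)
  let ll : (↥(W₁ ⊔ W₂) →* ℂˣ) → (W₁ →* ℂˣ) := fun ω => ω.comp (Subgroup.inclusion le_sup_left)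
  let bet : (↥(W₁ ⊔ W₂) →* ℂˣ) → IrrCharacter W₂ :=
    fun ω => ⟨fun c => ((bb ω c : ℂˣ) : ℂ), isIrrCharacter_of_hom (bb ω)⟩
  have hωdec : ∀ (ω : ↥(W₁ ⊔ W₂) →* ℂˣ) (w : ↥(W₁ ⊔ W₂)) (c : W₂) (x : W₁), (w : L) = c * x →
      ω w = bb ω c * ll ω x := by
    intro ω w c x h
    have : w = Subgroup.inclusion le_sup_right c * Subgroup.inclusion le_sup_left x :=
      Subtype.ext h
    rw [this, map_mul]
    rfl
  have hωext : ∀ ω ω' : ↥(W₁ ⊔ W₂) →* ℂˣ, bb ω = bb ω' → ll ω = ll ω' → ω = ω' := by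
    intro ω ω' h1 h2
    ext w
    obtain ⟨c, hc, x, hx, hw⟩ := hdec w w.2
    rw [hωdec ω w ⟨c, hc⟩ ⟨x, hx⟩ hw, hωdec ω' w ⟨c, hc⟩ ⟨x, hx⟩ hw, h1, h2]
  let μ : (↥(W₁ ⊔ W₂) →* ℂˣ) → (L → ℂ) := fun ω γ => ((ll ω (π γ) : ℂˣ) : ℂ) * X (bet ω) γ
  let δ : (↥(W₁ ⊔ W₂) →* ℂˣ) → ℂ := fun ω => (e (bet ω) : ℂ)
  have hμirr : ∀ ω, IsIrrCharacter L (μ ω) := fun ω =>
    gal_irr K π hπker (hX (bet ω)) (hXK (bet ω)) (ll ω)
  have hμval : ∀ ω, ∀ w : ↥(W₁ ⊔ W₂), (w : L) ∉ W₂ → μ ω w = δ ω * (ω w : ℂ) := by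
    intro ω w hw
    obtain ⟨c, hc, x, hx, hwe⟩ := hdec w w.2
    have hx1 : (⟨x, hx⟩ : W₁) ≠ 1 := by
      intro h
      apply hw
      have : x = 1 := congrArg Subtype.val h
      rw [hwe, this, mul_one]
      exact hc
    change ((ll ω (π (w : L)) : ℂˣ) : ℂ) * X (bet ω) (w : L) = _
    rw [hwe, hπc c hc ⟨x, hx⟩, hval (bet ω) ⟨c, hc⟩ ⟨x, hx⟩ hx1, hωdec ω w ⟨c, hc⟩ ⟨x, hx⟩ hwe]
    change _ * (_ * ((bb ω ⟨c, hc⟩ : ℂˣ) : ℂ)) = (e (bet ω) : ℂ) * _
    rw [Units.val_mul]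
    ring
  have hμinj : Function.Injective μ := by
    intro ω ω' h
    have hb : bet ω = bet ω' := by
      by_contra hne'
      have hv : ∀ c : W₂, (((ll ω x₀ : ℂˣ) : ℂ) * (e (bet ω) : ℂ)) * (bet ω : W₂ → ℂ) c =
          (((ll ω' x₀ : ℂˣ) : ℂ) * (e (bet ω') : ℂ)) * (bet ω' : W₂ → ℂ) c := by
        intro c
        have h1 := congrFun h ((c : L) * x₀)
        change ((ll ω (π ((c : L) * x₀)) : ℂˣ) : ℂ) * X (bet ω) ((c : L) * x₀) =
          ((ll ω' (π ((c : L) * x₀)) : ℂˣ) : ℂ) * X (bet ω') ((c : L) * x₀) at h1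
        rw [hπc c c.2 x₀, hval _ c x₀ hx₀, hval _ c x₀ hx₀] at h1
        rw [mul_assoc, mul_assoc]
        exact h1
      have e1 : (((ll ω x₀ : ℂˣ) : ℂ) * (e (bet ω) : ℂ)) • (bet ω : W₂ → ℂ) =
          (((ll ω' x₀ : ℂˣ) : ℂ) * (e (bet ω') : ℂ)) • (bet ω' : W₂ → ℂ) := funext hv
      have e2 : classInner ((((ll ω x₀ : ℂˣ) : ℂ) * (e (bet ω) : ℂ)) • (bet ω : W₂ → ℂ))
          (bet ω : W₂ → ℂ) = classInner ((((ll ω' x₀ : ℂˣ) : ℂ) * (e (bet ω') : ℂ)) •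
          (bet ω' : W₂ → ℂ)) (bet ω : W₂ → ℂ) := by rw [e1]
      rw [classInner_smul_left, classInner_smul_left, classInner_irr (bet ω).2 (bet ω).2,
        if_pos rfl, classInner_irr (bet ω').2 (bet ω).2,
        if_neg (fun h => hne' (Subtype.ext h.symm)), mul_one, mul_zero] at e2
      exact mul_ne_zero (Units.ne_zero _) (hε0 _ (he _)) e2
    have hl : ll ω = ll ω' := by
      apply gal_inj K W₁.subtype π hπH hπker (hX (bet ω)) (hXK (bet ω))
      have h' : μ ω = μ ω' := h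
      change μ ω = fun γ => ((ll ω' (π γ) : ℂˣ) : ℂ) * X (bet ω) γ
      rw [h', hb]
    apply hωext ω ω' _ hl
    ext c
    exact congrFun (congrArg (fun t : IrrCharacter W₂ => (t : W₂ → ℂ)) hb) c
  have hnotK : ∀ w : ↥(W₁ ⊔ W₂), (w : L) ∉ W₂ → (w : L) ∉ K := by
    intro w hw hwK
    obtain ⟨c, hc, x, hx, hwe⟩ := hdec w w.2
    apply hw
    have h1 : x ∈ K ⊓ W₁ := by
      refine ⟨?_, hx⟩
      have : x = c⁻¹ * w := by rw [hwe]; group
      rw [this]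
      exact K.mul_mem (K.inv_mem (hW₂K hc)) hwK
    rw [hKW₁, Subgroup.mem_bot] at h1
    rw [hwe, h1, mul_one]
    exact hc
  -- building a linear character of `W` from its two restrictions
  have hbuild : ∀ (b : W₂ →* ℂˣ) (f : W₁ →* ℂˣ), ∃ ω : ↥(W₁ ⊔ W₂) →* ℂˣ, bb ω = b ∧ ll ω = f := by
    intro b f
    have hmem : ∀ w : ↥(W₁ ⊔ W₂), (w : L) * ((π (w : L) : W₁) : L)⁻¹ ∈ W₂ := by
      intro w
      obtain ⟨c, hc, x, hx, hwe⟩ := hdec w w.2
      rw [hwe, hπc c hc ⟨x, hx⟩, mul_inv_cancel_right]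
      exact hc
    let ρ : ↥(W₁ ⊔ W₂) →* W₂ :=
      { toFun := fun w => ⟨_, hmem w⟩
        map_one' := by
          apply Subtype.ext
          simp
        map_mul' := by
          intro w w'
          apply Subtype.ext
          obtain ⟨c, hc, x, hx, hwe⟩ := hdec w w.2
          obtain ⟨c', hc', x', hx', hwe'⟩ := hdec w' w'.2
          simp only [Subgroup.coe_mul, map_mul]
          rw [hwe, hwe', hπc c hc ⟨x, hx⟩, hπc c' hc' ⟨x', hx'⟩]
          simp only [Subgroup.coe_mul]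
          have h1 := hcomm x hx c' hc'
          calc c * x * (c' * x') * (x * x')⁻¹ = c * (x * c') * x⁻¹ := by group
            _ = c * (c' * x) * x⁻¹ := by rw [h1]
            _ = c * x * x⁻¹ * (c' * x' * x'⁻¹) := by group }
    refine ⟨(b.comp ρ) * (f.comp (π.comp (W₁ ⊔ W₂).subtype)), ?_, ?_⟩
    · ext c
      change ((b (ρ (Subgroup.inclusion le_sup_right c)) * f (π (c : L)) : ℂˣ) : ℂ) = _
      have h1 : ρ (Subgroup.inclusion le_sup_right c) = c := by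
        apply Subtype.ext
        change (c : L) * ((π (c : L) : W₁) : L)⁻¹ = c
        rw [(hπker c).mpr (hW₂K c.2)]
        simp
      rw [h1, (hπker c).mpr (hW₂K c.2), map_one, mul_one]
    · ext x
      change ((b (ρ (Subgroup.inclusion le_sup_left x)) * f (π (x : L)) : ℂˣ) : ℂ) = _
      have h1 : ρ (Subgroup.inclusion le_sup_left x) = 1 := by
        apply Subtype.ext
        change (x : L) * ((π (x : L) : W₁) : L)⁻¹ = 1
        rw [hπH]
        simp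
      rw [h1, map_one, one_mul, hπH]
  have hvan : ∀ θ : L → ℂ, Cfsg.IsIrrCharacter L θ → (∀ ω, θ ≠ μ ω) →
      ∀ w : ↥(W₁ ⊔ W₂), (w : L) ∉ W₂ → θ w = 0 := by
    intro θ hθ hne w hw
    obtain ⟨χ', hχ'⟩ := Cfsg.Agent.Lib.Helper6.exists_constituent K hθ
    by_cases hinv : Inv (conjOn K W₁ hnorm) (χ' : K → ℂ)
    · exfalso
      obtain ⟨β, hβ⟩ := hsurj χ' hinv
      obtain ⟨f, hf⟩ := exists_hom_of_over K W₁.subtype π hπH hπker hS₁ (hX β) (hXK β) hθ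
        (by rw [hβ]; exact hχ')
      have hβ1 : (β : W₂ → ℂ) 1 = 1 := Cfsg.Agent.Lib.Helper25.Gagola.degree_one_of_comm hS₂ β.2
      obtain ⟨b, hb⟩ := exists_hom_of_degree_one (IsIrrCharacter.isCharacter β.2) hβ1
      obtain ⟨ω, hω1, hω2⟩ := hbuild b f
      apply hne ω
      have hbet : bet ω = β := by
        apply Subtype.ext
        change (fun c => ((bb ω c : ℂˣ) : ℂ)) = _
        rw [hω1, hb]
      rw [hf]
      change _ = fun γ => ((ll ω (π γ) : ℂˣ) : ℂ) * X (bet ω) γ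
      rw [hω2, hbet]
    · have hmoved : ∃ x ∈ W₁, (fun k : K => (χ' : K → ℂ) ⟨x * k * x⁻¹, hK.conj_mem (k : L) k.2 x⟩) ≠
          (χ' : K → ℂ) := by
        unfold Cfsg.Agent.Lib.Lead.Glaub.Inv at hinv
        push Not at hinv
        obtain ⟨s, g, hsg⟩ := hinv
        exact ⟨s, s.2, fun h => hsg (congrFun h g)⟩
      have hind := (Cfsg.Agent.S1513.result K W₁ W₂ hKW₁ hKW₁' hW₁ hW₁c hHall hW₂ hW₂c hW₂K hC
        hodd).1 χ' χ'.2 hmoved
      have h1 : classInner (indFun K (χ' : K → ℂ)) θ ≠ 0 := by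
        rw [frobenius_reciprocity K _ _ (irr_isClassFunction hθ), ← classInner_conj_symm]
        exact (map_ne_zero _).mpr hχ'
      rw [classInner_irr hind hθ] at h1
      have h2 : indFun K (χ' : K → ℂ) = θ := by
        by_contra hcon
        rw [if_neg hcon] at h1
        exact h1 rfl
      rw [← h2]
      exact indFun_of_not_mem_normal K _ (hnotK w hw)
  refine ⟨μ, δ, hμinj, hμirr, ?_, ?_, hμval, hvan, ?_⟩
  · intro ω
    rcases he (bet ω) with h | h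
    · left
      change (e (bet ω) : ℂ) = 1
      rw [h]
      simp
    · right
      change (e (bet ω) : ℂ) = -1
      rw [h]
      simp
  · intro ω ω' hag
    have hb : bet ω = bet ω' := by
      apply Subtype.ext
      funext c
      change ((ω (Subgroup.inclusion le_sup_right c) : ℂˣ) : ℂ) =
        ((ω' (Subgroup.inclusion le_sup_right c) : ℂˣ) : ℂ)
      rw [hag _ c.2]
    have hδ : δ ω = δ ω' := by
      change (e (bet ω) : ℂ) = (e (bet ω') : ℂ)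
      rw [hb]
    refine ⟨hδ, ?_⟩
    rw [← sub_eq_zero]
    apply eq_zero_of_classInner_irr_eq_zero
    · intro g h
      simp only [Pi.sub_apply, Pi.smul_apply, smul_eq_mul]
      rw [indFun_isClassFunction (W₁ ⊔ W₂) _ g h, irr_isClassFunction (hμirr ω) g h,
        irr_isClassFunction (hμirr ω') g h]
    · intro θ hθ
      rw [classInner_sub_left, classInner_smul_left, classInner_sub_left,
        frobenius_reciprocity (W₁ ⊔ W₂) _ _ (irr_isClassFunction hθ),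
        classInner_irr (hμirr ω) hθ, classInner_irr (hμirr ω') hθ]
      have hφ0 : ∀ w : ↥(W₁ ⊔ W₂), (w : L) ∈ W₂ → ((ω w : ℂˣ) : ℂ) - ((ω' w : ℂˣ) : ℂ) = 0 := by
        intro w hw
        rw [hag w hw, sub_self]
      by_cases hex : ∃ ω'', θ = μ ω''
      · obtain ⟨ω'', rfl⟩ := hex
        have h1 : classInner (fun w : ↥(W₁ ⊔ W₂) => ((ω w : ℂˣ) : ℂ) - ((ω' w : ℂˣ) : ℂ))
            (fun w : ↥(W₁ ⊔ W₂) => μ ω'' w) =
            classInner ((fun w : ↥(W₁ ⊔ W₂) => ((ω w : ℂˣ) : ℂ)) -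
              (fun w : ↥(W₁ ⊔ W₂) => ((ω' w : ℂˣ) : ℂ)))
            (δ ω'' • (fun w : ↥(W₁ ⊔ W₂) => ((ω'' w : ℂˣ) : ℂ))) := by
          unfold classInner
          congr 1
          refine Finset.sum_congr rfl fun w _ => ?_
          by_cases hw : (w : L) ∈ W₂
          · simp only [Pi.sub_apply]
            rw [hφ0 w hw, zero_mul, zero_mul]
          · beta_reduce
            rw [hμval ω'' w hw]
            rfl
        have hconj : (starRingEnd ℂ) (δ ω'') = δ ω'' := map_intCast (starRingEnd ℂ) _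
        rw [h1, classInner_smul_right, classInner_sub_left,
          classInner_irr (isIrrCharacter_of_hom ω) (isIrrCharacter_of_hom ω''),
          classInner_irr (isIrrCharacter_of_hom ω') (isIrrCharacter_of_hom ω''), hconj]
        have hfun : ∀ a b : ↥(W₁ ⊔ W₂) →* ℂˣ,
            ((fun w : ↥(W₁ ⊔ W₂) => ((a w : ℂˣ) : ℂ)) = (fun w => ((b w : ℂˣ) : ℂ))) ↔ a = b := by
          intro a b
          constructor
          · intro h
            ext w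
            exact congrFun h w
          · rintro rfl
            rfl
        simp only [hfun, hμinj.eq_iff]
        by_cases h2 : ω = ω''
        · subst h2
          simp
        · by_cases h3 : ω' = ω''
          · subst h3
            rw [hδ]
            simp
          · simp [h2, h3]
      · push Not at hex
        have h1 : classInner (fun w : ↥(W₁ ⊔ W₂) => ((ω w : ℂˣ) : ℂ) - ((ω' w : ℂˣ) : ℂ))
            (fun w : ↥(W₁ ⊔ W₂) => θ w) = 0 := by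
          unfold classInner
          rw [Finset.sum_eq_zero, mul_zero]
          intro w _
          beta_reduce
          by_cases hw : (w : L) ∈ W₂
          · rw [hφ0 w hw, zero_mul]
          · rw [hvan θ hθ hex w hw, map_zero, mul_zero]
        rw [h1, if_neg (fun h => hex ω h.symm), if_neg (fun h => hex ω' h.symm)]
        simp
  · intro ω
    obtain ⟨n, hn⟩ := hdeg (bet ω)
    refine ⟨n, ?_⟩
    change ((ll ω (π 1) : ℂˣ) : ℂ) * X (bet ω) 1 - (e (bet ω) : ℂ) = _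
    rw [map_one, map_one, Units.val_one, one_mul]
    exact hn

end Cfsg.Agent.S1511
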