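import Cfsg.Statements.S1512
import Mathlib
import Cfsg.Agent.Lib.Helper10.ClassFix

set_option autoImplicit false
open Cfsg

namespace Cfsg.Agent.S1512

/-- Let K be a normal subgroup of the finite group L and x a non-identity element whose order is coprime to the order of K, such that K ⊓ C_L(y) = W₂ for every non-identity element y of the cyclic group generated by x. Then the number of conjugacy classes of K mapped to themselves by conjugation by x is at most Nat.card W₂. -/
theorem result {L : Type*} [Group L] [Finite L] (K W₂ : Subgroup L) [hK : K.Normal] (x : L) (hx1 : x ≠ 1) (hx : Nat.Coprime (orderOf x) (Nat.card K)) (hC : ∀ y ∈ Subgroup.zpowers x, y ≠ 1 → K ⊓ Subgroup.centralizer ({y} : Set L) = W₂) : Nat.card {C : ConjClasses K // ConjClasses.map (MulEquiv.toMonoidHom ((MulAut.conjNormal x : MulAut K))) C = C} ≤ Nat.card W₂ := by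
  classical
  have hox : orderOf x ≠ 1 := by rwa [Ne, orderOf_eq_one_iff]
  have hox0 : orderOf x ≠ 0 := (orderOf_pos x).ne'
  set p := (orderOf x).minFac with hpdef
  have hpp : p.Prime := Nat.minFac_prime hox
  have : Fact p.Prime := ⟨hpp⟩
  have hpdvd : p ∣ orderOf x := Nat.minFac_dvd _
  set y := x ^ (orderOf x / p) with hydef
  have hoy : orderOf y = p := orderOf_pow_orderOf_div hox0 hpdvd
  have hy1 : y ≠ 1 := by
    intro h
    rw [h, orderOf_one] at hoy
    exact hpp.one_lt.ne hoy
  have hymem : y ∈ Subgroup.zpowers x := Subgroup.pow_mem _ (Subgroup.mem_zpowers x) _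
  have hW := hC y hymem hy1
  have hpK : ¬ p ∣ Nat.card K := by
    intro h
    have := Nat.dvd_gcd hpdvd h
    rw [hx] at this
    exact hpp.one_lt.ne' (Nat.dvd_one.mp this)
  have hφp : (MulAut.conjNormal y : MulAut K) ^ p = 1 := by
    rw [← map_pow, ← hoy, pow_orderOf_eq_one, map_one]
  have hfix : ∀ C : ConjClasses K,
      ConjClasses.map (MulEquiv.toMonoidHom ((MulAut.conjNormal x : MulAut K))) C = C →
      ConjClasses.map (MulEquiv.toMonoidHom ((MulAut.conjNormal y : MulAut K))) C = C := by
    intro C hCx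
    have : ∀ m : ℕ, ConjClasses.map (MulEquiv.toMonoidHom ((MulAut.conjNormal (x ^ m) : MulAut K))) C = C := by
      intro m
      induction m with
      | zero =>
        obtain ⟨k, rfl⟩ := ConjClasses.exists_rep C
        rw [pow_zero, map_one]
        rfl
      | succ m ih =>
        have e : ConjClasses.map (MulEquiv.toMonoidHom ((MulAut.conjNormal (x ^ (m + 1)) : MulAut K))) C
            = ConjClasses.map (MulEquiv.toMonoidHom ((MulAut.conjNormal x : MulAut K)))
              (ConjClasses.map (MulEquiv.toMonoidHom ((MulAut.conjNormal (x ^ m) : MulAut K))) C) := by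
          obtain ⟨k, rfl⟩ := ConjClasses.exists_rep C
          rw [pow_succ', map_mul]
          rfl
        rw [e, ih, hCx]
    exact this _
  have hex : ∀ C : {C : ConjClasses K // ConjClasses.map (MulEquiv.toMonoidHom ((MulAut.conjNormal x : MulAut K))) C = C},
      ∃ w : W₂, ∃ hk : (w : L) ∈ K, ConjClasses.mk (⟨(w : L), hk⟩ : K) = C.1 := by
    rintro ⟨C, hCx⟩
    obtain ⟨k, hk, hky⟩ := Cfsg.Agent.Lib.Helper10.exists_fixed_in_class _ p hφp hpK C (hfix C hCx)
    have h1 : (k : L) ∈ K ⊓ Subgroup.centralizer ({y} : Set L) := by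
      refine Subgroup.mem_inf.mpr ⟨k.2, ?_⟩
      rw [Subgroup.mem_centralizer_singleton_iff]
      have h2 := congrArg Subtype.val hky
      rw [MulAut.conjNormal_apply] at h2
      calc (k : L) * y = (y * k * y⁻¹) * y := by rw [h2]
        _ = y * k := by group
    rw [hW] at h1
    exact ⟨⟨k, h1⟩, k.2, ConjClasses.mem_carrier_iff_mk_eq.mp hk⟩
  choose f hf1 hf2 using hex
  apply Nat.card_le_card_of_injective f
  intro C D hCD
  apply Subtype.ext
  rw [← hf2 C, ← hf2 D]
  congr 2
  rw [hCD]

end Cfsg.Agent.S1512
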