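import Cfsg.Statements.S1514
import Cfsg.Agent.Lib.Lead.Coh1
import Cfsg.Agent.S1509

set_option autoImplicit false
open Cfsg

namespace Cfsg.Agent.S1514

/-- Let S be a nonempty set of irreducible characters of the finite group L, closed under complex conjugation and containing no real-valued member, and τ a linear isometry on the integer combinations of S vanishing at 1, with values virtual characters of G vanishing at 1. Then there is a choice R making (S, τ, R) a coherence system. -/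
theorem result {L : Type*} [Group L] [Fintype L] {G : Type*} [Group G] [Fintype G] (S : Set (L → ℂ)) (hS : S.Nonempty) (hirr : ∀ χ ∈ S, Cfsg.IsIrrCharacter L χ) (hconj : ∀ χ ∈ S, Cfsg.conjFun χ ∈ S ∧ Cfsg.conjFun χ ≠ χ) (τ : (L → ℂ) → (G → ℂ)) (hτ : Cfsg.IsLinearIsometryOn (Cfsg.zspanOn S {1}ᶜ) τ) (hτ1 : ∀ α ∈ Cfsg.zspanOn S {1}ᶜ, τ α 1 = 0) : ∃ R : (L → ℂ) → Finset (G → ℂ), Cfsg.IsCoherenceSystem S τ R := by
  classical
  have hτ' := hτ
  obtain ⟨hadd, hsmul, hiso, hvirt⟩ := hτ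
  have hmem : ∀ χ ∈ S, χ ∈ Cfsg.zspan S := fun χ h => Submodule.subset_span h
  have hnorm : ∀ χ ∈ S, Cfsg.classInner χ χ = 1 := fun χ h => by
    rw [Cfsg.Agent.Lib.Helper2.classInner_irr (hirr χ h) (hirr χ h), if_pos rfl]
  have horth : ∀ χ ∈ S, ∀ φ ∈ S, χ ≠ φ → Cfsg.classInner χ φ = 0 := fun χ h φ h' hne => by
    rw [Cfsg.Agent.Lib.Helper2.classInner_irr (hirr χ h) (hirr φ h'), if_neg hne]
  have hdiff : ∀ χ ∈ S, χ - Cfsg.conjFun χ ∈ Cfsg.zspanOn S {1}ᶜ := by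
    intro χ hχ
    refine ⟨Submodule.sub_mem _ (hmem χ hχ) (hmem _ (hconj χ hχ).1), ?_⟩
    intro x hx
    have hx1 : x = 1 := by
      by_contra h
      exact hx h
    obtain ⟨n, -, hn⟩ := Cfsg.Agent.Lib.Lead.Coh.irr_deg (hirr χ hχ)
    rw [hx1, Pi.sub_apply, Cfsg.conjFun, hn, map_natCast, sub_self]
  have hinner : ∀ χ ∈ S, ∀ φ ∈ S, Cfsg.classInner (Cfsg.conjFun φ) (Cfsg.conjFun χ) =
      (starRingEnd ℂ) (Cfsg.classInner φ χ) := by
    intro χ _ φ _
    simp only [Cfsg.classInner, Cfsg.conjFun, map_mul, map_inv₀, map_natCast, map_sum]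
  have key : ∀ χ ∈ S, ∃ a b : G → ℂ, Cfsg.Agent.Lib.Lead.CycTI.Sgn G a ∧
      Cfsg.Agent.Lib.Lead.CycTI.Sgn G b ∧ Cfsg.classInner a b = 0 ∧
      τ (χ - Cfsg.conjFun χ) = a + b := by
    intro χ hχ
    apply Cfsg.Agent.Lib.Lead.Coh.genChar_norm_two (hvirt _ (hdiff χ hχ))
    rw [hiso _ (hdiff χ hχ) _ (hdiff χ hχ), Cfsg.Agent.Lib.Helper2.classInner_sub_left,
      Cfsg.Agent.Lib.Helper2.classInner_sub_right, Cfsg.Agent.Lib.Helper2.classInner_sub_right,
      hnorm χ hχ, hnorm _ (hconj χ hχ).1, horth χ hχ _ (hconj χ hχ).1 (hconj χ hχ).2.symm,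
      horth _ (hconj χ hχ).1 χ hχ (hconj χ hχ).2]
    norm_num
  choose a b ha hb hab hsum using key
  have hne : ∀ χ (h : χ ∈ S), a χ h ≠ b χ h := by
    intro χ h e
    have h1 := hab χ h
    rw [← e, (ha χ h).norm] at h1
    exact one_ne_zero h1
  have hba : ∀ χ (h : χ ∈ S), Cfsg.classInner (b χ h) (a χ h) = 0 := by
    intro χ h
    rw [← Cfsg.Agent.Lib.Helper2.classInner_conj_symm, hab χ h, map_zero]
  refine ⟨fun χ => if h : χ ∈ S then {a χ h, b χ h} else ∅, ?_⟩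
  refine ⟨hS, fun χ h => Cfsg.Agent.Lib.Helper2.IsIrrCharacter.isCharacter (hirr χ h),
    fun χ h => (hconj χ h).1, fun χ h => (hconj χ h).2, hτ', hτ1, horth, ?_, ?_, ?_, ?_⟩
  · intro χ hχ α hα β hβ
    simp only [dif_pos hχ, Finset.mem_insert, Finset.mem_singleton] at hα hβ
    rcases hα with rfl | rfl <;> rcases hβ with rfl | rfl
    · rw [if_pos rfl, (ha χ hχ).norm]
    · rw [if_neg (hne χ hχ), hab χ hχ]
    · rw [if_neg (hne χ hχ).symm, hba χ hχ]
    · rw [if_pos rfl, (hb χ hχ).norm]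
  · intro χ hχ α hα
    simp only [dif_pos hχ, Finset.mem_insert, Finset.mem_singleton] at hα
    rcases hα with rfl | rfl
    · exact Cfsg.Agent.Lib.Lead.Coh.Sgn.genChar (ha χ hχ)
    · exact Cfsg.Agent.Lib.Lead.Coh.Sgn.genChar (hb χ hχ)
  · intro χ hχ
    simp only [dif_pos hχ]
    rw [Finset.sum_pair (hne χ hχ), hsum χ hχ]
  · intro χ hχ φ hφ h1 h2
    have e1 : Cfsg.classInner (a φ hφ + b φ hφ) (a χ hχ + b χ hχ) = 0 := by
      rw [← hsum φ hφ, ← hsum χ hχ, hiso _ (hdiff φ hφ) _ (hdiff χ hχ),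
        Cfsg.Agent.Lib.Helper2.classInner_sub_left, Cfsg.Agent.Lib.Helper2.classInner_sub_right,
        Cfsg.Agent.Lib.Helper2.classInner_sub_right, h1, h2, hinner χ hχ φ hφ, h1]
      have e2 : Cfsg.classInner (Cfsg.conjFun φ) χ = 0 := by
        have e3 := hinner _ (hconj χ hχ).1 φ hφ
        have e4 : Cfsg.conjFun (Cfsg.conjFun χ) = χ := by
          funext x
          simp [Cfsg.conjFun]
        rw [e4, h2, map_zero] at e3
        exact e3
      rw [e2, map_zero]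
      ring
    have v1 : a φ hφ 1 = (-b φ hφ) 1 := by
      have := hτ1 _ (hdiff φ hφ)
      rw [hsum φ hφ, Pi.add_apply] at this
      rw [Pi.neg_apply]
      linear_combination this
    have v2 : ((1 : ℝ) : ℂ) * a χ hχ 1 = ((1 : ℝ) : ℂ) * (-b χ hχ) 1 := by
      have := hτ1 _ (hdiff χ hχ)
      rw [hsum χ hχ, Pi.add_apply] at this
      rw [Pi.neg_apply]
      push_cast
      linear_combination this
    have res := Cfsg.Agent.S1509.result (a φ hφ) (-b φ hφ) (a χ hχ) (-b χ hχ) (ha φ hφ)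
      (hb φ hφ).neg (ha χ hχ) (hb χ hχ).neg 1 1 one_ne_zero one_ne_zero
      (by rw [Cfsg.Agent.Lib.Lead.CycTI.inner_neg_right, hab φ hφ, neg_zero])
      (by rw [Cfsg.Agent.Lib.Lead.CycTI.inner_neg_right, hab χ hχ, neg_zero])
      (by
        have e5 : a φ hφ - -b φ hφ = a φ hφ + b φ hφ := by abel
        have e6 : ((1 : ℝ) : ℂ) • a χ hχ - ((1 : ℝ) : ℂ) • -b χ hχ = a χ hχ + b χ hχ := by
          simp
        rw [e5, e6, e1]) v1 v2
    obtain ⟨r1, r2, r3, r4⟩ := res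
    rw [Cfsg.Agent.Lib.Lead.CycTI.inner_neg_right, neg_eq_zero] at r2
    rw [Cfsg.Agent.Lib.Lead.CycTI.inner_neg_left, neg_eq_zero] at r3
    rw [Cfsg.Agent.Lib.Lead.CycTI.inner_neg_left, Cfsg.Agent.Lib.Lead.CycTI.inner_neg_right, neg_neg] at r4
    intro α hα β hβ
    simp only [dif_pos hχ, dif_pos hφ, Finset.mem_insert, Finset.mem_singleton] at hα hβ
    rcases hα with rfl | rfl <;> rcases hβ with rfl | rfl
    · exact r1
    · exact r2
    · exact r3
    · exact r4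

end Cfsg.Agent.S1514
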