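import Cfsg.Statements.S1515
import Cfsg.Agent.Lib.Lead.Coh1

set_option autoImplicit false
open Cfsg

namespace Cfsg.Agent.S1515

/-- Let (S, τ, R) be a coherence system from L to G, χ ∈ S, and ψ an integer combination of S with ⟨χ, ψ⟩ = ⟨conj χ, ψ⟩ = 0. Let τ₁ be a linear isometry on the integer combinations of χ − ψ and χ − conj χ, with virtual-character values, agreeing with τ on integer multiples of χ − conj χ. Then the sum over α ∈ R χ of the squared absolute values of ⟨τ₁(χ − ψ), α⟩ is at least ⟨χ, χ⟩; and if ⟨τ₁(χ − ψ), τ₁(χ − ψ)⟩ minus that sum is at least ⟨ψ, ψ⟩, then the sum equals ⟨χ, χ⟩ and every ⟨τ₁(χ − ψ), α⟩ with α ∈ R χ is 0 or 1. -/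
theorem result {L : Type*} [Group L] [Fintype L] {G : Type*} [Group G] [Fintype G] (S : Set (L → ℂ)) (τ : (L → ℂ) → (G → ℂ)) (R : (L → ℂ) → Finset (G → ℂ)) (hS : Cfsg.IsCoherenceSystem S τ R) (χ : L → ℂ) (hχ : χ ∈ S) (ψ : L → ℂ) (hψ : ψ ∈ Cfsg.zspan S) (h1 : Cfsg.classInner χ ψ = 0) (h2 : Cfsg.classInner (Cfsg.conjFun χ) ψ = 0) (τ₁ : (L → ℂ) → (G → ℂ)) (hτ₁ : Cfsg.IsLinearIsometryOn (Cfsg.zspan {χ - ψ, χ - Cfsg.conjFun χ}) τ₁) (hagree : ∀ n : ℤ, τ₁ (n • (χ - Cfsg.conjFun χ)) = τ (n • (χ - Cfsg.conjFun χ))) : (Cfsg.classInner χ χ).re ≤ ∑ α ∈ R χ, ‖Cfsg.classInner (τ₁ (χ - ψ)) α‖ ^ 2 ∧ ((Cfsg.classInner ψ ψ).re ≤ (Cfsg.classInner (τ₁ (χ - ψ)) (τ₁ (χ - ψ))).re - ∑ α ∈ R χ, ‖Cfsg.classInner (τ₁ (χ - ψ)) α‖ ^ 2 → (∑ α ∈ R χ, ‖Cfsg.classInner (τ₁ (χ - ψ)) α‖ ^ 2 = (Cfsg.classInner χ χ).re ∧ ∀ α ∈ R χ, Cfsg.classInner (τ₁ (χ - ψ)) α = 0 ∨ Cfsg.classInner (τ₁ (χ - ψ)) α = 1))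 := by
  classical
  have hE1 : χ - ψ ∈ Cfsg.zspan {χ - ψ, χ - Cfsg.conjFun χ} :=
    Submodule.subset_span (Set.mem_insert _ _)
  have hE2 : χ - Cfsg.conjFun χ ∈ Cfsg.zspan {χ - ψ, χ - Cfsg.conjFun χ} :=
    Submodule.subset_span (Set.mem_insert_of_mem _ rfl)
  obtain ⟨-, -, hiso, hvirt⟩ := hτ₁
  set T := τ₁ (χ - ψ) with hT
  have hTg : Cfsg.IsGeneralizedCharacter G T := hvirt _ hE1
  have hint : ∀ α ∈ R χ, ∃ m : ℤ, Cfsg.classInner T α = m := fun α hα =>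
    Cfsg.Agent.Lib.Lead.Coh.genChar_inner_int hTg (hS.virtual χ hχ α hα)
  choose! m hm using hint
  have hψχ : Cfsg.classInner ψ χ = 0 := by
    rw [← Cfsg.Agent.Lib.Helper2.classInner_conj_symm, h1, map_zero]
  have hψχ' : Cfsg.classInner ψ (Cfsg.conjFun χ) = 0 := by
    rw [← Cfsg.Agent.Lib.Helper2.classInner_conj_symm, h2, map_zero]
  have hχχ' : Cfsg.classInner χ (Cfsg.conjFun χ) = 0 :=
    hS.orthogonal χ hχ _ (hS.conj_mem χ hχ) (hS.conj_ne χ hχ).symm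
  have hag : τ₁ (χ - Cfsg.conjFun χ) = τ (χ - Cfsg.conjFun χ) := by
    have := hagree 1
    rwa [one_smul] at this
  have hsum : ((∑ α ∈ R χ, m α : ℤ) : ℂ) = Cfsg.classInner χ χ := by
    have e1 : Cfsg.classInner T (τ₁ (χ - Cfsg.conjFun χ)) = Cfsg.classInner χ χ := by
      rw [hT, hiso _ hE1 _ hE2, Cfsg.Agent.Lib.Helper2.classInner_sub_left,
        Cfsg.Agent.Lib.Helper2.classInner_sub_right, Cfsg.Agent.Lib.Helper2.classInner_sub_right,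
        hχχ', hψχ, hψχ']
      ring
    rw [hag, hS.sum_eq χ hχ, Cfsg.Agent.Lib.Helper2.classInner_sum_right] at e1
    rw [← e1]
    push_cast
    exact Finset.sum_congr rfl fun α hα => (hm α hα).symm
  have hre : (Cfsg.classInner χ χ).re = ((∑ α ∈ R χ, m α : ℤ) : ℝ) := by
    rw [← hsum, Complex.intCast_re]
  have hsq : ∑ α ∈ R χ, ‖Cfsg.classInner T α‖ ^ 2 = ((∑ α ∈ R χ, m α ^ 2 : ℤ) : ℝ) := by
    push_cast
    refine Finset.sum_congr rfl fun α hα => ?_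
    rw [hm α hα, Complex.norm_intCast, sq_abs]
  have hle : ∀ k : ℤ, k ≤ k ^ 2 := by
    intro k
    nlinarith [sq_nonneg (2 * k - 1), sq_nonneg k]
  have hle' : ∑ α ∈ R χ, m α ≤ ∑ α ∈ R χ, m α ^ 2 := Finset.sum_le_sum fun α _ => hle _
  refine ⟨?_, ?_⟩
  · rw [hre, hsq]
    exact_mod_cast hle'
  · intro hyp
    have hTT : Cfsg.classInner T T = Cfsg.classInner χ χ + Cfsg.classInner ψ ψ := by
      rw [hT, hiso _ hE1 _ hE1, Cfsg.Agent.Lib.Helper2.classInner_sub_left,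
        Cfsg.Agent.Lib.Helper2.classInner_sub_right, Cfsg.Agent.Lib.Helper2.classInner_sub_right,
        h1, hψχ]
      ring
    rw [hTT, Complex.add_re, hre, hsq] at hyp
    have hge : ((∑ α ∈ R χ, m α ^ 2 : ℤ) : ℝ) ≤ ((∑ α ∈ R χ, m α : ℤ) : ℝ) := by linarith
    have hge' : ∑ α ∈ R χ, m α ^ 2 ≤ ∑ α ∈ R χ, m α := by exact_mod_cast hge
    have heq : ∑ α ∈ R χ, m α ^ 2 = ∑ α ∈ R χ, m α := le_antisymm hge' hle'
    refine ⟨?_, ?_⟩
    · rw [hre, hsq, heq]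
    · intro α hα
      have h0 : ∑ α ∈ R χ, (m α ^ 2 - m α) = 0 := by
        rw [Finset.sum_sub_distrib, heq, sub_self]
      have h3 := (Finset.sum_eq_zero_iff_of_nonneg (fun α _ => sub_nonneg.mpr (hle (m α)))).mp h0 α hα
      have h4 : m α * (m α - 1) = 0 := by linear_combination h3
      rw [hm α hα]
      rcases mul_eq_zero.mp h4 with h5 | h5
      · left
        rw [h5, Int.cast_zero]
      · right
        have : m α = 1 := by omega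
        rw [this, Int.cast_one]

end Cfsg.Agent.S1515
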