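import Cfsg.Statements.S1518
import Cfsg.Agent.Lib.Helper13.DadeGen
import Cfsg.Agent.Lib.Helper25.CommCount

set_option autoImplicit false
open Cfsg

namespace Cfsg.Agent.S1518

open Cfsg.Agent.Lib.Helper2 Cfsg.Agent.Lib.Helper13 Cfsg.Agent.Lib.Lead
open Cfsg.Agent.Lib.Lead.CycTI Cfsg.Agent.Lib.Lead.Coh
open Cfsg.Agent.Lib.Helper13.DadeIso Cfsg.Agent.Lib.Helper13.DadeGen
open scoped ComplexConjugate

theorem conj_of_sub {G : Type*} [Group G] [Fintype G] {μ ν : G → ℂ} (hμ : Cfsg.IsIrrCharacter G μ)
    (hν : Cfsg.IsIrrCharacter G ν) (hne : μ ≠ ν)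
    (h : ∀ g, conj (μ g - ν g) = -(μ g - ν g)) : ν = Cfsg.conjFun μ := by
  classical
  have hμb : Cfsg.IsIrrCharacter G (Cfsg.conjFun μ) := IsIrrCharacter.conj hμ
  have hνb : Cfsg.IsIrrCharacter G (Cfsg.conjFun ν) := IsIrrCharacter.conj hν
  have h1 : Cfsg.conjFun μ - Cfsg.conjFun ν = ν - μ := by
    funext g
    have := h g
    simp only [Pi.sub_apply, Cfsg.conjFun]
    rw [map_sub] at this
    rw [this]; ring
  have h2 := congrArg (fun f => Cfsg.classInner f ν) h1
  simp only [classInner_sub_left] at h2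
  rw [classInner_irr hμb hν, classInner_irr hνb hν, classInner_irr hν hν, classInner_irr hμ hν,
    if_pos rfl, if_neg hne] at h2
  by_contra hc
  rw [if_neg (fun h => hc h.symm)] at h2
  split_ifs at h2 <;> norm_num at h2


/-- Under the Dade hypothesis for (A, L, H): if χ is an irreducible character of L vanishing at every non-identity element of L outside A, then the Dade image of χ − conj χ equals μ − conj μ for some irreducible character μ of G. -/
theorem result {G : Type*} [Group G] [Fintype G] (A : Set G) (L : Subgroup G) [Fintype L] (H : G → Subgroup G) (hD : Cfsg.DadeHypothesis A L H) (χ : L → ℂ) (hχ : Cfsg.IsIrrCharacter L χ) (hsupp : ∀ x : L, x ≠ 1 → (x : G) ∉ A → χ x = 0) : ∃ μ : G → ℂ, Cfsg.IsIrrCharacter G μ ∧ Cfsg.dadeIsometry A L H (χ - Cfsg.conjFun χ) = μ - Cfsg.conjFun μ := by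
  classical
  have hχc := IsIrrCharacter.isCharacter hχ
  have hχbar : Cfsg.IsIrrCharacter L (Cfsg.conjFun χ) := IsIrrCharacter.conj hχ
  set α := χ - Cfsg.conjFun χ with hα
  have hαg : Cfsg.IsGeneralizedCharacter L α :=
    ⟨χ, Cfsg.conjFun χ, hχc, IsIrrCharacter.isCharacter hχbar, rfl⟩
  have hαcl := genChar_isClassFunction hαg
  have hαA : ∀ x : L, (x : G) ∉ A → α x = 0 := by
    intro x hx
    by_cases h1 : x = 1
    · subst h1
      show χ 1 - conj (χ 1) = 0
      rw [Cfsg.Agent.Lib.Helper25.CommCount.conj_one hχc, sub_self]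
    · show χ x - conj (χ x) = 0
      rw [hsupp x h1 hx]
      simp
  by_cases hreal : χ = Cfsg.conjFun χ
  · refine ⟨fun _ => 1, isIrrCharacter_one, ?_⟩
    have h0 : α = 0 := by rw [hα, ← hreal, sub_self]
    rw [h0]
    funext g
    simp [Cfsg.dadeIsometry, Cfsg.conjFun]
  · have hnorm : Cfsg.classInner α α = 2 := by
      rw [hα, classInner_sub_left, classInner_sub_right, classInner_sub_right,
        classInner_irr hχ hχ, classInner_irr hχ hχbar, classInner_irr hχbar hχ,
        classInner_irr hχbar hχbar, if_pos rfl, if_pos rfl, if_neg hreal,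
        if_neg (fun h => hreal h.symm)]
      norm_num
    have hτg := dade_genChar hD hαg hαA
    have hτn : Cfsg.classInner (Cfsg.dadeIsometry A L H α) (Cfsg.dadeIsometry A L H α) = 2 := by
      rw [dade_adjoint hD hαcl hαA (dade_isClassFunction hD hαcl)
        (fun a ha => dade_avg hD hαcl a ha), hnorm]
    obtain ⟨a, b, ha, hb, hab, hsum⟩ := genChar_norm_two hτg hτn
    have h1 : Cfsg.dadeIsometry A L H α 1 = 0 := by
      apply dade_of_not_mem
      rintro ⟨c, hc, x, u, hu, hx⟩
      obtain ⟨k, hk, -⟩ := exists_pow hD hc hc hu hu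
      rw [← hx] at hk
      simp only [mul_one, mul_inv_cancel, one_pow] at hk
      exact hD.one_not_mem (hk ▸ hc)
    have hconj : ∀ g, conj (Cfsg.dadeIsometry A L H α g) = -Cfsg.dadeIsometry A L H α g := by
      intro g
      by_cases hg : g ∈ supp A L H
      · obtain ⟨c, hc, x, u, hu, hx⟩ := hg
        rw [dade_apply hD hαcl hc hu hx]
        show conj (χ c - conj (χ c)) = -(χ c - conj (χ c))
        rw [map_sub, Complex.conj_conj]
        ring
      · rw [dade_of_not_mem hg]
        simp
    obtain ⟨μ, hμ, ha'⟩ := ha.exists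
    obtain ⟨ν, hν, hb'⟩ := hb.exists
    obtain ⟨m, hm0, hm⟩ := irr_deg hμ
    obtain ⟨n, hn0, hn⟩ := irr_deg hν
    have h1' : a 1 + b 1 = 0 := by
      rw [← h1, hsum]; rfl
    have hne : μ ≠ ν := by
      rintro rfl
      have hμμ : Cfsg.classInner μ μ = 1 := by rw [classInner_irr hμ hμ, if_pos rfl]
      rcases ha' with rfl | rfl <;> rcases hb' with rfl | rfl <;>
        simp [CycTI.inner_neg_left, CycTI.inner_neg_right, hμμ] at hab
    rcases ha' with rfl | rfl <;> rcases hb' with rfl | rfl
    · exfalso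
      rw [hm, hn] at h1'
      have : (m + n : ℕ) = 0 := by exact_mod_cast h1'
      omega
    · refine ⟨a, hμ, ?_⟩
      have h3 := conj_of_sub hμ hν hne (fun g => by
        have := hconj g
        rw [hsum] at this
        simpa [sub_eq_add_neg] using this)
      rw [hsum, ← h3, sub_eq_add_neg]
    · refine ⟨b, hν, ?_⟩
      have h3 := conj_of_sub hν hμ hne.symm (fun g => by
        have := hconj g
        rw [hsum] at this
        simpa [sub_eq_add_neg, add_comm] using this)
      rw [hsum, ← h3, sub_eq_add_neg, add_comm]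
    · exfalso
      simp only [Pi.neg_apply] at h1'
      rw [hm, hn] at h1'
      have h4 : ((m : ℂ) + n) = 0 := by linear_combination -h1'
      have : (m + n : ℕ) = 0 := by exact_mod_cast h4
      omega


end Cfsg.Agent.S1518
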