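import Cfsg.Statements.S1525
import Cfsg.Agent.Lib.Helper13.DadeIso

set_option autoImplicit false
open Cfsg

namespace Cfsg.Agent.S1525

open Cfsg.Agent.Lib.Helper13.DadeIso

/-- Under the Dade hypothesis for (A, L, H), let χ be a class function of G and let ψ be a function on L whose value at each a ∈ A is the average of χ over the coset a·H(a). Then (1/|G|) Σ |χ g|² over the elements g of G conjugate into some coset a·H(a) with a ∈ A is at least (1/|L|) Σ_{a ∈ A ∩ L} |ψ a|². -/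
theorem result {G : Type*} [Group G] [Fintype G] (A : Set G) (L : Subgroup G) [Fintype L] (H : G → Subgroup G) (hD : Cfsg.DadeHypothesis A L H) (χ : G → ℂ) (hχ : Cfsg.IsClassFunction G χ) (ψ : L → ℂ) (hψ : ∀ a : L, (a : G) ∈ A → ψ a = (Nat.card (H a) : ℂ)⁻¹ * ∑ᶠ u ∈ (H a : Set G), χ (a * u)) : (Nat.card L : ℝ)⁻¹ * ∑ᶠ a ∈ {a : L | (a : G) ∈ A}, ‖ψ a‖ ^ 2 ≤ (Nat.card G : ℝ)⁻¹ * ∑ᶠ g ∈ {g : G | ∃ a ∈ A, ∃ u ∈ H a, ∃ x : G, x * g * x⁻¹ = a * u}, ‖χ g‖ ^ 2 := by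
  classical
  have h := sum_supp (K := ℝ) hD (F := fun g => ‖χ g‖ ^ 2) (fun g h => by simp only [hχ g h])
  have hset : {g : G | ∃ a ∈ A, ∃ u ∈ H a, ∃ x : G, x * g * x⁻¹ = a * u} = supp A L H := by
    ext g
    constructor
    · rintro ⟨a, ha, u, hu, x, hx⟩
      exact ⟨⟨a, hD.subset ha⟩, ha, x, u, hu, hx⟩
    · rintro ⟨a, ha, x, u, hu, hx⟩
      exact ⟨a, ha, u, hu, x, hx⟩
  rw [hset, finsum_mem_eq_sum_ite, finsum_mem_eq_sum_ite, h]
  apply mul_le_mul_of_nonneg_left _ (by positivity)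
  apply Finset.sum_le_sum
  intro a _
  by_cases ha : (a : G) ∈ A
  · rw [if_pos (show a ∈ {a : L | (a : G) ∈ A} from ha), hψ a ha, finsum_mem_eq_sum_ite,
      ← Finset.sum_filter]
    have e1 : ∀ u : G, (if (a : G) ∈ A ∧ u ∈ H (a : G) then
        (Nat.card (H (a : G)) : ℝ)⁻¹ * ‖χ ((a : G) * u)‖ ^ 2 else 0) =
        if u ∈ (H (a : G) : Set G) then (Nat.card (H (a : G)) : ℝ)⁻¹ * ‖χ ((a : G) * u)‖ ^ 2
        else 0 := by
      intro u
      by_cases hu : u ∈ H (a : G)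
      · rw [if_pos ⟨ha, hu⟩, if_pos (show u ∈ (H (a : G) : Set G) from hu)]
      · rw [if_neg (fun h => hu h.2), if_neg (show ¬ u ∈ (H (a : G) : Set G) from hu)]
    rw [Finset.sum_congr rfl fun u _ => e1 u, ← Finset.sum_filter, ← Finset.mul_sum]
    set s := Finset.univ.filter (fun u : G => u ∈ (H (a : G) : Set G)) with hs
    have hcard : (s.card : ℝ) = (Nat.card (H (a : G)) : ℝ) := by
      rw [hs, ← Fintype.card_subtype, Nat.card_eq_fintype_card]; rfl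
    have hpos : (0 : ℝ) < (Nat.card (H (a : G)) : ℝ) := by
      exact_mod_cast (Nat.card_pos (α := H (a : G)))
    rw [norm_mul, norm_inv, Complex.norm_natCast, mul_pow]
    have h1 : ‖∑ u ∈ s, χ ((a : G) * u)‖ ≤ ∑ u ∈ s, ‖χ ((a : G) * u)‖ := norm_sum_le _ _
    have h2 : (∑ u ∈ s, ‖χ ((a : G) * u)‖) ^ 2 ≤ (s.card : ℝ) * ∑ u ∈ s, ‖χ ((a : G) * u)‖ ^ 2 :=
      sq_sum_le_card_mul_sum_sq
    have h3 : ‖∑ u ∈ s, χ ((a : G) * u)‖ ^ 2 ≤
        (Nat.card (H (a : G)) : ℝ) * ∑ u ∈ s, ‖χ ((a : G) * u)‖ ^ 2 := by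
      rw [← hcard]
      exact le_trans (pow_le_pow_left₀ (norm_nonneg _) h1 2) h2
    calc ((Nat.card (H (a : G)) : ℝ)⁻¹) ^ 2 * ‖∑ u ∈ s, χ ((a : G) * u)‖ ^ 2
        ≤ ((Nat.card (H (a : G)) : ℝ)⁻¹) ^ 2 *
          ((Nat.card (H (a : G)) : ℝ) * ∑ u ∈ s, ‖χ ((a : G) * u)‖ ^ 2) :=
          mul_le_mul_of_nonneg_left h3 (by positivity)
      _ = (Nat.card (H (a : G)) : ℝ)⁻¹ * ∑ u ∈ s, ‖χ ((a : G) * u)‖ ^ 2 := by
          field_simp
  · rw [if_neg (show ¬ a ∈ {a : L | (a : G) ∈ A} from ha)]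
    apply Finset.sum_nonneg
    intro u _
    split_ifs
    · positivity
    · exact le_refl _


end Cfsg.Agent.S1525
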