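import Cfsg.Statements.S1527

set_option autoImplicit false
open Cfsg

namespace Cfsg.Agent.S1527

theorem orderOf_conj' {G : Type*} [Group G] (g h : G) : orderOf (g * h * g⁻¹) = orderOf h := by
  have := orderOf_injective (MulAut.conj g).toMonoidHom (MulAut.conj g).injective h
  simpa using this

theorem card_ne_one' {G : Type*} [Group G] (K : Subgroup G) :
    Nat.card {h : G // h ∈ K ∧ h ≠ 1} = Nat.card K - 1 := by
  have h1 : {h : G | h ∈ K ∧ h ≠ 1} = (K : Set G) \ {1} := by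
    ext h; simp
  have h2 : Nat.card {h : G // h ∈ K ∧ h ≠ 1} = ({h : G | h ∈ K ∧ h ≠ 1} : Set G).ncard :=
    Nat.card_coe_set_eq _
  rw [h2, h1, Set.ncard_sdiff_singleton_of_mem K.one_mem]
  rfl


/-- Let G be a finite group and H i (i in a finite index type) subgroups of pairwise coprime orders, each of whose underlying sets is a TI-subset of G, such that every non-identity element of G is conjugate to an element of some H i. Then Nat.card G − 1 = Σ_i [G : N_G(H i)] · (Nat.card (H i) − 1). -/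
theorem result {G : Type*} [Group G] [Finite G] {ι : Type*} [Fintype ι] (H : ι → Subgroup G) (hcop : ∀ i j, i ≠ j → Nat.Coprime (Nat.card (H i)) (Nat.card (H j))) (hTI : ∀ i, Cfsg.IsTISubset (H i : Set G)) (hcover : ∀ g : G, g ≠ 1 → ∃ i, ∃ x : G, x * g * x⁻¹ ∈ H i) : Nat.card G - 1 = ∑ i, (Subgroup.normalizer (H i : Set G)).index * (Nat.card (H i) - 1) := by
  classical
  obtain ⟨Nn, hNn⟩ : ∃ Nn : ι → Subgroup G, Nn = fun i => Subgroup.normalizer (H i : Set G) := ⟨_, rfl⟩
  have hNi : ∀ i, Nn i = Subgroup.normalizer (H i : Set G) := fun i => by rw [hNn]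
  let f : (Σ i, (G ⧸ Nn i) × {h : G // h ∈ H i ∧ h ≠ 1}) → {g : G // g ∈ (⊤ : Subgroup G) ∧ g ≠ 1} :=
    fun t => ⟨t.2.1.out * t.2.2.1 * t.2.1.out⁻¹, Subgroup.mem_top _, by
      intro h
      apply t.2.2.2.2
      have : t.2.2.1 = t.2.1.out⁻¹ * (t.2.1.out * t.2.2.1 * t.2.1.out⁻¹) * t.2.1.out := by group
      rw [this, h]; group⟩
  have hinj : Function.Injective f := by
    rintro ⟨i, q, h⟩ ⟨j, q', h'⟩ hEq
    have hE : q.out * h.1 * q.out⁻¹ = q'.out * h'.1 * q'.out⁻¹ := congrArg Subtype.val hEq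
    have hij : i = j := by
      by_contra hne
      have h1 : orderOf h.1 = orderOf h'.1 := by
        rw [← orderOf_conj' q.out h.1, hE, orderOf_conj']
      have h2 : orderOf h.1 ∣ Nat.card (H i) := by
        have := orderOf_dvd_natCard (⟨h.1, h.2.1⟩ : H i)
        rwa [Subgroup.orderOf_mk] at this
      have h3 : orderOf h.1 ∣ Nat.card (H j) := by
        rw [h1]
        have := orderOf_dvd_natCard (⟨h'.1, h'.2.1⟩ : H j)
        rwa [Subgroup.orderOf_mk] at this
      have h4 := Nat.eq_one_of_dvd_coprimes (hcop i j hne) h2 h3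
      exact h.2.2 (orderOf_eq_one_iff.mp h4)
    subst hij
    have hmem : q.out⁻¹ * q'.out ∈ Nn i := by
      by_contra hnot
      have hnot' : q.out⁻¹ * q'.out ∉ Subgroup.normalizer (H i : Set G) := fun hm => hnot ((SetLike.ext_iff.mp (hNi i) _).mpr hm)
      apply h'.2.2
      apply hTI i _ hnot' h'.1 h'.2.1
      have : q.out⁻¹ * q'.out * h'.1 * (q.out⁻¹ * q'.out)⁻¹ = q.out⁻¹ * (q'.out * h'.1 * q'.out⁻¹) * q.out := by
        group
      rw [this, ← hE]
      have : q.out⁻¹ * (q.out * h.1 * q.out⁻¹) * q.out = h.1 := by group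
      rw [this]
      exact h.2.1
    have hq : q = q' := by
      rw [← QuotientGroup.out_eq' q, ← QuotientGroup.out_eq' q', QuotientGroup.eq]
      exact hmem
    subst hq
    have hh : h.1 = h'.1 := by
      have := congrArg (fun z => q.out⁻¹ * z * q.out) hE
      simpa [mul_assoc] using this
    have : h = h' := Subtype.ext hh
    rw [this]
  have hsurj : Function.Surjective f := by
    rintro ⟨g, _, hg1⟩
    obtain ⟨i, x, hx⟩ := hcover g hg1
    obtain ⟨n, hn⟩ := QuotientGroup.mk_out_eq_mul (Nn i) x⁻¹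
    have hnN : (n : G)⁻¹ ∈ Subgroup.normalizer (H i : Set G) := by
      rw [← hNi]; exact (Nn i).inv_mem n.2
    have hmem : (x⁻¹ * (n : G))⁻¹ * g * (x⁻¹ * (n : G)) ∈ H i := by
      have h1 := (Subgroup.mem_normalizer_iff.mp hnN (x * g * x⁻¹)).mp hx
      have : (x⁻¹ * (n : G))⁻¹ * g * (x⁻¹ * (n : G)) = (n : G)⁻¹ * (x * g * x⁻¹) * (n : G)⁻¹⁻¹ := by group
      rw [this]; exact h1
    have hne : (x⁻¹ * (n : G))⁻¹ * g * (x⁻¹ * (n : G)) ≠ 1 := by
      intro h
      apply hg1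
      have : g = (x⁻¹ * (n : G)) * ((x⁻¹ * (n : G))⁻¹ * g * (x⁻¹ * (n : G))) * (x⁻¹ * (n : G))⁻¹ := by group
      rw [this, h]; group
    refine ⟨⟨i, ((x⁻¹ : G) : G ⧸ Nn i), ⟨_, hmem, hne⟩⟩, ?_⟩
    apply Subtype.ext
    show Quotient.out ((x⁻¹ : G) : G ⧸ Nn i) * ((x⁻¹ * (n : G))⁻¹ * g * (x⁻¹ * (n : G))) *
      (Quotient.out ((x⁻¹ : G) : G ⧸ Nn i))⁻¹ = g
    rw [hn]; group
  have hcard := Nat.card_congr (Equiv.ofBijective f ⟨hinj, hsurj⟩)
  rw [card_ne_one', Nat.card_sigma, Subgroup.card_top] at hcard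
  rw [← hcard]
  apply Finset.sum_congr rfl
  intro i _
  rw [Nat.card_prod, card_ne_one', ← hNi]
  rfl

end Cfsg.Agent.S1527
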