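import Cfsg.Statements.S1529
import Cfsg.Agent.Lib.Lead.Coh1

set_option autoImplicit false
open Cfsg

namespace Cfsg.Agent.S1529

/-- Let N be a subgroup of the finite group G, S a set of irreducible characters of N with at least two members, and τ₁ a linear isometry on the integer combinations of S with virtual-character values such that τ₁ α vanishes at 1 whenever α ∈ ℤ[S] does. Then there is ε ∈ {1, −1} such that ε • τ₁ χ is an irreducible character of G for every χ ∈ S, and distinct members of S give distinct characters. -/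
theorem result {G : Type*} [Group G] [Fintype G] (N : Subgroup G) [Fintype N] (S : Set (N → ℂ)) (hirr : ∀ χ ∈ S, Cfsg.IsIrrCharacter N χ) (htwo : ∃ χ ∈ S, ∃ ψ ∈ S, χ ≠ ψ) (τ₁ : (N → ℂ) → (G → ℂ)) (hτ₁ : Cfsg.IsLinearIsometryOn (Cfsg.zspan S) τ₁) (h0 : ∀ α ∈ Cfsg.zspan S, α 1 = 0 → τ₁ α 1 = 0) : ∃ ε : ℂ, (ε = 1 ∨ ε = -1) ∧ (∀ χ ∈ S, Cfsg.IsIrrCharacter G (ε • τ₁ χ)) ∧ (∀ χ ∈ S, ∀ ψ ∈ S, τ₁ χ = τ₁ ψ → χ = ψ) := by
  classical
  obtain ⟨hadd, hsmul, hiso, hvirt⟩ := hτ₁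
  have hmem : ∀ χ ∈ S, χ ∈ Cfsg.zspan S := fun χ h => Submodule.subset_span h
  have hnorm : ∀ χ ∈ S, Cfsg.classInner χ χ = 1 := fun χ h => by
    rw [Cfsg.Agent.Lib.Helper2.classInner_irr (hirr χ h) (hirr χ h), if_pos rfl]
  have hsgn : ∀ χ ∈ S, Cfsg.IsIrrCharacter G (τ₁ χ) ∨ Cfsg.IsIrrCharacter G (-τ₁ χ) := fun χ h =>
    Cfsg.Agent.Lib.Lead.genChar_norm_one (hvirt χ (hmem χ h))
      (by rw [hiso _ (hmem χ h) _ (hmem χ h), hnorm χ h])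
  obtain ⟨χ₀, hχ₀, -⟩ := htwo
  obtain ⟨d₀, hd₀pos, hd₀⟩ := Cfsg.Agent.Lib.Lead.Coh.irr_deg (hirr χ₀ hχ₀)
  have hrel : ∀ χ ∈ S, ∀ d : ℕ, χ 1 = d → (d₀ : ℂ) * τ₁ χ 1 = (d : ℂ) * τ₁ χ₀ 1 := by
    intro χ hχ d hd
    have m1 : (d₀ : ℤ) • χ ∈ Cfsg.zspan S := Submodule.smul_mem _ _ (hmem χ hχ)
    have m2 : (-(d : ℤ)) • χ₀ ∈ Cfsg.zspan S := Submodule.smul_mem _ _ (hmem χ₀ hχ₀)
    have m3 : (d₀ : ℤ) • χ + (-(d : ℤ)) • χ₀ ∈ Cfsg.zspan S := Submodule.add_mem _ m1 m2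
    have h1 := h0 _ m3 (by
      simp only [Pi.add_apply, Pi.smul_apply]
      simp only [hd, hd₀, zsmul_eq_mul]
      push_cast
      ring)
    rw [hadd _ m1 _ m2, hsmul _ (hmem χ hχ), hsmul _ (hmem χ₀ hχ₀)] at h1
    simp only [Pi.add_apply, Pi.smul_apply] at h1
    simp only [zsmul_eq_mul] at h1
    push_cast at h1
    linear_combination h1
  have hinj : ∀ χ ∈ S, ∀ ψ ∈ S, τ₁ χ = τ₁ ψ → χ = ψ := by
    intro χ hχ ψ hψ h
    have h1 := hiso _ (hmem χ hχ) _ (hmem ψ hψ)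
    rw [← h, hiso _ (hmem χ hχ) _ (hmem χ hχ), hnorm χ hχ,
      Cfsg.Agent.Lib.Helper2.classInner_irr (hirr χ hχ) (hirr ψ hψ)] at h1
    by_contra hne
    rw [if_neg hne] at h1
    exact one_ne_zero h1
  rcases hsgn χ₀ hχ₀ with h₀ | h₀
  · refine ⟨1, Or.inl rfl, ?_, hinj⟩
    intro χ hχ
    rw [one_smul]
    rcases hsgn χ hχ with h | h
    · exact h
    · exfalso
      obtain ⟨d, hdpos, hd⟩ := Cfsg.Agent.Lib.Lead.Coh.irr_deg (hirr χ hχ)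
      obtain ⟨e₀, he₀pos, he₀⟩ := Cfsg.Agent.Lib.Lead.Coh.irr_deg h₀
      obtain ⟨e, hepos, he⟩ := Cfsg.Agent.Lib.Lead.Coh.irr_deg h
      have h1 := hrel χ hχ d hd
      rw [Pi.neg_apply] at he
      have h2 : τ₁ χ 1 = -(e : ℂ) := by rw [← he, neg_neg]
      rw [h2, he₀] at h1
      have h3 : ((d₀ * e + d * e₀ : ℕ) : ℂ) = 0 := by
        push_cast
        linear_combination -h1
      have h4 : d₀ * e + d * e₀ = 0 := by exact_mod_cast h3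
      have h5 : 0 < d₀ * e := Nat.mul_pos hd₀pos hepos
      omega
  · refine ⟨-1, Or.inr rfl, ?_, hinj⟩
    intro χ hχ
    rw [neg_smul, one_smul]
    rcases hsgn χ hχ with h | h
    · exfalso
      obtain ⟨d, hdpos, hd⟩ := Cfsg.Agent.Lib.Lead.Coh.irr_deg (hirr χ hχ)
      obtain ⟨e₀, he₀pos, he₀⟩ := Cfsg.Agent.Lib.Lead.Coh.irr_deg h₀
      obtain ⟨e, hepos, he⟩ := Cfsg.Agent.Lib.Lead.Coh.irr_deg h
      have h1 := hrel χ hχ d hd
      rw [Pi.neg_apply] at he₀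
      have h2 : τ₁ χ₀ 1 = -(e₀ : ℂ) := by rw [← he₀, neg_neg]
      rw [h2, he] at h1
      have h3 : ((d₀ * e + d * e₀ : ℕ) : ℂ) = 0 := by
        push_cast
        linear_combination h1
      have h4 : d₀ * e + d * e₀ = 0 := by exact_mod_cast h3
      have h5 : 0 < d₀ * e := Nat.mul_pos hd₀pos hepos
      omega
    · exact h

end Cfsg.Agent.S1529
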