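import Cfsg.Statements.S1531
import Cfsg.Agent.Lib.Lead.Coh4

set_option autoImplicit false
open Cfsg

namespace Cfsg.Agent.S1531

open Cfsg.Agent.Lib.Helper2 Cfsg.Agent.Lib.Lead Cfsg.Agent.Lib.Lead.CycTI Cfsg.Agent.Lib.Lead.Coh in

/-- Let N be a subgroup of the finite group G, S a set of irreducible characters of N, and α a linear isometry on the integer combinations of S vanishing at 1 with values virtual characters of G vanishing at 1. Let X, Y ⊆ S be disjoint, each with at least two members, and σ, τ linear isometries on ℤ[X], ℤ[Y] into virtual characters agreeing with α on the members vanishing at 1. Then ⟨σ χ, τ η⟩ = 0 for χ ∈ X, η ∈ Y; and if for some χ₀ ∈ X, η₀ ∈ Y with degrees c = χ₀ 1, e = η₀ 1 one has α (c • η₀ − e • χ₀) = c • τ η₀ − e • σ χ₀, then (X ∪ Y, N minus 1, α) is coherent. -/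
theorem result {G : Type*} [Group G] [Fintype G] (N : Subgroup G) [Fintype N] (S X Y : Set (N → ℂ)) (hirr : ∀ ξ ∈ S, Cfsg.IsIrrCharacter N ξ) (hXS : X ⊆ S) (hYS : Y ⊆ S) (hXY : Disjoint X Y) (hX2 : ∃ a ∈ X, ∃ b ∈ X, a ≠ b) (hY2 : ∃ a ∈ Y, ∃ b ∈ Y, a ≠ b) (α : (N → ℂ) → (G → ℂ)) (hα : Cfsg.IsLinearIsometryOn (Cfsg.zspanOn S {1}ᶜ) α) (hα1 : ∀ θ ∈ Cfsg.zspanOn S {1}ᶜ, α θ 1 = 0) (σ τ : (N → ℂ) → (G → ℂ)) (hσ : Cfsg.IsLinearIsometryOn (Cfsg.zspan X) σ) (hσα : ∀ θ ∈ Cfsg.zspanOn X {1}ᶜ, σ θ = α θ) (hτ : Cfsg.IsLinearIsometryOn (Cfsg.zspan Y) τ) (hτα : ∀ θ ∈ Cfsg.zspanOn Y {1}ᶜ, τ θ = α θ) : (∀ χ ∈ X, ∀ η ∈ Y, Cfsg.classInner (σ χ) (τ η) = 0) ∧ ((∃ χ₀ ∈ X, ∃ η₀ ∈ Y, α (χ₀ 1 • η₀ - η₀ 1 • χ₀) = χ₀ 1 • τ η₀ - η₀ 1 • σ χ₀) → Cfsg.IsCoherent (X ∪ Y) {1}ᶜ α) := by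
  classical
  have hXYne : ∀ ξ ∈ X, ∀ η ∈ Y, ξ ≠ η := by
    intro ξ hξ η hη e
    subst e
    exact Set.disjoint_left.mp hXY hξ hη
  have hSo : ∀ ξ ∈ S, ∀ η ∈ S, ξ ≠ η → classInner ξ η = 0 := fun ξ hξ η hη hne => by
    rw [classInner_irr (hirr ξ hξ) (hirr η hη), if_neg hne]
  have hSn : ∀ ξ ∈ S, classInner ξ ξ = 1 := fun ξ hξ => by
    rw [classInner_irr (hirr ξ hξ) (hirr ξ hξ), if_pos rfl]
  have hXYo : ∀ ξ ∈ X, ∀ η ∈ Y, classInner ξ η = 0 := fun ξ hξ η hη =>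
    hSo ξ (hXS hξ) η (hYS hη) (hXYne ξ hξ η hη)
  have horth := inner_zspan_zspan hXYo
  have hvan : ∀ (f : N → ℂ), f 1 = 0 → ∀ x, x ∉ ({1}ᶜ : Set N) → f x = 0 := by
    intro f hf x hx
    have hx1 : x = 1 := by
      by_contra h
      exact hx h
    rw [hx1, hf]
  have hdeg : ∀ ξ ∈ S, ∃ n : ℕ, 0 < n ∧ ξ 1 = n := fun ξ h => irr_deg (hirr ξ h)
  have hσs : ∀ ξ ∈ X, Sgn G (σ ξ) := fun ξ hξ =>
    genChar_norm_one (hσ.2.2.2 ξ (mem_zspan hξ))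
      (by rw [hσ.2.2.1 ξ (mem_zspan hξ) ξ (mem_zspan hξ), hSn ξ (hXS hξ)])
  have hτs : ∀ ξ ∈ Y, Sgn G (τ ξ) := fun ξ hξ =>
    genChar_norm_one (hτ.2.2.2 ξ (mem_zspan hξ))
      (by rw [hτ.2.2.1 ξ (mem_zspan hξ) ξ (mem_zspan hξ), hSn ξ (hYS hξ)])
  -- differences
  have hdiff : ∀ (Z : Set (N → ℂ)) (a b : N → ℂ) (p q : ℤ), a ∈ zspan Z → b ∈ zspan Z →
      (p : ℂ) * a 1 = (q : ℂ) * b 1 → p • a - q • b ∈ zspanOn Z {1}ᶜ := by
    intro Z a b p q ha hb h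
    refine ⟨zspan_sub (zspan_smul _ ha) (zspan_smul _ hb), hvan _ ?_⟩
    rw [Pi.sub_apply, Pi.smul_apply, Pi.smul_apply, zsmul_eq_mul, zsmul_eq_mul, h, sub_self]
  have hlin : ∀ (Z : Set (N → ℂ)) (ρ : (N → ℂ) → (G → ℂ)), IsLinearIsometryOn (zspan Z) ρ →
      ∀ (a b : N → ℂ) (p q : ℤ), a ∈ zspan Z → b ∈ zspan Z →
      ρ (p • a - q • b) = p • ρ a - q • ρ b := by
    intro Z ρ hρ a b p q ha hb
    rw [tau_sub hρ (zspan_smul _ ha) (zspan_smul _ hb), hρ.2.1 a ha, hρ.2.1 b hb]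
  have part1 : ∀ χ ∈ X, ∀ η ∈ Y, classInner (σ χ) (τ η) = 0 := by
    intro χ hχ η hη
    obtain ⟨χ', hχ', hne⟩ : ∃ χ' ∈ X, χ' ≠ χ := by
      obtain ⟨a, ha, b, hb, hab⟩ := hX2
      by_cases e : a = χ
      · exact ⟨b, hb, fun h => hab (e.trans h.symm)⟩
      · exact ⟨a, ha, e⟩
    obtain ⟨η', hη', hne'⟩ : ∃ η' ∈ Y, η' ≠ η := by
      obtain ⟨a, ha, b, hb, hab⟩ := hY2
      by_cases e : a = η
      · exact ⟨b, hb, fun h => hab (e.trans h.symm)⟩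
      · exact ⟨a, ha, e⟩
    obtain ⟨s, hs, hs'⟩ := hdeg χ' (hXS hχ')
    obtain ⟨t, ht, ht'⟩ := hdeg χ (hXS hχ)
    obtain ⟨u, hu, hu'⟩ := hdeg η' (hYS hη')
    obtain ⟨v, hv, hv'⟩ := hdeg η (hYS hη)
    have ha := hdiff X χ χ' s t (mem_zspan hχ) (mem_zspan hχ') (by
      rw [hs', ht']
      push_cast
      ring)
    have hb := hdiff Y η η' u v (mem_zspan hη) (mem_zspan hη') (by
      rw [hu', hv']
      push_cast
      ring)
    have hσa := hlin X σ hσ χ χ' s t (mem_zspan hχ) (mem_zspan hχ')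
    have hτb := hlin Y τ hτ η η' u v (mem_zspan hη) (mem_zspan hη')
    have c1 : ∀ (n : ℕ) (f : G → ℂ), ((n : ℝ) : ℂ) • f = ((n : ℕ) : ℤ) • f := by
      intro n f
      rw [zsmul_eq]
      simp
    apply orth_aux2 (σ χ) (σ χ') (τ η) (τ η') (hσs χ hχ) (hσs χ' hχ') (hτs η hη) (hτs η' hη')
      (s : ℝ) (t : ℝ) (u : ℝ) (v : ℝ) (by exact_mod_cast hs.ne') (by exact_mod_cast hu.ne')
      (by exact_mod_cast hv.ne')
    · rw [hσ.2.2.1 χ (mem_zspan hχ) χ' (mem_zspan hχ'), hSo χ (hXS hχ) χ' (hXS hχ') hne.symm]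
    · rw [hτ.2.2.1 η (mem_zspan hη) η' (mem_zspan hη'), hSo η (hYS hη) η' (hYS hη') hne'.symm]
    · rw [c1, c1, c1, c1, ← hσa, ← hτb, hσα _ ha, hτα _ hb,
        hα.2.2.1 _ (zspanOn_mono hXS _ ha) _ (zspanOn_mono hYS _ hb)]
      exact horth _ ha.1 _ hb.1
    · have h1 := hα1 _ (zspanOn_mono hXS _ ha)
      rw [← hσα _ ha, hσa, Pi.sub_apply, Pi.smul_apply, Pi.smul_apply, zsmul_eq_mul,
        zsmul_eq_mul] at h1
      push_cast at h1 ⊢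
      linear_combination h1
    · have h1 := hα1 _ (zspanOn_mono hYS _ hb)
      rw [← hτα _ hb, hτb, Pi.sub_apply, Pi.smul_apply, Pi.smul_apply, zsmul_eq_mul,
        zsmul_eq_mul] at h1
      push_cast at h1 ⊢
      linear_combination h1
  refine ⟨part1, ?_⟩
  rintro ⟨χ₀, hχ₀, η₀, hη₀, hζ⟩
  have hXYS : X ∪ Y ⊆ S := Set.union_subset hXS hYS
  obtain ⟨p, hp, hp'⟩ := hdeg χ₀ (hXS hχ₀)
  obtain ⟨q, hq, hq'⟩ := hdeg η₀ (hYS hη₀)
  refine ⟨?_, glue X Y σ τ, glue_isometry hσ hτ horth (inner_tau_tau hσ hτ part1), ?_⟩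
  · obtain ⟨a, ha, b, hb, hab⟩ := hX2
    obtain ⟨s, hs, hs'⟩ := hdeg b (hXS hb)
    obtain ⟨t, ht, ht'⟩ := hdeg a (hXS ha)
    have h1 := hdiff X a b s t (mem_zspan ha) (mem_zspan hb) (by
      rw [hs', ht']
      push_cast
      ring)
    refine ⟨_, zspanOn_mono Set.subset_union_left _ h1, ?_⟩
    intro h0
    have h2 : classInner ((s : ℤ) • a - (t : ℤ) • b) a = 0 := by rw [h0, classInner_zero_left]
    rw [zsmul_eq, zsmul_eq, classInner_sub_left, classInner_smul_left, classInner_smul_left,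
      hSn a (hXS ha), hSo b (hXS hb) a (hXS ha) hab.symm] at h2
    have h3 : (s : ℂ) = 0 := by
      push_cast at h2
      linear_combination h2
    exact hs.ne' (by exact_mod_cast h3)
  · intro θ hθ
    obtain ⟨x, hx, y, hy, rfl⟩ := mem_zspan_union hθ.1
    rw [glue_apply σ τ horth hx hy]
    obtain ⟨tx, htx⟩ := zspan_apply_one_int (fun η hη => by
      obtain ⟨n, -, hn⟩ := hdeg η (hXS hη)
      exact ⟨n, by rw [hn]; simp⟩) x hx
    obtain ⟨ty, hty⟩ := zspan_apply_one_int (fun η hη => by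
      obtain ⟨n, -, hn⟩ := hdeg η (hYS hη)
      exact ⟨n, by rw [hn]; simp⟩) y hy
    have hsum : tx + ty = 0 := by
      have h1 := hθ.2 1 (by simp)
      rw [Pi.add_apply, htx, hty] at h1
      exact_mod_cast h1
    have hA := hdiff X x χ₀ p tx hx (mem_zspan hχ₀) (by
      rw [htx, hp']
      push_cast
      ring)
    have hB := hdiff Y y η₀ q ty hy (mem_zspan hη₀) (by
      rw [hty, hq']
      push_cast
      ring)
    have hZ : (p : ℤ) • η₀ - (q : ℤ) • χ₀ ∈ zspanOn (X ∪ Y) {1}ᶜ :=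
      hdiff (X ∪ Y) η₀ χ₀ p q (mem_zspan (Or.inr hη₀)) (mem_zspan (Or.inl hχ₀)) (by
        rw [hp', hq']
        push_cast
        ring)
    have hζ' : α ((p : ℤ) • η₀ - (q : ℤ) • χ₀) = (p : ℤ) • τ η₀ - (q : ℤ) • σ χ₀ := by
      have e1 : (p : ℤ) • η₀ - (q : ℤ) • χ₀ = χ₀ 1 • η₀ - η₀ 1 • χ₀ := by
        rw [zsmul_eq, zsmul_eq, hp', hq']
        simp
      rw [e1, hζ, zsmul_eq, zsmul_eq, hp', hq']
      simp
    have hσA := hlin X σ hσ x χ₀ p tx hx (mem_zspan hχ₀)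
    have hτB := hlin Y τ hτ y η₀ q ty hy (mem_zspan hη₀)
    have hAS := zspanOn_mono hXS _ hA
    have hBS := zspanOn_mono hYS _ hB
    have hZS := zspanOn_mono hXYS _ hZ
    have hθS := zspanOn_mono hXYS _ hθ
    have hsm : ∀ (k : ℤ) (f : N → ℂ), f ∈ zspanOn S {1}ᶜ → k • f ∈ zspanOn S {1}ᶜ := by
      intro k f hf
      refine ⟨zspan_smul _ hf.1, ?_⟩
      intro z hz
      rw [Pi.smul_apply, hf.2 z hz, smul_zero]
    have hadS : ∀ (f g : N → ℂ), f ∈ zspanOn S {1}ᶜ → g ∈ zspanOn S {1}ᶜ →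
        f + g ∈ zspanOn S {1}ᶜ := by
      intro f g hf hg
      refine ⟨zspan_add hf.1 hg.1, ?_⟩
      intro z hz
      rw [Pi.add_apply, hf.2 z hz, hg.2 z hz, add_zero]
    have hdec : ((p : ℤ) * q) • (x + y) = (q : ℤ) • ((p : ℤ) • x - tx • χ₀) +
        (p : ℤ) • ((q : ℤ) • y - ty • η₀) + ty • ((p : ℤ) • η₀ - (q : ℤ) • χ₀) := by
      have htx' : tx = -ty := by omega
      rw [htx']
      funext z
      simp only [Pi.add_apply, Pi.sub_apply, Pi.smul_apply]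
      simp only [zsmul_eq_mul, Int.cast_mul, Int.cast_natCast, Int.cast_neg]
      ring
    have h1 := hα.2.1 _ hθS ((p : ℤ) * q)
    rw [hdec, hα.1 _ (hadS _ _ (hsm _ _ hAS) (hsm _ _ hBS)) _ (hsm _ _ hZS),
      hα.1 _ (hsm _ _ hAS) _ (hsm _ _ hBS), hα.2.1 _ hAS, hα.2.1 _ hBS, hα.2.1 _ hZS,
      ← hσα _ hA, ← hτα _ hB, hζ', hσA, hτB] at h1
    funext g
    have h2 := congrFun h1 g
    simp only [Pi.add_apply, Pi.sub_apply, Pi.smul_apply] at h2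
    simp only [zsmul_eq_mul, Int.cast_mul, Int.cast_natCast] at h2
    have htx' : (tx : ℂ) = -(ty : ℂ) := by
      have : tx = -ty := by omega
      rw [this]
      push_cast
      ring
    rw [htx'] at h2
    have hpq : (p : ℂ) * (q : ℂ) ≠ 0 := by
      apply mul_ne_zero <;> exact_mod_cast (by omega)
    apply mul_left_cancel₀ hpq
    rw [Pi.add_apply]
    linear_combination h2

end Cfsg.Agent.S1531
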