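import Cfsg.Statements.S1546
import Mathlib

set_option autoImplicit false
open Cfsg

namespace Cfsg.Agent.S1546

/-- Let p and q be odd primes and N = (p ^ q − 1) / (p − 1) = 1 + p + ⋯ + p^(q−1). Then N is odd; if p ≡ 1 (mod q) then q ∣ N; and if p is not ≡ 1 (mod q) then N is coprime to p − 1 and every divisor of N is ≡ 1 (mod q). -/
theorem result (p q : ℕ) (hp : p.Prime) (hq : q.Prime) (hp2 : p ≠ 2) (hq2 : q ≠ 2) : Odd ((p ^ q - 1) / (p - 1)) ∧ (p % q = 1 → q ∣ (p ^ q - 1) / (p - 1)) ∧ (p % q ≠ 1 → Nat.Coprime ((p ^ q - 1) / (p - 1)) (p - 1) ∧ ∀ x : ℕ, x ∣ (p ^ q - 1) / (p - 1) → x % q = 1) := by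
  have hp3 : 2 ≤ p := hp.two_le
  have hq3 : 2 ≤ q := hq.two_le
  have hN : (p ^ q - 1) / (p - 1) = ∑ k ∈ Finset.range q, p ^ k := (Nat.geomSum_eq hp3 q).symm
  rw [hN]
  have hpodd : Odd p := hp.odd_of_ne_two hp2
  have hqodd : Odd q := hq.odd_of_ne_two hq2
  -- congruence of the geometric sum modulo any m with p ≡ 1 [MOD m]
  have hcong : ∀ m : ℕ, p ≡ 1 [MOD m] → ∑ k ∈ Finset.range q, p ^ k ≡ q [MOD m] := by
    intro m hm
    have h1 : ∀ k ∈ Finset.range q, p ^ k ≡ 1 [MOD m] := by
      intro k _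
      simpa using hm.pow k
    have h2 : ∑ k ∈ Finset.range q, p ^ k ≡ ∑ k ∈ Finset.range q, 1 [MOD m] := by
      unfold Nat.ModEq
      rw [Finset.sum_nat_mod, Finset.sum_nat_mod (f := fun _ => 1)]
      congr 1
      exact Finset.sum_congr rfl h1
    simpa using h2
  refine ⟨?_, ?_, ?_⟩
  · have h2 := hcong 2 (by
      rcases hpodd with ⟨t, rfl⟩
      unfold Nat.ModEq; omega)
    rw [Nat.odd_iff] at hqodd ⊢
    unfold Nat.ModEq at h2
    omega
  · intro hpq
    have h2 := hcong q (by unfold Nat.ModEq; rw [hpq, Nat.mod_eq_of_lt (by omega)])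
    exact (Nat.modEq_zero_iff_dvd).mp (h2.trans (by simp [Nat.ModEq]))
  · intro hpq
    have hcop : Nat.Coprime (∑ k ∈ Finset.range q, p ^ k) (p - 1) := by
      have h2 := hcong (p - 1) (by
        have : p = 1 + (p - 1) := by omega
        conv_lhs => rw [this]
        simp [Nat.ModEq])
      have h3 : Nat.gcd (∑ k ∈ Finset.range q, p ^ k) (p - 1) = Nat.gcd q (p - 1) := h2.gcd_eq
      unfold Nat.Coprime
      rw [h3]
      rcases (Nat.coprime_or_dvd_of_prime hq (p - 1)) with h | h
      · exact h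
      · exfalso
        apply hpq
        obtain ⟨c, hc⟩ := h
        have : p = 1 + q * c := by omega
        rw [this, Nat.add_mul_mod_self_left, Nat.mod_eq_of_lt (by omega)]
    refine ⟨hcop, ?_⟩
    have hprime : ∀ r : ℕ, r.Prime → r ∣ ∑ k ∈ Finset.range q, p ^ k → r % q = 1 := by
      intro r hr hrN
      have : Fact r.Prime := ⟨hr⟩
      have : Fact q.Prime := ⟨hq⟩
      have hmul : (∑ k ∈ Finset.range q, p ^ k) * (p - 1) = p ^ q - 1 := by
        rw [← hN]
        exact Nat.div_mul_cancel (by simpa using Nat.sub_dvd_pow_sub_pow p 1 q)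
      have hr1 : r ∣ p ^ q - 1 := hmul ▸ Dvd.dvd.mul_right hrN _
      have hpq1 : ((p : ZMod r)) ^ q = 1 := by
        have h1 : 1 ≤ p ^ q := Nat.one_le_pow _ _ (by omega)
        have : ((p ^ q - 1 : ℕ) : ZMod r) = 0 := (ZMod.natCast_eq_zero_iff _ _).mpr hr1
        rw [Nat.cast_sub h1] at this
        push_cast at this
        exact sub_eq_zero.mp this
      have hp1 : (p : ZMod r) ≠ 1 := by
        intro h
        have h1 : ((p - 1 : ℕ) : ZMod r) = 0 := by
          rw [Nat.cast_sub (by omega)]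
          simp [h]
        have h2 : r ∣ p - 1 := (ZMod.natCast_eq_zero_iff _ _).mp h1
        have h3 : r ∣ 1 := by
          have := Nat.dvd_gcd hrN h2
          rwa [hcop] at this
        exact hr.one_lt.ne' (Nat.dvd_one.mp h3)
      have hord : orderOf (p : ZMod r) = q := orderOf_eq_prime hpq1 hp1
      have hp0 : (p : ZMod r) ≠ 0 := by
        intro h
        rw [h, zero_pow (by omega)] at hpq1
        exact zero_ne_one hpq1
      have hdvd : q ∣ r - 1 := hord ▸ ZMod.orderOf_dvd_card_sub_one hp0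
      obtain ⟨c, hc⟩ := hdvd
      have : r = 1 + q * c := by have := hr.two_le; omega
      rw [this, Nat.add_mul_mod_self_left, Nat.mod_eq_of_lt (by omega)]
    intro x
    induction x using Nat.recOnMul with
    | zero =>
      intro h
      exfalso
      have h0 : ∑ k ∈ Finset.range q, p ^ k = 0 := Nat.eq_zero_of_zero_dvd h
      have h1 : 0 < ∑ k ∈ Finset.range q, p ^ k :=
        Finset.sum_pos (fun k _ => Nat.pow_pos (by omega)) ⟨0, by simp; omega⟩
      omega
    | one => intro _; exact Nat.mod_eq_of_lt (by omega)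
    | prime r hr => exact hprime r hr
    | mul a b iha ihb =>
      intro h
      have ha := iha (Dvd.dvd.trans (Dvd.intro _ rfl) h)
      have hb := ihb (Dvd.dvd.trans (Dvd.intro_left _ rfl) h)
      rw [Nat.mul_mod, ha, hb]
      exact Nat.mod_eq_of_lt (by omega)

end Cfsg.Agent.S1546
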