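import Cfsg.Statements.S1554
import Mathlib
import Cfsg.Agent.Lib.Helper10.OctStab

set_option autoImplicit false
open scoped Pointwise
open Cfsg

namespace Cfsg.Agent.S1554

open Cfsg Cfsg.Agent.Lib.Helper28 Cfsg.Agent.Lib.Helper10
open scoped Pointwise


/-- An octad stabiliser is a split extension: the joint stabiliser of the octad and a point outside it is a complement to the pointwise stabiliser of the octad, and is isomorphic to the alternating group of degree 8. -/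
theorem result (o : Finset Cfsg.GolayPt) (ho : o ∈ Cfsg.octads) (p : Cfsg.GolayPt) (hp : p ∉ o) : (Cfsg.M24 ⊓ fixingSubgroup (Equiv.Perm Cfsg.GolayPt) (o : Set Cfsg.GolayPt)) ⊓ (Cfsg.M24 ⊓ MulAction.stabilizer (Equiv.Perm Cfsg.GolayPt) o ⊓ MulAction.stabilizer (Equiv.Perm Cfsg.GolayPt) p) = ⊥ ∧ (Cfsg.M24 ⊓ fixingSubgroup (Equiv.Perm Cfsg.GolayPt) (o : Set Cfsg.GolayPt)) ⊔ (Cfsg.M24 ⊓ MulAction.stabilizer (Equiv.Perm Cfsg.GolayPt) o ⊓ MulAction.stabilizer (Equiv.Perm Cfsg.GolayPt) p) = (Cfsg.M24 ⊓ MulAction.stabilizer (Equiv.Perm Cfsg.GolayPt) o) ∧ Nonempty (↥(Cfsg.M24 ⊓ MulAction.stabilizer (Equiv.Perm Cfsg.GolayPt) o ⊓ MulAction.stabilizer (Equiv.Perm Cfsg.GolayPt) p) ≃* alternatingGroup (Fin 8)) := by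
  have hfixmem : ∀ g : Equiv.Perm GolayPt, g ∈ fixingSubgroup (Equiv.Perm GolayPt) (o : Set GolayPt) ↔ ∀ x ∈ o, g x = x := by
    intro g
    rw [mem_fixingSubgroup_iff]
    rfl
  have key : ∀ g ∈ M24, g • o = o → ∃ e ∈ M24, (∀ x ∈ o, e x = x) ∧ (e⁻¹ * g) p = p := by
    intro g hg hgo
    have hq : g p ∉ o := by rw [apply_mem_iff_of_smul_eq hgo]; exact hp
    obtain ⟨e, he, he1, he2⟩ := exists_fix_octad_map ho hp hq
    exact ⟨e, he, he1, by rw [Equiv.Perm.mul_apply, Equiv.Perm.inv_eq_iff_eq, he2]⟩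
  refine ⟨?_, ?_, ?_⟩
  · rw [eq_bot_iff]
    rintro g ⟨⟨hg, hgf⟩, ⟨-, hgp⟩⟩
    rw [Subgroup.mem_bot]
    exact eq_one_of_fix_octad_pt ho hp hg ((hfixmem g).1 hgf) (MulAction.mem_stabilizer_iff.1 hgp)
  · apply le_antisymm
    · apply sup_le
      · rintro g ⟨hg, hgf⟩
        refine ⟨hg, ?_⟩
        show g ∈ MulAction.stabilizer (Equiv.Perm GolayPt) o
        rw [MulAction.mem_stabilizer_iff]
        exact smul_eq_of_maps (fun x hx => by rw [(hfixmem g).1 hgf x hx]; exact hx)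
      · exact inf_le_left
    · rintro g ⟨hg, hgo⟩
      have hgo' : g • o = o := MulAction.mem_stabilizer_iff.1 hgo
      obtain ⟨e, he, he1, he2⟩ := key g hg hgo'
      have heo : e • o = o := smul_eq_of_maps (fun x hx => by rw [he1 x hx]; exact hx)
      have : g = e * (e⁻¹ * g) := by group
      rw [this]
      apply Subgroup.mul_mem_sup
      · exact ⟨he, (hfixmem e).2 he1⟩
      · refine ⟨⟨M24.mul_mem (M24.inv_mem he) hg, ?_⟩, MulAction.mem_stabilizer_iff.2 he2⟩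
        show e⁻¹ * g ∈ MulAction.stabilizer (Equiv.Perm GolayPt) o
        rw [MulAction.mem_stabilizer_iff, mul_smul, hgo', inv_smul_eq_iff, heo]
  · let K := Cfsg.M24 ⊓ MulAction.stabilizer (Equiv.Perm Cfsg.GolayPt) o ⊓ MulAction.stabilizer (Equiv.Perm Cfsg.GolayPt) p
    let ι : ↥K →* ↥(MulAction.stabilizer M24 o) :=
      MonoidHom.mk' (fun g => ⟨⟨g.1, g.2.1.1⟩, MulAction.mem_stabilizer_iff.2 (MulAction.mem_stabilizer_iff.1 g.2.1.2)⟩)
        (fun a b => rfl)
    let ψ : ↥K →* Equiv.Perm ↥o := (restrictHom M24 o).comp ι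
    have hψ : ∀ (g : ↥K) (x : ↥o), ((ψ g x : ↥o) : GolayPt) = g.1 x := fun g x => rfl
    have hinj : Function.Injective ψ := by
      rw [injective_iff_map_eq_one]
      intro g hg
      apply Subtype.ext
      apply eq_one_of_fix_octad_pt ho hp g.2.1.1 _ (MulAction.mem_stabilizer_iff.1 g.2.2)
      intro x hx
      rw [← hψ g ⟨x, hx⟩, hg]
      rfl
    have hrange : ψ.range = alternatingGroup ↥o := by
      rw [← range_restrict ho]
      apply le_antisymm
      · rintro _ ⟨g, rfl⟩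
        exact ⟨ι g, rfl⟩
      · rintro _ ⟨k, rfl⟩
        have hko : k.1.1 • o = o := k.2
        obtain ⟨e, he, he1, he2⟩ := key k.1.1 k.1.2 hko
        have heo : e • o = o := smul_eq_of_maps (fun x hx => by rw [he1 x hx]; exact hx)
        refine ⟨⟨e⁻¹ * k.1.1, ⟨M24.mul_mem (M24.inv_mem he) k.1.2, ?_⟩, MulAction.mem_stabilizer_iff.2 he2⟩, ?_⟩
        · show e⁻¹ * k.1.1 ∈ MulAction.stabilizer (Equiv.Perm GolayPt) o
          rw [MulAction.mem_stabilizer_iff, mul_smul, hko, inv_smul_eq_iff, heo]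
        · apply Equiv.ext
          intro x
          apply Subtype.ext
          show e⁻¹ (k.1.1 x) = k.1.1 x
          rw [Equiv.Perm.inv_eq_iff_eq, he1 _ ((apply_mem_iff_of_smul_eq hko x).2 x.2)]
    exact ⟨((MonoidHom.ofInjective hinj).trans (MulEquiv.subgroupCongr hrange)).trans
      (Equiv.altCongrHom (o.equivFinOfCardEq (octad_card ho)))⟩

end Cfsg.Agent.S1554
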