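import Cfsg.Statements.S1555
import Mathlib
import Cfsg.Agent.Lib.Helper10.M24Sextet
import Cfsg.Agent.Lib.Helper28.GolayOct2

set_option autoImplicit false
open scoped Pointwise
open Cfsg

namespace Cfsg.Agent.S1555

open Cfsg.Agent.Lib.Helper28 Cfsg.Agent.Lib.Helper10
open scoped Pointwise

theorem cnt (x t : Finset GolayPt) : {o' : Finset GolayPt | o' ∈ octads ∧ x ∩ o' = t}.ncard =
    countBelow (fun j => and (Nat.beq (pcF (encF j)) 8)
      (Nat.beq (Nat.land (mask x) (encF j)) (mask t))) 4096 :=
  ncard_octads_filter (P := fun o' => x ∩ o' = t)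
    (f := fun m => Nat.beq (Nat.land (mask x) m) (mask t)) (fun s _ => by
      rw [Nat.beq_eq]
      constructor
      · intro h; rw [← h, mask_inter]; rfl
      · intro h; apply mask_injective; rw [mask_inter]; exact h)

theorem transp {g : Equiv.Perm GolayPt} (hg : g ∈ M24) (o s : Finset GolayPt) :
    {o' : Finset GolayPt | o' ∈ octads ∧ o ∩ o' = s}.ncard =
      {o' : Finset GolayPt | o' ∈ octads ∧ g • o ∩ o' = g • s}.ncard :=
  ncard_transport g _ _ (fun x => by
    simp only [Set.mem_ofPred_eq]
    rw [← smul_mem_octads_iff hg, ← Finset.smul_finset_inter, smul_left_cancel_iff])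

/-- Bottom row of the Leech triangle: an octad is met in a prescribed pair of its points by exactly 16 octads and in a prescribed 4-subset by exactly 4 octads. -/
theorem result (o : Finset Cfsg.GolayPt) (ho : o ∈ Cfsg.octads) (s : Finset Cfsg.GolayPt) (hs : s ⊆ o) : (s.card = 2 → {o' : Finset Cfsg.GolayPt | o' ∈ Cfsg.octads ∧ o ∩ o' = s}.ncard = 16) ∧ (s.card = 4 → {o' : Finset Cfsg.GolayPt | o' ∈ Cfsg.octads ∧ o ∩ o' = s}.ncard = 4) := by
  constructor
  · intro h2
    obtain ⟨p, q, hpq, rfl⟩ := Finset.card_eq_two.1 h2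
    have hp : p ∈ o := hs (by simp)
    have hq : q ∈ o := hs (by simp)
    obtain ⟨h, hh, h1, h23, h0⟩ := octad_std2 ho hp hq hpq
    have e : h • ({p, q} : Finset GolayPt) = unmask 8388609 := by
      rw [Finset.smul_finset_insert, Finset.smul_finset_singleton]
      show ({h p, h q} : Finset GolayPt) = _
      rw [h23, h0]; decide
    rw [transp hh, h1, e, cnt, mask_stdOctad, mask_unmask _ (by norm_num)]
    decide +kernel
  · intro h4
    obtain ⟨g, hg, hgs⟩ := tetrad_std h4
    rw [transp hg, hgs, cnt, mask_unmask _ (by norm_num)]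
    have hx := Cfsg.Agent.Lib.Helper28.smul_mem_octads hg ho
    have hsub : unmask 8388615 ⊆ g • o := hgs ▸ Finset.smul_finset_subset_smul_finset hs
    have key := forall_octads_of_check (f := fun X => or (not (Nat.beq (Nat.land X 8388615) 8388615))
      (Nat.beq (countBelow (fun j => and (Nat.beq (pcF (encF j)) 8)
        (Nat.beq (Nat.land X (encF j)) 8388615)) 4096) 4)) (by decide +kernel) hx
    have h5 : Nat.land (mask (g • o)) 8388615 = 8388615 := by
      have e1 : (g • o) ∩ unmask 8388615 = unmask 8388615 := Finset.inter_eq_right.2 hsub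
      have e2 := congrArg mask e1
      rwa [mask_inter, mask_unmask _ (by norm_num)] at e2
    have key' : or (not (Nat.beq (Nat.land (mask (g • o)) 8388615) 8388615))
      (Nat.beq (countBelow (fun j => and (Nat.beq (pcF (encF j)) 8)
        (Nat.beq (Nat.land (mask (g • o)) (encF j)) 8388615)) 4096) 4) = true := key
    rw [h5] at key'
    have h6 : Nat.beq 8388615 8388615 = true := by decide
    rw [h6] at key'
    exact Nat.eq_of_beq_eq_true (by simpa using key')

end Cfsg.Agent.S1555
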