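import Cfsg.Statements.S1557
import Mathlib
import Cfsg.Agent.Lib.Helper10.TrioArr

set_option autoImplicit false
open scoped Pointwise
open Cfsg

namespace Cfsg.Agent.S1557

open Cfsg Cfsg.Agent.Lib.Helper28 Cfsg.Agent.Lib.Helper10
open scoped Pointwise


/-- The complement of the union of two disjoint octads is an octad, and the code has exactly 3795 trios of pairwise disjoint octads. -/
theorem result : (∀ o o' : Finset Cfsg.GolayPt, o ∈ Cfsg.octads → o' ∈ Cfsg.octads → Disjoint o o' → (o ∪ o')ᶜ ∈ Cfsg.octads) ∧ Cfsg.trios.ncard = 3795 := by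
  refine ⟨?_, ncard_trios⟩
  intro o o' ho ho' hd
  have c1 := octad_card ho
  have c2 := octad_card ho'
  rw [mem_octads_iff] at ho ho' ⊢
  refine ⟨?_, ?_⟩
  · rw [mask_compl', ← Finset.sup_eq_union, ← hd.symmDiff_eq_sup, mask_symmDiff]
    exact isCode_xor _ _ (by decide +kernel) (isCode_xor _ _ ho.1 ho'.1)
  · rw [Finset.card_compl, Finset.card_union_of_disjoint hd, c1, c2]
    decide

end Cfsg.Agent.S1557
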