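import Cfsg.Statements.S1562
import Mathlib
import Cfsg.Agent.Lib.Helper10.M24Triad

set_option autoImplicit false
open scoped Pointwise
open Cfsg

namespace Cfsg.Agent.S1562

open Cfsg Cfsg.Agent.Lib.Helper28 Cfsg.Agent.Lib.Helper10
open scoped Pointwise

noncomputable def fIn (m : ℕ) : Bool := and (Nat.beq (Nat.land 8388611 m) 0) (inOcts L21 m)

noncomputable def fOut (m : ℕ) : Bool := and (Nat.beq (Nat.land 8388611 m) 0) (not (inOcts L21 m))

theorem countIn : cntW 24 3 fIn = 210 := by decide +kernel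

theorem countOut : cntW 24 3 fOut = 1120 := by decide +kernel

theorem mask_T0 : mask (unmask 8388611) = 8388611 := mask_unmask _ (by norm_num)

theorem oct_iff (U : Finset GolayPt) : (∃ o ∈ octads, unmask 8388611 ∪ U ⊆ o) ↔ inOcts L21 (mask U) = true :=
  exists_octad_iff L21_ok (by norm_num) U

theorem tr_oct {a : Equiv.Perm GolayPt} (ha : a ∈ M24) {T : Finset GolayPt} (haT : a • T = unmask 8388611)
    (U : Finset GolayPt) : (∃ o ∈ octads, T ∪ U ⊆ o) ↔ inOcts L21 (mask (a • U)) = true := by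
  rw [← oct_iff, ← haT, ← Finset.smul_finset_union, exists_octad_smul_iff ha]

theorem tr_disj {a : Equiv.Perm GolayPt} {T : Finset GolayPt} (haT : a • T = unmask 8388611)
    (U : Finset GolayPt) : Disjoint T U ↔ Nat.beq (Nat.land 8388611 (mask (a • U))) 0 = true := by
  rw [← smul_disjoint_iff a, haT, disjoint_iff_mask, mask_T0]


/-- Orbits of a triad stabiliser on the triads disjoint from it: the 210 triads inside a common octad with it form one orbit and the remaining 1120 another. -/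
theorem result (T : Finset Cfsg.GolayPt) (hT : T.card = 3) : {U : Finset Cfsg.GolayPt | U.card = 3 ∧ Disjoint T U ∧ (∃ o ∈ Cfsg.octads, T ∪ U ⊆ o)}.ncard = 210 ∧ {U : Finset Cfsg.GolayPt | U.card = 3 ∧ Disjoint T U ∧ ¬ (∃ o ∈ Cfsg.octads, T ∪ U ⊆ o)}.ncard = 1120 ∧ ∀ U U' : Finset Cfsg.GolayPt, U.card = 3 → U'.card = 3 → Disjoint T U → Disjoint T U' → ((∃ o ∈ Cfsg.octads, T ∪ U ⊆ o) ↔ (∃ o ∈ Cfsg.octads, T ∪ U' ⊆ o)) → ∃ g : Equiv.Perm Cfsg.GolayPt, g ∈ Cfsg.M24 ∧ g • T = T ∧ g • U = U' := by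
  obtain ⟨a, ha, haT⟩ := triad_std hT
  refine ⟨?_, ?_, ?_⟩
  · rw [← countIn, ← ncard_weight_eq]
    apply ncard_transport a
    intro U
    simp only [Set.mem_ofPred_eq]
    rw [Finset.card_smul_finset, tr_disj haT, tr_oct ha haT, fIn, Bool.and_eq_true]
  · rw [← countOut, ← ncard_weight_eq]
    apply ncard_transport a
    intro U
    simp only [Set.mem_ofPred_eq]
    rw [Finset.card_smul_finset, tr_disj haT, tr_oct ha haT, fOut, Bool.and_eq_true, Bool.not_eq_true',
      Bool.not_eq_true]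
  · intro U U' hU hU' hd hd' hiff
    rw [tr_disj haT] at hd hd'
    rw [tr_oct ha haT, tr_oct ha haT] at hiff
    have hb : inOcts L21 (mask (a • U)) = inOcts L21 (mask (a • U')) := by
      rw [Bool.eq_iff_iff]; exact hiff
    have hcls : t3_cls (mask (a • U)) = t3_cls (mask (a • U')) := by
      unfold t3_cls
      rw [Nat.eq_of_beq_eq_true hd, Nat.eq_of_beq_eq_true hd', hb]
    obtain ⟨g, hg, hgs⟩ := triad_orbits_std (s := a • U) (t := a • U') (by rw [Finset.card_smul_finset, hU])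
      (by rw [Finset.card_smul_finset, hU']) hcls
    obtain ⟨hg1, hg2⟩ := mem_stabK.1 hg
    have hg3 : g • unmask 8388611 = unmask 8388611 := hg2 _ (by simp)
    refine ⟨a⁻¹ * g * a, M24.mul_mem (M24.mul_mem (M24.inv_mem ha) hg1) ha, ?_, ?_⟩
    · rw [mul_smul, mul_smul, haT, hg3, ← haT, inv_smul_smul]
    · rw [mul_smul, mul_smul, hgs, inv_smul_smul]

end Cfsg.Agent.S1562
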