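import Cfsg.Statements.S1564
import Mathlib
import Cfsg.Agent.Lib.Helper10.M24Triad
import Cfsg.Agent.Lib.Helper10.Primitive

set_option autoImplicit false
open scoped Pointwise
open Cfsg

namespace Cfsg.Agent.S1564

open Cfsg Cfsg.Agent.Lib.Helper28 Cfsg.Agent.Lib.Helper10
open scoped Pointwise

def nn (i : ℕ) : ℕ :=
  if i = 0 then 1120 else if i = 1 then 210 else if i = 3 then 630 else if i = 5 then 63 else if i = 7 then 1 else 0

theorem std_max : IsCoatom (MulAction.stabilizer Cfsg.M24 (unmask 8388611)) := by
  have hc : (unmask 8388611).card = 3 := by rw [unmask_triad]; decide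
  apply isCoatom_of_classes' (MulAction.stabilizer Cfsg.M24 (unmask 8388611)) (unmask 8388611)
    {y : Finset GolayPt | y.card = 3} (fun y => t3_cls (mask y)) {0, 1, 3, 5, 7} nn 7
  · decide
  · decide
  · simp only [mask_unmask 8388611 (by norm_num)]; decide +kernel
  · intro y
    constructor
    · intro hy
      obtain ⟨g, hg, h⟩ := triad_std hy
      exact ⟨⟨g⁻¹, M24.inv_mem hg⟩, by rw [← h]; exact inv_smul_smul g y⟩
    · rintro ⟨g, rfl⟩
      show ((g : Equiv.Perm GolayPt) • unmask 8388611).card = 3
      rw [Finset.card_smul_finset, hc]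
  · exact le_refl _
  · intro y hy
    simp only [Finset.mem_insert, Finset.mem_singleton]
    exact t3_cls_mem hy
  · intro i hi
    simp only [Finset.mem_insert, Finset.mem_singleton] at hi
    have := t3_count i
    simp only [Set.mem_ofPred_eq]
    rw [this]
    rcases hi with rfl | rfl | rfl | rfl | rfl
    · exact t3_count0
    · exact t3_count1
    · exact t3_count3
    · exact t3_count5
    · exact t3_count7
  · intro y hy z hz hyz
    obtain ⟨g, hg, h2⟩ := triad_orbits_std hy hz hyz
    obtain ⟨hg1, hg2⟩ := mem_stabK.1 hg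
    exact ⟨⟨g, hg1⟩, hg2 _ (by simp), h2⟩
  · intro h hh
    have : h • unmask 8388611 = unmask 8388611 := hh
    simp only [this]


/-- The stabiliser of a set of three points (setwise) is a maximal proper subgroup of the group of the length-24 code. -/
theorem result (s : Finset Cfsg.GolayPt) (hs : s.card = 3) : IsCoatom (MulAction.stabilizer Cfsg.M24 s) := by
  obtain ⟨g, hg, h⟩ := triad_std hs
  have h1 : s = (⟨g⁻¹, M24.inv_mem hg⟩ : ↥M24) • unmask 8388611 := by
    rw [← h]; exact (inv_smul_smul g s).symm
  rw [h1]
  exact isCoatom_stabilizer_smul _ _ std_max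

end Cfsg.Agent.S1564
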