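import Cfsg.Statements.S1565
import Mathlib
import Cfsg.Agent.Lib.Helper10.M24Oct
import Cfsg.Agent.Lib.Helper10.Primitive
import Cfsg.Agent.S1556

set_option autoImplicit false
open scoped Pointwise
open Cfsg

namespace Cfsg.Agent.S1565

open Cfsg Cfsg.Agent.Lib.Helper28 Cfsg.Agent.Lib.Helper10
open scoped Pointwise

def nn (i : ℕ) : ℕ := if i = 0 then 30 else if i = 2 then 448 else if i = 4 then 280 else if i = 8 then 1 else 0


/-- The stabiliser of an octad is a maximal proper subgroup of the group of the length-24 code. -/
theorem result (o : Finset Cfsg.GolayPt) (ho : o ∈ Cfsg.octads) : IsCoatom (MulAction.stabilizer Cfsg.M24 o) := by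
  apply isCoatom_of_classes' (MulAction.stabilizer Cfsg.M24 o) o octads (fun y => (o ∩ y).card) {0, 2, 4, 8} nn 8
  · decide
  · decide
  · simp only [Finset.inter_self]; exact octad_card ho
  · intro y
    constructor
    · intro hy
      obtain ⟨g, hg, h⟩ := octads_trans ho hy
      exact ⟨⟨g, hg⟩, h⟩
    · rintro ⟨g, rfl⟩
      exact smul_mem_octads g.2 ho
  · exact le_refl _
  · intro y hy
    simp only [Finset.mem_insert, Finset.mem_singleton]
    exact oct_inter_card ho hy
  · intro i hi
    simp only [Finset.mem_insert, Finset.mem_singleton] at hi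
    rw [oct_count ho]
    rcases hi with rfl | rfl | rfl | rfl
    · exact oct_count0
    · exact oct_count2
    · exact oct_count4
    · exact oct_count8
  · intro y hy z hz hyz
    obtain ⟨g, hg, h1, h2⟩ := Cfsg.Agent.S1556.result o y z ho hy hz hyz
    exact ⟨⟨g, hg⟩, h1, h2⟩
  · intro h hh
    have : h • o = o := hh
    simp only [this]

end Cfsg.Agent.S1565
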