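import Cfsg.Statements.S1566
import Mathlib
import Cfsg.Agent.Lib.Helper10.M24Dod
import Cfsg.Agent.Lib.Helper10.Primitive

set_option autoImplicit false
open scoped Pointwise
open Cfsg

namespace Cfsg.Agent.S1566

open Cfsg Cfsg.Agent.Lib.Helper28 Cfsg.Agent.Lib.Helper10
open scoped Pointwise

def nn (i : ℕ) : ℕ := if i = 0 then 2 else if i = 32 then 990 else if i = 36 then 1584 else 0

def cc (k : ℕ) : ℕ := Nat.mul k (Nat.sub 12 k)

def isD (c m : ℕ) : Bool := and (isDod m) (Nat.beq (cc (dB_cls m)) c)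

theorem isD_iff (c : ℕ) (s : Finset GolayPt) :
    (isCode (mask s) = true ∧ isD c (mask s) = true) ↔ (s ∈ dodecads ∧ cc (stdDod ∩ s).card = c) := by
  rw [isD, Bool.and_eq_true, ← and_assoc, mem_dodecads_iff', card_inter_eq_pcF, mask_stdDod, Nat.beq_eq]
  rfl

theorem count_cc {d : Finset GolayPt} (hd : d ∈ dodecads) (c : ℕ) :
    {s : Finset GolayPt | s ∈ dodecads ∧ cc (d ∩ s).card = c}.ncard = countAcc (fun j => isD c (encF j)) 4096 0 := by
  obtain ⟨a, ha, had⟩ := dod_std0 hd
  rw [← ncard_code_eq]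
  apply ncard_transport a
  intro s
  simp only [Set.mem_ofPred_eq]
  rw [isD_iff, smul_mem_dodecads_iff ha, ← had, card_smul_inter]

theorem count0 : countAcc (fun j => isD 0 (encF j)) 4096 0 = 2 := by decide +kernel
theorem count32 : countAcc (fun j => isD 32 (encF j)) 4096 0 = 990 := by decide +kernel
theorem count36 : countAcc (fun j => isD 36 (encF j)) 4096 0 = 1584 := by decide +kernel

theorem smul_compl (g : Equiv.Perm GolayPt) (s : Finset GolayPt) : g • sᶜ = (g • s)ᶜ := by
  apply Finset.coe_injective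
  rw [Finset.coe_smul_finset, Finset.coe_compl, Finset.coe_compl, Finset.coe_smul_finset, Set.smul_set_compl]

theorem mask_compl (s : Finset GolayPt) : mask sᶜ = mask s ^^^ 16777215 := by
  have : sᶜ = symmDiff s Finset.univ := by
    ext p; simp [Finset.mem_symmDiff]
  rw [this, mask_symmDiff, mask_univ]
  norm_num

theorem compl_mem {d : Finset GolayPt} (hd : d ∈ dodecads) : dᶜ ∈ dodecads := by
  rw [mem_dodecads_iff] at hd ⊢
  refine ⟨?_, ?_⟩
  · rw [mask_compl]
    exact isCode_xor _ _ hd.1 (by decide +kernel)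
  · rw [Finset.card_compl, hd.2]
    decide

theorem card_compl_inter {d y : Finset GolayPt} (hy : y ∈ dodecads) : (dᶜ ∩ y).card = 12 - (d ∩ y).card := by
  have h1 : y.card = 12 := ((mem_dodecads_iff y).1 hy).2
  have h2 := Finset.card_inter_add_card_sdiff y d
  have h3 : dᶜ ∩ y = y \ d := by
    ext p; simp [and_comm]
  rw [h3, Finset.inter_comm d y]
  omega


/-- The setwise stabiliser of a dodecad together with its complement is a maximal proper subgroup of the group of the length-24 code. -/
theorem result (d : Finset Cfsg.GolayPt) (hd : d ∈ Cfsg.dodecads) : IsCoatom (MulAction.stabilizer Cfsg.M24 ({d, dᶜ} : Finset (Finset Cfsg.GolayPt))) := by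
  have hstab : ∀ g : ↥M24, g • d = d → g ∈ MulAction.stabilizer Cfsg.M24 ({d, dᶜ} : Finset (Finset Cfsg.GolayPt)) := by
    intro g hg
    have hg' : (g : Equiv.Perm GolayPt) • d = d := hg
    rw [MulAction.mem_stabilizer_iff]
    show (g : Equiv.Perm GolayPt) • ({d, dᶜ} : Finset (Finset Cfsg.GolayPt)) = _
    rw [Finset.smul_finset_insert, Finset.smul_finset_singleton, smul_compl, hg']
  have hswap : ∀ g : ↥M24, g • d = dᶜ → g ∈ MulAction.stabilizer Cfsg.M24 ({d, dᶜ} : Finset (Finset Cfsg.GolayPt)) := by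
    intro g hg
    have hg' : (g : Equiv.Perm GolayPt) • d = dᶜ := hg
    rw [MulAction.mem_stabilizer_iff]
    show (g : Equiv.Perm GolayPt) • ({d, dᶜ} : Finset (Finset Cfsg.GolayPt)) = _
    rw [Finset.smul_finset_insert, Finset.smul_finset_singleton, smul_compl, hg', compl_compl, Finset.pair_comm]
  have hdc : d.card = 12 := ((mem_dodecads_iff d).1 hd).2
  apply isCoatom_of_classes' (MulAction.stabilizer Cfsg.M24 ({d, dᶜ} : Finset (Finset Cfsg.GolayPt))) d dodecads
    (fun y => cc (d ∩ y).card) {0, 32, 36} nn 0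
  · decide
  · decide
  · simp only [Finset.inter_self, hdc]; rfl
  · intro y
    constructor
    · intro hy
      obtain ⟨g, hg, h⟩ := dodecads_trans hd hy
      exact ⟨⟨g, hg⟩, h⟩
    · rintro ⟨g, rfl⟩
      exact smul_mem_dodecads g.2 hd
  · intro g hg
    exact hstab g hg
  · intro y hy
    simp only [Finset.mem_insert, Finset.mem_singleton]
    rcases dod_inter_card hd hy with h | h | h | h | h <;> rw [h] <;> decide
  · intro i hi
    simp only [Finset.mem_insert, Finset.mem_singleton] at hi
    rw [count_cc hd]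
    rcases hi with rfl | rfl | rfl
    · exact count0
    · exact count32
    · exact count36
  · intro y hy z hz hyz
    have hyz' : cc (d ∩ y).card = cc (d ∩ z).card := hyz
    have hcase : (d ∩ y).card = (d ∩ z).card ∨ 12 - (d ∩ y).card = (d ∩ z).card := by
      rcases dod_inter_card hd hy with h | h | h | h | h <;> rcases dod_inter_card hd hz with h' | h' | h' | h' | h' <;>
        rw [h, h'] at hyz' ⊢ <;> first | (left; rfl) | (right; rfl) | (exfalso; revert hyz'; decide)
    rcases hcase with h | h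
    · obtain ⟨g, hg, h1, h2⟩ := dod_orbits hd hy hz h
      exact ⟨⟨g, hg⟩, hstab ⟨g, hg⟩ h1, h2⟩
    · obtain ⟨w, hw, hwd⟩ := dodecads_trans hd (compl_mem hd)
      have hwc : w • dᶜ = d := by rw [smul_compl, hwd, compl_compl]
      have h3 : (d ∩ w • y).card = (d ∩ z).card := by
        rw [← h, ← card_compl_inter hy, ← card_smul_inter w dᶜ y, hwc]
      obtain ⟨g, hg, h1, h2⟩ := dod_orbits hd (smul_mem_dodecads hw hy) hz h3
      refine ⟨⟨g, hg⟩ * ⟨w, hw⟩, Subgroup.mul_mem _ (hstab ⟨g, hg⟩ h1) (hswap ⟨w, hw⟩ hwd), ?_⟩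
      rw [mul_smul]
      exact h2
  · intro h hh
    have h1 : (h : Equiv.Perm GolayPt) • ({d, dᶜ} : Finset (Finset Cfsg.GolayPt)) = {d, dᶜ} := hh
    have h2 : (h : Equiv.Perm GolayPt) • d ∈ ({d, dᶜ} : Finset (Finset Cfsg.GolayPt)) := by
      rw [← h1]
      exact Finset.smul_mem_smul_finset (by simp)
    have h3 : h • d = (h : Equiv.Perm GolayPt) • d := rfl
    simp only [Finset.mem_insert, Finset.mem_singleton] at h2
    simp only [h3]
    rcases h2 with h2 | h2 <;> rw [h2]
    simp [hdc, cc]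

end Cfsg.Agent.S1566
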