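import Cfsg.Statements.S1568
import Mathlib
import Cfsg.Agent.Lib.Helper10.LeechMark

set_option autoImplicit false
open Cfsg

namespace Cfsg.Agent.S1568

open Cfsg.Agent.Lib.Helper28 Cfsg.Agent.Lib.Helper10

def V2 : List ℤ := [-2, 0, 2]

def isAbs (k : ℕ) (v : ℤ) : Bool := Nat.beq v.natAbs k

theorem isAbs_iff (k : ℕ) (v : ℤ) : isAbs k v = true ↔ |v| = k := by
  unfold isAbs
  rw [Nat.beq_eq, Int.abs_eq_natAbs]
  norm_cast

set_option maxRecDepth 100000 in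
theorem partA : {x : Cfsg.GolayPt → ℤ | x ∈ Cfsg.leechLattice ∧ Cfsg.sqNorm x = 48 ∧
    ∀ i, x i = 0 ∨ x i = 2 ∨ x i = -2}.ncard = 5275648 := by
  have h := ncard_leech_uniform (2 ^ 100) V2 (by decide) (by decide) sqW 48
  rw [show leechCnt (2 ^ 100) V2 sqW 48 = 5275648 by decide +kernel] at h
  rw [← h]
  congr 1
  ext x
  simp only [Set.mem_ofPred_eq]
  have hV : ∀ v : ℤ, v ∈ V2 ↔ (v = 0 ∨ v = 2 ∨ v = -2) := by
    intro v
    simp only [V2, List.mem_cons, List.not_mem_nil, or_false]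
    omega
  constructor
  · rintro ⟨h1, h2, h3⟩
    refine ⟨h1, fun i => (hV _).2 (h3 i), ?_⟩
    rw [sqNorm_eq_sum_sqW] at h2
    exact_mod_cast h2
  · rintro ⟨h1, h2, h3⟩
    refine ⟨h1, ?_, fun i => (hV _).1 (h2 i)⟩
    rw [sqNorm_eq_sum_sqW, h3]
    rfl

set_option maxRecDepth 100000 in
theorem partB : {x : Cfsg.GolayPt → ℤ | x ∈ Cfsg.leechLattice ∧ Cfsg.sqNorm x = 48 ∧
    ∃ i j k, i ≠ j ∧ j ≠ k ∧ i ≠ k ∧ |x i| = 3 ∧ |x j| = 3 ∧ |x k| = 3}.ncard = 8290304 := by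
  have h := ncard_marker 48 (by norm_num) (isAbs 3) 3
  rw [show ((List.range (25 - 3)).map (fun t => leechCnt (2 ^ 100) V8 (wM (isAbs 3)) (48 + (t + 3) * 2048))).sum
    = 8290304 by decide +kernel] at h
  rw [← h]
  congr 1
  ext x
  simp only [Set.mem_ofPred_eq]
  have key : (∃ i j k, i ≠ j ∧ j ≠ k ∧ i ≠ k ∧ |x i| = 3 ∧ |x j| = 3 ∧ |x k| = 3) ↔
      3 ≤ (Finset.univ.filter (fun i => isAbs 3 (x i) = true)).card := by
    rw [Nat.succ_le_iff, Finset.two_lt_card]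
    simp only [Finset.mem_filter, Finset.mem_univ, true_and, isAbs_iff]
    constructor
    · rintro ⟨i, j, k, h1, h2, h3, h4, h5, h6⟩
      exact ⟨i, h4, j, h5, k, h6, h1, h3, h2⟩
    · rintro ⟨i, h4, j, h5, k, h6, h1, h3, h2⟩
      exact ⟨i, j, k, h1, h2, h3, h4, h5, h6⟩
  rw [key]
  rfl

theorem exists_iff (k : ℕ) (x : Cfsg.GolayPt → ℤ) : (∃ i, |x i| = k) ↔
    1 ≤ (Finset.univ.filter (fun i => isAbs k (x i) = true)).card := by
  rw [Nat.succ_le_iff, Finset.card_pos]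
  constructor
  · rintro ⟨i, hi⟩
    exact ⟨i, by simp [isAbs_iff, hi]⟩
  · rintro ⟨i, hi⟩
    exact ⟨i, by simpa [isAbs_iff] using hi⟩

set_option maxRecDepth 100000 in
theorem partC : {x : Cfsg.GolayPt → ℤ | x ∈ Cfsg.leechLattice ∧ Cfsg.sqNorm x = 48 ∧
    ∃ i, |x i| = 4}.ncard = 3108864 := by
  have h := ncard_marker 48 (by norm_num) (isAbs 4) 1
  rw [show ((List.range (25 - 1)).map (fun t => leechCnt (2 ^ 100) V8 (wM (isAbs 4)) (48 + (t + 1) * 2048))).sum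
    = 3108864 by decide +kernel] at h
  rw [← h]
  congr 1
  ext x
  simp only [Set.mem_ofPred_eq]
  rw [← exists_iff 4 x]
  rfl

set_option maxRecDepth 100000 in
theorem partD : {x : Cfsg.GolayPt → ℤ | x ∈ Cfsg.leechLattice ∧ Cfsg.sqNorm x = 48 ∧
    ∃ i, |x i| = 5}.ncard = 98304 := by
  have h := ncard_marker 48 (by norm_num) (isAbs 5) 1
  rw [show ((List.range (25 - 1)).map (fun t => leechCnt (2 ^ 100) V8 (wM (isAbs 5)) (48 + (t + 1) * 2048))).sum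
    = 98304 by decide +kernel] at h
  rw [← h]
  congr 1
  ext x
  simp only [Set.mem_ofPred_eq]
  rw [← exists_iff 5 x]
  rfl


/-- Shape census of the lattice vectors of sum of squares 48 (customary norm 6): the four families (2^12, 0^12), (±3^3, ±1^21), (±4, ±2^8, 0^15) and (±5, ±1^23) have 5275648, 8290304, 3108864 and 98304 members. -/
theorem result : {x : Cfsg.GolayPt → ℤ | x ∈ Cfsg.leechLattice ∧ Cfsg.sqNorm x = 48 ∧ ∀ i, x i = 0 ∨ x i = 2 ∨ x i = -2}.ncard = 5275648 ∧ {x : Cfsg.GolayPt → ℤ | x ∈ Cfsg.leechLattice ∧ Cfsg.sqNorm x = 48 ∧ ∃ i j k, i ≠ j ∧ j ≠ k ∧ i ≠ k ∧ |x i| = 3 ∧ |x j| = 3 ∧ |x k| = 3}.ncard = 8290304 ∧ {x : Cfsg.GolayPt → ℤ | x ∈ Cfsg.leechLattice ∧ Cfsg.sqNorm x = 48 ∧ ∃ i, |x i| = 4}.ncard = 3108864 ∧ {x : Cfsg.GolayPt → ℤ | x ∈ Cfsg.leechLattice ∧ Cfsg.sqNorm x = 48 ∧ ∃ i, |x i| = 5}.ncard = 98304 := by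
  exact ⟨partA, partB, partC, partD⟩

end Cfsg.Agent.S1568
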