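import Cfsg.Statements.S1573
import Mathlib
import Cfsg.Agent.Lib.Helper10.LeechZone
import Cfsg.Agent.Lib.Helper10.LeechMono
import Cfsg.Agent.Lib.Helper10.LeechMark

set_option autoImplicit false
open Cfsg

namespace Cfsg.Agent.S1573

open Cfsg.Agent.Lib.Helper28 Cfsg.Agent.Lib.Helper10

theorem ncard_dot_eq (g : ↥Cfsg.Co0) (v : ↥Cfsg.leechLattice) (N d : ℤ) :
    {w : Cfsg.GolayPt → ℤ | w ∈ Cfsg.leechLattice ∧ Cfsg.sqNorm w = N ∧
      Cfsg.dotInt (g • v : ↥Cfsg.leechLattice).1 w = d}.ncard =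
    {w : Cfsg.GolayPt → ℤ | w ∈ Cfsg.leechLattice ∧ Cfsg.sqNorm w = N ∧ Cfsg.dotInt v.1 w = d}.ncard := by
  set S : Set ↥Cfsg.leechLattice := {w | Cfsg.sqNorm w.1 = N ∧ Cfsg.dotInt v.1 w.1 = d} with hS
  have h1 : {w : Cfsg.GolayPt → ℤ | w ∈ Cfsg.leechLattice ∧ Cfsg.sqNorm w = N ∧ Cfsg.dotInt v.1 w = d} =
      Subtype.val '' S := by
    ext w
    simp only [Set.mem_ofPred_eq, Set.mem_image, hS]
    constructor
    · rintro ⟨a, b, c⟩; exact ⟨⟨w, a⟩, ⟨b, c⟩, rfl⟩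
    · rintro ⟨w', ⟨b, c⟩, rfl⟩; exact ⟨w'.2, b, c⟩
  have h2 : {w : Cfsg.GolayPt → ℤ | w ∈ Cfsg.leechLattice ∧ Cfsg.sqNorm w = N ∧
      Cfsg.dotInt (g • v : ↥Cfsg.leechLattice).1 w = d} =
      (fun w : ↥Cfsg.leechLattice => (g • w : ↥Cfsg.leechLattice).1) '' S := by
    ext w
    simp only [Set.mem_ofPred_eq, Set.mem_image, hS]
    constructor
    · rintro ⟨a, b, c⟩
      refine ⟨g⁻¹ • ⟨w, a⟩, ⟨?_, ?_⟩, ?_⟩
      · rw [Co0_sqNorm]; exact b
      · rw [← Co0_dot g, smul_inv_smul]; exact c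
      · rw [smul_inv_smul]
    · rintro ⟨w', ⟨b, c⟩, rfl⟩
      exact ⟨(g • w').2, by rw [Co0_sqNorm]; exact b, by rw [Co0_dot]; exact c⟩
  rw [h1, h2, Set.ncard_image_of_injective _ Subtype.val_injective, Set.ncard_image_of_injective]
  intro a b hab
  exact MulAction.injective g (Subtype.ext hab)

def yv0 (k : ℕ) : ℤ := if k = 0 ∨ k = 1 then 4 else 0

def v0 : ↥Cfsg.leechLattice := ⟨fun i => yv0 (idx i), leechChk_spec (by decide +kernel)⟩

theorem sqNorm_v0 : Cfsg.sqNorm v0.1 = 32 := by decide +kernel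

theorem dot_v0 (x : Cfsg.GolayPt → ℤ) : Cfsg.dotInt v0.1 x = 4 * x (pt 0) + 4 * x (pt 1) := by
  unfold Cfsg.dotInt
  rw [sum_pt]
  simp only [Finset.sum_range_succ, Finset.sum_range_zero]
  have h : ∀ k, k < 24 → v0.1 (pt k) = yv0 k := fun k hk => by
    show yv0 (idx (pt k)) = yv0 k
    rw [idx_pt k hk]
  rw [h 0 (by norm_num), h 1 (by norm_num), h 2 (by norm_num), h 3 (by norm_num), h 4 (by norm_num),
    h 5 (by norm_num), h 6 (by norm_num), h 7 (by norm_num), h 8 (by norm_num), h 9 (by norm_num),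
    h 10 (by norm_num), h 11 (by norm_num), h 12 (by norm_num), h 13 (by norm_num), h 14 (by norm_num),
    h 15 (by norm_num), h 16 (by norm_num), h 17 (by norm_num), h 18 (by norm_num), h 19 (by norm_num),
    h 20 (by norm_num), h 21 (by norm_num), h 22 (by norm_num), h 23 (by norm_num)]
  simp [yv0]

def wA (v : ℤ) : ℕ := sqW v + 2048 * (v + 8).toNat

def keysA : List ℕ := [0, 8, 12, 16, 40, 44, 48, 72, 76, 80, 88]

theorem keysA_all : ∀ j, j < 4096 → zoneKey 3 (encF j) ∈ keysA := by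
  intro j hj
  have := allBelow_spec (f := fun j => keysA.contains (zoneKey 3 (encF j))) (n := 4096) (by decide +kernel) j hj
  simpa using this

theorem unmask3 : unmask 3 = {pt 0, pt 1} := by decide +kernel

theorem sum_wA (x : Cfsg.GolayPt → ℤ) : ∑ i, (if i ∈ unmask 3 then wA else sqW) (x i) =
    ∑ i, sqW (x i) + 2048 * ((x (pt 0) + 8).toNat + (x (pt 1) + 8).toNat) := by
  have h : ∀ i, (if i ∈ unmask 3 then wA else sqW) (x i) =
      sqW (x i) + (if i ∈ unmask 3 then 2048 * (x i + 8).toNat else 0) := by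
    intro i
    split_ifs <;> simp [wA]
  simp_rw [h]
  rw [Finset.sum_add_distrib, Finset.sum_ite_mem, Finset.univ_inter, unmask3,
    Finset.sum_pair (by decide)]
  ring

theorem count_v0 (s : ℤ) (hs : -16 ≤ s ∧ s ≤ 16) :
    {w : Cfsg.GolayPt → ℤ | w ∈ Cfsg.leechLattice ∧ Cfsg.sqNorm w = 32 ∧ Cfsg.dotInt v0.1 w = 4 * s}.ncard =
      leechCntZ (2 ^ 100) V8 wA sqW (32 + 2048 * (s + 16).toNat) 3 keysA := by
  rw [← ncard_leech_zone (2 ^ 100) V8 V8_nodup V8_bound wA sqW _ 3 (by norm_num) keysA (by decide) keysA_all]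
  congr 1
  ext x
  simp only [Set.mem_ofPred_eq, sum_wA, dot_v0]
  constructor
  · rintro ⟨h1, h2, h3⟩
    have hV := mem_V8_of_sqNorm_le (x := x) (by rw [h2]; norm_num)
    refine ⟨h1, hV, ?_⟩
    rw [sqNorm_eq_sum_sqW] at h2
    have h2' : ∑ i, sqW (x i) = 32 := by exact_mod_cast h2
    have a0 := (mem_V8 _).1 (hV (pt 0))
    have a1 := (mem_V8 _).1 (hV (pt 1))
    rw [h2']
    omega
  · rintro ⟨h1, hV, h3⟩
    have h4 := sum_sqW_le hV
    have a0 := (mem_V8 _).1 (hV (pt 0))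
    have a1 := (mem_V8 _).1 (hV (pt 1))
    have h5 : ∑ i, sqW (x i) = 32 ∧ (x (pt 0) + 8).toNat + (x (pt 1) + 8).toNat = (s + 16).toNat := by omega
    refine ⟨h1, ?_, by omega⟩
    rw [sqNorm_eq_sum_sqW, h5.1]
    rfl


/-- Census of minimal vectors by inner product with a fixed minimal vector: 4600 have customary inner product −2, 47104 have −1, and 93150 are orthogonal. -/
theorem result (v : Cfsg.GolayPt → ℤ) (hv : v ∈ Cfsg.leechLattice) (hvn : Cfsg.sqNorm v = 32) : {w : Cfsg.GolayPt → ℤ | w ∈ Cfsg.leechLattice ∧ Cfsg.sqNorm w = 32 ∧ Cfsg.dotInt v w = -16}.ncard = 4600 ∧ {w : Cfsg.GolayPt → ℤ | w ∈ Cfsg.leechLattice ∧ Cfsg.sqNorm w = 32 ∧ Cfsg.dotInt v w = -8}.ncard = 47104 ∧ {w : Cfsg.GolayPt → ℤ | w ∈ Cfsg.leechLattice ∧ Cfsg.sqNorm w = 32 ∧ Cfsg.dotInt v w = 0}.ncard = 93150 := by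
  obtain ⟨g, hg⟩ := Co0_trans32 v0 ⟨v, hv⟩ sqNorm_v0 hvn
  have hv' : v = (g • v0 : ↥Cfsg.leechLattice).1 := by rw [hg]
  rw [hv', ncard_dot_eq, ncard_dot_eq, ncard_dot_eq]
  refine ⟨?_, ?_, ?_⟩
  · have := count_v0 (-4) (by norm_num)
    rw [show leechCntZ (2 ^ 100) V8 wA sqW (32 + 2048 * ((-4 : ℤ) + 16).toNat) 3 keysA = 4600 by
      decide +kernel] at this
    exact this
  · have := count_v0 (-2) (by norm_num)
    rw [show leechCntZ (2 ^ 100) V8 wA sqW (32 + 2048 * ((-2 : ℤ) + 16).toNat) 3 keysA = 47104 by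
      decide +kernel] at this
    exact this
  · have := count_v0 0 (by norm_num)
    rw [show leechCntZ (2 ^ 100) V8 wA sqW (32 + 2048 * ((0 : ℤ) + 16).toNat) 3 keysA = 93150 by
      decide +kernel] at this
    exact this

end Cfsg.Agent.S1573
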