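import Cfsg.Statements.S1584
import Mathlib
import Cfsg.Agent.Lib.Helper10.LeechTri4

set_option autoImplicit false
open Cfsg

namespace Cfsg.Agent.S1584

/-- The Higman–Sims group acts with rank 3 and subdegrees 1, 22, 77 on its 100 points, the orbits of a point stabiliser being distinguished by customary inner product 1 with the fixed point. -/
theorem result (v w x : ↥Cfsg.leechLattice) (hv : Cfsg.sqNorm (v : Cfsg.GolayPt → ℤ) = 48) (hw : Cfsg.sqNorm (w : Cfsg.GolayPt → ℤ) = 48) (hvw : Cfsg.dotInt (v : Cfsg.GolayPt → ℤ) (w : Cfsg.GolayPt → ℤ) = -32) (hx : x ∈ {x : ↥Cfsg.leechLattice | Cfsg.sqNorm (x : Cfsg.GolayPt → ℤ) = 32 ∧ Cfsg.dotInt (v : Cfsg.GolayPt → ℤ) (x : Cfsg.GolayPt → ℤ) = 24 ∧ Cfsg.dotInt (w : Cfsg.GolayPt → ℤ) (x : Cfsg.GolayPt → ℤ) = -24}) : {y : ↥Cfsg.leechLattice | y ∈ {x : ↥Cfsg.leechLattice | Cfsg.sqNorm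 (x : Cfsg.GolayPt → ℤ) = 32 ∧ Cfsg.dotInt (v : Cfsg.GolayPt → ℤ) (x : Cfsg.GolayPt → ℤ) = 24 ∧ Cfsg.dotInt (w : Cfsg.GolayPt → ℤ) (x : Cfsg.GolayPt → ℤ) = -24} ∧ Cfsg.dotInt (x : Cfsg.GolayPt → ℤ) (y : Cfsg.GolayPt → ℤ) = 8}.ncard = 22 ∧ {y : ↥Cfsg.leechLattice | y ∈ {x : ↥Cfsg.leechLattice | Cfsg.sqNorm (x : Cfsg.GolayPt → ℤ) = 32 ∧ Cfsg.dotInt (v : Cfsg.GolayPt → ℤ) (x : Cfsg.GolayPt → ℤ) = 24 ∧ Cfsg.dotInt (w : Cfsg.GolayPt → ℤ) (x : Cfsg.GolayPt → ℤ) = -24} ∧ y ≠ x ∧ Cfsg.dotInt (x : Cfsg.GolayPt → ℤ) (y : Cfsg.GolayPt → ℤ) ≠ 8}.ncard = 77 ∧ ∀ y ∈ {x : ↥Cfsg.leechLattice | Cfsg.sqNorm (x : Cfsg.GolayPt → ℤ) = 32 ∧ Cfsg.dotInt (v : Cfsg.GolayPt → ℤ) (x : Cfsg.GolayPt → ℤ) = 24 ∧ Cfsg.dotInt (w : Cfsg.GolayPt → ℤ) (x : Cfsg.GolayPt → ℤ) = -24}, ∀ y' ∈ {x : ↥Cfsg.leechLattice | Cfsg.sqNorm (x : Cfsg.GolayPt → ℤ) = 32 ∧ Cfsg.dotInt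 (v : Cfsg.GolayPt → ℤ) (x : Cfsg.GolayPt → ℤ) = 24 ∧ Cfsg.dotInt (w : Cfsg.GolayPt → ℤ) (x : Cfsg.GolayPt → ℤ) = -24}, y ≠ x → y' ≠ x → (Cfsg.dotInt (x : Cfsg.GolayPt → ℤ) (y : Cfsg.GolayPt → ℤ) = 8 ↔ Cfsg.dotInt (x : Cfsg.GolayPt → ℤ) (y' : Cfsg.GolayPt → ℤ) = 8) → ∃ g : ↥Cfsg.Co0, g • v = v ∧ g • w = w ∧ g • x = x ∧ g • y = y' := by
  have h : Cfsg.Agent.Lib.Helper10.IsHSPair v w := ⟨hv, hw, hvw⟩
  obtain ⟨h1, h2, hall, h3⟩ := Cfsg.Agent.Lib.Helper10.rank100 h hx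
  have hself : ∀ y ∈ Cfsg.Agent.Lib.Helper10.S100 v w, y ≠ x → Cfsg.dotInt x.1 y.1 ≠ 32 := by
    intro y hy hne he
    exact hne (Cfsg.Agent.Lib.Helper10.eq_of_dot_eq hx.1 hy.1 he)
  refine ⟨h1, ?_, ?_⟩
  · rw [← h2]
    congr 1
    ext y
    constructor
    · rintro ⟨a, b, c⟩
      refine ⟨a, ?_⟩
      rcases hall y a with e | e | e
      · exact absurd e (hself y a b)
      · exact absurd e c
      · exact e
    · rintro ⟨a, c⟩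
      refine ⟨a, ?_, ?_⟩
      · rintro rfl
        have e : Cfsg.dotInt (y : Cfsg.GolayPt → ℤ) (y : Cfsg.GolayPt → ℤ) = Cfsg.sqNorm (y : Cfsg.GolayPt → ℤ) :=
          Cfsg.Agent.Lib.Helper10.dotInt_self _
        rw [e, hx.1] at c
        norm_num at c
      · rw [c]; norm_num
  · intro y hy y' hy' hne hne' he
    apply h3 y hy y' hy'
    rcases hall y hy with e | e | e
    · exact absurd e (hself y hy hne)
    · rw [e, he.1 e]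
    · rcases hall y' hy' with e' | e' | e'
      · exact absurd e' (hself y' hy' hne')
      · have := he.2 e'
        rw [e] at this
        norm_num at this
      · rw [e, e']

end Cfsg.Agent.S1584
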