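import Cfsg.Statements.S1587
import Mathlib

set_option autoImplicit false
open Matrix
open Cfsg

namespace Cfsg.Agent.S1587

/-- First step of the characterisation of the rank-24 lattice: in an even lattice without roots, norm-8 vectors congruent modulo 2 are equal, opposite or orthogonal. -/
theorem result (B : Matrix (Fin 24) (Fin 24) ℤ) (hsymm : B.IsSymm) (hpos : ∀ x : Fin 24 → ℤ, x ≠ 0 → 0 < x ⬝ᵥ (B *ᵥ x)) (heven : ∀ x : Fin 24 → ℤ, (2 : ℤ) ∣ x ⬝ᵥ (B *ᵥ x)) (h2 : ∀ x : Fin 24 → ℤ, x ⬝ᵥ (B *ᵥ x) ≠ 2) (x y : Fin 24 → ℤ) (hx : x ⬝ᵥ (B *ᵥ x) = 8) (hy : y ⬝ᵥ (B *ᵥ y) = 8) (hc : ∀ i, (2 : ℤ) ∣ (x - y) i) : y = x ∨ y = -x ∨ x ⬝ᵥ (B *ᵥ y) = 0 := by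
  have hsw : ∀ u v : Fin 24 → ℤ, u ⬝ᵥ (B *ᵥ v) = v ⬝ᵥ (B *ᵥ u) := by
    intro u v
    rw [Matrix.dotProduct_mulVec, ← Matrix.mulVec_transpose, hsymm.eq, dotProduct_comm]
  have hge : ∀ z : Fin 24 → ℤ, z ≠ 0 → 4 ≤ z ⬝ᵥ (B *ᵥ z) := by
    intro z hz
    have h1 := hpos z hz
    have h3 := heven z
    have h4 := h2 z
    omega
  choose z hz using hc
  have hz' : x - y = (2 : ℤ) • z := by
    funext i
    simp [hz i]
  have hw' : x + y = (2 : ℤ) • (z + y) := by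
    have : x = (2 : ℤ) • z + y := by rw [← hz']; abel
    rw [this, smul_add]
    funext i
    simp
    ring
  have e1 : (x - y) ⬝ᵥ (B *ᵥ (x - y)) = 16 - 2 * (x ⬝ᵥ (B *ᵥ y)) := by
    rw [Matrix.mulVec_sub, sub_dotProduct, dotProduct_sub, dotProduct_sub, hx, hy, hsw y x]
    ring
  have e2 : (x + y) ⬝ᵥ (B *ᵥ (x + y)) = 16 + 2 * (x ⬝ᵥ (B *ᵥ y)) := by
    rw [Matrix.mulVec_add, add_dotProduct, dotProduct_add, dotProduct_add, hx, hy, hsw y x]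
    ring
  have e3 : ∀ v : Fin 24 → ℤ, ((2 : ℤ) • v) ⬝ᵥ (B *ᵥ ((2 : ℤ) • v)) = 4 * (v ⬝ᵥ (B *ᵥ v)) := by
    intro v
    rw [Matrix.mulVec_smul, smul_dotProduct, dotProduct_smul]
    simp
    ring
  by_cases hz0 : z = 0
  · left
    rw [hz0, smul_zero] at hz'
    exact (sub_eq_zero.mp hz').symm
  by_cases hw0 : z + y = 0
  · right; left
    rw [hw0, smul_zero] at hw'
    exact (neg_eq_of_add_eq_zero_right hw').symm
  right; right
  have a1 := hge z hz0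
  have a2 := hge (z + y) hw0
  rw [hz', e3] at e1
  rw [hw', e3] at e2
  omega

end Cfsg.Agent.S1587
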