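import Cfsg.Statements.S1588
import Mathlib
import Cfsg.Agent.Lib.Helper10.ModTwo

set_option autoImplicit false
open Matrix
open Cfsg

namespace Cfsg.Agent.S1588

open Cfsg.Agent.Lib.Helper10

theorem bform (B : Matrix (Fin 24) (Fin 24) ℤ) (hsymm : B.IsSymm) :
    BForm (fun x y : Fin 24 → ℤ => x ⬝ᵥ (B *ᵥ y)) where
  add := fun x y z => add_dotProduct x y _
  symm := fun x y => by
    show x ⬝ᵥ (B *ᵥ y) = y ⬝ᵥ (B *ᵥ x)
    rw [Matrix.dotProduct_mulVec, ← Matrix.mulVec_transpose, hsymm.eq, dotProduct_comm]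

theorem cast_eq_iff (x y : Fin 24 → ℤ) :
    ((fun i => ((x i : ℤ) : ZMod 2)) = fun i => ((y i : ℤ) : ZMod 2)) ↔ ∀ i, (2 : ℤ) ∣ (y - x) i := by
  rw [funext_iff]
  apply forall_congr'
  intro i
  rw [ZMod.intCast_eq_intCast_iff_dvd_sub]
  rfl


/-- Second step of the characterisation: under the vector counts of the rank-24 lattice, the norm-8 vectors fall into congruence classes of exactly 48 modulo twice the lattice. -/
theorem result (B : Matrix (Fin 24) (Fin 24) ℤ) (hsymm : B.IsSymm) (hpos : ∀ x : Fin 24 → ℤ, x ≠ 0 → 0 < x ⬝ᵥ (B *ᵥ x)) (heven : ∀ x : Fin 24 → ℤ, (2 : ℤ) ∣ x ⬝ᵥ (B *ᵥ x)) (h2 : ∀ x : Fin 24 → ℤ, x ⬝ᵥ (B *ᵥ x) ≠ 2) (h4 : {x : Fin 24 → ℤ | x ⬝ᵥ (B *ᵥ x) = 4}.ncard = 196560) (h6 : {x : Fin 24 → ℤ | x ⬝ᵥ (B *ᵥ x) = 6}.ncard = 16773120) (h8 : {x : Fin 24 → ℤ | x ⬝ᵥ (B *ᵥ x) = 8}.ncard = 398034000) (x : Fin 24 → ℤ) (hx : x ⬝ᵥ (B *ᵥ x) = 8) : {y : Fin 24 → ℤ | y ⬝ᵥ (B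 *ᵥ y) = 8 ∧ ∀ i, (2 : ℤ) ∣ (x - y) i}.ncard = 48 := by
  have hQ : Nat.card (Fin 24 → ZMod 2) = 2 ^ 24 := by
    rw [Nat.card_eq_fintype_card, Fintype.card_fun, ZMod.card, Fintype.card_fin]
  have main := mod_two_main (ι := Fin 24) (b := fun x y : Fin 24 → ℤ => x ⬝ᵥ (B *ᵥ y)) (by simp)
    (bform B hsymm) ⊤ 1 one_pos
    (by
      intro x _ hx0
      have h1 := hpos x hx0
      obtain ⟨k, hk⟩ := heven x
      have h3 := h2 x
      show 4 * 1 ≤ x ⬝ᵥ (B *ᵥ x)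
      omega)
    (by simpa using h4) (by simpa using h6) (by simpa using h8) hQ
    (fun x i => ((x i : ℤ) : ZMod 2))
    (by
      intro x _ y _ hxy
      have h := (cast_eq_iff x y).1 hxy
      choose z hz using h
      refine ⟨-z, AddSubgroup.mem_top _, ?_⟩
      funext i
      have := hz i
      simp only [Pi.sub_apply, Pi.smul_apply, Pi.neg_apply, smul_eq_mul, nsmul_eq_mul] at this ⊢
      push_cast
      linarith)
  have h := main.2 x (AddSubgroup.mem_top _) (by simpa using hx)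
  rw [← h]
  congr 1
  ext y
  simp only [Set.mem_ofPred_eq, AddSubgroup.mem_top, true_and, mul_one]
  rw [cast_eq_iff y x]

end Cfsg.Agent.S1588
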