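import Cfsg.Statements.S1597
import Cfsg.Agent.Lib.Helper28.Quart2

set_option autoImplicit false
open scoped Pointwise
open Cfsg

namespace Cfsg.Agent.S1597

/-- A dodecad has 220 quartets and its stabiliser is transitive on them. -/
theorem result (d : Finset Cfsg.GolayPt) (hd : d ∈ Cfsg.dodecads) : (Cfsg.quartets d).ncard = 220 ∧ ∀ Q ∈ Cfsg.quartets d, ∀ Q' ∈ Cfsg.quartets d, ∃ g : Equiv.Perm Cfsg.GolayPt, g ∈ Cfsg.M24 ∧ g • d = d ∧ g • Q = Q' := by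
  open Cfsg.Agent.Lib.Helper28 in
  open Cfsg.Agent.Lib.Helper28.Quart in
  refine ⟨?_, fun Q hQ Q' hQ' => quartets_trans hd hQ hQ'⟩
  obtain ⟨g, hg, hgd⟩ := Cfsg.Agent.Lib.Helper28.M24_trans_dodecads hd Cfsg.Agent.Lib.Helper28.stdDodecad_mem
  have hQ : g⁻¹ • Cfsg.Agent.Lib.Helper28.Quart.Q0 ∈ Cfsg.quartets d := by
    have := Cfsg.Agent.Lib.Helper28.Quart.quartets_smul (Cfsg.M24.inv_mem hg) Cfsg.Agent.Lib.Helper28.Quart.Q0_mem
    rwa [← hgd, inv_smul_smul] at this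
  obtain ⟨a, b, c, h, heq⟩ := Cfsg.Agent.Lib.Helper28.Quart.stab_eq hd hQ
  have h0 := Cfsg.Agent.Lib.Helper28.card_inf_stabilizer (G := Cfsg.M24) d (g⁻¹ • Cfsg.Agent.Lib.Helper28.Quart.Q0)
  have h2 : MulAction.orbit (MulAction.stabilizer Cfsg.M24 d) (g⁻¹ • Cfsg.Agent.Lib.Helper28.Quart.Q0) =
      Cfsg.quartets d := by
    ext X
    constructor
    · rintro ⟨k, rfl⟩
      have h3 : k.1.1 • d = d := k.2
      have := Cfsg.Agent.Lib.Helper28.Quart.quartets_smul k.1.2 hQ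
      rw [h3] at this
      exact this
    · intro hX
      obtain ⟨k, hk, hkd, hkX⟩ := Cfsg.Agent.Lib.Helper28.Quart.quartets_trans hd hQ hX
      exact ⟨⟨⟨k, hk⟩, hkd⟩, hkX⟩
  rw [h2, heq, Cfsg.Agent.Lib.Helper28.M9.card_stab_triple h, Cfsg.Agent.Lib.Helper28.card_stab_dodecad hd] at h0
  omega

end Cfsg.Agent.S1597
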