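import Cfsg.Statements.S1618
import Cfsg.Agent.Lib.Helper27.ZCor2
import Cfsg.Agent.S0215

set_option autoImplicit false
open Cfsg

namespace Cfsg.Agent.S1618

/-- A group generated by a class of involutions whose pairwise products (of distinct members) have p-power order for a fixed odd prime p has nilpotent derived subgroup. -/
theorem result {G : Type*} [Group G] [Finite G] (p : ℕ) (hp : p.Prime) (hodd : p ≠ 2) {D : Set G} (hinv : ∀ d ∈ D, orderOf d = 2) (hconj : ∃ d ∈ D, D = conjugatesOf d) (hgen : Subgroup.closure D = ⊤) (hprod : ∀ x ∈ D, ∀ y ∈ D, x ≠ y → ∃ k : ℕ, orderOf (x * y) = p ^ k) : Group.IsNilpotent ↥(commutator G) :=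
  Cfsg.Agent.Lib.Helper27.ZCor.s1618_of (fun P u hu huP hiso => Cfsg.Agent.S0215.result P u hu huP hiso) p hp hodd hinv hconj hgen hprod

end Cfsg.Agent.S1618
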