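import Cfsg.Statements.S1634
import Mathlib
import Cfsg.Agent.Lib.Helper10.LeechTri5

set_option autoImplicit false
open Cfsg

namespace Cfsg.Agent.S1634

/-- The McLaughlin group acts on 2025 points (minimal vectors orthogonal to v with customary inner product 2 with w) transitively with rank 4 and subdegrees 1, 330, 462, 1232. -/
theorem result (v w : ↥Cfsg.leechLattice) (hv : Cfsg.sqNorm (v : Cfsg.GolayPt → ℤ) = 32) (hw : Cfsg.sqNorm (w : Cfsg.GolayPt → ℤ) = 32) (hvw : Cfsg.dotInt (v : Cfsg.GolayPt → ℤ) (w : Cfsg.GolayPt → ℤ) = -8) : {x : ↥Cfsg.leechLattice | Cfsg.sqNorm (x : Cfsg.GolayPt → ℤ) = 32 ∧ Cfsg.dotInt (v : Cfsg.GolayPt → ℤ) (x : Cfsg.GolayPt → ℤ) = 0 ∧ Cfsg.dotInt (w : Cfsg.GolayPt → ℤ) (x : Cfsg.GolayPt → ℤ) = 16}.ncard = 2025 ∧ (∀ x ∈ {x : ↥Cfsg.leechLattice | Cfsg.sqNorm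 (x : Cfsg.GolayPt → ℤ) = 32 ∧ Cfsg.dotInt (v : Cfsg.GolayPt → ℤ) (x : Cfsg.GolayPt → ℤ) = 0 ∧ Cfsg.dotInt (w : Cfsg.GolayPt → ℤ) (x : Cfsg.GolayPt → ℤ) = 16}, ∀ x' ∈ {x : ↥Cfsg.leechLattice | Cfsg.sqNorm (x : Cfsg.GolayPt → ℤ) = 32 ∧ Cfsg.dotInt (v : Cfsg.GolayPt → ℤ) (x : Cfsg.GolayPt → ℤ) = 0 ∧ Cfsg.dotInt (w : Cfsg.GolayPt → ℤ) (x : Cfsg.GolayPt → ℤ) = 16}, ∃ g : ↥Cfsg.Co0, g • v = v ∧ g • w = w ∧ g • x = x') ∧ ∀ x ∈ {x : ↥Cfsg.leechLattice | Cfsg.sqNorm (x : Cfsg.GolayPt → ℤ) = 32 ∧ Cfsg.dotInt (v : Cfsg.GolayPt → ℤ) (x : Cfsg.GolayPt → ℤ) = 0 ∧ Cfsg.dotInt (w : Cfsg.GolayPt → ℤ) (x : Cfsg.GolayPt → ℤ) = 16}, ∃ y₁ ∈ {x : ↥Cfsg.leechLattice | Cfsg.sqNorm (x : Cfsg.GolayPt → ℤ) = 32 ∧ Cfsg.dotInt (v : Cfsg.GolayPt → ℤ) (x : Cfsg.GolayPt → ℤ) = 0 ∧ Cfsg.dotInt (w : Cfsg.GolayPt → ℤ) (x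 : Cfsg.GolayPt → ℤ) = 16}, ∃ y₂ ∈ {x : ↥Cfsg.leechLattice | Cfsg.sqNorm (x : Cfsg.GolayPt → ℤ) = 32 ∧ Cfsg.dotInt (v : Cfsg.GolayPt → ℤ) (x : Cfsg.GolayPt → ℤ) = 0 ∧ Cfsg.dotInt (w : Cfsg.GolayPt → ℤ) (x : Cfsg.GolayPt → ℤ) = 16}, ∃ y₃ ∈ {x : ↥Cfsg.leechLattice | Cfsg.sqNorm (x : Cfsg.GolayPt → ℤ) = 32 ∧ Cfsg.dotInt (v : Cfsg.GolayPt → ℤ) (x : Cfsg.GolayPt → ℤ) = 0 ∧ Cfsg.dotInt (w : Cfsg.GolayPt → ℤ) (x : Cfsg.GolayPt → ℤ) = 16}, (MulAction.orbit ↥(MulAction.stabilizer ↥Cfsg.Co0 v ⊓ MulAction.stabilizer ↥Cfsg.Co0 w ⊓ MulAction.stabilizer ↥Cfsg.Co0 x) y₁).ncard = 330 ∧ (MulAction.orbit ↥(MulAction.stabilizer ↥Cfsg.Co0 v ⊓ MulAction.stabilizer ↥Cfsg.Co0 w ⊓ MulAction.stabilizer ↥Cfsg.Co0 x) y₂).ncard = 462 ∧ (MulAction.orbit ↥(MulAction.stabilizer ↥Cfsg.Co0 v ⊓ MulAction.stabilizer ↥Cfsg.Co0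 w ⊓ MulAction.stabilizer ↥Cfsg.Co0 x) y₃).ncard = 1232 := by
  have h : Cfsg.Agent.Lib.Helper10.IsMcLPair v w := ⟨hv, hw, hvw⟩
  refine ⟨Cfsg.Agent.Lib.Helper10.card2025 h, ?_, ?_⟩
  · intro x hx x' hx'
    exact Cfsg.Agent.Lib.Helper10.trans2025 h hx hx'
  · intro x hx
    obtain ⟨c1, c2, c3, hconj⟩ := Cfsg.Agent.Lib.Helper10.rank2025 h hx
    set H : Subgroup ↥Cfsg.Co0 := MulAction.stabilizer ↥Cfsg.Co0 v ⊓ MulAction.stabilizer ↥Cfsg.Co0 w ⊓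
      MulAction.stabilizer ↥Cfsg.Co0 x with hH
    have hmem : ∀ k, k ∈ H ↔ k • v = v ∧ k • w = w ∧ k • x = x := by
      intro k
      rw [hH, Subgroup.mem_inf, Subgroup.mem_inf, MulAction.mem_stabilizer_iff, MulAction.mem_stabilizer_iff,
        MulAction.mem_stabilizer_iff, and_assoc]
    have hinv : ∀ k ∈ H, ∀ y : ↥Cfsg.leechLattice,
        Cfsg.dotInt x.1 (k • y : ↥Cfsg.leechLattice).1 = Cfsg.dotInt x.1 y.1 := by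
      intro k hk y
      exact Cfsg.Agent.Lib.Helper10.Cert.dot_tr ((hmem k).1 hk).2.2 y
    have hΩ : ∀ k ∈ H, ∀ y ∈ Cfsg.Agent.Lib.Helper10.OmG v w 0 16, k • y ∈ Cfsg.Agent.Lib.Helper10.OmG v w 0 16 := by
      intro k hk y hy
      refine ⟨by rw [Cfsg.Agent.Lib.Helper10.Co0_sqNorm]; exact hy.1, ?_, ?_⟩
      · rw [Cfsg.Agent.Lib.Helper10.Cert.dot_tr ((hmem k).1 hk).1]; exact hy.2.1
      · rw [Cfsg.Agent.Lib.Helper10.Cert.dot_tr ((hmem k).1 hk).2.1]; exact hy.2.2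
    have hc : ∀ y ∈ Cfsg.Agent.Lib.Helper10.OmG v w 0 16, ∀ z ∈ Cfsg.Agent.Lib.Helper10.OmG v w 0 16,
        Cfsg.dotInt x.1 y.1 = Cfsg.dotInt x.1 z.1 → ∃ k ∈ H, k • y = z := by
      intro y hy z hz he
      obtain ⟨g, g1, g2, g3, g4⟩ := hconj y hy z hz he
      exact ⟨g, (hmem g).2 ⟨g1, g2, g3⟩, g4⟩
    obtain ⟨y1, hy1, o1⟩ := Cfsg.Agent.Lib.Helper10.exists_orbit_of_inv (H := H) _ (fun y => Cfsg.dotInt x.1 y.1)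
      hinv hΩ hc 0 330 (by norm_num) c1
    obtain ⟨y2, hy2, o2⟩ := Cfsg.Agent.Lib.Helper10.exists_orbit_of_inv (H := H) _ (fun y => Cfsg.dotInt x.1 y.1)
      hinv hΩ hc 16 462 (by norm_num) c2
    obtain ⟨y3, hy3, o3⟩ := Cfsg.Agent.Lib.Helper10.exists_orbit_of_inv (H := H) _ (fun y => Cfsg.dotInt x.1 y.1)
      hinv hΩ hc 8 1232 (by norm_num) c3
    exact ⟨y1, hy1, y2, hy2, y3, hy3, by rw [o1]; exact c1, by rw [o2]; exact c2, by rw [o3]; exact c3⟩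

end Cfsg.Agent.S1634
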