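import Cfsg.Statements.S1641
import Mathlib
import Cfsg.Agent.Lib.Helper10.LeechTri3

set_option autoImplicit false
open Cfsg

namespace Cfsg.Agent.S1641

/-- The third Conway group acts on the 11178 cosets of the Higman–Sims group with rank 5 and subdegrees 1, 352, 1100, 4125, 5600. -/
theorem result (u x : ↥Cfsg.leechLattice) (hu : Cfsg.sqNorm (u : Cfsg.GolayPt → ℤ) = 48) (hx : x ∈ {x : ↥Cfsg.leechLattice | Cfsg.sqNorm (x : Cfsg.GolayPt → ℤ) = 32 ∧ Cfsg.dotInt (u : Cfsg.GolayPt → ℤ) (x : Cfsg.GolayPt → ℤ) = -16}) : ∃ y₁ ∈ {x : ↥Cfsg.leechLattice | Cfsg.sqNorm (x : Cfsg.GolayPt → ℤ) = 32 ∧ Cfsg.dotInt (u : Cfsg.GolayPt → ℤ) (x : Cfsg.GolayPt → ℤ) = -16}, ∃ y₂ ∈ {x : ↥Cfsg.leechLattice | Cfsg.sqNorm (x : Cfsg.GolayPt → ℤ) = 32 ∧ Cfsg.dotInt (u : Cfsg.GolayPt → ℤ) (x : Cfsg.GolayPt → ℤ) = -16}, ∃ y₃ ∈ {x : ↥Cfsg.leechLattice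 | Cfsg.sqNorm (x : Cfsg.GolayPt → ℤ) = 32 ∧ Cfsg.dotInt (u : Cfsg.GolayPt → ℤ) (x : Cfsg.GolayPt → ℤ) = -16}, ∃ y₄ ∈ {x : ↥Cfsg.leechLattice | Cfsg.sqNorm (x : Cfsg.GolayPt → ℤ) = 32 ∧ Cfsg.dotInt (u : Cfsg.GolayPt → ℤ) (x : Cfsg.GolayPt → ℤ) = -16}, (MulAction.orbit ↥(MulAction.stabilizer ↥Cfsg.Co0 u ⊓ MulAction.stabilizer ↥Cfsg.Co0 x) y₁).ncard = 352 ∧ (MulAction.orbit ↥(MulAction.stabilizer ↥Cfsg.Co0 u ⊓ MulAction.stabilizer ↥Cfsg.Co0 x) y₂).ncard = 1100 ∧ (MulAction.orbit ↥(MulAction.stabilizer ↥Cfsg.Co0 u ⊓ MulAction.stabilizer ↥Cfsg.Co0 x) y₃).ncard = 4125 ∧ (MulAction.orbit ↥(MulAction.stabilizer ↥Cfsg.Co0 u ⊓ MulAction.stabilizer ↥Cfsg.Co0 x) y₄).ncard = 5600 ∧ {x : ↥Cfsg.leechLattice | Cfsg.sqNorm (x : Cfsg.GolayPt → ℤ) = 32 ∧ Cfsg.dotInt (u : Cfsg.GolayPt → ℤ) (x : Cfsg.GolayPt → ℤ) = -16} = {x} ∪ MulAction.orbit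 ↥(MulAction.stabilizer ↥Cfsg.Co0 u ⊓ MulAction.stabilizer ↥Cfsg.Co0 x) y₁ ∪ MulAction.orbit ↥(MulAction.stabilizer ↥Cfsg.Co0 u ⊓ MulAction.stabilizer ↥Cfsg.Co0 x) y₂ ∪ MulAction.orbit ↥(MulAction.stabilizer ↥Cfsg.Co0 u ⊓ MulAction.stabilizer ↥Cfsg.Co0 x) y₃ ∪ MulAction.orbit ↥(MulAction.stabilizer ↥Cfsg.Co0 u ⊓ MulAction.stabilizer ↥Cfsg.Co0 x) y₄ := by
  obtain ⟨c1, c2, c3, c4, hall, hconj⟩ := Cfsg.Agent.Lib.Helper10.rank11178 hu hx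
  set H : Subgroup ↥Cfsg.Co0 := MulAction.stabilizer ↥Cfsg.Co0 u ⊓ MulAction.stabilizer ↥Cfsg.Co0 x with hH
  have hmem : ∀ h, h ∈ H ↔ h • u = u ∧ h • x = x := by
    intro h
    rw [hH, Subgroup.mem_inf, MulAction.mem_stabilizer_iff, MulAction.mem_stabilizer_iff]
  have hinv : ∀ h ∈ H, ∀ y : ↥Cfsg.leechLattice, Cfsg.dotInt x.1 (h • y : ↥Cfsg.leechLattice).1 = Cfsg.dotInt x.1 y.1 := by
    intro h hh y
    have := Cfsg.Agent.Lib.Helper10.Co0_dot h x y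
    rw [((hmem h).1 hh).2] at this
    exact this
  have hΩ : ∀ h ∈ H, ∀ y ∈ Cfsg.Agent.Lib.Helper10.S11178 u, h • y ∈ Cfsg.Agent.Lib.Helper10.S11178 u := by
    intro h hh y hy
    refine ⟨by rw [Cfsg.Agent.Lib.Helper10.Co0_sqNorm]; exact hy.1, ?_⟩
    have := Cfsg.Agent.Lib.Helper10.Co0_dot h u y
    rw [((hmem h).1 hh).1] at this
    rw [this]; exact hy.2
  have hc : ∀ y ∈ Cfsg.Agent.Lib.Helper10.S11178 u, ∀ z ∈ Cfsg.Agent.Lib.Helper10.S11178 u,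
      Cfsg.dotInt x.1 y.1 = Cfsg.dotInt x.1 z.1 → ∃ h ∈ H, h • y = z := by
    intro y hy z hz he
    obtain ⟨g, g1, g2, g3⟩ := hconj y hy z hz he
    exact ⟨g, (hmem g).2 ⟨g1, g2⟩, g3⟩
  obtain ⟨y1, hy1, o1⟩ := Cfsg.Agent.Lib.Helper10.exists_orbit_of_inv (H := H) _ (fun y => Cfsg.dotInt x.1 y.1)
    hinv hΩ hc (-8) 352 (by norm_num) c1
  obtain ⟨y2, hy2, o2⟩ := Cfsg.Agent.Lib.Helper10.exists_orbit_of_inv (H := H) _ (fun y => Cfsg.dotInt x.1 y.1)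
    hinv hΩ hc 16 1100 (by norm_num) c2
  obtain ⟨y3, hy3, o3⟩ := Cfsg.Agent.Lib.Helper10.exists_orbit_of_inv (H := H) _ (fun y => Cfsg.dotInt x.1 y.1)
    hinv hΩ hc 0 4125 (by norm_num) c3
  obtain ⟨y4, hy4, o4⟩ := Cfsg.Agent.Lib.Helper10.exists_orbit_of_inv (H := H) _ (fun y => Cfsg.dotInt x.1 y.1)
    hinv hΩ hc 8 5600 (by norm_num) c4
  refine ⟨y1, hy1, y2, hy2, y3, hy3, y4, hy4, by rw [o1]; exact c1, by rw [o2]; exact c2, by rw [o3]; exact c3,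
    by rw [o4]; exact c4, ?_⟩
  rw [o1, o2, o3, o4]
  ext z
  simp only [Set.mem_union, Set.mem_singleton_iff]
  constructor
  · intro hz
    rcases hall z hz with h | h | h | h | h
    · exact Or.inl (Or.inl (Or.inl (Or.inl (Cfsg.Agent.Lib.Helper10.eq_of_dot_eq hx.1 hz.1 h))))
    · exact Or.inl (Or.inl (Or.inl (Or.inr ⟨hz, h⟩)))
    · exact Or.inl (Or.inl (Or.inr ⟨hz, h⟩))
    · exact Or.inl (Or.inr ⟨hz, h⟩)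
    · exact Or.inr ⟨hz, h⟩
  · rintro ((((rfl | h) | h) | h) | h)
    · exact hx
    · exact h.1
    · exact h.1
    · exact h.1
    · exact h.1

end Cfsg.Agent.S1641
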