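import Cfsg.Statements.S1642
import Mathlib
import Cfsg.Agent.Lib.Helper10.LeechTri4
import Cfsg.Agent.Lib.Helper10.SpanData

set_option autoImplicit false
open Cfsg

namespace Cfsg.Agent.S1642

open Cfsg.Agent.Lib.Helper10 Cfsg.Agent.Lib.Helper28

def invW : List (ℕ × ℕ) := [(517957814508075335536705589945767153, 10249771), (0, 0), (837547613876093303580713612734997608, 3840230), (0, 0), (336222107771489882643215248418845298, 12885646), (0, 0), (173987014033159540493565039584140658, 10088844)]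

theorem invW_ok : okWord invW = true := by decide +kernel

theorem word_sq_fix {w : List (ℕ × ℕ)} (h : okWord w = true) {P : ℕ} (hP : memChk P = true) (hn : nrmP P ≤ 64)
    (hQ : memChk (wordA w P) = true) (hnQ : nrmP (wordA w P) ≤ 64) (hw : wordA w (wordA w P) = P) :
    (wordCo0 w * wordCo0 w) • vecOf P = vecOf P := by
  rw [mul_smul, word_map h hP hn rfl, word_map h hQ hnQ hw]

theorem invW_chk : allBelow (fun j => memChk (spanFX.getD j 0) && decide (nrmP (spanFX.getD j 0) ≤ 64) &&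
    memChk (wordA invW (spanFX.getD j 0)) && decide (nrmP (wordA invW (spanFX.getD j 0)) ≤ 64) &&
    Nat.beq (wordA invW (wordA invW (spanFX.getD j 0))) (spanFX.getD j 0)) 24 = true := by decide +kernel

theorem invW_sq : wordCo0 invW * wordCo0 invW = 1 := by
  have key : ∀ j, j < 24 → unpV (spanFX.getD j 0) ∈ leechLattice ∧
      (wordCo0 invW * wordCo0 invW) • vecOf (spanFX.getD j 0) = vecOf (spanFX.getD j 0) := by
    intro j hj
    have := allBelow_spec invW_chk j hj
    simp only [Bool.and_eq_true, decide_eq_true_eq] at this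
    obtain ⟨⟨⟨⟨h1, h2⟩, h3⟩, h4⟩, h5⟩ := this
    exact ⟨memChk_spec h1, word_sq_fix invW_ok h1 h2 h3 h4 (Nat.eq_of_beq_eq_true h5)⟩
  exact eq_one_of_fix_span spanF_chk (fun j hj => (key j hj).1) _ (fun j hj => (key j hj).2)

theorem invW_fix : wordCo0 invW • stdU0 = stdU0 ∧ wordCo0 invW • stdU1 = stdU1 :=
  ⟨word_map invW_ok (by decide +kernel) (by decide +kernel) (by decide +kernel),
    word_map invW_ok (by decide +kernel) (by decide +kernel) (by decide +kernel)⟩

set_option maxRecDepth 100000 in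
theorem invW_fpf_chk : allBelow (fun k => Nat.blt (wordA invW (entL certF.L k)) (32 ^ 24) &&
    !(Nat.beq (wordA invW (entL certF.L k)) (entL certF.L k))) certF.n = true := by decide +kernel

theorem invW_fpf {x : leechLattice} (hx : x ∈ certF.Om 24 24) : wordCo0 invW • x ≠ x := by
  obtain ⟨k, hk, rfl⟩ := Cert.exists_of_mem certF_good hx
  obtain ⟨h1, h2, -⟩ := Cert.main certF_valid k hk
  intro he
  have h3 := wordA_spec invW_ok (certF.D k) (by rw [h2]; norm_num) h1
  rw [he, h1] at h3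
  have := allBelow_spec invW_fpf_chk k hk
  simp only [Bool.and_eq_true, Bool.not_eq_true'] at this
  obtain ⟨a, b⟩ := this
  have h4 := unpV_inj (entL_lt _ _) (Nat.blt_eq.mp a) h3
  rw [← h4] at b
  simp at b


/-- Some involution of the Higman–Sims group acts without fixed points on its 100 points. -/
theorem result (v w : ↥Cfsg.leechLattice) (hv : Cfsg.sqNorm (v : Cfsg.GolayPt → ℤ) = 48) (hw : Cfsg.sqNorm (w : Cfsg.GolayPt → ℤ) = 48) (hvw : Cfsg.dotInt (v : Cfsg.GolayPt → ℤ) (w : Cfsg.GolayPt → ℤ) = -32) : ∃ g : ↥Cfsg.Co0, g • v = v ∧ g • w = w ∧ orderOf g = 2 ∧ ∀ x ∈ {x : ↥Cfsg.leechLattice | Cfsg.sqNorm (x : Cfsg.GolayPt → ℤ) = 32 ∧ Cfsg.dotInt (v : Cfsg.GolayPt → ℤ) (x : Cfsg.GolayPt → ℤ) = 24 ∧ Cfsg.dotInt (w : Cfsg.GolayPt → ℤ) (x : Cfsg.GolayPt → ℤ) = -24}, g • x ≠ x := by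
  have h : IsHSPair v w := ⟨hv, hw, hvw⟩
  obtain ⟨g0, h1, h2⟩ := exists_std_HS h
  have fpf : ∀ x ∈ S100 v w, (g0⁻¹ * wordCo0 invW * g0) • x ≠ x := by
    intro x hx he
    rw [S100_eq] at hx
    have hx' := (Cert.mem_tr (C := certF) h1 h2 x).2 hx
    apply invW_fpf hx'
    rw [mul_smul, mul_smul, inv_smul_eq_iff] at he
    exact he
  have hsq : (g0⁻¹ * wordCo0 invW * g0) ^ 2 = 1 := by
    rw [pow_two]
    have : g0⁻¹ * wordCo0 invW * g0 * (g0⁻¹ * wordCo0 invW * g0) = g0⁻¹ * (wordCo0 invW * wordCo0 invW) * g0 := by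
      group
    rw [this, invW_sq, mul_one, inv_mul_cancel]
  have hne : g0⁻¹ * wordCo0 invW * g0 ≠ 1 := by
    intro he
    have hn : (S100 v w).Nonempty := Set.nonempty_of_ncard_ne_zero (by rw [card100 h]; norm_num)
    obtain ⟨x, hx⟩ := hn
    apply fpf x hx
    rw [he, one_smul]
  refine ⟨g0⁻¹ * wordCo0 invW * g0, ?_, ?_, orderOf_eq_prime hsq hne, fpf⟩
  · rw [mul_smul, mul_smul, h1, invW_fix.1, ← h1, inv_smul_smul]
  · apply smul_of_smul_neg
    rw [mul_smul, mul_smul, h2, invW_fix.2, ← h2, inv_smul_smul]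

end Cfsg.Agent.S1642
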