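import Cfsg.Agent.Lib.Helper11.Suz22880.Model
-- Template for statement S1681 (row 1681; see /opt/grader/pristine/manifest.json for weights).
-- Copy to Cfsg/Agent/S1681.lean and replace the sorry. The statement below is byte-identical to the frozen
-- statement Cfsg.CfsgFrozen.S1681 (Cfsg/Statements/S1681.lean; the theorem Cfsg.suz_presented_3_u4_3_2_words_index);
-- the grader kernel-checks Cfsg.Agent.S1681.result against that frozen type. Keep the theorem IN THIS FILE
-- (a `result` declared elsewhere and merely imported here is not credited); helpers may live anywhere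
-- under Cfsg/Agent/.
import Cfsg.Statements.S1681
-- import your own Cfsg.Agent.* helpers here

set_option autoImplicit false
open Cfsg

namespace Cfsg.Agent.S1681

/-- In the presented sporadic Suzuki group (generators a, …, g), the subgroup generated by the images of a, b, c, d, f, g has index 22880. -/
theorem result : (((Subgroup.closure ({Cfsg.Spor.Suz.a, Cfsg.Spor.Suz.b, Cfsg.Spor.Suz.c, Cfsg.Spor.Suz.d, Cfsg.Spor.Suz.f, Cfsg.Spor.Suz.g} : Set (FreeGroup Cfsg.Spor.Suz.Gen))).map (PresentedGroup.mk (Cfsg.Spor.coxRelators Cfsg.Spor.Suz.edges ∪ {r | r ∈ Cfsg.Spor.Suz.extra})))).index = 22880 := by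
  open Cfsg.Agent.Lib.Helper11 Cfsg.Agent.Lib.Helper11.Suz22880 in
  obtain ⟨hidx, fq, hinj, horb⟩ := model_main (PresentedGroup.mk (Cfsg.Spor.coxRelators Cfsg.Spor.Suz.edges ∪ {r | r ∈ Cfsg.Spor.Suz.extra}))
    _ psi (fun l => LTFm.getD l 1) INVm (ntOf ntl) _
    (ntOf_ok ntl _ netsOK) psi_eval hExps hS1 hS2 gExps 22880 9 upper hfix0 htr
  exact hidx

end Cfsg.Agent.S1681
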