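import Cfsg.Statements.S1690
import Cfsg.Agent.Lib.Helper11.Fi24o.Model

set_option autoImplicit false
open Cfsg

namespace Cfsg.Agent.S1690

/-- In the presented group Fi₂₄ = Fi₂₄′:2, the subgroup generated by the images of a, b, c, d, e, f, g, h, i, j and l (every generator but k) has index 306936. -/
theorem result : (((Subgroup.closure ({Cfsg.Spor.Fi24.a, Cfsg.Spor.Fi24.b, Cfsg.Spor.Fi24.c, Cfsg.Spor.Fi24.d, Cfsg.Spor.Fi24.e, Cfsg.Spor.Fi24.f, Cfsg.Spor.Fi24.g, Cfsg.Spor.Fi24.h, Cfsg.Spor.Fi24.i, Cfsg.Spor.Fi24.j, Cfsg.Spor.Fi24.l} : Set (FreeGroup Cfsg.Spor.Fi24.Gen))).map (PresentedGroup.mk (Cfsg.Spor.coxRelators Cfsg.Spor.Fi24.edges ∪ {r | r ∈ Cfsg.Spor.Fi24.extra})))).index = 306936 := by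
  open Cfsg.Agent.Lib.Helper11 in
  exact (model_main (PresentedGroup.mk (Cfsg.Spor.coxRelators Cfsg.Spor.Fi24.edges ∪ {r | r ∈ Cfsg.Spor.Fi24.extra}))
    _ Fi24o.psi (fun l => Fi24o.LTFm.getD l 1) Fi24o.INVm (ntOf Fi24o.ntl) _
    (ntOf_ok Fi24o.ntl _ Fi24o.netsOK) Fi24o.psi_eval Fi24o.hExps Fi24o.hS1 Fi24o.hS2 Fi24o.gExps 306936 9
    Fi24a.upper Fi24o.hfix0 Fi24o.htr).1

end Cfsg.Agent.S1690
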