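import Cfsg.Statements.S1691
import Cfsg.Agent.Lib.Helper11.CoxSimple

set_option autoImplicit false
open Cfsg

namespace Cfsg.Agent.S1691

open Cfsg.Agent.Lib.Helper11 Cfsg.Spor Cfsg.Spor.Fi24

theorem commutator_index_two {G : Type*} [Group G] (T : Set G) (hT : Subgroup.closure T = ⊤)
    (u0 : G) (hsame : ∀ s ∈ T, Abelianization.of s = Abelianization.of u0) (hsq : u0 * u0 = 1)
    (sgn : G →* ℤˣ) (hs : sgn u0 = -1) : (commutator G).index = 2 := by
  set u : Abelianization G := Abelianization.of u0 with hu
  have hall : ∀ x : Abelianization G, x ∈ Subgroup.zpowers u := by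
    intro x
    obtain ⟨g, rfl⟩ := QuotientGroup.mk_surjective x
    have hg : g ∈ Subgroup.closure T := by rw [hT]; exact Subgroup.mem_top g
    show Abelianization.of g ∈ _
    induction hg using Subgroup.closure_induction with
    | mem s hs => rw [hsame s hs]; exact Subgroup.mem_zpowers u
    | one => rw [map_one]; exact Subgroup.one_mem _
    | mul x y _ _ hx hy => rw [map_mul]; exact Subgroup.mul_mem _ hx hy
    | inv x _ hx => rw [map_inv]; exact Subgroup.inv_mem _ hx
  have hne : u ≠ 1 := by
    intro h1
    have h2 : Abelianization.lift sgn u = sgn u0 := Abelianization.lift_apply_of _ _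
    rw [h1, map_one, hs] at h2
    exact absurd h2 (by decide)
  have hu2 : u ^ 2 = 1 := by rw [pow_two, hu, ← map_mul, hsq, map_one]
  have ho : orderOf u = 2 := orderOf_eq_prime hu2 hne
  have htop : Subgroup.zpowers u = ⊤ := by
    rw [eq_top_iff]; intro x _; exact hall x
  have hc : Nat.card (Abelianization G) = 2 := by
    rw [← Subgroup.card_top, ← htop, Nat.card_zpowers, ho]
  exact hc

theorem genTop : Subgroup.closure (Set.range (fun x : Gen =>
    (PresentedGroup.mk (coxRelators edges ∪ {r | r ∈ extra})) (FreeGroup.of x))) = ⊤ :=
  PresentedGroup.closure_range_of _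

theorem sgn_rels : ∀ r ∈ coxRelators edges ∪ {r | r ∈ extra},
    FreeGroup.lift (fun _ : Gen => (-1 : ℤˣ)) r = 1 := by
  apply lift_rels
  · intro x _ y _
    simp
  · intro r hr
    simp only [extra, List.mem_cons, List.mem_nil_iff, or_false] at hr
    rcases hr with rfl | rfl
    · simp only [map_mul, map_inv, map_pow, FreeGroup.lift_apply_of]
      decide
    · simp only [map_mul, map_inv, map_pow, FreeGroup.lift_apply_of]
      decide

/-- the sign -/
noncomputable def sgn : Cfsg.Spor.Fi24 →* ℤˣ := PresentedGroup.toGroup sgn_rels

theorem index_two : (commutator Cfsg.Spor.Fi24).index = 2 := by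
  apply commutator_index_two _ genTop
    ((PresentedGroup.mk (coxRelators edges ∪ {r | r ∈ extra})) (FreeGroup.of Gen.l)) _
    (cox_sq edges extra .l (by decide)) sgn
  · exact PresentedGroup.toGroup.of sgn_rels
  · have ek := (cox_ab_step edges extra (Abelianization.of) .l .k 1 (by decide) (by decide) (by decide)).symm
    have ea := (cox_ab_step edges extra (Abelianization.of) .k .a 1 (by decide) (by decide) (by decide)).symm.trans ek
    have eb := (cox_ab_step edges extra (Abelianization.of) .a .b 1 (by decide) (by decide) (by decide)).symm.trans ea
    have ec := (cox_ab_step edges extra (Abelianization.of) .b .c 1 (by decide) (by decide) (by decide)).symm.trans eb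
    have ed := (cox_ab_step edges extra (Abelianization.of) .c .d 1 (by decide) (by decide) (by decide)).symm.trans ec
    have ee := (cox_ab_step edges extra (Abelianization.of) .d .e 1 (by decide) (by decide) (by decide)).symm.trans ed
    have eh := (cox_ab_step edges extra (Abelianization.of) .d .h 1 (by decide) (by decide) (by decide)).symm.trans ed
    have ef := (cox_ab_step edges extra (Abelianization.of) .e .f 1 (by decide) (by decide) (by decide)).symm.trans ee
    have eg := (cox_ab_step edges extra (Abelianization.of) .f .g 1 (by decide) (by decide) (by decide)).symm.trans ef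
    have ej := (cox_ab_step edges extra (Abelianization.of) .g .j 1 (by decide) (by decide) (by decide)).symm.trans eg
    have ei := (cox_ab_step edges extra (Abelianization.of) .h .i 1 (by decide) (by decide) (by decide)).symm.trans eh
    rintro _ ⟨x, rfl⟩
    cases x
    · rfl
    · exact ek
    · exact ea
    · exact eb
    · exact ec
    · exact ed
    · exact ee
    · exact ef
    · exact eg
    · exact ej
    · exact eh
    · exact ei

/-- The commutator subgroup of the presented group Fi₂₄ has index 2 (the presented group is Fi₂₄′:2 with Fi₂₄′ its derived subgroup). -/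
theorem result : (commutator Cfsg.Spor.Fi24).index = 2 := by
  exact index_two

end Cfsg.Agent.S1691
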