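import Cfsg.Statements.S1698
import Cfsg.Agent.Lib.Helper11.Fi24o.Chain
import Cfsg.Agent.Lib.Helper11.Fi24o.Prim
import Cfsg.Agent.Lib.Helper11.Fi24a.Upper
import Cfsg.Agent.Lib.Helper11.Fi24e0.Upper
import Cfsg.Agent.Lib.Helper11.Fi24e1.Upper
import Cfsg.Agent.Lib.Helper11.Fi24e2.Upper
import Cfsg.Agent.Lib.Helper11.Fi24e3.Upper
import Cfsg.Agent.Lib.Helper11.Fi24e4.Upper
import Cfsg.Agent.Lib.Helper11.Fi24e5.Upper
import Cfsg.Agent.Lib.Helper11.Fi24e6.Upper
import Cfsg.Agent.Lib.Helper11.CoxSimple
import Cfsg.Agent.Lib.Helper11.Minimal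
import Cfsg.Agent.Lib.Helper11.Derived
import Cfsg.Agent.S1691

set_option autoImplicit false
open Cfsg

namespace Cfsg.Agent.S1698

open Cfsg.Agent.Lib.Helper11 Cfsg.Spor Cfsg.Spor.Fi24

theorem mono {S T : Set (FreeGroup Gen)} (h : S ⊆ T) :
    (Subgroup.closure S).map (PresentedGroup.mk (coxRelators edges ∪ {r | r ∈ extra})) ≤ (Subgroup.closure T).map (PresentedGroup.mk (coxRelators edges ∪ {r | r ∈ extra})) :=
  Subgroup.map_mono (Subgroup.closure_mono h)

theorem card_le : Nat.card Cfsg.Spor.Fi24 ≠ 0 ∧ Nat.card Cfsg.Spor.Fi24 ≤ 2510411418381323442585600 := by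
  have h7 : Nat.card ((Subgroup.closure (∅ : Set (FreeGroup Gen))).map (PresentedGroup.mk (coxRelators edges ∪ {r | r ∈ extra}))) ≠ 0 ∧
      Nat.card ((Subgroup.closure (∅ : Set (FreeGroup Gen))).map (PresentedGroup.mk (coxRelators edges ∪ {r | r ∈ extra}))) ≤ 1 := by simp
  have h6 := card_le_step (mono (by simp)) _ _ Fi24e6.upper h7
  have h5 := card_le_step (mono (by intro x hx; simp only [Set.mem_insert_iff, Set.mem_singleton_iff] at hx ⊢; tauto)) _ _ Fi24e5.upper h6
  have h4 := card_le_step (mono (by intro x hx; simp only [Set.mem_insert_iff, Set.mem_singleton_iff] at hx ⊢; tauto)) _ _ Fi24e4.upper h5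
  have h3 := card_le_step (mono (by intro x hx; simp only [Set.mem_insert_iff, Set.mem_singleton_iff] at hx ⊢; tauto)) _ _ Fi24e3.upper h4
  have h2 := card_le_step (mono (by intro x hx; simp only [Set.mem_insert_iff, Set.mem_singleton_iff] at hx ⊢; tauto)) _ _ Fi24e2.upper h3
  have h1 := card_le_step (mono (by intro x hx; simp only [Set.mem_insert_iff, Set.mem_singleton_iff] at hx ⊢; tauto)) _ _ Fi24e1.upper h2
  have h0 := card_le_step (mono (by intro x hx; simp only [Set.mem_insert_iff, Set.mem_singleton_iff] at hx ⊢; tauto)) _ _ Fi24e0.upper h1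
  have h := card_le_top _ _ Fi24a.upper h0
  exact h

theorem ncl : Subgroup.normalClosure {(PresentedGroup.mk (coxRelators edges ∪ {r | r ∈ extra})) (FreeGroup.of Gen.l)} = ⊤ := by
  apply normalClosure_top_of_mem _ _ S1691.genTop
  intro N hN hl
  have hk := cox_mem_step edges extra N .l .k 1 (by decide) (by decide) (by decide) hl
  have ha := cox_mem_step edges extra N .k .a 1 (by decide) (by decide) (by decide) hk
  have hb := cox_mem_step edges extra N .a .b 1 (by decide) (by decide) (by decide) ha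
  have hc := cox_mem_step edges extra N .b .c 1 (by decide) (by decide) (by decide) hb
  have hd := cox_mem_step edges extra N .c .d 1 (by decide) (by decide) (by decide) hc
  have he := cox_mem_step edges extra N .d .e 1 (by decide) (by decide) (by decide) hd
  have hh := cox_mem_step edges extra N .d .h 1 (by decide) (by decide) (by decide) hd
  have hf := cox_mem_step edges extra N .e .f 1 (by decide) (by decide) (by decide) he
  have hg := cox_mem_step edges extra N .f .g 1 (by decide) (by decide) (by decide) hf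
  have hj := cox_mem_step edges extra N .g .j 1 (by decide) (by decide) (by decide) hg
  have hi := cox_mem_step edges extra N .h .i 1 (by decide) (by decide) (by decide) hh
  rintro _ ⟨x, rfl⟩
  cases x <;> assumption

theorem card_eq : Nat.card Cfsg.Spor.Fi24 = 2510411418381323442585600 := (Fi24o.order card_le).1

theorem hmin : ∀ N : Subgroup Cfsg.Spor.Fi24, N.Normal → N ≠ ⊥ → commutator Cfsg.Spor.Fi24 ≤ N :=
  model_minimal (PresentedGroup.mk (coxRelators edges ∪ {r | r ∈ extra})) _ Fi24o.psi
    (fun l => Fi24o.LTFm.getD l 1) Fi24o.INVm (ntOf Fi24o.ntl) 19 (ntOf_ok Fi24o.ntl _ Fi24o.netsOK)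
    Fi24o.psi_eval Fi24o.hExps Fi24o.hS1 Fi24o.hS2 Fi24o.gExps Fi24o.hgen 306936 _ (by norm_num)
    Fi24a.upper Fi24o.hfix0 Fi24o.htr Fi24o.invnOK _ (Fi24o.order card_le).2 Fi24o.hbn Fi24o.primL Fi24o.primOK
    Fi24o.tE Fi24o.normOK ncl

theorem card_comm : Nat.card (commutator Cfsg.Spor.Fi24) = 1255205709190661721292800 := by
  have h := (commutator Cfsg.Spor.Fi24).index_mul_card
  rw [S1691.index_two, card_eq] at h
  omega

theorem not_sq : ¬ IsSquare (1255205709190661721292800 : ℕ) := by
  rintro ⟨r, hr⟩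
  rcases Nat.lt_or_ge r 1120359633864 with h | h
  · have h1 : r ≤ 1120359633863 := by omega
    have h2 : r * r ≤ 1120359633863 * 1120359633863 := Nat.mul_le_mul h1 h1
    omega
  · have h2 : 1120359633864 * 1120359633864 ≤ r * r := Nat.mul_le_mul h h
    omega

/-- The commutator subgroup of the presented Fi₂₄ (our definition of Fi₂₄′) is simple of the expected order (that is, it is a simple group of the order of the Fischer group Fi₂₄′). -/
theorem result : Cfsg.IsFi24' Cfsg.Spor.Fi24' := by
  haveI : Finite Cfsg.Spor.Fi24 := Nat.finite_of_card_ne_zero card_le.1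
  refine ⟨?_, card_comm⟩
  apply simple_of_index_two (commutator Cfsg.Spor.Fi24) S1691.index_two hmin
  rw [card_comm]
  exact not_sq

end Cfsg.Agent.S1698
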