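import Cfsg.Statements.S1717
import Cfsg.Agent.Lib.Helper11.Tv.Cen
import Cfsg.Agent.Lib.Helper11.Tv.Syl

set_option autoImplicit false
open Cfsg


namespace Cfsg.Agent.S1717

open Cfsg.Agent.Lib.Helper11.Tv

/-- Let G be a finite group with an involution z whose centraliser C is isomorphic to the centraliser of a transvection of SL(5, 2). Then a Sylow 2-subgroup of C, viewed in G, is a Sylow 2-subgroup of G (its index in G is odd). -/
theorem result {G : Type*} [Group G] [Finite G] (s : Matrix.SpecialLinearGroup (Fin 5) (ZMod 2)) (hs : (s : Matrix (Fin 5) (Fin 5) (ZMod 2)) = Matrix.transvection 0 1 1) (z : G) (hz : orderOf z = 2) (e : (Subgroup.centralizer ({z} : Set G)) ≃* Subgroup.centralizer ({s} : Set (Matrix.SpecialLinearGroup (Fin 5) (ZMod 2)))) (T : Sylow 2 (Subgroup.centralizer ({z} : Set G))) : ¬ 2 ∣ ((T : Subgroup (Subgroup.centralizer ({z} : Set G))).map (Subgroup.subtype (Subgroup.centralizer ({z} : Set G)))).index := by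
  have hs0 : s = s0 := Subtype.ext hs
  subst hs0
  haveI : Fact (Nat.Prime 2) := ⟨Nat.prime_two⟩
  let ρ : (Subgroup.centralizer ({z} : Set G)) →* Matrix (Fin 3) (Fin 3) (ZMod 2) :=
    pi.comp e.toMonoidHom
  haveI : ρ.ker.Normal := ρ.normal_ker
  have hp : IsPGroup 2 ρ.ker := by
    intro q
    refine ⟨2, ?_⟩
    apply Subtype.ext
    have h1 : e q.1 ∈ pi.ker := q.2
    have h2 := ker_pow (e q.1) h1
    have h3 : e (q.1 ^ 4) = 1 := by rw [map_pow]; exact h2
    have h4 : q.1 ^ 4 = 1 := (MulEquiv.map_eq_one_iff e).1 h3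
    exact h4
  have hle : ρ.ker ≤ T := hp.le_sylow_of_normal T
  have hmem : ∀ w : Cs, w ∈ pi.ker → e.symm w ∈ ρ.ker := by
    intro w hw
    show pi (e (e.symm w)) = 1
    rw [e.apply_symm_apply]
    exact hw
  have key : ∀ x : (Subgroup.centralizer ({z} : Set G)), (∀ y ∈ ρ.ker, x * y = y * x) →
      x = 1 ∨ x = e.symm sc := by
    intro x hx
    have hh : ∀ w : Cs, w ∈ pi.ker → e x * w = w * e x := by
      intro w hw
      have h1 := congrArg e (hx (e.symm w) (hmem w hw))
      rw [map_mul, map_mul, e.apply_symm_apply] at h1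
      exact h1
    rcases cent_Q (e x) (hh _ u2_ker) (hh _ u3_ker) (hh _ u4_ker) (hh _ v2_ker) (hh _ v3_ker)
      (hh _ v4_ker) with h | h
    · left
      exact (MulEquiv.map_eq_one_iff e).1 h
    · right
      rw [← h, e.symm_apply_apply]
  have hz1 : z ≠ 1 := by
    rintro rfl
    rw [orderOf_one] at hz
    omega
  have hzc : (⟨z, Subgroup.mem_centralizer_singleton_iff.2 rfl⟩ :
      (Subgroup.centralizer ({z} : Set G))) = e.symm sc := by
    rcases key ⟨z, Subgroup.mem_centralizer_singleton_iff.2 rfl⟩ (fun y _ =>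
      Subtype.ext (Subgroup.mem_centralizer_singleton_iff.1 y.2).symm) with h | h
    · exact absurd (congrArg Subtype.val h) hz1
    · exact h
  refine sylow_of_center z _ rfl T ?_ hz1 ?_
  · refine Subgroup.mem_map.2 ⟨⟨z, Subgroup.mem_centralizer_singleton_iff.2 rfl⟩, ?_, rfl⟩
    apply hle
    rw [hzc]
    exact hmem sc sc_ker
  · intro x _ hx
    rcases key x (fun y hy => hx y (hle hy)) with h | h
    · left
      exact h
    · right
      rw [h, ← hzc]

end Cfsg.Agent.S1717
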