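import Mathlib
import Cfsg.Statements.S1753
-- import your own Cfsg.Agent.* helpers here

set_option autoImplicit false
universe u
open Cfsg

namespace Cfsg.Agent.S1753

/-- Let K be any property of groups. (1) If G is a minimal counterexample relative to K — a finite non-abelian simple group not satisfying K such that every finite non-abelian simple group of smaller order satisfies K — then every proper subgroup of G is a K-group (all its non-abelian simple sections satisfy K), since such sections have smaller order than G. (2) Consequently (induction on the order), if every finite non-abelian simple group all of whose proper subgroups are K-groups satisfies K, then every finite non-abelian simple group satisfies K. -/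
theorem result (K : ∀ (X : Type u) [Group X], Prop) :
    (∀ (G : Type u) [Group G], Cfsg.IsMinCounterexampleWith K G → Cfsg.IsKProperWith K G) ∧
      ((∀ (X : Type u) [Group X] [Finite X], IsSimpleGroup X → ¬ IsMulCommutative X → Cfsg.IsKProperWith K X → K X) →
        ∀ (G : Type u) [Group G] [Finite G], IsSimpleGroup G → ¬ IsMulCommutative G → K G) := by
  have key : ∀ (G : Type u) [Group G] [Finite G] (H : Subgroup G), H ≠ ⊤ →
      ∀ (H' : Subgroup H) (N : Subgroup H') [N.Normal], Nat.card (H' ⧸ N) < Nat.card G := by
    intro G _ _ H hH H' N _
    have h1 : Nat.card (H' ⧸ N) ≤ Nat.card H' := by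
      exact Nat.card_le_card_of_surjective _ (QuotientGroup.mk_surjective (s := N))
    have h2 : Nat.card H' ≤ Nat.card H := by
      exact Nat.card_le_card_of_injective _ (Subtype.val_injective)
    have h3 : Nat.card H < Nat.card G := by
      by_contra hcon
      push Not at hcon
      exact hH (Subgroup.eq_top_of_le_card H hcon)
    omega
  refine ⟨?_, ?_⟩
  · intro G _ hG H hH H' N _ hs hc
    obtain ⟨hfin, _, _, _, hmin⟩ := hG
    exact hmin _ hs hc (key G H hH H' N)
  · intro hyp
    have main : ∀ n : ℕ, ∀ (G : Type u) [Group G] [Finite G], Nat.card G = n → IsSimpleGroup G →
        ¬ IsMulCommutative G → K G := by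
      intro n
      induction n using Nat.strong_induction_on with
      | _ n ih =>
        intro G _ _ hn hs hc
        apply hyp G hs hc
        intro H hH H' N _ hs' hc'
        exact ih _ (hn ▸ key G H hH H' N) _ rfl hs' hc'
    intro G _ _ hs hc
    exact main _ G rfl hs hc

end Cfsg.Agent.S1753
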