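import Cfsg.Statements.S1754
import Cfsg.Agent.Lib.Helper29.Conj
import Cfsg.Agent.Lib.Helper8.Components

set_option autoImplicit false
open Cfsg

namespace Cfsg.Agent.S1754

open Cfsg.Agent.Lib.Helper29

theorem result {G : Type*} [Group G] [Finite G]
    (A : Subgroup G) (hA : Cfsg.IsStandardSubgroup A) (t : G) (ht : orderOf t = 2) (htA : t ∈ Subgroup.centralizer (A : Set G)) :
    Subgroup.centralizer ({t} : Set G) ≤ Subgroup.normalizer (A : Set G) ∧
      Cfsg.IsComponent (A.subgroupOf (Subgroup.centralizer ({t} : Set G))) := by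
  obtain ⟨hqs, ⟨-, htight⟩, -, hN⟩ := hA
  have h1 : Subgroup.centralizer ({t} : Set G) ≤ Subgroup.normalizer (A : Set G) := by
    intro g hg
    rw [hN]
    by_contra hcon
    have hodd := htight g hcon
    rw [Subgroup.mem_centralizer_singleton_iff] at hg
    have hmem : t ∈ Subgroup.centralizer (A : Set G) ⊓
        (Subgroup.centralizer (A : Set G)).map (MulAut.conj g).toMonoidHom := by
      refine Subgroup.mem_inf.mpr ⟨htA, ?_⟩
      rw [mem_conj]
      have : g⁻¹ * t * g = t := by rw [mul_assoc, ← hg]; group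
      rw [this]; exact htA
    have hdvd : 2 ∣ Nat.card ↥(Subgroup.centralizer (A : Set G) ⊓
        (Subgroup.centralizer (A : Set G)).map (MulAut.conj g).toMonoidHom) := by
      rw [← ht, ← Subgroup.orderOf_mk t hmem]
      exact orderOf_dvd_natCard _
    exact (Nat.not_even_iff_odd.mpr hodd) (even_iff_two_dvd.mpr hdvd)
  refine ⟨h1, ?_⟩
  have hle : A ≤ Subgroup.centralizer ({t} : Set G) := by
    intro a ha
    rw [Subgroup.mem_centralizer_singleton_iff]
    rw [Subgroup.mem_centralizer_iff] at htA
    exact htA a ha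
  have hn : (A.subgroupOf (Subgroup.centralizer ({t} : Set G))).Normal :=
    (Subgroup.normal_subgroupOf_iff_le_normalizer hle).mpr h1
  exact ⟨hn.isSubnormal,
    Cfsg.Agent.Lib.Helper8.isQuasisimple_of_mulEquiv (Subgroup.subgroupOfEquivOfLe hle).symm hqs⟩

end Cfsg.Agent.S1754
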