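import Cfsg.Statements.S1755
import Cfsg.Agent.Lib.Helper29.Conj
import Cfsg.Agent.Lib.Helper8.FStar

set_option autoImplicit false
open Cfsg

namespace Cfsg.Agent.S1755

open Cfsg.Agent.Lib.Helper29

theorem eq_of_orderOf_two {α : Type*} [Group α] [Finite α] [IsCyclic α] {x y : α}
    (hx : orderOf x = 2) (hy : orderOf y = 2) : x = y := by
  classical
  have := Fintype.ofFinite α
  have h2 : 2 ∣ Fintype.card α := hx ▸ orderOf_dvd_card
  have h3 := IsCyclic.card_orderOf_eq_totient h2
  rw [Nat.totient_two] at h3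
  exact Finset.card_le_one.mp h3.le x (by simp [hx]) y (by simp [hy])

theorem exists_pow_orderOf_two {α : Type*} [Group α] {x : α} (hx : x ≠ 1) (h : ∃ k : ℕ, x ^ 2 ^ k = 1) :
    ∃ m : ℕ, orderOf (x ^ m) = 2 := by
  classical
  obtain ⟨k, hk⟩ := h
  induction k with
  | zero => exact absurd (by simpa using hk) hx
  | succ k ih =>
    by_cases h1 : x ^ 2 ^ k = 1
    · exact ih h1
    · refine ⟨2 ^ k, orderOf_eq_prime ?_ h1⟩
      rw [← pow_mul, ← pow_succ]; exact hk

theorem abstract {G : Type*} [Group G] [Finite G] (z : G) (B : Subgroup G)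
    (hcyc : IsCyclic B) (h2 : IsPGroup 2 B) (hz : orderOf z = 2) (hzB : B ≠ ⊥ → z ∈ B)
    (hc : ∀ g : G, g * z = z * g → B.map (MulAut.conj g).toMonoidHom = B) (g : G) :
    B.map (MulAut.conj g).toMonoidHom = B ∨ B.map (MulAut.conj g).toMonoidHom ⊓ B = ⊥ := by
  rw [or_iff_not_imp_right]
  intro hne
  obtain ⟨⟨x, hx⟩, hx1⟩ := Subgroup.ne_bot_iff_exists_ne_one.mp hne
  replace hx1 : x ≠ 1 := fun h => hx1 (Subtype.ext h)
  have hxB : x ∈ B := hx.2
  have hBne : B ≠ ⊥ := by
    intro h
    rw [h, Subgroup.mem_bot] at hxB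
    exact hx1 hxB
  have hzB' := hzB hBne
  obtain ⟨k, hk⟩ := h2 ⟨x, hxB⟩
  obtain ⟨m, hm⟩ := exists_pow_orderOf_two hx1 ⟨k, by simpa using congrArg Subtype.val hk⟩
  have huniq : ∀ y ∈ B, orderOf y = 2 → y = z := by
    intro y hy hy2
    have := eq_of_orderOf_two (α := B) (x := ⟨y, hy⟩) (y := ⟨z, hzB'⟩)
      (by rw [← hy2]; exact (Subgroup.orderOf_mk y hy)) (by rw [← hz]; exact (Subgroup.orderOf_mk z hzB'))
    exact congrArg Subtype.val this
  have h1 : x ^ m = z := huniq _ (B.pow_mem hxB m) hm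
  have h3 : g⁻¹ * x ^ m * g = z := by
    apply huniq
    · rw [← mem_conj]; exact Subgroup.pow_mem _ hx.1 m
    · have : g⁻¹ * x ^ m * g = MulAut.conj g⁻¹ (x ^ m) := by simp
      rw [this, MulEquiv.orderOf_eq, hm]
  apply hc
  rw [h1] at h3
  calc g * z = g * (g⁻¹ * z * g) := by rw [h3]
    _ = z * g := by group

theorem aux {G : Type*} [Group G] [Finite G] (z : G) (hz : orderOf z = 2) (C : Subgroup G)
    (hC : C = Subgroup.centralizer ({z} : Set G)) (Q : Subgroup C) (hQn : Q.Normal)
    (hCQ : Subgroup.centralizer (Q : Set C) ≤ Q) (hQ : Cfsg.IsOfSymplecticType ↥Q)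
    (B : Subgroup ↥Q) (hBc : B.Characteristic) (hBa : IsMulCommutative ↥B) (g : G) :
    ((B.map Q.subtype).map C.subtype).map (MulAut.conj g).toMonoidHom = (B.map Q.subtype).map C.subtype ∨
      ((B.map Q.subtype).map C.subtype).map (MulAut.conj g).toMonoidHom ⊓ (B.map Q.subtype).map C.subtype = ⊥ := by
  have hinj : Function.Injective (C.subtype.comp Q.subtype) :=
    C.subtype_injective.comp Q.subtype_injective
  have hmap : (B.map Q.subtype).map C.subtype = B.map (C.subtype.comp Q.subtype) := Subgroup.map_map _ _ _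
  rw [hmap]
  have hBcyc : IsCyclic B := hQ.2 B hBc hBa
  let e : B ≃* B.map (C.subtype.comp Q.subtype) := Subgroup.equivMapOfInjective B _ hinj
  -- z as an element of C and of Q
  have hzC : z ∈ C := by
    rw [hC, Subgroup.mem_centralizer_singleton_iff]
  let zC : C := ⟨z, hzC⟩
  have hzcent : ∀ c : C, c * zC = zC * c := by
    intro c
    apply Subtype.ext
    have hmem : ∀ x ∈ C, x * z = z * x := by
      intro x hx
      rw [hC, Subgroup.mem_centralizer_singleton_iff] at hx
      exact hx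
    exact hmem c c.2
  have hzQ : zC ∈ Q := by
    apply hCQ
    rw [Subgroup.mem_centralizer_iff]
    intro c _
    exact hzcent c
  let zQ : Q := ⟨zC, hzQ⟩
  have hzQ2 : orderOf zQ = 2 := by
    rw [← hz]
    have h1 : orderOf zQ = orderOf zC := Subgroup.orderOf_mk zC hzQ
    have h2 : orderOf zC = orderOf z := Subgroup.orderOf_mk z hzC
    rw [h1, h2]
  apply abstract z _ (e.isCyclic.mp hBcyc) ((hQ.1.to_subgroup B).map _) hz
  · intro hne
    have hBne : B ≠ ⊥ := by
      rintro rfl
      exact hne (Subgroup.map_bot _)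
    obtain ⟨⟨x, hxB⟩, hx1⟩ := Subgroup.ne_bot_iff_exists_ne_one.mp hBne
    have hx1' : x ≠ 1 := fun h => hx1 (Subtype.ext h)
    obtain ⟨m, hm⟩ := exists_pow_orderOf_two hx1' (hQ.1 x)
    set b0 : Q := x ^ m with hb0
    have hb0B : b0 ∈ B := B.pow_mem hxB m
    have huniq : ∀ y ∈ B, orderOf y = 2 → y = b0 := by
      intro y hy hy2
      have := eq_of_orderOf_two (α := B) (x := ⟨y, hy⟩) (y := ⟨b0, hb0B⟩)
        (by rw [← hy2]; exact (Subgroup.orderOf_mk y hy)) (by rw [← hm]; exact (Subgroup.orderOf_mk b0 hb0B))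
      exact congrArg Subtype.val this
    have hb0Z : b0 ∈ Subgroup.center Q := by
      rw [Subgroup.mem_center_iff]
      intro q
      have h1 : MulAut.conj q b0 = b0 := by
        apply huniq
        · have := (Subgroup.characteristic_iff_map_eq.mp hBc) (MulAut.conj q)
          rw [← this]
          exact ⟨b0, hb0B, rfl⟩
        · rw [MulEquiv.orderOf_eq, hm]
      rw [MulAut.conj_apply] at h1
      calc q * b0 = q * b0 * q⁻¹ * q := by group
        _ = b0 * q := by rw [h1]
    have hzZ : zQ ∈ Subgroup.center Q := by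
      rw [Subgroup.mem_center_iff]
      intro q
      apply Subtype.ext
      exact hzcent q.1
    have hZcyc : IsCyclic (Subgroup.center Q) := hQ.2 _ inferInstance inferInstance
    have h3 := eq_of_orderOf_two (α := Subgroup.center Q) (x := ⟨b0, hb0Z⟩) (y := ⟨zQ, hzZ⟩)
        (by rw [← hm]; exact (Subgroup.orderOf_mk b0 hb0Z)) (by rw [← hzQ2]; exact (Subgroup.orderOf_mk zQ hzZ))
    have h4 : b0 = zQ := congrArg Subtype.val h3
    exact ⟨zQ, h4 ▸ hb0B, rfl⟩
  · have hle : ∀ g : G, g * z = z * g → (B.map (C.subtype.comp Q.subtype)).map (MulAut.conj g).toMonoidHom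
        ≤ B.map (C.subtype.comp Q.subtype) := by
      intro g hg
      have hgC : g ∈ C := by
        rw [hC, Subgroup.mem_centralizer_singleton_iff]; exact hg
      rintro _ ⟨_, ⟨b, hb, rfl⟩, rfl⟩
      refine ⟨MulAut.conjNormal (⟨g, hgC⟩ : C) b, ?_, ?_⟩
      · have := (Subgroup.characteristic_iff_map_eq.mp hBc) (MulAut.conjNormal (⟨g, hgC⟩ : C))
        rw [← this]
        exact ⟨b, hb, rfl⟩
      · simp [MulAut.conjNormal_apply]
    intro g hg
    apply le_antisymm (hle g hg)
    have hg' : g⁻¹ * z = z * g⁻¹ := by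
      calc g⁻¹ * z = g⁻¹ * (z * g) * g⁻¹ := by group
        _ = z * g⁻¹ := by rw [← hg]; group
    have := Subgroup.map_mono (f := (MulAut.conj g).toMonoidHom) (hle g⁻¹ hg')
    rwa [conj_conj, mul_inv_cancel, conj_one] at this


theorem result {G : Type*} [Group G] [Finite G] (z : G) (hz : orderOf z = 2) (hQ : Cfsg.IsOfSymplecticType ↥(Cfsg.generalizedFittingSubgroup ↥(Subgroup.centralizer ({z} : Set G))))
    (B : Subgroup ↥(Cfsg.generalizedFittingSubgroup ↥(Subgroup.centralizer ({z} : Set G)))) (hBc : B.Characteristic) (hBa : IsMulCommutative ↥B) (g : G) :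
    ((B.map (Cfsg.generalizedFittingSubgroup ↥(Subgroup.centralizer ({z} : Set G))).subtype).map (Subgroup.centralizer ({z} : Set G)).subtype).map (MulAut.conj g).toMonoidHom =
        (B.map (Cfsg.generalizedFittingSubgroup ↥(Subgroup.centralizer ({z} : Set G))).subtype).map (Subgroup.centralizer ({z} : Set G)).subtype ∨
      ((B.map (Cfsg.generalizedFittingSubgroup ↥(Subgroup.centralizer ({z} : Set G))).subtype).map (Subgroup.centralizer ({z} : Set G)).subtype).map (MulAut.conj g).toMonoidHom ⊓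
        (B.map (Cfsg.generalizedFittingSubgroup ↥(Subgroup.centralizer ({z} : Set G))).subtype).map (Subgroup.centralizer ({z} : Set G)).subtype = ⊥ := by
  exact aux z hz _ rfl _ Cfsg.Agent.Lib.Helper8.generalizedFittingSubgroup_normal
    Cfsg.Agent.Lib.Helper8.centralizer_generalizedFitting_le hQ B hBc hBa g

end Cfsg.Agent.S1755
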