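import Cfsg.Statements.S5395
import Cfsg.Agent.Lib.Helper19.ESF

set_option autoImplicit false
open Cfsg

namespace Cfsg.Agent.S5395

open Cfsg.Agent.Lib.Helper19.ES

/-- For a finite extraspecial 2-group E, an automorphism of E that induces the identity on E modulo its centre is inner (so these automorphisms form exactly the inner automorphism group, an elementary abelian 2-group of order |E|/2). -/
theorem result {E : Type*} [Group E] [Finite E] (hE : Cfsg.IsExtraspecial 2 E) (φ : E ≃* E) (hφ : ∀ x : E, φ x * x⁻¹ ∈ Subgroup.center E) : ∃ g : E, ∀ x : E, φ x = g * x * g⁻¹ := by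
  classical
  haveI := Fintype.ofFinite E
  haveI : Fact (Nat.Prime 2) := ⟨Nat.prime_two⟩
  obtain ⟨z, h⟩ := IsES.of_extraspecial hE
  have hq := h.toQ2
  have hφ' : ∀ x : E, φ x = x ∨ φ x = z * x := by
    intro x
    have h1 := hφ x
    rw [h.center_eq, h.mem2] at h1
    rcases h1 with h1 | h1
    · left; exact mul_inv_eq_one.1 h1
    · right; exact mul_inv_eq_iff_eq_mul.1 h1
  have hzx : ∀ x : E, z * x ≠ x := by
    intro x hx
    exact hq.z1 (mul_right_cancel (b := x) (by rw [one_mul]; exact hx))
  let f : E → ℤ := fun x => if φ x = x then 1 else -1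
  have hf1 : ∀ x, f x = 1 ∨ f x = -1 := by
    intro x; simp only [f]; split_ifs <;> simp
  have hfm : ∀ a b, f (a * b) = f a * f b := by
    intro a b
    have hza : z * a = a * z := (hq.zc a).eq
    rcases hφ' a with ha | ha <;> rcases hφ' b with hb | hb
    · have e : φ (a * b) = a * b := by rw [map_mul, ha, hb]
      simp [f, ha, hb, e]
    · have e : φ (a * b) = z * (a * b) := by
        rw [map_mul, ha, hb, ← mul_assoc, ← hza, mul_assoc]
      simp [f, ha, hb, e, hzx]
    · have e : φ (a * b) = z * (a * b) := by
        rw [map_mul, ha, hb, mul_assoc]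
      simp [f, ha, hb, e, hzx]
    · have e : φ (a * b) = a * b := by
        rw [map_mul, ha, hb]
        calc z * a * (z * b) = (z * a) * z * b := by simp only [mul_assoc]
          _ = (a * z) * z * b := by rw [hza]
          _ = a * (z * z) * b := by simp only [mul_assoc]
          _ = a * b := by rw [hq.zz, mul_one]
      simp [f, ha, hb, e, hzx]
  have hchis : ∀ a b : E, chi a b = chi b a := by
    intro a b
    unfold chi
    by_cases hab : a * b = b * a
    · simp [hab]
    · have : ¬ b * a = a * b := fun e => hab e.symm
      simp [hab, this]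
  have hT : ∀ g : E, ∑ x : E, f x * chi g x =
      if ∀ x, f x * chi g x = 1 then (Fintype.card E : ℤ) else 0 := by
    intro g
    apply sum_hom (fun x => f x * chi g x)
    · intro a b
      show f (a * b) * chi g (a * b) = f a * chi g a * (f b * chi g b)
      rw [hfm, hq.chi_mul]; ring
    · intro a
      show f a * chi g a = 1 ∨ f a * chi g a = -1
      rcases hf1 a with h1 | h1 <;> rcases chi_cases g a with h2 | h2 <;> simp [h1, h2]
  have hU : ∀ x : E, ∑ g : E, chi g x =
      if ∀ g, chi g x = 1 then (Fintype.card E : ℤ) else 0 := by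
    intro x
    apply sum_hom (fun g => chi g x)
    · intro a b
      show chi (a * b) x = chi a x * chi b x
      rw [hchis, hq.chi_mul, hchis x a, hchis x b]
    · intro a
      exact chi_cases a x
  have hfz : f z = 1 := by
    rcases hφ' z with h1 | h1
    · simp [f, h1]
    · exfalso
      rw [hq.zz] at h1
      exact hq.z1 ((map_eq_one_iff φ φ.injective).1 h1)
  have hfone : f 1 = 1 := by simp [f]
  have hsum : ∑ g : E, ∑ x : E, f x * chi g x = 2 * (Fintype.card E : ℤ) := by
    rw [Finset.sum_comm]
    have e1 : ∀ x : E, ∑ g : E, f x * chi g x = if x = 1 ∨ x = z then (Fintype.card E : ℤ) else 0 := by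
      intro x
      rw [← Finset.mul_sum, hU]
      have e2 : (∀ g, chi g x = 1) ↔ (x = 1 ∨ x = z) := by
        rw [← h.central_iff]
        constructor
        · intro h1 y
          exact ((Q2.chi_eq_one_iff y x).1 (h1 y)).symm
        · intro h1 y
          exact (Q2.chi_eq_one_iff y x).2 (h1 y).symm
      simp only [e2]
      split_ifs with h3
      · rcases h3 with rfl | rfl
        · rw [hfone, one_mul]
        · rw [hfz, one_mul]
      · simp
    simp only [e1]
    rw [← Finset.sum_filter]
    have e3 : (Finset.univ.filter fun x : E => x = 1 ∨ x = z) = {1, z} := by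
      ext x; simp
    rw [e3, Finset.sum_pair (Ne.symm hq.z1)]
    ring
  have hex : ∃ g : E, ∀ x, f x * chi g x = 1 := by
    by_contra hne
    push Not at hne
    have : ∑ g : E, ∑ x : E, f x * chi g x = 0 := by
      apply Finset.sum_eq_zero
      intro g _
      rw [hT, if_neg]
      push Not
      exact hne g
    rw [this] at hsum
    have : 0 < (Fintype.card E : ℤ) := by exact_mod_cast Fintype.card_pos
    linarith
  obtain ⟨g, hg⟩ := hex
  refine ⟨g, fun x => ?_⟩
  have h1 := hg x
  rcases hq.cm g x with h2 | h2
  · have h3 : chi g x = 1 := chi_of_comm h2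
    rw [h3, mul_one] at h1
    have h4 : φ x = x := by
      by_contra h5
      simp [f, h5] at h1
    rw [h4, h2, mul_inv_cancel_right]
  · have h3 : chi g x = -1 := by
      have : g * x ≠ x * g := hq.ne_of_z h2
      simp [chi, this]
    rw [h3] at h1
    have h4 : φ x ≠ x := by
      intro h5
      simp [f, h5] at h1
    have h5 := (hφ' x).resolve_left h4
    rw [h5, h2, mul_assoc x g z, ← (hq.zc g).eq, ← mul_assoc, mul_inv_cancel_right, (hq.zc x).eq]

end Cfsg.Agent.S5395
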