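import Cfsg.Statements.S1756
import Mathlib
import Cfsg.Agent.S5395

set_option autoImplicit false
open Cfsg Subgroup

namespace Cfsg.Agent.S1756


theorem central_aux {E : Type*} [Group E] (φ : E ≃* E) (hφ2 : ∀ x, φ (φ x) = x) (F : Subgroup E)
    (hF : ∀ y ∈ F, φ y = y) (hidx : F.index = 2) (x : E) (hx : x ∉ F) :
    x⁻¹ * φ x ∈ Subgroup.center E := by
  haveI hn : F.Normal := Subgroup.normal_of_index_eq_two hidx
  obtain ⟨c, hc⟩ : ∃ c, c = x⁻¹ * φ x := ⟨_, rfl⟩
  rw [← hc]
  have hφx : φ x = x * c := by rw [hc]; group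
  have h1 : ∀ y ∈ F, c * y = y * c := by
    intro y hy
    have h2 : φ (x * y * x⁻¹) = x * y * x⁻¹ := hF _ (hn.conj_mem y hy x)
    rw [map_mul, map_mul, map_inv, hF y hy, hφx] at h2
    calc c * y = x⁻¹ * (x * c * y * (x * c)⁻¹) * x * c := by group
      _ = x⁻¹ * (x * y * x⁻¹) * x * c := by rw [h2]
      _ = _ := by group
  have hsplit : ∀ (u : E), u ∉ F → c * u = u * c → ∀ w, c * w = w * c := by
    intro u hu hcu w
    by_cases hw : w ∈ F
    · exact h1 w hw
    · have h3 : u⁻¹ * w ∈ F := by
        rw [Subgroup.mul_mem_iff_of_index_two hidx, inv_mem_iff]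
        exact ⟨fun h => absurd h hu, fun h => absurd h hw⟩
      have h4 := h1 _ h3
      calc c * w = (c * u) * (u⁻¹ * w) := by group
        _ = u * (c * (u⁻¹ * w)) := by rw [hcu]; group
        _ = u * ((u⁻¹ * w) * c) := by rw [h4]
        _ = _ := by group
  rw [Subgroup.mem_center_iff]
  intro w
  symm
  by_cases hcF : c ∈ F
  · apply hsplit x hx
    have h5 : c * c = 1 := by
      have h6 := hφ2 x
      rw [hφx, map_mul, hφx, hF c hcF] at h6
      have : x * (c * c) = x * 1 := by rw [mul_one, ← mul_assoc]; exact h6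
      exact mul_left_cancel this
    have h7 : φ (x * x) = x * x := hF _ (Subgroup.mul_self_mem_of_index_two hidx x)
    rw [map_mul, hφx] at h7
    have h8 : c * x * c = x := by
      have : x * (c * x * c) = x * x := by rw [← h7]; group
      exact mul_left_cancel this
    calc c * x = (c * x * c) * c⁻¹ := by group
      _ = x * c⁻¹ := by rw [h8]
      _ = x * c := by rw [inv_eq_of_mul_eq_one_left h5]
  · exact hsplit c hcF rfl w


/-- Let Q be an extraspecial 2-subgroup of the finite group G (special with centre of order 2) and t an involution of G normalizing Q such that the centralizer of t in Q has index at most 2 in Q. Then t lies in the product of Q with the centralizer of Q. -/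
theorem result {G : Type*} [Group G] [Finite G] (Q : Subgroup G)
    (hQ : Cfsg.IsExtraspecial 2 ↥Q) (t : G) (ht : orderOf t = 2) (htN : t ∈ Subgroup.normalizer (Q : Set G))
    (hi : (Subgroup.centralizer ({t} : Set G) ⊓ Q).relIndex Q ≤ 2) :
    t ∈ Q ⊔ Subgroup.centralizer (Q : Set G) := by
  classical
  have ht2 : t * t = 1 := by
    have := pow_orderOf_eq_one t
    rwa [ht, pow_two] at this
  have htinv : t⁻¹ = t := inv_eq_of_mul_eq_one_left ht2
  have hconj : ∀ x ∈ Q, t * x * t⁻¹ ∈ Q := fun x hx => (Subgroup.mem_normalizer_iff.mp htN x).mp hx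
  let φ : ↥Q ≃* ↥Q :=
    { toFun := fun x => ⟨t * x * t⁻¹, hconj x x.2⟩
      invFun := fun x => ⟨t * x * t⁻¹, hconj x x.2⟩
      left_inv := by
        intro x
        apply Subtype.ext
        show t * (t * x * t⁻¹) * t⁻¹ = x
        rw [htinv]
        calc t * (t * (x : G) * t) * t = (t * t) * x * (t * t) := by group
          _ = x := by rw [ht2]; group
      right_inv := by
        intro x
        apply Subtype.ext
        show t * (t * x * t⁻¹) * t⁻¹ = x
        rw [htinv]
        calc t * (t * (x : G) * t) * t = (t * t) * x * (t * t) := by group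
          _ = x := by rw [ht2]; group
      map_mul' := by
        intro x y
        apply Subtype.ext
        show t * ((x : G) * y) * t⁻¹ = (t * x * t⁻¹) * (t * y * t⁻¹)
        group }
  have hφ : ∀ x : ↥Q, ((φ x : ↥Q) : G) = t * x * t⁻¹ := fun x => rfl
  have hφ2 : ∀ x, φ (φ x) = x := φ.left_inv
  set F : Subgroup ↥Q := (Subgroup.centralizer ({t} : Set G) ⊓ Q).subgroupOf Q with hFdef
  have hF : ∀ y ∈ F, φ y = y := by
    intro y hy
    apply Subtype.ext
    rw [hφ]
    have h1 : (y : G) ∈ Subgroup.centralizer ({t} : Set G) := (Subgroup.mem_subgroupOf.mp hy).1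
    have h2 := Subgroup.mem_centralizer_singleton_iff.mp h1
    rw [← h2]; group
  have hFidx : F.index ≤ 2 := hi
  have hFidx0 : F.index ≠ 0 := Subgroup.index_ne_zero_of_finite
  have hcen : ∀ x : ↥Q, x⁻¹ * φ x ∈ Subgroup.center ↥Q := by
    intro x
    by_cases hx : x ∈ F
    · rw [hF x hx]; simp
    · have h2 : F.index = 2 := by
        have h1 : F.index ≠ 1 := by
          intro h
          rw [Subgroup.index_eq_one] at h
          apply hx; rw [h]; trivial
        omega
      exact central_aux φ hφ2 F hF h2 x hx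
  obtain ⟨g, hg⟩ := Cfsg.Agent.S5395.result hQ φ (by
    intro x
    have h1 := hcen x
    have h2 : φ x * x⁻¹ = x⁻¹ * φ x := by
      have := Subgroup.mem_center_iff.mp h1 x
      calc φ x * x⁻¹ = (x * (x⁻¹ * φ x)) * x⁻¹ := by group
        _ = ((x⁻¹ * φ x) * x) * x⁻¹ := by rw [this]
        _ = _ := by group
    rw [h2]; exact h1)
  have h3 : (g : G)⁻¹ * t ∈ Subgroup.centralizer (Q : Set G) := by
    rw [Subgroup.mem_centralizer_iff]
    intro x hx
    have h4 : t * x * t⁻¹ = g * x * (g : G)⁻¹ := congrArg Subtype.val (hg ⟨x, hx⟩)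
    calc x * ((g : G)⁻¹ * t) = (g : G)⁻¹ * (g * x * (g : G)⁻¹) * t := by group
      _ = (g : G)⁻¹ * (t * x * t⁻¹) * t := by rw [h4]
      _ = _ := by group
  have h5 : t = g * ((g : G)⁻¹ * t) := by group
  rw [h5]
  exact mul_mem (Subgroup.mem_sup_left g.2) (Subgroup.mem_sup_right h3)

end Cfsg.Agent.S1756
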