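import Cfsg.Statements.S1757

set_option autoImplicit false
open Cfsg

namespace Cfsg.Agent.S1757

theorem result {G : Type*} [Group G] [Finite G] (p : ℕ) [Fact p.Prime] (A B : Subgroup G)
    (hA : IsPGroup p ↥A) (hB : IsPGroup p ↥B)
    (hAti : ∀ g : G, A.map (MulAut.conj g).toMonoidHom = A ∨ A.map (MulAut.conj g).toMonoidHom ⊓ A = ⊥)
    (hBti : ∀ g : G, B.map (MulAut.conj g).toMonoidHom = B ∨ B.map (MulAut.conj g).toMonoidHom ⊓ B = ⊥)
    (hle : Nat.card ↥A ≤ Nat.card ↥B) (hAB : A ⊓ B = ⊥) (hN : B ≤ Subgroup.normalizer (A : Set G)) : ⁅A, B⁆ = ⊥ := by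
  rw [Subgroup.commutator_eq_bot_iff_le_centralizer]
  intro a ha
  rw [Subgroup.mem_centralizer_iff]
  have hNA : ∀ b ∈ B, ∀ x ∈ A, b * x * b⁻¹ ∈ A := by
    intro b hb x hx
    exact ((Subgroup.mem_normalizer_iff.mp (hN hb)) x).mp hx
  rcases hBti a with h | h
  · intro b hb
    have h1 : a * b * a⁻¹ ∈ B := by
      rw [← h]
      exact ⟨b, hb, rfl⟩
    have h2 : a * b * a⁻¹ * b⁻¹ ∈ A ⊓ B := by
      refine ⟨?_, B.mul_mem h1 (B.inv_mem hb)⟩
      have := A.mul_mem ha (hNA b hb a⁻¹ (A.inv_mem ha))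
      simpa [mul_assoc] using this
    rw [hAB, Subgroup.mem_bot] at h2
    have : a * b = b * a := by
      have h3 : a * b * a⁻¹ * b⁻¹ * (b * a) = b * a := by rw [h2, one_mul]
      rw [← h3]; group
    exact this.symm
  · by_cases ha1 : a = 1
    · intro b _; rw [ha1, mul_one, one_mul]
    exfalso
    let φ : B → A := fun b => ⟨b * a * b⁻¹, hNA b b.2 a ha⟩
    have hinj : Function.Injective φ := by
      intro b b' hbb
      have h1 : (b : G) * a * (b : G)⁻¹ = b' * a * (b' : G)⁻¹ := congrArg Subtype.val hbb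
      have h2 : a * ((b' : G)⁻¹ * b) * a⁻¹ = (b' : G)⁻¹ * b := by
        have : a = (b' : G)⁻¹ * (b * a * (b : G)⁻¹) * b' := by rw [h1]; group
        calc a * ((b' : G)⁻¹ * b) * a⁻¹ = a * ((b' : G)⁻¹ * (b * a * (b : G)⁻¹) * b')⁻¹ * ((b' : G)⁻¹ * b) := by group
          _ = (b' : G)⁻¹ * b := by rw [← this]; group
      have h3 : (b' : G)⁻¹ * b ∈ B.map (MulAut.conj a).toMonoidHom ⊓ B := by
        refine ⟨⟨(b' : G)⁻¹ * b, B.mul_mem (B.inv_mem b'.2) b.2, ?_⟩, B.mul_mem (B.inv_mem b'.2) b.2⟩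
        simpa using h2
      rw [h, Subgroup.mem_bot, inv_mul_eq_one] at h3
      exact (Subtype.ext h3).symm
    have hns : ¬ Function.Surjective φ := by
      intro hs
      obtain ⟨b, hb⟩ := hs 1
      have h1 : (b : G) * a * (b : G)⁻¹ = 1 := congrArg Subtype.val hb
      apply ha1
      have : a = (b : G)⁻¹ * (b * a * (b : G)⁻¹) * b := by group
      rw [this, h1]; group
    haveI := Fintype.ofFinite A
    haveI := Fintype.ofFinite B
    have := Fintype.card_lt_of_injective_not_surjective φ hinj hns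
    rw [Nat.card_eq_fintype_card, Nat.card_eq_fintype_card] at hle
    omega

end Cfsg.Agent.S1757
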