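import Cfsg.Statements.S1780

set_option autoImplicit false
open Cfsg

namespace Cfsg.Agent.S1780

theorem result {A : Type*} [CommGroup A] [Finite A]
    (hA : IsPGroup 2 A) (t : MulAut A) (ht : ∃ k : ℕ, orderOf t = 2 ^ k) (hC : ∀ a : A, t (t a) = a → t a = a) :
    ∀ a : A, t a = a := by
  have P : ∀ j : ℕ, ∀ a : A, (t ^ (2 ^ j)) a = a → t a = a := by
    intro j
    induction j with
    | zero => intro a ha; simpa using ha
    | succ j ih =>
      intro b hb
      set w : MulAut A := t ^ (2 ^ j) with hw
      have hww : w (w b) = b := by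
        have : t ^ (2 ^ (j + 1)) = w * w := by rw [hw, ← pow_add, pow_succ, mul_two]
        rw [this] at hb
        exact hb
      have hcomm : ∀ a, t (w a) = w (t a) := by
        intro a
        have : t * w = w * t := by rw [hw, ← pow_succ, ← pow_succ']
        exact congrArg (fun f : MulAut A => f a) this
      have h1 : t (b * w b) = b * w b := by
        apply ih
        rw [map_mul, hww, mul_comm]
      rw [map_mul] at h1
      by_contra hne
      set d : A := b⁻¹ * t b with hd
      have hd1 : d ≠ 1 := by
        intro h
        apply hne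
        rw [hd, inv_mul_eq_one] at h
        exact h.symm
      have hwd : w d = d⁻¹ := by
        rw [eq_inv_iff_mul_eq_one, hd, map_mul, map_inv, ← hcomm]
        calc (w b)⁻¹ * t (w b) * (b⁻¹ * t b) = (b * w b)⁻¹ * (t b * t (w b)) := by
              rw [mul_inv]; ac_rfl
          _ = 1 := by rw [h1, inv_mul_cancel]
      obtain ⟨e, he⟩ := (IsPGroup.iff_orderOf.mp hA) d
      have he0 : e ≠ 0 := by
        rintro rfl
        rw [pow_zero, orderOf_eq_one_iff] at he
        exact hd1 he
      obtain ⟨e', rfl⟩ := Nat.exists_eq_succ_of_ne_zero he0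
      set m : ℕ := 2 ^ e' with hm
      have hdm2 : d ^ m * d ^ m = 1 := by
        rw [← pow_add, ← two_mul, hm, ← pow_succ', ← Nat.succ_eq_add_one, ← he, pow_orderOf_eq_one]
      have hdm1 : d ^ m ≠ 1 := by
        intro h
        have := orderOf_dvd_of_pow_eq_one h
        rw [he, hm, Nat.succ_eq_add_one] at this
        have h2 := Nat.le_of_dvd (by positivity) this
        rw [pow_succ] at h2
        have : 0 < 2 ^ e' := by positivity
        omega
      have hwdm : w (d ^ m) = d ^ m := by
        rw [map_pow, hwd, inv_pow, inv_eq_iff_mul_eq_one]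
        exact hdm2
      have htdm : t (d ^ m) = d ^ m := ih _ hwdm
      have htb : t b = b * d := by rw [hd, mul_inv_cancel_left]
      have htbm : t (b ^ m) = b ^ m * d ^ m := by rw [map_pow, htb, mul_pow]
      have h3 : t (b ^ m) = b ^ m := by
        apply hC
        rw [htbm, map_mul, htbm, htdm, mul_assoc, hdm2, mul_one]
      rw [htbm] at h3
      exact hdm1 (by simpa using h3)
  obtain ⟨k, hk⟩ := ht
  intro a
  apply P k
  rw [← hk, pow_orderOf_eq_one]
  rfl

end Cfsg.Agent.S1780
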