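import Cfsg.Statements.S1781
import Cfsg.Agent.Lib.Helper29.Conj
import Cfsg.Agent.S1780
import Cfsg.Agent.S1757

set_option autoImplicit false
open Cfsg

namespace Cfsg.Agent.S1781

open Cfsg.Agent.Lib.Helper29

/-- Internal form of S1780. -/
theorem centralizes {G : Type*} [Group G] [Finite G] (B : Subgroup G) (hB2 : IsPGroup 2 ↥B)
    (hBa : ∀ x ∈ B, ∀ y ∈ B, x * y = y * x) (a : G) (k : ℕ) (hak : a ^ 2 ^ k = 1)
    (haN : ∀ b ∈ B, a * b * a⁻¹ ∈ B) (haN' : ∀ b ∈ B, a⁻¹ * b * a ∈ B)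
    (hC : ∀ b ∈ B, (a * a) * b = b * (a * a) → a * b = b * a) : ∀ b ∈ B, a * b = b * a := by
  let _ : CommGroup ↥B := { (inferInstance : Group ↥B) with
    mul_comm := fun x y => Subtype.ext (hBa x x.2 y y.2) }
  let t : MulAut ↥B :=
    { toFun := fun b => ⟨a * b * a⁻¹, haN b b.2⟩
      invFun := fun b => ⟨a⁻¹ * b * a, haN' b b.2⟩
      left_inv := fun b => Subtype.ext (by simp only []; group)
      right_inv := fun b => Subtype.ext (by simp only []; group)
      map_mul' := fun b c => Subtype.ext (by simp only [Subgroup.coe_mul]; group) }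
  have ht : ∀ b : ↥B, ((t b : ↥B) : G) = a * b * a⁻¹ := fun b => rfl
  have htn : ∀ n : ℕ, ∀ b : ↥B, (((t ^ n) b : ↥B) : G) = a ^ n * b * (a ^ n)⁻¹ := by
    intro n
    induction n with
    | zero => intro b; simp
    | succ n ih =>
      intro b
      rw [pow_succ', MulAut.mul_apply, ht, ih, pow_succ']
      group
  have hord : ∃ j : ℕ, orderOf t = 2 ^ j := by
    have : t ^ 2 ^ k = 1 := by
      ext b
      rw [htn, hak]; simp
    obtain ⟨j, -, hj⟩ := (Nat.dvd_prime_pow Nat.prime_two).mp (orderOf_dvd_of_pow_eq_one this)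
    exact ⟨j, hj⟩
  have key := Cfsg.Agent.S1780.result hB2 t hord (by
    intro b hb
    have h1 : a * (a * b * a⁻¹) * a⁻¹ = (b : G) := by
      have := congrArg Subtype.val hb
      rwa [ht, ht] at this
    have h2 : a * (b : G) = b * a := by
      apply hC b b.2
      calc a * a * (b : G) = a * (a * b * a⁻¹) * a⁻¹ * (a * a) := by group
        _ = b * (a * a) := by rw [h1]
    apply Subtype.ext
    rw [ht, h2]; group)
  intro b hb
  have := congrArg Subtype.val (key ⟨b, hb⟩)
  rw [ht] at this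
  calc a * b = a * b * a⁻¹ * a := by group
    _ = b * a := by rw [this]

theorem result {G : Type*} [Group G] [Finite G] (A : Subgroup G)
    (hA2 : IsPGroup 2 ↥A) (hAa : IsMulCommutative ↥A)
    (hti : ∀ h : G, A.map (MulAut.conj h).toMonoidHom = A ∨ A.map (MulAut.conj h).toMonoidHom ⊓ A = ⊥)
    (g : G) (hg : A.map (MulAut.conj g).toMonoidHom ≠ A) :
    Cfsg.IsElementaryAbelian 2 (A ⊓ Subgroup.normalizer ((A.map (MulAut.conj g).toMonoidHom : Subgroup G) : Set G)) ∨
      ⁅A, A.map (MulAut.conj g).toMonoidHom⁆ = ⊥ := by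
  set B : Subgroup G := A.map (MulAut.conj g).toMonoidHom with hB
  have hAc : ∀ x ∈ A, ∀ y ∈ A, x * y = y * x := fun x hx y hy =>
    congrArg Subtype.val (mul_comm' (⟨x, hx⟩ : ↥A) ⟨y, hy⟩)
  have hBc : ∀ x ∈ B, ∀ y ∈ B, x * y = y * x := by
    rintro _ ⟨x, hx, rfl⟩ _ ⟨y, hy, rfl⟩
    rw [← map_mul, ← map_mul, hAc x hx y hy]
  have hB2 : IsPGroup 2 ↥B := hA2.map _
  have hAB : A ⊓ B = ⊥ := by
    rcases hti g with h | h
    · exact absurd h hg
    · rw [inf_comm]; exact h
  by_cases hel : ∀ a ∈ A ⊓ Subgroup.normalizer (B : Set G), a ^ 2 = 1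
  · left
    exact ⟨⟨⟨fun x y => Subtype.ext (hAc x x.2.1 y y.2.1)⟩⟩, hel⟩
  right
  push Not at hel
  obtain ⟨a, ⟨haA, haN⟩, ha2⟩ := hel
  replace haA : a ∈ A := haA
  replace haN : a ∈ Subgroup.normalizer (B : Set G) := haN
  rw [Subgroup.mem_normalizer_iff] at haN
  obtain ⟨k, hk⟩ := hA2 ⟨a, haA⟩
  have hk' : a ^ 2 ^ k = 1 := by
    have := congrArg Subtype.val hk
    simpa using this
  -- an element of `B` commuting with a nontrivial element of `A` normalises `A`
  have hnorm : ∀ c ∈ A, c ≠ 1 → ∀ b : G, c * b = b * c → A.map (MulAut.conj b).toMonoidHom = A := by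
    intro c hc hc1 b hcb
    rcases hti b with h | h
    · exact h
    · exfalso
      have : c ∈ A.map (MulAut.conj b).toMonoidHom ⊓ A := by
        refine Subgroup.mem_inf.mpr ⟨?_, hc⟩
        rw [mem_conj]
        have : b⁻¹ * c * b = c := by rw [mul_assoc, hcb]; group
        rw [this]; exact hc
      rw [h, Subgroup.mem_bot] at this
      exact hc1 this
  have hcent : ∀ b ∈ B, a * b = b * a := by
    apply centralizes B hB2 hBc a k hk' (fun b hb => (haN b).mp hb)
    · intro b hb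
      rw [haN]
      have : a * (a⁻¹ * b * a) * a⁻¹ = b := by group
      rwa [this]
    · intro b hb hcomm
      have h1 := hnorm (a * a) (A.mul_mem haA haA) (by rwa [← pow_two]) b hcomm
      have h2 : a * b * a⁻¹ * b⁻¹ ∈ A ⊓ B := by
        refine ⟨?_, B.mul_mem ((haN b).mp hb) (B.inv_mem hb)⟩
        have h3 : b * a⁻¹ * b⁻¹ ∈ A := by
          rw [← h1]; exact conj_mem_conj b (A.inv_mem haA)
        have := A.mul_mem haA h3
        simpa [mul_assoc] using this
      rw [hAB, Subgroup.mem_bot] at h2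
      have h3 : a * b * a⁻¹ * b⁻¹ * (b * a) = b * a := by rw [h2, one_mul]
      rw [← h3]; group
  have ha1 : a ≠ 1 := by
    rintro rfl
    simp at ha2
  have hBN : B ≤ Subgroup.normalizer (A : Set G) := by
    intro b hb
    rw [← conj_eq_iff_mem_normalizer]
    exact hnorm a haA ha1 b (hcent b hb)
  exact Cfsg.Agent.S1757.result 2 A B hA2 hB2 hti (ti_conj hti g) (card_conj A g).ge hAB hBN

end Cfsg.Agent.S1781
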