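import Mathlib
import Cfsg.Statements.S1783
import Cfsg.Agent.Lib.Helper8.TISq

set_option autoImplicit false
open Cfsg
open Cfsg.Agent.Lib.Helper8

namespace Cfsg.Agent.S1783

/-- Let X be a finite group whose generalized Fitting subgroup equals its largest normal 2-subgroup Q, and let A be an abelian 2-subgroup of X such that every conjugate of A equals A or meets A trivially. Let B be the subgroup generated by the squares of the elements of A. Then B lies in Q, and if B is not an elementary abelian 2-group then the normal closure of B in X is commutative. -/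
theorem result {X : Type*} [Group X] [Finite X]
    (hX : Cfsg.generalizedFittingSubgroup X = Cfsg.pCore 2 X) (A : Subgroup X) (hA2 : IsPGroup 2 ↥A) (hAa : IsMulCommutative ↥A)
    (hti : ∀ h : X, A.map (MulAut.conj h).toMonoidHom = A ∨ A.map (MulAut.conj h).toMonoidHom ⊓ A = ⊥) :
    Subgroup.closure ((fun a : X => a ^ 2) '' (A : Set X)) ≤ Cfsg.pCore 2 X ∧
      (¬ Cfsg.IsElementaryAbelian 2 (Subgroup.closure ((fun a : X => a ^ 2) '' (A : Set X))) →
        IsMulCommutative ↥(Subgroup.normalClosure ((fun a : X => a ^ 2) '' (A : Set X)))) := by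
  haveI : Fact (Nat.Prime 2) := ⟨Nat.prime_two⟩
  haveI hQn : (Cfsg.pCore 2 X).Normal := inferInstance
  have hQ2 : IsPGroup 2 (Cfsg.pCore 2 X) := isPGroup_pCore 2
  have hab : ∀ c ∈ A, ∀ c' ∈ A, c * c' = c' * c := by
    intro c hc c' hc'
    have := hAa.is_comm.comm ⟨c, hc⟩ ⟨c', hc'⟩
    exact congrArg Subtype.val this
  have part1 : Subgroup.closure ((fun a : X => a ^ 2) '' (A : Set X)) ≤ Cfsg.pCore 2 X := by
    rw [Subgroup.closure_le]
    rintro _ ⟨a, ha, rfl⟩
    by_cases ha2 : a ^ 2 = 1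
    · show a ^ 2 ∈ Cfsg.pCore 2 X
      rw [ha2]; exact Subgroup.one_mem _
    · apply sq_mem_pCore hX
      intro q hq
      have hP : IsPGroup 2 (A ⊔ Cfsg.pCore 2 X : Subgroup X) := hA2.to_sup_of_normal_right hQ2
      refine fam_commute (A ⊔ Cfsg.pCore 2 X) (A ⊔ Cfsg.pCore 2 X) A hP le_rfl ?_
        (fun h _ => hti h) ⟨a, ha, ha2⟩ hab q (Subgroup.mem_sup_right hq) a ha a⁻¹ (A.inv_mem ha)
      rintro g hg _ ⟨c, hc, rfl⟩
      exact Subgroup.mul_mem _ (Subgroup.mul_mem _ hg (Subgroup.mem_sup_left hc)) (Subgroup.inv_mem _ hg)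
  refine ⟨part1, ?_⟩
  intro hne
  obtain ⟨B, hB⟩ : ∃ B, B = Subgroup.closure ((fun a : X => a ^ 2) '' (A : Set X)) := ⟨_, rfl⟩
  rw [← hB] at part1 hne
  have hBA : B ≤ A := by
    rw [hB, Subgroup.closure_le]
    rintro _ ⟨a, ha, rfl⟩
    exact A.pow_mem ha 2
  have habB : ∀ c ∈ B, ∀ c' ∈ B, c * c' = c' * c := fun c hc c' hc' => hab c (hBA hc) c' (hBA hc')
  have hsq : ∃ c ∈ B, c ^ 2 ≠ 1 := by
    by_contra hcon
    push Not at hcon
    exact hne ⟨⟨⟨fun x y => Subtype.ext (habB x x.2 y y.2)⟩⟩, hcon⟩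
  have htiB : ∀ h : X, B.map (MulAut.conj h).toMonoidHom = B ∨ B.map (MulAut.conj h).toMonoidHom ⊓ B = ⊥ := by
    intro h
    rcases hti h with h1 | h1
    · left
      rw [hB, MonoidHom.map_closure]
      congr 1
      ext x
      constructor
      · rintro ⟨_, ⟨a, ha, rfl⟩, rfl⟩
        refine ⟨h * a * h⁻¹, ?_, ?_⟩
        · rw [SetLike.mem_coe, ← h1]; exact ⟨a, ha, rfl⟩
        · simp [conj_pow]
      · rintro ⟨a, ha, rfl⟩
        rw [SetLike.mem_coe, ← h1] at ha
        obtain ⟨a', ha', rfl⟩ := ha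
        exact ⟨a' ^ 2, ⟨a', ha', rfl⟩, by simp [conj_pow]⟩
    · right
      rw [eq_bot_iff, ← h1]
      exact inf_le_inf (Subgroup.map_mono hBA) hBA
  have hcomm := fam_commute (Cfsg.pCore 2 X) ⊤ B hQ2 le_top (by
      rintro g - _ ⟨c, hc, rfl⟩
      exact hQn.conj_mem c (part1 hc) g) (fun h _ => htiB h) hsq habB
  have hgen : ∀ x ∈ Group.conjugatesOfSet ((fun a : X => a ^ 2) '' (A : Set X)),
      ∀ y ∈ Group.conjugatesOfSet ((fun a : X => a ^ 2) '' (A : Set X)), x * y = y * x := by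
    intro x hx y hy
    rw [Group.mem_conjugatesOfSet_iff] at hx hy
    obtain ⟨b, hb, hbx⟩ := hx
    obtain ⟨b', hb', hby⟩ := hy
    obtain ⟨g, rfl⟩ := isConj_iff.mp hbx
    obtain ⟨h, rfl⟩ := isConj_iff.mp hby
    have hbB : b ∈ B := by rw [hB]; exact Subgroup.subset_closure hb
    have hbB' : b' ∈ B := by rw [hB]; exact Subgroup.subset_closure hb'
    have h1 := (hcomm (g⁻¹ * h) (Subgroup.mem_top _) b hbB b' hbB').eq
    calc g * b * g⁻¹ * (h * b' * h⁻¹) = g * (b * (g⁻¹ * h * b' * (g⁻¹ * h)⁻¹)) * g⁻¹ := by group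
      _ = g * ((g⁻¹ * h * b' * (g⁻¹ * h)⁻¹) * b) * g⁻¹ := by rw [h1]
      _ = h * b' * h⁻¹ * (g * b * g⁻¹) := by group
  exact Subgroup.isMulCommutative_closure hgen

end Cfsg.Agent.S1783
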