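import Cfsg.Statements.S1784
import Mathlib
import Cfsg.Agent.Lib.Helper10.FStarES

set_option autoImplicit false
open Cfsg

namespace Cfsg.Agent.S1784

open Cfsg.Agent.Lib.Helper27 Cfsg.Agent.Lib.Helper10

theorem aux {G : Type*} [Group G] [Finite G] {Q : Subgroup G} {z : G} (h : ES Q z) (α : G)
    (hαα : α * α = 1) (hαz : α * z = z * α) (hαQ : α ∉ Q) (Q₀ : Subgroup G)
    (hQ₀ : ∀ q : G, q ∈ Q₀ ↔ (q ∈ Q ∧ α * q * α⁻¹ * q⁻¹ ∈ Subgroup.zpowers z)) :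
    Subgroup.closure ((fun q : G => α * q * α⁻¹ * q⁻¹) '' (Q : Set G))
        = (Subgroup.center ↥Q₀).map Q₀.subtype ∧
      (¬ Q₀ ≤ (Q ⊓ Subgroup.centralizer ({α} : Set G)) ⊔ Subgroup.zpowers z →
        ∃ q ∈ Q, q * α * q⁻¹ = α * z) := by
  classical
  have ai : α⁻¹ = α := inv_eq_of_mul_eq_one_left hαα
  have zi : z⁻¹ = z := inv_eq_of_mul_eq_one_left h.sq
  have hzp : ∀ x : G, x ∈ Subgroup.zpowers z ↔ x = 1 ∨ x = z := by
    intro x
    constructor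
    · intro hx
      obtain ⟨k, rfl⟩ := Subgroup.mem_zpowers_iff.1 hx
      rcases Int.even_or_odd k with ⟨j, hj⟩ | ⟨j, hj⟩
      · left
        rw [hj, ← two_mul, zpow_mul, zpow_two, h.sq, one_zpow]
      · right
        rw [hj, zpow_add, zpow_mul, zpow_two, h.sq, one_zpow, one_mul, zpow_one]
    · rintro (rfl | rfl)
      · exact Subgroup.one_mem _
      · exact Subgroup.mem_zpowers _
  obtain ⟨Cz, hCz⟩ : ∃ Cz : Subgroup G, ∀ x, x ∈ Cz ↔ x * z = z * x :=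
    ⟨Subgroup.centralizer {z}, fun x => Subgroup.mem_centralizer_singleton_iff⟩
  have hαC : α ∈ Cz := (hCz α).2 hαz
  have hQC : ∀ q ∈ Q, q ∈ Cz := fun q hq => (hCz q).2 (h.cen q hq)
  have hcen : ∀ t, (t = 1 ∨ t = z) → ∀ x ∈ Cz, x * t = t * x := by
    rintro t (rfl | rfl) x hx
    · simp
    · exact (hCz x).1 hx
  have hcC : ∀ t, (t = 1 ∨ t = z) → t ∈ Cz := by
    rintro t (rfl | rfl)
    · exact Cz.one_mem
    · exact (hCz _).2 rfl
  obtain ⟨W, hW⟩ : ∃ W, W = Subgroup.closure ((fun q : G => α * q * α⁻¹ * q⁻¹) '' (Q : Set G)) :=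
    ⟨_, rfl⟩
  rw [← hW]
  have hwQ : ∀ q ∈ Q, α * q * α⁻¹ * q⁻¹ ∈ Q := fun q hq =>
    Q.mul_mem (h.nor α hαz q hq) (Q.inv_mem hq)
  have hgen : ∀ q ∈ Q, α * q * α⁻¹ * q⁻¹ ∈ W := fun q hq => by
    rw [hW]; exact Subgroup.subset_closure ⟨q, hq, rfl⟩
  have hW_le : W ≤ Q := by
    rw [hW, Subgroup.closure_le]
    rintro _ ⟨q, hq, rfl⟩
    exact hwQ q hq
  have hzW : z ∈ W := by
    have hex : ∃ q ∈ Q, α * q * α⁻¹ * q⁻¹ ≠ 1 := by
      by_contra hcon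
      push Not at hcon
      have : α = 1 ∨ α = z :=
        h.cent α (fun q hq => (comm_of_commutator_eq_one (hcon q hq)).symm)
      rcases this with e | e
      · exact hαQ (e ▸ Q.one_mem)
      · exact hαQ (e ▸ h.mem)
    obtain ⟨q, hq, hne⟩ := hex
    by_cases hwz : α * q * α⁻¹ * q⁻¹ = z
    · rw [← hwz]; exact hgen q hq
    obtain ⟨r, hr, hrw⟩ := h.exists_conj (hwQ q hq) hne hwz
    have e1 : r * (α * q * α⁻¹ * q⁻¹) * r⁻¹
        = (α * r * α⁻¹ * r⁻¹)⁻¹ * (α * (r * q) * α⁻¹ * (r * q)⁻¹) := by group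
    have e2 : z = (r * (α * q * α⁻¹ * q⁻¹) * r⁻¹) * (α * q * α⁻¹ * q⁻¹)⁻¹ := by rw [hrw]; group
    rw [e2, e1]
    exact W.mul_mem (W.mul_mem (W.inv_mem (hgen r hr)) (hgen _ (Q.mul_mem hr hq)))
      (W.inv_mem (hgen q hq))
  have hWZ : ∀ q ∈ Q, (α * q * α⁻¹ * q⁻¹ ∈ Q₀ ∧
      ∀ c ∈ Q₀, c * (α * q * α⁻¹ * q⁻¹) = (α * q * α⁻¹ * q⁻¹) * c) := by
    intro q hq
    constructor
    · rw [hQ₀]
      refine ⟨hwQ q hq, ?_⟩
      have e : α * (α * q * α⁻¹ * q⁻¹) * α⁻¹ * (α * q * α⁻¹ * q⁻¹)⁻¹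
          = (q * (α * q⁻¹ * α⁻¹)) * (q * (α * q⁻¹ * α⁻¹)) := by
        calc α * (α * q * α⁻¹ * q⁻¹) * α⁻¹ * (α * q * α⁻¹ * q⁻¹)⁻¹
            = (α * α) * q * α⁻¹ * q⁻¹ * α⁻¹ * (q * α * q⁻¹ * α⁻¹) := by group
          _ = q * α * q⁻¹ * α * (q * α * q⁻¹ * α) := by rw [hαα, ai, one_mul]
          _ = (q * (α * q⁻¹ * α)) * (q * (α * q⁻¹ * α)) := by group
          _ = _ := by rw [ai]
      rw [e, hzp]
      exact h.sqs _ (Q.mul_mem hq (h.nor α hαz _ (Q.inv_mem hq)))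
    · intro c hc
      obtain ⟨hcQ, hcz⟩ := (hQ₀ c).1 hc
      obtain ⟨ζ, hζdef⟩ : ∃ ζ, ζ = α * c * α⁻¹ * c⁻¹ := ⟨_, rfl⟩
      obtain ⟨κ, hκdef⟩ : ∃ κ, κ = c * q * c⁻¹ * q⁻¹ := ⟨_, rfl⟩
      have hζ : ζ = 1 ∨ ζ = z := by rw [hζdef]; exact (hzp _).1 hcz
      have hκ : κ = 1 ∨ κ = z := by rw [hκdef]; exact h.comm c hcQ q hq
      have e1 : c * (α * q * α⁻¹ * q⁻¹) = ζ⁻¹ * (α * κ * q * α⁻¹) * ζ * q⁻¹ * κ⁻¹ * c := by
        rw [hζdef, hκdef]; group
      have e2 : (α * κ * q * α⁻¹) * ζ = ζ * (α * κ * q * α⁻¹) :=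
        hcen ζ hζ _ (Cz.mul_mem (Cz.mul_mem (Cz.mul_mem hαC (hcC κ hκ)) (hQC q hq)) (Cz.inv_mem hαC))
      have e3 : α * κ = κ * α := hcen κ hκ α hαC
      have e4 : (α * q * α⁻¹ * q⁻¹) * κ = κ * (α * q * α⁻¹ * q⁻¹) :=
        hcen κ hκ _ (hQC _ (hwQ q hq))
      calc c * (α * q * α⁻¹ * q⁻¹) = ζ⁻¹ * ((α * κ * q * α⁻¹) * ζ) * q⁻¹ * κ⁻¹ * c := by
            rw [e1]; group
        _ = ζ⁻¹ * (ζ * (α * κ * q * α⁻¹)) * q⁻¹ * κ⁻¹ * c := by rw [e2]
        _ = (α * κ) * q * α⁻¹ * q⁻¹ * κ⁻¹ * c := by group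
        _ = (κ * α) * q * α⁻¹ * q⁻¹ * κ⁻¹ * c := by rw [e3]
        _ = (κ * (α * q * α⁻¹ * q⁻¹)) * κ⁻¹ * c := by group
        _ = ((α * q * α⁻¹ * q⁻¹) * κ) * κ⁻¹ * c := by rw [e4]
        _ = (α * q * α⁻¹ * q⁻¹) * c := by group
  have hZW : ∀ x ∈ Q₀, (∀ y ∈ Q₀, y * x = x * y) → x ∈ W := by
    intro x hx hxc
    by_contra hxW
    have hxQ := ((hQ₀ x).1 hx).1
    have hcl : Subgroup.closure
        ((((Set.toFinite (W : Set G)).toFinset : Finset G) : Set G) ∪ {z}) ≤ W := by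
      rw [Subgroup.closure_le]
      rintro y (hy | hy)
      · simpa using hy
      · rw [Set.mem_singleton_iff.1 hy]; exact hzW
    obtain ⟨g, hg, hgS, hgx⟩ := ES_exists_perp h (Set.toFinite (W : Set G)).toFinset
      (fun s hs => hW_le (by simpa using hs)) x hxQ (fun e => hxW (hcl e))
    have hgW : ∀ w ∈ W, g * w = w * g := fun w hw => hgS w (by simpa using hw)
    have hgQ₀ : g ∈ Q₀ := by
      rw [hQ₀]
      refine ⟨hg, (hzp _).2 (h.cent _ ?_)⟩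
      intro q hq
      obtain ⟨κ, hκdef⟩ : ∃ κ, κ = q * g * q⁻¹ * g⁻¹ := ⟨_, rfl⟩
      obtain ⟨w, hwdef⟩ : ∃ w, w = α * q * α⁻¹ * q⁻¹ := ⟨_, rfl⟩
      have hκ : κ = 1 ∨ κ = z := by rw [hκdef]; exact h.comm q hq g hg
      have hw : w ∈ W := by rw [hwdef]; exact hgen q hq
      have hgw := hgW w hw
      have i1 : q * α = α * w * q := by
        calc q * α = (α * α) * q * α := by rw [hαα, one_mul]
          _ = (α * α) * q * α⁻¹ := by rw [ai]
          _ = α * w * q := by rw [hwdef]; group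
      have i2 : q * α⁻¹ = α⁻¹ * w * q := by rw [ai]; exact i1
      have i3 : q * g = κ * g * q := by rw [hκdef]; group
      have i4 : q * g⁻¹ = g⁻¹ * κ⁻¹ * q := by rw [hκdef]; group
      have i5 : w * α⁻¹ * w = α⁻¹ := by
        calc w * α⁻¹ * w = α * q * (α⁻¹ * α⁻¹) * q⁻¹ := by rw [hwdef]; group
          _ = α := by rw [ai, hαα]; group
          _ = α⁻¹ := ai.symm
      have j1 : (g * α⁻¹ * w * g⁻¹) * κ = κ * (g * α⁻¹ * w * g⁻¹) :=
        hcen κ hκ _ (Cz.mul_mem (Cz.mul_mem (Cz.mul_mem (hQC g hg) (Cz.inv_mem hαC))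
          (hQC w (hW_le hw))) (Cz.inv_mem (hQC g hg)))
      calc q * (α * g * α⁻¹ * g⁻¹) = (q * α) * g * α⁻¹ * g⁻¹ := by group
        _ = α * w * (q * g) * α⁻¹ * g⁻¹ := by rw [i1]; group
        _ = α * w * κ * g * (q * α⁻¹) * g⁻¹ := by rw [i3]; group
        _ = α * w * κ * g * α⁻¹ * w * (q * g⁻¹) := by rw [i2]; group
        _ = α * w * (κ * (g * α⁻¹ * w * g⁻¹)) * κ⁻¹ * q := by rw [i4]; group
        _ = α * w * ((g * α⁻¹ * w * g⁻¹) * κ) * κ⁻¹ * q := by rw [j1]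
        _ = α * (w * g) * α⁻¹ * w * g⁻¹ * q := by group
        _ = α * (g * w) * α⁻¹ * w * g⁻¹ * q := by rw [← hgw]
        _ = α * g * (w * α⁻¹ * w) * g⁻¹ * q := by group
        _ = α * g * α⁻¹ * g⁻¹ * q := by rw [i5]
    have h1 := hxc g hgQ₀
    apply h.ne
    have h2 : x = z * x := by rw [← hgx, h1]; group
    exact mul_eq_right.1 h2.symm
  refine ⟨le_antisymm ?_ ?_, ?_⟩
  · rw [hW, Subgroup.closure_le]
    rintro _ ⟨q, hq, rfl⟩
    rw [SetLike.mem_coe, mem_center_map_iff]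
    exact hWZ q hq
  · intro x hx
    rw [mem_center_map_iff] at hx
    exact hZW x hx.1 hx.2
  · intro hnot
    obtain ⟨q, hq, hqn⟩ := SetLike.not_le_iff_exists.1 hnot
    obtain ⟨hqQ, hqz⟩ := (hQ₀ q).1 hq
    rcases (hzp _).1 hqz with e | e
    · exfalso
      apply hqn
      apply Subgroup.mem_sup_left
      refine Subgroup.mem_inf.2 ⟨hqQ, ?_⟩
      rw [Subgroup.mem_centralizer_singleton_iff]
      exact (comm_of_commutator_eq_one e).symm
    · refine ⟨q, hqQ, ?_⟩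
      calc q * α * q⁻¹ = (α * q * α⁻¹ * q⁻¹)⁻¹ * α := by group
        _ = z⁻¹ * α := by rw [e]
        _ = z * α := by rw [zi]
        _ = α * z := hαz.symm

/-- Let G be a finite group and let z be an involution of G such that Q, the generalized Fitting subgroup of the centralizer C of z, is a 2-group of symplectic type (every characteristic abelian subgroup of Q is cyclic); suppose Q is extraspecial, and view Q inside G. Let α be an involution of C that is not in Q, and let Q₀ be the subgroup of those q ∈ Q whose commutator with α lies in the subgroup generated by z. Then (a) the subgroup generated by the commutators α q α⁻¹ q⁻¹, q ∈ Q, equals the centre of Q₀; and (b) if Q₀ is not contained in the product of the centralizer of α in Q with the subgroup generated by z, then some element of Q conjugates α to α z. -/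
theorem result {G : Type*} [Group G] [Finite G] (z : G) (hz : orderOf z = 2) (hQ : Cfsg.IsOfSymplecticType ↥(Cfsg.generalizedFittingSubgroup ↥(Subgroup.centralizer ({z} : Set G)))) (hE : Cfsg.IsExtraspecial 2 ↥(Cfsg.generalizedFittingSubgroup ↥(Subgroup.centralizer ({z} : Set G))))
    (α : G) (hα : orderOf α = 2) (hαC : α ∈ Subgroup.centralizer ({z} : Set G)) (hαQ : α ∉ (Cfsg.generalizedFittingSubgroup ↥(Subgroup.centralizer ({z} : Set G))).map (Subgroup.centralizer ({z} : Set G)).subtype)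
    (Q₀ : Subgroup G) (hQ₀ : ∀ q : G, q ∈ Q₀ ↔ (q ∈ (Cfsg.generalizedFittingSubgroup ↥(Subgroup.centralizer ({z} : Set G))).map (Subgroup.centralizer ({z} : Set G)).subtype ∧ α * q * α⁻¹ * q⁻¹ ∈ Subgroup.zpowers z)) :
    Subgroup.closure ((fun q : G => α * q * α⁻¹ * q⁻¹) '' ((Cfsg.generalizedFittingSubgroup ↥(Subgroup.centralizer ({z} : Set G))).map (Subgroup.centralizer ({z} : Set G)).subtype : Set G)) = (Subgroup.center ↥Q₀).map Q₀.subtype ∧
      (¬ Q₀ ≤ ((Cfsg.generalizedFittingSubgroup ↥(Subgroup.centralizer ({z} : Set G))).map (Subgroup.centralizer ({z} : Set G)).subtype ⊓ Subgroup.centralizer ({α} : Set G)) ⊔ Subgroup.zpowers z →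
        ∃ q ∈ (Cfsg.generalizedFittingSubgroup ↥(Subgroup.centralizer ({z} : Set G))).map (Subgroup.centralizer ({z} : Set G)).subtype, q * α * q⁻¹ = α * z) := by
  have hES := fstar_ES z hz hE
  have hαα : α * α = 1 := by
    rw [← pow_two, ← hα]; exact pow_orderOf_eq_one α
  exact aux hES α hαα (Subgroup.mem_centralizer_singleton_iff.1 hαC) hαQ Q₀ hQ₀

end Cfsg.Agent.S1784
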