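import Cfsg.Statements.S1850
import Cfsg.Agent.Lib.Helper16.FS

set_option autoImplicit false
open Cfsg

namespace Cfsg.Agent.S1850

open Cfsg.Agent.Lib.Helper16


/-- Let G be a non-abelian finite simple QTKE-group and T a Sylow 2-subgroup of G. If U is a nontrivial 2-subgroup of G with U ∩ Z(T) ≠ 1, then F*(N_G(U)) = O₂(N_G(U)). -/
theorem result {G : Type*} [Group G] [Finite G] [IsSimpleGroup G]
    (hG : ¬ IsMulCommutative G) (hQ : Cfsg.IsQTKE G) (T : Sylow 2 G) (U : Subgroup G)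
    (hU : IsPGroup 2 ↥U) (hZ : U ⊓ ((T : Subgroup G) ⊓ Subgroup.centralizer ((T : Subgroup G) : Set G)) ≠ ⊥) :
    Subgroup.normalizer (U : Set G) ∈ Cfsg.calHe G := by
  have : Fact (Nat.Prime 2) := ⟨Nat.prime_two⟩
  obtain ⟨z, hz1⟩ := Subgroup.ne_bot_iff_exists_ne_one.mp hZ
  have hz1' : (z : G) ≠ 1 := fun h => hz1 (Subtype.ext h)
  have hzU : (z : G) ∈ U := z.2.1
  have hzT : (z : G) ∈ (T : Subgroup G) := z.2.2.1
  have hzC : (z : G) ∈ Subgroup.centralizer ((T : Subgroup G) : Set G) := z.2.2.2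
  have hVU : Subgroup.zpowers (z : G) ≤ U := (Subgroup.zpowers_le).mpr hzU
  have hVp : IsPGroup 2 (Subgroup.zpowers (z : G)) := hU.to_le hVU
  have hV1 : Subgroup.zpowers (z : G) ≠ ⊥ := by
    intro h
    exact hz1' (Subgroup.zpowers_eq_bot.mp h)
  have hTN : (T : Subgroup G) ≤ Subgroup.normalizer ((Subgroup.zpowers (z : G) : Subgroup G) : Set G) := by
    refine le_trans ?_ (Subgroup.centralizer_le_normalizer _)
    intro t ht
    rw [Subgroup.mem_centralizer_iff]
    intro y hy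
    obtain ⟨k, rfl⟩ := Subgroup.mem_zpowers_iff.mp hy
    have h1 : Commute (z : G) t := by
      have := (Subgroup.mem_centralizer_iff.mp hzC) t ht
      exact this.symm
    exact (h1.zpow_left k)
  have h1 := hQ.2.2 _ ⟨_, hVp, hV1, rfl⟩ ⟨T, hTN⟩
  have h2 : CharP 2 (Subgroup.normalizer ((Subgroup.zpowers (z : G) : Subgroup G) : Set G)) :=
    (charP_iff' _).mp h1
  have h3 := (h2.centralizer_of_normalizer.centralizer_mono hU hVU).normalizer_of_centralizer hU
  exact (fstar_iff_charP _).mpr h3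

end Cfsg.Agent.S1850
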