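import Cfsg.Statements.S1960
import Cfsg.Agent.Lib.Helper12.Transfer

set_option autoImplicit false
open Cfsg
open Cfsg.Agent.Lib.Helper12

namespace Cfsg.Agent.S1960

/-- control of transfer by a family does not depend on the Sylow subgroup. -/
theorem family_transfer_any {G : Type*} [Group G] [Finite G] {p : ℕ} [Fact p.Prime]
    {𝓦 : Set (Subgroup G → Subgroup G)} (h𝓦 : ∀ W ∈ 𝓦, Cfsg.IsConjugacyFunctor p W)
    {H T : Subgroup G} (h : Cfsg.FamilyControlsTransferIn p 𝓦 H) (hT : IsSylIn p T H) :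
    T ⊓ ⁅H, H⁆ = ⨆ W ∈ 𝓦,
      T ⊓ ⁅H ⊓ Subgroup.normalizer ((W T : Subgroup G) : Set G), H ⊓ Subgroup.normalizer ((W T : Subgroup G) : Set G)⁆ := by
  obtain ⟨T₀, h1, h2, h3, h4⟩ := h
  obtain ⟨y, hy, rfl⟩ := hT.exists_conj_eq ⟨h1, h2, h3⟩
  have hH : cj y H = H := cj_eq_of_mem hy
  have e := congrArg (cj y) h4
  rw [cj_inf, cj_commutator, hH] at e
  rw [e, cj, Subgroup.map_iSup]
  apply iSup_congr
  intro W
  rw [Subgroup.map_iSup]
  apply iSup_congr
  intro hW
  show cj y _ = _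
  rw [cj_inf, cj_commutator, cj_inf, hH, ← normalizer_cj, ← functor_cj (h𝓦 W hW) h2]

/-- Let p be a prime, G a finite group with Sylow p-subgroup S, and 𝓦 a set of conjugacy functors for p on G. Suppose that 𝓦 controls transfer in N_G(T) for every nonidentity subgroup T of S for which N_S(T) is a Sylow p-subgroup of N_G(T): for a Sylow p-subgroup T' of N_G(T), the intersection of T' with the derived subgroup of N_G(T) is generated by its intersections with the derived subgroups of the normalizers in N_G(T) of the W(T'), W ∈ 𝓦. Then 𝓦 controls transfer in G: S ∩ G' is generated by the subgroups S ∩ (N_G(W(S)))', W ∈ 𝓦. -/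
theorem result {G : Type*} [Group G] [Finite G] {p : ℕ} [Fact p.Prime] (S : Sylow p G) (𝓦 : Set (Subgroup G → Subgroup G)) (h𝓦 : ∀ W ∈ 𝓦, Cfsg.IsConjugacyFunctor p W) (hloc : ∀ T : Subgroup G, T ≤ (S : Subgroup G) → T ≠ ⊥ → ¬ p ∣ ((S : Subgroup G) ⊓ Subgroup.normalizer ((T : Subgroup G) : Set G)).relIndex (Subgroup.normalizer ((T : Subgroup G) : Set G)) → Cfsg.FamilyControlsTransferIn p 𝓦 (Subgroup.normalizer ((T : Subgroup G) : Set G))) : Cfsg.FamilyControlsTransferIn p 𝓦 ⊤ := by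
  have hS : IsPGroup p (S : Subgroup G) := S.2
  set D : Subgroup G := ⨆ W ∈ 𝓦, (S : Subgroup G) ⊓ ⁅⊤ ⊓ Subgroup.normalizer ((W (S : Subgroup G) : Subgroup G) : Set G), ⊤ ⊓ Subgroup.normalizer ((W (S : Subgroup G) : Subgroup G) : Set G)⁆ with hD
  refine ⟨S, le_top, hS, (isSylIn_top S).2.2, ?_⟩
  apply le_antisymm
  · apply focal_rel (isSylIn_top S) D
    intro c hc m _ hcm
    have key : goodD D {c} m := by
      refine loc_glob S (goodD_fusionClosed D) 𝓦 h𝓦 ?_ ?_ (goodD_triv D) {c} (Set.singleton_subset_iff.mpr hc) m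
        (rc_singleton_subset hcm)
      · intro W hW d hd B hB hB' b hb
        have hSN : (S : Subgroup G) ≤ Subgroup.normalizer ((W (S : Subgroup G) : Subgroup G) : Set G) :=
          Subgroup.le_normalizer.trans (normalizer_le_normalizer_functor (h𝓦 W hW) hS)
        have h1 : b⁻¹ * (d⁻¹ * b * d) ∈ (S : Subgroup G) ⊓ ⁅⊤ ⊓ Subgroup.normalizer ((W (S : Subgroup G) : Subgroup G) : Set G), ⊤ ⊓ Subgroup.normalizer ((W (S : Subgroup G) : Subgroup G) : Set G)⁆ := by
          refine ⟨Subgroup.mul_mem _ (Subgroup.inv_mem _ (hB hb)) (hB' ⟨b, hb, rfl⟩), ?_⟩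
          exact comm_mem_commutator ⟨Subgroup.mem_top _, hSN (hB hb)⟩ ⟨Subgroup.mem_top _, hd⟩
        exact (le_iSup₂ (f := fun W (_ : W ∈ 𝓦) => (S : Subgroup G) ⊓ ⁅⊤ ⊓ Subgroup.normalizer ((W (S : Subgroup G) : Subgroup G) : Set G), ⊤ ⊓ Subgroup.normalizer ((W (S : Subgroup G) : Subgroup G) : Set G)⁆) W hW) h1
      · intro T hTS hT1 hsyl hsteps x hx B hB hB' b hb
        have e := family_transfer_any h𝓦 (hloc T hTS hT1 hsyl.2.2) hsyl
        have h1 : b⁻¹ * (x⁻¹ * b * x) ∈ ((S : Subgroup G) ⊓ Subgroup.normalizer (T : Set G)) ⊓ ⁅Subgroup.normalizer (T : Set G), Subgroup.normalizer (T : Set G)⁆ :=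
          ⟨Subgroup.mul_mem _ (Subgroup.inv_mem _ (hB hb)) (hB' ⟨b, hb, rfl⟩),
            comm_mem_commutator (hB hb).2 hx⟩
        rw [e] at h1
        revert h1
        apply (show (⨆ W ∈ 𝓦, _) ≤ D from ?_)
        apply iSup₂_le
        intro W hW
        have hS₁p : IsPGroup p ((S : Subgroup G) ⊓ Subgroup.normalizer (T : Set G) : Subgroup G) := hS.to_le inf_le_left
        apply focal_rel (hsyl.of_le (le_inf inf_le_right (Subgroup.le_normalizer.trans (normalizer_le_normalizer_functor (h𝓦 W hW) hS₁p))) inf_le_left) D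
        intro c' hc' m' hm' hcm'
        exact hsteps W hW m' hm' {c'} (Set.singleton_subset_iff.mpr hc')
          (rc_singleton_subset hcm') c' rfl
    exact key c rfl
  · apply iSup₂_le
    intro W _
    exact inf_le_inf_left _ (Subgroup.commutator_mono inf_le_left inf_le_left)

end Cfsg.Agent.S1960
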