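import Cfsg.Statements.S1965
import Cfsg.Agent.Lib.Helper12.Chain

set_option autoImplicit false
open Cfsg
open Cfsg.Agent.Lib.Helper12

namespace Cfsg.Agent.S1965

/-- Let p be a prime, G a finite group with Sylow p-subgroup S and 𝓕 a set of subgroups of S. Suppose that every subgroup T of S is G-conjugate to some member U of 𝓕 for which N_S(U) is a Sylow p-subgroup of N_G(U). Then 𝓕 is a conjugation family for S in G. -/
theorem result {G : Type*} [Group G] [Finite G] {p : ℕ} [Fact p.Prime] (S : Sylow p G) (𝓕 : Set (Subgroup G)) (h𝓕 : ∀ U ∈ 𝓕, U ≤ (S : Subgroup G)) (h : ∀ T : Subgroup G, T ≤ (S : Subgroup G) → ∃ U ∈ 𝓕, (∃ g : G, T.map (MulAut.conj g).toMonoidHom = U) ∧ ¬ p ∣ ((S : Subgroup G) ⊓ Subgroup.normalizer ((U : Subgroup G) : Set G)).relIndex (Subgroup.normalizer ((U : Subgroup G) : Set G))) : Cfsg.IsConjugationFamily 𝓕 (S : Subgroup G) := by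
  classical
  let St : Subgroup G → G → Prop := fun T x => T ∈ 𝓕 ∧ x ∈ Subgroup.normalizer (T : Set G)
  have hsymm : ∀ T x, St T x → St T x⁻¹ := fun T x hx => ⟨hx.1, Subgroup.inv_mem _ hx.2⟩
  refine ⟨h𝓕, fun A g _ hA hg => ?_⟩
  have c : Chain St A g := by
    refine alperin_set (p := p) hsymm S.2 ?_ A hA g hg
    intro T hT _
    obtain ⟨U, hU, hconj, hnd⟩ := h T hT
    refine ⟨U, h𝓕 U hU, hconj, ⟨inf_le_right, S.2.to_le inf_le_left, hnd⟩, fun x hx => ?_⟩
    refine Chain.single (T := U) ⟨hU, hx⟩ subset_rfl ?_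
    rw [rc_coe, cj_eq_of_mem_normalizer (Subgroup.inv_mem _ hx)]
  obtain ⟨n, T, x, hprod, hSt, h0, hstep, _, _⟩ := c.toFin
  exact ⟨n, T, x, hprod, fun i => (hSt i).1, fun i => (hSt i).2, h0, hstep⟩

end Cfsg.Agent.S1965
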