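import Cfsg.Statements.S1966
import Cfsg.Agent.Lib.Helper12.Cores
import Cfsg.Agent.Lib.Helper12.Chain

set_option autoImplicit false
open Cfsg
open Cfsg.Agent.Lib.Helper12

namespace Cfsg.Agent.S1966

/-- Let p be a prime, G a finite group with Sylow p-subgroup S and 𝓕 a conjugation family for S in G. Then the members of 𝓕 containing O_p(G) still form a conjugation family for S in G. -/
theorem result {G : Type*} [Group G] [Finite G] {p : ℕ} [Fact p.Prime] (S : Sylow p G) (𝓕 : Set (Subgroup G)) (h : Cfsg.IsConjugationFamily 𝓕 (S : Subgroup G)) : Cfsg.IsConjugationFamily {T : Subgroup G | T ∈ 𝓕 ∧ Cfsg.pCore p G ≤ T} (S : Subgroup G) := by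
  have hn : (Cfsg.pCore p G).Normal := pCore_normal p G
  have hle : Cfsg.pCore p G ≤ (S : Subgroup G) := pCore_le_sylow S
  have hrc : ∀ q : G, rc q (Cfsg.pCore p G : Set G) = (Cfsg.pCore p G : Set G) := by
    intro q
    rw [rc_coe, cj_eq_of_normal]
  refine ⟨fun T hT => h.1 T hT.1, fun A g hne hA hg => ?_⟩
  obtain ⟨n, T, x, hprod, hT, hx, h0, hstep⟩ := h.2 (A ∪ (Cfsg.pCore p G : Set G)) g
    (hne.mono Set.subset_union_left) (Set.union_subset hA hle) (by
      rw [Set.image_union]
      refine Set.union_subset hg ?_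
      have := hrc g
      rw [rc] at this
      rw [this]; exact hle)
  refine ⟨n, T, x, hprod, ?_, hx, fun h => Set.subset_union_left.trans (h0 h),
    fun i h => (Set.image_mono Set.subset_union_left).trans (hstep i h)⟩
  rintro ⟨i, hi⟩
  refine ⟨hT _, ?_⟩
  cases i with
  | zero => exact fun a ha => h0 hi (Set.subset_union_right ha)
  | succ j =>
    have h1 := hstep ⟨j, by omega⟩ hi
    have h2 := (Set.image_mono (Set.subset_union_right (s := A) (t := (Cfsg.pCore p G : Set G)))).trans h1
    have h3 := hrc ((List.ofFn x).take (j + 1)).prod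
    rw [rc] at h3
    rw [h3] at h2
    exact h2

end Cfsg.Agent.S1966
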