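import Cfsg.Statements.S1967
import Cfsg.Agent.Lib.Helper12.WPFusion

set_option autoImplicit false
open Cfsg
open Cfsg.Agent.Lib.Helper12

namespace Cfsg.Agent.S1967

/-- Let p be a prime, G a finite group with Sylow p-subgroup S and W a conjugacy functor for p on G. Then W controls strong fusion in G if and only if, whenever T ≤ S and g ∈ G satisfy gTg⁻¹ ≤ S, one can write g = n c with n ∈ N_G(W(S)) and c ∈ C_G(T). -/
theorem result {G : Type*} [Group G] [Finite G] {p : ℕ} [Fact p.Prime] (S : Sylow p G) (W : Subgroup G → Subgroup G) (hW : Cfsg.IsConjugacyFunctor p W) : Cfsg.ControlsStrongFusionIn p W ⊤ ↔ ∀ (T : Subgroup G) (g : G), T ≤ (S : Subgroup G) → T.map (MulAut.conj g).toMonoidHom ≤ (S : Subgroup G) → ∃ n ∈ Subgroup.normalizer ((W (S : Subgroup G) : Subgroup G) : Set G), ∃ c ∈ Subgroup.centralizer (T : Set G), g = n * c := by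
  constructor
  · intro h T g hT hTg
    have hf := CSF_of_controls hW h (isSylIn_top S)
    obtain ⟨d, hd, hagree⟩ := hf (T : Set G) g⁻¹ (Subgroup.mem_top _) hT (by
      rw [rc_coe, inv_inv]; exact hTg)
    refine ⟨d⁻¹, Subgroup.inv_mem _ hd.2, d * g, ?_, by group⟩
    rw [Subgroup.mem_centralizer_iff]
    intro t ht
    have := hagree t ht
    rw [inv_inv] at this
    calc t * (d * g) = d * (d⁻¹ * t * d) * g := by group
      _ = d * (g * t * g⁻¹) * g := by rw [this]
      _ = d * g * t := by group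
  · intro h
    apply controls_of_CSF (isSylIn_top S)
    intro A x _ hA hA'
    have h1 : Subgroup.closure A ≤ (S : Subgroup G) := (Subgroup.closure_le _).mpr hA
    have h2 := rc_closure_le hA'
    rw [rc_coe] at h2
    obtain ⟨n, hn, c, hc, e⟩ := h (Subgroup.closure A) x⁻¹ h1 h2
    refine ⟨n⁻¹, ⟨Subgroup.mem_top _, Subgroup.inv_mem _ hn⟩, ?_⟩
    intro a ha
    rw [Subgroup.mem_centralizer_iff] at hc
    have hca := hc a (Subgroup.subset_closure ha)
    have ex : x = c⁻¹ * n⁻¹ := by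
      rw [← inv_inv x, e]; group
    rw [ex]
    calc n⁻¹⁻¹ * a * n⁻¹ = n * (a * c) * c⁻¹ * n⁻¹ := by group
      _ = n * (c * a) * c⁻¹ * n⁻¹ := by rw [hca]
      _ = (c⁻¹ * n⁻¹)⁻¹ * a * (c⁻¹ * n⁻¹) := by group

end Cfsg.Agent.S1967
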