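import Cfsg.Statements.S1981
import Cfsg.Agent.S1980
import Cfsg.Agent.S1975
import Mathlib

set_option autoImplicit false
open Cfsg

namespace Cfsg.Agent.S1981

/-- Let P be a finite p-group generated by its abelian normal subgroups. Then both K-infinity subgroups of P equal P. -/
theorem result {P : Type*} [Group P] [Finite P] {p : ℕ} [Fact p.Prime] (hP : IsPGroup p P) (hgen : ⨆ A ∈ {A : Subgroup P | A.Normal ∧ IsMulCommutative ↥A}, A = ⊤) : Cfsg.kInfLower P = ⊤ ∧ Cfsg.kInfUpper P = ⊤ := by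
  have key : ∀ A : Subgroup P, A.Normal → IsMulCommutative ↥A →
      (∀ n, A ≤ Cfsg.kSeqEven P n) ∧ ∀ n, A ≤ Cfsg.kSeqOdd P n := by
    intro A hAn hA
    obtain ⟨_, h2, h3⟩ := Cfsg.Agent.S1980.mem_all A hA
    refine ⟨fun n => le_sSup (h2 _), fun n => ?_⟩
    cases n with
    | zero => rw [Cfsg.Agent.S1975.kSeqOdd_zero]; exact le_top
    | succ n => rw [Cfsg.Agent.S1975.kSeqOdd_succ]; exact le_sSup (h3 _)
  constructor
  · rw [eq_top_iff, ← hgen]
    apply iSup₂_le
    intro A hA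
    exact le_trans ((key A hA.1 hA.2).1 0) (le_iSup (Cfsg.kSeqEven P) 0)
  · rw [eq_top_iff, ← hgen]
    apply iSup₂_le
    intro A hA
    exact le_iInf (fun n => (key A hA.1 hA.2).2 n)

end Cfsg.Agent.S1981
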