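import Cfsg.Statements.S2004
import Mathlib
import Cfsg.Agent.Lib.Helper5.Qd4

set_option autoImplicit false
open Cfsg

namespace Cfsg.Agent.S2004

open Cfsg.Agent.Lib.Helper5.Dk

/-- Let p be an odd prime and G a finite group such that SL₂(p) is not involved in N_G(P) for any nonidentity p-subgroup P of G. Then every section of G is p-stable in the normalizer form: in each section, whenever an element of the normalizer of a p-subgroup Q acts quadratically on Q, its image in N(Q)/C(Q) lies in O_p(N(Q)/C(Q)). -/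
theorem result {G : Type*} [Group G] [Finite G] {p : ℕ} [Fact p.Prime] (hp : p ≠ 2) (h : ∀ P : Subgroup G, IsPGroup p ↥P → P ≠ ⊥ → ¬ Cfsg.Involves (Matrix.SpecialLinearGroup (Fin 2) (ZMod p)) ↥(Subgroup.normalizer ((P : Subgroup G) : Set G))) : ∀ (K R : Subgroup G) [hR : (R.subgroupOf K).Normal], Cfsg.IsNormalizerPStable p (↥K ⧸ R.subgroupOf K) := by
  classical
  intro K R hR Q hQ g hg hq
  rcases nps_or_sec hp Q hQ g hg
    (Cfsg.Agent.Lib.Helper9.quadOn_of_commutator hq (Subgroup.mem_zpowers g)) with h1 | ⟨hQ1, hs⟩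
  · exact h1
  · exfalso
    obtain ⟨P, hP, hP1, hs'⟩ := exists_lift_sec (QuotientGroup.mk' (R.subgroupOf K))
      (QuotientGroup.mk'_surjective _) Q hQ hQ1 hs
    have hs2 := Sec.normalizer_map K.subtype K.subtype_injective P hs'
    refine h (P.map K.subtype) (hP.map _) ?_ (sec_iff_involves.mp hs2)
    intro hbot
    rw [(Subgroup.map_eq_bot_iff_of_injective _ K.subtype_injective)] at hbot
    exact hP1 hbot

end Cfsg.Agent.S2004
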