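import Cfsg.Statements.S2009
-- import your own Cfsg.Agent.* helpers here

set_option autoImplicit false
open Cfsg

namespace Cfsg.Agent.S2009

/-- an involution acting fixed-point-freely on a finite normal subgroup inverts it. -/
theorem inverts {H : Type*} [Group H] [Finite H] (N : Subgroup H) [N.Normal] (e : H)
    (he : orderOf e = 2) (hfix : N ⊓ Subgroup.centralizer ({e} : Set H) = ⊥) :
    ∀ n ∈ N, e * n * e⁻¹ = n⁻¹ := by
  intro n hn
  have he2 : e * e = 1 := by rw [← sq, ← he, pow_orderOf_eq_one]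
  have hinv : e⁻¹ = e := inv_eq_of_mul_eq_one_left he2
  let φ : MulAut N := MulAut.conjNormal e
  have hφ : ∀ m : N, ((φ m : N) : H) = e * m * e⁻¹ := fun m => MulAut.conjNormal_apply e m
  have hfpf : MonoidHom.FixedPointFree φ := by
    intro m hm
    have h1 : e * (m : H) * e⁻¹ = m := by rw [← hφ, hm]
    have h2 : (m : H) ∈ N ⊓ Subgroup.centralizer ({e} : Set H) := by
      refine Subgroup.mem_inf.mpr ⟨m.2, ?_⟩
      rw [Subgroup.mem_centralizer_singleton_iff]
      calc (m : H) * e = (e * m * e⁻¹) * e := by rw [h1]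
        _ = e * m := by group
    rw [hfix, Subgroup.mem_bot] at h2
    exact Subtype.ext h2
  have hinvol : Function.Involutive φ := by
    intro m
    apply Subtype.ext
    rw [hφ, hφ, hinv]
    calc e * (e * (m : H) * e) * e = (e * e) * m * (e * e) := by group
      _ = m := by rw [he2]; simp
  have := congrFun (hfpf.coe_eq_inv_of_involutive hinvol) ⟨n, hn⟩
  have h3 := congrArg Subtype.val this
  rw [hφ] at h3
  simpa using h3

theorem exists_third {H : Type*} [Group H] (z : H) (E : Subgroup H) (hE : IsKleinFour ↥E)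
    (hzE : z ∈ E) : ∃ e ∈ E, e ≠ 1 ∧ e ≠ z := by
  classical
  have : Finite E := Nat.finite_of_card_ne_zero (by rw [hE.card_four]; norm_num)
  have : Fintype E := Fintype.ofFinite E
  have hc : ({1, ⟨z, hzE⟩} : Finset E).card < (Finset.univ : Finset E).card := by
    rw [Finset.card_univ, ← Nat.card_eq_fintype_card, hE.card_four]
    exact lt_of_le_of_lt Finset.card_le_two (by norm_num)
  obtain ⟨e, _, he⟩ := Finset.exists_mem_notMem_of_card_lt_card hc
  simp only [Finset.mem_insert, Finset.mem_singleton, not_or] at he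
  refine ⟨e, e.2, ?_, ?_⟩
  · intro h; exact he.1 (Subtype.ext h)
  · intro h; exact he.2 (Subtype.ext h)

theorem proper_normal_eq_bot {H : Type*} [Group H] [Finite H] (z : H) (hz : orderOf z = 2)
    (hN : ∀ N : Subgroup H, N.Normal → N ≠ ⊤ → N ⊓ Subgroup.centralizer ({z} : Set H) = ⊥)
    (E : Subgroup H) (hE : IsKleinFour ↥E) (hzE : z ∈ E) (hc : ∀ e ∈ E, e ≠ 1 → IsConj z e)
    (N : Subgroup H) [hNn : N.Normal] (hNt : N ≠ ⊤) : N = ⊥ := by
  have hz0 := hN N hNn hNt
  have hconj : ∀ e : H, IsConj z e → orderOf e = 2 ∧ N ⊓ Subgroup.centralizer ({e} : Set H) = ⊥ := by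
    intro e he
    obtain ⟨g, rfl⟩ := isConj_iff.mp he
    refine ⟨?_, ?_⟩
    · have := orderOf_injective (MulAut.conj g).toMonoidHom (MulAut.conj g).injective z
      rw [← hz, ← this]; simp [MulAut.conj_apply]
    · rw [eq_bot_iff]
      intro n hnn
      obtain ⟨hn, hn'⟩ := Subgroup.mem_inf.mp hnn
      rw [Subgroup.mem_centralizer_singleton_iff] at hn'
      have h1 : g⁻¹ * n * g ∈ N ⊓ Subgroup.centralizer ({z} : Set H) := by
        refine Subgroup.mem_inf.mpr ⟨?_, ?_⟩
        · have := hNn.conj_mem n hn g⁻¹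
          simpa using this
        · rw [Subgroup.mem_centralizer_singleton_iff]
          calc g⁻¹ * n * g * z = g⁻¹ * (n * (g * z * g⁻¹)) * g := by group
            _ = g⁻¹ * ((g * z * g⁻¹) * n) * g := by rw [hn']
            _ = z * (g⁻¹ * n * g) := by group
      rw [hz0, Subgroup.mem_bot] at h1
      rw [Subgroup.mem_bot]
      calc n = g * (g⁻¹ * n * g) * g⁻¹ := by group
        _ = 1 := by rw [h1]; group
  obtain ⟨e, heE, he1, hez⟩ := exists_third z E hE hzE
  have hz2 : z * z = 1 := by rw [← sq, ← hz, pow_orderOf_eq_one]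
  have hze1 : z * e ≠ 1 := by
    intro h
    apply hez
    calc e = (z * z) * e := by rw [hz2]; simp
      _ = z * (z * e) := by group
      _ = z := by rw [h]; simp
  obtain ⟨o1, f1⟩ := hconj e (hc e heE he1)
  obtain ⟨o2, f2⟩ := hconj (z * e) (hc _ (E.mul_mem hzE heE) hze1)
  have i0 := inverts N z hz hz0
  have i1 := inverts N e o1 f1
  have i2 := inverts N (z * e) o2 f2
  rw [eq_bot_iff]
  intro n hn
  have h1 : n⁻¹ = n := by
    calc n⁻¹ = z * e * n * (z * e)⁻¹ := (i2 n hn).symm
      _ = z * (e * n * e⁻¹) * z⁻¹ := by group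
      _ = z * n⁻¹ * z⁻¹ := by rw [i1 n hn]
      _ = n := by rw [i0 _ (N.inv_mem hn)]; simp
  have h2 : n ∈ N ⊓ Subgroup.centralizer ({z} : Set H) := by
    refine Subgroup.mem_inf.mpr ⟨hn, ?_⟩
    rw [Subgroup.mem_centralizer_singleton_iff]
    calc n * z = n⁻¹ * z := by rw [h1]
      _ = (z * n * z⁻¹) * z := by rw [i0 n hn]
      _ = z * n := by group
  rwa [hz0] at h2

/-- Let H be a finite group and z an involution such that every proper normal subgroup of H meets the centralizer of z trivially, and suppose z lies in a Klein four-subgroup E of H all three of whose involutions are conjugate to z in H. Then H is simple. -/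
theorem result {H : Type*} [Group H] [Finite H] (z : H) (hz : orderOf z = 2) (hN : ∀ N : Subgroup H, N.Normal → N ≠ ⊤ → N ⊓ Subgroup.centralizer ({z} : Set H) = ⊥) (E : Subgroup H) (hE : IsKleinFour ↥E) (hzE : z ∈ E) (hc : ∀ e ∈ E, e ≠ 1 → IsConj z e) : IsSimpleGroup H := by
  haveI : Nontrivial H := ⟨⟨z, 1, by
    intro h
    rw [h, orderOf_one] at hz
    norm_num at hz⟩⟩
  refine ⟨fun N hNn => ?_⟩
  by_cases hNt : N = ⊤
  · exact Or.inr hNt
  · exact Or.inl (proper_normal_eq_bot z hz hN E hE hzE hc N hNt)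

end Cfsg.Agent.S2009
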