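import Cfsg.Statements.S2123
import Cfsg.Agent.Lib.Helper7.Aut9

set_option autoImplicit false
open Cfsg

namespace Cfsg.Agent.S2123

/-- Outer automorphisms of the (adjoint, simple) Chevalley groups of type E₆: over a field with q = p^f (p prime) elements, the outer automorphism group of E₆(q) has order 2 · gcd(3, q − 1) · f (diagonal, field and graph automorphisms). -/
theorem result {F : Type*} [Field F] [Fintype F] (p f : ℕ) [Fact p.Prime] [CharP F p] (hF : Fintype.card F = p ^ f) : Nat.card (Cfsg.Out ↥(Cfsg.Lie.chevE6.group F)) = 2 * Nat.gcd 3 (p ^ f - 1) * f := by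
  have h := Lib.Helper7.card_outE6 (F := F) p
  have h2 := Lib.Helper7.hcardE6 (F := F)
  rw [← h2, Lib.Helper7.card_ringAut7 p f hF, hF] at h
  have hH : 0 < Nat.card (Cfsg.Lie.chevE6.diagonalSubgroup F) := Nat.card_pos
  have h3 : Nat.card (Cfsg.Lie.chevE6.diagonalSubgroup F) * Nat.card (Cfsg.Out ↥(Cfsg.Lie.chevE6.group F)) =
      Nat.card (Cfsg.Lie.chevE6.diagonalSubgroup F) * (2 * Nat.gcd 3 (p ^ f - 1) * f) := by
    rw [mul_comm, h]; ring
  exact Nat.eq_of_mul_eq_mul_left hH h3

end Cfsg.Agent.S2123
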