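import Cfsg.Statements.S2125
import Cfsg.Agent.Lib.Helper7.Aut7T

set_option autoImplicit false
open Cfsg

namespace Cfsg.Agent.S2125

/-- Outer automorphisms of the Chevalley groups of type E₈: over a field with p^f elements, p prime, the outer automorphism group of E₈(p^f) has order f (field automorphisms only). -/
theorem result {F : Type*} [Field F] [Fintype F] (p f : ℕ) [Fact p.Prime] [CharP F p] (hF : Fintype.card F = p ^ f) : Nat.card (Cfsg.Out ↥(Cfsg.Lie.chevE8.group F)) = f := by
  have hSyl := Lib.Helper7.sys5E8.sylow_pos (F := F) p 255 (by decide) [2, 8, 12, 14, 18, 20, 24, 30] (by decide)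
    (Lib.Helper7.poinE8 _)
  have h := Lib.Helper7.parTabE8.card_out (F := F) Lib.Helper7.wt_E8 (fun _ => rfl) Lib.Helper7.chainOK_E8
    Lib.Helper7.starTabE8 Lib.Helper7.slTabE8
    (Lib.Helper7.parTabE8.decomp Lib.Helper7.wt_E8 Lib.Helper7.starTabE8 Lib.Helper7.slTabE8 p hSyl Lib.Helper7.rigE8)
  have h2 := Lib.Helper7.hcardE8 (F := F)
  rw [one_mul] at h2
  rw [h2, Lib.Helper7.card_ringAut7 p f hF, mul_comm] at h
  have hq : 0 < (Fintype.card F - 1) ^ Cfsg.Lie.chevE8.rank := by
    have : 1 < Fintype.card F := Fintype.one_lt_card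
    exact pow_pos (by omega) _
  exact Nat.eq_of_mul_eq_mul_left hq h

end Cfsg.Agent.S2125
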