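import Cfsg.Statements.S2158
import Cfsg.Agent.Lib.Helper7.CharD2
import Cfsg.Agent.Lib.Helper7.Sys5All

set_option autoImplicit false
open Cfsg

namespace Cfsg.Agent.S2158

/-- In a Chevalley group of type G₂, B₂, D₄, F₄, E₆, E₇ or E₈ over any field, an element of the group whose matrix is the diagonal matrix `ĥ(χ)` of a character `χ` of the root lattice already lies in the diagonal subgroup H (the non-trivial inclusion of the statement that the group meets the group of all such diagonal matrices in H). -/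
theorem result {F : Type*} [Field F] (D : Cfsg.Lie.ChevalleyDatum) (hD : D ∈ [Cfsg.Lie.chevG2, Cfsg.Lie.chevB2, Cfsg.Lie.chevD4, Cfsg.Lie.chevF4, Cfsg.Lie.chevE6, Cfsg.Lie.chevE7, Cfsg.Lie.chevE8]) (χ : ℕ → Fˣ) (hχ : D.IsRootCharacter χ) (g : GL D.Idx F) (hg : g ∈ D.group F)
    (hgχ : (g : Matrix D.Idx D.Idx F) = D.charDiag F χ) : g ∈ D.diagonalSubgroup F := by
  simp only [List.mem_cons, List.mem_nil_iff, or_false] at hD
  rcases hD with rfl | rfl | rfl | rfl | rfl | rfl | rfl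
  · exact Lib.Helper7.sys5G2.charDiag_mem Lib.Helper7.chainOK_G2 hχ hg hgχ
  · exact Lib.Helper7.sys5B2.charDiag_mem Lib.Helper7.chainOK_B2 hχ hg hgχ
  · exact Lib.Helper7.sys5D4.charDiag_mem Lib.Helper7.chainOK_D4 hχ hg hgχ
  · exact Lib.Helper7.sys5F4.charDiag_mem Lib.Helper7.chainOK_F4 hχ hg hgχ
  · exact Lib.Helper7.sys5E6.charDiag_mem Lib.Helper7.chainOK_E6 hχ hg hgχ
  · exact Lib.Helper7.sys5E7.charDiag_mem Lib.Helper7.chainOK_E7 hχ hg hgχ
  · exact Lib.Helper7.sys5E8.charDiag_mem Lib.Helper7.chainOK_E8 hχ hg hgχ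

end Cfsg.Agent.S2158
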