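import Cfsg.Statements.S2160
import Cfsg.Agent.Lib.Helper7.Fold1
import Cfsg.Agent.Lib.Helper7.FF2
import Cfsg.Agent.Lib.Helper7.Sys5All

set_option autoImplicit false
open Cfsg

namespace Cfsg.Agent.S2160

/-- In a Chevalley group of type G₂, B₂, D₄, F₄, E₆, E₇ or E₈ over a finite field, every field automorphism commutes with every graph automorphism. -/
theorem result {F : Type*} [Field F] [Finite F] (D : Cfsg.Lie.ChevalleyDatum) (hD : D ∈ [Cfsg.Lie.chevG2, Cfsg.Lie.chevB2, Cfsg.Lie.chevD4, Cfsg.Lie.chevF4, Cfsg.Lie.chevE6, Cfsg.Lie.chevE7, Cfsg.Lie.chevE8]) (f g : ↥(D.group F) ≃* ↥(D.group F))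
    (hf : D.IsFieldAut f) (hg : D.IsGraphAut g) (y : ↥(D.group F)) : f (g y) = g (f y) := by
  have main : ∀ S : Lib.Helper7.Sys5 D, f (g y) = g (f y) := by
    intro S
    obtain ⟨σ, hσ⟩ := hf
    obtain ⟨π, -, hπ⟩ := hg
    have := Lib.Helper7.hom_ext_closure (S.gen_fund (F := F)) (f.toMonoidHom.comp g.toMonoidHom)
      (g.toMonoidHom.comp f.toMonoidHom) ?_
    · exact DFunLike.congr_fun this y
    · rintro x hx ⟨e, i, t, hi, rfl⟩
      show f (g ⟨_, hx⟩) = g (f ⟨_, hx⟩)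
      apply Subtype.ext
      apply Units.ext
      have hlt : ∀ (e : Bool) (j : ℕ), j < D.rank → Lib.Helper7.rt D e j < D.nroots := by
        intro e j hj
        cases e
        · exact S.neg_lt (S.simple_lt hj)
        · exact S.simple_lt hj
      have h1 : ∀ (s : F) (z : ↥(D.group F)), ((z : GL D.Idx F) : Matrix D.Idx D.Idx F) = D.x F (Lib.Helper7.rt D e i) s →
          ((g z : GL D.Idx F) : Matrix D.Idx D.Idx F) =
            D.x F (Lib.Helper7.rt D e (π ⟨i, hi⟩)) (s ^ D.graphExp (ringChar F) i (π ⟨i, hi⟩)) := by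
        intro s z hz
        cases e
        · exact (hπ z ⟨i, hi⟩ s).2 hz
        · exact (hπ z ⟨i, hi⟩ s).1 hz
      rw [hσ _ _ _ (hlt e _ (π ⟨i, hi⟩).2) (h1 t _ rfl), h1 (σ t) _ (hσ _ _ _ (hlt e i hi) rfl), map_pow]
  simp only [List.mem_cons, List.mem_nil_iff, or_false] at hD
  rcases hD with rfl | rfl | rfl | rfl | rfl | rfl | rfl
  · exact main Lib.Helper7.sys5G2
  · exact main Lib.Helper7.sys5B2
  · exact main Lib.Helper7.sys5D4
  · exact main Lib.Helper7.sys5F4
  · exact main Lib.Helper7.sys5E6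
  · exact main Lib.Helper7.sys5E7
  · exact main Lib.Helper7.sys5E8

end Cfsg.Agent.S2160
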