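import Cfsg.Statements.S2298
import Cfsg.Agent.Lib.Helper13.GL2Char

set_option autoImplicit false
open Cfsg

namespace Cfsg.Agent.S2298

open Cfsg.Agent.Lib.Helper13 Cfsg.Agent.Lib.Helper2

/-- Over a finite field F with q elements, every irreducible complex character of GL₂ has degree 1, q − 1, q or q + 1; and when q ≥ 3 (so that these four numbers are distinct) there are exactly q − 1 irreducible characters of degree 1, exactly q − 1 of degree q, exactly (q − 1)(q − 2)/2 of degree q + 1 and exactly q(q − 1)/2 of degree q − 1. -/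
theorem result {F : Type*} [Field F] [Fintype F] :
    (∀ χ : Matrix.GeneralLinearGroup (Fin 2) F → ℂ, Cfsg.IsIrrCharacter (Matrix.GeneralLinearGroup (Fin 2) F) χ →
      χ 1 = 1 ∨ χ 1 = (Fintype.card F : ℂ) - 1 ∨ χ 1 = (Fintype.card F : ℂ) ∨ χ 1 = (Fintype.card F : ℂ) + 1) ∧
    (3 ≤ Fintype.card F →
      Nat.card {χ : Cfsg.IrrCharacter (Matrix.GeneralLinearGroup (Fin 2) F) // (χ : Matrix.GeneralLinearGroup (Fin 2) F → ℂ) 1 = 1} = Fintype.card F - 1 ∧
      Nat.card {χ : Cfsg.IrrCharacter (Matrix.GeneralLinearGroup (Fin 2) F) // (χ : Matrix.GeneralLinearGroup (Fin 2) F → ℂ) 1 = (Fintype.card F : ℂ)} = Fintype.card F - 1 ∧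
      Nat.card {χ : Cfsg.IrrCharacter (Matrix.GeneralLinearGroup (Fin 2) F) // (χ : Matrix.GeneralLinearGroup (Fin 2) F → ℂ) 1 = (Fintype.card F : ℂ) + 1} = (Fintype.card F - 1) * (Fintype.card F - 2) / 2 ∧
      Nat.card {χ : Cfsg.IrrCharacter (Matrix.GeneralLinearGroup (Fin 2) F) // (χ : Matrix.GeneralLinearGroup (Fin 2) F → ℂ) 1 = (Fintype.card F : ℂ) - 1} = Fintype.card F * (Fintype.card F - 1) / 2) := by
  classical
  refine ⟨fun χ hχ => ?_, fun hq => ?_⟩
  · rcases GL2_classification χ hχ with ⟨α, rfl⟩ | ⟨α, rfl⟩ | ⟨α, β, -, rfl⟩ | ⟨h1, -, -⟩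
    · left; exact Lc_one α
    · right; right; left; exact Sc_one α
    · right; right; right; exact Pc_one α β
    · right; left; exact h1
  · have hq0 : (Fintype.card F : ℂ) ≠ 0 := card_F_ne_zero
    have hq1 : (Fintype.card F : ℂ) ≠ 1 := card_F_ne_one
    have hq2 : (Fintype.card F : ℂ) ≠ 2 := by
      have : Fintype.card F ≠ 2 := by omega
      exact_mod_cast this
    obtain ⟨k, hk⟩ : ∃ k, Fintype.card F = k + 2 := ⟨Fintype.card F - 2, by omega⟩
    have e1 : ¬ ((Fintype.card F : ℂ) + 1 = 1) := fun h => hq0 (by linear_combination h)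
    have e2 : ¬ ((Fintype.card F : ℂ) - 1 = 1) := fun h => hq2 (by linear_combination h)
    have e3 : ¬ ((Fintype.card F : ℂ) + 1 = (Fintype.card F : ℂ)) := fun h =>
      one_ne_zero (by linear_combination h : (1 : ℂ) = 0)
    have e4 : ¬ ((Fintype.card F : ℂ) - 1 = (Fintype.card F : ℂ)) := fun h =>
      one_ne_zero (by linear_combination -h : (1 : ℂ) = 0)
    have e5 : ¬ ((Fintype.card F : ℂ) - 1 = (Fintype.card F : ℂ) + 1) := fun h =>
      one_ne_zero (by linear_combination -h / 2 : (1 : ℂ) = 0)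
    refine ⟨?_, ?_, ?_, ?_⟩
    · have h := card_degree_eq (F := F) 1
      rw [if_pos rfl, if_neg hq1, if_neg e1, if_neg e2] at h
      have h' : (Nat.card {χ : Cfsg.IrrCharacter (Matrix.GeneralLinearGroup (Fin 2) F) //
          (χ : Matrix.GeneralLinearGroup (Fin 2) F → ℂ) 1 = 1} : ℂ) = ((Fintype.card F - 1 : ℕ) : ℂ) := by
        rw [h, hk]; push_cast [Nat.add_sub_cancel]; simp; ring
      exact_mod_cast h'
    · have h := card_degree_eq (F := F) (Fintype.card F : ℂ)
      rw [if_neg (Ne.symm hq1), if_pos rfl, if_neg e3, if_neg e4] at h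
      have h' : (Nat.card {χ : Cfsg.IrrCharacter (Matrix.GeneralLinearGroup (Fin 2) F) //
          (χ : Matrix.GeneralLinearGroup (Fin 2) F → ℂ) 1 = (Fintype.card F : ℂ)} : ℂ) =
          ((Fintype.card F - 1 : ℕ) : ℂ) := by
        rw [h, hk]; push_cast [Nat.add_sub_cancel]; simp; ring
      exact_mod_cast h'
    · have h := card_degree_eq (F := F) ((Fintype.card F : ℂ) + 1)
      rw [if_neg (fun h => e1 h.symm), if_neg (fun h => e3 h.symm), if_pos rfl, if_neg e5] at h
      have h' : (Nat.card {χ : Cfsg.IrrCharacter (Matrix.GeneralLinearGroup (Fin 2) F) //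
          (χ : Matrix.GeneralLinearGroup (Fin 2) F → ℂ) 1 = (Fintype.card F : ℂ) + 1} : ℂ) =
          (((Fintype.card F - 1) * (Fintype.card F - 2) / 2 : ℕ) : ℂ) := by
        rw [h, hk]
        have h2 : k + 2 - 1 = k + 1 := by omega
        have h3 : k + 2 - 2 = k := by omega
        rw [h2, h3, Nat.cast_div (by
          have := Nat.even_mul_succ_self k
          rw [mul_comm] at this
          exact this.two_dvd) (by norm_num)]
        push_cast
        ring
      exact_mod_cast h'
    · have h := card_degree_eq (F := F) ((Fintype.card F : ℂ) - 1)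
      rw [if_neg (fun h => e2 h.symm), if_neg (fun h => e4 h.symm), if_neg (fun h => e5 h.symm),
        if_pos rfl] at h
      have h' : (Nat.card {χ : Cfsg.IrrCharacter (Matrix.GeneralLinearGroup (Fin 2) F) //
          (χ : Matrix.GeneralLinearGroup (Fin 2) F → ℂ) 1 = (Fintype.card F : ℂ) - 1} : ℂ) =
          ((Fintype.card F * (Fintype.card F - 1) / 2 : ℕ) : ℂ) := by
        rw [h, hk]
        have h2 : k + 2 - 1 = k + 1 := by omega
        rw [h2, Nat.cast_div (by
          have := Nat.even_mul_succ_self (k + 1)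
          rw [mul_comm] at this
          exact this.two_dvd) (by norm_num)]
        push_cast
        ring
      exact_mod_cast h'

end Cfsg.Agent.S2298
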