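import Cfsg.Statements.S2303
import Cfsg.Agent.Lib.Helper13.GL2

set_option autoImplicit false
open Cfsg

namespace Cfsg.Agent.S2303

open Cfsg.Agent.Lib.Helper13

theorem card_split {F : Type*} [Field F] [Fintype F] (a d : F) (had : a ≠ d) :
    Nat.card {xy : F × F // xy.1 ^ 2 + xy.1 * xy.2 * (a + d) + xy.2 ^ 2 * (a * d) ≠ 0} = (Fintype.card F - 1) ^ 2 := by
  classical
  have had' : a - d ≠ 0 := sub_ne_zero.mpr had
  have hfac : ∀ x y : F, x ^ 2 + x * y * (a + d) + y ^ 2 * (a * d) = (x + y * a) * (x + y * d) := by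
    intro x y; ring
  have e : {xy : F × F // xy.1 ^ 2 + xy.1 * xy.2 * (a + d) + xy.2 ^ 2 * (a * d) ≠ 0} ≃ Fˣ × Fˣ :=
    { toFun := fun xy => (Units.mk0 (xy.1.1 + xy.1.2 * a) (by
          have := xy.2; rw [hfac] at this; exact left_ne_zero_of_mul this),
        Units.mk0 (xy.1.1 + xy.1.2 * d) (by
          have := xy.2; rw [hfac] at this; exact right_ne_zero_of_mul this))
      invFun := fun uv => ⟨((uv.1 : F) - ((uv.1 : F) - (uv.2 : F)) / (a - d) * a, ((uv.1 : F) - (uv.2 : F)) / (a - d)), by
          rw [hfac]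
          have h1 : ((uv.1 : F) - ((uv.1 : F) - (uv.2 : F)) / (a - d) * a) + ((uv.1 : F) - (uv.2 : F)) / (a - d) * a = uv.1 := by ring
          have h2 : ((uv.1 : F) - ((uv.1 : F) - (uv.2 : F)) / (a - d) * a) + ((uv.1 : F) - (uv.2 : F)) / (a - d) * d = uv.2 := by
            field_simp; ring
          simp only [h1, h2]
          exact mul_ne_zero uv.1.ne_zero uv.2.ne_zero⟩
      left_inv := by
        rintro ⟨⟨x, y⟩, h⟩
        apply Subtype.ext
        simp only [Units.val_mk0, Prod.mk.injEq]
        constructor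
        · field_simp; ring
        · field_simp; ring
      right_inv := by
        rintro ⟨u, v⟩
        simp only [Prod.mk.injEq]
        constructor
        · apply Units.ext; simp
        · apply Units.ext; simp only [Units.val_mk0]; field_simp; ring }
  rw [Nat.card_congr e, Nat.card_eq_fintype_card, Fintype.card_prod, Fintype.card_units, sq]

theorem result {F : Type*} [Field F] [Fintype F] (g : Matrix.GeneralLinearGroup (Fin 2) F) :
    ((g : Matrix (Fin 2) (Fin 2) F) 0 1 = 0 → (g : Matrix (Fin 2) (Fin 2) F) 1 0 = 0 → (g : Matrix (Fin 2) (Fin 2) F) 0 0 ≠ (g : Matrix (Fin 2) (Fin 2) F) 1 1 →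
      Nat.card (Subgroup.centralizer ({g} : Set (Matrix.GeneralLinearGroup (Fin 2) F))) = (Fintype.card F - 1) ^ 2) ∧
    ((∀ (c : F) (v : Fin 2 → F), v ≠ 0 → (g : Matrix (Fin 2) (Fin 2) F).mulVec v ≠ c • v) →
      Nat.card (Subgroup.centralizer ({g} : Set (Matrix.GeneralLinearGroup (Fin 2) F))) = Fintype.card F ^ 2 - 1) := by
  classical
  constructor
  · intro h01 h10 hne
    rw [card_centralizer_GL g (Or.inr (Or.inr hne)), Matrix.trace_fin_two, Matrix.det_fin_two, h01, h10,
      mul_zero, sub_zero]
    exact card_split _ _ hne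
  · intro hno
    have hns : NonScal (g : Matrix (Fin 2) (Fin 2) F) := by
      by_contra hN
      unfold NonScal at hN
      push Not at hN
      obtain ⟨h01, h10, h00⟩ := hN
      apply hno ((g : Matrix (Fin 2) (Fin 2) F) 0 0) ![1, 0] (by
        intro h; have := congrFun h 0; simp at this)
      ext i
      fin_cases i <;> simp [Matrix.mulVec, dotProduct, Fin.sum_univ_two, h10]
    rw [card_centralizer_GL g hns]
    have hiff : ∀ xy : F × F, (xy.1 ^ 2 + xy.1 * xy.2 * (g : Matrix (Fin 2) (Fin 2) F).trace +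
        xy.2 ^ 2 * (g : Matrix (Fin 2) (Fin 2) F).det ≠ 0) ↔ xy ≠ 0 := by
      rintro ⟨x, y⟩
      rw [← det_lin_comb]
      constructor
      · intro h h0
        rw [Prod.mk_eq_zero] at h0
        obtain ⟨rfl, rfl⟩ := h0
        simp at h
      · intro h hdet
        obtain ⟨v, hv, hv0⟩ := Matrix.exists_mulVec_eq_zero_iff.mpr hdet
        rw [Matrix.add_mulVec, Matrix.smul_mulVec, Matrix.smul_mulVec, Matrix.one_mulVec] at hv0
        by_cases hy : y = 0
        · subst hy
          rw [zero_smul, add_zero] at hv0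
          rcases smul_eq_zero.mp hv0 with hx | hx
          · exact h (by change x = 0 at hx; rw [hx]; rfl)
          · exact hv hx
        · apply hno (-x / y) v hv
          have : y • ((g : Matrix (Fin 2) (Fin 2) F).mulVec v) = (-x) • v := by
            rw [neg_smul]; exact eq_neg_of_add_eq_zero_right hv0
          calc (g : Matrix (Fin 2) (Fin 2) F).mulVec v = y⁻¹ • (y • ((g : Matrix (Fin 2) (Fin 2) F).mulVec v)) := by
                rw [smul_smul, inv_mul_cancel₀ hy, one_smul]
            _ = (-x / y) • v := by rw [this, smul_smul]; congr 1; field_simp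
    rw [Nat.card_congr (Equiv.subtypeEquivRight hiff), Nat.card_eq_fintype_card, Fintype.card_subtype_compl,
      Fintype.card_prod, Fintype.card_subtype_eq, sq]

end Cfsg.Agent.S2303
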