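import Cfsg.Statements.S2308
import Cfsg.Agent.Lib.Helper13.Borel

set_option autoImplicit false
open Cfsg

namespace Cfsg.Agent.S2308

open Cfsg.Agent.Lib.Helper13

theorem cond_none {F : Type*} [Field F] (M : Matrix (Fin 2) (Fin 2) F) :
    (repInvMat (none : Option F) * M * repMat (none : Option F)) 1 0 = 0 ↔ M 1 0 = 0 := by
  rw [conj_rep_none]

theorem cond_some {F : Type*} [Field F] (M : Matrix (Fin 2) (Fin 2) F) (t : F) :
    (repInvMat (some t) * M * repMat (some t)) 1 0 = 0 ↔ - (M 0 0 * t + M 0 1) + t * (M 1 0 * t + M 1 1) = 0 := by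
  rw [conj_rep_some]; simp

theorem result {F : Type*} [Field F] [Fintype F] (g : Matrix.GeneralLinearGroup (Fin 2) F) :
    ((∃ a : F, (g : Matrix (Fin 2) (Fin 2) F) = a • (1 : Matrix (Fin 2) (Fin 2) F)) → Cfsg.fixedPointCharacter (Cfsg.upperTriangularGL 2 F) g = Fintype.card F + 1) ∧
    ((g : Matrix (Fin 2) (Fin 2) F) 0 1 = 0 → (g : Matrix (Fin 2) (Fin 2) F) 1 0 = 0 → (g : Matrix (Fin 2) (Fin 2) F) 0 0 ≠ (g : Matrix (Fin 2) (Fin 2) F) 1 1 →
      Cfsg.fixedPointCharacter (Cfsg.upperTriangularGL 2 F) g = 2) ∧
    ((∀ (c : F) (v : Fin 2 → F), v ≠ 0 → (g : Matrix (Fin 2) (Fin 2) F).mulVec v ≠ c • v) → Cfsg.fixedPointCharacter (Cfsg.upperTriangularGL 2 F) g = 0) ∧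
    ((g : Matrix (Fin 2) (Fin 2) F) 1 0 = 0 → (g : Matrix (Fin 2) (Fin 2) F) 0 0 = (g : Matrix (Fin 2) (Fin 2) F) 1 1 → (g : Matrix (Fin 2) (Fin 2) F) 0 1 ≠ 0 →
      Cfsg.fixedPointCharacter (Cfsg.upperTriangularGL 2 F) g = 1) := by
  classical
  unfold Cfsg.fixedPointCharacter
  rw [card_fixedBy_eq]
  set M := (g : Matrix (Fin 2) (Fin 2) F) with hM
  refine ⟨?_, ?_, ?_, ?_⟩
  · rintro ⟨a, ha⟩
    have : ∀ i : Option F, (repInvMat i * M * repMat i) 1 0 = 0 := by
      intro i
      rw [ha, Matrix.mul_smul, Matrix.mul_one, Matrix.smul_mul, repInv_mul_mat]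
      simp
    rw [Nat.card_congr (Equiv.subtypeUnivEquiv this), Nat.card_eq_fintype_card, Fintype.card_option]
    push_cast; rfl
  · intro h01 h10 hne
    have : ∀ i : Option F, (repInvMat i * M * repMat i) 1 0 = 0 ↔ i ∈ ({none, some 0} : Finset (Option F)) := by
      intro i
      cases i with
      | none => rw [cond_none]; simp [h10]
      | some t =>
        rw [cond_some, h01, h10]
        simp only [Finset.mem_insert, Finset.mem_singleton, reduceCtorEq, Option.some.injEq, false_or]
        constructor
        · intro h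
          have : t * (M 1 1 - M 0 0) = 0 := by linear_combination h
          exact (mul_eq_zero.mp this).resolve_right (sub_ne_zero.mpr hne.symm)
        · rintro rfl; simp
    rw [Nat.card_congr (Equiv.subtypeEquivRight this), Nat.card_eq_fintype_card, Fintype.card_coe]
    simp
  · intro hno
    have : IsEmpty {i : Option F // (repInvMat i * M * repMat i) 1 0 = 0} := by
      constructor
      rintro ⟨i, hi⟩
      cases i with
      | none =>
        rw [cond_none] at hi
        apply hno (M 0 0) ![1, 0] (by intro h; have := congrFun h 0; simp at this)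
        ext i
        fin_cases i <;> simp [Matrix.mulVec, dotProduct, Fin.sum_univ_two, hi]
      | some t =>
        rw [cond_some] at hi
        apply hno (M 1 0 * t + M 1 1) ![t, 1] (by intro h; have := congrFun h 1; simp at this)
        ext i
        fin_cases i <;> simp [Matrix.mulVec, dotProduct, Fin.sum_univ_two]
        linear_combination -hi
    rw [Nat.card_of_isEmpty]; simp
  · intro h10 h00 h01
    have : ∀ i : Option F, (repInvMat i * M * repMat i) 1 0 = 0 ↔ i ∈ ({none} : Finset (Option F)) := by
      intro i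
      cases i with
      | none => rw [cond_none]; simp [h10]
      | some t =>
        rw [cond_some, h00, h10]
        simp only [Finset.mem_singleton, reduceCtorEq, iff_false]
        intro h
        apply h01
        linear_combination -h
    rw [Nat.card_congr (Equiv.subtypeEquivRight this), Nat.card_eq_fintype_card, Fintype.card_coe]
    simp

end Cfsg.Agent.S2308
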