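import Cfsg.Statements.S2309
import Cfsg.Agent.Lib.Helper13.GL2Char

set_option autoImplicit false
open Cfsg

namespace Cfsg.Agent.S2309

open Cfsg.Agent.Lib.Helper13 Cfsg.Agent.Lib.Helper2

/-- Over a finite field F with q elements: every irreducible complex character of GL₂ of degree q − 1 vanishes at every diagonal matrix with two distinct entries, and every irreducible complex character of degree q + 1 vanishes at every element with no eigenvector in F². -/
theorem result {F : Type*} [Field F] [Fintype F] (χ : Matrix.GeneralLinearGroup (Fin 2) F → ℂ) (hχ : Cfsg.IsIrrCharacter (Matrix.GeneralLinearGroup (Fin 2) F) χ) (g : Matrix.GeneralLinearGroup (Fin 2) F) :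
    (χ 1 = (Fintype.card F : ℂ) - 1 → (g : Matrix (Fin 2) (Fin 2) F) 0 1 = 0 → (g : Matrix (Fin 2) (Fin 2) F) 1 0 = 0 → (g : Matrix (Fin 2) (Fin 2) F) 0 0 ≠ (g : Matrix (Fin 2) (Fin 2) F) 1 1 → χ g = 0) ∧
    (χ 1 = (Fintype.card F : ℂ) + 1 → (∀ (c : F) (v : Fin 2 → F), v ≠ 0 → (g : Matrix (Fin 2) (Fin 2) F).mulVec v ≠ c • v) → χ g = 0) := by
  classical
  have hq0 : (Fintype.card F : ℂ) ≠ 0 := card_F_ne_zero
  have hq1 : (Fintype.card F : ℂ) ≠ 1 := card_F_ne_one
  rcases GL2_classification χ hχ with ⟨α, rfl⟩ | ⟨α, rfl⟩ | ⟨α, β, -, rfl⟩ | ⟨h1, -, h3⟩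
  · rw [Lc_one]
    refine ⟨fun h h01 h10 hne => ?_, fun h => ?_⟩
    · exfalso
      have h2 : (Fintype.card F : ℂ) = 2 := by linear_combination -h
      have h2' : Fintype.card F = 2 := by exact_mod_cast h2
      have hdet : (g : Matrix (Fin 2) (Fin 2) F).det ≠ 0 := (Matrix.isUnits_det_units g).ne_zero
      rw [Matrix.det_fin_two, h01, zero_mul, sub_zero] at hdet
      have hU : Fintype.card Fˣ = 1 := by rw [Fintype.card_units, h2']
      have hsub : Subsingleton Fˣ := Fintype.card_le_one_iff_subsingleton.mp hU.le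
      have := hsub.elim (Units.mk0 _ (left_ne_zero_of_mul hdet)) (Units.mk0 _ (right_ne_zero_of_mul hdet))
      exact hne (congrArg Units.val this)
    · exact absurd (by linear_combination -h) hq0
  · rw [Sc_one]
    refine ⟨fun h => ?_, fun h => ?_⟩
    · exact absurd (by linear_combination h : (1 : ℂ) = 0) one_ne_zero
    · exact absurd (by linear_combination -h : (1 : ℂ) = 0) one_ne_zero
  · rw [Pc_one]
    refine ⟨fun h => ?_, fun _ h => ?_⟩
    · exact absurd (by linear_combination h / 2 : (1 : ℂ) = 0) one_ne_zero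
    · rw [Pc_apply, piFun_of_no_eigen α β _ h]
  · refine ⟨fun _ h01 h10 hne => cusp_vanish (IsIrrCharacter.isCharacter hχ) h3 g h01 h10 hne,
      fun h => ?_⟩
    rw [h1] at h
    exact absurd (by linear_combination -h / 2 : (1 : ℂ) = 0) one_ne_zero

end Cfsg.Agent.S2309
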