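import Cfsg.Statements.S2310
import Cfsg.Agent.Lib.Helper13.GL2Char

set_option autoImplicit false
open Cfsg

namespace Cfsg.Agent.S2310

open Cfsg.Agent.Lib.Helper13 Cfsg.Agent.Lib.Helper2

/-- Over a finite field F with q ≥ 3 elements, let u be the upper unitriangular matrix of GL₂ with off-diagonal entry 1. An irreducible complex character χ of GL₂ takes at u the value 1 if χ has degree 1 or q + 1, the value −1 if χ has degree q − 1, and the value 0 if χ has degree q. -/
theorem result {F : Type*} [Field F] [Fintype F] (hq : 3 ≤ Fintype.card F) (χ : Matrix.GeneralLinearGroup (Fin 2) F → ℂ) (hχ : Cfsg.IsIrrCharacter (Matrix.GeneralLinearGroup (Fin 2) F) χ)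
    (u : Matrix.GeneralLinearGroup (Fin 2) F) (hu : (u : Matrix (Fin 2) (Fin 2) F) = !![1, 1; 0, 1]) :
    (χ 1 = 1 → χ u = 1) ∧ (χ 1 = (Fintype.card F : ℂ) + 1 → χ u = 1) ∧
    (χ 1 = (Fintype.card F : ℂ) - 1 → χ u = -1) ∧ (χ 1 = (Fintype.card F : ℂ) → χ u = 0) := by
  classical
  have hu' : u = uGL 1 := Units.ext hu
  have hq0 : (Fintype.card F : ℂ) ≠ 0 := card_F_ne_zero
  have hq1 : (Fintype.card F : ℂ) ≠ 1 := card_F_ne_one
  have hq2 : (Fintype.card F : ℂ) ≠ 2 := by
    have : Fintype.card F ≠ 2 := by omega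
    exact_mod_cast this
  subst hu'
  rcases GL2_classification χ hχ with ⟨α, rfl⟩ | ⟨α, rfl⟩ | ⟨α, β, -, rfl⟩ | ⟨h1, h2, -⟩
  · rw [Lc_one, Lc_uGL]
    refine ⟨fun _ => rfl, fun _ => rfl, fun h => ?_, fun h => ?_⟩
    · exact absurd (by linear_combination -h) hq2
    · exact absurd h.symm hq1
  · have hS : Sc α (uGL 1) = 0 := by
      rw [Sc, Pi.sub_apply, Pc_uGL, Lc_uGL, if_neg one_ne_zero]; ring
    rw [Sc_one, hS]
    refine ⟨fun h => absurd h hq1, fun h => ?_, fun h => ?_, fun _ => rfl⟩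
    · exact absurd (by linear_combination -h : (1 : ℂ) = 0) one_ne_zero
    · exact absurd (by linear_combination h : (1 : ℂ) = 0) one_ne_zero
  · rw [Pc_one, Pc_uGL, if_neg one_ne_zero, add_zero]
    refine ⟨fun _ => rfl, fun _ => rfl, fun h => ?_, fun h => ?_⟩
    · exact absurd (by linear_combination h / 2 : (1 : ℂ) = 0) one_ne_zero
    · exact absurd (by linear_combination h : (1 : ℂ) = 0) one_ne_zero
  · rw [h1, h2 1 one_ne_zero]
    refine ⟨fun h => ?_, fun h => ?_, fun _ => rfl, fun h => ?_⟩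
    · exact absurd (by linear_combination h) hq2
    · exact absurd (by linear_combination -h / 2 : (1 : ℂ) = 0) one_ne_zero
    · exact absurd (by linear_combination -h : (1 : ℂ) = 0) one_ne_zero

end Cfsg.Agent.S2310
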