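import Cfsg.Statements.S2320
import Cfsg.Agent.Lib.Helper13.GL2Char

set_option autoImplicit false
open Cfsg

namespace Cfsg.Agent.S2320

open Cfsg.Agent.Lib.Helper13 Cfsg.Agent.Lib.Helper2

/-- Over a finite field F with q elements, every irreducible complex character of GL₂ of degree q takes a value of absolute value 1 at every diagonal matrix with two different diagonal entries and at every element with no eigenvector in F². -/
theorem result {F : Type*} [Field F] [Fintype F] (χ : Matrix.GeneralLinearGroup (Fin 2) F → ℂ) (hχ : Cfsg.IsIrrCharacter (Matrix.GeneralLinearGroup (Fin 2) F) χ) (hdeg : χ 1 = (Fintype.card F : ℂ)) (g : Matrix.GeneralLinearGroup (Fin 2) F) :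
    ((g : Matrix (Fin 2) (Fin 2) F) 0 1 = 0 → (g : Matrix (Fin 2) (Fin 2) F) 1 0 = 0 → (g : Matrix (Fin 2) (Fin 2) F) 0 0 ≠ (g : Matrix (Fin 2) (Fin 2) F) 1 1 → ‖χ g‖ = 1) ∧
    ((∀ (c : F) (v : Fin 2 → F), v ≠ 0 → (g : Matrix (Fin 2) (Fin 2) F).mulVec v ≠ c • v) → ‖χ g‖ = 1) := by
  classical
  have hq0 : (Fintype.card F : ℂ) ≠ 0 := card_F_ne_zero
  have hq1 : (Fintype.card F : ℂ) ≠ 1 := card_F_ne_one
  have hdet : (g : Matrix (Fin 2) (Fin 2) F).det ≠ 0 := (Matrix.isUnits_det_units g).ne_zero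
  rcases GL2_classification χ hχ with ⟨α, rfl⟩ | ⟨α, rfl⟩ | ⟨α, β, -, rfl⟩ | ⟨h1, -, -⟩
  · rw [Lc_one] at hdeg
    exact absurd hdeg.symm hq1
  · refine ⟨fun h01 h10 hne => ?_, fun h => ?_⟩
    · have hS : Sc α g = α (g : Matrix (Fin 2) (Fin 2) F).det := by
        have hd : (g : Matrix (Fin 2) (Fin 2) F).det =
            (g : Matrix (Fin 2) (Fin 2) F) 0 0 * (g : Matrix (Fin 2) (Fin 2) F) 1 1 := by
          rw [Matrix.det_fin_two, h01, zero_mul, sub_zero]
        rw [Sc, Pi.sub_apply, Pc_apply, Lc, hd, eq_bMat_of_diag _ h01 h10,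
          piFun_diag α α _ _ hne]
        simp only [bMat, map_mul]
        simp
        ring
      rw [hS, norm_mulChar α _ hdet]
    · rw [Sc, Pi.sub_apply, Pc_apply, piFun_of_no_eigen α α _ h, zero_sub, norm_neg, Lc,
        norm_mulChar α _ hdet]
  · rw [Pc_one] at hdeg
    exact absurd (by linear_combination hdeg : (1 : ℂ) = 0) one_ne_zero
  · rw [h1] at hdeg
    exact absurd (by linear_combination -hdeg : (1 : ℂ) = 0) one_ne_zero

end Cfsg.Agent.S2320
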