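import Cfsg.Statements.S2326
import Cfsg.Agent.Lib.Helper7.Syl
import Cfsg.Agent.Lib.Helper7.Cox1

set_option autoImplicit false
open Cfsg

namespace Cfsg.Agent.S2326

/-- In a Chevalley group of type G₂, B₂, D₄, F₄, E₆, E₇ or E₈ over a finite field of characteristic p, the subgroup U generated by the positive root elements is a Sylow p-subgroup. -/
theorem result {F : Type*} [Field F] [Fintype F] (p : ℕ) [Fact p.Prime] [CharP F p] (D : Cfsg.Lie.ChevalleyDatum) (hD : D ∈ [Cfsg.Lie.chevG2, Cfsg.Lie.chevB2, Cfsg.Lie.chevD4, Cfsg.Lie.chevF4, Cfsg.Lie.chevE6, Cfsg.Lie.chevE7, Cfsg.Lie.chevE8]) :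
    ∃ P : Sylow p ↥(D.group F), (P : Subgroup ↥(D.group F)) = (D.posUnipotent F).subgroupOf (D.group F) := by
  simp only [List.mem_cons, List.mem_nil_iff, or_false] at hD
  rcases hD with rfl | rfl | rfl | rfl | rfl | rfl | rfl
  · exact Lib.Helper7.sys5G2.sylow_pos p 3 (by decide) [2, 6] (by decide) (Lib.Helper7.poinG2 _)
  · exact Lib.Helper7.sys5B2.sylow_pos p 3 (by decide) [2, 4] (by decide) (Lib.Helper7.poinB2 _)
  · exact Lib.Helper7.sys5D4.sylow_pos p 15 (by decide) [2, 4, 4, 6] (by decide) (Lib.Helper7.poinD4 _)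
  · exact Lib.Helper7.sys5F4.sylow_pos p 15 (by decide) [2, 6, 8, 12] (by decide) (Lib.Helper7.poinF4 _)
  · exact Lib.Helper7.sys5E6.sylow_pos p 63 (by decide) [2, 5, 6, 8, 9, 12] (by decide) (Lib.Helper7.poinE6 _)
  · exact Lib.Helper7.sys5E7.sylow_pos p 127 (by decide) [2, 6, 8, 10, 12, 14, 18] (by decide) (Lib.Helper7.poinE7 _)
  · exact Lib.Helper7.sys5E8.sylow_pos p 255 (by decide) [2, 8, 12, 14, 18, 20, 24, 30] (by decide) (Lib.Helper7.poinE8 _)

end Cfsg.Agent.S2326
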