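import Cfsg.Statements.S2367
import Mathlib

set_option autoImplicit false
open Cfsg

namespace Cfsg.Agent.S2367

theorem leg (p n : ℕ) [hp : Fact p.Prime] :
    padicValNat p n.factorial = padicValNat p (n / p).factorial + n / p := by
  conv_lhs => rw [← Nat.div_add_mod n p]
  rw [padicValNat_factorial_mul_add _ (Nat.mod_lt _ hp.out.pos), padicValNat_factorial_mul]

theorem list_aux (L : List ℕ)
    (hchk : ∀ q ∈ L, L.count q = 3 → q ≠ 2 → q ^ 3 < 2 ^ (L.count 2)) (p : ℕ) (h3 : L.count p = 3)
    (hodd : p ≠ 2) : p ^ 3 < 2 ^ (L.count 2) :=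
  hchk p (List.count_pos_iff.1 (by omega)) h3 hodd

theorem alt_aux (n c p : ℕ) (hc : 2 * c = n.factorial) (hp : p.Prime) (hodd : p ≠ 2)
    (h3 : c.factorization p = 3) : p ^ 3 < 2 ^ c.factorization 2 := by
  haveI : Fact p.Prime := ⟨hp⟩
  haveI : Fact (Nat.Prime 2) := ⟨Nat.prime_two⟩
  have hc0 : c ≠ 0 := by
    intro h
    rw [h] at hc
    exact (Nat.factorial_ne_zero n) hc.symm
  rw [Nat.factorization_def _ hp] at h3
  rw [Nat.factorization_def _ Nat.prime_two]
  have e1 : padicValNat p n.factorial = 3 := by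
    rw [← hc, padicValNat.mul two_ne_zero hc0, padicValNat_primes hodd, h3]
  have e2 : padicValNat 2 n.factorial = 1 + padicValNat 2 c := by
    rw [← hc, padicValNat.mul two_ne_zero hc0, padicValNat_self]
  have hp3 : 3 ≤ p := by
    have := hp.two_le
    omega
  -- n / p = 3 and p > 3
  have l1 := leg p n
  have l2 := leg p (n / p)
  rw [e1] at l1
  have ht : n / p = 3 ∧ 3 < p := by
    by_cases hlt : n / p < p
    · rw [Nat.div_eq_of_lt hlt, Nat.factorial_zero, padicValNat.one] at l2
      omega
    · have h1 : n / p = p := by omega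
      rw [h1, Nat.div_self hp.pos] at l2
      rw [h1] at l1
      omega
  have hn : 3 * p ≤ n := by
    have := Nat.div_mul_le_self n p
    rw [ht.1] at this
    exact this
  obtain ⟨r, hr⟩ := hp.eq_two_or_odd'.resolve_left hodd
  have m1 := leg 2 n
  have m2 := leg 2 (n / 2)
  have hv : 3 * r + 3 ≤ padicValNat 2 c := by omega
  have hr2 : r < 2 ^ r := Nat.lt_two_pow_self
  have hp2 : p < 2 ^ (r + 1) := by
    rw [pow_succ]; omega
  calc p ^ 3 < (2 ^ (r + 1)) ^ 3 := Nat.pow_lt_pow_left hp2 (by norm_num)
    _ = 2 ^ (3 * r + 3) := by rw [← pow_mul]; ring_nf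
    _ ≤ 2 ^ padicValNat 2 c := Nat.pow_le_pow_right (by norm_num) hv


/-- Let G be an alternating group of degree at least 5 or a simple group with the order of one of the 26 sporadic groups, and let p be an odd prime such that p³ is the exact power of p dividing the order of G. Then p³ is less than the 2-part of the order of G. -/
theorem result {G : Type*} [Group G] [Finite G] (hG : Cfsg.IsAlternating G ∨ Cfsg.IsSporadic G)
    (p : ℕ) (hp : p.Prime) (hodd : p ≠ 2) (h3 : (Nat.card G).factorization p = 3) :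
    p ^ 3 < 2 ^ (Nat.card G).factorization 2 := by
  rcases hG with ⟨n, hn, ⟨e⟩⟩ | hS
  · haveI : Nontrivial (Fin n) := Fin.nontrivial_iff_two_le.2 (by omega)
    have h1 := two_mul_nat_card_alternatingGroup (α := Fin n)
    rw [← Nat.card_congr e.toEquiv, Nat.card_perm, Nat.card_fin] at h1
    exact alt_aux n _ p h1 hp hodd h3
  · have key : ∀ N : ℕ, Nat.card G = N →
        (∀ q ∈ N.primeFactorsList, N.primeFactorsList.count q = 3 → q ≠ 2 →
          q ^ 3 < 2 ^ (N.primeFactorsList.count 2)) → p ^ 3 < 2 ^ (Nat.card G).factorization 2 := by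
      intro N hN hchk
      rw [hN] at h3 ⊢
      rw [← Nat.primeFactorsList_count_eq] at h3 ⊢
      exact list_aux _ hchk p h3 hodd
    unfold Cfsg.IsSporadic at hS
    rcases hS with h | h | h | h | h | h | h | h | h | h | h | h | h | h | h | h | h | h | h | h | h | h | h | h | h | h
    all_goals
      apply key _ h.2
      simp only [Nat.primeFactorsList_ofNat]
      decide +kernel

end Cfsg.Agent.S2367
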