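import Cfsg.Statements.S2387
import Cfsg.Agent.Lib.Helper14.FXExist

set_option autoImplicit false
open Cfsg

namespace Cfsg.Agent.S2387

open Cfsg.Agent.Lib.Helper14 Polynomial

theorem card_eq_of_surjective {A X Y : Type*} (φ : A → X) (ψ : A → Y)
    (hφ : Function.Surjective φ) (hψ : Function.Surjective ψ)
    (h : ∀ a b, φ a = φ b ↔ ψ a = ψ b) : Nat.card X = Nat.card Y := by
  apply Nat.card_congr
  refine Equiv.ofBijective (fun x => ψ (Function.surjInv hφ x)) ⟨?_, ?_⟩
  · intro x x' hx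
    have := (h _ _).2 hx
    rwa [Function.surjInv_eq hφ, Function.surjInv_eq hφ] at this
  · intro y
    obtain ⟨a, rfl⟩ := hψ y
    refine ⟨φ a, ?_⟩
    apply (h _ _).1
    rw [Function.surjInv_eq hφ]

theorem card_polys {F : Type*} [Field F] [Fintype F] (k : ℕ) :
    Nat.card {c : F[X] // c.Monic ∧ c.natDegree = k + 1 ∧ c.coeff 0 ≠ 0}
      = (Fintype.card F - 1) * Fintype.card F ^ k := by
  classical
  have e1 : {c : F[X] // c.Monic ∧ c.natDegree = k + 1 ∧ c.coeff 0 ≠ 0} ≃
      {a : Fin (k + 1) → F // a 0 ≠ 0} := by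
    let E := (monicEquivDegreeLT (R := F) (k + 1)).trans (degreeLTEquiv F (k + 1)).toEquiv
    have hE : ∀ c : { p : F[X] // p.Monic ∧ p.natDegree = k + 1 }, E c 0 = c.1.coeff 0 := by
      rintro ⟨c, hc1, hc2⟩
      change c.eraseLead.coeff 0 = c.coeff 0
      rw [Polynomial.eraseLead_coeff_of_ne]
      rw [hc2]; omega
    refine Equiv.trans ?_ (E.subtypeEquiv (p := fun c => c.1.coeff 0 ≠ 0) (q := fun a => a 0 ≠ 0) ?_)
    · exact
      { toFun := fun c => ⟨⟨c.1, c.2.1, c.2.2.1⟩, c.2.2.2⟩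
        invFun := fun c => ⟨c.1.1, c.1.2.1, c.1.2.2, c.2⟩
        left_inv := fun c => rfl
        right_inv := fun c => rfl }
    · intro c
      rw [hE]
  have e2 : {a : Fin (k + 1) → F // a 0 ≠ 0} ≃ {x : F // x ≠ 0} × (Fin k → F) :=
    { toFun := fun a => (⟨a.1 0, a.2⟩, Fin.tail a.1)
      invFun := fun b => ⟨Fin.cons b.1.1 b.2, by simpa using b.1.2⟩
      left_inv := fun a => by
        apply Subtype.ext
        simp
      right_inv := fun b => by
        simp }
  rw [Nat.card_congr e1, Nat.card_congr e2, Nat.card_prod, Nat.card_eq_fintype_card,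
    Nat.card_eq_fintype_card, Fintype.card_subtype_compl]
  simp

/-- In `GL_n(q)` with `n ≥ 1`, `q` a power of the prime `p`, the number of conjugacy classes of elements of order prime to `p` (diagonalisable over the algebraic closure; determined by the characteristic polynomial) is `(q - 1) q^(n-1)`. -/
theorem result {F : Type*} [Field F] [Fintype F] {q : ℕ} (hq : Fintype.card F = q) (p : ℕ) [Fact p.Prime] [CharP F p] (n : ℕ) (hn : 1 ≤ n) :
    Nat.card {c : ConjClasses (GL (Fin n) F) // ∃ g : GL (Fin n) F, ConjClasses.mk g = c ∧ (orderOf g).Coprime p} = (q - 1) * q ^ (n - 1) := by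
  obtain ⟨k, rfl⟩ : ∃ k, n = k + 1 := ⟨n - 1, by omega⟩
  have hpp : p.Prime := Fact.out
  have key : ∀ x : GL (Fin (k + 1)) F, (orderOf x).Coprime p →
      ((orderOf x : ℕ) : F) ≠ 0 ∧ (x : Matrix (Fin (k + 1)) (Fin (k + 1)) F) ^ orderOf x = 1 := by
    intro x hx
    constructor
    · intro h0
      rw [CharP.cast_eq_zero_iff F p] at h0
      have := Nat.Coprime.eq_one_of_dvd hx.symm h0
      exact hpp.one_lt.ne' this
    · rw [← Units.val_pow_eq_pow_val, pow_orderOf_eq_one, Units.val_one]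
  have main := card_eq_of_surjective
    (A := {g : GL (Fin (k + 1)) F // (orderOf g).Coprime p})
    (X := {c : ConjClasses (GL (Fin (k + 1)) F) // ∃ g : GL (Fin (k + 1)) F, ConjClasses.mk g = c ∧ (orderOf g).Coprime p})
    (Y := {c : F[X] // c.Monic ∧ c.natDegree = k + 1 ∧ c.coeff 0 ≠ 0})
    (fun g => ⟨ConjClasses.mk g.1, g.1, rfl, g.2⟩)
    (fun g => ⟨(g.1 : Matrix (Fin (k + 1)) (Fin (k + 1)) F).charpoly, Matrix.charpoly_monic _, by
      rw [Matrix.charpoly_natDegree_eq_dim]; simp, by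
      intro h0
      have h1 := Matrix.det_eq_sign_charpoly_coeff (g.1 : Matrix (Fin (k + 1)) (Fin (k + 1)) F)
      rw [h0, mul_zero] at h1
      exact Matrix.GeneralLinearGroup.det_ne_zero g.1 h1⟩)
    (by
      rintro ⟨c, g, rfl, hg⟩
      exact ⟨⟨g, hg⟩, rfl⟩)
    (by
      rintro ⟨c, hc1, hc2, hc0⟩
      obtain ⟨A, m, hm, hA, hAc⟩ := exists_matrix_fin_charpoly c hc2 hc1 hc0
      have hm0 : m ≠ 0 := by rintro rfl; simp at hm
      let g : GL (Fin (k + 1)) F := ⟨A, A ^ (m - 1), by
        rw [← pow_succ', Nat.sub_add_cancel (Nat.pos_of_ne_zero hm0), hA], by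
        rw [← pow_succ, Nat.sub_add_cancel (Nat.pos_of_ne_zero hm0), hA]⟩
      have hgm : g ^ m = 1 := by
        apply Units.ext
        rw [Units.val_pow_eq_pow_val]
        exact hA
      have hcop : (orderOf g).Coprime p := by
        have h1 : orderOf g ∣ m := orderOf_dvd_of_pow_eq_one hgm
        have h2 : ¬ p ∣ m := by
          intro h3
          exact hm ((CharP.cast_eq_zero_iff F p m).2 h3)
        exact Nat.Coprime.coprime_dvd_left h1 ((Nat.Prime.coprime_iff_not_dvd hpp).2 h2).symm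
      exact ⟨⟨g, hcop⟩, Subtype.ext hAc⟩)
    (by
      rintro ⟨a, ha⟩ ⟨b, hb⟩
      simp only [Subtype.mk.injEq]
      rw [ConjClasses.mk_eq_mk_iff_isConj, isConj_iff]
      constructor
      · rintro ⟨c, rfl⟩
        rw [Units.val_mul, Units.val_mul, Matrix.coe_units_inv, Matrix.charpoly_units_conj]
      · intro hc
        obtain ⟨P, hP, hPA⟩ := exists_conj_of_charpoly_eq (key a ha).1 (key a ha).2 (key b hb).1 (key b hb).2 hc
        refine ⟨Matrix.GeneralLinearGroup.mk'' P hP, ?_⟩
        rw [mul_inv_eq_iff_eq_mul]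
        apply Units.ext
        exact hPA)
  rw [main, card_polys, hq]
  simp

end Cfsg.Agent.S2387
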