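import Cfsg.Statements.S2384
import Cfsg.Agent.S2387

set_option autoImplicit false
open Cfsg

namespace Cfsg.Agent.S2384

open Cfsg.Agent.Lib.Helper14 Polynomial

theorem card_polys {F : Type*} [Field F] [Fintype F] (k : ℕ) (e : F) :
    Nat.card {c : F[X] // c.Monic ∧ c.natDegree = k + 1 ∧ c.coeff 0 = e}
      = Fintype.card F ^ k := by
  classical
  have e1 : {c : F[X] // c.Monic ∧ c.natDegree = k + 1 ∧ c.coeff 0 = e} ≃
      {a : Fin (k + 1) → F // a 0 = e} := by
    let E := (monicEquivDegreeLT (R := F) (k + 1)).trans (degreeLTEquiv F (k + 1)).toEquiv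
    have hE : ∀ c : { p : F[X] // p.Monic ∧ p.natDegree = k + 1 }, E c 0 = c.1.coeff 0 := by
      rintro ⟨c, hc1, hc2⟩
      change c.eraseLead.coeff 0 = c.coeff 0
      rw [Polynomial.eraseLead_coeff_of_ne]
      rw [hc2]; omega
    refine Equiv.trans ?_ (E.subtypeEquiv (p := fun c => c.1.coeff 0 = e) (q := fun a => a 0 = e) ?_)
    · exact
      { toFun := fun c => ⟨⟨c.1, c.2.1, c.2.2.1⟩, c.2.2.2⟩
        invFun := fun c => ⟨c.1.1, c.1.2.1, c.1.2.2, c.2⟩
        left_inv := fun c => rfl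
        right_inv := fun c => rfl }
    · intro c
      rw [hE]
  have e2 : {a : Fin (k + 1) → F // a 0 = e} ≃ (Fin k → F) :=
    { toFun := fun a => Fin.tail a.1
      invFun := fun b => ⟨Fin.cons e b, by simp⟩
      left_inv := fun a => by
        obtain ⟨a, rfl⟩ := a
        apply Subtype.ext
        simp
      right_inv := fun b => by
        simp }
  rw [Nat.card_congr e1, Nat.card_congr e2, Nat.card_eq_fintype_card]
  simp

/-- In `SL_n(q)`, `q` a power of the prime `p`, the number of conjugacy classes of elements of order prime to `p` (the semisimple classes) is `q^(n-1)`. -/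
theorem result {F : Type*} [Field F] [Fintype F] {q : ℕ} (hq : Fintype.card F = q) (p : ℕ) [Fact p.Prime] [CharP F p] (n : ℕ) (hn : 1 ≤ n) :
    Nat.card {c : ConjClasses (Matrix.SpecialLinearGroup (Fin n) F) //
      ∃ g : Matrix.SpecialLinearGroup (Fin n) F, ConjClasses.mk g = c ∧ (orderOf g).Coprime p} = q ^ (n - 1) := by
  obtain ⟨k, rfl⟩ : ∃ k, n = k + 1 := ⟨n - 1, by omega⟩
  have hpp : p.Prime := Fact.out
  have key : ∀ x : Matrix.SpecialLinearGroup (Fin (k + 1)) F, (orderOf x).Coprime p →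
      ((orderOf x : ℕ) : F) ≠ 0 ∧ (x : Matrix (Fin (k + 1)) (Fin (k + 1)) F) ^ orderOf x = 1 := by
    intro x hx
    constructor
    · intro h0
      rw [CharP.cast_eq_zero_iff F p] at h0
      have := Nat.Coprime.eq_one_of_dvd hx.symm h0
      exact hpp.one_lt.ne' this
    · rw [← Matrix.SpecialLinearGroup.coe_pow, pow_orderOf_eq_one, Matrix.SpecialLinearGroup.coe_one]
  have hsq : ((-1 : F) ^ (k + 1)) * ((-1 : F) ^ (k + 1)) = 1 := by
    rw [← mul_pow]; simp
  have main := Cfsg.Agent.S2387.card_eq_of_surjective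
    (A := {g : Matrix.SpecialLinearGroup (Fin (k + 1)) F // (orderOf g).Coprime p})
    (X := {c : ConjClasses (Matrix.SpecialLinearGroup (Fin (k + 1)) F) // ∃ g : Matrix.SpecialLinearGroup (Fin (k + 1)) F, ConjClasses.mk g = c ∧ (orderOf g).Coprime p})
    (Y := {c : F[X] // c.Monic ∧ c.natDegree = k + 1 ∧ c.coeff 0 = (-1) ^ (k + 1)})
    (fun g => ⟨ConjClasses.mk g.1, g.1, rfl, g.2⟩)
    (fun g => ⟨(g.1 : Matrix (Fin (k + 1)) (Fin (k + 1)) F).charpoly, Matrix.charpoly_monic _, by
      rw [Matrix.charpoly_natDegree_eq_dim]; simp, by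
      have h1 := Matrix.det_eq_sign_charpoly_coeff (g.1 : Matrix (Fin (k + 1)) (Fin (k + 1)) F)
      rw [g.1.2, Fintype.card_fin] at h1
      calc _ = ((-1 : F) ^ (k + 1)) * ((-1 : F) ^ (k + 1)) * (g.1 : Matrix (Fin (k + 1)) (Fin (k + 1)) F).charpoly.coeff 0 := by
            rw [hsq, one_mul]
        _ = _ := by rw [mul_assoc, ← h1, mul_one]⟩)
    (by
      rintro ⟨c, g, rfl, hg⟩
      exact ⟨⟨g, hg⟩, rfl⟩)
    (by
      rintro ⟨c, hc1, hc2, hc0⟩
      obtain ⟨A, m, hm, hA, hAc⟩ := exists_matrix_fin_charpoly c hc2 hc1 (by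
        rw [hc0]; exact pow_ne_zero _ (by simp))
      have hm0 : m ≠ 0 := by rintro rfl; simp at hm
      have hdet : A.det = 1 := by
        rw [Matrix.det_eq_sign_charpoly_coeff, hAc, hc0, Fintype.card_fin, hsq]
      let g : Matrix.SpecialLinearGroup (Fin (k + 1)) F := ⟨A, hdet⟩
      have hgm : g ^ m = 1 := by
        apply Subtype.ext
        rw [Matrix.SpecialLinearGroup.coe_pow]
        exact hA
      have hcop : (orderOf g).Coprime p := by
        have h1 : orderOf g ∣ m := orderOf_dvd_of_pow_eq_one hgm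
        have h2 : ¬ p ∣ m := by
          intro h3
          exact hm ((CharP.cast_eq_zero_iff F p m).2 h3)
        exact Nat.Coprime.coprime_dvd_left h1 ((Nat.Prime.coprime_iff_not_dvd hpp).2 h2).symm
      exact ⟨⟨g, hcop⟩, Subtype.ext hAc⟩)
    (by
      rintro ⟨a, ha⟩ ⟨b, hb⟩
      simp only [Subtype.mk.injEq]
      rw [ConjClasses.mk_eq_mk_iff_isConj, isConj_iff]
      constructor
      · rintro ⟨c, rfl⟩
        have h1 : ((c * a * c⁻¹ : Matrix.SpecialLinearGroup (Fin (k + 1)) F) : Matrix (Fin (k + 1)) (Fin (k + 1)) F)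
            = ((Matrix.SpecialLinearGroup.toGL c : GL (Fin (k + 1)) F) : Matrix (Fin (k + 1)) (Fin (k + 1)) F) * (a : Matrix (Fin (k + 1)) (Fin (k + 1)) F)
              * ((Matrix.SpecialLinearGroup.toGL c : GL (Fin (k + 1)) F) : Matrix (Fin (k + 1)) (Fin (k + 1)) F)⁻¹ := by
          rw [← Matrix.coe_units_inv, ← map_inv]
          rfl
        rw [h1, Matrix.charpoly_units_conj]
      · intro hc
        obtain ⟨P, hP, hPA⟩ := exists_det_one_conj (key a ha).1 (key a ha).2 (key b hb).1 (key b hb).2 hc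
        let c : Matrix.SpecialLinearGroup (Fin (k + 1)) F := ⟨P, hP⟩
        refine ⟨c, ?_⟩
        rw [mul_inv_eq_iff_eq_mul]
        apply Subtype.ext
        exact hPA)
  rw [main, card_polys, hq]
  simp

end Cfsg.Agent.S2384
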