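import Cfsg.Statements.S2391
import Mathlib

set_option autoImplicit false
open Cfsg

namespace Cfsg.Agent.S2391

section
variable {F : Type*} [Field F] [Fintype F] {n : ℕ}

local notation "SLn" => Matrix.SpecialLinearGroup (Fin n) F
local notation "VV" => (Fin n → F)

/-- action of a matrix group element on a vector -/
def ac (g : SLn) (v : VV) : VV := (g : Matrix (Fin n) (Fin n) F).mulVec v

theorem ac_add (g : SLn) (v w : VV) : ac g (v + w) = ac g v + ac g w := Matrix.mulVec_add _ _ _
theorem ac_sub (g : SLn) (v w : VV) : ac g (v - w) = ac g v - ac g w := Matrix.mulVec_sub _ _ _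
theorem ac_smul (g : SLn) (c : F) (v : VV) : ac g (c • v) = c • ac g v := Matrix.mulVec_smul _ _ _
theorem ac_zero (g : SLn) : ac g (0 : VV) = 0 := Matrix.mulVec_zero _
theorem ac_one (v : VV) : ac (1 : SLn) v = v := by
  unfold ac; simp
theorem ac_mul (g h : SLn) (v : VV) : ac (g * h) v = ac g (ac h v) := by
  unfold ac; simp [Matrix.mulVec_mulVec]

def nxt (U : Subgroup SLn) (W : Submodule F VV) : Submodule F VV where
  carrier := {v | ∀ u ∈ U, ac u v - v ∈ W}
  add_mem' := by
    intro a b ha hb u hu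
    have : ac u (a + b) - (a + b) = (ac u a - a) + (ac u b - b) := by rw [ac_add]; abel
    rw [this]; exact W.add_mem (ha u hu) (hb u hu)
  zero_mem' := by
    intro u _
    rw [ac_zero, sub_zero]; exact W.zero_mem
  smul_mem' := by
    intro c a ha u hu
    have : ac u (c • a) - c • a = c • (ac u a - a) := by rw [ac_smul, smul_sub]
    rw [this]; exact W.smul_mem c (ha u hu)

theorem mem_nxt (U : Subgroup SLn) (W : Submodule F VV) (v : VV) :
    v ∈ nxt U W ↔ ∀ u ∈ U, ac u v - v ∈ W := Iff.rfl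

theorem nxt_mono (U : Subgroup SLn) {W W' : Submodule F VV} (h : W ≤ W') : nxt U W ≤ nxt U W' :=
  fun _ hv u hu => h (hv u hu)

def ch (U : Subgroup SLn) : ℕ → Submodule F VV
  | 0 => ⊥
  | j + 1 => nxt U (ch U j)

theorem ch_le (U : Subgroup SLn) (j : ℕ) : ch U j ≤ ch U (j + 1) := by
  induction j with
  | zero => exact bot_le
  | succ j ih => exact nxt_mono U ih

theorem ch_inv (U : Subgroup SLn) (j : ℕ) (u : SLn) (hu : u ∈ U) (v : VV) (hv : v ∈ ch U j) :
    ac u v ∈ ch U j := by
  cases j with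
  | zero =>
    have : v = 0 := (Submodule.mem_bot F).1 hv
    rw [this, ac_zero]; exact Submodule.zero_mem _
  | succ j =>
    have h1 : ac u v - v ∈ ch U j := hv u hu
    have h2 : ac u v = (ac u v - v) + v := by abel
    rw [h2]
    exact Submodule.add_mem _ (ch_le U j h1) hv

theorem ch_norm (U : Subgroup SLn) (j : ℕ) (g : SLn)
    (hg : g ∈ Subgroup.normalizer (U : Set SLn)) (v : VV) (hv : v ∈ ch U j) : ac g v ∈ ch U j := by
  induction j generalizing v with
  | zero =>
    have : v = 0 := (Submodule.mem_bot F).1 hv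
    rw [this, ac_zero]; exact Submodule.zero_mem _
  | succ j ih =>
    intro u hu
    have h1 : g⁻¹ * u * g ∈ U := by
      have := (Subgroup.mem_normalizer_iff.1 (inv_mem hg) u).1 hu
      simpa using this
    have h2 : ac u (ac g v) - ac g v = ac g (ac (g⁻¹ * u * g) v - v) := by
      rw [ac_sub, ← ac_mul, ← ac_mul]
      congr 2
      group
    rw [h2]
    exact ih _ (hv _ h1)

theorem ch_map (U : Subgroup SLn) (j : ℕ) (g : SLn)
    (hg : g ∈ Subgroup.normalizer (U : Set SLn)) :
    (ch U j).map (Matrix.mulVecLin (g : Matrix (Fin n) (Fin n) F)) = ch U j := by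
  apply le_antisymm
  · rintro _ ⟨v, hv, rfl⟩
    exact ch_norm U j g hg v hv
  · intro v hv
    refine ⟨ac g⁻¹ v, ch_norm U j g⁻¹ (inv_mem hg) v hv, ?_⟩
    show ac g (ac g⁻¹ v) = v
    rw [← ac_mul, mul_inv_cancel, ac_one]

def acLin (g : SLn) : VV →ₗ[F] VV := Matrix.mulVecLin (g : Matrix (Fin n) (Fin n) F)

theorem acLin_apply (g : SLn) (v : VV) : acLin g v = ac g v := rfl

/-- the action of `U` on the quotient by an invariant subspace -/
def qact (U : Subgroup SLn) (W : Submodule F VV) (hW : ∀ u ∈ U, ∀ w ∈ W, ac u w ∈ W) :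
    MulAction U (VV ⧸ W) where
  smul u x := Submodule.mapQ W W (acLin u.1) (fun w hw => hW u.1 u.2 w hw) x
  one_smul x := by
    obtain ⟨v, rfl⟩ := Submodule.Quotient.mk_surjective W x
    show (Submodule.Quotient.mk (ac (1 : SLn) v) : VV ⧸ W) = _
    rw [ac_one]
  mul_smul a b x := by
    obtain ⟨v, rfl⟩ := Submodule.Quotient.mk_surjective W x
    show (Submodule.Quotient.mk (ac (a.1 * b.1) v) : VV ⧸ W) = Submodule.Quotient.mk (ac a.1 (ac b.1 v))
    rw [ac_mul]

theorem strict_step (p : ℕ) [Fact p.Prime] [CharP F p] (U : Subgroup SLn) (hU : IsPGroup p ↥U)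
    (W : Submodule F VV) (hW : ∀ u ∈ U, ∀ w ∈ W, ac u w ∈ W) (hne : W ≠ ⊤) :
    ∃ v, v ∈ nxt U W ∧ v ∉ W := by
  letI := qact U W hW
  have hsm : ∀ (u : U) (v : VV), u • (Submodule.Quotient.mk v : VV ⧸ W) = Submodule.Quotient.mk (ac u.1 v) := by
    intro u v
    rfl
  have hdvd : p ∣ Nat.card (VV ⧸ W) := by
    obtain ⟨v, hv⟩ : ∃ v, v ∉ W := by
      by_contra h
      push Not at h
      exact hne (eq_top_iff.2 (fun v _ => h v))
    have h1 : (Submodule.Quotient.mk v : VV ⧸ W) ≠ 0 := by
      rw [Ne, Submodule.Quotient.mk_eq_zero]; exact hv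
    have h2 : p • (Submodule.Quotient.mk v : VV ⧸ W) = 0 := by
      rw [← Submodule.Quotient.mk_smul, Submodule.Quotient.mk_eq_zero]
      have : p • v = 0 := by
        funext i
        simp [CharP.cast_eq_zero F p]
      rw [this]; exact W.zero_mem
    rw [← addOrderOf_eq_prime h2 h1]
    exact addOrderOf_dvd_natCard _
  have h0 : (0 : VV ⧸ W) ∈ MulAction.fixedPoints U (VV ⧸ W) := by
    intro u
    have := hsm u 0
    rw [ac_zero] at this
    exact this
  obtain ⟨b, hb, hb0⟩ := hU.exists_fixed_point_of_prime_dvd_card_of_fixed_point (VV ⧸ W) hdvd h0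
  obtain ⟨v, rfl⟩ := Submodule.Quotient.mk_surjective W b
  refine ⟨v, ?_, ?_⟩
  · intro u hu
    have := hb ⟨u, hu⟩
    rw [hsm] at this
    exact (Submodule.Quotient.eq W).1 this
  · intro hv
    exact hb0 ((Submodule.Quotient.mk_eq_zero W).2 hv).symm

end


/-- The Borel–Tits property of `SL_n(q)` in flag form: for a field `F` of characteristic `p` with finitely many elements and a non-trivial `p`-subgroup `U` of `SL_n(F)`, there is a flag `0 = V₀ < V₁ < ⋯ < V_{k+1} = F^n` with at least one proper non-zero member such that every element of the normaliser of `U` maps each `V_i` onto itself and every element of `U` acts trivially on each quotient `V_{i+1}/V_i` (so the normaliser lies in the parabolic subgroup of the flag and `U` in its unipotent radical). -/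
theorem result {F : Type*} [Field F] [Fintype F] (p : ℕ) [Fact p.Prime] [CharP F p] (n : ℕ)
    (U : Subgroup (Matrix.SpecialLinearGroup (Fin n) F)) (hU : IsPGroup p ↥U) (hne : U ≠ ⊥) :
    ∃ (k : ℕ) (V : Fin (k + 2) → Submodule F (Fin n → F)), 1 ≤ k ∧ StrictMono V ∧ V 0 = ⊥ ∧ V (Fin.last (k + 1)) = ⊤ ∧
      (∀ g ∈ Subgroup.normalizer (U : Set (Matrix.SpecialLinearGroup (Fin n) F)), ∀ i, (V i).map (Matrix.mulVecLin (g : Matrix (Fin n) (Fin n) F)) = V i) ∧
      (∀ u ∈ U, ∀ i : Fin (k + 1), ∀ v ∈ V i.succ, (u : Matrix (Fin n) (Fin n) F).mulVec v - v ∈ V (Fin.castSucc i)) := by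
  have hstep : ∀ j, ch U j ≠ ⊤ → ch U j < ch U (j + 1) := by
    intro j hj
    obtain ⟨v, hv1, hv2⟩ := strict_step p U hU (ch U j) (fun u hu w hw => ch_inv U j u hu w hw) hj
    exact lt_of_le_of_ne (ch_le U j) (fun h => hv2 (h ▸ hv1))
  have hex : ∃ K, ch U K = ⊤ := by
    by_contra h
    push Not at h
    have hmono : StrictMono (ch U) := strictMono_nat_of_lt_succ (fun j => hstep j (h j))
    exact not_injective_infinite_finite (ch U) hmono.injective
  classical
  let K := Nat.find hex
  have hK : ch U K = ⊤ := Nat.find_spec hex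
  have hmin : ∀ j, j < K → ch U j ≠ ⊤ := fun j hj => Nat.find_min hex hj
  -- a nontrivial element
  obtain ⟨u, hu, hu1⟩ : ∃ u ∈ U, u ≠ 1 := by
    by_contra h
    push Not at h
    exact hne ((Subgroup.eq_bot_iff_forall U).2 h)
  have h1 : ch U 1 ≠ ⊤ := by
    intro h
    apply hu1
    apply Subtype.ext
    apply Matrix.ext_of_mulVec_single
    intro i
    have hm : (Pi.single i 1 : Fin n → F) ∈ ch U 1 := by rw [h]; trivial
    have h2 := hm u hu
    have h3 : ac u (Pi.single i 1) - Pi.single i 1 = 0 := (Submodule.mem_bot F).1 h2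
    have h4 := sub_eq_zero.1 h3
    show (u : Matrix (Fin n) (Fin n) F).mulVec (Pi.single i 1) = (1 : Matrix (Fin n) (Fin n) F).mulVec (Pi.single i 1)
    rw [Matrix.one_mulVec]
    exact h4
  have h0 : ch U 0 ≠ ⊤ := by
    intro h
    apply h1
    exact top_le_iff.1 (h ▸ ch_le U 0)
  have hK2 : 2 ≤ K := by
    by_contra h
    have : K = 0 ∨ K = 1 := by omega
    rcases this with h' | h'
    · exact h0 (h' ▸ hK)
    · exact h1 (h' ▸ hK)
  refine ⟨K - 1, fun i => ch U i.val, by omega, ?_, rfl, ?_, ?_, ?_⟩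
  · rw [Fin.strictMono_iff_lt_succ]
    intro i
    show ch U i.val < ch U (i.val + 1)
    apply hstep
    apply hmin
    have := i.2
    omega
  · show ch U (K - 1 + 1) = ⊤
    have : K - 1 + 1 = K := by omega
    rw [this]; exact hK
  · intro g hg i
    exact ch_map U i.val g hg
  · intro u hu i v hv
    exact hv u hu

end Cfsg.Agent.S2391
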