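import Cfsg.Statements.S2416
import Cfsg.Agent.Lib.Helper7.GenN2

set_option autoImplicit false
open scoped MatrixGroups
open Cfsg

namespace Cfsg.Agent.S2416

/-- A Chevalley group of type G₂, B₂, D₄, F₄, E₆, E₇ or E₈ over a finite field lies in (indeed equals) the subgroup generated by its monomial subgroup `N` and a single fundamental root subgroup `X_p`, where `p` is a short fundamental root if there are two root lengths (any fundamental root otherwise), provided the characteristic is not 2 for types B₂, F₄ and not 3 for type G₂ (and the field has more than two elements for B₂, G₂). -/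
theorem result {K : Type*} [Field K] [Finite K] (D : Cfsg.Lie.ChevalleyDatum) (hD : D ∈ [Cfsg.Lie.chevG2, Cfsg.Lie.chevB2, Cfsg.Lie.chevD4, Cfsg.Lie.chevF4, Cfsg.Lie.chevE6, Cfsg.Lie.chevE7, Cfsg.Lie.chevE8])
    (hK : D ∈ [Cfsg.Lie.chevB2, Cfsg.Lie.chevG2] → ∃ x : K, x ≠ 0 ∧ x ≠ 1)
    (h2 : D ∈ [Cfsg.Lie.chevB2, Cfsg.Lie.chevF4] → ringChar K ≠ 2) (h3 : D = Cfsg.Lie.chevG2 → ringChar K ≠ 3)
    (i : ℕ) (hi : i < D.rank) (hshort : D.isLong (D.simple i) = false) :
    D.group K ≤ D.monomialSubgroup K ⊔ D.rootSubgroup K (D.simple i) := by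
  have hN : D.monomialSubgroup K ≤ D.monomialSubgroup K ⊔ D.rootSubgroup K (D.simple i) := le_sup_left
  have hX : D.rootSubgroup K (D.simple i) ≤ D.monomialSubgroup K ⊔ D.rootSubgroup K (D.simple i) := le_sup_right
  simp only [List.mem_cons, List.mem_nil_iff, or_false] at hD
  rcases hD with rfl | rfl | rfl | rfl | rfl | rfl | rfl
  · obtain rfl := Lib.Helper7.shortG2 hi hshort
    exact Lib.Helper7.genG2 hN (h3 rfl) (Lib.Helper7.Sys2.InR.of_root_le _ hX)
  · obtain rfl := Lib.Helper7.shortB2 hi hshort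
    exact Lib.Helper7.genB2 hN (h2 (by simp)) (Lib.Helper7.Sys2.InR.of_root_le _ hX)
  · exact Lib.Helper7.sys5D4.le_of_single rfl hN (Lib.Helper7.sys5D4.simple_lt hi) (Lib.Helper7.Sys2.InR.of_root_le _ hX)
  · rcases Lib.Helper7.shortF4 hi hshort with rfl | rfl
    · exact Lib.Helper7.genF4 hN (h2 (by simp)) (Lib.Helper7.Sys2.InR.of_root_le _ hX)
    · exact Lib.Helper7.genF4 hN (h2 (by simp)) ((Lib.Helper7.inR_F4_01 hN).1 (Lib.Helper7.Sys2.InR.of_root_le _ hX))
  · exact Lib.Helper7.sys5E6.le_of_single rfl hN (Lib.Helper7.sys5E6.simple_lt hi) (Lib.Helper7.Sys2.InR.of_root_le _ hX)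
  · exact Lib.Helper7.sys5E7.le_of_single rfl hN (Lib.Helper7.sys5E7.simple_lt hi) (Lib.Helper7.Sys2.InR.of_root_le _ hX)
  · exact Lib.Helper7.sys5E8.le_of_single rfl hN (Lib.Helper7.sys5E8.simple_lt hi) (Lib.Helper7.Sys2.InR.of_root_le _ hX)

end Cfsg.Agent.S2416
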