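import Cfsg.Statements.S2417
import Cfsg.Agent.Lib.Helper7.GenN2

set_option autoImplicit false
open scoped MatrixGroups
open Cfsg

namespace Cfsg.Agent.S2417

/-- In the characteristics with an exceptional graph symmetry — type B₂ or F₄ in characteristic 2 (field of more than two elements for B₂) and type G₂ in characteristic 3 — the Chevalley group lies in the subgroup generated by its monomial subgroup `N` and the two fundamental root subgroups `X_a`, `X_b` of a short root `a` and a long root `b` joined in the Dynkin diagram. -/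
theorem result {K : Type*} [Field K] [Finite K] (e : Cfsg.Lie.ChevalleyDatum × ℕ)
    (he : e ∈ [(Cfsg.Lie.chevB2, 2), (Cfsg.Lie.chevF4, 2), (Cfsg.Lie.chevG2, 3)]) [CharP K e.2]
    (hK : e.1 = Cfsg.Lie.chevB2 → ∃ x : K, x ≠ 0 ∧ x ≠ 1)
    (i j : ℕ) (hi : i < e.1.rank) (hj : j < e.1.rank) (hshort : e.1.isLong (e.1.simple i) = false)
    (hlong : e.1.isLong (e.1.simple j) = true) (hbond : e.1.bonds i j ≠ 0) :
    e.1.group K ≤ e.1.monomialSubgroup K ⊔ e.1.rootSubgroup K (e.1.simple i) ⊔ e.1.rootSubgroup K (e.1.simple j) := by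
  obtain ⟨D, c⟩ := e
  have hN : D.monomialSubgroup K ≤ D.monomialSubgroup K ⊔ D.rootSubgroup K (D.simple i) ⊔ D.rootSubgroup K (D.simple j) :=
    le_sup_left.trans le_sup_left
  have hX : D.rootSubgroup K (D.simple i) ≤ D.monomialSubgroup K ⊔ D.rootSubgroup K (D.simple i) ⊔ D.rootSubgroup K (D.simple j) :=
    le_sup_right.trans le_sup_left
  have hY : D.rootSubgroup K (D.simple j) ≤ D.monomialSubgroup K ⊔ D.rootSubgroup K (D.simple i) ⊔ D.rootSubgroup K (D.simple j) :=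
    le_sup_right
  simp only [List.mem_cons, List.mem_nil_iff, or_false, Prod.mk.injEq] at he
  rcases he with ⟨rfl, rfl⟩ | ⟨rfl, rfl⟩ | ⟨rfl, rfl⟩
  · obtain rfl := Lib.Helper7.shortB2 hi hshort
    obtain rfl := Lib.Helper7.longB2 hj hlong
    exact Lib.Helper7.sys5B2.le_of_InR hN (Lib.Helper7.Sys2.InR.of_root_le _ hX) (Lib.Helper7.Sys2.InR.of_root_le _ hY)
  · have h1 : Lib.Helper7.sys5F4.InR (Cfsg.Lie.chevF4.monomialSubgroup K ⊔ Cfsg.Lie.chevF4.rootSubgroup K (Cfsg.Lie.chevF4.simple i) ⊔ Cfsg.Lie.chevF4.rootSubgroup K (Cfsg.Lie.chevF4.simple j)) (Cfsg.Lie.chevF4.simple 0) := by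
      rcases Lib.Helper7.shortF4 hi hshort with rfl | rfl
      · exact Lib.Helper7.Sys2.InR.of_root_le _ hX
      · exact (Lib.Helper7.inR_F4_01 hN).1 (Lib.Helper7.Sys2.InR.of_root_le _ hX)
    have h2 : Lib.Helper7.sys5F4.InR (Cfsg.Lie.chevF4.monomialSubgroup K ⊔ Cfsg.Lie.chevF4.rootSubgroup K (Cfsg.Lie.chevF4.simple i) ⊔ Cfsg.Lie.chevF4.rootSubgroup K (Cfsg.Lie.chevF4.simple j)) (Cfsg.Lie.chevF4.simple 2) := by
      rcases Lib.Helper7.longF4 hj hlong with rfl | rfl
      · exact Lib.Helper7.Sys2.InR.of_root_le _ hY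
      · exact (Lib.Helper7.inR_F4_23 hN).1 (Lib.Helper7.Sys2.InR.of_root_le _ hY)
    exact Lib.Helper7.sys5F4.le_of_InR hN h1 h2
  · obtain rfl := Lib.Helper7.shortG2 hi hshort
    obtain rfl := Lib.Helper7.longG2 hj hlong
    exact Lib.Helper7.sys5G2.le_of_InR hN (Lib.Helper7.Sys2.InR.of_root_le _ hX) (Lib.Helper7.Sys2.InR.of_root_le _ hY)

end Cfsg.Agent.S2417
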