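import Cfsg.Statements.S2540
import Mathlib
import Cfsg.Agent.Lib.Helper14.SLGen
import Cfsg.Agent.Lib.Helper14.SpPerf
open scoped commutatorElement

set_option autoImplicit false
open Cfsg

namespace Cfsg.Agent.S2540

/-- Let F be a finite field and n ≥ 1, excluding the case n = 2 with #F ≤ 3. A subgroup of GL_n(F) that is normalized by every element of SL_n(F) either consists of scalar matrices or contains SL_n(F). -/
theorem result {F : Type*} [Field F] [Fintype F] (n : ℕ) (hn : 1 ≤ n) (hex : ¬ (n = 2 ∧ Fintype.card F ≤ 3)) (G : Subgroup (Matrix.GeneralLinearGroup (Fin n) F)) (hG : ∀ s : Matrix.SpecialLinearGroup (Fin n) F, ∀ g ∈ G, (Matrix.SpecialLinearGroup.toGL s) * g * (Matrix.SpecialLinearGroup.toGL s)⁻¹ ∈ G) : (∀ g ∈ G, ∃ c : F, (g : Matrix (Fin n) (Fin n) F) = c • (1 : Matrix (Fin n) (Fin n) F)) ∨ (Matrix.SpecialLinearGroup.toGL : Matrix.SpecialLinearGroup (Fin n) F →* _).range ≤ G := by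
  classical
  -- the case `n = 1`
  by_cases hn1 : n = 1
  · subst hn1
    left
    intro g _
    refine ⟨g.1 0 0, ?_⟩
    ext i j
    have hi : i = 0 := Subsingleton.elim _ _
    have hj : j = 0 := Subsingleton.elim _ _
    subst hi hj
    simp
  have hn2 : 2 ≤ n := by omega
  -- perfectness and simplicity
  have hperf : commutator (Matrix.SpecialLinearGroup (Fin n) F) = ⊤ := by
    by_cases h3 : 3 ≤ n
    · exact Cfsg.Agent.Lib.Helper14.SL_commutator_eq_top (by rw [Fintype.card_fin]; exact h3)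
    · have h2 : n = 2 := by omega
      subst h2
      have h4 : 4 ≤ Fintype.card F := by
        by_contra hcon
        exact hex ⟨rfl, by omega⟩
      obtain ⟨a, ha, ha2⟩ := Cfsg.Agent.Lib.Helper14.exists_sq_ne_one h4
      exact Matrix.SL2.commutator_eq_top ha ha2
  have hsimple : IsSimpleGroup (Matrix.ProjectiveSpecialLinearGroup (Fin n) F) := by
    by_cases h3 : 3 ≤ n
    · exact Cfsg.Agent.Lib.Helper14.PSL_isSimpleGroup (by rw [Fintype.card_fin]; exact h3)
    · have h2 : n = 2 := by omega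
      subst h2
      have h4 : 4 ≤ Fintype.card F := by
        by_contra hcon
        exact hex ⟨rfl, by omega⟩
      exact Matrix.ProjectiveSpecialLinearGroup.rank_two_simple
        (by rw [Nat.card_eq_fintype_card]; exact h4)
  set T : Matrix.SpecialLinearGroup (Fin n) F →* Matrix.GeneralLinearGroup (Fin n) F :=
    Matrix.SpecialLinearGroup.toGL with hT
  have hTinj : Function.Injective T := Matrix.SpecialLinearGroup.toGL_injective
  let N : Subgroup (Matrix.SpecialLinearGroup (Fin n) F) := G.comap T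
  have hNn : N.Normal := ⟨fun x hx s => by
    change T (s * x * s⁻¹) ∈ G
    rw [map_mul, map_mul, map_inv]
    exact hG s _ hx⟩
  let Z := Subgroup.center (Matrix.SpecialLinearGroup (Fin n) F)
  have hmap : (N.map (QuotientGroup.mk' Z)).Normal :=
    hNn.map _ (QuotientGroup.mk'_surjective Z)
  rcases hsimple.eq_bot_or_eq_top_of_normal _ hmap with hbot | htop
  · -- `N` is central
    left
    have hNZ : N ≤ Z := by
      intro x hx
      have : QuotientGroup.mk' Z x ∈ N.map (QuotientGroup.mk' Z) := ⟨x, hx, rfl⟩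
      rw [hbot, Subgroup.mem_bot] at this
      exact (QuotientGroup.eq_one_iff x).1 this
    intro g hg
    -- conjugation by `g` is multiplication by a central element
    have hconj : ∀ s, ∃ z ∈ Z, g * T s * g⁻¹ = T (z * s) := by
      intro s
      have hdet : (g * T s * g⁻¹ * (T s)⁻¹).1.det = 1 := by
        have h1 : Matrix.GeneralLinearGroup.det (g * T s * g⁻¹ * (T s)⁻¹) = 1 := by
          simp only [map_mul, map_inv]
          rw [mul_comm (Matrix.GeneralLinearGroup.det g), mul_assoc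
            (Matrix.GeneralLinearGroup.det (T s)) (Matrix.GeneralLinearGroup.det g),
            mul_inv_cancel, mul_one, mul_inv_cancel]
        exact congrArg Units.val h1
      let z : Matrix.SpecialLinearGroup (Fin n) F := ⟨_, hdet⟩
      have hz : T z = g * T s * g⁻¹ * (T s)⁻¹ := Units.ext rfl
      have hzN : z ∈ N := by
        change T z ∈ G
        rw [hz, mul_assoc, mul_assoc]
        refine G.mul_mem hg ?_
        rw [← mul_assoc]
        exact hG s _ (G.inv_mem hg)
      refine ⟨z, hNZ hzN, ?_⟩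
      rw [map_mul, hz]; group
    let C : Subgroup (Matrix.SpecialLinearGroup (Fin n) F) :=
      (Subgroup.centralizer {g}).comap T
    have hC : commutator (Matrix.SpecialLinearGroup (Fin n) F) ≤ C := by
      rw [commutator_eq_closure, Subgroup.closure_le]
      rintro _ ⟨s, t, rfl⟩
      change T ⁅s, t⁆ ∈ Subgroup.centralizer {g}
      rw [Subgroup.mem_centralizer_singleton_iff]
      obtain ⟨z1, hz1, h1⟩ := hconj s
      obtain ⟨z2, hz2, h2⟩ := hconj t
      have h3 : g * T ⁅s, t⁆ * g⁻¹ = T ⁅z1 * s, z2 * t⁆ := by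
        rw [commutatorElement_def, commutatorElement_def]
        simp only [map_mul, map_inv] at h1 h2 ⊢
        calc g * (T s * T t * (T s)⁻¹ * (T t)⁻¹) * g⁻¹
            = (g * T s * g⁻¹) * (g * T t * g⁻¹) * (g * T s * g⁻¹)⁻¹ * (g * T t * g⁻¹)⁻¹ := by group
          _ = _ := by rw [h1, h2]
      have h4 : ⁅z1 * s, z2 * t⁆ = ⁅s, t⁆ := by
        rw [Subgroup.mem_center_iff] at hz1 hz2
        rw [commutatorElement_def, commutatorElement_def]
        have e1 : (z1 * s)⁻¹ = s⁻¹ * z1⁻¹ := by group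
        have e2 : (z2 * t)⁻¹ = t⁻¹ * z2⁻¹ := by group
        rw [e1, e2]
        calc z1 * s * (z2 * t) * (s⁻¹ * z1⁻¹) * (t⁻¹ * z2⁻¹)
            = z1 * (s * z2) * t * s⁻¹ * (z1⁻¹ * t⁻¹) * z2⁻¹ := by group
          _ = z1 * (z2 * s) * t * s⁻¹ * (z1⁻¹ * t⁻¹) * z2⁻¹ := by rw [hz2 s]
          _ = z1 * (z2 * (s * t * s⁻¹)) * z1⁻¹ * t⁻¹ * z2⁻¹ := by group
          _ = z1 * ((s * t * s⁻¹) * z2) * z1⁻¹ * t⁻¹ * z2⁻¹ := by rw [hz2 (s * t * s⁻¹)]
          _ = (z1 * (s * t * s⁻¹ * z2)) * z1⁻¹ * t⁻¹ * z2⁻¹ := by group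
          _ = ((s * t * s⁻¹ * z2) * z1) * z1⁻¹ * t⁻¹ * z2⁻¹ := by rw [hz1 (s * t * s⁻¹ * z2)]
          _ = s * t * s⁻¹ * (z2 * t⁻¹) * z2⁻¹ := by group
          _ = s * t * s⁻¹ * (t⁻¹ * z2) * z2⁻¹ := by rw [hz2 t⁻¹]
          _ = s * t * s⁻¹ * t⁻¹ := by group
      rw [h4] at h3
      rw [mul_inv_eq_iff_eq_mul] at h3
      exact h3.symm
    rw [hperf] at hC
    have hcomm : ∀ s, T s * g = g * T s := by
      intro s
      have : s ∈ C := hC (Subgroup.mem_top s)
      exact (Subgroup.mem_centralizer_singleton_iff.1 this)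
    have hsc : g.1 ∈ Set.range (Matrix.scalar (Fin n)) := by
      apply Matrix.mem_range_scalar_of_commute_transvectionStruct
      intro t
      have := hcomm ⟨t.toMatrix, t.det⟩
      exact congrArg Units.val this
    obtain ⟨c, hc⟩ := hsc
    refine ⟨c, ?_⟩
    rw [← hc, Matrix.scalar_apply, Matrix.smul_one_eq_diagonal]
  · -- `N Z = SL`, so `N = SL`
    right
    have hNtop : commutator (Matrix.SpecialLinearGroup (Fin n) F) ≤ N := by
      rw [commutator_eq_closure, Subgroup.closure_le]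
      rintro _ ⟨s, t, rfl⟩
      have hdec : ∀ s : Matrix.SpecialLinearGroup (Fin n) F, ∃ x ∈ N, ∃ z ∈ Z, s = x * z := by
        intro s
        have : QuotientGroup.mk' Z s ∈ N.map (QuotientGroup.mk' Z) := by rw [htop]; trivial
        obtain ⟨x, hx, hxs⟩ := this
        refine ⟨x, hx, x⁻¹ * s, ?_, by group⟩
        exact (QuotientGroup.eq (s := Z)).1 hxs
      obtain ⟨x1, hx1, z1, hz1, rfl⟩ := hdec s
      obtain ⟨x2, hx2, z2, hz2, rfl⟩ := hdec t
      have h4 : ⁅x1 * z1, x2 * z2⁆ = ⁅x1, x2⁆ := by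
        rw [Subgroup.mem_center_iff] at hz1 hz2
        rw [commutatorElement_def, commutatorElement_def]
        have e1 : (x1 * z1)⁻¹ = z1⁻¹ * x1⁻¹ := by group
        have e2 : (x2 * z2)⁻¹ = z2⁻¹ * x2⁻¹ := by group
        rw [e1, e2]
        calc x1 * z1 * (x2 * z2) * (z1⁻¹ * x1⁻¹) * (z2⁻¹ * x2⁻¹)
            = x1 * (z1 * (x2 * z2)) * z1⁻¹ * x1⁻¹ * z2⁻¹ * x2⁻¹ := by group
          _ = x1 * ((x2 * z2) * z1) * z1⁻¹ * x1⁻¹ * z2⁻¹ * x2⁻¹ := by rw [hz1 (x2 * z2)]
          _ = x1 * x2 * (z2 * x1⁻¹) * z2⁻¹ * x2⁻¹ := by group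
          _ = x1 * x2 * (x1⁻¹ * z2) * z2⁻¹ * x2⁻¹ := by rw [hz2 x1⁻¹]
          _ = x1 * x2 * x1⁻¹ * x2⁻¹ := by group
      change ⁅x1 * z1, x2 * z2⁆ ∈ N
      rw [h4, commutatorElement_def]
      exact N.mul_mem (N.mul_mem (N.mul_mem hx1 hx2) (N.inv_mem hx1)) (N.inv_mem hx2)
    rw [hperf] at hNtop
    rintro _ ⟨s, rfl⟩
    exact hNtop (Subgroup.mem_top s)

end Cfsg.Agent.S2540
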