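import Cfsg.Statements.S2541
-- import your own Cfsg.Agent.* helpers here

set_option autoImplicit false
open Cfsg

namespace Cfsg.Agent.S2541

set_option maxRecDepth 100000 in
theorem s6_pow : ∀ σ : Equiv.Perm (Fin 6), σ ^ 8 = 1 → σ ^ 4 = 1 := by decide +kernel

/-- Let F be a field with 9 elements. The symmetric group S_6 is not isomorphic to PGL_2(F) (although both have index-2 subgroups isomorphic to A_6). -/
theorem result {F : Type*} [Field F] [Fintype F] (hF : Fintype.card F = 9) : ¬ Nonempty (Equiv.Perm (Fin 6) ≃* Matrix.ProjGenLinGroup (Fin 2) F) := by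
  rintro ⟨e⟩
  classical
  obtain ⟨ζ, hζ⟩ := IsCyclic.exists_generator (α := Fˣ)
  have hord : orderOf ζ = 8 := by
    rw [orderOf_eq_card_of_forall_mem_zpowers hζ, Nat.card_eq_fintype_card, Fintype.card_units, hF]
  let D : GL (Fin 2) F := ⟨Matrix.diagonal ![(ζ : F), 1], Matrix.diagonal ![((ζ⁻¹ : Fˣ) : F), 1],
    by
      rw [Matrix.diagonal_mul_diagonal, ← Matrix.diagonal_one]
      congr 1
      ext i
      fin_cases i <;> simp,
    by
      rw [Matrix.diagonal_mul_diagonal, ← Matrix.diagonal_one]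
      congr 1
      ext i
      fin_cases i <;> simp⟩
  have hD : ∀ k : ℕ, ((D ^ k : GL (Fin 2) F) : Matrix (Fin 2) (Fin 2) F) = Matrix.diagonal ![(ζ : F) ^ k, 1] := by
    intro k
    rw [Units.val_pow_eq_pow_val]
    change (Matrix.diagonal ![(ζ : F), 1]) ^ k = _
    rw [Matrix.diagonal_pow]
    congr 1
    ext i
    fin_cases i <;> simp
  have h8 : (Matrix.ProjGenLinGroup.mk D) ^ 8 = 1 := by
    rw [← map_pow]
    have : D ^ 8 = 1 := by
      apply Units.ext
      rw [hD, ← Units.val_pow_eq_pow_val, ← hord, pow_orderOf_eq_one, Units.val_one, Units.val_one,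
        ← Matrix.diagonal_one]
      congr 1
      ext i
      fin_cases i <;> simp
    rw [this, map_one]
  have h4 : (Matrix.ProjGenLinGroup.mk D) ^ 4 ≠ 1 := by
    rw [← map_pow, Ne, Matrix.ProjGenLinGroup.mk_eq_one,
      Matrix.GeneralLinearGroup.mem_center_iff_val_mem_range_scalar]
    rintro ⟨r, hr⟩
    rw [hD] at hr
    have e0 := congrFun (congrFun hr 0) 0
    have e1 := congrFun (congrFun hr 1) 1
    simp at e0 e1
    have h5 : ζ ^ 4 = 1 := by
      apply Units.ext
      rw [Units.val_pow_eq_pow_val, ← e0, e1, Units.val_one]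
    have := orderOf_dvd_of_pow_eq_one h5
    rw [hord] at this
    omega
  apply h4
  have h9 : (e.symm (Matrix.ProjGenLinGroup.mk D)) ^ 4 = 1 := by
    apply s6_pow
    rw [← map_pow, h8, map_one]
  rw [← map_pow] at h9
  exact (MulEquiv.map_eq_one_iff e.symm).1 h9

end Cfsg.Agent.S2541
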