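import Cfsg.Statements.S2542
import Cfsg.Agent.Lib.Helper3.L211.Psl
import Cfsg.Agent.Lib.Helper3.A5u.Sub
import Cfsg.Agent.Lib.Helper3.ExcIso
import Cfsg.Agent.Lib.Helper3.Stcs7

set_option autoImplicit false
open Cfsg

namespace Cfsg.Agent.S2542

open Cfsg.Agent.Lib.Helper3 Cfsg.Agent.Lib.Helper11

/-- Let F be a field with 11 elements. PSL_2(F) has a subgroup H of index 11 isomorphic to the alternating group A_5, and the action of PSL_2(F) on the cosets of H is 2-transitive (of degree 11). -/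
theorem result {F : Type*} [Field F] [Fintype F] (hF : Fintype.card F = 11) : ∃ H : Subgroup (Matrix.ProjectiveSpecialLinearGroup (Fin 2) F), H.index = 11 ∧ Nonempty (H ≃* alternatingGroup (Fin 5)) ∧ MulAction.IsMultiplyPretransitive (Matrix.ProjectiveSpecialLinearGroup (Fin 2) F) ((Matrix.ProjectiveSpecialLinearGroup (Fin 2) F) ⧸ H) 2 := by
  have : Fact (Nat.Prime 11) := ⟨by norm_num⟩
  obtain ⟨e1⟩ := psl_of_card (n := Fin 2) (F := F) (K := ZMod 11) (by rw [hF, ZMod.card])
  obtain ⟨e2⟩ := L211.psl_iso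
  obtain ⟨e3⟩ := L211.iso
  have h2 : MulAction.IsMultiplyPretransitive (lgrp (vL L211a.ntl L211a.deg) [1, 2]) (Fin L211a.deg) 2 :=
    L211a.setup.two_trans [1, 2] L211a.L2.gens (dlLetters L211a.L1.gens L211a.L1.dl) (by norm_num [L211a.deg])
      L211a.pretrans L211a.okl (by decide +kernel) (by decide +kernel) 3 10 (by norm_num [L211a.deg])
      (by decide +kernel)
  obtain ⟨H, hi, ⟨e4⟩, ht⟩ := exists_two_trans_subgroup (e1.trans (e2.trans e3)) (0 : Fin 11) (h2 := h2)
  have hpre := L211a.pretrans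
  have hfin : Finite (lgrp (vL L211a.ntl L211a.deg) [1, 2]) :=
    Nat.finite_of_card_ne_zero (by rw [L211a.card_eq]; norm_num)
  have hfix : ∀ g ∈ lgrp (vL A5u.ntl A5u.deg) [1, 2], g (0 : Fin 11) = 0 := by
    have h : lgrp (vL A5u.ntl A5u.deg) [1, 2] ≤ MulAction.stabilizer (Equiv.Perm (Fin 11)) (0 : Fin 11) := by
      apply lgrp_le
      intro x hx
      simp only [List.mem_cons, List.mem_nil_iff, or_false] at hx
      rcases hx with rfl | rfl
      · exact A5u.setup.img_of_chk 1 0 0 (by norm_num [A5u.deg]) (by norm_num [A5u.deg]) (by decide +kernel)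
      · exact A5u.setup.img_of_chk 2 0 0 (by norm_num [A5u.deg]) (by norm_num [A5u.deg]) (by decide +kernel)
    exact fun g hg => h hg
  obtain ⟨e5⟩ := stabilizer_iso_of_card (lgrp (vL L211a.ntl L211a.deg) [1, 2])
    (lgrp (vL A5u.ntl A5u.deg) [1, 2]) (0 : Fin 11) A5u.le hfix
    (by rw [A5u.card_eq, L211a.card_eq]; simp [L211a.deg]) (by simp [L211a.deg])
  obtain ⟨e6⟩ := A5u.iso
  obtain ⟨e7⟩ := iso_alternating _ A5b.simple (by rw [A5b.card_eq]; norm_num)
    (by rw [A5b.card_eq]; decide) (by norm_num)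
  refine ⟨H, ?_, ⟨e4.trans (e5.trans (e6.trans e7))⟩, ht⟩
  rw [hi]
  simp

end Cfsg.Agent.S2542
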