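import Cfsg.Statements.S2550
import Cfsg.Agent.Lib.Helper14.PSL34
import Cfsg.Agent.Lib.Helper14.Orders
open Cfsg.Agent.Lib.Helper14

set_option autoImplicit false
open Cfsg

namespace Cfsg.Agent.S2550

/-- Let F be a field with 2 elements and K a field with 4 elements. PSL_4(F) and PSL_3(K) have the same order (20160) but are not isomorphic. -/
theorem result {F K : Type*} [Field F] [Fintype F] [Field K] [Fintype K] (hF : Fintype.card F = 2) (hK : Fintype.card K = 4) : Nat.card (Matrix.ProjectiveSpecialLinearGroup (Fin 4) F) = Nat.card (Matrix.ProjectiveSpecialLinearGroup (Fin 3) K) ∧ ¬ Nonempty (Matrix.ProjectiveSpecialLinearGroup (Fin 4) F ≃* Matrix.ProjectiveSpecialLinearGroup (Fin 3) K) := by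
  classical
  constructor
  · have h1 := card_PSL_field (F := F) 4 (by norm_num)
    have h2 := card_PSL_field (F := K) 3 (by norm_num)
    rw [hF] at h1
    rw [hK] at h2
    simp only [Fin.prod_univ_succ, Fin.prod_univ_zero] at h1 h2
    norm_num at h1 h2
    rw [Nat.card_eq_fintype_card, Nat.card_eq_fintype_card]
    omega
  · rintro ⟨e⟩
    have h01 : ∀ a : F, a = 0 ∨ a = 1 := by
      intro a
      by_contra h
      push Not at h
      have h3 : ({0, 1, a} : Finset F).card = 3 := by
        rw [Finset.card_insert_of_notMem, Finset.card_insert_of_notMem, Finset.card_singleton]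
        · simpa using h.2.symm
        · simp only [Finset.mem_insert, Finset.mem_singleton, not_or]
          exact ⟨zero_ne_one, h.1.symm⟩
      have h4 := Finset.card_le_univ ({0, 1, a} : Finset F)
      rw [h3, hF] at h4
      omega
    have h2F : (1 : F) + 1 = 0 := by
      rcases h01 (1 + 1) with h | h
      · exact h
      · exfalso
        have : (1 : F) = 0 := by linear_combination h
        exact one_ne_zero this
    let N₁ : Matrix (Fin 4) (Fin 4) F := Matrix.single 0 1 1
    let N₂ : Matrix (Fin 4) (Fin 4) F := Matrix.single 0 1 1 + Matrix.single 2 3 1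
    let t₁ : Matrix.SpecialLinearGroup (Fin 4) F :=
      Matrix.SpecialLinearGroup.transvection (show (0 : Fin 4) ≠ 1 by decide) 1
    let t₂ : Matrix.SpecialLinearGroup (Fin 4) F :=
      t₁ * Matrix.SpecialLinearGroup.transvection (show (2 : Fin 4) ≠ 3 by decide) 1
    have hE : ∀ (i j k l : Fin 4), j ≠ k →
        (Matrix.single i j (1 : F) : Matrix (Fin 4) (Fin 4) F) * Matrix.single k l 1 = 0 :=
      fun i j k l h => Matrix.single_mul_single_of_ne _ _ _ _ h _
    have ht₁ : t₁.1 = 1 + N₁ := rfl
    have ht₂ : t₂.1 = 1 + N₂ := by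
      change (1 + Matrix.single 0 1 1) * (1 + Matrix.single 2 3 1) = _
      rw [Matrix.add_mul, Matrix.mul_add, Matrix.mul_add, Matrix.one_mul, Matrix.one_mul,
        Matrix.mul_one, hE _ _ _ _ (by decide)]
      simp only [N₂]
      abel
    have hN₁sq : N₁ * N₁ = 0 := hE _ _ _ _ (by decide)
    have hN₂sq : N₂ * N₂ = 0 := by
      simp only [N₂, Matrix.add_mul, Matrix.mul_add]
      rw [hE 0 1 0 1 (by decide), hE 2 3 0 1 (by decide), hE 0 1 2 3 (by decide),
        hE 2 3 2 3 (by decide)]
      simp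
    have hsq : ∀ (t : Matrix.SpecialLinearGroup (Fin 4) F) (N : Matrix (Fin 4) (Fin 4) F),
        t.1 = 1 + N → N * N = 0 → t ^ 2 = 1 := by
      intro t N ht hN
      apply Subtype.ext
      rw [sq]
      change t.1 * t.1 = 1
      rw [ht, Matrix.add_mul, Matrix.mul_add, Matrix.mul_add, hN, Matrix.one_mul, Matrix.one_mul,
        Matrix.mul_one]
      have : N + N = 0 := by
        ext i j
        change N i j + N i j = 0
        linear_combination N i j * h2F
      rw [add_zero, add_assoc, this, add_zero]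
    have hcen : ∀ z : Matrix.SpecialLinearGroup (Fin 4) F,
        z ∈ Subgroup.center (Matrix.SpecialLinearGroup (Fin 4) F) → z = 1 := by
      intro z hz
      obtain ⟨r, hr, hrz⟩ := Matrix.SpecialLinearGroup.mem_center_iff.1 hz
      rcases h01 r with rfl | rfl
      · simp at hr
      · apply Subtype.ext
        rw [← hrz]; simp
    have hne : ∀ (t : Matrix.SpecialLinearGroup (Fin 4) F) (N : Matrix (Fin 4) (Fin 4) F),
        t.1 = 1 + N → N 0 1 = 1 →
        (QuotientGroup.mk t : Matrix.ProjectiveSpecialLinearGroup (Fin 4) F) ≠ 1 := by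
      intro t N ht hN h
      have h1 := hcen t ((QuotientGroup.eq_one_iff _).1 h)
      rw [h1] at ht
      have h2 := congrFun (congrFun ht 0) 1
      simp [hN] at h2
    have hN₁01 : N₁ 0 1 = 1 := by simp [N₁]
    have hN₂01 : N₂ 0 1 = 1 := by simp [N₂, Matrix.single_apply]
    have ho₁ : orderOf (QuotientGroup.mk t₁ : Matrix.ProjectiveSpecialLinearGroup (Fin 4) F) = 2 :=
      orderOf_eq_prime (by rw [← QuotientGroup.mk_pow, hsq t₁ N₁ ht₁ hN₁sq]; rfl)
        (hne t₁ N₁ ht₁ hN₁01)
    have ho₂ : orderOf (QuotientGroup.mk t₂ : Matrix.ProjectiveSpecialLinearGroup (Fin 4) F) = 2 :=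
      orderOf_eq_prime (by rw [← QuotientGroup.mk_pow, hsq t₂ N₂ ht₂ hN₂sq]; rfl)
        (hne t₂ N₂ ht₂ hN₂01)
    have hc := psl34_involutions_conj hK (e (QuotientGroup.mk t₁)) (e (QuotientGroup.mk t₂))
      (by rw [MulEquiv.orderOf_eq, ho₁]) (by rw [MulEquiv.orderOf_eq, ho₂])
    have hc' := e.symm.toMonoidHom.map_isConj hc
    simp only [MulEquiv.toMonoidHom_eq_coe, MonoidHom.coe_coe, MulEquiv.symm_apply_apply] at hc'
    rw [isConj_iff] at hc'
    obtain ⟨c, hc⟩ := hc'
    obtain ⟨c, rfl⟩ := QuotientGroup.mk_surjective c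
    have h5 : (c * t₁ * c⁻¹)⁻¹ * t₂ ∈ Subgroup.center (Matrix.SpecialLinearGroup (Fin 4) F) :=
      QuotientGroup.eq.1 hc
    have h6 : c * t₁ * c⁻¹ = t₂ := by
      have := hcen _ h5
      rw [inv_mul_eq_one] at this
      exact this
    have h7 : c * t₁ = t₂ * c := by rw [← h6]; group
    have h8 : c.1 * N₁ = N₂ * c.1 := by
      have : c.1 * t₁.1 = t₂.1 * c.1 := congrArg Subtype.val h7
      rw [ht₁, ht₂, Matrix.mul_add, Matrix.add_mul, Matrix.mul_one, Matrix.one_mul] at this
      exact add_left_cancel this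
    have hCD : c.1 * (c⁻¹).1 = 1 := by
      have : (c * c⁻¹).1 = 1 := by rw [mul_inv_cancel]; rfl
      exact this
    have h9 : N₂ = c.1 * N₁ * (c⁻¹).1 := by
      rw [h8, Matrix.mul_assoc, hCD, Matrix.mul_one]
    -- the invariant
    have hP₁ : ∀ A, N₁ * A * N₁ = 0 ∨ N₁ * A * N₁ = N₁ := by
      intro A
      simp only [N₁]
      rw [Matrix.single_mul_mul_single]
      rcases h01 (A 1 0) with h | h
      · left; rw [h]; simp
      · right; rw [h]; simp
    have hP₂ : ∀ A, N₂ * A * N₂ = 0 ∨ N₂ * A * N₂ = N₂ := by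
      intro A
      have h10 : N₂ * A * N₂ = c.1 * (N₁ * ((c⁻¹).1 * A * c.1) * N₁) * (c⁻¹).1 := by
        rw [h9]; simp only [Matrix.mul_assoc]
      rcases hP₁ ((c⁻¹).1 * A * c.1) with h | h
      · left; rw [h10, h]; simp
      · right; rw [h10, h, ← h9]
    have h11 : N₂ * Matrix.single 1 0 1 * N₂ = Matrix.single 0 1 1 := by
      simp only [N₂, Matrix.add_mul, Matrix.mul_add]
      rw [hE 2 3 1 0 (by decide), Matrix.single_mul_single_same, Matrix.single_mul_single_same]
      simp only [mul_one]
      rw [hE 0 0 2 3 (by decide)]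
      simp
    rcases hP₂ (Matrix.single 1 0 1) with h | h
    · rw [h11] at h
      have := congrFun (congrFun h 0) 1
      simp at this
    · rw [h11] at h
      have := congrFun (congrFun h 2) 3
      simp [N₂, Matrix.single_apply] at this

end Cfsg.Agent.S2550
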