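import Cfsg.Statements.S2552
import Cfsg.Agent.Lib.Helper14.Transit

set_option autoImplicit false
open Cfsg

namespace Cfsg.Agent.S2552

/-- Let F be a finite field and n ≥ 1. For every k, the special linear group SL_n(F) acts transitively on the set of k-dimensional subspaces of F^n: any two subspaces of the same dimension are carried onto each other by some matrix of determinant 1. -/
theorem result {F : Type*} [Field F] [Fintype F] (n : ℕ) (hn : 1 ≤ n) (U₁ U₂ : Submodule F (Fin n → F)) (h : Module.finrank F U₁ = Module.finrank F U₂) : ∃ g : Matrix.SpecialLinearGroup (Fin n) F, U₁.map ((Matrix.SpecialLinearGroup.toLin' g : (Fin n → F) ≃ₗ[F] (Fin n → F)) : (Fin n → F) →ₗ[F] (Fin n → F)) = U₂ := by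
  classical
  obtain ⟨W₁, h₁⟩ := Submodule.exists_isCompl U₁
  obtain ⟨W₂, h₂⟩ := Submodule.exists_isCompl U₂
  have hW : Module.finrank F W₁ = Module.finrank F W₂ := by
    have e1 := Submodule.finrank_add_eq_of_isCompl h₁
    have e2 := Submodule.finrank_add_eq_of_isCompl h₂
    omega
  let eU : U₁ ≃ₗ[F] U₂ := LinearEquiv.ofFinrankEq _ _ h
  let eW : W₁ ≃ₗ[F] W₂ := LinearEquiv.ofFinrankEq _ _ hW
  let e : (Fin n → F) ≃ₗ[F] (Fin n → F) :=
    (Submodule.prodEquivOfIsCompl U₁ W₁ h₁).symm ≪≫ₗ (eU.prodCongr eW) ≪≫ₗ (Submodule.prodEquivOfIsCompl U₂ W₂ h₂)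
  have he : ∀ x : U₁, e (x : Fin n → F) = (eU x : Fin n → F) := by
    intro x
    simp [e]
  have hmap : U₁.map (e : (Fin n → F) →ₗ[F] (Fin n → F)) = U₂ := by
    apply le_antisymm
    · rintro _ ⟨x, hx, rfl⟩
      have := he ⟨x, hx⟩
      simp only [LinearEquiv.coe_coe]
      rw [this]; exact (eU ⟨x, hx⟩).2
    · intro y hy
      refine ⟨(eU.symm ⟨y, hy⟩ : Fin n → F), (eU.symm ⟨y, hy⟩).2, ?_⟩
      simp only [LinearEquiv.coe_coe]
      rw [he]; simp
  -- a vector `u`, in `U₂` if possible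
  have hV : ∃ v : Fin n → F, v ≠ 0 := ⟨fun _ => 1, fun h0 => one_ne_zero (congrFun h0 ⟨0, hn⟩)⟩
  obtain ⟨u, hu0, huU⟩ : ∃ u : Fin n → F, u ≠ 0 ∧ (U₂ ≠ ⊥ → u ∈ U₂) := by
    by_cases hb : U₂ = ⊥
    · obtain ⟨v, hv⟩ := hV
      exact ⟨v, hv, fun h => absurd hb h⟩
    · obtain ⟨u, hu, hu0⟩ := Submodule.exists_mem_ne_zero_of_ne_bot hb
      exact ⟨u, hu0, fun _ => hu⟩
  obtain ⟨f, hf⟩ := Cfsg.Agent.Lib.Helper14.exists_dual_eq_one (K := F) hu0
  have hδ : LinearMap.det (e : (Fin n → F) →ₗ[F] (Fin n → F)) ≠ 0 := (LinearEquiv.isUnit_det' e).ne_zero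
  obtain ⟨c, hc⟩ : ∃ c : F, c = (LinearMap.det (e : (Fin n → F) →ₗ[F] (Fin n → F)))⁻¹ := ⟨_, rfl⟩
  have hc0 : c ≠ 0 := by rw [hc]; exact inv_ne_zero hδ
  let z : (Fin n → F) →ₗ[F] (Fin n → F) := LinearMap.transvection f ((c - 1) • u)
  have hz : ∀ x, z x = x + (f x * (c - 1)) • u := by
    intro x; simp [z, LinearMap.transvection, smul_smul]
  have hzdet : LinearMap.det z = c := by
    simp [z, hf]
  have hsm : ∀ (x : Fin n → F) (t : F), x ∈ U₂ → x + (f x * t) • u ∈ U₂ := by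
    intro x t hx
    by_cases hb : U₂ = ⊥
    · rw [hb, Submodule.mem_bot] at hx
      subst hx
      simp
    · exact U₂.add_mem hx (U₂.smul_mem _ (huU hb))
  have hzmap : U₂.map z = U₂ := by
    apply le_antisymm
    · rintro _ ⟨x, hx, rfl⟩
      rw [hz]; exact hsm x _ hx
    · intro y hy
      refine ⟨y + (f y * (c⁻¹ - 1)) • u, hsm y _ hy, ?_⟩
      rw [hz, map_add, map_smul, hf, add_assoc, ← add_smul]
      have : f y * (c⁻¹ - 1) + (f y + (f y * (c⁻¹ - 1)) • (1 : F)) * (c - 1) = 0 := by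
        rw [smul_eq_mul]; field_simp; ring
      rw [this, zero_smul, add_zero]
  have hdet : (LinearMap.toMatrix' (z ∘ₗ (e : (Fin n → F) →ₗ[F] (Fin n → F)))).det = 1 := by
    rw [LinearMap.det_toMatrix', LinearMap.det_comp, hzdet, hc, inv_mul_cancel₀ hδ]
  obtain ⟨g, hg⟩ : ∃ g : Matrix.SpecialLinearGroup (Fin n) F, (g : Matrix (Fin n) (Fin n) F) =
      LinearMap.toMatrix' (z ∘ₗ (e : (Fin n → F) →ₗ[F] (Fin n → F))) := ⟨⟨_, hdet⟩, rfl⟩
  refine ⟨g, ?_⟩
  rw [Matrix.SpecialLinearGroup.toLin'_to_linearMap, hg, Matrix.toLin'_toMatrix',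
    Submodule.map_comp, hmap, hzmap]

end Cfsg.Agent.S2552
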