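import Cfsg.Statements.S2564
import Cfsg.Agent.Lib.Helper14.GaussTwo

set_option autoImplicit false
open Cfsg

namespace Cfsg.Agent.S2564

open Cfsg.Agent.Lib.Helper14

theorem pf_self (m : ℕ) (w : Fin m ⊕ Fin m → ZMod 2) : pf m w w = 0 := by
  rw [pf_eq]
  apply Finset.sum_eq_zero
  intro i _
  exact zmod2_add_self _

/-- On the 2m-dimensional space over the field of two elements (m ≥ 1) let f be the alternating form obtained by polarizing the plus-type form Σ xᵢyᵢ, and let q be any quadratic form polarizing to f. For a vector w, the function q + f(·, w) again polarizes to f, and it is equivalent to q under an invertible linear map (that is, has the same type) if and only if q(w) = 0. -/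
theorem result (m : ℕ) (hm : 1 ≤ m) (q : (Fin m ⊕ Fin m → ZMod 2) → ZMod 2) (hq : (∀ u v : (Fin m ⊕ Fin m → ZMod 2), q (u + v) = q u + q v + (Cfsg.quadFormPlus m (ZMod 2) (u + v) - Cfsg.quadFormPlus m (ZMod 2) u - Cfsg.quadFormPlus m (ZMod 2) v))) (w : (Fin m ⊕ Fin m → ZMod 2)) :
    (∀ u v : (Fin m ⊕ Fin m → ZMod 2), (q (u + v) + (Cfsg.quadFormPlus m (ZMod 2) (u + v + w) - Cfsg.quadFormPlus m (ZMod 2) (u + v) - Cfsg.quadFormPlus m (ZMod 2) w)) =
        (q u + (Cfsg.quadFormPlus m (ZMod 2) (u + w) - Cfsg.quadFormPlus m (ZMod 2) u - Cfsg.quadFormPlus m (ZMod 2) w)) + (q v + (Cfsg.quadFormPlus m (ZMod 2) (v + w) - Cfsg.quadFormPlus m (ZMod 2) v - Cfsg.quadFormPlus m (ZMod 2) w)) +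
        (Cfsg.quadFormPlus m (ZMod 2) (u + v) - Cfsg.quadFormPlus m (ZMod 2) u - Cfsg.quadFormPlus m (ZMod 2) v)) ∧
    ((∃ g : (Fin m ⊕ Fin m → ZMod 2) ≃ₗ[ZMod 2] (Fin m ⊕ Fin m → ZMod 2), ∀ v, q v + (Cfsg.quadFormPlus m (ZMod 2) (v + w) - Cfsg.quadFormPlus m (ZMod 2) v - Cfsg.quadFormPlus m (ZMod 2) w) = q (g v)) ↔ q w = 0) := by
  have hq' : ∀ u v, q (u + v) = q u + q v + pf m u v := hq
  change (∀ u v, q (u + v) + pf m (u + v) w = (q u + pf m u w) + (q v + pf m v w) + pf m u v) ∧
    ((∃ g : (Fin m ⊕ Fin m → ZMod 2) ≃ₗ[ZMod 2] (Fin m ⊕ Fin m → ZMod 2), ∀ v, q v + pf m v w = q (g v)) ↔ q w = 0)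
  have hq0 : q 0 = 0 := by
    have := hq' 0 0
    rw [add_zero, pf_zero_right, add_zero] at this
    have h2 := zmod2_add_self (q 0)
    rw [← this] at h2; exact h2
  constructor
  · intro u v
    rw [hq', pf_add_left]; ring
  · constructor
    · rintro ⟨g, hg⟩
      have h1 : gaussSum (fun v => q v + pf m v w) = gaussSum q := by
        rw [funext hg]
        exact gaussSum_comp_equiv q g.toEquiv
      rw [gaussSum_translate (pf m) q hq' w] at h1
      have h2 : gaussSum q ≠ 0 :=
        gaussSum_ne_zero (pf m) (pf_add_left m) (pf_nondeg m) (pf_zero_right m) q hq'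
      have h3 : chi2 (q w) = 1 := by
        have : (chi2 (q w) - 1) * gaussSum q = 0 := by rw [sub_mul, h1]; ring
        rcases mul_eq_zero.mp this with h | h
        · omega
        · exact absurd h h2
      exact (chi2_eq_one_iff _).mp h3
    · intro hw
      let φ : (Fin m ⊕ Fin m → ZMod 2) →ₗ[ZMod 2] (Fin m ⊕ Fin m → ZMod 2) :=
        { toFun := fun v => v + pf m v w • w
          map_add' := by
            intro u v
            rw [pf_add_left, add_smul]; abel
          map_smul' := by
            intro c v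
            rw [pf_smul_left, smul_add, smul_smul]; rfl }
      have hinv : Function.Involutive φ := by
        intro v
        change (v + pf m v w • w) + pf m (v + pf m v w • w) w • w = v
        rw [pf_add_left, pf_smul_left, pf_self, mul_zero, add_zero, add_assoc, ← add_smul, zmod2_add_self, zero_smul,
          add_zero]
      refine ⟨LinearEquiv.ofInvolutive φ hinv, ?_⟩
      intro v
      change q v + pf m v w = q (v + pf m v w • w)
      by_cases hc : pf m v w = 0
      · rw [hc]; simp
      · rw [(zmod2_ne_zero _).mp hc, one_smul, hq', hw, (zmod2_ne_zero _).mp hc]; ring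

end Cfsg.Agent.S2564
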