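import Cfsg.Statements.S2561
import Cfsg.Agent.Lib.Helper14.GaussTwoC
import Cfsg.Agent.S2564

set_option autoImplicit false
open Cfsg

namespace Cfsg.Agent.S2561

open Cfsg.Agent.Lib.Helper14

/-- the quadratic form `Q⁺ + f(·, w)` -/
def Qw (m : ℕ) (w : Fin m ⊕ Fin m → ZMod 2) : (Fin m ⊕ Fin m → ZMod 2) → ZMod 2 :=
  fun v => Cfsg.quadFormPlus m (ZMod 2) v + pf m v w

/-- `q` polarizes to the polar form of `Q⁺` -/
def Pol (m : ℕ) (q : (Fin m ⊕ Fin m → ZMod 2) → ZMod 2) : Prop :=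
  ∀ u v : (Fin m ⊕ Fin m → ZMod 2), q (u + v) = q u + q v + (Cfsg.quadFormPlus m (ZMod 2) (u + v) - Cfsg.quadFormPlus m (ZMod 2) u - Cfsg.quadFormPlus m (ZMod 2) v)

theorem pol_Qw (m : ℕ) (w : Fin m ⊕ Fin m → ZMod 2) : Pol m (Qw m w) := by
  intro u v
  unfold Qw
  rw [pf_add_left]; ring

theorem Qw_injective (m : ℕ) : Function.Injective (Qw m) := by
  intro w w' h
  by_contra hne
  have hne' : w - w' ≠ 0 := sub_ne_zero.mpr hne
  obtain ⟨u, hu⟩ := pf_nondeg m (w - w') hne'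
  have h1 := congrFun h u
  unfold Qw at h1
  have h2 : pf m u w = pf m u w' := add_left_cancel h1
  have h3 : pf m u w = pf m u (w - w') + pf m u w' := by rw [← pf_add_right]; simp
  rw [hu, h2] at h3
  have : (0 : ZMod 2) = 1 := by
    have := sub_eq_zero.mpr h3
    ring_nf at this
    revert this; generalize pf m u w' = a; revert a; decide
  exact absurd this (by decide)

theorem exists_w (m : ℕ) (q : (Fin m ⊕ Fin m → ZMod 2) → ZMod 2) (hq : Pol m q) : ∃ w, q = Qw m w := by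
  classical
  let d : (Fin m ⊕ Fin m → ZMod 2) →+ ZMod 2 :=
    AddMonoidHom.mk' (fun v => q v - Cfsg.quadFormPlus m (ZMod 2) v) (by
      intro u v
      rw [hq u v]; ring)
  let D : (Fin m ⊕ Fin m → ZMod 2) →ₗ[ZMod 2] ZMod 2 := AddMonoidHom.toZModLinearMap 2 d
  refine ⟨Sum.elim (fun i => D (fun j => if Sum.inr i = j then 1 else 0))
    (fun i => D (fun j => if Sum.inl i = j then 1 else 0)), ?_⟩
  funext v
  unfold Qw
  have h1 : q v = Cfsg.quadFormPlus m (ZMod 2) v + D v := by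
    change q v = _ + (q v - _); ring
  rw [h1, LinearMap.pi_apply_eq_sum_univ D v, Fintype.sum_sum_type, pf_eq, Finset.sum_add_distrib]
  simp only [Sum.elim_inl, Sum.elim_inr, smul_eq_mul]
  congr 2
  apply Finset.sum_congr rfl
  intro i _; ring

theorem Qw_zero (m : ℕ) : Qw m 0 = Cfsg.quadFormPlus m (ZMod 2) := by
  funext v
  unfold Qw
  rw [pf_zero_right, add_zero]

theorem gauss_Qw (m : ℕ) (w : Fin m ⊕ Fin m → ZMod 2) :
    gaussSum (Qw m w) = chi2 (Cfsg.quadFormPlus m (ZMod 2) w) * 2 ^ m := by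
  unfold Qw
  rw [gaussSum_translate (pf m) _ (quadFormPlus_polar m) w, gaussSum_quadFormPlus]

theorem equiv_of_eq (m : ℕ) (hm : 1 ≤ m) (w w' : Fin m ⊕ Fin m → ZMod 2)
    (h : Cfsg.quadFormPlus m (ZMod 2) w = Cfsg.quadFormPlus m (ZMod 2) w') :
    ∃ g : (Fin m ⊕ Fin m → ZMod 2) ≃ₗ[ZMod 2] (Fin m ⊕ Fin m → ZMod 2), ∀ v, Qw m w' v = Qw m w (g v) := by
  have key := (Cfsg.Agent.S2564.result m hm (Qw m w) (pol_Qw m w) (w + w')).2
  have h0 : Qw m w (w + w') = 0 := by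
    unfold Qw
    rw [quadFormPlus_polar, pf_add_left, Cfsg.Agent.S2564.pf_self, h, pf_comm m w' w]
    generalize Cfsg.quadFormPlus m (ZMod 2) w' = a
    generalize pf m w w' = b
    revert a b; decide
  obtain ⟨g, hg⟩ := key.mpr h0
  refine ⟨g, fun v => ?_⟩
  rw [← hg v]
  change _ = Qw m w v + pf m v (w + w')
  unfold Qw
  rw [pf_add_right]
  generalize Cfsg.quadFormPlus m (ZMod 2) v = a
  generalize pf m v w = b
  generalize pf m v w' = c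
  revert a b c; decide

theorem plus_iff (m : ℕ) (hm : 1 ≤ m) (w : Fin m ⊕ Fin m → ZMod 2) :
    (∃ g : (Fin m ⊕ Fin m → ZMod 2) ≃ₗ[ZMod 2] (Fin m ⊕ Fin m → ZMod 2), ∀ v, Qw m w v = Cfsg.quadFormPlus m (ZMod 2) (g v)) ↔
      Cfsg.quadFormPlus m (ZMod 2) w = 0 := by
  constructor
  · rintro ⟨g, hg⟩
    have h1 : gaussSum (Qw m w) = gaussSum (Cfsg.quadFormPlus m (ZMod 2)) := by
      rw [funext hg]; exact gaussSum_comp_equiv _ g.toEquiv
    rw [gauss_Qw, gaussSum_quadFormPlus] at h1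
    have h2 : (2 : ℤ) ^ m ≠ 0 := by positivity
    have h3 : chi2 (Cfsg.quadFormPlus m (ZMod 2) w) = 1 := by
      have : (chi2 (Cfsg.quadFormPlus m (ZMod 2) w) - 1) * 2 ^ m = 0 := by rw [sub_mul, h1]; ring
      rcases mul_eq_zero.mp this with h | h
      · omega
      · exact absurd h h2
    exact (chi2_eq_one_iff _).mp h3
  · intro h
    have h0 : Cfsg.quadFormPlus m (ZMod 2) 0 = Cfsg.quadFormPlus m (ZMod 2) w := by
      rw [h]; unfold Cfsg.quadFormPlus; simp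
    obtain ⟨g, hg⟩ := equiv_of_eq m hm 0 w h0
    exact ⟨g, fun v => by rw [hg v, Qw_zero]⟩

/-- the reference nonsingular vector -/
def w0 (k : ℕ) : Fin (k + 1) ⊕ Fin (k + 1) → ZMod 2 :=
  Sum.elim (Pi.single (Fin.last k) 1) (Pi.single (Fin.last k) 1)

/-- the coordinate change between the two models -/
def g0 (k : ℕ) : (Fin (k + 1) ⊕ Fin (k + 1) → ZMod 2) ≃ₗ[ZMod 2] ((Fin k ⊕ Fin k) ⊕ Fin 2 → ZMod 2) where
  toFun v := Sum.elim (Sum.elim (fun i => v (Sum.inl i.castSucc)) (fun i => v (Sum.inr i.castSucc)))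
    ![v (Sum.inl (Fin.last k)), v (Sum.inr (Fin.last k))]
  invFun z := Sum.elim (Fin.snoc (α := fun _ => ZMod 2) (fun i => z (Sum.inl (Sum.inl i))) (z (Sum.inr 0)))
    (Fin.snoc (α := fun _ => ZMod 2) (fun i => z (Sum.inl (Sum.inr i))) (z (Sum.inr 1)))
  map_add' u v := by
    ext ((i | i) | i)
    · simp
    · simp
    · fin_cases i <;> simp
  map_smul' c v := by
    ext ((i | i) | i)
    · simp
    · simp
    · fin_cases i <;> simp
  left_inv v := by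
    ext (i | i)
    · refine Fin.lastCases ?_ (fun j => ?_) i <;> simp
    · refine Fin.lastCases ?_ (fun j => ?_) i <;> simp
  right_inv z := by
    ext ((i | i) | i)
    · simp
    · simp
    · fin_cases i <;> simp

theorem quadFormPlus_w0 (k : ℕ) : Cfsg.quadFormPlus (k + 1) (ZMod 2) (w0 k) = 1 := by
  unfold Cfsg.quadFormPlus w0
  rw [Fin.sum_univ_castSucc]
  simp

theorem Qw_w0 (k : ℕ) (v : Fin (k + 1) ⊕ Fin (k + 1) → ZMod 2) :
    Qw (k + 1) (w0 k) v = Cfsg.quadFormMinus k (ZMod 2) 1 1 (g0 k v) := by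
  unfold Qw
  rw [pf_eq]
  unfold Cfsg.quadFormPlus Cfsg.quadFormMinus w0 g0
  rw [Fin.sum_univ_castSucc, Fin.sum_univ_castSucc]
  simp
  generalize v (Sum.inl (Fin.last k)) = a
  generalize v (Sum.inr (Fin.last k)) = b
  generalize ∑ x : Fin k, v (Sum.inl x.castSucc) * v (Sum.inr x.castSucc) = c
  revert a b c; decide

theorem minus_iff (k : ℕ) (w : Fin (k + 1) ⊕ Fin (k + 1) → ZMod 2) :
    (∃ g : (Fin (k + 1) ⊕ Fin (k + 1) → ZMod 2) ≃ₗ[ZMod 2] ((Fin k ⊕ Fin k) ⊕ Fin 2 → ZMod 2),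
      ∀ v, Qw (k + 1) w v = Cfsg.quadFormMinus k (ZMod 2) 1 1 (g v)) ↔
      Cfsg.quadFormPlus (k + 1) (ZMod 2) w = 1 := by
  constructor
  · rintro ⟨g, hg⟩
    have h1 : gaussSum (Qw (k + 1) w) = gaussSum (Cfsg.quadFormMinus k (ZMod 2) 1 1) := by
      rw [funext hg]; exact gaussSum_comp_equiv _ g.toEquiv
    rw [gauss_Qw, gaussSum_quadFormMinus] at h1
    rw [← zmod2_ne_zero]
    intro h0
    rw [h0, chi2_zero] at h1
    have h2 : (0 : ℤ) < 2 ^ (k + 1) := by positivity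
    omega
  · intro h
    obtain ⟨g, hg⟩ := equiv_of_eq (k + 1) (by omega) (w0 k) w (by rw [h, quadFormPlus_w0])
    exact ⟨g.trans (g0 k), fun v => by rw [hg v, Qw_w0]; rfl⟩

theorem card_zeros_ones (m : ℕ) (hm : 1 ≤ m) :
    Nat.card {w : Fin m ⊕ Fin m → ZMod 2 // Cfsg.quadFormPlus m (ZMod 2) w = 0} = 2 ^ (2 * m - 1) + 2 ^ (m - 1) ∧
    Nat.card {w : Fin m ⊕ Fin m → ZMod 2 // Cfsg.quadFormPlus m (ZMod 2) w = 1} = 2 ^ (2 * m - 1) - 2 ^ (m - 1) := by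
  classical
  set Z := Finset.univ.filter (fun w : Fin m ⊕ Fin m → ZMod 2 => Cfsg.quadFormPlus m (ZMod 2) w = 0) with hZ
  set O := Finset.univ.filter (fun w : Fin m ⊕ Fin m → ZMod 2 => ¬ Cfsg.quadFormPlus m (ZMod 2) w = 0) with hO
  have h1 : Z.card + O.card = 2 ^ (2 * m) := by
    rw [hZ, hO, Finset.card_filter_add_card_filter_not]
    simp [← two_mul]
  have h2 : (Z.card : ℤ) - O.card = 2 ^ m := by
    rw [← gaussSum_quadFormPlus m]
    unfold Cfsg.Agent.Lib.Helper14.gaussSum chi2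
    rw [Finset.sum_ite]
    simp [hZ, hO]
    ring
  have e1 : 2 ^ (2 * m) = 2 * 2 ^ (2 * m - 1) := by
    rw [← pow_succ']; congr 1; omega
  have e2 : (2 : ℤ) ^ m = 2 * 2 ^ (m - 1) := by
    rw [← pow_succ']; congr 1; omega
  have hc1 : Nat.card {w : Fin m ⊕ Fin m → ZMod 2 // Cfsg.quadFormPlus m (ZMod 2) w = 0} = Z.card := by
    rw [Nat.card_eq_fintype_card, Fintype.card_subtype]
  have hc2 : Nat.card {w : Fin m ⊕ Fin m → ZMod 2 // Cfsg.quadFormPlus m (ZMod 2) w = 1} = O.card := by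
    rw [Nat.card_eq_fintype_card, Fintype.card_subtype, hO]
    congr 1
    ext w
    simp only [Finset.mem_filter, Finset.mem_univ, true_and]
    exact (zmod2_ne_zero _).symm
  rw [hc1, hc2]
  rw [e1] at h1
  rw [e2] at h2
  have h3 : ((2 ^ (m - 1) : ℕ) : ℤ) = 2 ^ (m - 1) := by push_cast; rfl
  rw [← h3] at h2
  generalize 2 ^ (2 * m - 1) = a at *
  generalize 2 ^ (m - 1) = b at *
  omega

theorem card_transfer (m : ℕ) (R : ((Fin m ⊕ Fin m → ZMod 2) → ZMod 2) → Prop) :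
    Nat.card {q : (Fin m ⊕ Fin m → ZMod 2) → ZMod 2 // Pol m q ∧ R q} =
      Nat.card {w : Fin m ⊕ Fin m → ZMod 2 // R (Qw m w)} := by
  symm
  apply Nat.card_congr
  refine Equiv.ofBijective (fun w => ⟨Qw m w.1, pol_Qw m w.1, w.2⟩) ⟨?_, ?_⟩
  · intro w w' h
    apply Subtype.ext
    apply Qw_injective m
    exact congrArg Subtype.val h
  · rintro ⟨q, hq, hR⟩
    obtain ⟨w, rfl⟩ := exists_w m q hq
    exact ⟨⟨w, hR⟩, rfl⟩

theorem aux (k : ℕ) :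
    Nat.card {q : (Fin (k + 1) ⊕ Fin (k + 1) → ZMod 2) → ZMod 2 // Pol (k + 1) q} = 2 ^ (2 * (k + 1)) ∧
    (∀ q : (Fin (k + 1) ⊕ Fin (k + 1) → ZMod 2) → ZMod 2, Pol (k + 1) q →
      (∃ g : (Fin (k + 1) ⊕ Fin (k + 1) → ZMod 2) ≃ₗ[ZMod 2] (Fin (k + 1) ⊕ Fin (k + 1) → ZMod 2), ∀ v, q v = Cfsg.quadFormPlus (k + 1) (ZMod 2) (g v)) ∨
      (∃ g : (Fin (k + 1) ⊕ Fin (k + 1) → ZMod 2) ≃ₗ[ZMod 2] ((Fin k ⊕ Fin k) ⊕ Fin 2 → ZMod 2), ∀ v, q v = Cfsg.quadFormMinus k (ZMod 2) 1 1 (g v))) ∧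
    Nat.card {q : (Fin (k + 1) ⊕ Fin (k + 1) → ZMod 2) → ZMod 2 // Pol (k + 1) q ∧ ∃ g : (Fin (k + 1) ⊕ Fin (k + 1) → ZMod 2) ≃ₗ[ZMod 2] (Fin (k + 1) ⊕ Fin (k + 1) → ZMod 2), ∀ v, q v = Cfsg.quadFormPlus (k + 1) (ZMod 2) (g v)} = 2 ^ (2 * (k + 1) - 1) + 2 ^ k ∧
    Nat.card {q : (Fin (k + 1) ⊕ Fin (k + 1) → ZMod 2) → ZMod 2 // Pol (k + 1) q ∧ ∃ g : (Fin (k + 1) ⊕ Fin (k + 1) → ZMod 2) ≃ₗ[ZMod 2] ((Fin k ⊕ Fin k) ⊕ Fin 2 → ZMod 2), ∀ v, q v = Cfsg.quadFormMinus k (ZMod 2) 1 1 (g v)} = 2 ^ (2 * (k + 1) - 1) - 2 ^ k := by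
  refine ⟨?_, ?_, ?_, ?_⟩
  · have h := card_transfer (k + 1) (fun _ => True)
    have h1 : Nat.card {q : (Fin (k + 1) ⊕ Fin (k + 1) → ZMod 2) → ZMod 2 // Pol (k + 1) q} =
        Nat.card {q : (Fin (k + 1) ⊕ Fin (k + 1) → ZMod 2) → ZMod 2 // Pol (k + 1) q ∧ True} :=
      Nat.card_congr (Equiv.subtypeEquivRight (fun q => by simp))
    rw [h1, h]
    have h2 : Nat.card {w : Fin (k + 1) ⊕ Fin (k + 1) → ZMod 2 // True} = Nat.card (Fin (k + 1) ⊕ Fin (k + 1) → ZMod 2) :=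
      Nat.card_congr (Equiv.subtypeUnivEquiv (fun _ => trivial))
    rw [h2, Nat.card_eq_fintype_card]
    simp [← two_mul]
  · intro q hq
    obtain ⟨w, rfl⟩ := exists_w (k + 1) q hq
    by_cases hw : Cfsg.quadFormPlus (k + 1) (ZMod 2) w = 0
    · exact Or.inl ((plus_iff (k + 1) (by omega) w).mpr hw)
    · exact Or.inr ((minus_iff k w).mpr ((zmod2_ne_zero _).mp hw))
  · rw [card_transfer]
    rw [Nat.card_congr (Equiv.subtypeEquivRight (fun w => plus_iff (k + 1) (by omega) w))]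
    exact (card_zeros_ones (k + 1) (by omega)).1
  · rw [card_transfer]
    rw [Nat.card_congr (Equiv.subtypeEquivRight (fun w => minus_iff k w))]
    exact (card_zeros_ones (k + 1) (by omega)).2

/-- Fix the non-singular alternating form on the 2m-dimensional space over the field of two elements obtained by polarizing the plus-type form Σ xᵢyᵢ (m ≥ 1). The functions q on the space with q(u + v) = q(u) + q(v) + f(u, v) (the quadratic forms polarizing to f) number 2^(2m); each is equivalent under an invertible linear map either to the plus-type form or to the minus-type form Σ xᵢyᵢ + (z₁² + z₁z₂ + z₂²); and those of plus type number 2^(2m−1) + 2^(m−1), those of minus type 2^(2m−1) − 2^(m−1). -/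
theorem result (m : ℕ) (hm : 1 ≤ m) :
    Nat.card {q : (Fin m ⊕ Fin m → ZMod 2) → ZMod 2 // (∀ u v : (Fin m ⊕ Fin m → ZMod 2), q (u + v) = q u + q v + (Cfsg.quadFormPlus m (ZMod 2) (u + v) - Cfsg.quadFormPlus m (ZMod 2) u - Cfsg.quadFormPlus m (ZMod 2) v))} = 2 ^ (2 * m) ∧
    (∀ q : (Fin m ⊕ Fin m → ZMod 2) → ZMod 2, (∀ u v : (Fin m ⊕ Fin m → ZMod 2), q (u + v) = q u + q v + (Cfsg.quadFormPlus m (ZMod 2) (u + v) - Cfsg.quadFormPlus m (ZMod 2) u - Cfsg.quadFormPlus m (ZMod 2) v)) →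
      (∃ g : (Fin m ⊕ Fin m → ZMod 2) ≃ₗ[ZMod 2] (Fin m ⊕ Fin m → ZMod 2), ∀ v, q v = Cfsg.quadFormPlus m (ZMod 2) (g v)) ∨
      (∃ g : (Fin m ⊕ Fin m → ZMod 2) ≃ₗ[ZMod 2] ((Fin (m - 1) ⊕ Fin (m - 1)) ⊕ Fin 2 → ZMod 2), ∀ v, q v = Cfsg.quadFormMinus (m - 1) (ZMod 2) 1 1 (g v))) ∧
    Nat.card {q : (Fin m ⊕ Fin m → ZMod 2) → ZMod 2 // (∀ u v : (Fin m ⊕ Fin m → ZMod 2), q (u + v) = q u + q v + (Cfsg.quadFormPlus m (ZMod 2) (u + v) - Cfsg.quadFormPlus m (ZMod 2) u - Cfsg.quadFormPlus m (ZMod 2) v)) ∧ ∃ g : (Fin m ⊕ Fin m → ZMod 2) ≃ₗ[ZMod 2] (Fin m ⊕ Fin m → ZMod 2), ∀ v, q v = Cfsg.quadFormPlus m (ZMod 2) (g v)} = 2 ^ (2 * m - 1) + 2 ^ (m - 1) ∧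
    Nat.card {q : (Fin m ⊕ Fin m → ZMod 2) → ZMod 2 // (∀ u v : (Fin m ⊕ Fin m → ZMod 2), q (u + v) = q u + q v + (Cfsg.quadFormPlus m (ZMod 2) (u + v) - Cfsg.quadFormPlus m (ZMod 2) u - Cfsg.quadFormPlus m (ZMod 2) v)) ∧ ∃ g : (Fin m ⊕ Fin m → ZMod 2) ≃ₗ[ZMod 2] ((Fin (m - 1) ⊕ Fin (m - 1)) ⊕ Fin 2 → ZMod 2), ∀ v, q v = Cfsg.quadFormMinus (m - 1) (ZMod 2) 1 1 (g v)} = 2 ^ (2 * m - 1) - 2 ^ (m - 1) := by
  obtain ⟨k, rfl⟩ : ∃ k, m = k + 1 := ⟨m - 1, by omega⟩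
  exact aux k

end Cfsg.Agent.S2561
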