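import Cfsg.Statements.S2562
import Cfsg.Agent.Lib.Helper14.GaussTwoC

set_option autoImplicit false
open Cfsg

namespace Cfsg.Agent.S2562

open Cfsg.Agent.Lib.Helper14

/-- Witt indices over the field of two elements, m ≥ 1: for the plus-type form Σ xᵢyᵢ in dimension 2m some m-dimensional subspace is totally singular and no totally singular subspace has larger dimension; for the minus-type form Σ xᵢyᵢ + (z₁² + z₁z₂ + z₂²) in dimension 2m the maximal dimension of a totally singular subspace is m − 1. -/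
theorem result (m : ℕ) (hm : 1 ≤ m) :
    (∃ U : Submodule (ZMod 2) (Fin m ⊕ Fin m → ZMod 2), (∀ u ∈ U, Cfsg.quadFormPlus m (ZMod 2) u = 0) ∧ Module.finrank (ZMod 2) ↥U = m) ∧
    (∀ U : Submodule (ZMod 2) (Fin m ⊕ Fin m → ZMod 2), (∀ u ∈ U, Cfsg.quadFormPlus m (ZMod 2) u = 0) → Module.finrank (ZMod 2) ↥U ≤ m) ∧
    (∃ U : Submodule (ZMod 2) ((Fin (m - 1) ⊕ Fin (m - 1)) ⊕ Fin 2 → ZMod 2), (∀ u ∈ U, Cfsg.quadFormMinus (m - 1) (ZMod 2) 1 1 u = 0) ∧ Module.finrank (ZMod 2) ↥U = m - 1) ∧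
    (∀ U : Submodule (ZMod 2) ((Fin (m - 1) ⊕ Fin (m - 1)) ⊕ Fin 2 → ZMod 2), (∀ u ∈ U, Cfsg.quadFormMinus (m - 1) (ZMod 2) 1 1 u = 0) → Module.finrank (ZMod 2) ↥U ≤ m - 1) := by
  refine ⟨⟨LinearMap.range (iotaPlus m), ?_, finrank_range_iotaPlus m⟩, ?_,
    ⟨LinearMap.range (iotaMinus (m - 1)), ?_, finrank_range_iotaMinus (m - 1)⟩, ?_⟩
  · rintro _ ⟨x, rfl⟩; exact quadFormPlus_iotaPlus m x
  · intro U hU
    have h := (totallySingular_finrank (pf m) (pf_add_left m) (pf_add_right m) (pf_nondeg m)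
      (Cfsg.quadFormPlus m (ZMod 2)) (quadFormPlus_polar m) U hU).1
    rw [finrank_plus] at h
    omega
  · rintro _ ⟨x, rfl⟩; exact quadFormMinus_iotaMinus (m - 1) x
  · intro U hU
    obtain ⟨h1, h2⟩ := totallySingular_finrank (pfm (m - 1)) (pfm_add_left (m - 1)) (pfm_add_right (m - 1))
      (pfm_nondeg (m - 1)) (Cfsg.quadFormMinus (m - 1) (ZMod 2) 1 1) (quadFormMinus_polar (m - 1)) U hU
    rw [finrank_minus] at h1 h2
    by_contra hcon
    have heq : 2 * Module.finrank (ZMod 2) ↥U = 2 * (m - 1 + 1) := by omega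
    have h3 := h2 heq
    rw [gaussSum_quadFormMinus] at h3
    have h4 : (0 : ℤ) < 2 ^ Module.finrank (ZMod 2) ↥U := by positivity
    have h5 : (0 : ℤ) < 2 ^ (m - 1 + 1) := by positivity
    omega

end Cfsg.Agent.S2562
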