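import Cfsg.Statements.S2566
import Cfsg.Agent.Lib.Helper14.OPlus42
import Cfsg.Agent.S0250
import Cfsg.Agent.S0287
open Cfsg.Agent.Lib.Helper14.OPlus42

set_option autoImplicit false
open Cfsg

namespace Cfsg.Agent.S2566

/-- The full orthogonal group of the plus-type form x₁y₁ + x₂y₂ in dimension 4 over the field of two elements has order 72 and is isomorphic to the wreath product of the symmetric group of degree 3 by a group of order 2: it has a normal subgroup isomorphic to the direct product of two symmetric groups of degree 3, of index 2, whose two direct factors are interchanged by conjugation by some element. -/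
theorem result :
    Nat.card ↥(Cfsg.isometryGroup (ZMod 2) (Cfsg.quadFormPlus 2 (ZMod 2))) = 72 ∧
    ∃ (A B : Subgroup ↥(Cfsg.isometryGroup (ZMod 2) (Cfsg.quadFormPlus 2 (ZMod 2)))),
      Nonempty (↥A ≃* Equiv.Perm (Fin 3)) ∧ Nonempty (↥B ≃* Equiv.Perm (Fin 3)) ∧ A ⊓ B = ⊥ ∧ (∀ a ∈ A, ∀ b ∈ B, a * b = b * a) ∧
      (A ⊔ B).index = 2 ∧ ∃ g : ↥(Cfsg.isometryGroup (ZMod 2) (Cfsg.quadFormPlus 2 (ZMod 2))), A.map (MulAut.conj g).toMonoidHom = B := by
  classical
  have hK : Fintype.card (ZMod 2) = 2 := ZMod.card 2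
  have hcard : Nat.card ↥(Cfsg.isometryGroup (ZMod 2) (Cfsg.quadFormPlus 2 (ZMod 2))) = 72 := by
    rw [Cfsg.Agent.S0287.result hK 2 (by norm_num)]
    norm_num [Finset.prod_range_succ]
  obtain ⟨e⟩ := Cfsg.Agent.S0250.result hK
  have hSL : Nat.card (Matrix.SpecialLinearGroup (Fin 2) (ZMod 2)) = 6 := by
    rw [Nat.card_congr e.toEquiv, Nat.card_eq_fintype_card, Fintype.card_perm, Fintype.card_fin]
    rfl
  refine ⟨hcard, psi1.range, psi2.range, ⟨(MonoidHom.ofInjective psi1_injective).symm.trans e⟩,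
    ⟨(MonoidHom.ofInjective psi2_injective).symm.trans e⟩, ?_, ?_, ?_, tau, ?_⟩
  · rw [Subgroup.eq_bot_iff_forall]
    rintro x ⟨⟨g, rfl⟩, ⟨h, hh⟩⟩
    rw [psi_eq hh.symm, map_one]
  · rintro _ ⟨g, rfl⟩ _ ⟨h, rfl⟩
    exact psi_comm g h
  · have hinj : Function.Injective (MonoidHom.noncommCoprod psi1 psi2 psi_comm) := by
      rw [injective_iff_map_eq_one]
      rintro ⟨g, h⟩ hgh
      rw [MonoidHom.noncommCoprod_apply] at hgh
      have h1 : psi1 g = psi2 h⁻¹ := by
        rw [map_inv]
        exact eq_inv_of_mul_eq_one_left hgh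
      have hg := psi_eq h1
      subst hg
      rw [map_one, one_mul] at hgh
      have hh : h = 1 := psi2_injective (by rw [hgh, map_one])
      rw [hh]
      rfl
    have hr : Nat.card (psi1.range ⊔ psi2.range : Subgroup _) = 36 := by
      rw [← MonoidHom.noncommCoprod_range psi1 psi2 psi_comm,
        ← Nat.card_congr (MonoidHom.ofInjective hinj).toEquiv, Nat.card_prod, hSL]
    have := Subgroup.card_mul_index (psi1.range ⊔ psi2.range)
    rw [hr, hcard] at this
    omega
  · rw [MonoidHom.map_range]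
    rfl

end Cfsg.Agent.S2566
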