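import Cfsg.Statements.S2567
import Cfsg.Agent.Lib.Helper14.Orders

set_option autoImplicit false
open Cfsg

namespace Cfsg.Agent.S2567

/-- Lifting elements of prime order from PGL to GL: let F be a finite field with q elements, r a prime not dividing q − 1, and x an element of order r in GL_n(F) modulo its centre (the scalar matrices). Then x has exactly one preimage in GL_n(F) of order r. -/
theorem result {F : Type*} [Field F] [Fintype F] {q n r : ℕ} (hF : Fintype.card F = q) (hr : r.Prime) (hdiv : ¬ r ∣ q - 1) (x : GL (Fin n) F ⧸ Subgroup.center (GL (Fin n) F)) (hx : orderOf x = r) : ∃! g : GL (Fin n) F, (QuotientGroup.mk g : GL (Fin n) F ⧸ Subgroup.center (GL (Fin n) F)) = x ∧ orderOf g = r := by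
  classical
  have := Fact.mk hr
  obtain ⟨g₀, rfl⟩ := QuotientGroup.mk_surjective x
  have hn : 1 ≤ n := by
    by_contra hcon
    have h0 : n = 0 := by omega
    subst h0
    have : Subsingleton (GL (Fin 0) F) := ⟨fun a b => Units.ext (Subsingleton.elim _ _)⟩
    have h1 : (QuotientGroup.mk g₀ : GL (Fin 0) F ⧸ Subgroup.center (GL (Fin 0) F)) = 1 := by
      rw [Subsingleton.elim g₀ 1]; rfl
    rw [h1, orderOf_one] at hx
    exact hr.one_lt.ne hx
  have hZ : Nat.card (Subgroup.center (GL (Fin n) F)) = q - 1 := by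
    rw [Cfsg.Agent.Lib.Helper14.card_center_GL_field n hn, hF]
  have hcop : (Nat.card (Subgroup.center (GL (Fin n) F))).Coprime r := by
    rw [hZ]; exact ((Nat.Prime.coprime_iff_not_dvd hr).mpr hdiv).symm
  have h1 : g₀ ^ r ∈ Subgroup.center (GL (Fin n) F) := by
    rw [← QuotientGroup.eq_one_iff, QuotientGroup.mk_pow, ← hx, pow_orderOf_eq_one]
  obtain ⟨w, hw⟩ := (powCoprime hcop).surjective ⟨g₀ ^ r, h1⟩⁻¹
  have hw' : (w : GL (Fin n) F) ^ r = (g₀ ^ r)⁻¹ := by
    have := congrArg Subtype.val hw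
    simpa using this
  have hne : ∀ g : GL (Fin n) F, (QuotientGroup.mk g : GL (Fin n) F ⧸ Subgroup.center (GL (Fin n) F))
      = QuotientGroup.mk g₀ → g ≠ 1 := by
    rintro g hg rfl
    rw [← hg] at hx
    rw [QuotientGroup.mk_one, orderOf_one] at hx
    exact hr.one_lt.ne hx
  refine ⟨g₀ * w, ⟨?_, ?_⟩, ?_⟩
  · rw [QuotientGroup.mk_mul, (QuotientGroup.eq_one_iff _).mpr w.2, mul_one]
  · apply orderOf_eq_prime
    · have hc : Commute g₀ (w : GL (Fin n) F) := (Subgroup.mem_center_iff.mp w.2 g₀)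
      rw [hc.mul_pow, hw', mul_inv_cancel]
    · apply hne
      rw [QuotientGroup.mk_mul, (QuotientGroup.eq_one_iff _).mpr w.2, mul_one]
  · rintro g ⟨hg1, hg2⟩
    have h2 : (g₀ * w)⁻¹ * g ∈ Subgroup.center (GL (Fin n) F) := by
      rw [← QuotientGroup.eq_one_iff, QuotientGroup.mk_mul, QuotientGroup.mk_inv, QuotientGroup.mk_mul, hg1,
        (QuotientGroup.eq_one_iff _).mpr w.2, mul_one, inv_mul_cancel]
    have hc0 : Commute g₀ (w : GL (Fin n) F) := (Subgroup.mem_center_iff.mp w.2 g₀)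
    have h3 : (g₀ * w) ^ r = 1 := by rw [hc0.mul_pow, hw', mul_inv_cancel]
    have hc : Commute (g₀ * w) ((g₀ * w)⁻¹ * g) := (Subgroup.mem_center_iff.mp h2 _)
    have h4 : ((g₀ * w)⁻¹ * g) ^ r = 1 := by
      have h5 : g ^ r = 1 := by rw [← hg2, pow_orderOf_eq_one]
      have h6 : g = (g₀ * w) * ((g₀ * w)⁻¹ * g) := by group
      rw [h6, hc.mul_pow, h3, one_mul] at h5
      exact h5
    have h7 : (⟨(g₀ * w)⁻¹ * g, h2⟩ : Subgroup.center (GL (Fin n) F)) = 1 := by
      apply (powCoprime hcop).injective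
      apply Subtype.ext
      simpa using h4
    have h8 : (g₀ * w)⁻¹ * g = 1 := congrArg Subtype.val h7
    exact (inv_mul_eq_one.mp h8).symm

end Cfsg.Agent.S2567
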