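import Cfsg.Statements.S2569
import Cfsg.Agent.Lib.Helper14.FXMat

set_option autoImplicit false
open Cfsg

namespace Cfsg.Agent.S2569

open Cfsg.Agent.Lib.Helper14

/-- In GL_n over a finite field of characteristic p, the conjugacy class of a semisimple element (an element of order prime to p) under the special linear group is its whole GL-conjugacy class: for every such x and every invertible g there is h of determinant one with h x h⁻¹ = g x g⁻¹. -/
theorem result {F : Type*} [Field F] [Fintype F] {p : ℕ} [Fact p.Prime] [CharP F p] {n : ℕ} (x g : GL (Fin n) F) (hx : (orderOf x).Coprime p) : ∃ h : GL (Fin n) F, (h : Matrix (Fin n) (Fin n) F).det = 1 ∧ h * x * h⁻¹ = g * x * g⁻¹ := by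
  rcases isEmpty_or_nonempty (Fin n) with hn | hn
  · exact ⟨g, Matrix.det_isEmpty, rfl⟩
  · have hm : ((orderOf x : ℕ) : F) ≠ 0 := by
      intro h0
      rw [CharP.cast_eq_zero_iff F p] at h0
      have := Nat.Coprime.eq_one_of_dvd hx.symm h0
      exact (Fact.out : p.Prime).one_lt.ne' this
    have hA : (x : Matrix (Fin n) (Fin n) F) ^ orderOf x = 1 := by
      rw [← Units.val_pow_eq_pow_val, pow_orderOf_eq_one, Units.val_one]
    obtain ⟨Z, hZ1, hZ2⟩ := exists_commuting_det hm hA ((g : Matrix (Fin n) (Fin n) F).det)⁻¹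
    have hgdet : (g : Matrix (Fin n) (Fin n) F).det ≠ 0 := Matrix.GeneralLinearGroup.det_ne_zero g
    let z : GL (Fin n) F := Matrix.GeneralLinearGroup.mkOfDetNeZero Z (by rw [hZ2]; exact inv_ne_zero hgdet)
    have hz : (z : Matrix (Fin n) (Fin n) F) = Z := rfl
    have hzx : z * x = x * z := by
      apply Units.ext
      simp only [Units.val_mul, hz, hZ1]
    refine ⟨g * z, ?_, ?_⟩
    · rw [Units.val_mul, Matrix.det_mul, hz, hZ2, mul_inv_cancel₀ hgdet]
    · calc g * z * x * (g * z)⁻¹ = g * (z * x) * z⁻¹ * g⁻¹ := by group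
        _ = g * x * g⁻¹ := by rw [hzx]; group

end Cfsg.Agent.S2569
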