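import Cfsg.Statements.S2571
import Cfsg.Agent.Lib.Helper14.Cyclic

set_option autoImplicit false
open Cfsg

namespace Cfsg.Agent.S2571

open Cfsg.Agent.Lib.Helper14 Module Polynomial Matrix

/-- Centraliser of a regular unipotent element in GL_n(q): if u is an invertible n × n matrix over the field with q elements, n ≥ 1, with (u − 1)^n = 0 and rank(u − 1) = n − 1 (a single unipotent Jordan block), then its centraliser in GL_n(q) has order (q − 1) q^(n−1). -/
theorem result {F : Type*} [Field F] [Fintype F] {q n : ℕ} (hF : Fintype.card F = q) (hn : 1 ≤ n) (u : GL (Fin n) F) (hnil : ((u : Matrix (Fin n) (Fin n) F) - 1) ^ n = 0) (hreg : ((u : Matrix (Fin n) (Fin n) F) - 1).rank = n - 1) : Nat.card ↥(Subgroup.centralizer ({u} : Set (GL (Fin n) F))) = (q - 1) * q ^ (n - 1) := by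
  classical
  set A : Matrix (Fin n) (Fin n) F := (u : Matrix (Fin n) (Fin n) F) with hA
  set Nm : Matrix (Fin n) (Fin n) F := A - 1 with hNm
  set N : End F (Fin n → F) := Matrix.toLinAlgEquiv' Nm with hN
  have hNmul : N = Matrix.mulVecLin Nm := rfl
  have hfr : finrank F (Fin n → F) = n := by simp
  have hNpow : N ^ n = 0 := by rw [hN, ← map_pow, hnil, map_zero]
  have hNil : IsNilpotent N := ⟨n, hNpow⟩
  have hNreg : finrank F (LinearMap.ker N) ≤ 1 := by
    rw [hNmul, finrank_ker_mulVecLin, hreg]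
    simp
    omega
  have hae : ∀ (p : F[X]) (v : Fin n → F), (aeval N p) v = (aeval Nm p) *ᵥ v := by
    intro p v
    have : aeval N p = Matrix.toLinAlgEquiv' (aeval Nm p) :=
      Polynomial.aeval_algHom_apply (Matrix.toLinAlgEquiv' : Matrix (Fin n) (Fin n) F ≃ₐ[F] _).toAlgHom Nm p
    rw [this]; rfl
  have hpw : ∀ (k : ℕ) (v : Fin n → F), (N ^ k) v = (Nm ^ k) *ᵥ v := by
    intro k v
    rw [hN, ← map_pow]; rfl
  set Kr := LinearMap.ker (N ^ (n - 1)) with hKr
  have hKrfin : finrank F Kr = n - 1 := by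
    have := finrank_ker_pow_pred N (by rw [hfr]; exact hn) (by rw [hfr]; exact hNpow) hNreg
    rw [hfr] at this; exact this
  obtain ⟨v0, hv0⟩ : ∃ v0, (N ^ (n - 1)) v0 ≠ 0 := by
    by_contra h
    push Not at h
    have : Kr = ⊤ := by
      rw [eq_top_iff]; intro x _; exact h x
    rw [this, finrank_top, hfr] at hKrfin
    omega
  have hcyc : ∀ v, (N ^ (n - 1)) v ≠ 0 → ∀ w, ∃ p : F[X], (aeval Nm p) *ᵥ v = w := by
    intro v hv w
    obtain ⟨p, hp⟩ := exists_aeval_apply_eq N hNil hNreg v (by rw [hfr]; exact hv) w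
    exact ⟨p, by rw [← hae]; exact hp⟩
  have hcomm : ∀ g : GL (Fin n) F, g ∈ Subgroup.centralizer ({u} : Set (GL (Fin n) F)) →
      Commute (g : Matrix (Fin n) (Fin n) F) Nm := by
    intro g hg
    rw [Subgroup.mem_centralizer_singleton_iff] at hg
    have h1 : (g : Matrix (Fin n) (Fin n) F) * A = A * (g : Matrix (Fin n) (Fin n) F) := by
      have := congrArg (fun x : GL (Fin n) F => (x : Matrix (Fin n) (Fin n) F)) hg
      simpa using this
    change (g : Matrix (Fin n) (Fin n) F) * Nm = Nm * (g : Matrix (Fin n) (Fin n) F)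
    rw [hNm, mul_sub, sub_mul, h1, mul_one, one_mul]
  let T : ↥(Subgroup.centralizer ({u} : Set (GL (Fin n) F))) → {w : Fin n → F // w ∉ Kr} := fun g =>
    ⟨((g : GL (Fin n) F) : Matrix (Fin n) (Fin n) F) *ᵥ v0, by
      intro hmem
      rw [hKr, LinearMap.mem_ker, hpw, Matrix.mulVec_mulVec, ← ((hcomm g g.2).pow_right (n - 1)).eq,
        ← Matrix.mulVec_mulVec] at hmem
      have hinj : Function.Injective ((g : GL (Fin n) F) : Matrix (Fin n) (Fin n) F).mulVec :=
        Matrix.mulVec_injective_of_isUnit (g : GL (Fin n) F).isUnit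
      apply hv0
      rw [hpw]
      apply hinj
      rw [hmem, Matrix.mulVec_zero]⟩
  have hT : Function.Bijective T := by
    constructor
    · intro g g' h
      have h1 : ((g : GL (Fin n) F) : Matrix (Fin n) (Fin n) F) *ᵥ v0 = ((g' : GL (Fin n) F) : Matrix (Fin n) (Fin n) F) *ᵥ v0 :=
        congrArg Subtype.val h
      apply Subtype.ext
      apply Units.ext
      apply Matrix.toLin'.injective
      apply LinearMap.ext
      intro w
      obtain ⟨p, rfl⟩ := hcyc v0 hv0 w
      simp only [Matrix.toLin'_apply]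
      rw [Matrix.mulVec_mulVec, Matrix.mulVec_mulVec, (commute_aeval (hcomm g g.2) p).eq,
        (commute_aeval (hcomm g' g'.2) p).eq, ← Matrix.mulVec_mulVec, ← Matrix.mulVec_mulVec, h1]
    · rintro ⟨w, hw⟩
      have hw' : (N ^ (n - 1)) w ≠ 0 := hw
      obtain ⟨p, hp⟩ := hcyc v0 hv0 w
      set X := aeval Nm p with hX
      have hXunit : IsUnit X := by
        rw [← Matrix.mulVec_surjective_iff_isUnit]
        intro y
        obtain ⟨r, hr⟩ := hcyc w hw' y
        refine ⟨(aeval Nm r) *ᵥ v0, ?_⟩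
        rw [Matrix.mulVec_mulVec, hX, ← map_mul, mul_comm, map_mul, ← Matrix.mulVec_mulVec, hp, hr]
      obtain ⟨g, hg⟩ := hXunit
      have hgc : g ∈ Subgroup.centralizer ({u} : Set (GL (Fin n) F)) := by
        rw [Subgroup.mem_centralizer_singleton_iff]
        apply Units.ext
        simp only [Units.val_mul]
        rw [hg]
        have h1 : Commute X Nm := (commute_aeval (Commute.refl Nm) p).symm
        have h2 : A = Nm + 1 := by rw [hNm]; simp
        change X * A = A * X
        rw [h2, mul_add, add_mul, h1.eq, mul_one, one_mul]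
      refine ⟨⟨g, hgc⟩, ?_⟩
      apply Subtype.ext
      change (g : Matrix (Fin n) (Fin n) F) *ᵥ v0 = w
      rw [hg, hp]
  rw [Nat.card_congr (Equiv.ofBijective T hT), Nat.card_eq_fintype_card, Fintype.card_subtype_compl]
  have hc1 : Fintype.card (Fin n → F) = q ^ n := by simp [hF]
  have hc2 : Fintype.card {x // x ∈ Kr} = q ^ (n - 1) := by
    have := Module.card_eq_pow_finrank (K := F) (V := Kr)
    rw [hKrfin, hF] at this
    exact this
  rw [hc1, hc2]
  have : q ^ n = q * q ^ (n - 1) := by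
    rw [← pow_succ']; congr 1; omega
  rw [this, Nat.sub_mul, one_mul]

end Cfsg.Agent.S2571
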