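import Cfsg.Statements.S2574
import Cfsg.Agent.Lib.Helper14.Nilp

set_option autoImplicit false
open Cfsg

namespace Cfsg.Agent.S2574

open Cfsg.Agent.Lib.Helper14 Matrix

/-- A regular unipotent element of the symplectic group has totally isotropic small invariant subspaces: over a finite field, if u ∈ Sp_2m(F) satisfies (u − 1)^(2m) = 0 and rank(u − 1) = 2m − 1, and W is a u-invariant subspace with 2 dim W ≤ 2m, then the alternating form vanishes identically on W. -/
theorem result {F : Type*} [Field F] [Finite F] {m : ℕ} (u : Matrix.symplecticGroup (Fin m) F) (hnil : ((u : Matrix (Fin m ⊕ Fin m) (Fin m ⊕ Fin m) F) - 1) ^ (2 * m) = 0) (hreg : ((u : Matrix (Fin m ⊕ Fin m) (Fin m ⊕ Fin m) F) - 1).rank = 2 * m - 1) (W : Submodule F (Fin m ⊕ Fin m → F)) (hW : ∀ v ∈ W, (u : Matrix (Fin m ⊕ Fin m) (Fin m ⊕ Fin m) F).mulVec v ∈ W) (hdim : 2 * Module.finrank F W ≤ 2 * m) : ∀ v ∈ W, ∀ w ∈ W, Cfsg.sympForm m F v w = 0 := by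
  set A : Matrix (Fin m ⊕ Fin m) (Fin m ⊕ Fin m) F := (u : Matrix (Fin m ⊕ Fin m) (Fin m ⊕ Fin m) F) with hA
  set B : LinearMap.BilinForm F (Fin m ⊕ Fin m → F) := Matrix.toBilin' (Matrix.J (Fin m) F) with hB
  set N : Module.End F (Fin m ⊕ Fin m → F) := Matrix.mulVecLin (A - 1) with hN
  have hBf : ∀ x y, B x y = Cfsg.sympForm m F x y := fun x y => Matrix.toBilin'_apply' _ _ _
  have hAJ : Aᵀ * Matrix.J (Fin m) F * A = Matrix.J (Fin m) F := SymplecticGroup.mem_iff'.mp u.2
  have hpres : ∀ x y, B (A *ᵥ x) (A *ᵥ y) = B x y := by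
    intro x y
    rw [hB, Matrix.toBilin'_apply', Matrix.toBilin'_apply']
    conv_rhs => rw [← hAJ]
    rw [← Matrix.vecMul_transpose, ← Matrix.dotProduct_mulVec, Matrix.mulVec_mulVec, Matrix.mulVec_mulVec,
      Matrix.mul_assoc]
  have hNil : IsNilpotent N := by
    refine ⟨2 * m, ?_⟩
    rw [hN, ← mulVecLin_pow, hnil]
    simp
  have hNreg : Module.finrank F (LinearMap.ker N) ≤ 1 := by
    rw [hN, finrank_ker_mulVecLin, hreg]
    simp
    omega
  have hNv : ∀ v, N v = A *ᵥ v - v := by
    intro v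
    simp [hN, Matrix.sub_mulVec]
  have hWN : ∀ v ∈ W, N v ∈ W := by
    intro v hv
    rw [hNv]
    exact W.sub_mem (hW v hv) hv
  -- surjectivity of A on W
  have hAinj : Function.Injective (Matrix.mulVecLin A) := by
    have hdet : IsUnit A.det := SymplecticGroup.symplectic_det u.2
    exact Matrix.mulVec_injective_of_isUnit ((Matrix.isUnit_iff_isUnit_det A).mpr hdet)
  have hsurj : ∀ w ∈ W, ∃ w' ∈ W, A *ᵥ w' = w := by
    let A' : Module.End F W := (Matrix.mulVecLin A).restrict hW
    have hinj : Function.Injective A' := by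
      intro x y hxy
      apply Subtype.ext
      apply hAinj
      exact congrArg Subtype.val hxy
    have hs : Function.Surjective A' := LinearMap.injective_iff_surjective.mp hinj
    intro w hw
    obtain ⟨w', hw'⟩ := hs ⟨w, hw⟩
    exact ⟨w', w'.2, congrArg Subtype.val hw'⟩
  set P := B.orthogonal W with hP
  have hPN : ∀ v ∈ P, N v ∈ P := by
    intro v hv
    rw [hNv]
    refine P.sub_mem ?_ hv
    rw [hP, LinearMap.BilinForm.mem_orthogonal_iff]
    intro w hw
    obtain ⟨w', hw', rfl⟩ := hsurj w hw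
    rw [hpres]
    exact hv w' hw'
  have hW1 := eq_ker_pow_finrank_of_invariant N hNil hNreg W hWN
  have hP1 := eq_ker_pow_finrank_of_invariant N hNil hNreg P hPN
  have hfin := LinearMap.BilinForm.finrank_add_finrank_orthogonal' (B := B) W
  rw [Module.finrank_fintype_fun_eq_card] at hfin
  simp only [Fintype.card_sum, Fintype.card_fin] at hfin
  have hle : Module.finrank F W ≤ Module.finrank F P := by
    rw [hP]; omega
  have hWP : W ≤ P := by
    rw [hW1, hP1]
    exact N.iterateKer.monotone hle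
  intro v hv w hw
  rw [← hBf]
  exact hWP hw v hv

end Cfsg.Agent.S2574
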