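import Cfsg.Statements.S2575
import Mathlib

set_option autoImplicit false
open Cfsg

namespace Cfsg.Agent.S2575

theorem val_two (a m : ℕ) (hm : Odd m) : padicValNat 2 (2 ^ a * m) = a := by
  have hm0 : m ≠ 0 := by rintro rfl; simp at hm
  rw [padicValNat.mul (by positivity) hm0, padicValNat.prime_pow,
    padicValNat.eq_zero_of_not_dvd (by rw [Nat.odd_iff] at hm; omega), add_zero]

theorem prod_diag (n i : ℕ) (hi : i ≤ n) (F : Type*) [Field F] :
    ∏ j : Fin n, (if (j : ℕ) < i then (-1 : F) else 1) = (-1) ^ i := by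
  rw [Fin.prod_univ_eq_prod_range (fun j => if j < i then (-1 : F) else 1) n]
  rw [Finset.prod_ite]
  simp only [Finset.prod_const, one_pow, mul_one]
  congr 1
  have : (Finset.range n).filter (fun j => j < i) = Finset.range i := by
    ext j; simp; omega
  rw [this, Finset.card_range]

theorem neg_one_ne {F : Type*} [Field F] [Fintype F] (hq : Odd (Fintype.card F)) : (-1 : F) ≠ 1 := by
  intro h
  have h2 : ringChar F = 2 := neg_one_eq_one_iff.mp h
  have := FiniteField.even_card_of_char_two h2
  rw [Nat.odd_iff] at hq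
  omega

/-- an element whose `2^a`-th power is `-1` -/
theorem exists_root {F : Type*} [Field F] [Fintype F] (a d m' : ℕ)
    (hq : Fintype.card F - 1 = 2 ^ (a + 1 + d) * m') (hm' : 0 < m') :
    ∃ c : F, c ≠ 0 ∧ c ^ (2 ^ a) = -1 := by
  classical
  obtain ⟨g, hg⟩ := IsCyclic.exists_ofOrder_eq_natCard (α := Fˣ)
  rw [Nat.card_eq_fintype_card, Fintype.card_units, hq] at hg
  refine ⟨((g ^ (2 ^ d * m') : Fˣ) : F), Units.ne_zero _, ?_⟩
  set w : Fˣ := g ^ (2 ^ (a + d) * m') with hw
  have e1 : ((g ^ (2 ^ d * m') : Fˣ) : F) ^ (2 ^ a) = (w : F) := by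
    rw [← Units.val_pow_eq_pow_val, ← pow_mul, hw]
    congr 2
    ring
  rw [e1]
  have hw2 : w * w = 1 := by
    rw [hw, ← pow_add]
    have : 2 ^ (a + d) * m' + 2 ^ (a + d) * m' = 2 ^ (a + 1 + d) * m' := by ring
    rw [this, ← hg, pow_orderOf_eq_one]
  have hw1 : w ≠ 1 := by
    intro h
    rw [hw] at h
    have h3 := orderOf_dvd_of_pow_eq_one h
    rw [hg] at h3
    have h4 := Nat.le_of_dvd (by positivity) h3
    have h5 : 2 ^ (a + 1 + d) * m' = 2 * (2 ^ (a + d) * m') := by ring
    have h6 : 0 < 2 ^ (a + d) * m' := by positivity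
    omega
  have hw2' : (w : F) * (w : F) = 1 := by
    rw [← Units.val_mul, hw2, Units.val_one]
  rcases mul_self_eq_one_iff.mp hw2' with h | h
  · exact absurd (Units.ext h) hw1
  · exact h

/-- Which diagonal involutions of PGL_n(q) lie in PSL_n(q), q odd: for the diagonal matrix t with i entries −1 and n − i entries 1, some non-zero scalar multiple of t has determinant one if and only if i is even or the 2-part of q − 1 exceeds the 2-part of n (that is, −1 is an n-th power in the field exactly in the latter case). -/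
theorem result {F : Type*} [Field F] [Fintype F] {q : ℕ} (hF : Fintype.card F = q) (hq : Odd q) {n : ℕ} (hn : 1 ≤ n) (i : ℕ) (hi : i ≤ n) : (∃ c : F, c ≠ 0 ∧ (c • Matrix.diagonal (fun j : Fin n => if (j : ℕ) < i then (-1 : F) else 1)).det = 1) ↔ (Even i ∨ padicValNat 2 n < padicValNat 2 (q - 1)) := by
  subst hF
  have hdet : ∀ c : F, (c • Matrix.diagonal (fun j : Fin n => if (j : ℕ) < i then (-1 : F) else 1)).det
      = c ^ n * (-1) ^ i := by
    intro c
    rw [Matrix.det_smul, Matrix.det_diagonal, Fintype.card_fin, prod_diag n i hi]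
  have hq1 : Fintype.card F - 1 ≠ 0 := by
    have := Fintype.one_lt_card (α := F)
    omega
  obtain ⟨a, n', hn', hna⟩ := Nat.exists_eq_two_pow_mul_odd (n := n) (by omega)
  obtain ⟨b, m', hm', hqb⟩ := Nat.exists_eq_two_pow_mul_odd hq1
  have hva : padicValNat 2 n = a := by rw [hna, val_two a n' hn']
  have hvb : padicValNat 2 (Fintype.card F - 1) = b := by rw [hqb, val_two b m' hm']
  rw [hva, hvb]
  have hne := neg_one_ne hq
  constructor
  · rintro ⟨c, hc0, hc⟩
    rw [hdet] at hc
    by_cases hi2 : Even i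
    · exact Or.inl hi2
    · right
      rw [Nat.not_even_iff_odd] at hi2
      rw [hi2.neg_one_pow] at hc
      have hcn : c ^ n = -1 := by
        have : c ^ n * -1 * -1 = 1 * -1 := by rw [hc]
        simpa using this
      by_contra hab
      push Not at hab
      obtain ⟨e, rfl⟩ := Nat.exists_eq_add_of_le hab
      have h1 : (c ^ n) ^ m' = 1 := by
        rw [← pow_mul, hna]
        have : 2 ^ (b + e) * n' * m' = (2 ^ b * m') * (2 ^ e * n') := by ring
        rw [this, pow_mul, ← hqb, FiniteField.pow_card_sub_one_eq_one c hc0, one_pow]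
      rw [hcn, hm'.neg_one_pow] at h1
      exact hne h1
  · rintro (hi2 | hab)
    · refine ⟨1, one_ne_zero, ?_⟩
      rw [hdet, one_pow, hi2.neg_one_pow, one_mul]
    · by_cases hi2 : Even i
      · refine ⟨1, one_ne_zero, ?_⟩
        rw [hdet, one_pow, hi2.neg_one_pow, one_mul]
      · rw [Nat.not_even_iff_odd] at hi2
        obtain ⟨d, rfl⟩ : ∃ d, b = a + 1 + d := ⟨b - (a + 1), by omega⟩
        obtain ⟨c, hc0, hc⟩ := exists_root (F := F) a d m' hqb hm'.pos
        refine ⟨c, hc0, ?_⟩
        rw [hdet, hna, pow_mul, hc, hn'.neg_one_pow, hi2.neg_one_pow]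
        ring

end Cfsg.Agent.S2575
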