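import Cfsg.Statements.S2576
import Mathlib

set_option autoImplicit false
open Cfsg

namespace Cfsg.Agent.S2576

theorem val_two (a m : ℕ) (hm : Odd m) : padicValNat 2 (2 ^ a * m) = a := by
  have hm0 : m ≠ 0 := by rintro rfl; simp at hm
  rw [padicValNat.mul (by positivity) hm0, padicValNat.prime_pow,
    padicValNat.eq_zero_of_not_dvd (by rw [Nat.odd_iff] at hm; omega), add_zero]

theorem neg_one_ne {F : Type*} [Field F] [Fintype F] (hq : Odd (Fintype.card F)) : (-1 : F) ≠ 1 := by
  intro h
  have h2 : ringChar F = 2 := neg_one_eq_one_iff.mp h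
  have := FiniteField.even_card_of_char_two h2
  rw [Nat.odd_iff] at hq
  omega

theorem half_pow {F : Type*} [Field F] (μ : F) (b : ℕ) (hμ : orderOf μ = 2 ^ (b + 1)) :
    μ ^ (2 ^ b) = -1 := by
  have h2 : μ ^ (2 ^ b) * μ ^ (2 ^ b) = 1 := by
    rw [← pow_add]
    have : 2 ^ b + 2 ^ b = 2 ^ (b + 1) := by ring
    rw [this, ← hμ, pow_orderOf_eq_one]
  rcases mul_self_eq_one_iff.mp h2 with h | h
  · exfalso
    have h3 := orderOf_dvd_of_pow_eq_one h
    rw [hμ] at h3
    have h4 := Nat.le_of_dvd (by positivity) h3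
    have h5 : 2 ^ (b + 1) = 2 * 2 ^ b := by ring
    have h6 : 0 < 2 ^ b := by positivity
    omega
  · exact h

/-- Which involutions of PGL_2m(q) coming from a scalar of the quadratic extension field lie in PSL_2m(q), q odd: let μ generate the Sylow 2-subgroup of the multiplicative group of the field with q elements (μ has order the 2-part of q − 1) and let t be the block-diagonal matrix with m diagonal blocks [[0, 1], [μ, 0]] (so t² is the scalar μ and t is an involution modulo scalars). Then some non-zero scalar multiple of t has determinant one if and only if q ≡ 3 (mod 4) or the 2-part of q − 1 is less than the 2-part of 2m. -/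
theorem result {F : Type*} [Field F] [Fintype F] {q : ℕ} (hF : Fintype.card F = q) (hq : Odd q) {m : ℕ} (hm : 1 ≤ m) (μ : F) (hμ : orderOf μ = 2 ^ padicValNat 2 (q - 1)) : (∃ c : F, c ≠ 0 ∧ (c • Matrix.blockDiagonal (fun _ : Fin m => !![(0 : F), 1; μ, 0])).det = 1) ↔ (q % 4 = 3 ∨ padicValNat 2 (q - 1) < padicValNat 2 (2 * m)) := by
  subst hF
  have hdet : ∀ c : F, (c • Matrix.blockDiagonal (fun _ : Fin m => !![(0 : F), 1; μ, 0])).det
      = c ^ (2 * m) * (-μ) ^ m := by
    intro c
    rw [Matrix.det_smul, Matrix.det_blockDiagonal, Fintype.card_prod, Fintype.card_fin, Fintype.card_fin]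
    simp [Matrix.det_fin_two_of]
  have hq1 : Fintype.card F - 1 ≠ 0 := by
    have := Fintype.one_lt_card (α := F)
    omega
  obtain ⟨a, m'', hm'', hma⟩ := Nat.exists_eq_two_pow_mul_odd (n := m) (by omega)
  obtain ⟨b, m', hm', hqb⟩ := Nat.exists_eq_two_pow_mul_odd hq1
  have hva : padicValNat 2 (2 * m) = a + 1 := by
    have : 2 * m = 2 ^ (a + 1) * m'' := by rw [hma]; ring
    rw [this, val_two (a + 1) m'' hm'']
  have hvb : padicValNat 2 (Fintype.card F - 1) = b := by rw [hqb, val_two b m' hm']
  rw [hvb] at hμ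
  rw [hva, hvb]
  have hne := neg_one_ne hq
  have hb1 : 1 ≤ b := by
    by_contra h
    have hb0 : b = 0 := by omega
    rw [hb0, pow_zero, one_mul] at hqb
    rw [Nat.odd_iff] at hq hm'
    omega
  obtain ⟨b', rfl⟩ : ∃ b', b = b' + 1 := ⟨b - 1, by omega⟩
  have hhalf := half_pow μ b' hμ
  constructor
  · rintro ⟨c, hc0, hc⟩
    rw [hdet] at hc
    by_cases hb' : b' = 0
    · left
      rw [hb', zero_add, pow_one] at hqb
      rw [Nat.odd_iff] at hm'
      omega
    · right
      by_contra hab
      have hab' : a ≤ b' := by omega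
      obtain ⟨e, rfl⟩ := Nat.exists_eq_add_of_le hab'
      have h1 : (c ^ (2 * m) * (-μ) ^ m) ^ (2 ^ e * m') = 1 := by rw [hc, one_pow]
      rw [mul_pow, ← pow_mul, ← pow_mul] at h1
      have e1 : 2 * m * (2 ^ e * m') = (2 ^ (a + e + 1) * m') * m'' := by rw [hma]; ring
      have e2 : m * (2 ^ e * m') = 2 ^ (a + e) * (m' * m'') := by rw [hma]; ring
      rw [e1, e2, pow_mul c, ← hqb, FiniteField.pow_card_sub_one_eq_one c hc0, one_pow, one_mul,
        pow_mul, neg_pow, hhalf] at h1
      have heven : Even (2 ^ (a + e)) := by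
        apply Nat.even_pow.mpr
        exact ⟨even_two, hb'⟩
      rw [heven.neg_one_pow, one_mul, (hm'.mul hm'').neg_one_pow] at h1
      exact hne h1
  · rintro (h3 | hab)
    · refine ⟨1, one_ne_zero, ?_⟩
      have hb' : b' = 0 := by
        by_contra h
        obtain ⟨b'', rfl⟩ : ∃ b'', b' = b'' + 1 := ⟨b' - 1, by omega⟩
        have : 2 ^ (b'' + 1 + 1) * m' = 4 * (2 ^ b'' * m') := by ring
        omega
      rw [hb', pow_zero, pow_one] at hhalf
      rw [hdet, hhalf]
      simp
    · refine ⟨1, one_ne_zero, ?_⟩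
      have hab' : b' + 1 ≤ a := by omega
      obtain ⟨e, rfl⟩ := Nat.exists_eq_add_of_le hab'
      rw [hdet, one_pow, one_mul, neg_pow]
      have hmeven : Even m := by
        rw [hma]
        apply Even.mul_right
        apply Nat.even_pow.mpr
        exact ⟨even_two, by omega⟩
      rw [hmeven.neg_one_pow, one_mul, hma]
      have : 2 ^ (b' + 1 + e) * m'' = 2 ^ (b' + 1) * (2 ^ e * m'') := by ring
      rw [this, pow_mul, ← hμ, pow_orderOf_eq_one, one_pow]

end Cfsg.Agent.S2576
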