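import Cfsg.Statements.S2578
import Cfsg.Agent.Lib.Helper14.Shift

set_option autoImplicit false
open Cfsg

namespace Cfsg.Agent.S2578

open Cfsg.Agent.Lib.Helper14 Matrix

theorem card_eq_of_surjective {A X Y : Type*} (φ : A → X) (ψ : A → Y)
    (hφ : Function.Surjective φ) (hψ : Function.Surjective ψ)
    (h : ∀ a b, φ a = φ b ↔ ψ a = ψ b) : Nat.card X = Nat.card Y := by
  apply Nat.card_congr
  refine Equiv.ofBijective (fun x => ψ (Function.surjInv hφ x)) ⟨?_, ?_⟩
  · intro x x' hx
    have := (h _ _).2 hx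
    rwa [Function.surjInv_eq hφ, Function.surjInv_eq hφ] at this
  · intro y
    obtain ⟨a, rfl⟩ := hψ y
    refine ⟨φ a, ?_⟩
    apply (h _ _).1
    rw [Function.surjInv_eq hφ]

section

variable {F : Type*} [Field F] {n : ℕ}

theorem det_one_add_shift (hn : 0 < n) : (1 + shiftM n F).det = 1 := by
  rw [det_of_commute_shiftM hn _ (by rw [add_mul, mul_add, one_mul, mul_one])]
  simp [shiftM_apply]

/-- The standard regular unipotent element in `GL`. -/
noncomputable def U0 (hn : 0 < n) : GL (Fin n) F :=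
  Matrix.GeneralLinearGroup.mk'' (1 + shiftM n F) (by rw [det_one_add_shift hn]; exact isUnit_one)

theorem U0_val (hn : 0 < n) : ((U0 hn : GL (Fin n) F) : Matrix (Fin n) (Fin n) F) = 1 + shiftM n F := rfl

/-- conjugates of the standard regular unipotent element, in `SL`. -/
noncomputable def cS (hn : 0 < n) (g : GL (Fin n) F) : Matrix.SpecialLinearGroup (Fin n) F :=
  ⟨((g * U0 hn * g⁻¹ : GL (Fin n) F) : Matrix (Fin n) (Fin n) F), by
    rw [Units.val_mul, Units.val_mul, Matrix.det_units_conj, U0_val, det_one_add_shift hn]⟩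

theorem toGL_cS (hn : 0 < n) (g : GL (Fin n) F) :
    Matrix.SpecialLinearGroup.toGL (cS hn g) = g * U0 hn * g⁻¹ := Units.ext rfl

theorem cS_sub_one (hn : 0 < n) (g : GL (Fin n) F) :
    ((cS hn g : Matrix.SpecialLinearGroup (Fin n) F) : Matrix (Fin n) (Fin n) F) - 1
      = (g : Matrix (Fin n) (Fin n) F) * shiftM n F * ((g⁻¹ : GL (Fin n) F) : Matrix (Fin n) (Fin n) F) := by
  change ((g * U0 hn * g⁻¹ : GL (Fin n) F) : Matrix (Fin n) (Fin n) F) - 1 = _
  rw [Units.val_mul, Units.val_mul, U0_val, mul_add, add_mul, mul_one, ← Units.val_mul,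
    mul_inv_cancel, Units.val_one, add_sub_cancel_left]

theorem cS_reg (hn : 0 < n) (g : GL (Fin n) F) :
    (((cS hn g : Matrix.SpecialLinearGroup (Fin n) F) : Matrix (Fin n) (Fin n) F) - 1) ^ n = 0 ∧
    (((cS hn g : Matrix.SpecialLinearGroup (Fin n) F) : Matrix (Fin n) (Fin n) F) - 1).rank = n - 1 := by
  rw [cS_sub_one]
  constructor
  · rw [Units.conj_pow, shiftM_pow_self]; simp
  · rw [Matrix.rank_mul_eq_left_of_isUnit_det _ _ ((Matrix.isUnit_iff_isUnit_det _).1 (g⁻¹).isUnit),
      Matrix.rank_mul_eq_right_of_isUnit_det _ _ ((Matrix.isUnit_iff_isUnit_det _).1 g.isUnit),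
      shiftM_rank hn]

theorem exists_cS_eq (hn : 0 < n) (u : Matrix.SpecialLinearGroup (Fin n) F)
    (h1 : ((u : Matrix (Fin n) (Fin n) F) - 1) ^ n = 0)
    (h2 : ((u : Matrix (Fin n) (Fin n) F) - 1).rank = n - 1) : ∃ g, cS hn g = u := by
  obtain ⟨g, ⟨g, rfl⟩, hgS⟩ := exists_conj_shiftM hn _ h1 h2
  refine ⟨g, ?_⟩
  apply Subtype.ext
  have := cS_sub_one hn g
  rw [hgS, mul_assoc, ← Units.val_mul, mul_inv_cancel, Units.val_one, mul_one] at this
  exact sub_left_injective this

theorem isConj_cS_iff (hn : 0 < n) (g g' : GL (Fin n) F) :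
    IsConj (cS hn g) (cS hn g') ↔
      ∃ a : Fˣ, Matrix.GeneralLinearGroup.det g = Matrix.GeneralLinearGroup.det g' * a ^ n := by
  rw [isConj_iff]
  constructor
  · rintro ⟨h, hh⟩
    have h1 := congrArg Matrix.SpecialLinearGroup.toGL hh
    rw [map_mul, map_mul, map_inv, toGL_cS, toGL_cS] at h1
    set hG := Matrix.SpecialLinearGroup.toGL h with hhG
    set z := g'⁻¹ * hG * g with hz
    have hzU : z * U0 hn = U0 hn * z := by
      have : hG * (g * U0 hn * g⁻¹) = g' * U0 hn * g'⁻¹ * hG := by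
        rw [← h1]; group
      calc z * U0 hn = g'⁻¹ * (hG * (g * U0 hn * g⁻¹)) * g := by rw [hz]; group
        _ = U0 hn * z := by rw [this, hz]; group
    have hzS : (z : Matrix (Fin n) (Fin n) F) * shiftM n F = shiftM n F * (z : Matrix (Fin n) (Fin n) F) := by
      have := congrArg (fun x : GL (Fin n) F => (x : Matrix (Fin n) (Fin n) F)) hzU
      simp only [Units.val_mul, U0_val, mul_add, add_mul, mul_one, one_mul] at this
      exact add_left_cancel this
    have hdet := det_of_commute_shiftM hn _ hzS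
    have hne : (z : Matrix (Fin n) (Fin n) F) ⟨0, hn⟩ ⟨0, hn⟩ ≠ 0 := by
      intro h0
      rw [h0, zero_pow (by omega)] at hdet
      exact Matrix.GeneralLinearGroup.det_ne_zero z hdet
    refine ⟨Units.mk0 _ hne, ?_⟩
    have h3 : Matrix.GeneralLinearGroup.det z = (Units.mk0 _ hne) ^ n := by
      apply Units.ext
      simpa using hdet
    rw [← h3, hz, map_mul, map_mul, map_inv, hhG, Matrix.SpecialLinearGroup.coeToGL_det]
    simp
  · rintro ⟨a, ha⟩
    set zc := Matrix.GeneralLinearGroup.scalar (Fin n) a with hzc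
    set hG := g' * zc * g⁻¹ with hhG
    have hdet : Matrix.GeneralLinearGroup.det hG = 1 := by
      rw [hhG, map_mul, map_mul, map_inv, hzc, Matrix.GeneralLinearGroup.det_scalar, ha]
      simp
    let h : Matrix.SpecialLinearGroup (Fin n) F := ⟨(hG : Matrix (Fin n) (Fin n) F), by
      have := congrArg Units.val hdet
      simpa using this⟩
    have hh : Matrix.SpecialLinearGroup.toGL h = hG := Units.ext rfl
    refine ⟨h, ?_⟩
    apply Matrix.SpecialLinearGroup.toGL_injective
    rw [map_mul, map_mul, map_inv, toGL_cS, toGL_cS, hh, hhG]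
    have hc : zc * U0 hn = U0 hn * zc := Matrix.GeneralLinearGroup.scalar_commute a _
    calc g' * zc * g⁻¹ * (g * U0 hn * g⁻¹) * (g' * zc * g⁻¹)⁻¹
        = g' * (zc * U0 hn) * zc⁻¹ * g'⁻¹ := by group
      _ = g' * U0 hn * g'⁻¹ := by rw [hc]; group

end

/-- Regular unipotent classes of SL_n(q): for n ≥ 2 over the field with q elements, the matrices u of determinant one with (u − 1)^n = 0 and rank(u − 1) = n − 1 form a single GL_n(q)-class which splits into exactly gcd(n, q − 1) conjugacy classes of SL_n(q). -/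
theorem result {F : Type*} [Field F] [Fintype F] {q : ℕ} (hF : Fintype.card F = q) {n : ℕ} (hn : 2 ≤ n) : Nat.card {C : ConjClasses (Matrix.SpecialLinearGroup (Fin n) F) // ∃ u : Matrix.SpecialLinearGroup (Fin n) F, ConjClasses.mk u = C ∧ ((u : Matrix (Fin n) (Fin n) F) - 1) ^ n = 0 ∧ ((u : Matrix (Fin n) (Fin n) F) - 1).rank = n - 1} = Nat.gcd n (q - 1) := by
  have hn0 : 0 < n := by omega
  haveI : Nonempty (Fin n) := ⟨⟨0, hn0⟩⟩
  have key := card_eq_of_surjective
    (X := {C : ConjClasses (Matrix.SpecialLinearGroup (Fin n) F) // ∃ u : Matrix.SpecialLinearGroup (Fin n) F, ConjClasses.mk u = C ∧ ((u : Matrix (Fin n) (Fin n) F) - 1) ^ n = 0 ∧ ((u : Matrix (Fin n) (Fin n) F) - 1).rank = n - 1})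
    (Y := Fˣ ⧸ (powMonoidHom n : Fˣ →* Fˣ).range)
    (fun g : GL (Fin n) F => ⟨ConjClasses.mk (cS hn0 g), cS hn0 g, rfl, cS_reg hn0 g⟩)
    (fun g : GL (Fin n) F => QuotientGroup.mk (Matrix.GeneralLinearGroup.det g))
    (by
      rintro ⟨C, u, rfl, h1, h2⟩
      obtain ⟨g, rfl⟩ := exists_cS_eq hn0 u h1 h2
      exact ⟨g, rfl⟩)
    (by
      intro y
      obtain ⟨d, rfl⟩ := QuotientGroup.mk_surjective y
      obtain ⟨g, rfl⟩ := Matrix.GeneralLinearGroup.det_surjective (n := Fin n) d
      exact ⟨g, rfl⟩)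
    (by
      intro g g'
      simp only [Subtype.mk.injEq]
      rw [ConjClasses.mk_eq_mk_iff_isConj, isConj_cS_iff, QuotientGroup.eq]
      constructor
      · rintro ⟨a, ha⟩
        refine ⟨a⁻¹, ?_⟩
        rw [ha]
        simp [mul_comm]
      · rintro ⟨a, ha⟩
        refine ⟨a⁻¹, ?_⟩
        simp only [powMonoidHom_apply] at ha
        rw [inv_pow, ha]
        simp)
  rw [key]
  change (powMonoidHom n : Fˣ →* Fˣ).range.index = _
  rw [IsCyclic.index_powMonoidHom_range, Nat.gcd_comm]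
  congr 1
  have := Nat.card_eq_card_units_add_one F
  rw [Nat.card_eq_fintype_card, hF] at this
  omega

end Cfsg.Agent.S2578
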