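import Cfsg.Statements.S2585

set_option autoImplicit false
open Cfsg

namespace Cfsg.Agent.S2585

open Matrix

/-- Over a finite field of characteristic two every element of the symplectic group is orthogonal for a suitable quadratic form: for each A in Sp_2m(F) there is a quadratic form Q on F^(2m) whose polar form is the alternating form defining Sp_2m(F) (so Q is non-degenerate) and which A preserves. Equivalently, for m ≥ 1, Sp_2m(F) is the union of the conjugates of its two orthogonal subgroups O⁺_2m(F) and O⁻_2m(F). -/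
theorem result {F : Type*} [Field F] [Fintype F] [CharP F 2] {m : ℕ} (A : Matrix.symplecticGroup (Fin m) F) : ∃ Q : QuadraticForm F (Fin m ⊕ Fin m → F), (∀ u v : Fin m ⊕ Fin m → F, QuadraticMap.polar ⇑Q u v = Cfsg.sympForm m F u v) ∧ ∀ v : Fin m ⊕ Fin m → F, Q ((A : Matrix (Fin m ⊕ Fin m) (Fin m ⊕ Fin m) F).mulVec v) = Q v := by
  have : Fact (Nat.Prime 2) := ⟨Nat.prime_two⟩
  set M : Matrix (Fin m ⊕ Fin m) (Fin m ⊕ Fin m) F := (A : Matrix (Fin m ⊕ Fin m) (Fin m ⊕ Fin m) F) with hM
  set M0 : Matrix (Fin m ⊕ Fin m) (Fin m ⊕ Fin m) F := Matrix.fromBlocks 0 1 0 0 with hM0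
  set B0 : LinearMap.BilinForm F (Fin m ⊕ Fin m → F) := Matrix.toBilin' M0 with hB0
  set Q0 : QuadraticForm F (Fin m ⊕ Fin m → F) := LinearMap.BilinMap.toQuadraticMap B0 with hQ0
  have hJ : Matrix.J (Fin m) F = M0 + M0ᵀ := by
    rw [hM0, Matrix.fromBlocks_transpose, Matrix.fromBlocks_add, Matrix.J]
    simp only [transpose_zero, transpose_one, add_zero, zero_add]
    congr 1
    ext i j
    rw [Matrix.neg_apply, CharTwo.neg_eq]
  have hpolar0 : ∀ u v, QuadraticMap.polar ⇑Q0 u v = Cfsg.sympForm m F u v := by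
    intro u v
    rw [hQ0, LinearMap.BilinMap.polar_toQuadraticMap, hB0, Matrix.toBilin'_apply', Matrix.toBilin'_apply',
      Cfsg.sympForm, hJ, Matrix.add_mulVec, dotProduct_add]
    congr 1
    rw [Matrix.dotProduct_mulVec, ← Matrix.mulVec_transpose, dotProduct_comm]
  have hAJ : Mᵀ * Matrix.J (Fin m) F * M = Matrix.J (Fin m) F := SymplecticGroup.mem_iff'.mp A.2
  have hpres : ∀ x y, Cfsg.sympForm m F (M *ᵥ x) (M *ᵥ y) = Cfsg.sympForm m F x y := by
    intro x y
    unfold Cfsg.sympForm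
    conv_rhs => rw [← hAJ]
    rw [← Matrix.vecMul_transpose, ← Matrix.dotProduct_mulVec, Matrix.mulVec_mulVec, Matrix.mulVec_mulVec,
      Matrix.mul_assoc]
  let ℓ : (Fin m ⊕ Fin m → F) →ₗ[F] F :=
    { toFun := fun v => (frobeniusEquiv F 2).symm (Q0 (M *ᵥ v) - Q0 v)
      map_add' := by
        intro u v
        rw [← map_add]
        congr 1
        rw [Matrix.mulVec_add, QuadraticMap.map_add ⇑Q0, QuadraticMap.map_add ⇑Q0 u v, hpolar0, hpolar0, hpres]
        ring
      map_smul' := by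
        intro c v
        rw [Matrix.mulVec_smul, QuadraticMap.map_smul, QuadraticMap.map_smul, ← smul_sub, smul_eq_mul, map_mul,
          ← pow_two, frobeniusEquiv_symm_pow]
        rfl }
  have hℓ : ∀ v, ℓ v ^ 2 = Q0 (M *ᵥ v) - Q0 v := fun v => frobeniusEquiv_symm_pow_p F 2 _
  set N : (Fin m ⊕ Fin m → F) →ₗ[F] (Fin m ⊕ Fin m → F) := Matrix.mulVecLin (M - 1) with hN
  have hNv : ∀ v, N v = M *ᵥ v - v := by
    intro v
    simp [hN, Matrix.sub_mulVec]
  have hmem : ℓ ∈ LinearMap.range N.dualMap := by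
    rw [LinearMap.range_dualMap_eq_dualAnnihilator_ker, Submodule.mem_dualAnnihilator]
    intro w hw
    rw [LinearMap.mem_ker, hNv, sub_eq_zero] at hw
    have h1 := hℓ w
    rw [hw, sub_self] at h1
    exact pow_eq_zero_iff (two_ne_zero) |>.mp h1
  obtain ⟨ψ, hψ⟩ := hmem
  have hψv : ∀ v, ψ (M *ᵥ v) = ℓ v + ψ v := by
    intro v
    rw [← hψ, LinearMap.dualMap_apply, hNv, map_sub]
    ring
  refine ⟨Q0 + QuadraticMap.linMulLin ψ ψ, ?_, ?_⟩
  · intro u v
    rw [← hpolar0]
    simp only [QuadraticMap.polar, _root_.add_apply, QuadraticMap.linMulLin_apply, map_add]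
    have h2 : (2 : F) = 0 := CharTwo.two_eq_zero
    linear_combination (ψ u * ψ v) * h2
  · intro v
    simp only [_root_.add_apply, QuadraticMap.linMulLin_apply]
    rw [hψv]
    have h1 := hℓ v
    have h2 : (2 : F) = 0 := CharTwo.two_eq_zero
    linear_combination h1 + (ℓ v * ψ v - Q0 v + Q0 (M *ᵥ v) ) * h2

end Cfsg.Agent.S2585
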