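import Cfsg.Statements.S2594
import Mathlib
import Cfsg.Agent.Lib.Helper14.SpTransv
open Cfsg.Agent.Lib.Helper14 Matrix

set_option autoImplicit false
open Cfsg

namespace Cfsg.Agent.S2594

/-- Over a finite field with q elements, q even, an element t of Sp_2m(F) with rank(t − 1) = 1 (a symplectic transvection) has centraliser in Sp_2m(F) of order q^(2m−1) · |Sp_(2m−2)(q)| = q^(2m−1) · q^((m−1)²) · Π_(i=1)^(m−1) (q^(2i) − 1). -/
theorem result {F : Type*} [Field F] [Fintype F] [CharP F 2] {q : ℕ} (hF : Fintype.card F = q) {m : ℕ} (hm : 1 ≤ m) (t : Matrix.symplecticGroup (Fin m) F) (ht : ((t : Matrix (Fin m ⊕ Fin m) (Fin m ⊕ Fin m) F) - 1).rank = 1) : Nat.card ↥(Subgroup.centralizer ({t} : Set ↥(Matrix.symplecticGroup (Fin m) F))) = q ^ (2 * m - 1) * (q ^ ((m - 1) ^ 2) * ∏ i : Fin (m - 1), (q ^ (2 * ((i : ℕ) + 1)) - 1)) := by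
  classical
  obtain ⟨m, rfl⟩ : ∃ k, m = k + 1 := ⟨m - 1, by omega⟩
  obtain ⟨v, a, hv, ha, rfl⟩ := exists_eq_spT_of_rank_one t ht
  obtain ⟨s, hs⟩ := FiniteField.isSquare_of_char_two (F := F) (by rw [ringChar.eq F 2]) a
  have hs0 : s ≠ 0 := by
    rintro rfl
    rw [mul_zero] at hs
    exact ha hs
  have ht1 : spT v a = spT (s • v) 1 := by
    rw [spT_smul_sq, mul_one, hs, pow_two]
  have hw : s • v ≠ 0 := smul_ne_zero hs0 hv
  rw [ht1]
  have h1 : Nat.card ↥(Subgroup.centralizer ({spT (s • v) 1} :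
      Set ↥(Matrix.symplecticGroup (Fin (m + 1)) F))) =
      Nat.card {g : Matrix.symplecticGroup (Fin (m + 1)) F // g.1 *ᵥ (s • v) = s • v} := by
    refine Nat.card_congr (Equiv.subtypeEquivRight fun g => ?_)
    rw [Subgroup.mem_centralizer_singleton_iff, ← spT_eq_iff_of_char_two _ _ hw, ← spT_conj,
      mul_inv_eq_iff_eq_mul]
  rw [h1, card_sp_stabilizer_vector m _ hw, card_sp, hF]
  simp only [Nat.add_sub_cancel]
  rw [Finset.prod_range (fun i => q ^ (2 * (i + 1)) - 1)]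
  congr 2

end Cfsg.Agent.S2594
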