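import Cfsg.Statements.S2599

set_option autoImplicit false
open Cfsg

namespace Cfsg.Agent.S2599


/-- An irreducible invariant subspace of a semisimple isometry is non-degenerate or totally singular: let Q be a quadratic form on F^n (F finite of characteristic p) with non-degenerate polar form f, x an isometry of Q of order prime to p, and U a non-zero x-invariant subspace containing no x-invariant subspace other than 0 and U. Then U meets its f-orthogonal trivially, or Q vanishes on U, or p = 2, U is a line spanned by a non-singular vector and x fixes U pointwise. -/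
theorem result {F : Type*} [Field F] [Fintype F] {p : ℕ} [Fact p.Prime] [CharP F p] {n : ℕ} (Q : QuadraticForm F (Fin n → F)) (hQ : (QuadraticMap.polarBilin Q).Nondegenerate) (x : ↥(Cfsg.isometryGroup F ⇑Q)) (hx : (orderOf x).Coprime p) (U : Submodule F (Fin n → F)) (hU0 : U ≠ ⊥) (hUx : ∀ u ∈ U, ((x : Matrix.GeneralLinearGroup (Fin n) F) : Matrix (Fin n) (Fin n) F).mulVec u ∈ U) (hirr : ∀ W : Submodule F (Fin n → F), W ≤ U → (∀ w ∈ W, ((x : Matrix.GeneralLinearGroup (Fin n) F) : Matrix (Fin n) (Fin n) F).mulVec w ∈ W) → W = ⊥ ∨ W = U) : U ⊓ LinearMap.BilinForm.orthogonal (QuadraticMap.polarBilin Q) U = ⊥ ∨ (∀ u ∈ U, Q u = 0) ∨ (p = 2 ∧ Module.finrank F U = 1 ∧ (∃ u ∈ U, Q u ≠ 0) ∧ ∀ u ∈ U, ((x : Matrix.GeneralLinearGroup (Fin n) F) : Matrix (Fin n) (Fin n) F).mulVec u = u) := by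
  classical
  set A : Matrix (Fin n) (Fin n) F := ((x : Matrix.GeneralLinearGroup (Fin n) F) : Matrix (Fin n) (Fin n) F) with hA
  have hQx : ∀ u, Q (A.mulVec u) = Q u := fun u => x.2 u u
  have hinj : ∀ u, A.mulVec u = 0 → u = 0 := by
    intro u hu
    have h1 : (((x : Matrix.GeneralLinearGroup (Fin n) F)⁻¹ : Matrix.GeneralLinearGroup (Fin n) F) : Matrix (Fin n) (Fin n) F).mulVec (A.mulVec u) = u := by
      rw [Matrix.mulVec_mulVec, hA, ← Units.val_mul, inv_mul_cancel, Units.val_one, Matrix.one_mulVec]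
    rw [hu, Matrix.mulVec_zero] at h1
    exact h1.symm
  have hpol : ∀ u v, QuadraticMap.polarBilin Q (A.mulVec u) (A.mulVec v) = QuadraticMap.polarBilin Q u v := by
    intro u v
    simp only [QuadraticMap.polarBilin_apply_apply, QuadraticMap.polar]
    rw [← Matrix.mulVec_add, hQx, hQx, hQx]
  -- A maps U onto U
  have hmap : U.map (Matrix.mulVecLin A) = U := by
    have hle : U.map (Matrix.mulVecLin A) ≤ U := by
      rintro _ ⟨u, hu, rfl⟩
      exact hUx u hu
    rcases hirr _ hle (by
      rintro _ ⟨u, hu, rfl⟩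
      exact ⟨A.mulVec u, hUx u hu, rfl⟩) with h | h
    · exfalso
      obtain ⟨u, hu, hu0⟩ := Submodule.exists_mem_ne_zero_of_ne_bot hU0
      have : Matrix.mulVecLin A u ∈ U.map (Matrix.mulVecLin A) := ⟨u, hu, rfl⟩
      rw [h, Submodule.mem_bot, Matrix.mulVecLin_apply] at this
      exact hu0 (hinj u this)
    · exact h
  have hRinv : ∀ w ∈ U ⊓ LinearMap.BilinForm.orthogonal (QuadraticMap.polarBilin Q) U,
      A.mulVec w ∈ U ⊓ LinearMap.BilinForm.orthogonal (QuadraticMap.polarBilin Q) U := by
    intro w hw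
    refine Submodule.mem_inf.2 ⟨hUx w hw.1, ?_⟩
    rw [LinearMap.BilinForm.mem_orthogonal_iff]
    intro u hu
    rw [← hmap] at hu
    obtain ⟨u', hu', rfl⟩ := hu
    have h2 := (LinearMap.BilinForm.mem_orthogonal_iff.1 hw.2) u' hu'
    show QuadraticMap.polarBilin Q (Matrix.mulVecLin A u') (A.mulVec w) = 0
    rw [Matrix.mulVecLin_apply, hpol]
    exact h2
  rcases hirr _ inf_le_left hRinv with hR | hR
  · exact Or.inl hR
  right
  have hf0 : ∀ u ∈ U, ∀ v ∈ U, QuadraticMap.polarBilin Q u v = 0 := by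
    intro u hu v hv
    rw [← hR] at hv
    exact (LinearMap.BilinForm.mem_orthogonal_iff.1 hv.2) u hu
  have hadd : ∀ u ∈ U, ∀ v ∈ U, Q (u + v) = Q u + Q v := by
    intro u hu v hv
    have := hf0 u hu v hv
    simp only [QuadraticMap.polarBilin_apply_apply, QuadraticMap.polar] at this
    linear_combination this
  by_cases hp : p = 2
  · have h2 : (2 : F) = 0 := by
      have := CharP.cast_eq_zero F p
      rw [hp] at this
      exact_mod_cast this
    let W : Submodule F (Fin n → F) :=
      { carrier := {u | u ∈ U ∧ Q u = 0}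
        add_mem' := by
          rintro a b ⟨ha, ha0⟩ ⟨hb, hb0⟩
          exact ⟨U.add_mem ha hb, by rw [hadd a ha b hb, ha0, hb0, add_zero]⟩
        zero_mem' := ⟨U.zero_mem, map_zero Q⟩
        smul_mem' := by
          rintro c a ⟨ha, ha0⟩
          exact ⟨U.smul_mem c ha, by rw [QuadraticMap.map_smul, ha0, smul_zero]⟩ }
    have hWU : W ≤ U := fun u hu => hu.1
    have hWinv : ∀ w ∈ W, A.mulVec w ∈ W := fun w hw => ⟨hUx w hw.1, by rw [hQx]; exact hw.2⟩
    rcases hirr W hWU hWinv with hW | hW
    · right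
      have hW0 : ∀ u ∈ U, Q u = 0 → u = 0 := by
        intro u hu hu0
        have : u ∈ W := ⟨hu, hu0⟩
        rw [hW] at this
        exact (Submodule.mem_bot F).1 this
      have hfix : ∀ u ∈ U, A.mulVec u = u := by
        intro u hu
        have h3 : Q (A.mulVec u + -u) = 0 := by
          rw [hadd _ (hUx u hu) _ (U.neg_mem hu), hQx, QuadraticMap.map_neg]
          linear_combination (Q u) * h2
        have := hW0 _ (U.add_mem (hUx u hu) (U.neg_mem hu)) h3
        exact add_neg_eq_zero.1 this
      obtain ⟨u, hu, hu0⟩ := Submodule.exists_mem_ne_zero_of_ne_bot hU0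
      refine ⟨hp, ?_, ⟨u, hu, fun h => hu0 (hW0 u hu h)⟩, hfix⟩
      have hsp : Submodule.span F {u} ≤ U := by
        rw [Submodule.span_singleton_le_iff_mem]; exact hu
      rcases hirr _ hsp (fun w hw => by rw [hfix w (hsp hw)]; exact hw) with h | h
      · exact absurd (Submodule.span_singleton_eq_bot.1 h) hu0
      · rw [← h]
        exact finrank_span_singleton hu0
    · left
      intro u hu
      rw [← hW] at hu
      exact hu.2
  · left
    intro u hu
    have h2 : (2 : F) ≠ 0 := by
      intro h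
      have h' : ((2 : ℕ) : F) = 0 := by exact_mod_cast h
      rw [CharP.cast_eq_zero_iff F p 2] at h'
      exact hp ((Nat.prime_dvd_prime_iff_eq (Fact.out) Nat.prime_two).1 h')
    have h3 := hadd u hu u hu
    have h4 : Q (u + u) = (2 * 2) * Q u := by
      rw [← two_smul F u, QuadraticMap.map_smul, smul_eq_mul]
    rw [h4] at h3
    have h5 : 2 * Q u = 0 := by linear_combination h3
    exact (mul_eq_zero.1 h5).resolve_left h2

end Cfsg.Agent.S2599
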