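import Cfsg.Statements.S2610
import Cfsg.Agent.Lib.Helper15.OrthoBasis

set_option autoImplicit false
open Cfsg Cfsg.Agent.Lib.Helper15

namespace Cfsg.Agent.S2610

/-- For a quadratic form Q on F^n with non-degenerate polar form, F finite of odd order and n ≥ 2 even, the isometry −1 lies in Ω (the commutator subgroup of the orthogonal group) if and only if the discriminant of Q (the determinant of the Gram matrix of its polar form) is a square. -/
theorem result {F : Type*} [Field F] [Fintype F] (h2 : (2 : F) ≠ 0) {n : ℕ} (hn : 2 ≤ n) (he : Even n) (Q : QuadraticForm F (Fin n → F)) (hQ : (QuadraticMap.polarBilin Q).Nondegenerate) : (∃ g : ↥(Cfsg.isometryGroup F ⇑Q), g ∈ Cfsg.Omega F ⇑Q ∧ ((g : Matrix.GeneralLinearGroup (Fin n) F) : Matrix (Fin n) (Fin n) F) = -1) ↔ IsSquare (Matrix.of (fun i j : Fin n => QuadraticMap.polar ⇑Q (Pi.single i 1) (Pi.single j 1))).det := by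
  obtain ⟨vs, h1, hlen, hprod, s, hs, hdet⟩ := exists_orth_list h2 Q hQ
  have hcrit := mem_Omega_iff h2 Q (negI Q) vs h1 (by rw [coe_negI, hprod])
  rw [Fintype.card_fin] at hlen hdet
  obtain ⟨k, hk⟩ := he
  have h2k : (2 : F) ^ k ≠ 0 := pow_ne_zero _ h2
  have hiff : IsSquare (vs.map (fun v => Q v)).prod ↔
      IsSquare (Matrix.of (fun i j : Fin n => QuadraticMap.polar ⇑Q (Pi.single i 1) (Pi.single j 1))).det := by
    conv_rhs => rw [← isSquare_mul_sq_iff hs, ← hdet]
    have h3 : (2 : F) ^ n = 2 ^ k * 2 ^ k := by rw [hk, pow_add]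
    rw [h3, mul_comm, isSquare_mul_sq_iff h2k]
  rw [← hiff]
  constructor
  · rintro ⟨g, hg, hgc⟩
    have : g = negI Q := isometry_ext (by rw [hgc, coe_negI])
    rw [this] at hg
    exact (hcrit.1 hg).2
  · intro h
    exact ⟨negI Q, hcrit.2 ⟨by rw [hlen]; exact ⟨k, hk⟩, h⟩, coe_negI Q⟩

end Cfsg.Agent.S2610
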