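import Cfsg.Statements.S2611
import Cfsg.Agent.Lib.Helper15.Levi
import Cfsg.Agent.Lib.Helper15.Transitive

set_option autoImplicit false
open Cfsg Cfsg.Agent.Lib.Helper15

namespace Cfsg.Agent.S2611

open scoped Matrix

/-- a transvection as an element of `GL` -/
def tGL {F : Type*} [Field F] {m : ℕ} (t : Matrix.TransvectionStruct (Fin m) F) : GL (Fin m) F :=
  ⟨t.toMatrix, t.inv.toMatrix, t.mul_inv, t.inv_mul⟩

theorem levi_diag_mem_iff {F : Type*} [Field F] [Fintype F] (h2 : (2 : F) ≠ 0) {m : ℕ} (Δ : GL (Fin m) F)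
    (D : Fin m → F) (hD : ∀ i, D i ≠ 0) (hΔ : (Δ : Matrix (Fin m) (Fin m) F) = Matrix.diagonal D) :
    levi m F Δ ∈ Omega F (qPlus m F) ↔ IsSquare (∏ i, D i) := by
  set vs := (List.finRange m).map (hvec m F (fun _ => 1)) ++ (List.finRange m).map (hvec m F D) with hvs
  have hvs0 : ∀ v ∈ vs, qPlus m F v ≠ 0 := by
    intro v hv
    rcases List.mem_append.1 hv with h | h
    · obtain ⟨i, -, rfl⟩ := List.mem_map.1 h
      rw [Q_hvec]; simp
    · obtain ⟨i, -, rfl⟩ := List.mem_map.1 h
      rw [Q_hvec]; simpa using hD i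
  have hinv : (Matrix.diagonal D)⁻¹ = Matrix.diagonal (fun i => (D i)⁻¹) := by
    apply Matrix.inv_eq_right_inv
    rw [Matrix.diagonal_mul_diagonal]
    have : (fun i => D i * (D i)⁻¹) = fun _ => (1 : F) := by
      ext i; exact mul_inv_cancel₀ (hD i)
    rw [this, Matrix.diagonal_one]
  have hg : (((levi m F Δ : isometryGroup F (qPlus m F)) : Matrix.GeneralLinearGroup (Fin m ⊕ Fin m) F) :
      Matrix (Fin m ⊕ Fin m) (Fin m ⊕ Fin m) F) = (vs.map (fun v => reflectionMatrix (qPlus m F) v)).prod := by
    apply matrix_ext_mulVec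
    intro x
    rw [hvs, List.map_append, List.prod_append, List.map_map, List.map_map, ← Matrix.mulVec_mulVec]
    simp only [Function.comp_def]
    rw [prod_hvec D hD, prod_hvec (fun _ => 1) (fun _ => one_ne_zero), coe_levi, hΔ, hinv,
      Matrix.diagonal_transpose]
    conv_lhs => rw [← Sum.elim_comp_inl_inr x, Matrix.fromBlocks_mulVec]
    ext k
    rcases k with k | k
    · simp [Matrix.mulVec_diagonal]
    · simp [Matrix.mulVec_diagonal]
  rw [mem_Omega_iff h2 (qPlus m F) _ vs hvs0 hg]
  have hlen : Even vs.length := by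
    simp only [hvs, List.length_append, List.length_map, List.length_finRange]
    exact Even.add_self m
  have hprod : (vs.map (fun v => qPlus m F v)).prod = ∏ i, D i := by
    rw [hvs, List.map_append, List.prod_append, List.map_map, List.map_map]
    simp only [Function.comp_def, Q_hvec]
    rw [← Fin.prod_univ_def, ← Fin.prod_univ_def, ← Finset.prod_mul_distrib]
    apply Finset.prod_congr rfl
    intro i _
    ring
  rw [hprod]
  exact and_iff_right hlen


/-- For the hyperbolic quadratic form Σ x_i y_i on F^(2m) (F finite, m ≥ 1, excluding m = 2 over the field of two elements) and an invertible m × m matrix A, the block-diagonal isometry diag(A, (A⁻¹)ᵀ), which stabilises the two maximal totally singular subspaces x = 0 and y = 0, lies in Ω⁺_2m(F) (the commutator subgroup of the orthogonal group) if and only if det A is a square in F. -/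
theorem result {F : Type*} [Field F] [Fintype F] {m : ℕ} (hm : 1 ≤ m) (h : Fintype.card F ≠ 2 ∨ m ≠ 2) (A : GL (Fin m) F) : (∃ g : ↥(Cfsg.isometryGroup F (Cfsg.quadFormPlus m F)), g ∈ Cfsg.Omega F (Cfsg.quadFormPlus m F) ∧ ((g : Matrix.GeneralLinearGroup (Fin m ⊕ Fin m) F) : Matrix (Fin m ⊕ Fin m) (Fin m ⊕ Fin m) F) = Matrix.fromBlocks (A : Matrix (Fin m) (Fin m) F) 0 0 ((A : Matrix (Fin m) (Fin m) F)⁻¹).transpose) ↔ IsSquare (A : Matrix (Fin m) (Fin m) F).det := by
  rw [← coe_qPlus]
  have hc : Fintype.card F ≠ 2 ∨ Fintype.card (Fin m ⊕ Fin m) ≠ 4 := by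
    rcases h with h | h
    · exact Or.inl h
    · right
      simp only [Fintype.card_sum, Fintype.card_fin]
      omega
  have hnd := qPlus_nondegenerate m F
  have hred : (∃ g : ↥(isometryGroup F ⇑(qPlus m F)), g ∈ Omega F ⇑(qPlus m F) ∧
      ((g : Matrix.GeneralLinearGroup (Fin m ⊕ Fin m) F) : Matrix (Fin m ⊕ Fin m) (Fin m ⊕ Fin m) F) =
        Matrix.fromBlocks (A : Matrix (Fin m) (Fin m) F) 0 0 ((A : Matrix (Fin m) (Fin m) F)⁻¹).transpose) ↔
      levi m F A ∈ Omega F (qPlus m F) := by
    constructor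
    · rintro ⟨g, hg, hgA⟩
      have : g = levi m F A := isometry_ext (hgA.trans (coe_levi A).symm)
      rwa [← this]
    · intro h
      exact ⟨_, h, coe_levi A⟩
  rw [hred]
  by_cases h2 : (2 : F) = 0
  · have : CharP F 2 := CharTwo.of_one_ne_zero_of_two_eq_zero one_ne_zero h2
    refine iff_of_true ?_ (isSquare_of_char_two _)
    obtain ⟨vs, hvs, hg⟩ := exists_refl_list (qPlus m F) hnd hc (levi m F A)
    rw [mem_Omega_iff_char_two (qPlus m F) hnd hc _ vs hvs hg, ← even_codim_iff m _ vs hvs hg]
    have hst : Stab (LinearMap.ker (LinearMap.funLeft F F (Sum.inr : Fin m → Fin m ⊕ Fin m))) (levi m F A) := by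
      intro w hw
      rw [mem_ker_funLeft_inr] at hw ⊢
      intro i
      have h1 := congrFun (fromBlocks_diag_mulVec_inr (A : Matrix (Fin m) (Fin m) F)
        ((A : Matrix (Fin m) (Fin m) F)⁻¹).transpose w) i
      rw [coe_levi]
      simp only [Function.comp] at h1
      rw [h1]
      have : w ∘ Sum.inr = 0 := by ext j; exact hw j
      rw [this]; simp
    rw [hst.map_eq, inf_idem, finrank_ker_funLeft_inr]
    simp
  · obtain ⟨L, L', D, hA⟩ := Matrix.Pivot.exists_list_transvec_mul_diagonal_mul_list_transvec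
      (A : Matrix (Fin m) (Fin m) F)
    have hdet : (A : Matrix (Fin m) (Fin m) F).det = ∏ i, D i := by
      rw [hA, Matrix.det_mul, Matrix.det_mul, Matrix.TransvectionStruct.det_toMatrix_prod,
        Matrix.TransvectionStruct.det_toMatrix_prod, Matrix.det_diagonal]
      ring
    have hdet0 : (A : Matrix (Fin m) (Fin m) F).det ≠ 0 :=
      ((Matrix.isUnit_iff_isUnit_det _).1 A.isUnit).ne_zero
    have hD : ∀ i, D i ≠ 0 := by
      intro i h0
      apply hdet0
      rw [hdet]
      exact Finset.prod_eq_zero (Finset.mem_univ i) h0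
    set Δ : GL (Fin m) F := Matrix.GeneralLinearGroup.mkOfDetNeZero (Matrix.diagonal D) (by
      rw [Matrix.det_diagonal, ← hdet]; exact hdet0) with hΔ
    have hΔc : (Δ : Matrix (Fin m) (Fin m) F) = Matrix.diagonal D := rfl
    have hcoe : ∀ M : List (Matrix.TransvectionStruct (Fin m) F),
        (((M.map tGL).prod : GL (Fin m) F) : Matrix (Fin m) (Fin m) F) =
          (M.map Matrix.TransvectionStruct.toMatrix).prod := by
      intro M
      have := map_list_prod (Units.coeHom (Matrix (Fin m) (Fin m) F)) (M.map tGL)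
      rw [List.map_map] at this
      exact this
    have hAeq : A = (L.map tGL).prod * Δ * (L'.map tGL).prod := by
      apply Units.ext
      rw [Units.val_mul, Units.val_mul, hcoe, hcoe, hΔc]
      exact hA
    have hT : ∀ t : Matrix.TransvectionStruct (Fin m) F, Abelianization.of (levi m F (tGL t)) = 1 := by
      intro t
      have h1 : tGL t = tGL ⟨t.i, t.j, t.hij, t.c / 2⟩ * tGL ⟨t.i, t.j, t.hij, t.c / 2⟩ := by
        apply Units.ext
        simp only [tGL, Units.val_mul, Matrix.TransvectionStruct.toMatrix]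
        rw [Matrix.transvection_mul_transvection_same _ _ t.hij]
        congr 1
        field_simp
        ring
      rw [h1, map_mul, map_mul]
      exact sq_mem_Omega (qPlus m F) hnd hc _
    have hTL : ∀ M : List (Matrix.TransvectionStruct (Fin m) F),
        Abelianization.of (levi m F (M.map tGL).prod) = 1 := by
      intro M
      rw [map_list_prod, map_list_prod, List.map_map, List.map_map]
      apply List.prod_eq_one
      intro x hx
      obtain ⟨t, -, rfl⟩ := List.mem_map.1 hx
      exact hT t
    have hab : Abelianization.of (levi m F A) = Abelianization.of (levi m F Δ) := by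
      rw [hAeq, map_mul, map_mul, map_mul, map_mul, hTL, hTL, one_mul, mul_one]
    have hiff : levi m F A ∈ Omega F (qPlus m F) ↔ levi m F Δ ∈ Omega F (qPlus m F) := by
      rw [← QuotientGroup.eq_one_iff, ← QuotientGroup.eq_one_iff]
      exact ⟨fun h => hab.symm.trans h, fun h => hab.trans h⟩
    rw [hiff, levi_diag_mem_iff h2 Δ D hD hΔc, hdet]

end Cfsg.Agent.S2611
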