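import Cfsg.Statements.S2612
import Cfsg.Agent.Lib.Helper15.PlusLagr

set_option autoImplicit false
open Cfsg Cfsg.Agent.Lib.Helper15

namespace Cfsg.Agent.S2612

/-- For the hyperbolic quadratic form Σ x_i y_i on F^(2m) (F finite, m ≥ 1, excluding m = 2 over the field of two elements), Ω⁺_2m(F) (the commutator subgroup of the orthogonal group) contains an element interchanging the two complementary maximal totally singular subspaces {y = 0} and {x = 0} if and only if m is even (dimension divisible by 4). -/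
theorem result {F : Type*} [Field F] [Fintype F] {m : ℕ} (hm : 1 ≤ m) (h : Fintype.card F ≠ 2 ∨ m ≠ 2) : (∃ g : ↥(Cfsg.isometryGroup F (Cfsg.quadFormPlus m F)), g ∈ Cfsg.Omega F (Cfsg.quadFormPlus m F) ∧ (∀ v : Fin m ⊕ Fin m → F, (∀ i, v (Sum.inr i) = 0) → ∀ i, (((g : Matrix.GeneralLinearGroup (Fin m ⊕ Fin m) F) : Matrix (Fin m ⊕ Fin m) (Fin m ⊕ Fin m) F).mulVec v) (Sum.inl i) = 0) ∧ (∀ v : Fin m ⊕ Fin m → F, (∀ i, v (Sum.inl i) = 0) → ∀ i, (((g : Matrix.GeneralLinearGroup (Fin m ⊕ Fin m) F) : Matrix (Fin m ⊕ Fin m) (Fin m ⊕ Fin m) F).mulVec v) (Sum.inr i) = 0)) ↔ Even m := by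
  rw [← coe_qPlus]
  have hc : Fintype.card F ≠ 2 ∨ Fintype.card (Fin m ⊕ Fin m) ≠ 4 := by
    rcases h with h | h
    · exact Or.inl h
    · right
      simp only [Fintype.card_sum, Fintype.card_fin]
      omega
  have hnd := qPlus_nondegenerate m F
  constructor
  · rintro ⟨g, hgΩ, hg1, -⟩
    obtain ⟨vs, hvs, hg⟩ := exists_refl_list (qPlus m F) hnd hc g
    have hk : Even vs.length := by
      by_cases h2 : (2 : F) = 0
      · have : CharP F 2 := CharTwo.of_one_ne_zero_of_two_eq_zero one_ne_zero h2
        exact (mem_Omega_iff_char_two (qPlus m F) hnd hc g vs hvs hg).1 hgΩ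
      · exact ((mem_Omega_iff h2 (qPlus m F) g vs hvs hg).1 hgΩ).1
    have h1 := (even_codim_iff m g vs hvs hg).2 hk
    have h2 : LinearMap.ker (LinearMap.funLeft F F (Sum.inr : Fin m → Fin m ⊕ Fin m)) ⊓
      (LinearMap.ker (LinearMap.funLeft F F (Sum.inr : Fin m → Fin m ⊕ Fin m))).map
        (Matrix.mulVecLin ((g : Matrix.GeneralLinearGroup (Fin m ⊕ Fin m) F) :
          Matrix (Fin m ⊕ Fin m) (Fin m ⊕ Fin m) F)) = ⊥ := by
      rw [eq_bot_iff]
      rintro x ⟨hx1, v, hv, rfl⟩
      rw [SetLike.mem_coe, mem_ker_funLeft_inr] at hx1 hv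
      rw [Submodule.mem_bot]
      ext i
      rcases i with i | i
      · exact hg1 v hv i
      · exact hx1 i
    rw [h2, finrank_bot] at h1
    simpa using h1
  · intro hm2
    set v : Fin m → (Fin m ⊕ Fin m → F) := fun i => Pi.single (Sum.inl i) 1 - Pi.single (Sum.inr i) 1 with hv
    have hQv : ∀ i, qPlus m F (v i) = -1 := by
      intro i
      rw [coe_qPlus]
      simp [quadFormPlus, hv, Pi.single_apply]
    have hpol : ∀ i x, QuadraticMap.polar (qPlus m F) (v i) x = x (Sum.inr i) - x (Sum.inl i) := by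
      intro i x
      rw [coe_qPlus, polar_quadFormPlus]
      simp [hv, Pi.single_apply, Finset.sum_add_distrib, mul_neg, Finset.sum_neg_distrib]
      ring
    have horth : ∀ i j, i ≠ j → QuadraticMap.polar (qPlus m F) (v i) (v j) = 0 := by
      intro i j hij
      rw [hpol]
      simp [hv, Pi.single_apply, hij]
    set vs := (List.finRange m).map v with hvs
    have hvs0 : ∀ w ∈ vs, qPlus m F w ≠ 0 := by
      intro w hw
      obtain ⟨i, -, rfl⟩ := List.mem_map.1 hw
      rw [hQv]; simp
    have hcoe := coe_prod_reflT (qPlus m F) vs hvs0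
    have hact : ∀ x : Fin m ⊕ Fin m → F, (vs.map (fun v => reflectionMatrix (qPlus m F) v)).prod.mulVec x =
        fun k => Sum.elim (fun i => x (Sum.inr i)) (fun i => x (Sum.inl i)) k := by
      intro x
      rw [hvs, List.map_map]
      have := prod_reflection_formula (qPlus m F) v horth (List.finRange m) (List.nodup_finRange m) x
      simp only [Function.comp_def]
      rw [this, ← Fin.sum_univ_def]
      simp only [hQv, hpol]
      ext k
      rcases k with k | k
      · simp [hv, Finset.sum_apply, Pi.single_apply]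
      · simp [hv, Finset.sum_apply, Pi.single_apply]
    refine ⟨(vs.map (reflT (qPlus m F))).prod, ?_, ?_, ?_⟩
    · have hlen : vs.length = m := by simp [hvs]
      by_cases h2 : (2 : F) = 0
      · have : CharP F 2 := CharTwo.of_one_ne_zero_of_two_eq_zero one_ne_zero h2
        exact even_prod_mem_Omega (qPlus m F) hnd _ vs hvs0 hcoe (by rw [hlen]; exact hm2)
      · refine (mem_Omega_iff h2 (qPlus m F) _ vs hvs0 hcoe).2 ⟨by rw [hlen]; exact hm2, ?_⟩
        have : (vs.map (fun v => qPlus m F v)).prod = 1 := by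
          rw [List.prod_eq_pow_card _ (-1 : F) (by
            intro x hx
            obtain ⟨w, hw, rfl⟩ := List.mem_map.1 hx
            obtain ⟨i, -, rfl⟩ := List.mem_map.1 hw
            exact hQv i), List.length_map, hlen]
          exact hm2.neg_one_pow
        rw [this]
        exact IsSquare.one
    · intro x hx i
      rw [hcoe, hact]
      exact hx i
    · intro x hx i
      rw [hcoe, hact]
      exact hx i

end Cfsg.Agent.S2612
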