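import Cfsg.Statements.S2617
import Cfsg.Agent.Lib.Helper15.Count7

set_option autoImplicit false
open Cfsg Cfsg.Agent.Lib.Helper15

namespace Cfsg.Agent.S2617

/-- The two standard quadratic forms of even dimension 2m over a finite field are not isometric: there is no linear isomorphism carrying the elliptic form Σ_(i<m−1) x_i y_i + z₁² + z₁z₂ + ζ z₂² (t² + t + ζ without roots) to the hyperbolic form Σ_(i<m) x_i y_i (they have different Witt index). -/
theorem result {F : Type*} [Field F] [Finite F] {m : ℕ} (hm : 1 ≤ m) (ζ : F) (hζ : ∀ t : F, t ^ 2 + t + ζ ≠ 0) (g : (Fin m ⊕ Fin m → F) ≃ₗ[F] ((Fin (m - 1) ⊕ Fin (m - 1)) ⊕ Fin 2 → F)) : ¬ (∀ v : Fin m ⊕ Fin m → F, Cfsg.quadFormMinus (m - 1) F 1 ζ (g v) = Cfsg.quadFormPlus m F v) := by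
  intro hg
  haveI := Fintype.ofFinite F
  have hq : 2 ≤ Fintype.card F := Fintype.one_lt_card
  have hac : ∀ z₁ z₂ : F, z₁ ^ 2 + 1 * z₁ * z₂ + ζ * z₂ ^ 2 = 0 → z₁ = 0 ∧ z₂ = 0 := by
    intro z₁ z₂ h
    by_cases h2 : z₂ = 0
    · subst h2
      refine ⟨?_, rfl⟩
      have : z₁ ^ 2 = 0 := by linear_combination h
      exact pow_eq_zero_iff (two_ne_zero) |>.1 this
    · exfalso
      apply hζ (z₁ / z₂)
      field_simp
      linear_combination h
  obtain ⟨k, rfl⟩ : ∃ k, m = k + 1 := ⟨m - 1, by omega⟩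
  obtain ⟨g, hg⟩ : ∃ g' : (Fin (k + 1) ⊕ Fin (k + 1) → F) ≃ₗ[F] ((Fin k ⊕ Fin k) ⊕ Fin 2 → F),
      ∀ v, quadFormMinus k F 1 ζ (g' v) = quadFormPlus (k + 1) F v := ⟨g, hg⟩
  have h1 := (count_plus (F := F) (k + 1)).1
  have h2 := zRec_zero_succ (Fintype.card F) k (by omega)
  have h3 := (count_minus (F := F) k 1 ζ hac).1
  have h4 := zRec_two (Fintype.card F) k (by omega)
  have heq : zeros (qPlus (k + 1) F) = zeros (qMinus k F 1 ζ) := by
    unfold zeros
    refine Nat.card_congr (Equiv.subtypeEquiv g.toEquiv (fun v => ?_))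
    rw [coe_qPlus, coe_qMinus]
    show _ ↔ quadFormMinus k F 1 ζ (g v) = 0
    rw [hg]
  rw [h1, h3] at heq
  rw [heq] at h2
  have h5 : Fintype.card F ^ (k + 1) = Fintype.card F * Fintype.card F ^ k := by rw [pow_succ]; ring
  have h6 : 1 ≤ Fintype.card F ^ k := Nat.one_le_pow _ _ (by omega)
  have h7 : 2 * Fintype.card F ^ k ≤ Fintype.card F * Fintype.card F ^ k := Nat.mul_le_mul_right _ hq
  omega

end Cfsg.Agent.S2617
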