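import Cfsg.Statements.S2619
import Cfsg.Agent.Lib.Helper15.Similarity

set_option autoImplicit false
open Cfsg Cfsg.Agent.Lib.Helper15

namespace Cfsg.Agent.S2619

/-- Over a finite field of characteristic two, given an alternating bilinear form B on a finite-dimensional space, a basis (v_i) and scalars (λ_i), there is exactly one quadratic form whose polar form is B and whose value at each v_i is λ_i. -/
theorem result {F V ι : Type*} [Field F] [Finite F] [CharP F 2] [AddCommGroup V] [Module F V] [Fintype ι] (b : Module.Basis ι F V) (B : LinearMap.BilinForm F V) (hB : B.IsAlt) (c : ι → F) : ∃! Q : QuadraticForm F V, QuadraticMap.polarBilin Q = B ∧ ∀ i, Q (b i) = c i := by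
  classical
  let e := Fintype.equivFin ι
  let A : LinearMap.BilinForm F V := (LinearMap.BilinForm.toMatrix b).symm
    (Matrix.of fun i j => if e i < e j then B (b i) (b j) else if i = j then c i else 0)
  have hA : ∀ i j, A (b i) (b j) = if e i < e j then B (b i) (b j) else if i = j then c i else 0 := by
    intro i j
    have := LinearMap.BilinForm.toMatrix_apply b A i j
    rw [← this]
    simp only [A, LinearEquiv.apply_symm_apply, Matrix.of_apply]
  have h2 : ∀ x : F, x + x = 0 := fun x => CharTwo.add_self_eq_zero x
  refine ⟨LinearMap.BilinMap.toQuadraticMap A, ⟨?_, ?_⟩, ?_⟩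
  · rw [LinearMap.BilinMap.polarBilin_toQuadraticMap]
    apply b.ext
    intro i
    apply b.ext
    intro j
    simp only [LinearMap.add_apply, LinearMap.flip_apply, hA]
    rcases lt_trichotomy (e i) (e j) with h | h | h
    · have hji : ¬ e j < e i := not_lt.2 h.le
      have hne : j ≠ i := by rintro rfl; exact lt_irrefl _ h
      simp [h, hji, hne]
    · have hij : i = j := e.injective h
      subst hij
      simp [h2, hB (b i)]
    · have hji : ¬ e i < e j := not_lt.2 h.le
      have hne : i ≠ j := by rintro rfl; exact lt_irrefl _ h
      simp only [h, hji, hne, if_true, if_false, zero_add]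
      have := LinearMap.BilinForm.IsAlt.neg_eq hB (b j) (b i)
      rw [← this, CharTwo.neg_eq]
  · intro i
    simp [hA]
  · rintro Q' ⟨hQ1, hQ2⟩
    apply quadForm_ext_basis b
    · intro i
      simp [hA, hQ2]
    · intro i j
      have h1 : QuadraticMap.polar Q' (b i) (b j) = B (b i) (b j) := by
        rw [← hQ1]; rfl
      rw [h1, LinearMap.BilinMap.polar_toQuadraticMap, hA, hA]
      rcases lt_trichotomy (e i) (e j) with h | h | h
      · have hji : ¬ e j < e i := not_lt.2 h.le
        have hne : j ≠ i := by rintro rfl; exact lt_irrefl _ h
        simp [h, hji, hne]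
      · have hij : i = j := e.injective h
        subst hij
        simp [h2, hB (b i)]
      · have hji : ¬ e i < e j := not_lt.2 h.le
        have hne : i ≠ j := by rintro rfl; exact lt_irrefl _ h
        simp only [h, hji, hne, if_true, if_false, zero_add]
        have := LinearMap.BilinForm.IsAlt.neg_eq hB (b j) (b i)
        rw [← this, CharTwo.neg_eq]

end Cfsg.Agent.S2619
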