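import Cfsg.Statements.S2621
import Cfsg.Agent.Lib.Helper15.StdDisc

set_option autoImplicit false
open Cfsg Cfsg.Agent.Lib.Helper15

namespace Cfsg.Agent.S2621

/-- Discriminant of an elliptic quadratic form Σ_(i<m−1) x_i y_i + z₁² + a z₁z₂ + c z₂² (binary part anisotropic) in dimension 2m over a field with q elements, q odd, m ≥ 1: the determinant of the Gram matrix of its polar form in any basis is a square if and only if m(q − 1)/2 is odd (equivalently q^m ≡ 3 (mod 4)). -/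
theorem result {F : Type*} [Field F] [Fintype F] {q : ℕ} (hF : Fintype.card F = q) (hq : Odd q) {m : ℕ} (hm : 1 ≤ m) (a c : F) (hac : ∀ z₁ z₂ : F, z₁ ^ 2 + a * z₁ * z₂ + c * z₂ ^ 2 = 0 → z₁ = 0 ∧ z₂ = 0) {ι : Type*} [Fintype ι] [DecidableEq ι] (b : Module.Basis ι F ((Fin (m - 1) ⊕ Fin (m - 1)) ⊕ Fin 2 → F)) : IsSquare (Matrix.of (fun i j : ι => QuadraticMap.polar (Cfsg.quadFormMinus (m - 1) F a c) (b i) (b j))).det ↔ ¬ Even (m * (q - 1) / 2) := by
  obtain ⟨s, hs, h⟩ := disc_minus a c b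
  have h2 : (2 : F) ≠ 0 := by
    have hch : ringChar F ≠ 2 := by
      intro h2
      have := FiniteField.even_card_of_char_two h2
      rw [hF] at this
      exact (Nat.not_even_iff_odd.2 hq) (Nat.even_iff.2 this)
    exact Ring.two_ne_zero hch
  have hns := aniso_disc h2 a c hac
  have hne : a ^ 2 - 4 * c ≠ 0 := by
    intro h0
    exact hns (h0 ▸ IsSquare.zero)
  have e : (-1 : F) ^ (m - 1) * (4 * c - a ^ 2) = (-1) ^ m * (a ^ 2 - 4 * c) := by
    obtain ⟨k, rfl⟩ : ∃ k, m = k + 1 := ⟨m - 1, by omega⟩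
    simp only [pow_succ, Nat.add_sub_cancel]
    ring
  rw [h, isSquare_mul_sq_iff hs, e, isSquare_mul_iff (pow_ne_zero _ (by simp)) hne,
    isSquare_neg_one_pow_iff hF hq]
  simp [hns]

end Cfsg.Agent.S2621
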