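import Cfsg.Statements.S2622
import Cfsg.Agent.Lib.Helper15.NormalForm

set_option autoImplicit false
open Cfsg Cfsg.Agent.Lib.Helper15

namespace Cfsg.Agent.S2622

universe u v

theorem exists_sqrt {F : Type u} [Field F] [Finite F] [CharP F 2] (a : F) : ∃ s : F, s * s = a := by
  have : Fintype F := Fintype.ofFinite F
  obtain ⟨s, hs⟩ := FiniteField.isSquare_of_char_two (CharP.ringChar_of_prime_eq_zero Nat.prime_two
    (CharP.cast_eq_zero F 2)) a
  exact ⟨s, hs.symm⟩

theorem exists_unit_vec {F : Type u} {V : Type v} [Field F] [Finite F] [CharP F 2] [AddCommGroup V]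
    [Module F V] (B : LinearMap.BilinForm F V) (v : V) (hv : B v v ≠ 0) : ∃ c : F, B (c • v) (c • v) = 1 := by
  obtain ⟨s, hs⟩ := exists_sqrt (B v v)
  have hs0 : s ≠ 0 := by rintro rfl; apply hv; rw [← hs]; simp
  refine ⟨s⁻¹, ?_⟩
  simp only [map_smul, LinearMap.smul_apply, smul_eq_mul, ← hs]
  field_simp

/-- choose a unit vector whose orthogonal complement is not alternating -/
theorem good_vec {F : Type u} {V : Type v} [Field F] [Finite F] [CharP F 2] [AddCommGroup V]
    [Module F V] [FiniteDimensional F V] (hV : 2 ≤ Module.finrank F V) (B : LinearMap.BilinForm F V)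
    (hS : B.IsSymm) (hB : B.Nondegenerate) (hna : ∃ v : V, B v v ≠ 0) :
    ∃ v u : V, B v v = 1 ∧ B v u = 0 ∧ B u u ≠ 0 := by
  obtain ⟨v', hv'⟩ := hna
  obtain ⟨c, hc⟩ := exists_unit_vec B v' hv'
  obtain ⟨v₀, hv₀⟩ : ∃ v₀ : V, B v₀ v₀ = 1 := ⟨_, hc⟩
  by_cases hW : ∃ u, B v₀ u = 0 ∧ B u u ≠ 0
  · obtain ⟨u, h1, h2⟩ := hW
    exact ⟨v₀, u, hv₀, h1, h2⟩
  · push Not at hW
    have h2 : ∀ x : F, x + x = 0 := fun x => CharTwo.add_self_eq_zero x
    -- a vector outside the line
    obtain ⟨x, hx⟩ : ∃ x : V, x ∉ Submodule.span F {v₀} := by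
      by_contra hcon
      push Not at hcon
      have htop : Submodule.span F {v₀} = ⊤ := by
        rw [eq_top_iff]; intro x _; exact hcon x
      have := finrank_span_singleton (K := F) (v := v₀) (by rintro rfl; simp at hv₀)
      rw [htop, finrank_top] at this
      omega
    obtain ⟨e, he0, hve⟩ : ∃ e : V, e ≠ 0 ∧ B v₀ e = 0 := by
      refine ⟨x - B v₀ x • v₀, ?_, ?_⟩
      · intro h
        apply hx
        rw [sub_eq_zero] at h
        rw [h]
        exact Submodule.smul_mem _ _ (Submodule.mem_span_singleton_self _)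
      · simp [hv₀]
    obtain ⟨f', hf'⟩ : ∃ f' : V, B e f' ≠ 0 := by
      by_contra hcon
      push Not at hcon
      exact he0 (hB.1 e hcon)
    have hev : B e v₀ = 0 := by rw [hS.eq]; exact hve
    obtain ⟨f, hvf, hef⟩ : ∃ f : V, B v₀ f = 0 ∧ B e f = 1 := by
      refine ⟨(B e f')⁻¹ • (f' - B v₀ f' • v₀), ?_, ?_⟩
      · simp [hv₀]
      · simp [hev, hf']
    have hfv : B f v₀ = 0 := by rw [hS.eq]; exact hvf
    refine ⟨v₀ + e, v₀ + f, ?_, ?_, ?_⟩
    · simp [hv₀, hve, hev, hW e hve]
    · simp [hv₀, hvf, hev, hef, h2]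
    · simp [hv₀, hvf, hfv, hW f hvf]

theorem orthonormal_family {F : Type u} [Field F] [Finite F] [CharP F 2] (n : ℕ) :
    ∀ {V : Type v} [AddCommGroup V] [Module F V] [FiniteDimensional F V] (B : LinearMap.BilinForm F V),
    Module.finrank F V = n → B.IsSymm → B.Nondegenerate → (∃ v : V, B v v ≠ 0) →
    ∃ w : Fin n → V, ∀ i j, B (w i) (w j) = if i = j then 1 else 0 := by
  induction n with
  | zero =>
    intro V _ _ _ B hV hS hB hna
    exact ⟨Fin.elim0, fun i => i.elim0⟩
  | succ n ih =>
    intro V _ _ _ B hV hS hB hna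
    rcases Nat.eq_zero_or_pos n with rfl | hn
    · obtain ⟨v', hv'⟩ := hna
      obtain ⟨c, hc⟩ := exists_unit_vec B v' hv'
      refine ⟨fun _ => c • v', fun i j => ?_⟩
      have hij : i = j := by
        have h1 : ∀ k : Fin (0 + 1), k = 0 := fun k => Fin.fin_one_eq_zero k
        rw [h1 i, h1 j]
      rw [hc, if_pos hij]
    · obtain ⟨x, u, hx, hxu, hu⟩ := good_vec (by omega) B hS hB hna
      have hxx : B x x ≠ 0 := by rw [hx]; exact one_ne_zero
      have hx0 : x ≠ 0 := by rintro rfl; simp at hx
      have hnd := LinearMap.BilinForm.restrict_nondegenerate_orthogonal_spanSingleton B hB hS.isRefl hxx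
      have hfr := LinearMap.BilinForm.finrank_orthogonal hB (Submodule.span F {x})
      rw [finrank_span_singleton hx0, hV] at hfr
      have hW : ∀ z : ↥(LinearMap.BilinForm.orthogonal B (Submodule.span F {x})), B x (z : V) = 0 := by
        intro z
        have := z.2
        rw [LinearMap.BilinForm.mem_orthogonal_iff] at this
        exact this x (Submodule.mem_span_singleton_self x)
      have humem : u ∈ LinearMap.BilinForm.orthogonal B (Submodule.span F {x}) := by
        rw [LinearMap.BilinForm.mem_orthogonal_iff]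
        intro y hy
        obtain ⟨a, rfl⟩ := Submodule.mem_span_singleton.1 hy
        simp [hxu]
      obtain ⟨w, hw⟩ := ih (B.restrict (LinearMap.BilinForm.orthogonal B (Submodule.span F {x})))
        (by omega) (hS.restrict _) hnd ⟨⟨u, humem⟩, by simpa using hu⟩
      refine ⟨Fin.cons x (fun i => (w i : V)), ?_⟩
      intro i j
      refine Fin.cases ?_ (fun i => ?_) i <;> refine Fin.cases ?_ (fun j => ?_) j
      · simpa using hx
      · simp only [Fin.cons_zero, Fin.cons_succ]
        rw [hW, if_neg (Fin.succ_ne_zero j).symm]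
      · simp only [Fin.cons_zero, Fin.cons_succ]
        rw [hS.eq, hW, if_neg (Fin.succ_ne_zero i)]
      · simp only [Fin.cons_succ, Fin.succ_inj]
        exact hw i j


/-- Over a finite field of characteristic two, a non-degenerate symmetric bilinear form that is not alternating (some vector v has B(v, v) ≠ 0) admits an orthonormal basis. -/
theorem result {F V : Type*} [Field F] [Finite F] [CharP F 2] [AddCommGroup V] [Module F V] [FiniteDimensional F V] {n : ℕ} (hV : Module.finrank F V = n) (B : LinearMap.BilinForm F V) (hS : B.IsSymm) (hB : B.Nondegenerate) (hna : ∃ v : V, B v v ≠ 0) : ∃ b : Module.Basis (Fin n) F V, ∀ i j, B (b i) (b j) = if i = j then 1 else 0 := by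
  classical
  obtain ⟨w, hw⟩ := orthonormal_family n B hV hS hB hna
  have hli : LinearIndependent F w := linearIndependent_of_dual B w w hw
  refine ⟨basisOfLinearIndependentOfCardEqFinrank' w hli (by simp [hV]), ?_⟩
  intro i j
  simpa using hw i j

end Cfsg.Agent.S2622
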