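import Cfsg.Statements.S2624
import Cfsg.Agent.Lib.Helper15.Similarity

set_option autoImplicit false
open Cfsg Cfsg.Agent.Lib.Helper15

namespace Cfsg.Agent.S2624

/-- For a quadratic form Q on F^n with non-degenerate polar form, F finite and n ≥ 2 even, every non-zero scalar c is the multiplier of some similarity: there is an invertible linear map g with Q(g v) = c·Q(v) for all v. -/
theorem result {F : Type*} [Field F] [Fintype F] {n : ℕ} (hn : 2 ≤ n) (he : Even n) (Q : QuadraticForm F (Fin n → F)) (hQ : (QuadraticMap.polarBilin Q).Nondegenerate) (c : F) (hc : c ≠ 0) : ∃ g : (Fin n → F) ≃ₗ[F] (Fin n → F), ∀ v, Q (g v) = c * Q v := by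
  obtain ⟨k, hk⟩ : ∃ k, n = 2 * (k + 1) := by
    obtain ⟨r, hr⟩ := he
    exact ⟨r - 1, by omega⟩
  have hV : Module.finrank F (Fin n → F) = 2 * (k + 1) := by simp [hk]
  suffices h : ∃ g : (Fin n → F) →ₗ[F] (Fin n → F), ∀ v, Q (g v) = c * Q v by
    obtain ⟨g, hg⟩ := h
    refine ⟨LinearEquiv.ofInjectiveEndo g (injective_of_similarity Q Q g c hc hg hQ), fun v => ?_⟩
    rw [LinearEquiv.coe_ofInjectiveEndo]
    exact hg v
  rcases even_nf k Q hQ hV with ⟨e, f, h⟩ | ⟨e, f, x, y, ζ, h⟩
  · obtain ⟨b, hbe, hbf⟩ := h.exists_basis hV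
    obtain ⟨ha, hb, hc'⟩ := h
    refine ⟨b.constr F (Sum.elim (fun i => c • e i) f), constr_similarity b Q Q _ c ?_ ?_⟩
    · rintro (i | i)
      · simp [hbe, QuadraticMap.map_smul, (ha i).1]
      · simp [hbf, (ha i).2]
    · rintro (i | i) (j | j)
      · simp [hbe, (hc' i j).1]
      · simp [hbe, hbf, hb i j]
      · simp [hbe, hbf, QuadraticMap.polar_comm Q (f i) (e j), hb j i]
      · simp [hbf, (hc' i j).2]
  · obtain ⟨b, hbe, hbf, hbx, hby⟩ := h.exists_basis hV
    obtain ⟨hζ, ⟨ha, hb, hc'⟩, hxy, h1, h2, h3⟩ := h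
    obtain ⟨s, t, hst⟩ := ell_rep ζ hζ c
    have hyx : QuadraticMap.polar Q y x = 1 := by rw [QuadraticMap.polar_comm]; exact h2
    obtain ⟨gx, gy, hgx, hgy, hgxy, horth⟩ : ∃ gx gy : Fin n → F, Q gx = c ∧ Q gy = c * ζ ∧
        QuadraticMap.polar Q gx gy = c ∧ (∀ i, QuadraticMap.polar Q (e i) gx = 0 ∧
          QuadraticMap.polar Q (e i) gy = 0 ∧ QuadraticMap.polar Q (f i) gx = 0 ∧
          QuadraticMap.polar Q (f i) gy = 0) := by
      refine ⟨s • x + t • y, (-(ζ * t)) • x + (s + t) • y, ?_, ?_, ?_, ?_⟩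
      · rw [QuadraticMap.map_add Q, QuadraticMap.map_smul, QuadraticMap.map_smul,
          QuadraticMap.polar_smul_left, QuadraticMap.polar_smul_right, h1, h2, h3]
        simp only [smul_eq_mul]
        linear_combination hst
      · rw [QuadraticMap.map_add Q, QuadraticMap.map_smul, QuadraticMap.map_smul,
          QuadraticMap.polar_smul_left, QuadraticMap.polar_smul_right, h1, h2, h3]
        simp only [smul_eq_mul]
        linear_combination ζ * hst
      · simp only [QuadraticMap.polar_add_left, QuadraticMap.polar_add_right, QuadraticMap.polar_smul_left,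
          QuadraticMap.polar_smul_right, QuadraticMap.polar_self, h1, h2, h3, hyx, smul_eq_mul]
        linear_combination hst
      · intro i
        simp [(hxy i).1, (hxy i).2.1, (hxy i).2.2.1, (hxy i).2.2.2]
    have hgyx : QuadraticMap.polar Q gy gx = c := by rw [QuadraticMap.polar_comm]; exact hgxy
    refine ⟨b.constr F (Sum.elim (Sum.elim (fun i => c • e i) f) ![gx, gy]),
      constr_similarity b Q Q _ c ?_ ?_⟩
    · rintro ((i | i) | i)
      · simp [hbe, QuadraticMap.map_smul, (ha i).1]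
      · simp [hbf, (ha i).2]
      · fin_cases i
        · simp [hbx, h1, hgx]
        · simp [hby, h3, hgy]
    · rintro ((i | i) | i) ((j | j) | j)
      · simp [hbe, (hc' i j).1]
      · simp [hbe, hbf, hb i j]
      · fin_cases j <;> simp [hbe, hbx, hby, (hxy i).1, (hxy i).2.1, (horth i).1, (horth i).2.1]
      · simp [hbe, hbf, QuadraticMap.polar_comm Q (f i) (e j), hb j i]
      · simp [hbf, (hc' i j).2]
      · fin_cases j <;> simp [hbf, hbx, hby, (hxy i).2.2.1, (hxy i).2.2.2, (horth i).2.2.1, (horth i).2.2.2]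
      · fin_cases i <;> simp [hbe, hbx, hby, QuadraticMap.polar_comm Q _ (e j), (hxy j).1, (hxy j).2.1,
          (horth j).1, (horth j).2.1]
      · fin_cases i <;> simp [hbf, hbx, hby, QuadraticMap.polar_comm Q _ (f j), (hxy j).2.2.1, (hxy j).2.2.2,
          (horth j).2.2.1, (horth j).2.2.2]
      · fin_cases i <;> fin_cases j <;>
          simp [hbx, hby, QuadraticMap.polar_self, h1, h2, h3, hyx, hgx, hgy, hgxy, hgyx] <;> ring

end Cfsg.Agent.S2624
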