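import Mathlib
import Cfsg.Statements.S2625

set_option autoImplicit false
open Cfsg

namespace Cfsg.Agent.S2625

theorem result {F : Type*} [Field F] [Fintype F] {n : ℕ} (hn : Odd n) (Q : QuadraticForm F (Fin n → F)) (hQ : (QuadraticMap.polarBilin Q).Nondegenerate) (g : (Fin n → F) ≃ₗ[F] (Fin n → F)) (c : F) (hg : ∀ v, Q (g v) = c * Q v) : IsSquare c := by
  classical
  set B : LinearMap.BilinForm F (Fin n → F) := QuadraticMap.polarBilin Q with hBdef
  have hB : ∀ u v, B (g u) (g v) = c * B u v := by
    intro u v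
    simp only [hBdef, QuadraticMap.polarBilin_apply_apply, QuadraticMap.polar, ← map_add, hg]
    ring
  have h1 : LinearMap.BilinForm.comp B g.toLinearMap g.toLinearMap = c • B := by
    ext u v
    simp [hB]
  have h2 := congrArg (fun B => (LinearMap.BilinForm.toMatrix' B).det) h1
  simp only [LinearMap.BilinForm.toMatrix'_comp, map_smul, Matrix.det_mul, Matrix.det_transpose,
    Matrix.det_smul, Fintype.card_fin] at h2
  have hdet : (LinearMap.BilinForm.toMatrix' B).det ≠ 0 := by
    have := (LinearMap.BilinForm.nondegenerate_iff_det_ne_zero (Pi.basisFun F (Fin n))).1 hQ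
    rwa [LinearMap.BilinForm.toMatrix_basisFun] at this
  set d := (LinearMap.toMatrix' g.toLinearMap).det with hd
  have h3 : d * d = c ^ n := by
    apply mul_right_cancel₀ hdet
    rw [← h2]; ring
  obtain ⟨k, rfl⟩ := hn
  by_cases hc : c = 0
  · exact ⟨0, by simp [hc]⟩
  · refine ⟨d / c ^ k, ?_⟩
    field_simp
    rw [pow_two d, h3]; ring

end Cfsg.Agent.S2625
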