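import Cfsg.Statements.S2627
import Cfsg.Agent.Lib.Helper15.SumForm

set_option autoImplicit false
open Cfsg Cfsg.Agent.Lib.Helper15

namespace Cfsg.Agent.S2627

/-- For an orthogonal direct sum Q = Q₁ ⊕ Q₂ of quadratic forms with non-degenerate polar forms over a finite field, an isometry g₁ of Q₁ extended by the identity on the second summand lies in Ω(Q) (the commutator subgroup of the orthogonal group of Q) if and only if g₁ lies in Ω(Q₁). (Excluded: the field of two elements when the first summand or the whole space has dimension 4, where the commutator subgroup of O⁺₄(2) is smaller than the group usually called Ω.) -/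
theorem result {F : Type*} [Field F] [Fintype F] {k l : ℕ} (h : Fintype.card F ≠ 2 ∨ (k ≠ 4 ∧ k + l ≠ 4)) (Q₁ : QuadraticForm F (Fin k → F)) (Q₂ : QuadraticForm F (Fin l → F)) (h₁ : (QuadraticMap.polarBilin Q₁).Nondegenerate) (h₂ : (QuadraticMap.polarBilin Q₂).Nondegenerate) (g₁ : ↥(Cfsg.isometryGroup F ⇑Q₁)) : (∃ g : ↥(Cfsg.isometryGroup F (fun v : Fin k ⊕ Fin l → F => Q₁ (v ∘ Sum.inl) + Q₂ (v ∘ Sum.inr))), g ∈ Cfsg.Omega F (fun v : Fin k ⊕ Fin l → F => Q₁ (v ∘ Sum.inl) + Q₂ (v ∘ Sum.inr)) ∧ ((g : Matrix.GeneralLinearGroup (Fin k ⊕ Fin l) F) : Matrix (Fin k ⊕ Fin l) (Fin k ⊕ Fin l) F) = Matrix.fromBlocks ((g₁ : Matrix.GeneralLinearGroup (Fin k) F) : Matrix (Fin k) (Fin k) F) 0 0 1) ↔ g₁ ∈ Cfsg.Omega F ⇑Q₁ := by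
  constructor
  · rintro ⟨g, hgΩ, hg⟩
    have hk : Fintype.card F ≠ 2 ∨ Fintype.card (Fin k) ≠ 4 := by
      rcases h with h | h
      · exact Or.inl h
      · right; simpa using h.1
    have hkl : Fintype.card F ≠ 2 ∨ Fintype.card (Fin k ⊕ Fin l) ≠ 4 := by
      rcases h with h | h
      · exact Or.inl h
      · right; simpa using h.2
    obtain ⟨vs, hvs, hg₁⟩ := exists_refl_list Q₁ h₁ hk g₁
    have hnd := sumQ_nondegenerate Q₁ Q₂ h₁ h₂
    -- the list of extended vectors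
    have hvs' : ∀ v ∈ vs.map (fun v : Fin k → F => (Sum.elim v 0 : Fin k ⊕ Fin l → F)), sumQ Q₁ Q₂ v ≠ 0 := by
      intro v hv
      obtain ⟨w, hw, rfl⟩ := List.mem_map.1 hv
      rw [sumQ_apply]
      simpa using hvs w hw
    have hg' : ((g : Matrix.GeneralLinearGroup (Fin k ⊕ Fin l) F) : Matrix (Fin k ⊕ Fin l) (Fin k ⊕ Fin l) F) =
        ((vs.map (fun v : Fin k → F => (Sum.elim v 0 : Fin k ⊕ Fin l → F))).map
          (fun v => reflectionMatrix (sumQ Q₁ Q₂) v)).prod := by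
      rw [hg, hg₁, fromBlocks_prod_inl, List.map_map, List.map_map]
      congr 1
      apply List.map_congr_left
      intro v _
      simp only [Function.comp]
      rw [reflection_inl]
    have hgΩ' : (g : ↥(isometryGroup F ⇑(sumQ Q₁ Q₂))) ∈ Omega F ⇑(sumQ Q₁ Q₂) := hgΩ
    by_cases h2 : (2 : F) = 0
    · haveI : CharP F 2 := CharTwo.of_one_ne_zero_of_two_eq_zero one_ne_zero h2
      have he := (mem_Omega_iff_char_two (sumQ Q₁ Q₂) hnd hkl g _ hvs' hg').1 hgΩ'
      rw [List.length_map] at he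
      exact even_prod_mem_Omega Q₁ h₁ g₁ vs hvs hg₁ he
    · have he := (mem_Omega_iff h2 (sumQ Q₁ Q₂) g _ hvs' hg').1 hgΩ'
      rw [List.length_map, List.map_map] at he
      refine (mem_Omega_iff h2 Q₁ g₁ vs hvs hg₁).2 ⟨he.1, ?_⟩
      have : (vs.map ((fun v => sumQ Q₁ Q₂ v) ∘ fun v : Fin k → F => (Sum.elim v 0 : Fin k ⊕ Fin l → F))) =
          vs.map (fun v => Q₁ v) := by
        apply List.map_congr_left
        intro v _
        simp [sumQ_apply]
      rw [← this]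
      exact he.2
  · intro hg₁
    exact ⟨blockIsoHom ⇑Q₁ ⇑Q₂ (g₁, 1), blockIso_mem_Omega _ _ g₁ 1 hg₁ (Subgroup.one_mem _), by
      rw [coe_blockIsoHom]; rfl⟩

end Cfsg.Agent.S2627
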