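import Cfsg.Statements.S2628
import Cfsg.Agent.Lib.Helper15.SumForm

set_option autoImplicit false
open Cfsg Cfsg.Agent.Lib.Helper15

namespace Cfsg.Agent.S2628

/-- the isometry swapping the two summands -/
noncomputable def swapIso {F : Type*} [Field F] {k : ℕ} (Q : (Fin k → F) → F) :
    ↥(isometryGroup F (sumForm Q Q)) :=
  ⟨⟨Matrix.fromBlocks 0 1 1 0, Matrix.fromBlocks 0 1 1 0, by simp [Matrix.fromBlocks_multiply],
    by simp [Matrix.fromBlocks_multiply]⟩, (mem_isometryGroup _ _).2 (fun u => by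
      have h1 : (Matrix.mulVec (Matrix.fromBlocks (0 : Matrix (Fin k) (Fin k) F) (1 : Matrix (Fin k) (Fin k) F)
          (1 : Matrix (Fin k) (Fin k) F) (0 : Matrix (Fin k) (Fin k) F)) u) ∘ Sum.inl = u ∘ Sum.inr := by
        conv_lhs => rw [← Sum.elim_comp_inl_inr u, Matrix.fromBlocks_mulVec]
        simp
      have h2 : (Matrix.mulVec (Matrix.fromBlocks (0 : Matrix (Fin k) (Fin k) F) (1 : Matrix (Fin k) (Fin k) F)
          (1 : Matrix (Fin k) (Fin k) F) (0 : Matrix (Fin k) (Fin k) F)) u) ∘ Sum.inr = u ∘ Sum.inl := by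
        conv_lhs => rw [← Sum.elim_comp_inl_inr u, Matrix.fromBlocks_mulVec]
        simp
      simp only [sumForm]
      rw [h1, h2, add_comm])⟩


/-- For the orthogonal direct sum Q ⊕ Q of two copies of a quadratic form Q with non-degenerate polar form on F^k (F finite), every isometry g of Q acting diagonally, diag(g, g), lies in Ω(Q ⊕ Q), the commutator subgroup of the orthogonal group of Q ⊕ Q. (Excluded: k = 2 over the field of two elements, where Q ⊕ Q is the hyperbolic 4-space whose orthogonal group's commutator subgroup is smaller than the group usually called Ω.) -/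
theorem result {F : Type*} [Field F] [Fintype F] {k : ℕ} (h : Fintype.card F ≠ 2 ∨ k ≠ 2) (Q : QuadraticForm F (Fin k → F)) (hQ : (QuadraticMap.polarBilin Q).Nondegenerate) (g : ↥(Cfsg.isometryGroup F ⇑Q)) : ∃ x : ↥(Cfsg.isometryGroup F (fun v : Fin k ⊕ Fin k → F => Q (v ∘ Sum.inl) + Q (v ∘ Sum.inr))), x ∈ Cfsg.Omega F (fun v : Fin k ⊕ Fin k → F => Q (v ∘ Sum.inl) + Q (v ∘ Sum.inr)) ∧ ((x : Matrix.GeneralLinearGroup (Fin k ⊕ Fin k) F) : Matrix (Fin k ⊕ Fin k) (Fin k ⊕ Fin k) F) = Matrix.fromBlocks ((g : Matrix.GeneralLinearGroup (Fin k) F) : Matrix (Fin k) (Fin k) F) 0 0 ((g : Matrix.GeneralLinearGroup (Fin k) F) : Matrix (Fin k) (Fin k) F) := by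
  have hkk : Fintype.card F ≠ 2 ∨ Fintype.card (Fin k ⊕ Fin k) ≠ 4 := by
    rcases h with h | h
    · exact Or.inl h
    · right
      simp only [Fintype.card_sum, Fintype.card_fin]
      omega
  have hnd := sumQ_nondegenerate Q Q hQ hQ
  refine ⟨blockIsoHom ⇑Q ⇑Q (g, g), ?_, by rw [coe_blockIsoHom]⟩
  set a : ↥(isometryGroup F (sumForm ⇑Q ⇑Q)) := blockIsoHom ⇑Q ⇑Q (g, 1) with ha
  set s : ↥(isometryGroup F (sumForm ⇑Q ⇑Q)) := swapIso ⇑Q with hs
  have hx : blockIsoHom ⇑Q ⇑Q (g, g) * s = a * (s * a) := by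
    apply isometry_ext
    simp only [Subgroup.coe_mul, Units.val_mul, ha, hs, coe_blockIsoHom]
    simp [swapIso, Matrix.fromBlocks_multiply]
  have h1 : Abelianization.of (blockIsoHom ⇑Q ⇑Q (g, g)) = 1 := by
    have h2 := congrArg Abelianization.of hx
    rw [map_mul, map_mul, map_mul] at h2
    have h3 : Abelianization.of a * Abelianization.of a = 1 := sq_mem_Omega (sumQ Q Q) hnd hkk a
    have h4 : Abelianization.of a * (Abelianization.of s * Abelianization.of a) = Abelianization.of s := by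
      rw [mul_comm (Abelianization.of s), ← mul_assoc, h3, one_mul]
    rw [h4] at h2
    exact mul_eq_right.1 h2
  exact (QuotientGroup.eq_one_iff _).1 h1

end Cfsg.Agent.S2628
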