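import Cfsg.Statements.S2629
import Cfsg.Agent.Lib.Helper15.PlusLagr

set_option autoImplicit false
open Cfsg Cfsg.Agent.Lib.Helper15

namespace Cfsg.Agent.S2629

/-- For the hyperbolic form Σ x_i y_i on F^(2m) over a finite field of odd order (m ≥ 1), an isometry g preserves the class of the maximal totally singular subspace U₀ = {y = 0} (that is, m − dim(U₀ ∩ gU₀) is even) if and only if det g = 1: the stabiliser of each of the two classes of maximal totally singular subspaces is SO. -/
theorem result {F : Type*} [Field F] [Fintype F] (h2 : (2 : F) ≠ 0) {m : ℕ} (hm : 1 ≤ m) (g : ↥(Cfsg.isometryGroup F (Cfsg.quadFormPlus m F))) : Even (m - Module.finrank F ↥(LinearMap.ker (LinearMap.funLeft F F (Sum.inr : Fin m → Fin m ⊕ Fin m)) ⊓ (LinearMap.ker (LinearMap.funLeft F F (Sum.inr : Fin m → Fin m ⊕ Fin m))).map (Matrix.mulVecLin ((g : Matrix.GeneralLinearGroup (Fin m ⊕ Fin m) F) : Matrix (Fin m ⊕ Fin m) (Fin m ⊕ Fin m) F)))) ↔ ((g : Matrix.GeneralLinearGroup (Fin m ⊕ Fin m) F) : Matrix (Fin m ⊕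 Fin m) (Fin m ⊕ Fin m) F).det = 1 := by
  revert g
  rw [← coe_qPlus]
  intro g
  have hc : Fintype.card F ≠ 2 := by
    intro h
    apply h2
    have := FiniteField.cast_card_eq_zero F
    rw [h] at this
    exact_mod_cast this
  obtain ⟨vs, hvs, hg⟩ := exists_refl_list (qPlus m F) (qPlus_nondegenerate m F) (Or.inl hc) g
  rw [even_codim_iff m g vs hvs hg, det_eq_neg_one_pow (qPlus m F) g vs hvs hg]
  refine (neg_one_pow_eq_one_iff_even ?_).symm
  intro h
  apply h2
  linear_combination -h

end Cfsg.Agent.S2629
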