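import Cfsg.Statements.S2631
import Cfsg.Agent.Lib.Helper15.Transitive

set_option autoImplicit false
open Cfsg Cfsg.Agent.Lib.Helper15

namespace Cfsg.Agent.S2631

/-- For the hyperbolic form Σ x_i y_i on F^(2m) over a finite field (m ≥ 1, excluding m = 2 over the field of two elements), Ω (the commutator subgroup of the orthogonal group) acts transitively on each of the two classes of maximal totally singular subspaces: if U and W are m-dimensional totally singular subspaces with m − dim(U ∩ W) even, some element of Ω carries U to W. -/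
theorem result {F : Type*} [Field F] [Fintype F] {m : ℕ} (hm : 1 ≤ m) (h : Fintype.card F ≠ 2 ∨ m ≠ 2) (U W : Submodule F (Fin m ⊕ Fin m → F)) (hU : Module.finrank F U = m) (hW : Module.finrank F W = m) (hU0 : ∀ u ∈ U, Cfsg.quadFormPlus m F u = 0) (hW0 : ∀ w ∈ W, Cfsg.quadFormPlus m F w = 0) (he : Even (m - Module.finrank F ↥(U ⊓ W))) : ∃ g : ↥(Cfsg.isometryGroup F (Cfsg.quadFormPlus m F)), g ∈ Cfsg.Omega F (Cfsg.quadFormPlus m F) ∧ U.map (Matrix.mulVecLin ((g : Matrix.GeneralLinearGroup (Fin m ⊕ Fin m) F) : Matrix (Fin m ⊕ Fin m) (Fin m ⊕ Fin m) F)) = W := by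
  rw [← coe_qPlus] at hU0 hW0 ⊢
  have hc : Fintype.card F ≠ 2 ∨ Fintype.card (Fin m ⊕ Fin m) ≠ 4 := by
    rcases h with h | h
    · exact Or.inl h
    · right
      simp only [Fintype.card_sum, Fintype.card_fin]
      omega
  have hnd := qPlus_nondegenerate m F
  have hUL : IsLagr (qPlus m F) U := ⟨hU0, by rw [hU]; simp; ring⟩
  have hWL : IsLagr (qPlus m F) W := ⟨hW0, by rw [hW]; simp; ring⟩
  obtain ⟨g₀, hg₀⟩ := exists_isometry_map_submodule (qPlus m F) hnd U W
    (LinearEquiv.ofFinrankEq U W (hU.trans hW.symm)) (fun u => by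
      rw [hU0 _ u.2, hW0 _ (Subtype.coe_prop _)])
  obtain ⟨vs, hvs, hg⟩ := exists_refl_list (qPlus m F) hnd hc g₀
  have hpar := parity_lagr_mat (qPlus m F) hnd W U hWL hUL g₀ vs hvs hg
  rw [hg₀, inf_idem, hW, inf_comm] at hpar
  have hle : Module.finrank F ↥(U ⊓ W) ≤ m := by
    conv_rhs => rw [← hU]
    exact Submodule.finrank_mono inf_le_left
  have hev : Even vs.length := by
    rw [Nat.even_iff] at hpar he ⊢
    omega
  have hWne : W ≠ ⊥ := by
    rintro rfl
    rw [finrank_bot] at hW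
    omega
  obtain ⟨a, b, ha, hb, hstab, hns⟩ := exists_rotation_stab (qPlus m F) hnd W hW0 hWne
  obtain ⟨s, hs, hsg⟩ := adjust_spinor (qPlus m F) hnd (Stab W) (Stab.one W) g₀ vs hvs hg hev a b ha hb hstab hns
  exact ⟨s * g₀, hsg, map_mul_eq hs hg₀⟩

end Cfsg.Agent.S2631
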