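import Cfsg.Statements.S2632
import Cfsg.Agent.Lib.Helper15.Transitive

set_option autoImplicit false
open Cfsg Cfsg.Agent.Lib.Helper15

namespace Cfsg.Agent.S2632

/-- Ω is transitive on non-degenerate subspaces of each isometry type: for a quadratic form Q on F^n, n ≥ 3, with non-degenerate polar form (F finite; excluding dimension 4 over the field of two elements), if U and W are subspaces on which the polar form is non-degenerate and there is a Q-preserving linear isomorphism U → W, then some element of Ω (the commutator subgroup of the orthogonal group) carries U to W. (In dimension 2 this fails: Ω can be {±1}, which fixes every line.) -/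
theorem result {F : Type*} [Field F] [Fintype F] {n : ℕ} (hn : 3 ≤ n) (h : Fintype.card F ≠ 2 ∨ n ≠ 4) (Q : QuadraticForm F (Fin n → F)) (hQ : (QuadraticMap.polarBilin Q).Nondegenerate) (U W : Submodule F (Fin n → F)) (hU : U ⊓ LinearMap.BilinForm.orthogonal (QuadraticMap.polarBilin Q) U = ⊥) (hW : W ⊓ LinearMap.BilinForm.orthogonal (QuadraticMap.polarBilin Q) W = ⊥) (e : U ≃ₗ[F] W) (he : ∀ u : U, Q (e u : Fin n → F) = Q (u : Fin n → F)) : ∃ g : ↥(Cfsg.isometryGroup F ⇑Q), g ∈ Cfsg.Omega F ⇑Q ∧ U.map (Matrix.mulVecLin ((g : Matrix.GeneralLinearGroup (Fin n) F) : Matrix (Fin n) (Fin n) F)) = W := by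
  have hc : Fintype.card F ≠ 2 ∨ Fintype.card (Fin n) ≠ 4 := by simpa using h
  obtain ⟨g₀, hg₀⟩ := exists_isometry_map_submodule Q hQ U W e he
  obtain ⟨d, hd0, hd⟩ := exists_nonsquare_or (F := F)
  obtain ⟨a, b, ha, hb, hsa, hsb⟩ : ∃ (a b : Fin n → F), Q a = 1 ∧ Q b = d ∧
      (∀ ha : Q a ≠ 0, Stab W (refl Q a ha)) ∧ (∀ hb : Q b ≠ 0, Stab W (refl Q b hb)) := by
    by_cases hdim : 2 ≤ Module.finrank F W
    · have hnd : (QuadraticMap.polarBilin (Q.comp W.subtype)).Nondegenerate := by
        rw [polarBilin_comp_subtype]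
        exact LinearMap.BilinForm.nondegenerate_restrict_of_disjoint_orthogonal _ (polarBilin_isRefl Q)
          (disjoint_iff.2 hW)
      obtain ⟨a, ha⟩ := exists_rep (Q.comp W.subtype) hnd hdim 1
      obtain ⟨b, hb⟩ := exists_rep (Q.comp W.subtype) hnd hdim d
      exact ⟨a, b, ha, hb, fun h => stab_refl_of_mem Q W a h a.2, fun h => stab_refl_of_mem Q W b h b.2⟩
    · obtain ⟨hnd, hfr⟩ := split_orthogonal Q hQ W (disjoint_iff.2 hW)
      have hdim' : 2 ≤ Module.finrank F
          ↥(LinearMap.BilinForm.orthogonal (QuadraticMap.polarBilin Q) W) := by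
        rw [hfr]
        simp only [Module.finrank_fintype_fun_eq_card, Fintype.card_fin]
        omega
      obtain ⟨a, ha⟩ := exists_rep _ hnd hdim' 1
      obtain ⟨b, hb⟩ := exists_rep _ hnd hdim' d
      have horth : ∀ z : ↥(LinearMap.BilinForm.orthogonal (QuadraticMap.polarBilin Q) W), ∀ w ∈ W,
          QuadraticMap.polar Q (z : Fin n → F) w = 0 := by
        intro z w hw
        rw [QuadraticMap.polar_comm]
        exact (LinearMap.BilinForm.mem_orthogonal_iff.1 z.2) w hw
      exact ⟨a, b, ha, hb, fun h => stab_refl_of_orth Q W a h (horth a),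
        fun h => stab_refl_of_orth Q W b h (horth b)⟩
  have ha0 : Q a ≠ 0 := by rw [ha]; exact one_ne_zero
  have hb0 : Q b ≠ 0 := by rw [hb]; exact hd0
  obtain ⟨s, hs, hsg⟩ := adjust_full Q hQ hc (Stab W) (Stab.one W) (fun _ _ h1 h2 => h1.mul h2) g₀ a ha0
    (hsa ha0) a b ha0 hb0 ((hsa ha0).mul (hsb hb0)) (fun h2 => by rw [ha, hb, one_mul]; exact hd h2)
  exact ⟨s * g₀, hsg, map_mul_eq hs hg₀⟩

end Cfsg.Agent.S2632
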