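import Cfsg.Statements.S2633
import Cfsg.Agent.Lib.Helper15.Transitive

set_option autoImplicit false
open Cfsg Cfsg.Agent.Lib.Helper15

namespace Cfsg.Agent.S2633

/-- Ω is transitive on totally singular subspaces of each dimension less than half the dimension: for a quadratic form Q on F^n with non-degenerate polar form (F finite; excluding dimension 4 over the field of two elements), if U and W are subspaces of the same dimension k with 2k < n on which Q vanishes, then some element of Ω (the commutator subgroup of the orthogonal group) carries U to W. -/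
theorem result {F : Type*} [Field F] [Fintype F] {n : ℕ} (h : Fintype.card F ≠ 2 ∨ n ≠ 4) (Q : QuadraticForm F (Fin n → F)) (hQ : (QuadraticMap.polarBilin Q).Nondegenerate) (U W : Submodule F (Fin n → F)) {k : ℕ} (hk : 2 * k < n) (hU : Module.finrank F U = k) (hW : Module.finrank F W = k) (hU0 : ∀ u ∈ U, Q u = 0) (hW0 : ∀ w ∈ W, Q w = 0) : ∃ g : ↥(Cfsg.isometryGroup F ⇑Q), g ∈ Cfsg.Omega F ⇑Q ∧ U.map (Matrix.mulVecLin ((g : Matrix.GeneralLinearGroup (Fin n) F) : Matrix (Fin n) (Fin n) F)) = W := by
  have hc : Fintype.card F ≠ 2 ∨ Fintype.card (Fin n) ≠ 4 := by simpa using h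
  by_cases hWne : W = ⊥
  · subst hWne
    rw [finrank_bot] at hW
    subst hW
    have hUb : U = ⊥ := Submodule.finrank_eq_zero.1 hU
    subst hUb
    exact ⟨1, Subgroup.one_mem _, by simp⟩
  obtain ⟨g₀, hg₀⟩ := exists_isometry_map_submodule Q hQ U W
    (LinearEquiv.ofFinrankEq U W (hU.trans hW.symm)) (fun u => by
      rw [hU0 _ u.2, hW0 _ (Subtype.coe_prop _)])
  obtain ⟨x, hxW, hx⟩ : ∃ x, (∀ w ∈ W, QuadraticMap.polar Q x w = 0) ∧ Q x ≠ 0 := by
    by_contra hcon
    push Not at hcon
    set T := LinearMap.BilinForm.orthogonal (QuadraticMap.polarBilin Q) W with hT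
    have hT0 : ∀ t ∈ T, Q t = 0 := by
      intro t ht
      apply hcon
      intro w hw
      rw [QuadraticMap.polar_comm]
      exact (LinearMap.BilinForm.mem_orthogonal_iff.1 ht) w hw
    have h1 : T ≤ LinearMap.BilinForm.orthogonal (QuadraticMap.polarBilin Q) T := by
      intro t ht
      rw [LinearMap.BilinForm.mem_orthogonal_iff]
      intro s hs
      exact polar_of_sing hT0 hs ht
    rw [hT, LinearMap.BilinForm.orthogonal_orthogonal hQ (polarBilin_isRefl Q), ← hT] at h1
    have h2 := Submodule.finrank_mono h1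
    rw [hT, LinearMap.BilinForm.finrank_orthogonal hQ, hW] at h2
    simp only [Module.finrank_fintype_fun_eq_card, Fintype.card_fin] at h2
    omega
  obtain ⟨a, b, ha, hb, hstab, hns⟩ := exists_rotation_stab Q hQ W hW0 hWne
  obtain ⟨s, hs, hsg⟩ := adjust_full Q hQ hc (Stab W) (Stab.one W) (fun _ _ h1 h2 => h1.mul h2) g₀ x hx
    (stab_refl_of_orth Q W x hx hxW) a b ha hb hstab hns
  exact ⟨s * g₀, hsg, map_mul_eq hs hg₀⟩

end Cfsg.Agent.S2633
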