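import Cfsg.Statements.S2634
import Cfsg.Agent.Lib.Helper15.OmegaCrit

set_option autoImplicit false
open Cfsg Cfsg.Agent.Lib.Helper15

namespace Cfsg.Agent.S2634

/-- Over a finite field of characteristic two, Ω (the commutator subgroup of the orthogonal group of a quadratic form Q on F^n with non-degenerate polar form; excluding dimension 4 over the field of two elements) acts transitively on the non-singular 1-spaces: for u, v with Q(u) ≠ 0 and Q(v) ≠ 0 some element of Ω carries the line through u to the line through v. -/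
theorem result {F : Type*} [Field F] [Fintype F] [CharP F 2] {n : ℕ} (h : Fintype.card F ≠ 2 ∨ n ≠ 4) (Q : QuadraticForm F (Fin n → F)) (hQ : (QuadraticMap.polarBilin Q).Nondegenerate) (u v : Fin n → F) (hu : Q u ≠ 0) (hv : Q v ≠ 0) : ∃ g : ↥(Cfsg.isometryGroup F ⇑Q), g ∈ Cfsg.Omega F ⇑Q ∧ (F ∙ ((g : Matrix.GeneralLinearGroup (Fin n) F) : Matrix (Fin n) (Fin n) F).mulVec u) = F ∙ v := by
  have h' : Fintype.card F ≠ 2 ∨ Fintype.card (Fin n) ≠ 4 := by simpa using h
  obtain ⟨c, hc⟩ := isSquare_of_char_two (Q u / Q v)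
  have hc0 : c ≠ 0 := by
    rintro rfl
    rw [mul_zero] at hc
    exact div_ne_zero hu hv hc
  have hQ' : Q u = Q (c • v) := by
    rw [QuadraticMap.map_smul, smul_eq_mul, ← hc]
    field_simp
  have hu0 : u ≠ 0 := by rintro rfl; simp at hu
  have hv0 : c • v ≠ 0 := by
    intro h0; rw [h0] at hQ'; apply hu; rw [hQ']; simp
  obtain ⟨g, hg⟩ := exists_isometry_map Q hQ u _ hu0 hv0 hQ'
  rcases mem_Omega_or_mul_refl Q hQ h' g u hu with hm | hm
  · refine ⟨g, hm, ?_⟩
    rw [hg]
    exact Submodule.span_singleton_smul_eq (IsUnit.mk0 c hc0) v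
  · refine ⟨_, hm, ?_⟩
    have h1 : (((g * refl Q u hu : ↥(isometryGroup F ⇑Q)) : Matrix.GeneralLinearGroup (Fin n) F) :
        Matrix (Fin n) (Fin n) F).mulVec u = (-c) • v := by
      have h2 : Matrix.mulVec (reflectionMatrix Q u) u = -u := by
        have := reflL_self Q u hu
        rwa [reflL_apply, ← reflectionMatrix_mulVec] at this
      simp only [Subgroup.coe_mul, Units.val_mul, coe_refl]
      rw [← Matrix.mulVec_mulVec, h2, Matrix.mulVec_neg, hg, neg_smul]
    rw [h1]
    exact Submodule.span_singleton_smul_eq (IsUnit.mk0 (-c) (neg_ne_zero.2 hc0)) v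

end Cfsg.Agent.S2634
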