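import Cfsg.Statements.S2635
import Cfsg.Agent.Lib.Helper15.OmegaCrit

set_option autoImplicit false
open Cfsg Cfsg.Agent.Lib.Helper15

namespace Cfsg.Agent.S2635

/-- Over a finite field of characteristic two, for a quadratic form Q on F^n with non-degenerate polar form, n ≥ 2, other than dimension 4 over the field of two elements, Ω (the commutator subgroup of the orthogonal group) is exactly the subgroup generated by the products of two reflections (orthogonal transvections) x ↦ x − Q(v)⁻¹ f(x, v) v, Q(v) ≠ 0: the products of an even number of reflections. -/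
theorem result {F : Type*} [Field F] [Fintype F] [CharP F 2] {n : ℕ} (hn : 2 ≤ n) (h : Fintype.card F ≠ 2 ∨ n ≠ 4) (Q : QuadraticForm F (Fin n → F)) (hQ : (QuadraticMap.polarBilin Q).Nondegenerate) : Cfsg.Omega F ⇑Q = Subgroup.closure {g : ↥(Cfsg.isometryGroup F ⇑Q) | ∃ u v : Fin n → F, Q u ≠ 0 ∧ Q v ≠ 0 ∧ ((g : Matrix.GeneralLinearGroup (Fin n) F) : Matrix (Fin n) (Fin n) F) = Cfsg.reflectionMatrix ⇑Q u * Cfsg.reflectionMatrix ⇑Q v} := by
  have h' : Fintype.card F ≠ 2 ∨ Fintype.card (Fin n) ≠ 4 := by simpa using h
  apply le_antisymm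
  · intro g hg
    obtain ⟨vs, hvs, hgv⟩ := exists_refl_list Q hQ h' g
    have he := (mem_Omega_iff_char_two Q hQ h' g vs hvs hgv).1 hg
    rw [eq_prod_reflT Q g vs hvs hgv]
    obtain ⟨k, hk⟩ := he
    clear hgv hg
    induction k generalizing vs with
    | zero =>
      have : vs = [] := List.length_eq_zero_iff.1 (by omega)
      subst this
      simp
    | succ k ih =>
      match vs, hk, hvs with
      | a :: b :: t, hk, hvs =>
        rw [List.map_cons, List.map_cons, List.prod_cons, List.prod_cons, ← mul_assoc]
        apply Subgroup.mul_mem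
        · apply Subgroup.subset_closure
          refine ⟨a, b, hvs a (by simp), hvs b (by simp), ?_⟩
          rw [reflT_eq Q a (hvs a (by simp)), reflT_eq Q b (hvs b (by simp))]
          rfl
        · exact ih t (fun v hv => hvs v (by simp [hv])) (by simp at hk; omega)
      | [a], hk, _ => simp at hk; omega
      | [], hk, _ => simp at hk
  · rw [Subgroup.closure_le]
    rintro g ⟨u, v, hu, hv, hg⟩
    have : g = refl Q u hu * refl Q v hv := isometry_ext hg
    rw [this]
    exact refl_mul_refl_mem' Q hQ u v hu hv (isSquare_of_char_two _)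

end Cfsg.Agent.S2635
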