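import Cfsg.Statements.S2636
import Cfsg.Agent.Lib.Helper14.FieldAut
open Cfsg.Agent.Lib.Helper14.FieldAut

set_option autoImplicit false
open Cfsg

namespace Cfsg.Agent.S2636

/-- Centraliser of a field automorphism in PGL_n: let F be the field with q = q₀^r elements, σ a field automorphism of F of prime order r (so its fixed field has q₀ elements) and n ≥ 1. The invertible matrices g whose entrywise image under σ is a scalar multiple of g — those whose coset modulo scalars is fixed by σ — number (q − 1)/(q₀ − 1) · |GL_n(q₀)|; equivalently the centraliser in PGL_n(q) of the induced automorphism has the order of PGL_n(q₀). -/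
theorem result {F : Type*} [Field F] [Fintype F] {q₀ r n : ℕ} (hr : r.Prime) (hn : 1 ≤ n) (hF : Fintype.card F = q₀ ^ r) (σ : F ≃+* F) (hσ : orderOf σ = r) : Nat.card {g : GL (Fin n) F // ∃ c : F, c ≠ 0 ∧ (g : Matrix (Fin n) (Fin n) F).map σ = c • (g : Matrix (Fin n) (Fin n) F)} = (q₀ ^ r - 1) / (q₀ - 1) * ∏ i : Fin n, (q₀ ^ n - q₀ ^ (i : ℕ)) := by
  classical
  have hr0 : r ≠ 0 := hr.ne_zero
  set F₀ := fixF σ with hF₀
  have hc0 : Nat.card F₀ = q₀ := card_fixF σ hr0 hF hσ
  letI : Fintype F₀ := Fintype.ofFinite _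
  have hc0' : Fintype.card F₀ = q₀ := by rw [← Nat.card_eq_fintype_card]; exact hc0
  have hq1 : 1 < q₀ := by rw [← hc0']; exact Fintype.one_lt_card
  let f : Fˣ →* GL (Fin n) F := Units.map (Matrix.scalar (Fin n)).toMonoidHom
  let g : GL (Fin n) F₀ →* GL (Fin n) F := Matrix.GeneralLinearGroup.map (algebraMap F₀ F)
  have hf : ∀ (μ : Fˣ) (M : Matrix (Fin n) (Fin n) F), (f μ : Matrix (Fin n) (Fin n) F) * M = (μ : F) • M := by
    intro μ M
    change Matrix.scalar (Fin n) (μ : F) * M = _
    rw [Matrix.scalar_apply, ← Matrix.smul_one_eq_diagonal, Matrix.smul_mul, Matrix.one_mul]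
  have hg : ∀ h : GL (Fin n) F₀, (g h : Matrix (Fin n) (Fin n) F) =
      (h : Matrix (Fin n) (Fin n) F₀).map (algebraMap F₀ F) := by
    intro h
    ext i j
    exact Matrix.GeneralLinearGroup.map_apply _ _ _ _
  have comm : ∀ (μ : Fˣ) (h : GL (Fin n) F₀), Commute (f μ) (g h) := by
    intro μ h
    apply Units.ext
    change Matrix.scalar (Fin n) (μ : F) * (g h : Matrix (Fin n) (Fin n) F) =
      (g h : Matrix (Fin n) (Fin n) F) * Matrix.scalar (Fin n) (μ : F)
    exact (Matrix.scalar_commute _ (fun _ => Commute.all _ _) _)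
  let Φ : Fˣ × GL (Fin n) F₀ →* GL (Fin n) F := MonoidHom.noncommCoprod f g comm
  have hΦ : ∀ (μ : Fˣ) (h : GL (Fin n) F₀), (Φ (μ, h) : Matrix (Fin n) (Fin n) F) =
      (μ : F) • (h : Matrix (Fin n) (Fin n) F₀).map (algebraMap F₀ F) := by
    intro μ h
    change (f μ : Matrix (Fin n) (Fin n) F) * (g h : Matrix (Fin n) (Fin n) F) = _
    rw [hf, hg]
  let ψ : F₀ˣ →* Fˣ × GL (Fin n) F₀ :=
    MonoidHom.prod (Units.map (algebraMap F₀ F).toMonoidHom)
      ((Units.map (Matrix.scalar (Fin n)).toMonoidHom).comp (invMonoidHom))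
  have hψ : Function.Injective ψ := by
    intro a b hab
    have := congrArg (fun x => ((x.1 : Fˣ) : F)) hab
    apply Units.ext
    apply Subtype.ext
    exact this
  have i0 : Fin n := ⟨0, hn⟩
  have hker : Φ.ker = ψ.range := by
    ext ⟨μ, h⟩
    rw [MonoidHom.mem_ker, MonoidHom.mem_range]
    constructor
    · intro h1
      have h2 : ∀ i j, (μ : F) * ((h : Matrix (Fin n) (Fin n) F₀) i j : F) = if i = j then 1 else 0 := by
        intro i j
        have := congrFun (congrFun (congrArg (fun x : GL (Fin n) F => (x : Matrix (Fin n) (Fin n) F)) h1) i) j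
        simp only [hΦ] at this
        rw [Units.val_one, Matrix.one_apply] at this
        exact this
      have h3 := h2 i0 i0
      rw [if_pos rfl] at h3
      have h4 : (h : Matrix (Fin n) (Fin n) F₀) i0 i0 ≠ 0 := by
        intro h0
        rw [h0] at h3
        simp at h3
      refine ⟨(Units.mk0 _ h4)⁻¹, ?_⟩
      apply Prod.ext
      · apply Units.ext
        change (((Units.mk0 _ h4)⁻¹ : F₀ˣ) : F₀).1 = (μ : F)
        rw [Units.val_inv_eq_inv_val, Units.val_mk0]
        change (((h : Matrix (Fin n) (Fin n) F₀) i0 i0 : F₀) : F)⁻¹ = _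
        exact (eq_inv_of_mul_eq_one_left h3).symm
      · apply Units.ext
        change Matrix.scalar (Fin n) ((((Units.mk0 _ h4)⁻¹)⁻¹ : F₀ˣ) : F₀) = (h : Matrix (Fin n) (Fin n) F₀)
        rw [inv_inv, Units.val_mk0]
        ext i j
        rw [Matrix.scalar_apply, Matrix.diagonal_apply]
        have h5 := h2 i j
        have hμ : (μ : F) ≠ 0 := μ.ne_zero
        split_ifs with hij
        · rw [if_pos hij, ← h3] at h5
          exact (mul_left_cancel₀ hμ h5).symm
        · rw [if_neg hij] at h5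
          rcases mul_eq_zero.1 h5 with h6 | h6
          · exact absurd h6 hμ
          · exact h6.symm
    · rintro ⟨t, ht⟩
      have h1 : μ = Units.map (algebraMap F₀ F).toMonoidHom t := (congrArg Prod.fst ht).symm
      have h2 : h = Units.map (Matrix.scalar (Fin n)).toMonoidHom t⁻¹ := (congrArg Prod.snd ht).symm
      apply Units.ext
      rw [hΦ, h1, h2]
      ext i j
      change ((t : F₀) : F) * ((Matrix.scalar (Fin n) ((t⁻¹ : F₀ˣ) : F₀) i j : F₀) : F) = _
      rw [Matrix.scalar_apply, Matrix.diagonal_apply, Units.val_one, Matrix.one_apply]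
      split_ifs with hij
      · rw [← Subfield.coe_mul, Units.mul_inv]; rfl
      · simp
  have hcount := card_range_mul Φ ψ hψ hker
  have hS : Nat.card {g : GL (Fin n) F // ∃ c : F, c ≠ 0 ∧ (g : Matrix (Fin n) (Fin n) F).map σ = c • (g : Matrix (Fin n) (Fin n) F)} = Nat.card Φ.range := by
    apply Nat.card_congr
    apply Equiv.subtypeEquivRight
    intro x
    rw [MonoidHom.mem_range]
    constructor
    · rintro ⟨c, hc, hx⟩
      obtain ⟨a, b, hab⟩ : ∃ a b, (x : Matrix (Fin n) (Fin n) F) a b ≠ 0 := by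
        by_contra hcon
        push Not at hcon
        have h0 : (x : Matrix (Fin n) (Fin n) F) = 0 := by
          ext i j; exact hcon i j
        have h1 := x.mul_inv
        have h2 := congrArg (fun y : Matrix (Fin n) (Fin n) F => y i0 i0) h1
        simp only [h0, zero_mul, Matrix.one_apply, if_pos] at h2
        simp at h2
      set μ := (x : Matrix (Fin n) (Fin n) F) a b with hμ
      have hσμ : σ μ = c * μ := congrFun (congrFun hx a) b
      have hfix : (μ⁻¹ • (x : Matrix (Fin n) (Fin n) F)).map σ = μ⁻¹ • (x : Matrix (Fin n) (Fin n) F) := by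
        ext i j
        have h1 : σ ((x : Matrix (Fin n) (Fin n) F) i j) = c * (x : Matrix (Fin n) (Fin n) F) i j :=
          congrFun (congrFun hx i) j
        change σ (μ⁻¹ * (x : Matrix (Fin n) (Fin n) F) i j) = μ⁻¹ * (x : Matrix (Fin n) (Fin n) F) i j
        rw [map_mul, map_inv₀, hσμ, h1]
        field_simp
      obtain ⟨B, hB⟩ := exists_map_eq σ _ hfix
      have hdet : IsUnit B.det := by
        rw [isUnit_iff_ne_zero]
        intro h0
        have h1 : (B.map (algebraMap F₀ F)).det = 0 := by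
          have := (RingHom.map_det (algebraMap F₀ F) B)
          rw [RingHom.mapMatrix_apply] at this
          rw [← this, h0, map_zero]
        rw [hB, Matrix.det_smul] at h1
        have h2 : (x : Matrix (Fin n) (Fin n) F).det ≠ 0 := by
          have := (Matrix.isUnit_iff_isUnit_det _).1 x.isUnit
          exact this.ne_zero
        exact (mul_ne_zero (pow_ne_zero _ (inv_ne_zero hab)) h2) h1
      refine ⟨(Units.mk0 μ hab, Matrix.GeneralLinearGroup.mk'' B hdet), ?_⟩
      apply Units.ext
      rw [hΦ]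
      change μ • B.map (algebraMap F₀ F) = _
      rw [hB, smul_smul, mul_inv_cancel₀ hab, one_smul]
    · rintro ⟨⟨μ, h⟩, rfl⟩
      refine ⟨σ μ / μ, div_ne_zero ((map_ne_zero σ).2 μ.ne_zero) μ.ne_zero, ?_⟩
      rw [hΦ]
      ext i j
      change σ ((μ : F) * (((h : Matrix (Fin n) (Fin n) F₀) i j : F₀) : F)) =
        σ μ / μ * ((μ : F) * (((h : Matrix (Fin n) (Fin n) F₀) i j : F₀) : F))
      rw [map_mul, (mem_fixF σ _).1 ((h : Matrix (Fin n) (Fin n) F₀) i j).2]
      have := μ.ne_zero
      field_simp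
  rw [hS]
  have hGL : Nat.card (GL (Fin n) F₀) = ∏ i : Fin n, (q₀ ^ n - q₀ ^ (i : ℕ)) := by
    rw [Matrix.card_GL_field, hc0']
  have hU : Nat.card Fˣ = q₀ ^ r - 1 := by
    rw [Nat.card_units, Nat.card_eq_fintype_card, hF]
  have hU0 : Nat.card F₀ˣ = q₀ - 1 := by
    rw [Nat.card_units, hc0]
  rw [hGL, hU, hU0] at hcount
  have hdvd : q₀ - 1 ∣ q₀ ^ r - 1 := by
    simpa using Nat.sub_dvd_pow_sub_pow q₀ 1 r
  obtain ⟨k, hk⟩ := hdvd
  have hpos : 0 < q₀ - 1 := by omega
  rw [hk, Nat.mul_div_cancel_left _ hpos]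
  rw [hk] at hcount
  have : (q₀ - 1) * Nat.card Φ.range = (q₀ - 1) * (k * ∏ i : Fin n, (q₀ ^ n - q₀ ^ (i : ℕ))) := by
    rw [mul_comm, hcount]; ring
  exact Nat.eq_of_mul_eq_mul_left hpos this

end Cfsg.Agent.S2636
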