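import Cfsg.Statements.S2639
import Mathlib
import Cfsg.Agent.Lib.Helper14.SpRestrict
import Cfsg.Agent.Lib.Helper14.GUOrder
open Cfsg.Agent.Lib.Helper14

set_option autoImplicit false
open Cfsg

namespace Cfsg.Agent.S2639

/-- The unitary group embeds in the symplectic group of twice the dimension over the subfield: for a field K with q² elements and a field F with q elements (isomorphic to the subfield of K of order q), there is an injective homomorphism GU_m(q) → Sp_2m(F). -/
theorem result {K F : Type*} [Field K] [Fintype K] [Field F] [Fintype F] {q : ℕ} (hK : Fintype.card K = q ^ 2) (hF : Fintype.card F = q) (m : ℕ) : ∃ φ : ↥(Cfsg.GU m K q) →* ↥(Matrix.symplecticGroup (Fin m) F), Function.Injective φ := by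
  classical
  obtain ⟨f⟩ := exists_ringHom_of_card hF hK two_ne_zero
  letI : Algebra F K := f.toAlgebra
  have hq0 : q ≠ 0 := q_ne_zero hK
  have hfin : Module.finrank F K = 2 := by
    have h := finrank_pi_of_card (F := F) (K := K) (ι := Fin 1) hF hK
    have e : Module.finrank F (Fin 1 → K) = Module.finrank F K :=
      (LinearEquiv.funUnique (Fin 1) F K).finrank_eq
    rw [e] at h
    simpa using h
  obtain ⟨lam, hlam, hlam0⟩ := exists_functional_vanishing_on_base (F := F) (K := K) (by omega)
  have hsm : ∀ (c : F) (u : Fin m → K), c • u = (algebraMap F K c) • u := by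
    intro c u
    ext i
    simp [Algebra.smul_def]
  refine exists_injective_hom_sp_restrict (F := F) (K := K) (Cfsg.hermForm m K q)
    hermForm_add_left (hermForm_add_right hK) ?_ ?_ lam ?_ hlam ?_
    ((Units.coeHom _).comp (Cfsg.GU m K q).subtype) ?_ (fun g u v => g.2 u v) m ?_
  · intro c u v
    rw [hsm, hermForm_smul_left, Algebra.smul_def]
  · intro c u v
    rw [hsm, hermForm_smul_right, Algebra.smul_def, ← map_pow, ← hF, FiniteField.pow_card]
  · intro u
    obtain ⟨c, hc⟩ := mem_range_algebraMap_of_pow_card (F := F) (Cfsg.hermForm m K q u u)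
      (by rw [hF]; exact hermForm_self_pow hK m u)
    rw [← hc, hlam0]
  · intro u hu z
    obtain ⟨i, hi⟩ : ∃ i, u i ≠ 0 := by
      by_contra hcon
      push Not at hcon
      exact hu (funext hcon)
    refine ⟨((z / u i) ^ q) • Pi.single i 1, ?_⟩
    rw [hermForm_smul_right, hermForm_single_right hq0, pow_q_q hK]
    field_simp
  · intro g h hgh
    exact Subtype.ext (Units.ext hgh)
  · rw [finrank_pi_of_card (F := F) (K := K) hF hK, Fintype.card_fin]

end Cfsg.Agent.S2639
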