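import Cfsg.Statements.S2665
import Cfsg.Agent.Lib.Helper19.LangA

set_option autoImplicit false
open scoped MatrixGroups
open Cfsg

namespace Cfsg.Agent.S2665

open Cfsg.Agent.Lib.Helper19.LangL Matrix

/-- The Lang–Steinberg Theorem for the general linear group. Let `K` be an algebraically closed field of prime characteristic `p`, let `q = p^f` with `f ≥ 1`, and let `σ` be the endomorphism of GL_n(K) raising every matrix entry to the `q`-th power. Then every element `g` of GL_n(K) can be written `g = x · σ(x)⁻¹` for some `x` in GL_n(K): the map `x ↦ x σ(x)⁻¹` is surjective. -/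
theorem result {K : Type*} [Field K] [IsAlgClosed K] (p : ℕ) [Fact p.Prime] [CharP K p]
    (f : ℕ) (hf : 1 ≤ f) (n : ℕ) (g : GL (Fin n) K) :
    ∃ x : GL (Fin n) K, g = x * (Matrix.GeneralLinearGroup.map (iterateFrobenius K p f) x)⁻¹ := by
  have hq : 2 ≤ p ^ f := by
    calc 2 ≤ p := (Fact.out : p.Prime).two_le
      _ = p ^ 1 := (pow_one p).symm
      _ ≤ p ^ f := Nat.pow_le_pow_right (Fact.out : p.Prime).pos hf
  let φ : K →+* K := iterateFrobenius K p f
  have hφ : ∀ a, φ a = a ^ (p ^ f) := fun a => iterateFrobenius_def p f a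
  let T : (Fin n → K) →+ (Fin n → K) :=
    { toFun := fun x => (g : Matrix (Fin n) (Fin n) K) *ᵥ (φ ∘ x)
      map_zero' := by
        have : (φ ∘ (0 : Fin n → K)) = 0 := by funext i; simp
        rw [this, Matrix.mulVec_zero]
      map_add' := fun x y => by
        have : (φ ∘ (x + y)) = φ ∘ x + φ ∘ y := by funext i; simp
        rw [this, Matrix.mulVec_add] }
  have hTa : ∀ x, T x = (g : Matrix (Fin n) (Fin n) K) *ᵥ (φ ∘ x) := fun _ => rfl
  have hT : ∀ (a : K) (x : Fin n → K), T (a • x) = a ^ (p ^ f) • T x := by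
    intro a x
    rw [hTa, hTa]
    have : (φ ∘ (a • x)) = a ^ (p ^ f) • (φ ∘ x) := by
      funext i
      simp [hφ, mul_pow]
    rw [this, Matrix.mulVec_smul]
  have hinj : Function.Injective T := by
    intro x y h
    have h1 := Matrix.mulVec_injective_iff_isUnit.2 g.isUnit h
    funext i
    exact φ.injective (congrFun h1 i)
  have hs := span_fixed_top hq T hT hinj
  obtain ⟨b, hb, -, hli⟩ := Submodule.exists_fun_fin_finrank_span_eq K {x : Fin n → K | T x = x}
  have hd : Module.finrank K (Submodule.span K {x : Fin n → K | T x = x}) = n := by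
    rw [hs, finrank_top, Module.finrank_fin_fun]
  revert b
  rw [hd]
  intro b hb hli
  have hB : IsUnit ((Matrix.of b)ᵀ) := Matrix.linearIndependent_cols_iff_isUnit.1 (by
    have : ((Matrix.of b)ᵀ).col = b := by
      funext i j; rfl
    rw [this]; exact hli)
  refine ⟨hB.unit, ?_⟩
  rw [eq_mul_inv_iff_mul_eq]
  apply Units.ext
  rw [Units.val_mul]
  show (g : Matrix (Fin n) (Fin n) K) * ((Matrix.of b)ᵀ).map φ = (Matrix.of b)ᵀ
  ext a i
  have h1 : T (b i) = b i := hb i
  have h2 := congrFun h1 a
  rw [hTa] at h2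
  rw [Matrix.mul_apply]
  exact h2

end Cfsg.Agent.S2665
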