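import Cfsg.Statements.S2666

set_option autoImplicit false
open Cfsg

namespace Cfsg.Agent.S2666

theorem mem_fix {X : Type*} [Group X] (τ : MulAut X) (x : X) :
    x ∈ (MulEquiv.toMonoidHom τ).eqLocus (MonoidHom.id X) ↔ τ x = x := Iff.rfl

theorem fix_pow {X : Type*} [Group X] (σ : MulAut X) (h : X) (hh : σ h = h) (e : ℕ) : (σ ^ e) h = h := by
  induction e with
  | zero => simp
  | succ n ih => rw [pow_succ, MulAut.mul_apply, hh, ih]

theorem norm_eq {X : Type*} [Group X] (σ : MulAut X) (g a : X) (ha : g = a * (σ a)⁻¹) (d : ℕ) :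
    ((List.range d).map (fun i => (σ ^ i) g)).prod = a * ((σ ^ d) a)⁻¹ := by
  induction d with
  | zero => simp
  | succ n ih =>
    rw [List.range_succ, List.map_append, List.prod_append, ih]
    simp only [List.map_cons, List.map_nil, List.prod_cons, List.prod_nil, mul_one]
    rw [ha, map_mul, map_inv, pow_succ σ n, MulAut.mul_apply]
    group

theorem comm_pow {X : Type*} [Group X] (σ : MulAut X) (e : ℕ) (a : X) :
    (σ ^ e) (σ a) = σ ((σ ^ e) a) := by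
  rw [← MulAut.mul_apply, ← MulAut.mul_apply, ← pow_succ, ← pow_succ']

theorem x_fixed {X : Type*} [Group X] (σ : MulAut X) (e : ℕ) (g a : X) (hg : (σ ^ e) g = g)
    (ha : g = a * (σ a)⁻¹) : σ (((σ ^ e) a)⁻¹ * a) = ((σ ^ e) a)⁻¹ * a := by
  subst ha
  rw [map_mul, map_inv] at hg
  rw [comm_pow] at hg
  rw [map_mul, map_inv]
  have : (σ ((σ ^ e) a))⁻¹ = ((σ ^ e) a)⁻¹ * (a * (σ a)⁻¹) := by rw [← hg]; group
  rw [this]; group

theorem result {X : Type*} [Group X] (σ : MulAut X) (e : ℕ) (he : 1 ≤ e)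
    (hL : ∀ g : X, ∃ a : X, g = a * (σ a)⁻¹) (hLe : ∀ g : X, ∃ a : X, g = a * ((σ ^ e) a)⁻¹) :
    (∀ g ∈ (MulEquiv.toMonoidHom (σ ^ e)).eqLocus (MonoidHom.id X), ∀ a : X, g = a * (σ a)⁻¹ →
        ((σ ^ e) a)⁻¹ * a ∈ (MulEquiv.toMonoidHom σ).eqLocus (MonoidHom.id X) ∧
          a⁻¹ * ((List.range e).map (fun i => (σ ^ i) g)).prod * a = ((σ ^ e) a)⁻¹ * a) ∧
    (∀ g ∈ (MulEquiv.toMonoidHom (σ ^ e)).eqLocus (MonoidHom.id X), ∀ g' ∈ (MulEquiv.toMonoidHom (σ ^ e)).eqLocus (MonoidHom.id X), ∀ a b : X,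
        g = a * (σ a)⁻¹ → g' = b * (σ b)⁻¹ →
          ((∃ k ∈ (MulEquiv.toMonoidHom (σ ^ e)).eqLocus (MonoidHom.id X), g' = k * g * (σ k)⁻¹) ↔
            (∃ h ∈ (MulEquiv.toMonoidHom σ).eqLocus (MonoidHom.id X), ((σ ^ e) b)⁻¹ * b = h * (((σ ^ e) a)⁻¹ * a) * h⁻¹))) ∧
    (∀ x ∈ (MulEquiv.toMonoidHom σ).eqLocus (MonoidHom.id X), ∃ g ∈ (MulEquiv.toMonoidHom (σ ^ e)).eqLocus (MonoidHom.id X), ∃ a : X,
        g = a * (σ a)⁻¹ ∧ ((σ ^ e) a)⁻¹ * a = x) := by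
  simp only [mem_fix]
  refine ⟨?_, ?_, ?_⟩
  · intro g hg a ha
    refine ⟨x_fixed σ e g a hg ha, ?_⟩
    rw [norm_eq σ g a ha e]; group
  · intro g hg g' hg' a b ha hb
    constructor
    · rintro ⟨k, hk, hgk⟩
      refine ⟨b⁻¹ * k * a, ?_, ?_⟩
      · rw [ha, hb] at hgk
        simp only [map_mul, map_inv]
        have : (σ b)⁻¹ = b⁻¹ * (k * (a * (σ a)⁻¹) * (σ k)⁻¹) := by rw [← hgk]; group
        rw [this]; group
      · have hh : σ (b⁻¹ * k * a) = b⁻¹ * k * a := by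
          rw [ha, hb] at hgk
          simp only [map_mul, map_inv]
          have : (σ b)⁻¹ = b⁻¹ * (k * (a * (σ a)⁻¹) * (σ k)⁻¹) := by rw [← hgk]; group
          rw [this]; group
        have h2 := fix_pow σ _ hh e
        simp only [map_mul, map_inv, hk] at h2
        have h3 : ((σ ^ e) b)⁻¹ = (b⁻¹ * k * a) * ((σ ^ e) a)⁻¹ * k⁻¹ := by rw [← h2]; group
        rw [h3]; group
    · rintro ⟨h, hh, hx⟩
      refine ⟨b * h * a⁻¹, ?_, ?_⟩
      · have h2 := fix_pow σ _ hh e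
        simp only [map_mul, map_inv, h2]
        have h3 : ((σ ^ e) b)⁻¹ = h * (((σ ^ e) a)⁻¹ * a) * h⁻¹ * b⁻¹ := by rw [← hx]; group
        have h4 : (σ ^ e) b = (h * (((σ ^ e) a)⁻¹ * a) * h⁻¹ * b⁻¹)⁻¹ := by rw [← h3]; group
        rw [h4]; group
      · simp only [map_mul, map_inv, hh]
        rw [ha, hb]; group
  · intro x hx
    obtain ⟨c, hc⟩ := hLe x⁻¹
    have hxc : x = (σ ^ e) c * c⁻¹ := by
      have : x = (x⁻¹)⁻¹ := by group
      rw [this, hc]; group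
    refine ⟨c⁻¹ * (σ c⁻¹)⁻¹, ?_, c⁻¹, rfl, ?_⟩
    · simp only [map_mul, map_inv, inv_inv]
      rw [comm_pow]
      rw [hxc] at hx
      simp only [map_mul, map_inv] at hx
      have : σ ((σ ^ e) c) = (σ ^ e) c * c⁻¹ * σ c := by rw [← hx]; group
      rw [this]; group
    · simp only [map_inv, inv_inv]; exact hxc.symm

end Cfsg.Agent.S2666
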