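import Cfsg.Statements.S2668

set_option autoImplicit false
open Cfsg

namespace Cfsg.Agent.S2668

theorem mem_fix {X : Type*} [Group X] (τ : MulAut X) (x : X) :
    x ∈ (MulEquiv.toMonoidHom τ).eqLocus (MonoidHom.id X) ↔ τ x = x := Iff.rfl

theorem fix_pow {X : Type*} [Group X] (σ : MulAut X) (h : X) (hh : σ h = h) (e : ℕ) : (σ ^ e) h = h := by
  induction e with
  | zero => simp
  | succ n ih => rw [pow_succ, MulAut.mul_apply, hh, ih]

theorem norm_eq {X : Type*} [Group X] (σ : MulAut X) (g a : X) (ha : g = a * (σ a)⁻¹) (d : ℕ) :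
    ((List.range d).map (fun i => (σ ^ i) g)).prod = a * ((σ ^ d) a)⁻¹ := by
  induction d with
  | zero => simp
  | succ n ih =>
    rw [List.range_succ, List.map_append, List.prod_append, ih]
    simp only [List.map_cons, List.map_nil, List.prod_cons, List.prod_nil, mul_one]
    rw [ha, map_mul, map_inv, pow_succ σ n, MulAut.mul_apply]
    group

theorem x_fixed {X : Type*} [Group X] (σ : MulAut X) (e : ℕ) (g a : X) (hg : (σ ^ e) g = g)
    (ha : g = a * (σ a)⁻¹) : σ (((σ ^ e) a)⁻¹ * a) = ((σ ^ e) a)⁻¹ * a := by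
  subst ha
  rw [map_mul, map_inv] at hg
  have hc : (σ ^ e) (σ a) = σ ((σ ^ e) a) := by
    rw [← MulAut.mul_apply, ← MulAut.mul_apply, ← pow_succ, ← pow_succ']
  rw [hc] at hg
  rw [map_mul, map_inv]
  have : (σ ((σ ^ e) a))⁻¹ = ((σ ^ e) a)⁻¹ * (a * (σ a)⁻¹) := by rw [← hg]; group
  rw [this]; group

theorem pow_x {X : Type*} [Group X] (τ : MulAut X) (a : X) (hx : τ ((τ a)⁻¹ * a) = (τ a)⁻¹ * a) (d : ℕ) :
    ((τ ^ d) a)⁻¹ * a = ((τ a)⁻¹ * a) ^ d := by
  induction d with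
  | zero => simp
  | succ n ih =>
    have h1 : (τ ^ (n+1)) a = (τ ^ n) (τ a) := by rw [pow_succ, MulAut.mul_apply]
    have h2 := fix_pow τ _ hx n
    rw [map_mul, map_inv] at h2
    rw [h1, pow_succ', ← ih]
    calc ((τ ^ n) (τ a))⁻¹ * a = (((τ ^ n) (τ a))⁻¹ * (τ ^ n) a) * (((τ ^ n) a)⁻¹ * a) := by group
      _ = _ := by rw [h2]

theorem result {X : Type*} [Group X] (σ : MulAut X) (e d : ℕ) (he : 1 ≤ e) (hd : 1 ≤ d)
    (g : X) (hg : g ∈ (MulEquiv.toMonoidHom (σ ^ e)).eqLocus (MonoidHom.id X)) (a : X) (ha : g = a * (σ a)⁻¹) :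
    ((List.range d).map (fun i => (σ ^ i) g)).prod = a * ((σ ^ d) a)⁻¹ ∧
      ((List.range d).map (fun i => (σ ^ i) g)).prod ∈ (MulEquiv.toMonoidHom ((σ ^ d) ^ e)).eqLocus (MonoidHom.id X) ∧
      (((σ ^ d) ^ e) a)⁻¹ * a = (((σ ^ e) a)⁻¹ * a) ^ d := by
  rw [mem_fix] at hg
  have hx := x_fixed σ e g a hg ha
  have hcomm : (σ ^ d) ^ e = (σ ^ e) ^ d := by rw [← pow_mul, ← pow_mul, mul_comm]
  refine ⟨norm_eq σ g a ha d, ?_, ?_⟩
  · rw [mem_fix, hcomm]
    apply fix_pow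
    rw [map_list_prod, List.map_map]
    congr 1
    apply List.map_congr_left
    intro i _
    simp only [Function.comp]
    rw [← MulAut.mul_apply, ← pow_add, add_comm, pow_add, MulAut.mul_apply, hg]
  · rw [hcomm]
    exact pow_x (σ ^ e) a (fix_pow σ _ hx e) d

end Cfsg.Agent.S2668
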