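import Cfsg.Statements.S2669

set_option autoImplicit false
open Cfsg

namespace Cfsg.Agent.S2669

theorem mem_fix {X : Type*} [Group X] (τ : MulAut X) (x : X) :
    x ∈ (MulEquiv.toMonoidHom τ).eqLocus (MonoidHom.id X) ↔ τ x = x := Iff.rfl

theorem fix_pow {X : Type*} [Group X] (σ : MulAut X) (h : X) (hh : σ h = h) (e : ℕ) : (σ ^ e) h = h := by
  induction e with
  | zero => simp
  | succ n ih => rw [pow_succ, MulAut.mul_apply, hh, ih]

theorem card_rel {α β : Type*} [Finite α] [Finite β] (R : α → β → Prop) (c : ℕ) (P : α → Prop)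
    (h1 : ∀ k, P k → Nat.card {h // R k h} = c) (h0 : ∀ k, ¬ P k → ∀ h, ¬ R k h) :
    Nat.card {p : α × β // R p.1 p.2} = Nat.card {k // P k} * c := by
  classical
  haveI := Fintype.ofFinite α
  rw [Nat.card_congr (Equiv.subtypeProdEquivSigmaSubtype R), Nat.card_sigma]
  have : ∀ k ∈ (Finset.univ : Finset α), Nat.card {h // R k h} = if P k then c else 0 := by
    intro k _
    split_ifs with hk
    · exact h1 k hk
    · haveI : IsEmpty {h // R k h} := ⟨fun x => h0 k hk x.1 x.2⟩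
      exact Nat.card_of_isEmpty
  rw [Finset.sum_congr rfl this, Finset.sum_ite, Finset.sum_const, Finset.sum_const_zero, add_zero,
    smul_eq_mul, Nat.card_eq_fintype_card, Fintype.card_subtype]

/-- fibre lemma: a nonempty set of the form `{h ∈ H | u * h ∈ Y}` is in bijection with `Y ⊓ H`. -/
theorem card_fibre {X : Type*} [Group X] (Y H : Subgroup X) (u : X) (h₀ : H) (hh₀ : u * h₀ ∈ Y) :
    Nat.card {h : H // u * h ∈ Y} = Nat.card ↥(Y ⊓ H) := by
  refine Nat.card_congr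
    { toFun := fun h => ⟨(h₀ : X)⁻¹ * h, ?_, H.mul_mem (H.inv_mem h₀.2) h.1.2⟩
      invFun := fun y => ⟨⟨h₀ * y, H.mul_mem h₀.2 y.2.2⟩, ?_⟩
      left_inv := ?_
      right_inv := ?_ }
  · have : (h₀ : X)⁻¹ * (h.1 : X) = (u * h₀)⁻¹ * (u * h.1) := by group
    rw [this]; exact Y.mul_mem (Y.inv_mem hh₀) h.2
  · have : u * ((h₀ : X) * y) = (u * h₀) * y := by group
    show u * ((h₀ : X) * y) ∈ Y
    rw [this]; exact Y.mul_mem hh₀ y.2.1
  · intro h; ext; simp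
  · intro y; ext; simp

theorem result {X : Type*} [Group X] (σ : MulAut X) (e : ℕ) (he : 1 ≤ e)
    [Finite ↥((MulEquiv.toMonoidHom (σ ^ e)).eqLocus (MonoidHom.id X))]
    (Y : Subgroup X) (hY : ∀ y : X, y ∈ Y ↔ σ y ∈ Y)
    (hYL : ∀ y ∈ Y, ∃ a ∈ Y, y = a * (σ a)⁻¹) (hYLe : ∀ y ∈ Y, ∃ a ∈ Y, y = a * ((σ ^ e) a)⁻¹)
    (g : X) (hg : g ∈ (MulEquiv.toMonoidHom (σ ^ e)).eqLocus (MonoidHom.id X)) (a : X) (ha : g = a * (σ a)⁻¹) :
    Nat.card {k : ↥((MulEquiv.toMonoidHom (σ ^ e)).eqLocus (MonoidHom.id X)) // (k : X)⁻¹ * g * σ k ∈ Y} *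
        Nat.card ↥(Y ⊓ (MulEquiv.toMonoidHom σ).eqLocus (MonoidHom.id X)) =
      Nat.card {h : ↥((MulEquiv.toMonoidHom σ).eqLocus (MonoidHom.id X)) // (h : X)⁻¹ * (((σ ^ e) a)⁻¹ * a) * h ∈ Y} *
        Nat.card ↥(Y ⊓ (MulEquiv.toMonoidHom (σ ^ e)).eqLocus (MonoidHom.id X)) := by
  set G := (MulEquiv.toMonoidHom (σ ^ e)).eqLocus (MonoidHom.id X) with hG
  set H := (MulEquiv.toMonoidHom σ).eqLocus (MonoidHom.id X) with hH
  have hHG : H ≤ G := fun h hh => fix_pow σ h hh e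
  haveI : Finite H := Finite.of_injective (Subgroup.inclusion hHG) (Subgroup.inclusion_injective hHG)
  have hYe : ∀ (n : ℕ) (y : X), y ∈ Y → (σ ^ n) y ∈ Y := by
    intro n
    induction n with
    | zero => intro y hy; simpa using hy
    | succ n ih => intro y hy; rw [pow_succ, MulAut.mul_apply]; exact ih _ ((hY y).1 hy)
  -- first count
  have c1 : Nat.card {p : G × H // (p.1 : X)⁻¹ * a * (p.2 : X) ∈ Y} =
      Nat.card {k : G // (k : X)⁻¹ * g * σ k ∈ Y} * Nat.card ↥(Y ⊓ H) := by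
    apply card_rel (fun (k : G) (h : H) => (k : X)⁻¹ * a * (h : X) ∈ Y)
    · intro k hk
      obtain ⟨y, hy, hky⟩ := hYL _ hk
      have hfix : σ (a⁻¹ * k * y) = a⁻¹ * k * y := by
        simp only [map_mul, map_inv]
        have h1 : σ (k : X) = g⁻¹ * k * (y * (σ y)⁻¹) := by rw [← hky]; group
        rw [h1, ha]; group
      exact card_fibre Y H ((k : X)⁻¹ * a) ⟨a⁻¹ * k * y, hfix⟩ (by
        have : (k : X)⁻¹ * a * (a⁻¹ * k * y) = y := by group
        show (k : X)⁻¹ * a * (a⁻¹ * k * y) ∈ Y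
        rw [this]; exact hy)
    · intro k hk h hkh
      apply hk
      have hh : σ (h : X) = h := h.2
      have h1 : (k : X)⁻¹ * g * σ k = ((k : X)⁻¹ * a * h) * (σ ((k : X)⁻¹ * a * h))⁻¹ := by
        simp only [map_mul, map_inv, hh]
        rw [ha]; group
      rw [h1]
      exact Y.mul_mem hkh (Y.inv_mem ((hY _).1 hkh))
  -- second count
  have c2 : Nat.card {p : H × G // ((p.1 : X)⁻¹ * a⁻¹) * (p.2 : X) ∈ Y} =
      Nat.card {h : H // (h : X)⁻¹ * (((σ ^ e) a)⁻¹ * a) * h ∈ Y} * Nat.card ↥(Y ⊓ G) := by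
    apply card_rel (fun (h : H) (k : G) => ((h : X)⁻¹ * a⁻¹) * (k : X) ∈ Y)
    · intro h hh
      have hh' : (h : X)⁻¹ * (a⁻¹ * (σ ^ e) a) * h ∈ Y := by
        have : (h : X)⁻¹ * (a⁻¹ * (σ ^ e) a) * h = ((h : X)⁻¹ * (((σ ^ e) a)⁻¹ * a) * h)⁻¹ := by group
        rw [this]; exact Y.inv_mem hh
      obtain ⟨y, hy, hky⟩ := hYLe _ hh'
      have hhe : (σ ^ e) (h : X) = h := hHG h.2
      have hfix : (σ ^ e) (a * h * y) = a * h * y := by
        simp only [map_mul, hhe]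
        have h1 : (σ ^ e) a = a * h * (y * ((σ ^ e) y)⁻¹) * (h : X)⁻¹ := by rw [← hky]; group
        rw [h1]; group
      exact card_fibre Y G ((h : X)⁻¹ * a⁻¹) ⟨a * h * y, hfix⟩ (by
        have : (h : X)⁻¹ * a⁻¹ * (a * h * y) = y := by group
        show (h : X)⁻¹ * a⁻¹ * (a * h * y) ∈ Y
        rw [this]; exact hy)
    · intro h hh k hkh
      apply hh
      have hhe : (σ ^ e) (h : X) = h := hHG h.2
      have hke : (σ ^ e) (k : X) = k := k.2
      have h1 : (h : X)⁻¹ * (((σ ^ e) a)⁻¹ * a) * h =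
          ((σ ^ e) ((h : X)⁻¹ * a⁻¹ * k)) * ((h : X)⁻¹ * a⁻¹ * k)⁻¹ := by
        simp only [map_mul, map_inv, hhe, hke]
        group
      rw [h1]
      exact Y.mul_mem (hYe e _ hkh) (Y.inv_mem hkh)
  rw [← c1, ← c2]
  refine Nat.card_congr ((Equiv.prodComm G H).subtypeEquiv ?_)
  rintro ⟨k, h⟩
  simp only [Equiv.prodComm_apply, Prod.swap_prod_mk]
  have : (h : X)⁻¹ * a⁻¹ * (k : X) = ((k : X)⁻¹ * a * h)⁻¹ := by group
  rw [this, inv_mem_iff]

end Cfsg.Agent.S2669
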