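import Cfsg.Statements.S2677
import Cfsg.Agent.Lib.Helper14.FieldAutGU
open Cfsg.Agent.Lib.Helper14.FieldAut Cfsg.Agent.Lib.Helper14 Matrix

set_option autoImplicit false
open Cfsg

namespace Cfsg.Agent.S2677

/-- Centraliser of a field automorphism of odd prime order in PGU_n(q): let q = q₀^r with r an odd prime, K the field with q² elements and σ a field automorphism of K of order r (fixed field of order q₀²). The elements g of GU_n(q) whose entrywise image under σ is a scalar multiple of g — those whose coset modulo the q + 1 unitary scalars is fixed by σ — number (q + 1)/(q₀ + 1) · |GU_n(q₀)|; equivalently the centraliser in PGU_n(q) of the induced automorphism has the order of PGU_n(q₀). -/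
theorem result {K : Type*} [Field K] [Fintype K] {q₀ q r n : ℕ} (hr : r.Prime) (hr2 : r ≠ 2) (hn : 1 ≤ n) (hq : q = q₀ ^ r) (hK : Fintype.card K = q ^ 2) (σ : K ≃+* K) (hσ : orderOf σ = r) : (Nat.card {g : ↥(Cfsg.GU n K q) // ∃ c : K, c ≠ 0 ∧ ((g : GL (Fin n) K) : Matrix (Fin n) (Fin n) K).map σ = c • ((g : GL (Fin n) K) : Matrix (Fin n) (Fin n) K)} : ℤ) = ((q + 1) / (q₀ + 1) : ℕ) * ((q₀ : ℤ) ^ (n * (n - 1) / 2) * ∏ i : Fin n, ((q₀ : ℤ) ^ ((i : ℕ) + 1) - (-1) ^ ((i : ℕ) + 1))) := by
  classical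
  have hr0 : r ≠ 0 := hr.ne_zero
  have hodd : Odd r := hr.odd_of_ne_two hr2
  set K₀ := fixF σ with hK₀def
  have hKc : Fintype.card K = (q₀ ^ 2) ^ r := by rw [hK, hq]; ring
  have hc0 : Nat.card K₀ = q₀ ^ 2 := card_fixF σ hr0 hKc hσ
  let _ : Fintype K₀ := Fintype.ofFinite _
  have hK0 : Fintype.card K₀ = q₀ ^ 2 := by rw [← Nat.card_eq_fintype_card]; exact hc0
  have hq0 : 2 ≤ q₀ := q_ge_two hK0
  have i0 : Fin n := ⟨0, hn⟩
  have hpow : ∀ y : K₀, ((y : K)) ^ q = ((y ^ q₀ : K₀) : K) := by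
    intro y
    obtain ⟨k, hk⟩ := hodd
    have h1 : y ^ q = y ^ q₀ := by
      rw [hq, hk, pow_succ, pow_mul, pow_mul, ← hK0, FiniteField.pow_card_pow]
    rw [← h1]; rfl
  have hnorm : ∀ y : K₀, (y : K) ^ (q + 1) = ((y ^ (q₀ + 1) : K₀) : K) := by
    intro y
    rw [pow_succ, hpow, pow_succ]; rfl
  have hgram : ∀ B : Matrix (Fin n) (Fin n) K₀, (B.map (algebraMap K₀ K))ᵀ *
      (B.map (algebraMap K₀ K)).map (fun x => x ^ q) =
      (Bᵀ * B.map (fun x => x ^ q₀)).map (algebraMap K₀ K) := by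
    intro B
    rw [Matrix.map_mul]
    congr 1
    ext i j
    exact hpow (B i j)
  let Z : Subgroup Kˣ := (powMonoidHom (q + 1) : Kˣ →* Kˣ).ker
  let B := Cfsg.GU n K₀ q₀
  let P : Subgroup (Kˣ × GL (Fin n) K₀) := Z.prod B
  have hcount := card_map_mul (Phi σ n) (psi σ n) (psi_injective σ n) (ker_Phi σ n hn) P
  have hZ : ∀ x : Kˣ, x ∈ Z ↔ x ^ (q + 1) = 1 := fun x => by rw [MonoidHom.mem_ker]; rfl
  have hcZ : Nat.card Z = q + 1 := by
    rw [← card_units_norm_one hK]
    exact Nat.card_congr (Equiv.subtypeEquivRight hZ)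
  have hcP : Nat.card P = (q + 1) * Nat.card B := by
    rw [Nat.card_congr (Subgroup.prodEquiv Z B).toEquiv, Nat.card_prod, hcZ]
  have hcT : Nat.card (P.comap (psi σ n)) = q₀ + 1 := by
    rw [← card_units_norm_one hK0]
    apply Nat.card_congr
    apply Equiv.subtypeEquivRight
    intro t
    rw [Subgroup.mem_comap, Subgroup.mem_prod]
    constructor
    · rintro ⟨h1, -⟩
      have h2 := congrArg Units.val ((hZ _).1 h1)
      have h3 : ((t : K₀) : K) ^ (q + 1) = 1 := h2
      rw [hnorm] at h3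
      apply Units.ext
      apply Subtype.ext
      exact h3
    · intro ht
      have ht' : (t : K₀) ^ (q₀ + 1) = 1 := by
        have := congrArg Units.val ht
        simpa using this
      constructor
      · apply (hZ _).2
        apply Units.ext
        change ((t : K₀) : K) ^ (q + 1) = 1
        rw [hnorm, ht']; rfl
      · change ∀ u v, Cfsg.hermForm n K₀ q₀ ((sc n t⁻¹ : Matrix (Fin n) (Fin n) K₀) *ᵥ u)
          ((sc n t⁻¹ : Matrix (Fin n) (Fin n) K₀) *ᵥ v) = Cfsg.hermForm n K₀ q₀ u v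
        intro u v
        have h1 : (sc n t⁻¹ : Matrix (Fin n) (Fin n) K₀) =
          Matrix.diagonal (fun _ => ((t⁻¹ : K₀ˣ) : K₀)) := rfl
        rw [h1]
        apply diagonal_preserves
        intro _
        rw [Units.val_inv_eq_inv_val, inv_pow, ht', inv_one]
  have hS : Nat.card {g : ↥(Cfsg.GU n K q) // ∃ c : K, c ≠ 0 ∧ ((g : GL (Fin n) K) : Matrix (Fin n) (Fin n) K).map σ = c • ((g : GL (Fin n) K) : Matrix (Fin n) (Fin n) K)} = Nat.card (P.map (Phi σ n)) := by
    apply Nat.card_congr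
    refine (Equiv.subtypeSubtypeEquivSubtypeInter (fun x : GL (Fin n) K => x ∈ Cfsg.GU n K q)
      (fun x => ∃ c : K, c ≠ 0 ∧ (x : Matrix (Fin n) (Fin n) K).map σ =
        c • (x : Matrix (Fin n) (Fin n) K))).trans ?_
    apply Equiv.subtypeEquivRight
    intro x
    rw [Subgroup.mem_map]
    constructor
    · rintro ⟨hxU, c, hc, hx⟩
      have hx0 : (x : Matrix (Fin n) (Fin n) K) ≠ 0 := by
        intro h0
        have h1 := x.mul_inv
        have h2 := congrArg (fun y : Matrix (Fin n) (Fin n) K => y i0 i0) h1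
        simp only [h0, zero_mul, Matrix.one_apply, if_pos] at h2
        simp at h2
      obtain ⟨μ, B', hμ, hxB⟩ := exists_smul_map σ n _ hx0 c hx
      have hG := transpose_mul_map_eq_one hK _ hxU
      change (x : Matrix (Fin n) (Fin n) K)ᵀ * (x : Matrix (Fin n) (Fin n) K).map (fun x => x ^ q) = 1 at hG
      rw [hxB, gram_smul, hgram] at hG
      set G' := B'ᵀ * B'.map (fun x => x ^ q₀) with hG'
      set l0 := G' i0 i0 with hl0
      have hGij : ∀ i j, μ ^ (q + 1) * ((G' i j : K₀) : K) = if i = j then 1 else 0 := by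
        intro i j
        have := congrFun (congrFun hG i) j
        rw [Matrix.one_apply] at this
        exact this
      have h1 : μ ^ (q + 1) * (l0 : K) = 1 := by
        have := hGij i0 i0
        rwa [if_pos rfl] at this
      have hμq : μ ^ (q + 1) ≠ 0 := pow_ne_zero _ hμ
      have hl00 : l0 ≠ 0 := by
        intro h0
        rw [h0] at h1
        simp at h1
      have hBg : G' = l0 • (1 : Matrix (Fin n) (Fin n) K₀) := by
        ext i j
        have h5 := hGij i j
        rw [Matrix.smul_apply, Matrix.one_apply, smul_eq_mul]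
        split_ifs with hij
        · rw [if_pos hij, ← h1] at h5
          rw [mul_one]
          exact mul_left_cancel₀ hμq h5
        · rw [if_neg hij] at h5
          rw [mul_zero]
          rcases mul_eq_zero.1 h5 with h6 | h6
          · exact absurd h6 hμq
          · exact h6
      have hl : (l0 : K) = (μ ^ (q + 1))⁻¹ := eq_inv_of_mul_eq_one_right h1
      have hlq : l0 ^ q₀ = l0 := by
        apply Subtype.ext
        rw [← hpow, hl, inv_pow]
        congr 1
        rw [pow_succ, mul_pow, pow_q_q hK, mul_comm]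
      have hne : Nonempty {x : K₀ // x ^ (q₀ + 1) = l0⁻¹} := by
        have h2 := card_norm_eq hK0 l0⁻¹ (by rw [inv_pow, hlq])
        rw [if_neg (inv_ne_zero hl00)] at h2
        by_contra h
        rw [not_nonempty_iff] at h
        rw [Nat.card_of_isEmpty] at h2
        omega
      obtain ⟨ν, hν⟩ := hne
      have hν0 : ν ≠ 0 := by
        rintro rfl
        rw [zero_pow (Nat.succ_ne_zero _)] at hν
        exact inv_ne_zero hl00 hν.symm
      have hν0' : (ν : K) ≠ 0 := by
        intro h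
        exact hν0 (Subtype.ext h)
      have hgB : (ν • B')ᵀ * (ν • B').map (fun x => x ^ q₀) = 1 := by
        rw [gram_smul, ← hG', hBg, hν, smul_smul, inv_mul_cancel₀ hl00, one_smul]
      let h := guMk hK0 (ν • B') (preserves_of_gram hK0 _ hgB)
      refine ⟨(Units.mk0 (μ * (ν : K)⁻¹) (mul_ne_zero hμ (inv_ne_zero hν0')), h.1), ⟨?_, h.2⟩, ?_⟩
      · apply (hZ _).2
        apply Units.ext
        change (μ * (ν : K)⁻¹) ^ (q + 1) = 1
        rw [mul_pow, inv_pow, hnorm, hν]
        change μ ^ (q + 1) * ((l0 : K)⁻¹)⁻¹ = 1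
        rw [inv_inv, h1]
      · apply Units.ext
        rw [Phi_val, hxB]
        change (μ * (ν : K)⁻¹) • (ν • B').map (algebraMap K₀ K) = _
        have h3 : (ν • B').map (algebraMap K₀ K) = (ν : K) • B'.map (algebraMap K₀ K) := by
          ext i j
          rfl
        rw [h3, smul_smul, mul_assoc, inv_mul_cancel₀ hν0', mul_one]
    · rintro ⟨⟨ζ, h⟩, ⟨hζ, hh⟩, rfl⟩
      refine ⟨?_, σ ζ / ζ, div_ne_zero ((map_ne_zero σ).2 ζ.ne_zero) ζ.ne_zero, ?_⟩
      · change ∀ u v, Cfsg.hermForm n K q ((Phi σ n (ζ, h) : Matrix (Fin n) (Fin n) K) *ᵥ u)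
          ((Phi σ n (ζ, h) : Matrix (Fin n) (Fin n) K) *ᵥ v) = Cfsg.hermForm n K q u v
        intro u v
        apply preserves_of_gram hK
        have h1 : (ζ : K) ^ (q + 1) = 1 := congrArg Units.val ((hZ _).1 hζ)
        have h2 := transpose_mul_map_eq_one hK0 _ hh
        change (h : Matrix (Fin n) (Fin n) K₀)ᵀ * (h : Matrix (Fin n) (Fin n) K₀).map (fun x => x ^ q₀) = 1 at h2
        rw [Phi_val, gram_smul, hgram, h2, h1, one_smul, Matrix.map_one _ (map_zero _) (map_one _)]
      · rw [Phi_val]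
        exact map_smul_map σ n ζ ζ.ne_zero _
  rw [hS]
  rw [hcT, hcP, card_gu hK0 n] at hcount
  obtain ⟨k, hk⟩ : q₀ + 1 ∣ q + 1 := by
    have := Odd.nat_add_dvd_pow_add_pow q₀ 1 hodd
    rwa [one_pow, ← hq] at this
  have hpos : 0 < q₀ + 1 := by omega
  rw [hk, Nat.mul_div_cancel_left _ hpos]
  rw [hk] at hcount
  have h1 : (q₀ + 1) * Nat.card (P.map (Phi σ n)) = (q₀ + 1) * (k * (q₀ ^ (n * (n - 1) / 2) *
      ∏ i ∈ Finset.range n, (if Even i then q₀ ^ (i + 1) + 1 else q₀ ^ (i + 1) - 1))) := by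
    rw [mul_comm, hcount]; ring
  rw [Nat.eq_of_mul_eq_mul_left hpos h1, ← cast_prod_gu q₀ n (by omega)]
  push_cast
  ring

end Cfsg.Agent.S2677
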