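import Cfsg.Statements.S2678
import Mathlib
import Cfsg.Agent.Lib.Helper14.SpRestrict
open Cfsg.Agent.Lib.Helper14 Cfsg.Agent.Lib.Helper5

set_option autoImplicit false
open Cfsg

namespace Cfsg.Agent.S2678

/-- Field-extension embedding of symplectic groups: for a field K with q² elements and a field F with q elements there is an injective homomorphism Sp_2a(K) → Sp_4a(F). -/
theorem result {K F : Type*} [Field K] [Fintype K] [Field F] [Fintype F] {q : ℕ} (hK : Fintype.card K = q ^ 2) (hF : Fintype.card F = q) (a : ℕ) : ∃ φ : ↥(Matrix.symplecticGroup (Fin a) K) →* ↥(Matrix.symplecticGroup (Fin (2 * a)) F), Function.Injective φ := by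
  classical
  obtain ⟨f⟩ := exists_ringHom_of_card hF hK two_ne_zero
  letI : Algebra F K := f.toAlgebra
  have hfin : Module.finrank F K = 2 := by
    have h := finrank_pi_of_card (F := F) (K := K) (ι := Fin 1) hF hK
    have e : Module.finrank F (Fin 1 → K) = Module.finrank F K :=
      (LinearEquiv.funUnique (Fin 1) F K).finrank_eq
    rw [e] at h
    simpa using h
  obtain ⟨lam, hlam, hlam0⟩ := exists_functional_vanishing_on_base (F := F) (K := K) (by omega)
  have hsm : ∀ (c : F) (u : Fin a ⊕ Fin a → K), c • u = (algebraMap F K c) • u := by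
    intro c u
    ext i
    simp [Algebra.smul_def]
  refine exists_injective_hom_sp_restrict (F := F) (K := K) (Cfsg.sympForm a K)
    sympForm_add_left sympForm_add_right ?_ ?_ lam ?_ hlam ?_
    (Matrix.symplecticGroup (Fin a) K).subtype Subtype.val_injective
    (fun g u v => (mem_symplecticGroup_iff_preserves g.1).1 g.2 u v) (2 * a) ?_
  · intro c u v
    rw [hsm, sympForm_smul_left, Algebra.smul_def]
  · intro c u v
    rw [hsm, sympForm_smul_right, Algebra.smul_def]
  · intro u
    rw [sympForm_self, map_zero]
  · intro u hu z
    obtain ⟨i, hi⟩ : ∃ i, u i ≠ 0 := by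
      by_contra hcon
      push Not at hcon
      exact hu (funext hcon)
    rcases i with i | i
    · refine ⟨(-(z / u (Sum.inl i))) • Pi.single (Sum.inr i) 1, ?_⟩
      rw [sympForm_smul_right, sympForm_eq_sum, Finset.sum_eq_single i]
      · simp
        field_simp
      · intro j _ hj
        simp [Pi.single_apply, hj]
      · simp
    · refine ⟨(z / u (Sum.inr i)) • Pi.single (Sum.inl i) 1, ?_⟩
      rw [sympForm_smul_right, sympForm_eq_sum, Finset.sum_eq_single i]
      · simp
        field_simp
      · intro j _ hj
        simp [Pi.single_apply, hj]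
      · simp
  · rw [finrank_pi_of_card (F := F) (K := K) hF hK, Fintype.card_sum, Fintype.card_fin]
    ring

end Cfsg.Agent.S2678
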