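import Cfsg.Statements.S2697
import Cfsg.Agent.Lib.Helper19.FldE

set_option autoImplicit false
open Cfsg

namespace Cfsg.Agent.S2697

open Cfsg.Agent.Lib.Helper19.AutL Cfsg.Agent.Lib.Helper19.FldL

/-- Let T = PSL_n(F) be simple over a finite field (n ≥ 2; |F| ≥ 4 when n = 2) and let x be a field automorphism or a graph-field automorphism of T of prime order r. Then an element y of the coset Inndiag(T)·x (that is, y = δ x with δ in the inner-diagonal group, the image of PGL_n(F)) has order r if and only if y is conjugate to x by an element of Inndiag(T). -/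
theorem result {F : Type*} [Field F] [Fintype F] {p f : ℕ} [Fact p.Prime] (hF : Fintype.card F = p ^ f) (hf : 1 ≤ f) {n : ℕ} (hn : 2 ≤ n) (hs : n = 2 → 4 ≤ Fintype.card F) (x δ : MulAut (Matrix.ProjectiveSpecialLinearGroup (Fin n) F)) (hx : Cfsg.IsFieldAutClassPSL x ∨ Cfsg.IsGraphFieldAutClassPSL x) {r : ℕ} (hr : r.Prime) (hxr : orderOf x = r) (hδ : δ ∈ Cfsg.inndiagPSL n F) :
    orderOf (δ * x) = r ↔ Cfsg.IsConjUnder (Cfsg.inndiagPSL n F) x (δ * x) := by
  have hN := inndiag_normal (F := F) (n := n) p f hf hF hn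
  constructor
  swap
  · rintro ⟨h, -, e⟩
    rw [e, ← hxr]
    exact (MulAut.conj h).orderOf_eq x
  intro ho
  have hδ' := hδ
  rw [inndiag_eq] at hδ'
  obtain ⟨d, rfl⟩ := hδ'
  rcases hx with ⟨α, σ, hσ1, hstd⟩ | ⟨hn3, α, φ, γ, σ, hσ1, hφ, hγ, e⟩
  · rw [stdField_iff] at hstd
    obtain ⟨d', hd'⟩ := normal_cG p f hf hF hn α d
    have e1 : α * (cG d * x) * α⁻¹ = cG d' * fGn σ := by
      rw [← hd', ← hstd]; group
    have hσr : orderOf σ = r := by
      apply order_sigma hn hσ1 hr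
      rw [← hstd, conj_pow, ← hxr, pow_orderOf_eq_one]; group
    have e2 : (cG d' * fGn σ : MulAut (Gn n F)) ^ r = 1 := by
      rw [← e1, conj_pow, ← ho, pow_orderOf_eq_one]; group
    obtain ⟨B, hB⟩ := field_conj hn σ hr.pos hσr d' e2
    exact transport _ hN hstd (by rw [inndiag_eq]; exact ⟨B, rfl⟩) (e1.trans hB)
  · rw [stdField_iff] at hφ
    rw [invT_iff] at hγ
    subst hφ hγ
    obtain ⟨d', hd'⟩ := normal_cG p f hf hF hn α d
    have e1 : α * (cG d * x) * α⁻¹ = cG d' * (fGn σ * iG) := by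
      rw [← hd', ← e]; group
    obtain ⟨rfl, hσr⟩ := gf_order hn3 hσ1 hr (by
      rw [← e, conj_pow, ← hxr, pow_orderOf_eq_one]; group)
    have e2 : (cG d' * (fGn σ * iG) : MulAut (Gn n F)) ^ 2 = 1 := by
      rw [← e1, conj_pow, ← ho, pow_orderOf_eq_one]; group
    obtain ⟨B, hB⟩ := herm_conj hn σ hσr d' e2
    exact transport _ hN e (by rw [inndiag_eq]; exact ⟨B, rfl⟩) (e1.trans hB)

end Cfsg.Agent.S2697
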