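import Cfsg.Statements.S2698
import Cfsg.Agent.Lib.Helper19.FldH

set_option autoImplicit false
open Cfsg

namespace Cfsg.Agent.S2698

open Cfsg.Agent.Lib.Helper19.AutL Cfsg.Agent.Lib.Helper19.FldL

/-- Let T = PSL_n(F) be simple over the field F with p^f elements (n ≥ 2; p^f ≥ 4 when n = 2), G = Inndiag(T) the image of PGL_n(F) in Aut(T), and x a field automorphism of T of prime order r. Then r divides f; the centralizer C_G(x) is isomorphic to PGL_n(F₀) for the subfield size |F₀| = p^(f/r); and the G-class of x is the union of exactly gcd(n, (p^f − 1)/(p^(f/r) − 1)) classes under conjugation by T (the inner automorphism group). -/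
theorem result {F : Type*} [Field F] [Fintype F] {p f : ℕ} [Fact p.Prime] (hF : Fintype.card F = p ^ f) (hf : 1 ≤ f) {n : ℕ} (hn : 2 ≤ n) (hs : n = 2 → 4 ≤ Fintype.card F) (x : MulAut (Matrix.ProjectiveSpecialLinearGroup (Fin n) F)) (hx : Cfsg.IsFieldAutClassPSL x) {r : ℕ} (hr : r.Prime) (hxr : orderOf x = r) (F₀ : Type*) [Field F₀] [Fintype F₀] (hF₀ : Fintype.card F₀ = p ^ (f / r)) :
    r ∣ f ∧ Nonempty (↥(Cfsg.inndiagPSL n F ⊓ Subgroup.centralizer {x}) ≃* Matrix.ProjGenLinGroup (Fin n) F₀) ∧ Cfsg.splitClassCount (Cfsg.inndiagPSL n F) (Cfsg.Inn (Matrix.ProjectiveSpecialLinearGroup (Fin n) F)) x = Nat.gcd n ((p ^ f - 1) / (p ^ (f / r) - 1)) := by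
  classical
  have hN := inndiag_normal (F := F) (n := n) p f hf hF hn
  have hInn : (Cfsg.Inn (Gn n F)).Normal := inferInstance
  obtain ⟨α, σ, hσ1, hstd⟩ := hx
  rw [stdField_iff] at hstd
  have hσr : orderOf σ = r := by
    apply order_sigma hn hσ1 hr
    rw [← hstd, conj_pow, ← hxr, pow_orderOf_eq_one]; group
  obtain ⟨hrf, hK₀⟩ := card_fixedSub hF σ hr.pos hσr
  haveI : Fintype (FixedPoints.subfield (Subgroup.zpowers σ) F) := Fintype.ofFinite _
  let e : F₀ ≃+* FixedPoints.subfield (Subgroup.zpowers σ) F :=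
    FiniteField.ringEquivOfCardEq (by rw [hF₀, ← hK₀, Nat.card_eq_fintype_card])
  let j : F₀ →+* F := (FixedPoints.subfield (Subgroup.zpowers σ) F).subtype.comp e.toRingHom
  have hj : ∀ a, σ a = a ↔ ∃ a₀, j a₀ = a := by
    intro a
    constructor
    · intro h
      refine ⟨e.symm ⟨a, (mem_fixedSub σ a).2 h⟩, ?_⟩
      show ((e (e.symm ⟨a, (mem_fixedSub σ a).2 h⟩) : FixedPoints.subfield (Subgroup.zpowers σ) F) : F) = a
      rw [RingEquiv.apply_symm_apply]
    · rintro ⟨a₀, rfl⟩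
      exact (mem_fixedSub σ _).1 (e a₀).2
  refine ⟨hrf, ?_, ?_⟩
  · have e₀ := cent_field_iso hn σ hr.pos hσr j hj
    rw [← hstd] at e₀
    obtain ⟨e₀⟩ := e₀
    exact ⟨(centConj _ hN α x).trans e₀⟩
  · rw [split_conj hN hInn α x, hstd, split_field hF hn σ hr.pos hσr]

end Cfsg.Agent.S2698
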