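import Cfsg.Statements.S2704
import Cfsg.Agent.Lib.Helper19.FldJ

set_option autoImplicit false
open Cfsg

namespace Cfsg.Agent.S2704

open Cfsg.Agent.Lib.Helper19.AutL Cfsg.Agent.Lib.Helper19.FldL

/-- Let T = PSL_n(F) over the field F with p^f elements, n ≥ 3, and G = Inndiag(T) the image of PGL_n(F). If x is an involutory graph-field automorphism of T then f is even; x is G-conjugate to every other involutory graph-field automorphism; C_G(x) is isomorphic to the projective general unitary group PGU_n(q₀) with q₀² = p^f, realised over F itself through the Hermitian form Σ uᵢ vᵢ^{q₀}; and the G-class of x is the union of exactly gcd(n, q₀ − 1) T-classes. -/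
theorem result {F : Type*} [Field F] [Fintype F] {p f : ℕ} [Fact p.Prime] (hF : Fintype.card F = p ^ f) (hf : 1 ≤ f) {n : ℕ} (hn : 3 ≤ n) (x : MulAut (Matrix.ProjectiveSpecialLinearGroup (Fin n) F)) (hx : Cfsg.IsGraphFieldAutClassPSL x) (hx2 : orderOf x = 2) :
    Even f ∧ (∀ y : MulAut (Matrix.ProjectiveSpecialLinearGroup (Fin n) F), Cfsg.IsGraphFieldAutClassPSL y → orderOf y = 2 → Cfsg.IsConjUnder (Cfsg.inndiagPSL n F) x y) ∧ Nonempty (↥(Cfsg.inndiagPSL n F ⊓ Subgroup.centralizer {x}) ≃* Cfsg.PGU n F (p ^ (f / 2))) ∧ Cfsg.splitClassCount (Cfsg.inndiagPSL n F) (Cfsg.Inn (Matrix.ProjectiveSpecialLinearGroup (Fin n) F)) x = Nat.gcd n (p ^ (f / 2) - 1) := by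
  classical
  have hn2 : 2 ≤ n := by omega
  have hN := inndiag_normal (F := F) (n := n) p f hf hF hn2
  have hInn : (Cfsg.Inn (Gn n F)).Normal := inferInstance
  haveI : CharP F p := charP_of_card hf hF
  haveI : IsCyclic (F ≃+* F) := Cfsg.Agent.Lib.Helper19.OutL.isCyclic_ringAut p
  haveI : Finite (F ≃+* F) :=
    Finite.of_injective (fun e : F ≃+* F => (e : F → F)) DFunLike.coe_injective
  obtain ⟨-, α, φ, γ, σ, hσ1, hφ, hγ, e⟩ := hx
  rw [stdField_iff] at hφ
  rw [invT_iff] at hγ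
  subst hφ hγ
  obtain ⟨-, hσr⟩ := gf_order hn hσ1 Nat.prime_two (by
    rw [← e, conj_pow, ← hx2, pow_orderOf_eq_one]; group)
  refine ⟨(even_iff_two_dvd).2 (card_fixedSub hF σ (by norm_num) hσr).1, ?_, ?_, ?_⟩
  · rintro y ⟨-, α', φ', γ', σ', hσ1', hφ', hγ', e'⟩ hy2
    rw [stdField_iff] at hφ'
    rw [invT_iff] at hγ'
    subst hφ' hγ'
    obtain ⟨-, hσr'⟩ := gf_order hn hσ1' Nat.prime_two (by
      rw [← e', conj_pow, ← hy2, pow_orderOf_eq_one]; group)
    have hσσ : σ' = σ := unique_invol hσr' hσr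
    subst hσσ
    obtain ⟨a, ha⟩ := gf_std p f hf hF hn2 σ' e
    obtain ⟨a', ha'⟩ := gf_std p f hf hF hn2 σ' e'
    refine ⟨cG (a' * a⁻¹), by rw [inndiag_eq]; exact ⟨_, rfl⟩, ?_⟩
    rw [ha, ha', map_mul, map_inv]
    group
  · have e₀ := cent_gf_iso hn2 σ hσr (sigma_eq_pow hF hf σ hσr)
    rw [← e] at e₀
    obtain ⟨e₀⟩ := e₀
    exact ⟨(centConj _ hN α x).trans e₀⟩
  · rw [split_conj hN hInn α x, e, split_gf hF hf hn2 σ hσr]

end Cfsg.Agent.S2704
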