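import Cfsg.Statements.S2723
import Cfsg.Agent.S0790
import Cfsg.Agent.Lib.Helper15.GOAut2
import Cfsg.Agent.Lib.Helper15.PlusLagr

set_option autoImplicit false
open Cfsg Cfsg.Agent.Lib.Helper15

namespace Cfsg.Agent.S2723

/-- Let T = PΩ⁺_{2m}(F) with m ≥ 4 and |F| = q odd. The image of the special orthogonal group in Aut(T) contains the inner automorphism group T with index 1 (they coincide) when m is odd and q ≡ 3 (mod 4), and with index 2 otherwise (the index is 2 exactly when the discriminant of the form is a square). -/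
theorem result {F : Type*} [Field F] [Fintype F] (hodd : Odd (Fintype.card F)) {m : ℕ} (hm : 4 ≤ m) :
    ((Odd m ∧ Fintype.card F % 4 = 3) → (Cfsg.Inn (Cfsg.POmega F (Cfsg.quadFormPlus m F))).relIndex (Cfsg.psoAut F (Cfsg.quadFormPlus m F)) = 1) ∧ (¬ (Odd m ∧ Fintype.card F % 4 = 3) → (Cfsg.Inn (Cfsg.POmega F (Cfsg.quadFormPlus m F))).relIndex (Cfsg.psoAut F (Cfsg.quadFormPlus m F)) = 2) := by
  have h2 : (2 : F) ≠ 0 := by
    intro h
    have := CharTwo.of_one_ne_zero_of_two_eq_zero (one_ne_zero (α := F)) h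
    have h3 := FiniteField.even_card_of_char_two (F := F) (ringChar.eq F 2)
    exact (Nat.not_even_iff_odd.2 hodd) (Nat.even_iff.2 h3)
  have hcard : Fintype.card (Fin m ⊕ Fin m) = 2 * m := by simp; ring
  have hcrit := Cfsg.Agent.S0790.result (F := F) rfl hodd m (by omega)
  rw [← coe_qPlus] at hcrit ⊢
  have hex : (∃ g : ↥(Cfsg.isometryGroup F (qPlus m F)), g ∈ Cfsg.Omega F (qPlus m F) ∧
      ((g : Matrix.GeneralLinearGroup (Fin m ⊕ Fin m) F) :
        Matrix (Fin m ⊕ Fin m) (Fin m ⊕ Fin m) F) = -1) ↔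
      negI (qPlus m F) ∈ Cfsg.Omega F (qPlus m F) := by
    constructor
    · rintro ⟨g, hg, hgc⟩
      have : g = negI (qPlus m F) := isometry_ext (by rw [hgc, coe_negI])
      rwa [this] at hg
    · intro h
      exact ⟨_, h, coe_negI _⟩
  rw [hex] at hcrit
  obtain ⟨k1, k2⟩ := relIndex_inn_pso h2 (qPlus m F) (qPlus_nondegenerate m F) (by omega)
    (by rw [hcard]; exact even_two_mul m)
  have harith : Fintype.card F ^ m % 4 = 1 ↔ ¬ (Odd m ∧ Fintype.card F % 4 = 3) := by
    generalize Fintype.card F = q at *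
    obtain ⟨j, rfl⟩ := hodd
    rw [Nat.pow_mod]
    rcases Nat.even_or_odd' j with ⟨i, rfl | rfl⟩
    · have : (2 * (2 * i) + 1) % 4 = 1 := by omega
      rw [this, one_pow]
      simp
    · have : (2 * (2 * i + 1) + 1) % 4 = 3 := by omega
      rw [this]
      rcases Nat.even_or_odd' m with ⟨l, rfl | rfl⟩
      · rw [pow_mul, Nat.pow_mod]
        simp
      · rw [pow_succ, pow_mul, Nat.mul_mod, Nat.pow_mod]
        simp
  constructor
  · intro h
    exact k2 (fun hmem => (harith.1 (hcrit.1 hmem)) h)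
  · intro h
    exact k1 (hcrit.2 (harith.2 h))

end Cfsg.Agent.S2723
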