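import Cfsg.Statements.S2727
import Cfsg.Agent.S0791
import Cfsg.Agent.Lib.Helper15.GOAut2
import Cfsg.Agent.Lib.Helper15.MinusForm

set_option autoImplicit false
open Cfsg Cfsg.Agent.Lib.Helper15

namespace Cfsg.Agent.S2727

/-- Let T = PΩ⁻_{2m+2}(F) with m ≥ 3 and |F| = q odd (form with anisotropic binary part). The image of the special orthogonal group in Aut(T) contains the inner automorphism group T with index 2 when m is even and q ≡ 3 (mod 4), and coincides with it otherwise (the index is 2 exactly when the discriminant of the form is a square). -/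
theorem result {F : Type*} [Field F] [Fintype F] (hodd : Odd (Fintype.card F)) {m : ℕ} (hm : 3 ≤ m) (a b : F) (hab : (∀ z₁ z₂ : F, z₁ ^ 2 + a * z₁ * z₂ + b * z₂ ^ 2 = 0 → z₁ = 0 ∧ z₂ = 0)) :
    ((Even m ∧ Fintype.card F % 4 = 3) → (Cfsg.Inn (Cfsg.POmega F (Cfsg.quadFormMinus m F a b))).relIndex (Cfsg.psoAut F (Cfsg.quadFormMinus m F a b)) = 2) ∧ (¬ (Even m ∧ Fintype.card F % 4 = 3) → (Cfsg.Inn (Cfsg.POmega F (Cfsg.quadFormMinus m F a b))).relIndex (Cfsg.psoAut F (Cfsg.quadFormMinus m F a b)) = 1) := by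
  have h2 : (2 : F) ≠ 0 := by
    intro h
    have := CharTwo.of_one_ne_zero_of_two_eq_zero (one_ne_zero (α := F)) h
    have h3 := FiniteField.even_card_of_char_two (F := F) (ringChar.eq F 2)
    exact (Nat.not_even_iff_odd.2 hodd) (Nat.even_iff.2 h3)
  have hcard : Fintype.card ((Fin m ⊕ Fin m) ⊕ Fin 2) = 2 * (m + 1) := by simp; ring
  have hcrit := Cfsg.Agent.S0791.result (F := F) rfl hodd (m + 1) (by omega) a b hab
  rw [Nat.add_sub_cancel] at hcrit
  rw [← coe_qMinus] at hcrit ⊢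
  have hex : (∃ g : ↥(Cfsg.isometryGroup F (qMinus m F a b)), g ∈ Cfsg.Omega F (qMinus m F a b) ∧
      ((g : Matrix.GeneralLinearGroup ((Fin m ⊕ Fin m) ⊕ Fin 2) F) :
        Matrix ((Fin m ⊕ Fin m) ⊕ Fin 2) ((Fin m ⊕ Fin m) ⊕ Fin 2) F) = -1) ↔
      negI (qMinus m F a b) ∈ Cfsg.Omega F (qMinus m F a b) := by
    constructor
    · rintro ⟨g, hg, hgc⟩
      have : g = negI (qMinus m F a b) := isometry_ext (by rw [hgc, coe_negI])
      rwa [this] at hg
    · intro h
      exact ⟨_, h, coe_negI _⟩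
  rw [hex] at hcrit
  obtain ⟨k1, k2⟩ := relIndex_inn_pso h2 (qMinus m F a b) (qMinus_nondegenerate m a b hab) (by omega)
    (by rw [hcard]; exact even_two_mul _)
  have harith : Fintype.card F ^ (m + 1) % 4 = 3 ↔ (Even m ∧ Fintype.card F % 4 = 3) := by
    generalize Fintype.card F = q at *
    obtain ⟨j, rfl⟩ := hodd
    rw [Nat.pow_mod]
    rcases Nat.even_or_odd' j with ⟨i, rfl | rfl⟩
    · have : (2 * (2 * i) + 1) % 4 = 1 := by omega
      rw [this, one_pow]
      simp
    · have : (2 * (2 * i + 1) + 1) % 4 = 3 := by omega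
      rw [this]
      rcases Nat.even_or_odd' m with ⟨l, rfl | rfl⟩
      · rw [pow_succ, pow_mul, Nat.mul_mod, Nat.pow_mod]
        simp
      · rw [show 2 * l + 1 + 1 = 2 * (l + 1) by ring, pow_mul, Nat.pow_mod]
        simp
  constructor
  · intro h
    exact k1 (hcrit.2 (harith.2 h))
  · intro h
    exact k2 (fun hmem => h (harith.1 (hcrit.1 hmem)))

end Cfsg.Agent.S2727
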