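import Cfsg.Statements.S2734
import Cfsg.Agent.Lib.Helper7.FoldG

set_option autoImplicit false
open Cfsg

namespace Cfsg.Agent.S2734

/-- In the Chevalley group of type D₄ over a finite field F (the matrix group generated by the root elements), a graph automorphism attached to a symmetry π of the Dynkin diagram (sending each fundamental root element x_p(t) to x_{π(p)}(t) and each x_{−p}(t) to x_{−π(p)}(t)) that has order 3 — a standard triality graph automorphism, π being a 3-cycle of the three outer nodes — has fixed-point subgroup isomorphic to the Chevalley group of type G₂ over F. -/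
theorem result {F : Type*} [Field F] [Fintype F] (τ : MulAut ↥(Cfsg.Lie.chevD4.group F)) (hτ : Cfsg.Lie.chevD4.IsGraphAut τ) (hτ3 : orderOf τ = 3) :
    Nonempty (↥(MonoidHom.eqLocus τ.toMonoidHom (MonoidHom.id ↥(Cfsg.Lie.chevD4.group F))) ≃* ↥(Cfsg.Lie.chevG2.group F)) := by
  obtain ⟨π, hπ, h⟩ := hτ
  have hφ : ∀ t, (Lib.Helper7.grTwD4 F).φ t = t := fun _ => rfl
  obtain ⟨e0⟩ := Lib.Helper7.grTwD4_iso F
  have A : Lib.Helper7.ActsBy Lib.Helper7.sys5D4 τ
      (fun i => if hi : i < Cfsg.Lie.chevD4.rank then (π ⟨i, hi⟩).val else i) :=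
    Lib.Helper7.actsBy_of_graph (Lib.Helper7.graphExpD4) h (fun i => by simp [i.2])
  have hlt : ∀ i < Cfsg.Lie.chevD4.rank,
      (fun i => if hi : i < Cfsg.Lie.chevD4.rank then (π ⟨i, hi⟩).val else i) i < Cfsg.Lie.chevD4.rank := by
    intro i hi
    simp only [hi, dif_pos]
    exact (π ⟨i, hi⟩).2
  rcases Lib.Helper7.symD4 π hπ with h1 | h1 | h1
  · exfalso
    have h2 : τ * τ = 1 := by
      apply (A.mul A hlt).eq_one
      intro i hi
      have h3 : π (π ⟨i, hi⟩) = ⟨i, hi⟩ := by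
        have := DFunLike.congr_fun h1 ⟨i, hi⟩
        simpa using this
      simp only [hi, dif_pos, (π ⟨i, hi⟩).2, Fin.eta, h3]
    have h3 : orderOf τ ∣ 2 := orderOf_dvd_of_pow_eq_one (by rw [pow_two, h2])
    rw [hτ3] at h3
    omega
  · have A' : Lib.Helper7.ActsBy Lib.Helper7.sys5D4 τ (Lib.Helper7.grTwD4 F).ρs :=
      Lib.Helper7.actsBy_of_graph (Lib.Helper7.graphExpD4) h h1
    obtain ⟨e1⟩ := A'.fix_equiv (Lib.Helper7.grTwD4_good F) hφ
      (MonoidHom.eqLocus τ.toMonoidHom (MonoidHom.id ↥(Cfsg.Lie.chevD4.group F))) (fun g => Iff.rfl)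
    exact ⟨e1.trans e0⟩
  · have A' : Lib.Helper7.ActsBy Lib.Helper7.sys5D4 τ⁻¹ (Lib.Helper7.grTwD4 F).ρs := by
      apply A.inv
      · intro i hi
        have := h1 ⟨i, hi⟩
        show Lib.Helper7.rsD4 i < _
        rw [← this]
        exact (π⁻¹ ⟨i, hi⟩).2
      · intro i hi
        have h2 := h1 ⟨i, hi⟩
        have h3 : Lib.Helper7.rsD4 i < Cfsg.Lie.chevD4.rank := by
          rw [← h2]; exact (π⁻¹ ⟨i, hi⟩).2
        show (if hi : Lib.Helper7.rsD4 i < Cfsg.Lie.chevD4.rank then (π ⟨Lib.Helper7.rsD4 i, hi⟩).val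
          else Lib.Helper7.rsD4 i) = i
        rw [dif_pos h3]
        have h4 : (⟨Lib.Helper7.rsD4 i, h3⟩ : Fin Cfsg.Lie.chevD4.rank) = π⁻¹ ⟨i, hi⟩ := Fin.ext h2.symm
        rw [h4]
        simp
    obtain ⟨e1⟩ := A'.fix_equiv (Lib.Helper7.grTwD4_good F) hφ
      (MonoidHom.eqLocus τ.toMonoidHom (MonoidHom.id ↥(Cfsg.Lie.chevD4.group F))) (fun g => by
        show τ g = g ↔ τ⁻¹ g = g
        constructor
        · intro hg
          conv_lhs => rw [← hg]
          simp
        · intro hg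
          conv_lhs => rw [← hg]
          simp)
    exact ⟨e1.trans e0⟩

end Cfsg.Agent.S2734
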