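import Cfsg.Statements.S2738
import Cfsg.Agent.Lib.Helper14.Orders
import Cfsg.Agent.S0248
open Cfsg.Agent.Lib.Helper14

set_option autoImplicit false
open Cfsg

namespace Cfsg.Agent.S2738

/-- The special linear group SL(3, 4) has centre of order 3 and does not split over it: no subgroup is a complement to the centre (so SL(3, 4) is a non-split central extension of PSL(3, 4) by a group of order 3). -/
theorem result (F : Type*) [Field F] [Fintype F] (hF : Fintype.card F = 4) : Nat.card ↥(Subgroup.center (Matrix.SpecialLinearGroup (Fin 3) F)) = 3 ∧ ¬ ∃ K : Subgroup (Matrix.SpecialLinearGroup (Fin 3) F), Subgroup.IsComplement' (Subgroup.center (Matrix.SpecialLinearGroup (Fin 3) F)) K := by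
  classical
  have hc : Nat.card ↥(Subgroup.center (Matrix.SpecialLinearGroup (Fin 3) F)) = 3 := by
    rw [card_center_SL_field 3 (by norm_num), hF]
    rfl
  refine ⟨hc, ?_⟩
  rintro ⟨K, hK⟩
  have hnorm : K.Normal := by
    constructor
    intro n hn g
    obtain ⟨⟨z, k⟩, hzk⟩ := hK.2 g
    have hg : (z : Matrix.SpecialLinearGroup (Fin 3) F) * k = g := hzk
    have hz := Subgroup.mem_center_iff.1 z.2
    have : g * n * g⁻¹ = (k : Matrix.SpecialLinearGroup (Fin 3) F) * n * (k : Matrix.SpecialLinearGroup (Fin 3) F)⁻¹ := by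
      rw [← hg, mul_inv_rev]
      calc (z : Matrix.SpecialLinearGroup (Fin 3) F) * k * n * ((k : Matrix.SpecialLinearGroup (Fin 3) F)⁻¹ * (z : Matrix.SpecialLinearGroup (Fin 3) F)⁻¹)
          = (z : Matrix.SpecialLinearGroup (Fin 3) F) * (k * n * (k : Matrix.SpecialLinearGroup (Fin 3) F)⁻¹) * (z : Matrix.SpecialLinearGroup (Fin 3) F)⁻¹ := by group
        _ = (k * n * (k : Matrix.SpecialLinearGroup (Fin 3) F)⁻¹) * z * (z : Matrix.SpecialLinearGroup (Fin 3) F)⁻¹ := by rw [hz]
        _ = _ := by group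
    rw [this]
    exact K.mul_mem (K.mul_mem k.2 hn) (K.inv_mem k.2)
  have hidx : K.index = 3 := hK.index_eq_card.trans hc
  haveI : Fact (Nat.Prime 3) := ⟨Nat.prime_three⟩
  have hcyc : IsCyclic (Matrix.SpecialLinearGroup (Fin 3) F ⧸ K) :=
    isCyclic_of_prime_card (p := 3) hidx
  have hcomm : commutator (Matrix.SpecialLinearGroup (Fin 3) F) ≤ K := by
    rw [← Subgroup.Normal.quotient_commutative_iff_commutator_le]
    exact hcyc.isMulCommutative
  rw [Cfsg.Agent.S0248.result 3 (le_refl 3), top_le_iff] at hcomm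
  rw [hcomm, Subgroup.index_top] at hidx
  norm_num at hidx

end Cfsg.Agent.S2738
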