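import Cfsg.Statements.S2739
import Cfsg.Agent.Lib.Helper3.M21.Ord3
import Cfsg.Agent.Lib.Helper3.L34.Psl
import Cfsg.Agent.Lib.Helper3.ExcIso

set_option autoImplicit false
open scoped Pointwise
open Cfsg

namespace Cfsg.Agent.S2739

/-- In the projective special linear group PSL(3, 4) all subgroups of order 3 are conjugate. -/
theorem result (F : Type*) [Field F] [Fintype F] (hF : Fintype.card F = 4) (X Y : Subgroup (Matrix.ProjectiveSpecialLinearGroup (Fin 3) F)) (hX : Nat.card ↥X = 3) (hY : Nat.card ↥Y = 3) : ∃ g : Matrix.ProjectiveSpecialLinearGroup (Fin 3) F, MulAut.conj g • X = Y := by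
  obtain ⟨e2⟩ := Cfsg.Agent.Lib.Helper3.M21.St3_iso
  obtain ⟨e3⟩ := Cfsg.Agent.Lib.Helper3.L34.iso
  obtain ⟨e4⟩ := Cfsg.Agent.Lib.Helper3.L34.psl_iso
  obtain ⟨e5⟩ := Cfsg.Agent.Lib.Helper3.psl_of_card (n := Fin 3) (F := F)
    (K := Cfsg.Agent.Lib.Helper3.F4) (by rw [hF, Cfsg.Agent.Lib.Helper3.F4.card_eq])
  let e := e5.trans (e4.trans (e3.trans e2.symm))
  have : Fact (Nat.Prime 3) := ⟨by norm_num⟩
  apply Cfsg.Agent.Lib.Helper3.M21.subgroups_conj_of_elements 3 _ X Y hX hY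
  intro x y hx hy
  obtain ⟨s, hs⟩ := Cfsg.Agent.Lib.Helper3.M21.St3_ord3_conj (e x) (e y)
    (by rw [MulEquiv.orderOf_eq e x, hx]) (by rw [MulEquiv.orderOf_eq e y, hy])
  refine ⟨e.symm s, e.injective ?_⟩
  rw [map_mul, map_mul, map_inv, MulEquiv.apply_symm_apply, hs]

end Cfsg.Agent.S2739
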