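import Cfsg.Statements.S2758
import Cfsg.Agent.Lib.Helper4.Basic
import Cfsg.Agent.Lib.Helper23.Recog

set_option autoImplicit false
open Cfsg

namespace Cfsg.Agent.S2758

open Cfsg.Agent.Lib.Helper4 Cfsg.Agent.Lib.Helper23 DihedralGroup

/-- the preimage of the rotations -/
def rotPre {K : Type*} [Group K] {p : ℕ} (π : K →* DihedralGroup p) : Subgroup K where
  carrier := {k | ∃ i, π k = r i}
  one_mem' := ⟨0, by rw [map_one]; rfl⟩
  mul_mem' := by
    rintro a b ⟨i, hi⟩ ⟨j, hj⟩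
    exact ⟨i + j, by rw [map_mul, hi, hj, r_mul_r]⟩
  inv_mem' := by
    rintro a ⟨i, hi⟩
    exact ⟨-i, by rw [map_inv, hi]; rfl⟩

theorem rotPre_normal {K : Type*} [Group K] {p : ℕ} (π : K →* DihedralGroup p) :
    (rotPre π).Normal := by
  constructor
  rintro n ⟨i, hi⟩ g
  show ∃ j, π (g * n * g⁻¹) = r j
  rw [map_mul, map_mul, map_inv, hi]
  rcases π g with a | a
  · exact ⟨i, by simp⟩
  · exact ⟨-i, by simp⟩

theorem sr_pow_odd {p : ℕ} (j : ZMod p) (m : ℕ) (hm : Odd m) : (sr j : DihedralGroup p) ^ m = sr j := by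
  obtain ⟨c, rfl⟩ := hm
  rw [pow_succ, pow_mul, pow_two, sr_mul_self, one_pow, one_mul]

theorem lemB {K : Type*} [Group K] [Finite K] {p : ℕ} [Fact p.Prime] (hp2 : p ≠ 2)
    (π : K →* DihedralGroup p) (hπ : Function.Surjective π) :
    ∃ (x : K) (P : Subgroup K), (∃ k : ℕ, orderOf x = 2 ^ k) ∧ IsPGroup p P ∧
      x ∈ Subgroup.normalizer (P : Set K) ∧ x ∉ Subgroup.centralizer (P : Set K) := by
  have hp : p.Prime := Fact.out
  have hodd : Odd p := hp.odd_of_ne_two hp2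
  have := rotPre_normal π
  obtain ⟨u, hu⟩ := hπ (r 1)
  obtain ⟨a, c, hc, hac⟩ := Nat.exists_eq_pow_mul_and_not_dvd (orderOf_pos u).ne' p hp.ne_one
  have hc0 : c ≠ 0 := by rintro rfl; exact hc (dvd_zero p)
  have hu'o : orderOf (u ^ c) = p ^ a := by
    rw [orderOf_pow_of_dvd hc0 (by rw [hac]; exact dvd_mul_left _ _), hac,
      Nat.mul_div_cancel _ (Nat.pos_of_ne_zero hc0)]
  have hu'π : π (u ^ c) = r (c : ZMod p) := by rw [map_pow, hu, r_one_pow]
  have hcz : (c : ZMod p) ≠ 0 := by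
    rw [Ne, ZMod.natCast_eq_zero_iff]; exact hc
  have hzp : IsPGroup p (Subgroup.zpowers (u ^ c)) :=
    IsPGroup.of_card (n := a) (by rw [Nat.card_zpowers, hu'o])
  obtain ⟨P, hP⟩ := hzp.exists_le_sylow
  have hPN : (P : Subgroup K) ≤ rotPre π := by
    intro w hw
    obtain ⟨k, hk⟩ := P.2 ⟨w, hw⟩
    have hwk : w ^ p ^ k = 1 := by simpa using congrArg Subtype.val hk
    have h1 : (π w) ^ p ^ k = 1 := by rw [← map_pow, hwk, map_one]
    rcases hw' : π w with i | i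
    · exact ⟨i, hw'⟩
    · rw [hw', sr_pow_odd i _ (hodd.pow)] at h1
      exact absurd h1 (by rw [one_def]; exact fun h => by cases h)
  have hfr := Sylow.normalizer_sup_eq_top' P hPN
  obtain ⟨t, ht⟩ := hπ (sr 0)
  have htm : t ∈ Subgroup.normalizer ((P : Subgroup K) : Set K) ⊔ rotPre π := by
    have h0 := Subgroup.mem_top t
    rw [← hfr] at h0; exact h0
  rw [Subgroup.mem_sup_of_normal_right] at htm
  obtain ⟨g, hg, n, ⟨i, hi⟩, hgn⟩ := htm
  have hgπ : ∃ j, π g = sr j := by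
    have h1 : π g = π t * (π n)⁻¹ := by rw [← hgn, map_mul, mul_inv_cancel_right]
    rw [ht, hi] at h1
    exact ⟨0 + -i, by rw [h1]; simp⟩
  obtain ⟨j, hj⟩ := hgπ
  obtain ⟨b, m, hm, hbm⟩ := Nat.exists_eq_pow_mul_and_not_dvd (orderOf_pos g).ne' 2 (by norm_num)
  have hm0 : m ≠ 0 := by rintro rfl; exact hm (dvd_zero 2)
  have hmodd : Odd m := Nat.not_even_iff_odd.1 (fun h => hm h.two_dvd)
  refine ⟨g ^ m, P, ⟨b, ?_⟩, P.2, Subgroup.pow_mem _ hg m, ?_⟩
  · rw [orderOf_pow_of_dvd hm0 (by rw [hbm]; exact dvd_mul_left _ _), hbm,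
      Nat.mul_div_cancel _ (Nat.pos_of_ne_zero hm0)]
  · intro hcen
    have h1 := Subgroup.mem_centralizer_iff.1 hcen (u ^ c) (hP (Subgroup.mem_zpowers _))
    have h2 := congrArg π h1
    rw [map_mul, map_mul, hu'π, map_pow, hj, sr_pow_odd j m hmodd, r_mul_sr, sr_mul_r] at h2
    have h3 : j - (c : ZMod p) = j + c := by simpa using h2
    have h4 : (2 : ZMod p) * c = 0 := by linear_combination (-1 : ZMod p) * h3
    rcases mul_eq_zero.1 h4 with h5 | h5
    · have h6 : ((2 : ℕ) : ZMod p) = 0 := by exact_mod_cast h5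
      rw [ZMod.natCast_eq_zero_iff] at h6
      exact hp2 ((Nat.prime_dvd_prime_iff_eq hp Nat.prime_two).1 h6)
    · exact hcz h5

theorem ne_inv {G : Type*} [Group G] {p : ℕ} [Fact p.Prime] (hp2 : p ≠ 2) (y : G) (k : ℕ)
    (hk : orderOf y = p ^ k) (hy1 : y ≠ 1) : y ≠ y⁻¹ := by
  have hp : p.Prime := Fact.out
  intro h
  have h1 : y ^ 2 = 1 := by
    rw [pow_two]; nth_rewrite 1 [h]; exact inv_mul_cancel y
  have h2 : orderOf y ∣ 2 := orderOf_dvd_of_pow_eq_one h1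
  have hk0 : k ≠ 0 := by
    rintro rfl
    rw [pow_zero, orderOf_eq_one_iff] at hk
    exact hy1 hk
  have h3 : p ∣ 2 := (dvd_pow_self p hk0).trans (hk ▸ h2)
  exact hp2 ((Nat.prime_dvd_prime_iff_eq hp Nat.prime_two).1 h3)

theorem mem_normalizer_zpowers {G : Type*} [Group G] (x y : G) (hxy : x * y * x⁻¹ = y⁻¹) :
    x ∈ Subgroup.normalizer ((Subgroup.zpowers y : Subgroup G) : Set G) := by
  rw [Subgroup.mem_normalizer_iff]
  intro h
  constructor
  · rintro ⟨n, rfl⟩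
    show x * y ^ n * x⁻¹ ∈ _
    rw [← conj_zpow, hxy]
    exact Subgroup.zpow_mem _ (Subgroup.inv_mem _ (Subgroup.mem_zpowers y)) n
  · rintro ⟨n, hn⟩
    have hn' : y ^ n = x * h * x⁻¹ := hn
    have h1 : x⁻¹ * y * x = y⁻¹ := by
      have h0 : y = x⁻¹ * y⁻¹ * x := by rw [← hxy]; group
      calc x⁻¹ * y * x = (x⁻¹ * y⁻¹ * x)⁻¹ := by group
        _ = y⁻¹ := by rw [← h0]
    have h2 : h = (x⁻¹ * y * x) ^ n := by
      have h3 : x⁻¹ * y * x = x⁻¹ * y * (x⁻¹)⁻¹ := by rw [inv_inv]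
      rw [h3, conj_zpow, hn']; group
    rw [h2, h1]
    exact Subgroup.zpow_mem _ (Subgroup.inv_mem _ (Subgroup.mem_zpowers y)) n

theorem two_to_three {G : Type*} [Group G] [Finite G] {p : ℕ} [Fact p.Prime]
    (x : G) (P : Subgroup G) (hx : ∃ k : ℕ, orderOf x = 2 ^ k) (hP : IsPGroup p P)
    (hn : x ∈ Subgroup.normalizer (P : Set G)) (hc : x ∉ Subgroup.centralizer (P : Set G)) :
    ∃ x y : G, (∃ k : ℕ, orderOf x = 2 ^ k) ∧ (∃ k : ℕ, orderOf y = p ^ k) ∧ y ≠ 1 ∧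
      x * y * x⁻¹ = y⁻¹ := by
  classical
  have hp : p.Prime := Fact.out
  obtain ⟨k, hk⟩ := hx
  have hex : ∃ i, x ^ 2 ^ i ∈ Subgroup.centralizer (P : Set G) :=
    ⟨k, by rw [← hk, pow_orderOf_eq_one]; exact Subgroup.one_mem _⟩
  obtain ⟨i, hi, hmin⟩ : ∃ i, x ^ 2 ^ i ∈ Subgroup.centralizer (P : Set G) ∧
      ∀ j < i, x ^ 2 ^ j ∉ Subgroup.centralizer (P : Set G) :=
    ⟨Nat.find hex, Nat.find_spec hex, fun j hj => Nat.find_min hex hj⟩
  have hi0 : i ≠ 0 := by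
    rintro rfl
    rw [pow_zero, pow_one] at hi
    exact hc hi
  obtain ⟨i', rfl⟩ := Nat.exists_eq_succ_of_ne_zero hi0
  obtain ⟨s, hs0⟩ : ∃ s, s = x ^ 2 ^ i' := ⟨_, rfl⟩
  have hs : s ∉ Subgroup.centralizer (P : Set G) := by
    rw [hs0]; exact hmin i' (Nat.lt_succ_self _)
  have hs2 : s * s ∈ Subgroup.centralizer (P : Set G) := by
    have h0 : x ^ 2 ^ (i' + 1) = s * s := by rw [hs0, pow_succ, pow_mul, pow_two]
    rwa [← h0]
  have hsn : s ∈ Subgroup.normalizer (P : Set G) := by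
    rw [hs0]; exact Subgroup.pow_mem _ hn _
  have hw : ∃ w ∈ P, s * w * s⁻¹ ≠ w := by
    by_contra hcon
    push Not at hcon
    apply hs
    rw [Subgroup.mem_centralizer_iff]
    intro w hw
    have h0 := hcon w hw
    rw [mul_inv_eq_iff_eq_mul] at h0; exact h0.symm
  obtain ⟨w, hw, hsw⟩ := hw
  refine ⟨s, w⁻¹ * (s * w * s⁻¹), ?_, ?_, ?_, ?_⟩
  · have h0 : orderOf s ∣ 2 ^ k := by rw [← hk, hs0]; exact orderOf_pow_dvd _
    obtain ⟨m, -, hm⟩ := (Nat.dvd_prime_pow Nat.prime_two).1 h0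
    exact ⟨m, hm⟩
  · have hy : w⁻¹ * (s * w * s⁻¹) ∈ P :=
      P.mul_mem (P.inv_mem hw) ((Subgroup.mem_normalizer_iff.1 hsn w).1 hw)
    obtain ⟨n, hn'⟩ := hP ⟨_, hy⟩
    have h0 : (w⁻¹ * (s * w * s⁻¹)) ^ p ^ n = 1 := by simpa using congrArg Subtype.val hn'
    obtain ⟨m, -, hm⟩ := (Nat.dvd_prime_pow hp).1 (orderOf_dvd_of_pow_eq_one h0)
    exact ⟨m, hm⟩
  · intro h
    apply hsw
    exact (inv_mul_eq_one.1 h).symm
  · have h1 := Subgroup.mem_centralizer_iff.1 hs2 w hw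
    calc s * (w⁻¹ * (s * w * s⁻¹)) * s⁻¹ = s * w⁻¹ * s⁻¹ * (s * s * w) * s⁻¹ * s⁻¹ := by group
      _ = s * w⁻¹ * s⁻¹ * (w * (s * s)) * s⁻¹ * s⁻¹ := by rw [h1]
      _ = _ := by group

theorem three_to_two {G : Type*} [Group G] {p : ℕ} [Fact p.Prime] (hp2 : p ≠ 2) (x y : G)
    (hx : ∃ k : ℕ, orderOf x = 2 ^ k) (hy : ∃ k : ℕ, orderOf y = p ^ k) (hy1 : y ≠ 1)
    (hxy : x * y * x⁻¹ = y⁻¹) :
    ∃ (x : G) (P : Subgroup G), (∃ k : ℕ, orderOf x = 2 ^ k) ∧ IsPGroup p ↥P ∧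
      x ∈ Subgroup.normalizer (P : Set G) ∧ x ∉ Subgroup.centralizer (P : Set G) := by
  obtain ⟨k, hk⟩ := hy
  refine ⟨x, Subgroup.zpowers y, hx, IsPGroup.of_card (n := k) (by rw [Nat.card_zpowers, hk]),
    mem_normalizer_zpowers x y hxy, ?_⟩
  intro hc
  have h1 := Subgroup.mem_centralizer_iff.1 hc y (Subgroup.mem_zpowers y)
  apply ne_inv hp2 y k hk hy1
  rw [← hxy, ← h1]; group

theorem lemA {Q : Type*} [Group Q] [Finite Q] {p : ℕ} [Fact p.Prime] (hp2 : p ≠ 2) (a b : Q)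
    (ha : orderOf a = p) (hb : b * b = 1) (hb1 : b ≠ 1) (hba : b * a * b⁻¹ = a⁻¹)
    (hgen : Subgroup.closure {a, b} = ⊤) : Nonempty (Q ≃* DihedralGroup p) := by
  have hp : p.Prime := Fact.out
  have hob : orderOf b = 2 := orderOf_eq_prime (by rw [pow_two]; exact hb) hb1
  have hinf : Subgroup.zpowers b ⊓ Subgroup.zpowers a = ⊥ := by
    apply Subgroup.inf_eq_bot_of_coprime
    rw [Nat.card_zpowers, Nat.card_zpowers, ha, hob]
    exact (Nat.coprime_primes Nat.prime_two hp).2 (Ne.symm hp2)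
  have hnorm : Subgroup.zpowers b ≤ Subgroup.normalizer ((Subgroup.zpowers a : Subgroup Q) : Set Q) := by
    rw [Subgroup.zpowers_le]
    exact mem_normalizer_zpowers b a hba
  have hsup : Subgroup.zpowers b ⊔ Subgroup.zpowers a = ⊤ := by
    rw [← hgen, Subgroup.zpowers_eq_closure, Subgroup.zpowers_eq_closure, ← Subgroup.closure_union]
    congr 1
    ext t
    simp [or_comm]
  have hcard := card_mul_card_eq_of_le_normalizer (Subgroup.zpowers b) (Subgroup.zpowers a) hnorm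
  rw [hsup, hinf, Subgroup.card_top, Subgroup.card_bot, Nat.card_zpowers, Nat.card_zpowers, ha, hob,
    mul_one] at hcard
  apply nonempty_mulEquiv_dihedralGroup p a b ha hb hba ?_ hcard.symm
  intro hmem
  have h0 : b ∈ Subgroup.zpowers b ⊓ Subgroup.zpowers a := ⟨Subgroup.mem_zpowers b, hmem⟩
  rw [hinf] at h0
  exact hb1 (Subgroup.mem_bot.1 h0)

theorem gen_top {G : Type*} [Group G] (z x : G)
    (N : Subgroup (Subgroup.closure ({z, x} : Set G))) [N.Normal] :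
    Subgroup.closure ({(QuotientGroup.mk' N ⟨z, Subgroup.subset_closure (by simp)⟩),
      (QuotientGroup.mk' N ⟨x, Subgroup.subset_closure (by simp)⟩)} :
        Set (Subgroup.closure ({z, x} : Set G) ⧸ N)) = ⊤ := by
  have h1 := Subgroup.closure_closure_coe_preimage (k := ({z, x} : Set G))
  have h2 : (⊤ : Subgroup (Subgroup.closure ({z, x} : Set G) ⧸ N)) =
      (⊤ : Subgroup (Subgroup.closure ({z, x} : Set G))).map (QuotientGroup.mk' N) :=
    (Subgroup.map_top_of_surjective _ (QuotientGroup.mk'_surjective N)).symm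
  rw [eq_top_iff, h2, ← h1, MonoidHom.map_closure]
  apply Subgroup.closure_mono
  rintro _ ⟨⟨g, hg⟩, hg', rfl⟩
  rcases hg' with h | h
  · left
    congr 1
    exact Subtype.ext h
  · right
    have h' : g = x := h
    show _ = _
    congr 1
    exact Subtype.ext h'

theorem three_to_one {G : Type*} [Group G] [Finite G] {p : ℕ} [Fact p.Prime] (hp2 : p ≠ 2)
    (x y : G) (hy : ∃ k : ℕ, orderOf y = p ^ k) (hy1 : y ≠ 1) (hxy : x * y * x⁻¹ = y⁻¹) :
    Cfsg.Involves (DihedralGroup p) G := by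
  have hp : p.Prime := Fact.out
  obtain ⟨k, hk⟩ := hy
  have hk0 : k ≠ 0 := by
    rintro rfl
    rw [pow_zero, orderOf_eq_one_iff] at hk
    exact hy1 hk
  have hpd : p ∣ orderOf y := by rw [hk]; exact dvd_pow_self p hk0
  obtain ⟨z, hz⟩ : ∃ z, z = y ^ (orderOf y / p) := ⟨_, rfl⟩
  have hzo : orderOf z = p := by
    rw [hz]; exact orderOf_pow_orderOf_div (orderOf_pos y).ne' hpd
  have hxz : x * z * x⁻¹ = z⁻¹ := by rw [hz, ← conj_pow, hxy, inv_pow]
  have hz1 : z ≠ 1 := by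
    intro h
    rw [h, orderOf_one] at hzo
    exact hp.one_lt.ne hzo
  have hzne : z ≠ z⁻¹ := ne_inv hp2 z 1 (by rw [hzo, pow_one]) hz1
  have hzK : z ∈ Subgroup.closure ({z, x} : Set G) := Subgroup.subset_closure (by simp)
  have hxK : x ∈ Subgroup.closure ({z, x} : Set G) := Subgroup.subset_closure (by simp)
  have hcz : Commute z (x * x) := by
    have h1 : x * z = z⁻¹ * x := by rw [← hxz]; group
    have h2 : x * z⁻¹ = z * x := by
      have h3 : z = x * z⁻¹ * x⁻¹ := by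
        calc z = (x * z * x⁻¹)⁻¹ := by rw [hxz, inv_inv]
          _ = _ := by group
      calc x * z⁻¹ = (x * z⁻¹ * x⁻¹) * x := by group
        _ = z * x := by rw [← h3]
    show z * (x * x) = x * x * z
    rw [mul_assoc x x z, h1, ← mul_assoc x, h2, mul_assoc]
  have hcx : Commute x (x * x) := by
    show x * (x * x) = x * x * x
    rw [mul_assoc]
  have hcen : ∀ g ∈ Subgroup.closure ({z, x} : Set G), ∀ t ∈ Subgroup.zpowers (x * x),
      g * t = t * g := by
    intro g hg t ht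
    obtain ⟨n, rfl⟩ := ht
    have h1 : Subgroup.closure ({z, x} : Set G) ≤ Subgroup.centralizer {x * x} := by
      rw [Subgroup.closure_le]
      rintro w (rfl | hw)
      · exact Subgroup.mem_centralizer_singleton_iff.2 hcz
      · rw [Set.mem_singleton_iff] at hw
        subst hw
        exact Subgroup.mem_centralizer_singleton_iff.2 hcx
    have h2 : Commute g (x * x) := Subgroup.mem_centralizer_singleton_iff.1 (h1 hg)
    exact h2.zpow_right n
  have hRn : ((Subgroup.zpowers (x * x)).subgroupOf (Subgroup.closure ({z, x} : Set G))).Normal := by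
    constructor
    intro t ht g
    rw [Subgroup.mem_subgroupOf] at ht ⊢
    have h1 : ((g * t * g⁻¹ : Subgroup.closure ({z, x} : Set G)) : G) = t := by
      push_cast
      rw [hcen g g.2 t ht, mul_inv_cancel_right]
    rw [h1]; exact ht
  refine ⟨Subgroup.closure ({z, x} : Set G), Subgroup.zpowers (x * x), hRn, ?_⟩
  have hgen := gen_top z x
    ((Subgroup.zpowers (x * x)).subgroupOf (Subgroup.closure ({z, x} : Set G)))
  refine lemA hp2 (QuotientGroup.mk' _ ⟨z, hzK⟩) (QuotientGroup.mk' _ ⟨x, hxK⟩) ?_ ?_ ?_ ?_ hgen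
  · apply orderOf_eq_prime
    · rw [← map_pow]
      have h1 : (⟨z, hzK⟩ : Subgroup.closure ({z, x} : Set G)) ^ p = 1 := by
        apply Subtype.ext
        push_cast
        rw [← hzo]; exact pow_orderOf_eq_one z
      rw [h1, map_one]
    · intro h
      rw [QuotientGroup.mk'_apply, QuotientGroup.eq_one_iff, Subgroup.mem_subgroupOf] at h
      have h1 := hcen x hxK z h
      apply hzne
      rw [← hxz, h1, mul_inv_cancel_right]
  · rw [← map_mul, QuotientGroup.mk'_apply, QuotientGroup.eq_one_iff, Subgroup.mem_subgroupOf]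
    exact Subgroup.mem_zpowers (x * x)
  · intro h
    rw [QuotientGroup.mk'_apply, QuotientGroup.eq_one_iff, Subgroup.mem_subgroupOf] at h
    have h1 := hcen z hzK x h
    apply hzne
    rw [← hxz, ← h1, mul_inv_cancel_right]
  · rw [← map_inv, ← map_inv, ← map_mul, ← map_mul]
    congr 1
    exact Subtype.ext hxz

theorem one_to_three {G : Type*} [Group G] [Finite G] {p : ℕ} [Fact p.Prime] (hp2 : p ≠ 2)
    (h : Cfsg.Involves (DihedralGroup p) G) :
    ∃ x y : G, (∃ k : ℕ, orderOf x = 2 ^ k) ∧ (∃ k : ℕ, orderOf y = p ^ k) ∧ y ≠ 1 ∧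
      x * y * x⁻¹ = y⁻¹ := by
  obtain ⟨K, R, hn, ⟨e⟩⟩ := h
  have hπ : Function.Surjective (e.toMonoidHom.comp (QuotientGroup.mk' (R.subgroupOf K))) :=
    e.surjective.comp (QuotientGroup.mk'_surjective _)
  obtain ⟨x, P, hx, hP, hn', hc⟩ := lemB hp2 _ hπ
  obtain ⟨x', y', ⟨k, hk⟩, ⟨j, hj⟩, hy1, hxy⟩ := two_to_three x P hx hP hn' hc
  refine ⟨x', y', ⟨k, by rw [Subgroup.orderOf_coe, hk]⟩, ⟨j, by rw [Subgroup.orderOf_coe, hj]⟩,
    ?_, ?_⟩
  · intro h
    apply hy1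
    exact Subtype.ext h
  · have h1 := congrArg Subtype.val hxy
    simpa using h1

/-- For an odd prime p and a finite group G the following are equivalent: the dihedral group of order 2p is involved in G; some element of 2-power order normalizes but does not centralize some p-subgroup of G; some element of 2-power order inverts some nonidentity element of p-power order. -/
theorem result {G : Type*} [Group G] [Finite G] {p : ℕ} [Fact p.Prime] (hp : p ≠ 2) : (Cfsg.Involves (DihedralGroup p) G ↔ ∃ (x : G) (P : Subgroup G), (∃ k : ℕ, orderOf x = 2 ^ k) ∧ IsPGroup p ↥P ∧ x ∈ Subgroup.normalizer (P : Set G) ∧ x ∉ Subgroup.centralizer (P : Set G)) ∧ (Cfsg.Involves (DihedralGroup p) G ↔ ∃ x y : G, (∃ k : ℕ, orderOf x = 2 ^ k) ∧ (∃ k : ℕ, orderOf y = p ^ k) ∧ y ≠ 1 ∧ x * y * x⁻¹ = y⁻¹) := by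
  refine ⟨⟨fun h => ?_, ?_⟩, ⟨fun h => one_to_three hp h, ?_⟩⟩
  · obtain ⟨x, y, hx, hy, hy1, hxy⟩ := one_to_three hp h
    exact three_to_two hp x y hx hy hy1 hxy
  · rintro ⟨x, P, hx, hP, hn, hc⟩
    obtain ⟨x', y', hx', hy', hy1, hxy⟩ := two_to_three x P hx hP hn hc
    exact three_to_one hp x' y' hy' hy1 hxy
  · rintro ⟨x, y, hx, hy, hy1, hxy⟩
    exact three_to_one hp x y hy hy1 hxy

end Cfsg.Agent.S2758
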