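import Cfsg.Statements.S2760
import Cfsg.Agent.Lib.Helper16.PIrr

set_option autoImplicit false
open Cfsg

namespace Cfsg.Agent.S2760

open Cfsg.Agent.Lib.Helper16
open scoped commutatorElement


/-- Let G be a finite group with C_G(O₂(G)) ≤ O₂(G) and H a subgroup of G such that H is normal in G, or the subgroup O²(H) generated by the elements of H of odd order is normal in G. Then C_H(O₂(H)) ≤ O₂(H). -/
theorem result {G : Type*} [Group G] [Finite G] (hchar : Subgroup.centralizer (Cfsg.pCore 2 G : Set G) ≤ Cfsg.pCore 2 G) (H : Subgroup G) (hH : H.Normal ∨ ((Cfsg.pResidual 2 ↥H).map H.subtype).Normal) : Subgroup.centralizer (Cfsg.pCore 2 ↥H : Set ↥H) ≤ Cfsg.pCore 2 ↥H := by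
  rw [charP_iff']
  have hG : CharP 2 (⊤ : Subgroup G) := charP_top_iff.mpr hchar
  rcases hH with hH | hH
  · exact hG.of_normal le_top (by rw [Subgroup.normalizer_eq_top])
  · exact CharP.of_pRes (hG.of_normal le_top (by rw [Subgroup.normalizer_eq_top]))

end Cfsg.Agent.S2760
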