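import Cfsg.Statements.S2780
import Mathlib

set_option autoImplicit false
open Cfsg Matrix

namespace Cfsg.Agent.S2780



theorem nsq {F : Type*} [Field F] (M : Matrix.SpecialLinearGroup (Fin 2) F) (x : Fin 2 → F) (hx : x ≠ 0)
    (h : M.1 *ᵥ x = x) : (M.1 - 1) * (M.1 - 1) = 0 := by
  have hdet := M.2
  rw [Matrix.det_fin_two] at hdet
  have h0 := congrFun h 0
  have h1 := congrFun h 1
  simp only [Matrix.mulVec, dotProduct, Fin.sum_univ_two] at h0 h1
  have hd : (M.1 0 0 - 1) * (M.1 1 1 - 1) - M.1 0 1 * M.1 1 0 = 0 := by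
    by_cases hx0 : x 0 = 0
    · have hx1 : x 1 ≠ 0 := by
        intro hx1; apply hx; ext i; fin_cases i
        · exact hx0
        · exact hx1
      apply mul_left_cancel₀ hx1
      linear_combination (M.1 0 0 - 1) * h1 - M.1 1 0 * h0
    · apply mul_left_cancel₀ hx0
      linear_combination (M.1 1 1 - 1) * h0 - M.1 0 1 * h1
  have htr : M.1 0 0 + M.1 1 1 = 2 := by linear_combination hdet - hd
  ext i j
  fin_cases i <;> fin_cases j <;> simp [Matrix.mul_apply, Fin.sum_univ_two]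
  · linear_combination (M.1 0 0 - 1) * htr - hd
  · linear_combination M.1 0 1 * htr
  · linear_combination M.1 1 0 * htr
  · linear_combination (M.1 1 1 - 1) * htr - hd

theorem upow {F : Type*} [Field F] (M : Matrix.SpecialLinearGroup (Fin 2) F) (x : Fin 2 → F) (hx : x ≠ 0)
    (h : M.1 *ᵥ x = x) (k : ℕ) : (M ^ k).1 = 1 + (k : F) • (M.1 - 1) := by
  have hn := nsq M x hx h
  induction k with
  | zero => simp
  | succ k ih =>
    rw [pow_succ, Matrix.SpecialLinearGroup.coe_mul, ih]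
    have hM : (1 + (k : F) • (M.1 - 1)) * M.1 = (1 + (k : F) • (M.1 - 1)) * (1 + (M.1 - 1)) := by
      congr 1; abel
    rw [hM, mul_add, mul_one, add_mul, one_mul, smul_mul_assoc, hn, smul_zero, add_zero]
    push_cast
    rw [add_smul, one_smul]
    abel


theorem std {G : Type*} [Group G] [Finite G] {p : ℕ} [Fact p.Prime] {F : Type*} [Field F] [Fintype F] (n : ℕ) (hF : Fintype.card F = p ^ n) (V L : Subgroup G) (hnat : Cfsg.IsNaturalSL2Module F V L) (hf : L ⊓ Subgroup.centralizer (V : Set G) = ⊥) (S : Sylow p ↥L) :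
    ∃ (σ : L →* Matrix.SpecialLinearGroup (Fin 2) F) (u : V → Fin 2 → F), Function.Bijective σ ∧ Function.Bijective u ∧ (∀ a b, u (a*b) = u a + u b) ∧ (∀ (l:L) (v:V), ∃ w:V, (w:G) = (l:G) * v * (l:G)⁻¹ ∧ u w = (σ l).1 *ᵥ u v) ∧ (∀ l : L, l ∈ S ↔ (σ l).1 *ᵥ ![1,0] = ![1,0]) ∧ ((p:F) = 0) := by
  obtain ⟨hLN, ρ, ψ, hsurj, hker, heq⟩ := hnat
  have hinj : Function.Injective ρ := by
    rw [← MonoidHom.ker_eq_bot_iff, hker, Subgroup.subgroupOf_eq_bot, disjoint_iff, inf_comm]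
    exact hf
  have hp0 : (p:F) = 0 := by
    have h1 : ((Fintype.card F : ℕ) : F) = 0 := Nat.cast_card_eq_zero F
    rw [hF] at h1; push_cast at h1
    exact eq_zero_of_pow_eq_zero h1
  have hn : n ≠ 0 := by
    rintro rfl
    have := Fintype.one_lt_card (α := F)
    rw [hF, pow_zero] at this
    omega
  letI act : MulAction ↥(S : Subgroup L) (Fin 2 → F) :=
    { smul := fun s v => (ρ s.1).1 *ᵥ v
      one_smul := fun v => by
        show (ρ ((1 : ↥(S:Subgroup L)) : L)).1 *ᵥ v = v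
        simp
      mul_smul := fun a b v => by
        show (ρ ((a*b : ↥(S:Subgroup L)) : L)).1 *ᵥ v = (ρ a.1).1 *ᵥ ((ρ b.1).1 *ᵥ v)
        rw [Subgroup.coe_mul, map_mul, Matrix.SpecialLinearGroup.coe_mul, Matrix.mulVec_mulVec] }
  have hdvd : p ∣ Nat.card (Fin 2 → F) := by
    rw [Nat.card_eq_fintype_card, Fintype.card_fun, hF, Fintype.card_fin]
    exact dvd_pow (dvd_pow_self p hn) (by norm_num)
  have h0fix : (0 : Fin 2 → F) ∈ MulAction.fixedPoints ↥(S : Subgroup L) (Fin 2 → F) := by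
    intro s
    show (ρ s.1).1 *ᵥ (0 : Fin 2 → F) = 0
    simp
  obtain ⟨w, hwfix, hw0⟩ := S.2.exists_fixed_point_of_prime_dvd_card_of_fixed_point (Fin 2 → F) hdvd h0fix
  have hwfix' : ∀ s ∈ S, (ρ s).1 *ᵥ w = w := fun s hs => hwfix ⟨s, hs⟩
  obtain ⟨h, hh⟩ : ∃ h : Matrix.SpecialLinearGroup (Fin 2) F, h.1 *ᵥ ![1,0] = w := by
    by_cases hw : w 0 = 0
    · have hw1 : w 1 ≠ 0 := by
        intro hw1; apply hw0; ext i; fin_cases i
        · exact hw.symm
        · exact hw1.symm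
      refine ⟨⟨!![0, -(w 1)⁻¹; w 1, 0], by simp [Matrix.det_fin_two, hw1]⟩, ?_⟩
      ext i; fin_cases i <;> simp [Matrix.mulVec, dotProduct, Fin.sum_univ_two, hw]
    · refine ⟨⟨!![w 0, 0; w 1, (w 0)⁻¹], by simp [Matrix.det_fin_two, hw]⟩, ?_⟩
      ext i; fin_cases i <;> simp [Matrix.mulVec, dotProduct, Fin.sum_univ_two]
  have hh' : (h⁻¹).1 *ᵥ w = ![1,0] := by
    rw [← hh, Matrix.mulVec_mulVec, ← Matrix.SpecialLinearGroup.coe_mul, inv_mul_cancel]
    simp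
  let σ : L →* Matrix.SpecialLinearGroup (Fin 2) F := ((MulAut.conj h⁻¹).toMonoidHom).comp ρ
  have hσ : ∀ l, σ l = h⁻¹ * ρ l * h := fun l => by simp [σ, MulAut.conj_apply]
  have hfixiff : ∀ l, (σ l).1 *ᵥ ![1,0] = ![1,0] ↔ (ρ l).1 *ᵥ w = w := by
    intro l
    rw [hσ, Matrix.SpecialLinearGroup.coe_mul, Matrix.SpecialLinearGroup.coe_mul, ← Matrix.mulVec_mulVec, hh, ← Matrix.mulVec_mulVec]
    constructor
    · intro h1
      have h2 := congrArg (fun z => h.1 *ᵥ z) h1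
      simp only [Matrix.mulVec_mulVec, ← Matrix.SpecialLinearGroup.coe_mul, mul_inv_cancel, hh] at h2
      simpa using h2
    · intro h1
      rw [h1, hh']
  refine ⟨σ, fun v => (h⁻¹).1 *ᵥ ψ (Additive.ofMul v), ⟨?_, ?_⟩, ⟨?_, ?_⟩, ?_, ?_, ?_, hp0⟩
  · exact (MulAut.conj h⁻¹).injective.comp hinj
  · exact (MulAut.conj h⁻¹).surjective.comp hsurj
  · intro a b hab
    have h2 := congrArg (fun z => h.1 *ᵥ z) hab
    simp only [Matrix.mulVec_mulVec, ← Matrix.SpecialLinearGroup.coe_mul, mul_inv_cancel] at h2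
    simpa using h2
  · intro z
    refine ⟨Additive.toMul (ψ.symm (h.1 *ᵥ z)), ?_⟩
    simp only [ofMul_toMul, AddEquiv.apply_symm_apply, Matrix.mulVec_mulVec, ← Matrix.SpecialLinearGroup.coe_mul, inv_mul_cancel]
    simp
  · intro a b
    simp only [ofMul_mul, map_add, Matrix.mulVec_add]
  · intro l v
    obtain ⟨w', hw', hw''⟩ := heq l v
    refine ⟨w', hw', ?_⟩
    show (h⁻¹).1 *ᵥ ψ (Additive.ofMul w') = (σ l).1 *ᵥ ((h⁻¹).1 *ᵥ ψ (Additive.ofMul v))
    rw [hw'', hσ, Matrix.mulVec_mulVec, Matrix.mulVec_mulVec, ← Matrix.SpecialLinearGroup.coe_mul, ← Matrix.SpecialLinearGroup.coe_mul, mul_inv_cancel_right]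
  · intro l
    rw [hfixiff]
    refine ⟨hwfix' l, fun hl => ?_⟩
    let Q : Subgroup L :=
      { carrier := {l | (ρ l).1 *ᵥ w = w}
        one_mem' := by
          show (ρ 1).1 *ᵥ w = w
          rw [map_one, Matrix.SpecialLinearGroup.coe_one, Matrix.one_mulVec]
        mul_mem' := by
          intro a b ha hb
          simp only [Set.mem_setOf_eq] at ha hb ⊢
          rw [map_mul, Matrix.SpecialLinearGroup.coe_mul, ← Matrix.mulVec_mulVec, hb, ha]
        inv_mem' := by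
          intro a ha
          simp only [Set.mem_setOf_eq] at ha ⊢
          conv_lhs => rw [← ha]
          rw [Matrix.mulVec_mulVec, ← Matrix.SpecialLinearGroup.coe_mul, ← map_mul, inv_mul_cancel]
          simp }
    have hQp : IsPGroup p Q := by
      intro q
      refine ⟨1, ?_⟩
      apply Subtype.ext
      apply hinj
      apply Subtype.ext
      have := upow (ρ q.1) w (Ne.symm hw0) q.2 p
      simp only [pow_one, Subgroup.coe_pow, map_pow, Subgroup.coe_one, map_one]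
      rw [this, hp0]
      simp
    have hQS : Q = S.1 := S.is_maximal' hQp (fun s hs => hwfix' s hs)
    have : l ∈ Q := hl
    rw [hQS] at this
    exact this



/-- Let L act on the elementary abelian p-group V (inside a finite group, faithfully) as SL₂(F) on its natural module, F a field with p^n elements, S a Sylow p-subgroup of L. Then: for every g ∈ L not normalizing S, V is the internal direct product of C_V(S) and C_V(gSg⁻¹); every nonidentity element of L of order prime to p acts on V without nonidentity fixed points; and C_V(S) and V/C_V(S) are irreducible for N_L(S): the only N_L(S)-invariant subgroups of C_V(S) are 1 and C_V(S), and the only N_L(S)-invariant subgroups between C_V(S) and V are those two. -/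
theorem result {G : Type*} [Group G] [Finite G] {p : ℕ} [Fact p.Prime] {F : Type*} [Field F] [Fintype F] (n : ℕ) (hF : Fintype.card F = p ^ n) (V L : Subgroup G) (hnat : Cfsg.IsNaturalSL2Module F V L) (hf : L ⊓ Subgroup.centralizer (V : Set G) = ⊥) (S : Sylow p ↥L) (T : Subgroup G) (hT : T = ((S : Subgroup ↥L).map L.subtype)) : (∀ g ∈ L, g ∉ Subgroup.normalizer (T : Set G) → Cfsg.IsInternalDirectProduct (V ⊓ Subgroup.centralizer ((T : Subgroup G) : Set G)) (V ⊓ Subgroup.centralizer ((T.map (MulAut.conj g).toMonoidHom : Subgroup G) : Set G)) V) ∧ (∀ x ∈ L, x ≠ 1 → (orderOf x).Coprime p → (V ⊓ Subgroup.centralizer ({x} : Set G)) = ⊥) ∧ (∀ U : Subgroup G, U ≤ (V ⊓ Subgroup.centralizer ((T : Subgroup G) : Set G)) → L ⊓ Subgroup.normalizer (T : Set G) ≤ Subgroup.normalizer (U : Set G) → U = ⊥ ∨ U = (V ⊓ Subgroup.centralizer ((T : Subgroup G) : Set G))) ∧ (∀ U : Subgroup G, (V ⊓ Subgroup.centralizer ((T : Subgroup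 G) : Set G)) ≤ U → U ≤ V → L ⊓ Subgroup.normalizer (T : Set G) ≤ Subgroup.normalizer (U : Set G) → U = (V ⊓ Subgroup.centralizer ((T : Subgroup G) : Set G)) ∨ U = V) := by
  obtain ⟨σ, u, ⟨hσi, hσs⟩, ⟨hui, hus⟩, hadd, heq, hS, hp0⟩ := std n hF V L hnat hf S
  have hu1 : u 1 = 0 := by
    have := hadd 1 1
    rw [mul_one] at this
    exact (add_eq_left.mp this.symm)
  have hu0 : ∀ v : V, u v = 0 → v = 1 := fun v hv => hui (hv.trans hu1.symm)
  have hB : ∀ (l : L) (v : V), (l:G) * v = v * l ↔ (σ l).1 *ᵥ u v = u v := by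
    intro l v
    obtain ⟨w, hw, hw'⟩ := heq l v
    constructor
    · intro h
      have : w = v := Subtype.ext (by rw [hw, h, mul_inv_cancel_right])
      rw [← hw', this]
    · intro h
      have : w = v := hui (hw'.trans h)
      rw [this] at hw
      rw [eq_mul_inv_iff_mul_eq] at hw
      exact hw.symm
  have hTm : ∀ x : G, x ∈ T ↔ ∃ l : L, l ∈ S ∧ (l:G) = x := by
    intro x
    rw [hT, Subgroup.mem_map]
    rfl
  have hD' : ∀ z : Fin 2 → F, (∀ t : L, t ∈ S → (σ t).1 *ᵥ z = z) ↔ z 1 = 0 := by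
    intro z
    constructor
    · intro h
      obtain ⟨t, ht⟩ := hσs ⟨!![1,1;0,1], by simp [Matrix.det_fin_two]⟩
      have htS : t ∈ S := by
        rw [hS, ht]
        ext i; fin_cases i <;> simp [Matrix.mulVec, dotProduct, Fin.sum_univ_two]
      have h1 := congrFun (h t htS) 0
      rw [ht] at h1
      simp [Matrix.mulVec, dotProduct, Fin.sum_univ_two] at h1
      exact h1
    · intro hz t ht
      have hz' : z = z 0 • ![1,0] := by
        ext i; fin_cases i <;> simp [hz]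
      rw [hz', Matrix.mulVec_smul, (hS t).1 ht]
  have hD : ∀ v : V, (v:G) ∈ Subgroup.centralizer (T : Set G) ↔ u v 1 = 0 := by
    intro v
    rw [← hD', Subgroup.mem_centralizer_iff]
    constructor
    · intro h t ht
      rw [← hB]
      exact h t ((hTm _).2 ⟨t, ht, rfl⟩)
    · intro h x hx
      obtain ⟨t, ht, rfl⟩ := (hTm _).1 hx
      exact (hB t v).2 (h t ht)
  have hEinv : ∀ (l : L) (α : F), (σ l).1 *ᵥ ![1,0] = α • ![1,0] → α ≠ 0 ∧ (σ l⁻¹).1 *ᵥ ![1,0] = α⁻¹ • ![1,0] := by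
    intro l α h
    have h1 : (σ l⁻¹).1 *ᵥ ((σ l).1 *ᵥ ![1,0]) = ![1,0] := by
      rw [Matrix.mulVec_mulVec, ← Matrix.SpecialLinearGroup.coe_mul, ← map_mul, inv_mul_cancel, map_one, Matrix.SpecialLinearGroup.coe_one, Matrix.one_mulVec]
    rw [h, Matrix.mulVec_smul] at h1
    have hα : α ≠ 0 := by
      rintro rfl
      rw [zero_smul] at h1
      have := congrFun h1 0
      simp at this
    refine ⟨hα, ?_⟩
    calc (σ l⁻¹).1 *ᵥ ![1,0] = α⁻¹ • (α • ((σ l⁻¹).1 *ᵥ ![1,0])) := by rw [smul_smul, inv_mul_cancel₀ hα, one_smul]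
      _ = α⁻¹ • ![1,0] := by rw [h1]
  have hEc : ∀ (l : L) (α : F), (σ l).1 *ᵥ ![1,0] = α • ![1,0] → ∀ t : L, t ∈ S → l * t * l⁻¹ ∈ S := by
    intro l α h t ht
    obtain ⟨hα, h1⟩ := hEinv l α h
    rw [hS, map_mul, map_mul, Matrix.SpecialLinearGroup.coe_mul, Matrix.SpecialLinearGroup.coe_mul, ← Matrix.mulVec_mulVec, ← Matrix.mulVec_mulVec, h1, Matrix.mulVec_smul, (hS t).1 ht, Matrix.mulVec_smul, h, smul_smul, inv_mul_cancel₀ hα, one_smul]
  have hE : ∀ (l : L) (α : F), (σ l).1 *ᵥ ![1,0] = α • ![1,0] → (l:G) ∈ Subgroup.normalizer (T : Set G) := by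
    intro l α h
    rw [Subgroup.mem_normalizer_iff]
    intro x
    constructor
    · intro hx
      obtain ⟨t, ht, rfl⟩ := (hTm _).1 hx
      exact (hTm _).2 ⟨l * t * l⁻¹, hEc l α h t ht, by simp⟩
    · intro hx
      obtain ⟨t, ht, htx⟩ := (hTm _).1 hx
      refine (hTm _).2 ⟨l⁻¹ * t * l⁻¹⁻¹, hEc l⁻¹ α⁻¹ (hEinv l α h).2 t ht, ?_⟩
      simp [htx, mul_assoc]
  have htor : ∀ α : F, α ≠ 0 → ∃ l : L, (l:G) ∈ L ⊓ Subgroup.normalizer (T : Set G) ∧ ∀ z : Fin 2 → F, (σ l).1 *ᵥ z = ![α * z 0, α⁻¹ * z 1] := by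
    intro α hα
    obtain ⟨l, hl⟩ := hσs ⟨!![α,0;0,α⁻¹], by simp [Matrix.det_fin_two, hα]⟩
    have hz : ∀ z : Fin 2 → F, (σ l).1 *ᵥ z = ![α * z 0, α⁻¹ * z 1] := by
      intro z
      rw [hl]
      ext i; fin_cases i <;> simp [Matrix.mulVec, dotProduct, Fin.sum_univ_two]
    refine ⟨l, ⟨l.2, hE l α ?_⟩, hz⟩
    rw [hz]
    ext i; fin_cases i <;> simp
  have hNU : ∀ U : Subgroup G, L ⊓ Subgroup.normalizer (T : Set G) ≤ Subgroup.normalizer (U : Set G) → ∀ l : L, (l:G) ∈ L ⊓ Subgroup.normalizer (T : Set G) → ∀ v : V, (v:G) ∈ U → ∀ w : V, u w = (σ l).1 *ᵥ u v → (w:G) ∈ U := by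
    intro U hU l hl v hv w hw
    obtain ⟨w', hw', hw''⟩ := heq l v
    have : w = w' := hui (hw.trans hw''.symm)
    rw [this, hw']
    exact (Subgroup.mem_normalizer_iff.1 (hU hl) _).1 hv
  refine ⟨?_, ?_, ?_, ?_⟩
  · intro g hg hgN
    have hc : (σ ⟨g,hg⟩).1 1 0 ≠ 0 := by
      intro hc
      apply hgN
      refine hE ⟨g,hg⟩ ((σ ⟨g,hg⟩).1 0 0) ?_
      ext i; fin_cases i <;> simp [Matrix.mulVec, dotProduct, Fin.sum_univ_two, hc]
    have hDg : ∀ v : V, (v:G) ∈ Subgroup.centralizer ((T.map (MulAut.conj g).toMonoidHom : Subgroup G) : Set G) ↔ (σ ⟨g,hg⟩).1 0 0 * u v 1 = (σ ⟨g,hg⟩).1 1 0 * u v 0 := by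
      intro v
      have key : ((σ (⟨g,hg⟩ : L)⁻¹).1 *ᵥ u v) 1 = 0 ↔ (σ ⟨g,hg⟩).1 0 0 * u v 1 = (σ ⟨g,hg⟩).1 1 0 * u v 0 := by
        rw [map_inv, Matrix.SpecialLinearGroup.coe_inv, Matrix.adjugate_fin_two]
        simp only [Matrix.mulVec, dotProduct, Fin.sum_univ_two]
        simp
        constructor <;> intro h <;> linear_combination h
      rw [← key, ← hD', Subgroup.mem_centralizer_iff]
      constructor
      · intro h t ht
        have h1 := h (g * t * g⁻¹) (Subgroup.mem_map.2 ⟨t, (hTm _).2 ⟨t, ht, rfl⟩, by simp [MulAut.conj_apply]⟩)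
        have h2 := (hB (⟨g,hg⟩ * t * ⟨g,hg⟩⁻¹) v).1 (by simpa using h1)
        rw [map_mul, map_mul, Matrix.SpecialLinearGroup.coe_mul, Matrix.SpecialLinearGroup.coe_mul, ← Matrix.mulVec_mulVec, ← Matrix.mulVec_mulVec] at h2
        have h3 := congrArg (fun z => (σ (⟨g,hg⟩ : L)⁻¹).1 *ᵥ z) h2
        beta_reduce at h3
        rw [Matrix.mulVec_mulVec _ (σ (⟨g,hg⟩ : L)⁻¹).1 (σ (⟨g,hg⟩ : L)).1, ← Matrix.SpecialLinearGroup.coe_mul, ← map_mul, inv_mul_cancel, map_one, Matrix.SpecialLinearGroup.coe_one, Matrix.one_mulVec] at h3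
        exact h3
      · intro h x hx
        obtain ⟨y, hy, rfl⟩ := Subgroup.mem_map.1 hx
        obtain ⟨t, ht, rfl⟩ := (hTm _).1 hy
        have h2 := h t ht
        have h3 : (σ (⟨g,hg⟩ * t * ⟨g,hg⟩⁻¹)).1 *ᵥ u v = u v := by
          rw [map_mul, map_mul, Matrix.SpecialLinearGroup.coe_mul, Matrix.SpecialLinearGroup.coe_mul, ← Matrix.mulVec_mulVec, ← Matrix.mulVec_mulVec, h2, Matrix.mulVec_mulVec, ← Matrix.SpecialLinearGroup.coe_mul, ← map_mul, mul_inv_cancel, map_one, Matrix.SpecialLinearGroup.coe_one, Matrix.one_mulVec]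
        have h4 := (hB _ v).2 h3
        simpa [MulAut.conj_apply] using h4
    refine ⟨inf_le_left, inf_le_left, ?_, ?_, ?_⟩
    · rintro a ⟨haV, -⟩ b ⟨hbV, -⟩
      have : (⟨a,haV⟩ : V) * ⟨b,hbV⟩ = ⟨b,hbV⟩ * ⟨a,haV⟩ := hui (by rw [hadd, hadd, add_comm])
      exact congrArg Subtype.val this
    · rw [eq_bot_iff]
      rintro v ⟨⟨hvV, hv1⟩, ⟨-, hv2⟩⟩
      have h1 := (hD ⟨v,hvV⟩).1 hv1
      have h2 := (hDg ⟨v,hvV⟩).1 hv2
      rw [h1, mul_zero] at h2
      have h3 : u ⟨v,hvV⟩ 0 = 0 := (mul_eq_zero.1 h2.symm).resolve_left hc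
      have : (⟨v,hvV⟩ : V) = 1 := hu0 _ (by
        ext i; fin_cases i
        · exact h3
        · exact h1)
      exact congrArg Subtype.val this
    · apply le_antisymm (sup_le inf_le_left inf_le_left)
      intro v hvV
      obtain ⟨w2, hw2⟩ := hus ![(σ ⟨g,hg⟩).1 0 0 * u ⟨v,hvV⟩ 1 / (σ ⟨g,hg⟩).1 1 0, u ⟨v,hvV⟩ 1]
      obtain ⟨w1, hw1⟩ := hus (u ⟨v,hvV⟩ - ![(σ ⟨g,hg⟩).1 0 0 * u ⟨v,hvV⟩ 1 / (σ ⟨g,hg⟩).1 1 0, u ⟨v,hvV⟩ 1])
      have h3 : (⟨v,hvV⟩ : V) = w1 * w2 := hui (by rw [hadd, hw1, hw2]; abel)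
      have h4 : v = w1 * w2 := congrArg Subtype.val h3
      rw [h4]
      apply Subgroup.mul_mem_sup
      · exact ⟨w1.2, (hD w1).2 (by rw [hw1]; simp)⟩
      · exact ⟨w2.2, (hDg w2).2 (by rw [hw2]; simp; field_simp)⟩
  · intro x hx hx1 hcop
    rw [eq_bot_iff]
    rintro v ⟨hvV, hvC⟩
    rw [Subgroup.mem_bot]
    by_contra hv1
    have hcomm : x * v = v * x := (Subgroup.mem_centralizer_iff.1 hvC) x (Set.mem_singleton x)
    have hfix := (hB ⟨x,hx⟩ ⟨v,hvV⟩).1 hcomm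
    have huv : u ⟨v,hvV⟩ ≠ 0 := fun h => hv1 (congrArg Subtype.val (hu0 _ h))
    have hpow := upow (σ ⟨x,hx⟩) _ huv hfix (orderOf x)
    have hx' : (⟨x,hx⟩ : L) ^ orderOf x = 1 := Subtype.ext (by simp [pow_orderOf_eq_one])
    rw [← map_pow, hx', map_one, Matrix.SpecialLinearGroup.coe_one] at hpow
    have hk : ((orderOf x : ℕ) : F) ≠ 0 := by
      intro hk
      obtain ⟨a, b, hab⟩ := (Nat.isCoprime_iff_coprime.2 hcop)
      have := congrArg (fun z : ℤ => (z : F)) hab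
      push_cast at this
      rw [hk, hp0] at this
      simp at this
    have hM : (σ ⟨x,hx⟩).1 - 1 = 0 := by
      have h2 : ((orderOf x : ℕ) : F) • ((σ ⟨x,hx⟩).1 - 1) = 0 := add_eq_left.mp hpow.symm
      exact (smul_eq_zero.1 h2).resolve_left hk
    have hσ1 : σ ⟨x,hx⟩ = 1 := Subtype.ext (by rw [Matrix.SpecialLinearGroup.coe_one]; exact sub_eq_zero.1 hM)
    have : (⟨x,hx⟩ : L) = 1 := hσi (hσ1.trans (map_one σ).symm)
    exact hx1 (congrArg Subtype.val this)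
  · intro U hU1 hU2
    by_cases hbot : U = ⊥
    · exact Or.inl hbot
    right
    apply le_antisymm hU1
    obtain ⟨⟨v0, hv0U⟩, hv01⟩ := Subgroup.ne_bot_iff_exists_ne_one.1 hbot
    have hv0V := (hU1 hv0U).1
    have hv0C := (hD ⟨v0,hv0V⟩).1 (hU1 hv0U).2
    have hx0 : u ⟨v0,hv0V⟩ 0 ≠ 0 := by
      intro h
      apply hv01
      have : (⟨v0,hv0V⟩ : V) = 1 := hu0 _ (by
        ext i; fin_cases i
        · exact h
        · exact hv0C)
      have h5 : v0 = 1 := congrArg Subtype.val this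
      exact Subtype.ext h5
    rintro v ⟨hvV, hvC⟩
    have hy := (hD ⟨v,hvV⟩).1 hvC
    by_cases hx : u ⟨v,hvV⟩ 0 = 0
    · have : (⟨v,hvV⟩ : V) = 1 := hu0 _ (by
        ext i; fin_cases i
        · exact hx
        · exact hy)
      have : v = 1 := congrArg Subtype.val this
      rw [this]; exact U.one_mem
    · obtain ⟨l, hl, hlz⟩ := htor (u ⟨v,hvV⟩ 0 / u ⟨v0,hv0V⟩ 0) (div_ne_zero hx hx0)
      refine hNU U hU2 l hl ⟨v0,hv0V⟩ hv0U ⟨v,hvV⟩ ?_
      rw [hlz]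
      ext i; fin_cases i
      · simp [div_mul_cancel₀ _ hx0]
      · simp [hy, hv0C]
  · intro U hU1 hU2 hU3
    by_cases hUC : U ≤ V ⊓ Subgroup.centralizer (T : Set G)
    · exact Or.inl (le_antisymm hUC hU1)
    right
    apply le_antisymm hU2
    obtain ⟨v0, hv0U, hv0n⟩ := SetLike.not_le_iff_exists.1 hUC
    have hv0V := hU2 hv0U
    have hy0 : u ⟨v0,hv0V⟩ 1 ≠ 0 := fun h => hv0n ⟨hv0V, (hD ⟨v0,hv0V⟩).2 h⟩
    intro v hvV
    by_cases hy : u ⟨v,hvV⟩ 1 = 0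
    · exact hU1 ⟨hvV, (hD ⟨v,hvV⟩).2 hy⟩
    · obtain ⟨l, hl, hlz⟩ := htor (u ⟨v0,hv0V⟩ 1 / u ⟨v,hvV⟩ 1) (div_ne_zero hy0 hy)
      obtain ⟨w1, hw1⟩ := hus ((σ l).1 *ᵥ u ⟨v0,hv0V⟩)
      obtain ⟨w2, hw2⟩ := hus (u ⟨v,hvV⟩ - (σ l).1 *ᵥ u ⟨v0,hv0V⟩)
      have h1 : (w1:G) ∈ U := hNU U hU3 l hl ⟨v0,hv0V⟩ hv0U w1 hw1
      have h2 : (w2:G) ∈ U := by
        apply hU1
        refine ⟨w2.2, (hD w2).2 ?_⟩
        rw [hw2, hlz]
        simp
        field_simp
        ring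
      have h3 : (⟨v,hvV⟩ : V) = w1 * w2 := hui (by rw [hadd, hw1, hw2]; abel)
      have h4 : v = w1 * w2 := congrArg Subtype.val h3
      rw [h4]; exact U.mul_mem h1 h2

end Cfsg.Agent.S2780
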