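import Cfsg.Statements.S2781
import Cfsg.Agent.Lib.Helper16.Trace
import Cfsg.Agent.Lib.Helper16.PRed

set_option autoImplicit false
open Cfsg

namespace Cfsg.Agent.S2781

open Cfsg.Agent.Lib.Helper16
open scoped commutatorElement


/-- Let H act faithfully by conjugation on the elementary abelian p-subgroup V of a finite group, let O^p(H) be the subgroup of H generated by its elements of order prime to p, and T a Sylow p-subgroup of O^p(H). If V is generated by the H-conjugates of C_V(T) (V is the smallest H-invariant subgroup containing C_V(T)), then V = [V, O^p(H)]·C_V(O^p(H)). -/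
theorem result {G : Type*} [Group G] [Finite G] {p : ℕ} [Fact p.Prime] (V H : Subgroup G) (hV : Cfsg.IsElementaryAbelian p V) (hHV : H ≤ Subgroup.normalizer (V : Set G)) (hf : H ⊓ Subgroup.centralizer (V : Set G) = ⊥) (R : Subgroup G) (hR : R = (Cfsg.pResidual p ↥H).map H.subtype) (S : Sylow p ↥R) (T : Subgroup G) (hT : T = ((S : Subgroup ↥R).map R.subtype)) (hgen : ∀ W : Subgroup G, H ≤ Subgroup.normalizer (W : Set G) → (V ⊓ Subgroup.centralizer ((T : Subgroup G) : Set G)) ≤ W → V ≤ W) : ⁅V, R⁆ ⊔ (V ⊓ Subgroup.centralizer ((R : Subgroup G) : Set G)) = V := by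
  obtain ⟨hVc, hVp⟩ := (elemAb_iff V).mp hV
  have hRH : R ≤ H := by rw [hR]; exact pRes_le H
  have hHR : H ≤ Subgroup.normalizer (R : Set G) := by rw [hR]; exact le_normalizer_pRes H
  have hTR : SylIn p T R := hT ▸ sylIn_of_sylow S
  have hRV : R ≤ Subgroup.normalizer (V : Set G) := hRH.trans hHV
  have hcomm : ⁅V, R⁆ ≤ V := commutator_le_of_le_normalizer hRV
  refine le_antisymm (sup_le hcomm inf_le_left) ?_
  apply hgen
  · exact le_normalizer_sup (le_normalizer_commutator hHV hHR)
      (le_normalizer_inf hHV (hHR.trans (normalizer_le_normalizer_centralizer R)))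
  · intro z hz
    obtain ⟨c, hc, w, hw, rfl⟩ := exists_decomp (p := p) hVc hRV hTR.2.2 hz (hVp z hz.1) ⁅V, R⁆
      (fun k hk => comm_mem_commutator hz.1 hk)
    rw [(hVc c hc.1 w hw.2).eq]
    exact Subgroup.mul_mem _ (Subgroup.mem_sup_left hw.1) (Subgroup.mem_sup_right hc)

end Cfsg.Agent.S2781
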