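import Cfsg.Statements.S2795
import Mathlib
import Cfsg.Agent.Lib.Helper5.Qd8

set_option autoImplicit false
open Cfsg

namespace Cfsg.Agent.S2795

open Cfsg.Agent.Lib.Helper5.Dk

/-- For an odd prime p and a finite group G, the group Qd(p) is not involved in G if and only if every section of G is p-stable in the normalizer form (for every p-subgroup P of the section and every g in its normalizer acting quadratically on P, the image of g in N(P)/C(P) lies in O_p(N(P)/C(P))). -/
theorem result {G : Type*} [Group G] [Finite G] {p : ℕ} [Fact p.Prime] (hp : p ≠ 2) : ¬ Cfsg.Involves ↥(Cfsg.qd p) G ↔ ∀ (K R : Subgroup G) [hR : (R.subgroupOf K).Normal], Cfsg.IsNormalizerPStable p (K ⧸ R.subgroupOf K) := by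
  constructor
  · intro h K R hR
    exact isNormalizerPStable_section_of_not_involves_qd hp h K R
  · rintro h ⟨K, R, hR, ⟨e⟩⟩
    exact (QdC.ofEquiv e).not_stable hp (h K R)

end Cfsg.Agent.S2795
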