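import Cfsg.Statements.S2941
import Cfsg.Agent.Lib.Helper16.Comm

set_option autoImplicit false
open Cfsg

namespace Cfsg.Agent.S2941

open Cfsg.Agent.Lib.Helper16
open scoped commutatorElement


/-- Let G be a finite group of characteristic 2 type in which every 2-local subgroup is solvable and the centralizer of Ω₁(Z(S)) lies in N_G(S) for every Sylow 2-subgroup S, and let T be a nontrivial 2-subgroup and K a J(T)-component (J the Thompson subgroup generated by the elementary abelian 2-subgroups of largest order). If a subgroup Q is normalized by ⟨K, J(T)⟩ and normalizes J(T), then Q normalizes K. -/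
theorem result {G : Type*} [Group G] [Finite G] (hL : Cfsg.IsCharacteristicTwoType G) (hN : ∀ N : Subgroup G, Cfsg.IsTwoLocal N → Group.IsSolvable ↥N)
    (hZ : ∀ S : Sylow 2 G, Subgroup.centralizer (Cfsg.omegaCenterOf (S : Subgroup G) : Set G) ≤ Subgroup.normalizer ((S : Subgroup G) : Set G)) (T : Subgroup G) (hT : IsPGroup 2 ↥T) (hT1 : T ≠ ⊥) (K : Subgroup G) (hK : Cfsg.IsJComponent T K)
    (Q : Subgroup G) (hQ1 : K ⊔ Cfsg.thompsonSubgroupOf 2 T ≤ Subgroup.normalizer (Q : Set G)) (hQ2 : Q ≤ Subgroup.normalizer (Cfsg.thompsonSubgroupOf 2 T : Set G)) :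
    Q ≤ Subgroup.normalizer (K : Set G) := by
  obtain ⟨hK1, hK2, -⟩ := hK
  set J : Subgroup G := Cfsg.thompsonSubgroupOf 2 T with hJ
  haveI : Fact (Nat.Prime 2) := ⟨Nat.prime_two⟩
  have hJT : J ≤ T := Subgroup.map_subtype_le _
  have hJp : IsPGroup 2 J := hT.to_le hJT
  have hJK : J ≤ Subgroup.normalizer (K : Set G) := by
    have := le_normalizer_commutator_right K J
    rwa [hK2] at this
  have hres : pRes 2 (K ⊔ J) ≤ K := pRes_sup_le hJp hJK
  intro q hq
  apply mem_normalizer_of_conj_le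
  -- step 1
  have h1 : K.map (MulAut.conj q).toMonoidHom ≤ K ⊔ J := by
    rw [Subgroup.map_le_iff_le_comap]
    conv_lhs => rw [← hK2]
    rw [Subgroup.commutator_le]
    intro k hk j hj
    rw [Subgroup.mem_comap]
    have hq' : k⁻¹ * q * k ∈ Q := conj_mem_of_le_normalizer' hQ1 (Subgroup.mem_sup_left hk) hq
    have hj' : (k⁻¹ * q * k) * j * (k⁻¹ * q * k)⁻¹ ∈ J := conj_mem_of_le_normalizer hQ2 hq' hj
    have hj2 : q * j⁻¹ * q⁻¹ ∈ J := conj_mem_of_le_normalizer hQ2 hq (J.inv_mem hj)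
    have h3 : k * ((k⁻¹ * q * k) * j * (k⁻¹ * q * k)⁻¹) * k⁻¹ * (q * j⁻¹ * q⁻¹) ∈ K ⊔ J :=
      (K ⊔ J).mul_mem ((K ⊔ J).mul_mem ((K ⊔ J).mul_mem (Subgroup.mem_sup_left hk) (Subgroup.mem_sup_right hj'))
        (Subgroup.mem_sup_left (K.inv_mem hk))) (Subgroup.mem_sup_right hj2)
    have e : (MulAut.conj q).toMonoidHom ⁅k, j⁆ =
        k * ((k⁻¹ * q * k) * j * (k⁻¹ * q * k)⁻¹) * k⁻¹ * (q * j⁻¹ * q⁻¹) := by
      simp [commutatorElement_def, mul_assoc]
    rw [e]; exact h3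
  rw [Subgroup.map_le_iff_le_comap]
  conv_lhs => rw [← hK1]
  rw [Subgroup.closure_le]
  rintro g ⟨hgK, hgo⟩
  show (MulAut.conj q).toMonoidHom g ∈ K
  apply hres
  apply mem_pRes (h1 (Subgroup.mem_map_of_mem _ hgK))
  have : orderOf ((MulAut.conj q).toMonoidHom g) = orderOf g := (MulAut.conj q).orderOf_eq g
  rw [this]
  exact Nat.coprime_two_right.mpr hgo

end Cfsg.Agent.S2941
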