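import Cfsg.Statements.S2947
import Cfsg.Agent.Lib.Helper16.Thomp
import Cfsg.Agent.Lib.Helper16.YMin

set_option autoImplicit false
open Cfsg

namespace Cfsg.Agent.S2947

open Cfsg.Agent.Lib.Helper16
open scoped commutatorElement


/-- Let G be a finite group of characteristic 2 type in which every 2-local subgroup is solvable and the centralizer of Ω₁(Z(S)) lies in N_G(S) for every Sylow 2-subgroup S; suppose O₂(G) = 1, fix a Sylow 2-subgroup S and a 2-local subgroup M containing N_G(J(S)) (J the Thompson subgroup generated by the elementary abelian 2-subgroups of largest order). Then M is strongly embedded in G (a proper subgroup of even order whose intersection with each conjugate by an element outside M has odd order) if and only if no nontrivial 2-subgroup of M lies in a 2-local subgroup of G not contained in M. -/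
theorem result {G : Type*} [Group G] [Finite G] (hL : Cfsg.IsCharacteristicTwoType G) (hN : ∀ N : Subgroup G, Cfsg.IsTwoLocal N → Group.IsSolvable ↥N)
    (hZ : ∀ S : Sylow 2 G, Subgroup.centralizer (Cfsg.omegaCenterOf (S : Subgroup G) : Set G) ≤ Subgroup.normalizer ((S : Subgroup G) : Set G)) (hO : Cfsg.pCore 2 G = ⊥) (S : Sylow 2 G) (M : Subgroup G) (hM : Cfsg.IsTwoLocal M)
    (hMJ : Subgroup.normalizer (Cfsg.thompsonSubgroupOf 2 (S : Subgroup G) : Set G) ≤ M) :
    Cfsg.IsStronglyEmbedded M ↔ Cfsg.straddlingTwoSubgroups M = ∅ := by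
  have hSM : (S : Subgroup G) ≤ M := (le_normalizer_thompsonOf 2 _).trans hMJ
  obtain ⟨R, hR2, hR1, hMR⟩ := hM
  have heven_of : ∀ P K : Subgroup G, IsPGroup 2 P → P ≠ ⊥ → P ≤ K → Even (Nat.card K) := by
    intro P K hP2 hP1 hPK
    rcases hP2.card_eq_or_dvd with h | h
    · exact absurd (Subgroup.card_eq_one.mp h) hP1
    · exact even_iff_two_dvd.mpr (h.trans (Subgroup.card_dvd_of_le hPK))
  constructor
  · rintro ⟨hne, heven, hodd⟩
    rw [Set.eq_empty_iff_forall_notMem]
    rintro T ⟨hT2, hT1, hTM, L, ⟨R', hR'2, hR'1, rfl⟩, hTL, hLM⟩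
    have key : ∀ P : Subgroup G, IsPGroup 2 P → P ≠ ⊥ → P ≤ M →
        Subgroup.normalizer (P : Set G) ≤ M := by
      intro P hP2 hP1 hPM g hg
      by_contra hgM
      have h1 := hodd g hgM
      have h2 : P ≤ M ⊓ M.map (MulAut.conj g).toMonoidHom :=
        le_inf hPM ((conj_eq_of_mem_normalizer hg).ge.trans (conj_mono hPM g))
      exact (Nat.not_even_iff_odd.mpr h1) (heven_of P _ hP2 hP1 h2)
    apply hLM
    apply key R' hR'2 hR'1
    have hP : IsPGroup 2 (T ⊔ R' : Subgroup G) := hT2.to_sup_of_normal_right' hR'2 hTL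
    by_contra hR'M
    have hlt : (T ⊔ R') ⊓ M < T ⊔ R' :=
      lt_of_le_of_ne inf_le_left (fun e => hR'M (le_sup_right.trans (inf_eq_left.mp e)))
    obtain ⟨x, hxP, hxn, hxN⟩ := exists_mem_normalizer_of_lt hP hlt
    refine hxn ⟨hxP, key _ (hP.to_le inf_le_left) ?_ inf_le_right hxN⟩
    intro e
    exact hT1 (le_bot_iff.mp (e ▸ le_inf le_sup_left hTM))
  · intro hemp
    have key : ∀ T : Subgroup G, IsPGroup 2 T → T ≠ ⊥ → T ≤ M → ∀ L : Subgroup G,
        Cfsg.IsTwoLocal L → T ≤ L → L ≤ M := by
      intro T h1 h2 h3 L h4 h5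
      by_contra h6
      have : T ∈ Cfsg.straddlingTwoSubgroups M := ⟨h1, h2, h3, L, h4, h5, h6⟩
      rw [hemp] at this
      exact this
    have hRM : R ≤ M := by rw [hMR]; exact Subgroup.le_normalizer
    refine ⟨?_, heven_of R M hR2 hR1 hRM, ?_⟩
    · intro htop
      have hn : R.Normal := Subgroup.normalizer_eq_top_iff.mp (hMR ▸ htop)
      exact hR1 (le_bot_iff.mp (hO ▸ le_pCore hn hR2))
    · intro g hg
      by_contra hodd
      rw [Nat.not_odd_iff_even] at hodd
      obtain ⟨t, ht⟩ := exists_prime_orderOf_dvd_card' 2 hodd.two_dvd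
      have ht2 : (t : G) ^ 2 ^ 1 = 1 := by
        have := pow_orderOf_eq_one t
        rw [ht] at this
        have h3 := congrArg Subtype.val this
        rw [pow_one]
        exact h3
      have ht1 : Subgroup.zpowers (t : G) ≠ ⊥ := by
        rw [Ne, Subgroup.zpowers_eq_bot]
        intro e
        have : t = 1 := Subtype.ext e
        rw [this, orderOf_one] at ht
        omega
      have hMg : Cfsg.IsTwoLocal (M.map (MulAut.conj g).toMonoidHom) :=
        ⟨R.map (MulAut.conj g).toMonoidHom, isPGroup_conj hR2 g, by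
          rw [Ne, Subgroup.map_eq_bot_iff_of_injective _ (MulAut.conj g).injective]; exact hR1, by
          rw [hMR, normalizer_conj]⟩
      have h1 : M.map (MulAut.conj g).toMonoidHom ≤ M :=
        key _ (isPGroup_zpowers_of_pow_pow_eq_one ht2) ht1 (Subgroup.zpowers_le.mpr t.2.1) _ hMg
          (Subgroup.zpowers_le.mpr t.2.2)
      have hS : SylIn 2 (S : Subgroup G) M := (sylIn_top S).mono hSM le_top
      have hSg : SylIn 2 ((S : Subgroup G).map (MulAut.conj g).toMonoidHom) M :=
        ((sylIn_top S).conj_of_mem (g := g) (by rw [Subgroup.normalizer_eq_top]; exact Subgroup.mem_top _)).mono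
          ((conj_mono hSM g).trans h1) le_top
      obtain ⟨m, hm, e⟩ := hS.exists_conj hSg
      have hS1 : (S : Subgroup G) ≠ ⊥ := by
        intro e'
        obtain ⟨l, _, hl⟩ := (sylIn_top S).exists_conj_le hR2 le_top
        rw [e', le_bot_iff, Subgroup.map_eq_bot_iff_of_injective _ (MulAut.conj l).injective] at hl
        exact hR1 hl
      have hNS : Subgroup.normalizer ((S : Subgroup G) : Set G) ≤ M :=
        key _ S.isPGroup' hS1 hSM _ ⟨_, S.isPGroup', hS1, rfl⟩ Subgroup.le_normalizer
      have h2 : m⁻¹ * g ∈ Subgroup.normalizer ((S : Subgroup G) : Set G) := by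
        rw [mem_normalizer_iff_conj_eq, ← conj_conj, e, conj_inv_conj]
      apply hg
      have := M.mul_mem hm (hNS h2)
      simpa using this

end Cfsg.Agent.S2947
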