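import Cfsg.Statements.S3116
import Mathlib
import Cfsg.Agent.Lib.Helper17.AutTwo

set_option autoImplicit false
open Cfsg

namespace Cfsg.Agent.S3116

open Cfsg.Agent.Lib.Helper17.AutTwo

theorem dihedral_aut (k : ℕ) (hk : 4 ≤ 2 ^ k) : IsPGroup 2 (MulAut (DihedralGroup (2 ^ k))) := by
  haveI : NeZero (2 ^ k) := ⟨by positivity⟩
  have hx : orderOf (DihedralGroup.r (1 : ZMod (2 ^ k))) = 2 ^ k := DihedralGroup.orderOf_r_one
  apply isPGroup_mulAut (DihedralGroup.r (1 : ZMod (2 ^ k))) k hx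
  · have h1 := (Subgroup.zpowers (DihedralGroup.r (1 : ZMod (2 ^ k)))).card_mul_index
    rw [Nat.card_zpowers, hx, DihedralGroup.nat_card, mul_comm] at h1
    exact Nat.eq_of_mul_eq_mul_right (by positivity) h1
  · intro g hg
    cases g with
    | r i =>
      exfalso
      apply hg
      refine ⟨(i.val : ℤ), ?_⟩
      show DihedralGroup.r (1 : ZMod (2 ^ k)) ^ (i.val : ℤ) = DihedralGroup.r i
      rw [zpow_natCast, DihedralGroup.r_one_pow, ZMod.natCast_val, ZMod.cast_id', id_eq]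
    | sr i =>
      rw [DihedralGroup.orderOf_sr, hx]
      omega

theorem quasi_aut {X : Type*} [Group X] [Finite X] (h : Cfsg.IsQuasiDihedral X) :
    IsPGroup 2 (MulAut X) := by
  obtain ⟨n, hn, hcard, x, y, hx, hy, hxy⟩ := h
  have hidx : (Subgroup.zpowers x).index = 2 := by
    have h1 := (Subgroup.zpowers x).card_mul_index
    rw [Nat.card_zpowers, hx, hcard, pow_succ] at h1
    exact Nat.eq_of_mul_eq_mul_left (by positivity) h1
  have h8 : 8 ≤ 2 ^ n := by
    calc 8 = 2 ^ 3 := by norm_num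
      _ ≤ 2 ^ n := Nat.pow_le_pow_right (by norm_num) hn
  have hy2 : y * y = 1 := by
    have := pow_orderOf_eq_one y
    rwa [hy, sq] at this
  have hyinv : y⁻¹ = y := inv_eq_of_mul_eq_one_left hy2
  have hyC : y ∉ Subgroup.zpowers x := by
    intro hcon
    obtain ⟨i, hi⟩ := hcon
    have hcomm : y * x = x * y := by
      rw [← hi, ← zpow_add_one, ← zpow_one_add, add_comm]
    have h1 : y * x * y⁻¹ = x := by rw [hcomm]; group
    rw [h1] at hxy
    have h2 : x ^ 1 = x ^ (2 ^ (n - 1) - 1) := by rw [pow_one]; exact hxy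
    have h3 := pow_eq_pow_iff_modEq.mp h2
    rw [hx] at h3
    obtain ⟨m, rfl⟩ : ∃ m, n = m + 3 := ⟨n - 3, by omega⟩
    have e1 : m + 3 - 1 = m + 2 := by omega
    rw [e1] at h3
    have h4 : 2 ^ (m + 3) = 2 * 2 ^ (m + 2) := by ring
    have h5 : 4 ≤ 2 ^ (m + 2) := by
      calc 4 = 2 ^ 2 := by norm_num
        _ ≤ 2 ^ (m + 2) := Nat.pow_le_pow_right (by norm_num) (by omega)
    have h6 := Nat.ModEq.eq_of_lt_of_lt h3 (by omega) (by omega)
    omega
  apply isPGroup_mulAut x n hx hidx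
  intro g hg
  have hgy : g * y ∈ Subgroup.zpowers x :=
    (Subgroup.mul_mem_iff_of_index_two hidx).mpr ⟨fun h => absurd h hg, fun h => absurd h hyC⟩
  obtain ⟨i, hi⟩ := hgy
  have hi' : x ^ i = g * y := hi
  have hg' : g = x ^ i * y := by
    rw [hi', mul_assoc, hy2, mul_one]
  have hconj : y * x ^ i * y = (x ^ i) ^ (2 ^ (n - 1) - 1) := by
    have h1 : y * x ^ i * y⁻¹ = (y * x * y⁻¹) ^ i := by
      simp only [conj_zpow]
    rw [hxy, hyinv] at h1
    rw [h1, ← zpow_natCast, ← zpow_natCast, ← zpow_mul, ← zpow_mul, mul_comm]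
  have hsq : g ^ 2 = (x ^ i) ^ (2 ^ (n - 1)) := by
    rw [hg', sq]
    have : x ^ i * y * (x ^ i * y) = x ^ i * (y * x ^ i * y) := by group
    rw [this, hconj, ← pow_succ']
    congr 1
    have : 1 ≤ 2 ^ (n - 1) := Nat.one_le_two_pow
    omega
  have h4 : g ^ 4 = 1 := by
    have : g ^ 4 = (g ^ 2) ^ 2 := by rw [← pow_mul]
    rw [this, hsq, ← pow_mul, ← pow_succ]
    have e : n - 1 + 1 = n := by omega
    rw [e, ← zpow_natCast, ← zpow_mul, mul_comm, zpow_mul, zpow_natCast, ← hx, pow_orderOf_eq_one,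
      one_zpow]
  have h5 : orderOf g ≤ 4 := Nat.le_of_dvd (by norm_num) (orderOf_dvd_of_pow_eq_one h4)
  rw [hx]
  omega

/-- The automorphism group of a dihedral 2-group of order at least 8, or of a quasi-dihedral (semidihedral) 2-group of order at least 16, is a 2-group. -/
theorem result {X : Type*} [Group X] [Finite X] (h2 : IsPGroup 2 X)
    (h : (∃ n : ℕ, 4 ≤ n ∧ Nonempty (X ≃* DihedralGroup n)) ∨ Cfsg.IsQuasiDihedral X) : IsPGroup 2 (MulAut X) := by
  rcases h with ⟨n, hn, ⟨e⟩⟩ | h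
  · obtain ⟨a, ha⟩ := IsPGroup.iff_card.mp h2
    have hc : Nat.card X = 2 * n := by
      rw [Nat.card_congr e.toEquiv, DihedralGroup.nat_card]
    have hdvd : n ∣ 2 ^ a := by rw [← ha, hc]; exact Dvd.intro_left 2 rfl
    obtain ⟨k, _, rfl⟩ := (Nat.dvd_prime_pow Nat.prime_two).mp hdvd
    exact (dihedral_aut k hn).of_equiv (MulAut.congr e).symm
  · exact quasi_aut h

end Cfsg.Agent.S3116
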