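import Mathlib
import Cfsg.Statements.S3356

set_option autoImplicit false
open Cfsg

namespace Cfsg.Agent.S3356

theorem card_dvd_of_stab {B Z : Type*} [Group B] [Finite B] [MulAction B Z] [Finite Z] (s : ℕ)
    (h : ∀ z : Z, Nat.card (MulAction.stabilizer B z) = s) : Nat.card B ∣ Nat.card Z * s := by
  classical
  have := Fintype.ofFinite (MulAction.orbitRel.Quotient B Z)
  rw [Nat.card_congr (MulAction.selfEquivSigmaOrbitsQuotientStabilizer B Z), Nat.card_sigma,
    Finset.sum_mul]
  apply Finset.dvd_sum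
  intro ω _
  have h1 := Subgroup.card_mul_index (MulAction.stabilizer B (Quotient.out ω))
  rw [h] at h1
  rw [← h1, mul_comm]
  rfl

section
variable {N A : Type*} [Group N] [Finite N] [Group A] [Finite A] (φ : A →* MulAut N)

/-- stabilizer of an element -/
def St (n : N) : Subgroup A where
  carrier := {g | φ g n = n}
  mul_mem' := by
    intro a b ha hb
    simp only [Set.mem_ofPred_eq] at *
    rw [map_mul, MulAut.mul_apply, hb, ha]
  one_mem' := by simp
  inv_mem' := by
    intro a ha
    simp only [Set.mem_ofPred_eq] at *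
    rw [map_inv, MulAut.inv_apply, MulEquiv.symm_apply_eq, ha]

omit [Finite N] [Finite A] in
theorem mem_St (n : N) (g : A) : g ∈ St φ n ↔ φ g n = n := Iff.rfl

theorem card_dvd (s : ℕ) (hstab : ∀ n : N, n ≠ 1 → Nat.card (St φ n) = s)
    (B : Subgroup A) (Z : Set N) (hZ1 : (1 : N) ∉ Z) (hinv : ∀ g ∈ B, ∀ z ∈ Z, φ g z ∈ Z)
    (hle : ∀ z ∈ Z, St φ z ≤ B) : Nat.card B ∣ Nat.card Z * s := by
  let _ : MulAction B Z :=
    { smul := fun g z => ⟨φ g.1 z.1, hinv g.1 g.2 z.1 z.2⟩
      one_smul := fun z => Subtype.ext (by change φ ((1 : B) : A) z.1 = z.1; simp)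
      mul_smul := fun g h z => Subtype.ext (by
        change φ ((g * h : B) : A) z.1 = φ g.1 (φ h.1 z.1); simp) }
  apply card_dvd_of_stab
  intro z
  rw [← hstab z.1 (fun h => hZ1 (h ▸ z.2))]
  apply Nat.card_congr
  exact
    { toFun := fun g => ⟨g.1.1, congrArg Subtype.val g.2⟩
      invFun := fun g => ⟨⟨g.1, hle z.1 z.2 g.2⟩, Subtype.ext g.2⟩
      left_inv := fun _ => rfl
      right_inv := fun _ => rfl }

/-- core counting lemma -/
theorem core (s : ℕ) (hstab : ∀ n : N, n ≠ 1 → Nat.card (St φ n) = s)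
    (B : Subgroup A) (Z : Set N) (hZ1 : (1 : N) ∉ Z) (hinv : ∀ g ∈ B, ∀ z ∈ Z, φ g z ∈ Z)
    (hle : ∀ z ∈ Z, St φ z ≤ B) (hdvd : Nat.card Z ∣ Nat.card N) :
    ∀ z ∈ Z, St φ z = B := by
  intro z hz
  have hz1 : z ≠ 1 := fun h => hZ1 (h ▸ hz)
  have hA : Nat.card A ∣ (Nat.card N - 1) * s := by
    have h1 := card_dvd φ s hstab ⊤ {n | n ≠ 1} (by simp) (by
      intro g _ y hy
      simp only [Set.mem_ofPred_eq] at *
      intro h
      apply hy
      have : φ g y = φ g 1 := by rw [h, map_one]
      exact (φ g).injective this) (fun _ _ => le_top)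
    have h2 : Nat.card ({n | n ≠ 1} : Set N) = Nat.card N - 1 := by
      classical
      have := Fintype.ofFinite N
      change Nat.card {n : N // n ≠ 1} = _
      rw [Nat.card_eq_fintype_card, Nat.card_eq_fintype_card,
        Fintype.card_subtype_compl (fun x => x = (1 : N)), Fintype.card_subtype_eq]
    rw [h2] at h1
    simpa using h1
  have hB := card_dvd φ s hstab B Z hZ1 hinv hle
  have hs : Nat.card (St φ z) = s := hstab z hz1
  have hspos : 0 < s := hs ▸ Nat.card_pos
  obtain ⟨m, hm⟩ : s ∣ Nat.card B := hs ▸ Subgroup.card_dvd_of_le (hle z hz)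
  have hm1 : m ∣ Nat.card Z := by
    rw [hm, mul_comm s m] at hB
    exact Nat.dvd_of_mul_dvd_mul_right hspos hB
  have hm2 : m ∣ Nat.card N - 1 := by
    have h1 : Nat.card B ∣ (Nat.card N - 1) * s := (Subgroup.card_subgroup_dvd_card B).trans hA
    rw [hm, mul_comm s m] at h1
    exact Nat.dvd_of_mul_dvd_mul_right hspos h1
  have hm3 : m ∣ Nat.card N := hm1.trans hdvd
  have hNpos : 0 < Nat.card N := Nat.card_pos
  have hm4 : m ∣ 1 := by
    have := Nat.dvd_sub hm3 hm2
    have h5 : Nat.card N - (Nat.card N - 1) = 1 := by omega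
    rwa [h5] at this
  have hm5 : m = 1 := Nat.dvd_one.mp hm4
  apply Subgroup.eq_of_le_of_card_ge (hle z hz)
  rw [hs, hm, hm5, mul_one]

omit [Finite N] in
theorem St_eq_of_le (s : ℕ) (hstab : ∀ n : N, n ≠ 1 → Nat.card (St φ n) = s) {x y : N}
    (hx : x ≠ 1) (hy : y ≠ 1) (h : St φ x ≤ St φ y) : St φ x = St φ y :=
  Subgroup.eq_of_le_of_card_ge h (by rw [hstab x hx, hstab y hy])

omit [Finite N] [Finite A] in
theorem not_all_fixed (hinj : Function.Injective φ) (s : ℕ) (hs : 1 < s)
    (hstab : ∀ n : N, n ≠ 1 → Nat.card (St φ n) = s) {x : N} (hx : x ≠ 1) :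
    ∃ y : N, ∃ g ∈ St φ x, φ g y ≠ y := by
  by_contra hcon
  push Not at hcon
  have h1 : St φ x = ⊥ := by
    rw [eq_bot_iff]
    intro g hg
    rw [Subgroup.mem_bot]
    apply hinj
    rw [map_one]
    ext y
    exact hcon y g hg
  have h2 := hstab x hx
  rw [h1, Subgroup.card_bot] at h2
  omega

theorem irreducible (hinj : Function.Injective φ) (s : ℕ) (hs : 1 < s)
    (hstab : ∀ n : N, n ≠ 1 → Nat.card (St φ n) = s)
    (K : Subgroup N) (hK : ∀ g : A, ∀ h ∈ K, φ g h ∈ K) : K = ⊥ ∨ K = ⊤ := by
  by_contra hcon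
  push Not at hcon
  obtain ⟨hb, ht⟩ := hcon
  obtain ⟨⟨h0, hh0⟩, hh01⟩ := (Subgroup.ne_bot_iff_exists_ne_one).mp hb
  have hh01' : h0 ≠ 1 := fun h => hh01 (Subtype.ext h)
  obtain ⟨x0, hx0⟩ : ∃ x, x ∉ K := by
    by_contra h
    push Not at h
    exact ht (eq_top_iff.mpr fun x _ => h x)
  have key : ∀ x, x ∉ K → ∀ h ∈ K, h ≠ 1 → St φ x = St φ h := by
    intro x hx h hh hh1
    have hx1 : x ≠ 1 := fun h => hx (h ▸ one_mem K)
    let B : Subgroup A :=
      { carrier := {g | x⁻¹ * φ g x ∈ K}
        mul_mem' := by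
          intro a b ha hb
          simp only [Set.mem_ofPred_eq] at *
          rw [map_mul, MulAut.mul_apply]
          have h1 : φ a (x⁻¹ * φ b x) ∈ K := hK a _ hb
          rw [map_mul, map_inv] at h1
          have h2 := mul_mem ha h1
          rwa [mul_assoc, mul_inv_cancel_left] at h2
        one_mem' := by simp
        inv_mem' := by
          intro a ha
          simp only [Set.mem_ofPred_eq] at *
          have h1 : φ a⁻¹ (x⁻¹ * φ a x) ∈ K := hK a⁻¹ _ ha
          rw [map_mul, map_inv (φ a⁻¹), ← MulAut.mul_apply, ← map_mul, inv_mul_cancel, map_one,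
            MulAut.one_apply] at h1
          have h2 := inv_mem h1
          rwa [mul_inv_rev, inv_inv] at h2 }
    have hBmem : ∀ g, g ∈ B ↔ x⁻¹ * φ g x ∈ K := fun g => Iff.rfl
    let Z : Set N := {z | x⁻¹ * z ∈ K}
    have hZmem : ∀ z, z ∈ Z ↔ x⁻¹ * z ∈ K := fun z => Iff.rfl
    have hcard : Nat.card Z = Nat.card K := by
      apply Nat.card_congr
      exact
        { toFun := fun z => ⟨x⁻¹ * z.1, z.2⟩
          invFun := fun k => ⟨x * k.1, by rw [hZmem, inv_mul_cancel_left]; exact k.2⟩
          left_inv := fun z => Subtype.ext (by simp)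
          right_inv := fun k => Subtype.ext (by simp) }
    have hcore := core φ s hstab B Z (by
        rw [hZmem, mul_one]
        exact fun h => hx (by simpa using inv_mem h)) (by
        intro g hg z hz
        rw [hZmem] at *
        rw [hBmem] at hg
        have h1 : φ g (x⁻¹ * z) ∈ K := hK g _ hz
        rw [map_mul, map_inv] at h1
        have h2 := mul_mem hg h1
        rwa [mul_assoc, mul_inv_cancel_left] at h2) (by
        intro z hz g hg
        rw [mem_St] at hg
        rw [hZmem] at hz
        rw [hBmem]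
        have h1 : φ g (x⁻¹ * z) ∈ K := hK g _ hz
        rw [map_mul, map_inv, hg] at h1
        have h2 := mul_mem hz (inv_mem h1)
        rwa [mul_inv_rev, inv_inv, mul_assoc, mul_inv_cancel_left] at h2) (by
        rw [hcard]; exact Subgroup.card_subgroup_dvd_card K)
    have e1 : St φ x = B := hcore x (by rw [hZmem, inv_mul_cancel]; exact one_mem K)
    have e2 : St φ (x * h) = B := hcore (x * h) (by rw [hZmem, inv_mul_cancel_left]; exact hh)
    apply St_eq_of_le φ s hstab hx1 hh1
    intro g hg
    have hg2 : g ∈ St φ (x * h) := by rw [e2, ← e1]; exact hg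
    rw [mem_St] at *
    rw [map_mul, hg] at hg2
    exact mul_left_cancel hg2
  obtain ⟨y, g, hg, hgy⟩ := not_all_fixed φ hinj s hs hstab hh01'
  apply hgy
  by_cases hy1 : y = 1
  · rw [hy1, map_one]
  by_cases hyK : y ∈ K
  · have : St φ h0 = St φ y := by rw [← key x0 hx0 h0 hh0 hh01', key x0 hx0 y hyK hy1]
    rw [this] at hg
    exact hg
  · rw [← key y hyK h0 hh0 hh01'] at hg
    exact hg

omit [Finite N] [Finite A] in
theorem conj_map (g : A) {a b : N} (h : IsConj a b) : IsConj (φ g a) (φ g b) :=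
  (φ g).toMonoidHom.map_isConj h

theorem St_conj (s : ℕ) (hstab : ∀ n : N, n ≠ 1 → Nat.card (St φ n) = s) (y : N) (hy : y ≠ 1)
    (n : N) : St φ y = St φ (n * y * n⁻¹) := by
  let B : Subgroup A :=
    { carrier := {g | IsConj y (φ g y)}
      mul_mem' := by
        intro a b ha hb
        simp only [Set.mem_ofPred_eq] at *
        rw [map_mul, MulAut.mul_apply]
        exact ha.trans (conj_map φ a hb)
      one_mem' := by
        simp only [Set.mem_ofPred_eq]
        rw [map_one]
        exact IsConj.refl y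
      inv_mem' := by
        intro a ha
        simp only [Set.mem_ofPred_eq] at *
        have h1 := conj_map φ a⁻¹ ha
        rw [← MulAut.mul_apply, ← map_mul, inv_mul_cancel, map_one, MulAut.one_apply] at h1
        exact h1.symm }
  have hBmem : ∀ g, g ∈ B ↔ IsConj y (φ g y) := fun g => Iff.rfl
  let Z : Set N := {z | IsConj y z}
  have hZmem : ∀ z, z ∈ Z ↔ IsConj y z := fun z => Iff.rfl
  have hZeq : Z = MulAction.orbit (ConjAct N) y := by
    ext z
    rw [hZmem, ConjAct.mem_orbit_conjAct, isConj_comm]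
  have hcard : Nat.card Z ∣ Nat.card N := by
    rw [hZeq, Nat.card_coe_set_eq, ← MulAction.index_stabilizer]
    exact Subgroup.index_dvd_card _
  have hcore := core φ s hstab B Z (by
      rw [hZmem]
      intro h
      exact hy (isConj_one_right.mp h.symm |>.symm ▸ rfl)) (by
      intro g hg z hz
      rw [hZmem] at *
      rw [hBmem] at hg
      exact hg.trans (conj_map φ g hz)) (by
      intro z hz g hg
      rw [mem_St] at hg
      rw [hZmem] at hz
      rw [hBmem]
      have h1 := conj_map φ g hz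
      rw [hg] at h1
      exact hz.trans h1.symm) hcard
  rw [hcore y (by rw [hZmem]), hcore (n * y * n⁻¹) (by rw [hZmem]; exact isConj_iff.mpr ⟨n, rfl⟩)]

theorem comm_of_ne (s : ℕ) (hstab : ∀ n : N, n ≠ 1 → Nat.card (St φ n) = s) {x y : N}
    (hx : x ≠ 1) (hy : y ≠ 1) (hne : St φ x ≠ St φ y) : x * y = y * x := by
  by_contra hc
  have hc1 : x * y * x⁻¹ * y⁻¹ ≠ 1 := by
    intro h
    apply hc
    calc x * y = (x * y * x⁻¹ * y⁻¹) * (y * x) := by group
      _ = y * x := by rw [h, one_mul]
  have h1 : St φ y ≤ St φ (x * y * x⁻¹ * y⁻¹) := by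
    intro g hg
    have hg2 : g ∈ St φ (x * y * x⁻¹) := by rw [← St_conj φ s hstab y hy x]; exact hg
    rw [mem_St] at *
    rw [map_mul, hg2, map_inv, hg]
  have h2 : St φ x ≤ St φ (x * y * x⁻¹ * y⁻¹) := by
    intro g hg
    have hg2 : g ∈ St φ (y * x * y⁻¹) := by rw [← St_conj φ s hstab x hx y]; exact hg
    have hc' : x * y * x⁻¹ * y⁻¹ = x * (y * x * y⁻¹)⁻¹ := by group
    rw [mem_St] at *
    rw [hc', map_mul, map_inv, hg, hg2]
  exact hne ((St_eq_of_le φ s hstab hx hc1 h2).trans (St_eq_of_le φ s hstab hy hc1 h1).symm)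

theorem abelian (hinj : Function.Injective φ) (s : ℕ) (hs : 1 < s)
    (hstab : ∀ n : N, n ≠ 1 → Nat.card (St φ n) = s) (x1 x2 : N) : x1 * x2 = x2 * x1 := by
  by_cases h1 : x1 = 1
  · simp [h1]
  by_cases h2 : x2 = 1
  · simp [h2]
  by_cases hne : St φ x1 = St φ x2
  · obtain ⟨y, g, hg, hgy⟩ := not_all_fixed φ hinj s hs hstab h1
    have hy1 : y ≠ 1 := by
      rintro rfl
      exact hgy (map_one _)
    have hyS : St φ x1 ≠ St φ y := fun h => hgy (by rw [h] at hg; exact hg)
    have hg2 : g ∈ St φ x2 := hne ▸ hg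
    have hyx : y * x2 ≠ 1 := by
      intro h
      apply hgy
      have : y = x2⁻¹ := eq_inv_of_mul_eq_one_left h
      rw [this, map_inv, (mem_St φ x2 g).mp hg2]
    have hyxS : St φ x1 ≠ St φ (y * x2) := by
      intro h
      apply hgy
      have hg1 : g ∈ St φ (y * x2) := h ▸ hg
      rw [mem_St] at hg1 hg2
      rw [map_mul, hg2] at hg1
      exact mul_right_cancel hg1
    have c1 := comm_of_ne φ s hstab h1 hy1 hyS
    have c2 := comm_of_ne φ s hstab h1 hyx hyxS
    have : y * (x1 * x2) = y * (x2 * x1) := by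
      rw [← mul_assoc, ← c1, mul_assoc, c2, mul_assoc]
    exact mul_left_cancel this
  · exact comm_of_ne φ s hstab h1 h2 hne

end

/-- Let G be a finite 3/2-transitive permutation group: G acts faithfully and transitively on a finite set, the point stabilizers are non-trivial, and for each point a all orbits of G_a on the remaining points have the same size. Suppose G has a regular normal subgroup N and G is not a Frobenius group (some two-point stabilizer is non-trivial). Then N is an elementary abelian p-group for some prime p, and every non-trivial normal subgroup of G contains N (so N is the unique minimal normal subgroup). -/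
theorem result {G Ω : Type*} [Group G] [Finite G]
    [MulAction G Ω] [FaithfulSMul G Ω] [Finite Ω] (htrans : MulAction.IsPretransitive G Ω)
    (hne : ∀ a : Ω, MulAction.stabilizer G a ≠ ⊥)
    (hhalf : ∀ a b c : Ω, b ≠ a → c ≠ a →
      Nat.card (MulAction.orbit (MulAction.stabilizer G a) b) = Nat.card (MulAction.orbit (MulAction.stabilizer G a) c))
    (N : Subgroup G) [hN : N.Normal] (hNt : MulAction.IsPretransitive N Ω) (hNr : ∀ a : Ω, MulAction.stabilizer N a = ⊥)
    (hnotF : ∃ a b : Ω, a ≠ b ∧ MulAction.stabilizer G a ⊓ MulAction.stabilizer G b ≠ ⊥) :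
    (∃ p : ℕ, p.Prime ∧ IsMulCommutative N ∧ ∀ x ∈ N, x ^ p = 1) ∧
    (∀ M : Subgroup G, M.Normal → M ≠ ⊥ → N ≤ M) := by
  obtain ⟨a, b, hab, hst⟩ := hnotF
  let A := MulAction.stabilizer G a
  let φ : A →* MulAut N := (MulAut.conjNormal : G →* MulAut N).comp A.subtype
  have hφ : ∀ (g : A) (n : N), ((φ g n : N) : G) = g * n * (g : G)⁻¹ := fun g n => rfl
  -- regularity
  have hreg : ∀ n m : N, (n : G) • a = (m : G) • a → n = m := by
    intro n m h
    have h1 : m⁻¹ * n ∈ MulAction.stabilizer N a := by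
      rw [MulAction.mem_stabilizer_iff, mul_smul]
      change (m⁻¹ : N) • ((n : G) • a) = a
      rw [h]
      change (m⁻¹ : N) • (m • a) = a
      rw [inv_smul_smul]
    rw [hNr, Subgroup.mem_bot] at h1
    exact (inv_mul_eq_one.mp h1).symm
  have hfix : ∀ (g : A) (n : N), (g : G) • ((n : G) • a) = (n : G) • a ↔ φ g n = n := by
    intro g n
    have h1 : (g : G) • ((n : G) • a) = ((φ g n : N) : G) • a := by
      rw [hφ, mul_smul, mul_smul]
      congr 2
      exact (MulAction.mem_stabilizer_iff.mp (inv_mem g.2)).symm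
    rw [h1]
    constructor
    · intro h
      exact hreg _ _ h
    · intro h
      rw [h]
  have hsurj : ∀ c : Ω, ∃ n : N, (n : G) • a = c := by
    intro c
    obtain ⟨n, hn⟩ := hNt.exists_smul_eq a c
    exact ⟨n, hn⟩
  have hinj : Function.Injective φ := by
    rw [injective_iff_map_eq_one]
    intro g hg
    have : (g : G) = 1 := by
      apply FaithfulSMul.eq_of_smul_eq_smul (α := Ω)
      intro c
      obtain ⟨n, rfl⟩ := hsurj c
      rw [one_smul, hfix, hg]
      rfl
    exact Subtype.ext this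
  have hcardst : ∀ c : Ω, Nat.card (MulAction.stabilizer A c) * Nat.card (MulAction.orbit A c) =
      Nat.card A := by
    intro c
    rw [Nat.card_coe_set_eq, ← MulAction.index_stabilizer, Subgroup.card_mul_index]
  set s := Nat.card (MulAction.stabilizer A b) with hs_def
  have hstab : ∀ n : N, n ≠ 1 → Nat.card (St φ n) = s := by
    intro n hn
    have hna : (n : G) • a ≠ a := by
      intro h
      apply hn
      apply hreg
      rw [h]
      simp
    have h1 : Nat.card (St φ n) = Nat.card (MulAction.stabilizer A ((n : G) • a)) := by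
      apply Nat.card_congr
      exact Equiv.subtypeEquivRight (fun g => by
        rw [mem_St, MulAction.mem_stabilizer_iff]
        exact (hfix g n).symm)
    rw [h1]
    have e1 := hcardst ((n : G) • a)
    have e2 := hcardst b
    have e3 := hhalf a ((n : G) • a) b hna hab.symm
    change Nat.card (MulAction.orbit A ((n : G) • a)) = Nat.card (MulAction.orbit A b) at e3
    rw [e3, ← e2] at e1
    have hpos : 0 < Nat.card (MulAction.orbit A b) := by
      have : Nonempty (MulAction.orbit A b) := ⟨⟨b, MulAction.mem_orbit_self b⟩⟩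
      exact Nat.card_pos
    exact Nat.eq_of_mul_eq_mul_right hpos e1
  have hs : 1 < s := by
    rw [hs_def, Subgroup.one_lt_card_iff_ne_bot]
    obtain ⟨⟨g, hg⟩, hg1⟩ := (Subgroup.ne_bot_iff_exists_ne_one).mp hst
    have hg1' : g ≠ 1 := fun h => hg1 (Subtype.ext h)
    intro h
    have h2 : (⟨g, hg.1⟩ : A) ∈ MulAction.stabilizer A b := by
      rw [MulAction.mem_stabilizer_iff]
      exact MulAction.mem_stabilizer_iff.mp hg.2
    rw [h, Subgroup.mem_bot] at h2
    exact hg1' (congrArg Subtype.val h2)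
  have hcomm := abelian φ hinj s hs hstab
  have hirr := irreducible φ hinj s hs hstab
  have hNnt : Nat.card N ≠ 1 := by
    intro h
    obtain ⟨n, hn⟩ := hsurj b
    have hsub : Subsingleton N := (Nat.card_eq_one_iff_unique.mp h).1
    have : n = 1 := Subsingleton.elim _ _
    rw [this] at hn
    apply hab
    simpa using hn
  constructor
  · have hp : (Nat.card N).minFac.Prime := Nat.minFac_prime hNnt
    refine ⟨(Nat.card N).minFac, hp, ⟨⟨hcomm⟩⟩, ?_⟩
    set p := (Nat.card N).minFac with hpdef
    let K : Subgroup N :=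
      { carrier := {x | x ^ p = 1}
        mul_mem' := by
          intro x y hx hy
          simp only [Set.mem_ofPred_eq] at *
          rw [(show Commute x y from hcomm x y).mul_pow, hx, hy, one_mul]
        one_mem' := by simp
        inv_mem' := by
          intro x hx
          simp only [Set.mem_ofPred_eq] at *
          rw [inv_pow, hx, inv_one] }
    have hKmem : ∀ x, x ∈ K ↔ x ^ p = 1 := fun x => Iff.rfl
    have hpF : Fact p.Prime := ⟨hp⟩
    rcases hirr K (by
      intro g h hh
      rw [hKmem] at *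
      rw [← map_pow, hh, map_one]) with h | h
    · exfalso
      obtain ⟨x, hx⟩ := exists_prime_orderOf_dvd_card' (G := N) p (Nat.minFac_dvd _)
      have hxK : x ∈ K := by rw [hKmem, ← hx]; exact pow_orderOf_eq_one x
      rw [h, Subgroup.mem_bot] at hxK
      rw [hxK, orderOf_one] at hx
      exact hp.one_lt.ne hx
    · intro x hx
      have : (⟨x, hx⟩ : N) ∈ K := by rw [h]; trivial
      rw [hKmem] at this
      exact congrArg Subtype.val this
  · intro M hM hMne
    rcases hirr (M.subgroupOf N) (by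
      intro g h hh
      rw [Subgroup.mem_subgroupOf] at *
      rw [hφ]
      exact hM.conj_mem _ hh _) with h | h
    · exfalso
      rw [Subgroup.subgroupOf_eq_bot] at h
      obtain ⟨⟨m, hm⟩, hm1⟩ := (Subgroup.ne_bot_iff_exists_ne_one).mp hMne
      have hm1' : m ≠ 1 := fun h => hm1 (Subtype.ext h)
      have hmx : ∀ x : N, m * x * m⁻¹ = x := by
        intro x
        have h1 : m * x * m⁻¹ * (x : G)⁻¹ ∈ M := by
          have := mul_mem hm (hM.conj_mem _ (inv_mem hm) (x : G))
          simpa [mul_assoc] using this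
        have h2 : m * x * m⁻¹ * (x : G)⁻¹ ∈ N := mul_mem (hN.conj_mem _ x.2 m) (inv_mem x.2)
        have h3 := Subgroup.disjoint_def.mp h h1 h2
        exact mul_inv_eq_one.mp h3
      obtain ⟨n, hn⟩ := hsurj (m • a)
      have hgA : (n : G)⁻¹ * m ∈ A := by
        rw [MulAction.mem_stabilizer_iff, mul_smul, ← hn, inv_smul_smul]
      have hg1 : φ ⟨(n : G)⁻¹ * m, hgA⟩ = 1 := by
        ext x
        rw [hφ]
        change (n : G)⁻¹ * m * x * ((n : G)⁻¹ * m)⁻¹ = x
        have h1 : (n : G)⁻¹ * m * x * ((n : G)⁻¹ * m)⁻¹ = (n : G)⁻¹ * (m * x * m⁻¹) * n := by group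
        rw [h1, hmx]
        have h2 := congrArg Subtype.val (hcomm x n)
        change (x : G) * n = n * x at h2
        rw [mul_assoc, h2, inv_mul_cancel_left]
      have hg2 := hinj (hg1.trans (map_one φ).symm)
      have hg3 : (n : G)⁻¹ * m = 1 := congrArg Subtype.val hg2
      have hmn : m = n := (inv_mul_eq_one.mp hg3).symm
      exact hm1' (Subgroup.disjoint_def.mp h hm (hmn ▸ n.2))
    · exact Subgroup.subgroupOf_eq_top.mp h

end Cfsg.Agent.S3356
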