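import Mathlib
import Cfsg.Statements.S3375

namespace Cfsg.Agent.S3375

theorem gamma_sq {H : Type*} [Group H] (γ : MulAut H) (hγ : orderOf γ = 2) (h : H) :
    γ (γ h) = h := by
  have h1 : γ ^ 2 = 1 := by rw [← hγ]; exact pow_orderOf_eq_one γ
  have h2 := congrArg (fun f : MulAut H => f h) h1
  simpa [pow_two] using h2

theorem key {H : Type*} [Group H] [Finite H] (γ : MulAut H) (hγ : ∀ h, γ (γ h) = h)
    (hF : Nat.card {h : H // γ h = h} = 2) (M : Subgroup H) (hM : M.index = 2)
    (hinv : ∀ a ∈ M, γ a ∈ M) : ∀ a ∈ M, γ a = a⁻¹ := by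
  let F : Subgroup H :=
    { carrier := {h | γ h = h}
      mul_mem' := by
        intro a b ha hb
        simp only [Set.mem_setOf_eq] at *
        rw [map_mul, ha, hb]
      one_mem' := by simp
      inv_mem' := by
        intro a ha
        simp only [Set.mem_setOf_eq] at *
        rw [map_inv, ha] }
  have hFc : Nat.card F = 2 := hF
  have hmemF : ∀ h, h ∈ F ↔ γ h = h := fun h => Iff.rfl
  have hmem : ∀ h, h * (γ h)⁻¹ ∈ M := by
    intro h
    rw [Subgroup.mul_mem_iff_of_index_two hM, inv_mem_iff]
    constructor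
    · exact hinv h
    · intro h1
      have := hinv _ h1
      rwa [hγ] at this
  let f : H ⧸ F → M := Quotient.lift (fun h => (⟨h * (γ h)⁻¹, hmem h⟩ : M)) (by
    intro a b hab
    have hab' : a⁻¹ * b ∈ F := QuotientGroup.leftRel_apply.mp hab
    rw [hmemF, map_mul, map_inv] at hab'
    apply Subtype.ext
    show a * (γ a)⁻¹ = b * (γ b)⁻¹
    have : γ b = γ a * (a⁻¹ * b) := by rw [← hab']; group
    rw [this]; group)
  have hinj : Function.Injective f := by
    intro x y
    induction x using QuotientGroup.induction_on with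
    | H a =>
      induction y using QuotientGroup.induction_on with
      | H b =>
        intro hab
        have hab' : a * (γ a)⁻¹ = b * (γ b)⁻¹ := congrArg Subtype.val hab
        apply QuotientGroup.eq.mpr
        rw [hmemF, map_mul, map_inv]
        have : (γ a)⁻¹ = a⁻¹ * (b * (γ b)⁻¹) := by rw [← hab']; group
        rw [this]; group
  have hcard : Nat.card M ≤ Nat.card (H ⧸ F) := by
    have h1 := Subgroup.card_mul_index F
    have h2 := Subgroup.card_mul_index M
    rw [hFc] at h1
    rw [hM] at h2
    have : Nat.card (H ⧸ F) = F.index := rfl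
    rw [this]
    omega
  have hbij := hinj.bijective_of_nat_card_le hcard
  intro a ha
  obtain ⟨q, hq⟩ := hbij.2 ⟨a, ha⟩
  induction q using QuotientGroup.induction_on with
  | H b =>
    have hq' : b * (γ b)⁻¹ = a := congrArg Subtype.val hq
    rw [← hq', map_mul, map_inv, hγ]
    group

theorem finish {H : Type*} [Group H] (γ : MulAut H) (M : Subgroup H) (hM : M.index = 2)
    (hinv : ∀ a ∈ M, γ a ∈ M) (h : ∀ a ∈ M, γ a = a⁻¹) :
    ∃ A : Subgroup H, A.index = 2 ∧ IsMulCommutative A ∧ (∀ a ∈ A, γ a ∈ A) ∧
      ∀ a ∈ A, γ a = a⁻¹ := by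
  refine ⟨M, hM, ⟨⟨fun a b => Subtype.ext ?_⟩⟩, hinv, h⟩
  show (a : H) * b = b * a
  have h1 := h _ (M.mul_mem a.2 b.2)
  rw [map_mul, h _ a.2, h _ b.2, mul_inv_rev] at h1
  have h2 := congrArg (fun x => x⁻¹) h1
  simp only [mul_inv_rev, inv_inv] at h2
  exact h2.symm

/-- Let γ be an automorphism of order 2 of a finite group H. (i) If γ fixes only the identity, then H is abelian and γ inverts every element. (ii) If γ has exactly two fixed points and H has a subgroup of index 2, then H has a γ-invariant abelian subgroup of index 2 on which γ acts by inversion. -/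
theorem result {H : Type*} [Group H] [Finite H] (γ : MulAut H) (hγ : orderOf γ = 2) :
    ((∀ h : H, γ h = h → h = 1) → (∀ a b : H, a * b = b * a) ∧ ∀ h : H, γ h = h⁻¹) ∧
    ((Nat.card {h : H // γ h = h} = 2 ∧ ∃ M : Subgroup H, M.index = 2) →
      ∃ A : Subgroup H, A.index = 2 ∧ IsMulCommutative A ∧ (∀ a ∈ A, γ a ∈ A) ∧ ∀ a ∈ A, γ a = a⁻¹) := by
  have hsq := gamma_sq γ hγ
  constructor
  · intro hfix
    have hfpf : MonoidHom.FixedPointFree γ := hfix
    have hinvol : Function.Involutive γ := hsq
    refine ⟨fun a b => hfpf.commute_all_of_involutive hinvol a b, fun h => ?_⟩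
    exact congrFun (hfpf.coe_eq_inv_of_involutive hinvol) h
  · rintro ⟨hF, M, hM⟩
    by_cases hinv : ∀ a ∈ M, γ a ∈ M
    · exact finish γ M hM hinv (key γ hsq hF M hM hinv)
    · push_neg at hinv
      obtain ⟨a, haM, haγ⟩ := hinv
      let M' : Subgroup H :=
        { carrier := {h | h ∈ M ↔ γ h ∈ M}
          mul_mem' := by
            intro x y hx hy
            simp only [Set.mem_setOf_eq] at *
            rw [map_mul, Subgroup.mul_mem_iff_of_index_two hM,
              Subgroup.mul_mem_iff_of_index_two hM, hx, hy]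
          one_mem' := by simp [M.one_mem]
          inv_mem' := by
            intro x hx
            simp only [Set.mem_setOf_eq] at *
            rw [map_inv, inv_mem_iff, inv_mem_iff, hx] }
      have hmem' : ∀ h, h ∈ M' ↔ (h ∈ M ↔ γ h ∈ M) := fun h => Iff.rfl
      have hM' : M'.index = 2 := by
        rw [Subgroup.index_eq_two_iff]
        refine ⟨a, fun b => ?_⟩
        rw [hmem', hmem', map_mul, Subgroup.mul_mem_iff_of_index_two hM,
          Subgroup.mul_mem_iff_of_index_two hM]
        unfold Xor
        tauto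
      have hinv' : ∀ x ∈ M', γ x ∈ M' := by
        intro x hx
        rw [hmem'] at hx ⊢
        rw [hsq, hx]
      exact finish γ M' hM' hinv' (key γ hsq hF M' hM' hinv')

end Cfsg.Agent.S3375
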