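import Mathlib
import Cfsg.Statements.S3379

set_option autoImplicit false
open Cfsg

namespace Cfsg.Agent.S3379

/-- Subgroups `⟨y ^ s⟩` of a normal cyclic subgroup `⟨y⟩` are normal. -/
theorem zpowers_pow_normal {G : Type*} [Group G] (y : G) (hy : (Subgroup.zpowers y).Normal) (s : ℕ) :
    (Subgroup.zpowers (y ^ s)).Normal := by
  constructor
  intro z hz g
  obtain ⟨i, rfl⟩ := Subgroup.mem_zpowers_iff.mp hz
  obtain ⟨k, hk⟩ := Subgroup.mem_zpowers_iff.mp (hy.conj_mem y (Subgroup.mem_zpowers y) g)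
  rw [Subgroup.mem_zpowers_iff]
  refine ⟨k * i, ?_⟩
  have h1 : g * (y ^ s) ^ i * g⁻¹ = ((g * y * g⁻¹) ^ s) ^ i := by
    rw [conj_pow, conj_zpow]
  rw [h1, ← hk, ← zpow_natCast, ← zpow_natCast, ← zpow_mul, ← zpow_mul, ← zpow_mul]
  congr 1
  ring

theorem result {G : Type*} [Group G] [Finite G]
    (hZ : ∀ (p : ℕ) [Fact p.Prime] (P : Sylow p G), IsCyclic (P : Subgroup G)) :
    ∃ (x y : G) (n m r : ℕ), Subgroup.closure {x, y} = ⊤ ∧ orderOf x = n ∧ orderOf y = m ∧
      x⁻¹ * y * x = y ^ r ∧ Nat.Coprime (r - 1) m ∧ Nat.Coprime n m ∧ 1 ≤ r ∧ r ^ n % m = 1 % m := by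
  have hG : IsZGroup G := ⟨fun p hp P => by have := Fact.mk hp; exact hZ p P⟩
  obtain ⟨H, hH⟩ := Subgroup.exists_right_complement'_of_coprime (IsZGroup.coprime_commutator_index G)
  have h1 : Abelianization G ≃* H := hH.symm.QuotientMulEquiv
  have hHc : IsCyclic H := isCyclic_of_surjective _ h1.surjective
  have hNc : IsCyclic (commutator G) := IsZGroup.isCyclic_commutator G
  obtain ⟨⟨x, hxH⟩, hx⟩ := IsCyclic.exists_generator (α := H)
  obtain ⟨⟨y, hyN⟩, hy⟩ := IsCyclic.exists_generator (α := commutator G)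
  have hxz : Subgroup.zpowers x = H := by
    apply le_antisymm
    · simpa using hxH
    · intro h hh
      obtain ⟨k, hk⟩ := Subgroup.mem_zpowers_iff.mp (hx ⟨h, hh⟩)
      exact Subgroup.mem_zpowers_iff.mpr ⟨k, by simpa using congrArg Subtype.val hk⟩
  have hyz : Subgroup.zpowers y = commutator G := by
    apply le_antisymm
    · simpa using hyN
    · intro h hh
      obtain ⟨k, hk⟩ := Subgroup.mem_zpowers_iff.mp (hy ⟨h, hh⟩)
      exact Subgroup.mem_zpowers_iff.mpr ⟨k, by simpa using congrArg Subtype.val hk⟩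
  have hxo : orderOf x = Nat.card H := by rw [← hxz, Nat.card_zpowers]
  have hyo : orderOf y = Nat.card (commutator G) := by rw [← hyz, Nat.card_zpowers]
  have hcop : Nat.Coprime (orderOf x) (orderOf y) := by
    rw [hxo, hyo, ← hH.symm.index_eq_card]
    exact (IsZGroup.coprime_commutator_index G).symm
  have hgen : Subgroup.closure {x, y} = ⊤ := by
    rw [eq_top_iff, ← hH.sup_eq_top, ← hxz, ← hyz, sup_le_iff]
    constructor
    · rw [Subgroup.zpowers_le]; exact Subgroup.subset_closure (by simp)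
    · rw [Subgroup.zpowers_le]; exact Subgroup.subset_closure (by simp)
  have hyn : (Subgroup.zpowers y).Normal := by rw [hyz]; infer_instance
  have hmpos : 0 < orderOf y := orderOf_pos y
  -- the exponent `r`
  have hconj : x⁻¹ * y * x ∈ Subgroup.zpowers y := by
    have := hyn.conj_mem y (Subgroup.mem_zpowers y) x⁻¹
    simpa using this
  obtain ⟨r₀, hr₀⟩ := (mem_powers_iff_mem_zpowers.mpr hconj)
  have hr₀' : y ^ r₀ = x⁻¹ * y * x := hr₀
  set r := r₀ + orderOf y with hrdef
  have hr : x⁻¹ * y * x = y ^ r := by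
    rw [hrdef, pow_add, pow_orderOf_eq_one, mul_one, hr₀']
  have hr1 : 1 ≤ r := by omega
  -- iterating the conjugation
  have hiter : ∀ k : ℕ, (x ^ k)⁻¹ * y * x ^ k = y ^ (r ^ k) := by
    intro k
    induction k with
    | zero => simp
    | succ k ih =>
      have : (x ^ (k + 1))⁻¹ * y * x ^ (k + 1) = x⁻¹ * ((x ^ k)⁻¹ * y * x ^ k) * x := by
        rw [pow_succ]; group
      rw [this, ih]
      have h2 : x⁻¹ * y ^ (r ^ k) * x = (x⁻¹ * y * x) ^ (r ^ k) := by
        have := conj_pow (a := x⁻¹) (b := y) (i := r ^ k)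
        simpa using this.symm
      rw [h2, hr, ← pow_mul, pow_succ']
  have hrn : r ^ orderOf x % orderOf y = 1 % orderOf y := by
    have h2 := hiter (orderOf x)
    rw [pow_orderOf_eq_one] at h2
    simp only [inv_one, one_mul, mul_one] at h2
    have h3 : y ^ (r ^ orderOf x) = y ^ 1 := by rw [← h2, pow_one]
    exact pow_eq_pow_iff_modEq.mp h3
  -- coprimality of `r - 1` and `m`
  have hcop2 : Nat.Coprime (r - 1) (orderOf y) := by
    have hn0 : (Subgroup.zpowers (y ^ (r - 1))).Normal := zpowers_pow_normal y hyn (r - 1)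
    have hcomm : IsMulCommutative (G ⧸ Subgroup.zpowers (y ^ (r - 1))) := by
      have hxy : (QuotientGroup.mk' (Subgroup.zpowers (y ^ (r - 1)))) x *
          (QuotientGroup.mk' (Subgroup.zpowers (y ^ (r - 1)))) y =
          (QuotientGroup.mk' (Subgroup.zpowers (y ^ (r - 1)))) y *
          (QuotientGroup.mk' (Subgroup.zpowers (y ^ (r - 1)))) x := by
        rw [← map_mul, ← map_mul]
        have h3 : y * x = x * y * y ^ (r - 1) := by
          have : y * x = x * (x⁻¹ * y * x) := by group
          rw [this, hr, mul_assoc, ← pow_succ']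
          congr 2
          omega
        rw [h3, map_mul _ (x * y) (y ^ (r - 1))]
        have h4 : (QuotientGroup.mk' (Subgroup.zpowers (y ^ (r - 1)))) (y ^ (r - 1)) = 1 :=
          (QuotientGroup.eq_one_iff _).mpr (Subgroup.mem_zpowers _)
        rw [h4, mul_one]
      have hcl : IsMulCommutative (Subgroup.closure
          ((QuotientGroup.mk' (Subgroup.zpowers (y ^ (r - 1)))) '' {x, y})) := by
        apply Subgroup.isMulCommutative_closure
        rintro _ ⟨a, ha, rfl⟩ _ ⟨b, hb, rfl⟩
        simp only [Set.mem_insert_iff, Set.mem_singleton_iff] at ha hb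
        rcases ha with rfl | rfl <;> rcases hb with rfl | rfl
        · rfl
        · exact hxy
        · exact hxy.symm
        · rfl
      rw [← MonoidHom.map_closure, hgen, ← MonoidHom.range_eq_map,
        MonoidHom.range_eq_top.mpr (QuotientGroup.mk'_surjective _)] at hcl
      exact ⟨⟨fun a b => setLike_mul_comm (s := (⊤ : Subgroup (G ⧸ Subgroup.zpowers (y ^ (r - 1)))))
        (Subgroup.mem_top a) (Subgroup.mem_top b)⟩⟩
    have hle := Subgroup.Normal.quotient_commutative_iff_commutator_le.mp hcomm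
    have hmem : y ∈ Subgroup.zpowers (y ^ (r - 1)) := hle hyN
    have hdvd := orderOf_dvd_of_mem_zpowers hmem
    rw [orderOf_pow] at hdvd
    set g := Nat.gcd (orderOf y) (r - 1) with hg
    have hgpos : 0 < g := Nat.gcd_pos_of_pos_left _ hmpos
    have hgd : g ∣ orderOf y := Nat.gcd_dvd_left _ _
    have hq : 0 < orderOf y / g := Nat.div_pos (Nat.le_of_dvd hmpos hgd) hgpos
    have hle2 : orderOf y ≤ orderOf y / g := Nat.le_of_dvd hq hdvd
    have hmul : orderOf y / g * g = orderOf y := Nat.div_mul_cancel hgd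
    have hg1 : g = 1 := by
      by_contra hne
      have : 2 ≤ g := by omega
      nlinarith
    rw [Nat.coprime_comm]
    exact hg1
  exact ⟨x, y, orderOf x, orderOf y, r, hgen, rfl, rfl, hr, hcop2, hcop, hr1, hrn⟩

end Cfsg.Agent.S3379
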