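import Mathlib
import Cfsg.Statements.S3381

set_option autoImplicit false
open Cfsg

namespace Cfsg.Agent.S3381

theorem card_ne {α : Type*} [Finite α] (a : α) : Nat.card {x : α // x ≠ a} = Nat.card α - 1 := by
  classical
  have := Fintype.ofFinite α
  rw [Nat.card_eq_fintype_card, Nat.card_eq_fintype_card,
    Fintype.card_subtype_compl (fun x => x = a), Fintype.card_subtype_eq]

section
variable {q : ℕ} [Fact q.Prime] {V : Type*} [AddCommGroup V] [Module (ZMod q) V]
  {G : Type*} [Group G] (ρ : G →* (V ≃ₗ[ZMod q] V))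

/-- fixed space -/
def Fx (t : G) : Submodule (ZMod q) V where
  carrier := {v | ρ t v = v}
  add_mem' := by
    intro a b ha hb
    simp only [Set.mem_ofPred_eq] at *
    rw [map_add, ha, hb]
  zero_mem' := by simp
  smul_mem' := by
    intro c x hx
    simp only [Set.mem_ofPred_eq] at *
    rw [map_smul, hx]

theorem mem_Fx (t : G) (v : V) : v ∈ Fx ρ t ↔ ρ t v = v := Iff.rfl

theorem rho_mul (g h : G) (v : V) : ρ (g * h) v = ρ g (ρ h v) := by
  rw [map_mul]; rfl

theorem rho_one (v : V) : ρ 1 v = v := by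
  rw [map_one]; rfl

/-- the stabilizer of a vector -/
def St (v : V) : Subgroup G where
  carrier := {g | ρ g v = v}
  mul_mem' := by
    intro a b ha hb
    simp only [Set.mem_ofPred_eq] at *
    rw [rho_mul, hb, ha]
  one_mem' := rho_one ρ v
  inv_mem' := by
    intro a ha
    simp only [Set.mem_ofPred_eq] at *
    have : ρ a⁻¹ (ρ a v) = v := by rw [← rho_mul, inv_mul_cancel, rho_one]
    rwa [ha] at this

theorem exists_tv (hstab : ∀ v : V, v ≠ 0 → Nat.card {g : G // ρ g v = v} = 2) (v : V) (hv : v ≠ 0) :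
    ∃ t : G, orderOf t = 2 ∧ ρ t v = v ∧ ∀ g : G, ρ g v = v → g = 1 ∨ g = t := by
  have h2 : Nat.card (St ρ v) = 2 := hstab v hv
  obtain ⟨t, ht1, ht2⟩ := (Nat.card_eq_two_iff' (1 : St ρ v)).mp h2
  have ht1' : (t : G) ≠ 1 := fun h => ht1 (Subtype.ext h)
  refine ⟨t, ?_, t.2, ?_⟩
  · apply orderOf_eq_prime _ ht1'
    by_contra hne
    have h3 : t ^ 2 ≠ 1 := fun h => hne (by simpa using congrArg Subtype.val h)
    have h4 := ht2 _ h3
    rw [pow_two] at h4
    exact ht1 (by simpa using h4)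
  · intro g hg
    by_cases hg1 : g = 1
    · exact Or.inl hg1
    · right
      have := ht2 ⟨g, hg⟩ (fun h => hg1 (congrArg Subtype.val h))
      exact congrArg Subtype.val this

theorem eq_zero_of_eq_neg (h2 : (2 : ZMod q) ≠ 0) (v : V) (hv : v = -v) : v = 0 := by
  have h1 : (2 : ZMod q) • v = 0 := by
    rw [two_smul]
    nth_rewrite 1 [hv]
    exact neg_add_cancel v
  rcases smul_eq_zero.mp h1 with h | h
  · exact absurd h h2
  · exact h

theorem central_fpf (hρ : Function.Injective ρ)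
    (hstab : ∀ v : V, v ≠ 0 → Nat.card {g : G // ρ g v = v} = 2)
    (c : G) (hc : orderOf c = 2) (hcc : c ∈ Subgroup.center G) (w : V) (hw : ρ c w = w) :
    w = 0 := by
  by_contra hw0
  have hc1 : c ≠ 1 := by rintro rfl; simp at hc
  have hccc : c * c = 1 := by rw [← pow_two, ← hc]; exact pow_orderOf_eq_one c
  obtain ⟨u, hu⟩ : ∃ u, ρ c u ≠ u := by
    by_contra hall
    push Not at hall
    apply hc1
    apply hρ
    rw [map_one]
    ext v
    exact hall v
  have hcomm : ∀ g v, ρ c (ρ g v) = ρ g (ρ c v) := by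
    intro g v
    rw [← rho_mul, ← rho_mul, Subgroup.mem_center_iff.mp hcc g]
  have hStW : ∀ w', ρ c w' = w' → w' ≠ 0 → ∀ g, ρ g w' = w' → g = 1 ∨ g = c := by
    intro w' hw' hw'0 g hg
    obtain ⟨t, _, _, ht⟩ := exists_tv ρ hstab w' hw'0
    rcases ht c hw' with h | h
    · exact absurd h hc1
    · rw [h]; exact ht g hg
  have hu0 : u ≠ 0 := by
    rintro rfl
    exact hu (map_zero _)
  obtain ⟨t, ht2, htu, _⟩ := exists_tv ρ hstab u hu0
  have ht1 : t ≠ 1 := by rintro rfl; simp at ht2
  have htc : t ≠ c := by rintro rfl; exact hu htu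
  have htt : t * t = 1 := by rw [← pow_two, ← ht2]; exact pow_orderOf_eq_one t
  have htw : ρ t w = -w := by
    have hx : w + ρ t w = 0 := by
      by_contra hx0
      have h1 : ρ c (w + ρ t w) = w + ρ t w := by rw [map_add, hcomm, hw]
      have h2 : ρ t (w + ρ t w) = w + ρ t w := by
        rw [map_add, ← rho_mul, htt, rho_one, add_comm]
      rcases hStW _ h1 hx0 t h2 with h | h
      · exact ht1 h
      · exact htc h
    exact (neg_eq_of_add_eq_zero_right hx).symm
  have h2 : (2 : ZMod q) ≠ 0 := by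
    intro h
    have h1 : w + w = 0 := by rw [← two_smul (ZMod q) w, h, zero_smul]
    have h3 : ρ t w = w := by rw [htw]; exact neg_eq_of_add_eq_zero_right h1
    rcases hStW w hw hw0 t h3 with h | h
    · exact ht1 h
    · exact htc h
  set y := u - ρ c u with hy
  have hy0 : y ≠ 0 := sub_ne_zero.mpr (Ne.symm hu)
  have hcy : ρ c y = -y := by
    rw [hy, map_sub, ← rho_mul, hccc, rho_one]; abel
  have hx0 : w + y ≠ 0 := by
    intro h
    have h1 : y = -w := (neg_eq_of_add_eq_zero_right h).symm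
    apply hy0
    apply eq_zero_of_eq_neg h2
    rw [← hcy, h1, map_neg, hw]
  obtain ⟨s, hs2, hsx, _⟩ := exists_tv ρ hstab (w + y) hx0
  have hs1 : s ≠ 1 := by rintro rfl; simp at hs2
  rw [map_add] at hsx
  have hd : ρ s w - w = y - ρ s y := by
    have : ρ s w = w + y - ρ s y := by rw [← hsx]; abel
    rw [this]; abel
  have hd1 : ρ c (ρ s w - w) = ρ s w - w := by rw [map_sub, hcomm, hw]
  have hd2 : ρ c (ρ s w - w) = -(ρ s w - w) := by
    rw [hd, map_sub, hcomm, hcy, map_neg]; abel
  have hd0 : ρ s w - w = 0 := by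
    apply eq_zero_of_eq_neg h2
    rw [← hd2, hd1]
  have hsw : ρ s w = w := sub_eq_zero.mp hd0
  rcases hStW w hw hw0 s hsw with h | h
  · exact hs1 h
  · rw [h, hw, hcy] at hsx
    apply hy0
    apply eq_zero_of_eq_neg h2
    exact (add_left_cancel hsx).symm

theorem rho_z (hρ : Function.Injective ρ)
    (hstab : ∀ v : V, v ≠ 0 → Nat.card {g : G // ρ g v = v} = 2)
    (z : G) (hz : orderOf z = 2) (hzc : z ∈ Subgroup.center G) (v : V) : ρ z v = -v := by
  have hzz : z * z = 1 := by rw [← pow_two, ← hz]; exact pow_orderOf_eq_one z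
  have h : ρ z (v + ρ z v) = v + ρ z v := by rw [map_add, ← rho_mul, hzz, rho_one, add_comm]
  have := central_fpf ρ hρ hstab z hz hzc _ h
  exact (neg_eq_of_add_eq_zero_right this).symm

theorem two_ne [Nontrivial V] (hρ : Function.Injective ρ)
    (hstab : ∀ v : V, v ≠ 0 → Nat.card {g : G // ρ g v = v} = 2)
    (z : G) (hz : orderOf z = 2) (hzc : z ∈ Subgroup.center G) : (2 : ZMod q) ≠ 0 := by
  intro h
  obtain ⟨v, hv⟩ := exists_ne (0 : V)
  apply hv
  apply central_fpf ρ hρ hstab z hz hzc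
  rw [rho_z ρ hρ hstab z hz hzc]
  have h1 : v + v = 0 := by rw [← two_smul (ZMod q) v, h, zero_smul]
  exact neg_eq_of_add_eq_zero_right h1

theorem isCompl_Fx (h2 : (2 : ZMod q) ≠ 0) (z : G) (hzv : ∀ v, ρ z v = -v) (t : G)
    (htt : t * t = 1) : IsCompl (Fx ρ t) (Fx ρ (t * z)) := by
  constructor
  · rw [Submodule.disjoint_def]
    intro x hx hx'
    rw [mem_Fx] at hx hx'
    rw [rho_mul, hzv, map_neg, hx] at hx'
    exact eq_zero_of_eq_neg h2 x hx'.symm
  · rw [codisjoint_iff, eq_top_iff]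
    intro v _
    rw [Submodule.mem_sup]
    refine ⟨(2:ZMod q)⁻¹ • (v + ρ t v), ?_, (2:ZMod q)⁻¹ • (v - ρ t v), ?_, ?_⟩
    · apply Submodule.smul_mem
      rw [mem_Fx, map_add, ← rho_mul, htt, rho_one, add_comm]
    · apply Submodule.smul_mem
      rw [mem_Fx, rho_mul, hzv, map_neg, map_sub, ← rho_mul, htt, rho_one]
      abel
    · rw [← smul_add]
      have : v + ρ t v + (v - ρ t v) = (2 : ZMod q) • v := by rw [two_smul]; abel
      rw [this, smul_smul, inv_mul_cancel₀ h2, one_smul]

theorem disjoint_Fx (hstab : ∀ v : V, v ≠ 0 → Nat.card {g : G // ρ g v = v} = 2)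
    (s t : G) (hs : s ≠ 1) (ht : t ≠ 1) (hst : s ≠ t) : Disjoint (Fx ρ s) (Fx ρ t) := by
  rw [Submodule.disjoint_def]
  intro x hx hx'
  by_contra hx0
  obtain ⟨u, _, _, hu⟩ := exists_tv ρ hstab x hx0
  rcases hu s hx with h | h
  · exact hs h
  · rcases hu t hx' with h' | h'
    · exact ht h'
    · exact hst (h.trans h'.symm)

theorem two_finrank_le [Finite V] (hρ : Function.Injective ρ)
    (hstab : ∀ v : V, v ≠ 0 → Nat.card {g : G // ρ g v = v} = 2)
    (h2 : (2 : ZMod q) ≠ 0)
    (z : G) (hz : orderOf z = 2) (hzc : z ∈ Subgroup.center G) (hzv : ∀ v, ρ z v = -v)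
    (t : G) (ht : orderOf t = 2) (htc : t ∉ Subgroup.center G) :
    2 * Module.finrank (ZMod q) (Fx ρ t) ≤ Module.finrank (ZMod q) V := by
  by_contra hcon
  push Not at hcon
  have hzz : z * z = 1 := by rw [← pow_two, ← hz]; exact pow_orderOf_eq_one z
  have sq : ∀ s : G, orderOf s = 2 → s * s = 1 := by
    intro s hs
    rw [← pow_two, ← hs]; exact pow_orderOf_eq_one s
  have ne1 : ∀ s : G, orderOf s = 2 → s ≠ 1 := by
    rintro s hs rfl
    simp at hs
  have key : ∀ s : G, orderOf s = 2 → s ∉ Subgroup.center G → s = t ∨ s = t * z := by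
    intro s hs hsc
    by_contra hne
    push Not at hne
    have h1 := Submodule.finrank_add_finrank_le_of_disjoint
      (disjoint_Fx ρ hstab s t (ne1 s hs) (ne1 t ht) hne.1)
    have h3 := Submodule.finrank_add_finrank_le_of_disjoint
      (disjoint_Fx ρ hstab (s * z) t (by
        intro h
        apply hsc
        rw [eq_inv_of_mul_eq_one_left h]
        exact inv_mem hzc) (ne1 t ht) (by
        intro h
        apply hne.2
        rw [← h, mul_assoc, hzz, mul_one]))
    have h4 := Submodule.finrank_add_eq_of_isCompl (isCompl_Fx ρ h2 z hzv s (sq s hs))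
    omega
  have hc := isCompl_Fx ρ h2 z hzv t (sq t ht)
  obtain ⟨a, ha, ha0⟩ : ∃ a ∈ Fx ρ t, a ≠ 0 := by
    apply Submodule.exists_mem_ne_zero_of_ne_bot
    intro h
    rw [h, finrank_bot] at hcon
    omega
  obtain ⟨b, hb, hb0⟩ : ∃ b ∈ Fx ρ (t * z), b ≠ 0 := by
    apply Submodule.exists_mem_ne_zero_of_ne_bot
    intro h
    rw [h] at hc
    have htop : Fx ρ t = ⊤ := by simpa using hc.sup_eq_top
    apply ne1 t ht
    apply hρ
    rw [map_one]
    ext v
    have : v ∈ Fx ρ t := by rw [htop]; trivial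
    exact this
  have hdis := Submodule.disjoint_def.mp hc.disjoint
  have hab : a + b ≠ 0 := by
    intro h
    have h1 : b = -a := (neg_eq_of_add_eq_zero_right h).symm
    apply hb0
    apply hdis b _ hb
    rw [h1]
    exact neg_mem ha
  obtain ⟨u, hu2, hu, _⟩ := exists_tv ρ hstab (a + b) hab
  have huc : u ∉ Subgroup.center G := fun h => hab (central_fpf ρ hρ hstab u hu2 h _ hu)
  rcases key u hu2 huc with rfl | rfl
  · apply hb0
    apply hdis b _ hb
    rw [map_add, (mem_Fx ρ _ _).mp ha] at hu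
    exact add_left_cancel hu
  · apply ha0
    apply hdis a ha
    rw [map_add, (mem_Fx ρ _ _).mp hb] at hu
    exact add_right_cancel hu

end

/-- Let G be a finite group acting faithfully and linearly on a non-trivial finite vector space V over the field with q elements (q prime) so that every non-zero vector has a stabilizer of order 2, and suppose G has a central involution. Then V has q^(2r) elements for some r and G contains exactly q^r + 1 non-central involutions. -/
theorem result
    (q : ℕ) [Fact q.Prime] {V : Type*} [AddCommGroup V] [Module (ZMod q) V] [Finite V] [Nontrivial V]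
    {G : Type*} [Group G] [Finite G] (ρ : G →* (V ≃ₗ[ZMod q] V)) (hρ : Function.Injective ρ)
    (hstab : ∀ v : V, v ≠ 0 → Nat.card {g : G // ρ g v = v} = 2)
    (z : G) (hz : orderOf z = 2) (hzc : z ∈ Subgroup.center G) :
    ∃ r : ℕ, Nat.card V = q ^ (2 * r) ∧
      Nat.card {g : G // orderOf g = 2 ∧ g ∉ Subgroup.center G} = q ^ r + 1 := by
  classical
  have h2 := two_ne ρ hρ hstab z hz hzc
  have hzv := rho_z ρ hρ hstab z hz hzc
  have hzz : z * z = 1 := by rw [← pow_two, ← hz]; exact pow_orderOf_eq_one z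
  have sq : ∀ s : G, orderOf s = 2 → s * s = 1 := by
    intro s hs
    rw [← pow_two, ← hs]; exact pow_orderOf_eq_one s
  have hIz : ∀ t : G, orderOf t = 2 → t ∉ Subgroup.center G →
      orderOf (t * z) = 2 ∧ t * z ∉ Subgroup.center G := by
    intro t ht htc
    have hc : t * z ∉ Subgroup.center G := by
      intro h
      apply htc
      have := mul_mem h hzc
      rwa [mul_assoc, hzz, mul_one] at this
    refine ⟨?_, hc⟩
    apply orderOf_eq_prime
    · rw [pow_two, mul_assoc, ← mul_assoc z t z, ← Subgroup.mem_center_iff.mp hzc t, mul_assoc,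
        hzz, mul_one, sq t ht]
    · intro h
      apply hc
      rw [h]
      exact one_mem _
  have hd : ∀ t : G, orderOf t = 2 → t ∉ Subgroup.center G →
      2 * Module.finrank (ZMod q) (Fx ρ t) = Module.finrank (ZMod q) V := by
    intro t ht htc
    have h1 := two_finrank_le ρ hρ hstab h2 z hz hzc hzv t ht htc
    have h3 := two_finrank_le ρ hρ hstab h2 z hz hzc hzv (t * z) (hIz t ht htc).1 (hIz t ht htc).2
    have h4 := Submodule.finrank_add_eq_of_isCompl (isCompl_Fx ρ h2 z hzv t (sq t ht))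
    omega
  obtain ⟨v0, hv0⟩ := exists_ne (0 : V)
  obtain ⟨t0, ht0, ht0v, _⟩ := exists_tv ρ hstab v0 hv0
  have ht0c : t0 ∉ Subgroup.center G := fun h => hv0 (central_fpf ρ hρ hstab t0 ht0 h _ ht0v)
  have hN : Nat.card V = q ^ (2 * Module.finrank (ZMod q) (Fx ρ t0)) := by
    rw [hd t0 ht0 ht0c, Module.natCard_eq_pow_finrank (K := ZMod q), Nat.card_zmod]
  refine ⟨Module.finrank (ZMod q) (Fx ρ t0), hN, ?_⟩
  set r := Module.finrank (ZMod q) (Fx ρ t0) with hr
  have hex : ∀ v : {v : V // v ≠ 0}, ∃ t : {g : G // orderOf g = 2 ∧ g ∉ Subgroup.center G},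
      ρ t.1 v.1 = v.1 ∧ ∀ s : {g : G // orderOf g = 2 ∧ g ∉ Subgroup.center G},
        ρ s.1 v.1 = v.1 → s = t := by
    intro v
    obtain ⟨t, ht, htv, hu⟩ := exists_tv ρ hstab v.1 v.2
    refine ⟨⟨t, ht, fun h => v.2 (central_fpf ρ hρ hstab t ht h _ htv)⟩, htv, ?_⟩
    intro s hs
    rcases hu s.1 hs with h | h
    · exfalso
      have := s.2.1
      rw [h] at this
      simp at this
    · exact Subtype.ext h
  choose f hf1 hf2 using hex
  have fiber : ∀ t : {g : G // orderOf g = 2 ∧ g ∉ Subgroup.center G},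
      Nat.card {x : {v : V // v ≠ 0} // f x = t} = q ^ r - 1 := by
    intro t
    let e : {x : {v : V // v ≠ 0} // f x = t} ≃ {w : Fx ρ t.1 // w ≠ 0} :=
      { toFun := fun x => ⟨⟨x.1.1, by
            have h1 := hf1 x.1
            rw [x.2] at h1
            exact h1⟩,
          fun h => x.1.2 (congrArg Subtype.val h)⟩
        invFun := fun w => ⟨⟨w.1.1, fun h => w.2 (Subtype.ext h)⟩,
          (hf2 ⟨w.1.1, fun h => w.2 (Subtype.ext h)⟩ t w.1.2).symm⟩
        left_inv := fun x => rfl
        right_inv := fun x => rfl }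
    rw [Nat.card_congr e, card_ne, Module.natCard_eq_pow_finrank (K := ZMod q), Nat.card_zmod]
    have h1 := hd t.1 t.2.1 t.2.2
    have h3 := hd t0 ht0 ht0c
    have : Module.finrank (ZMod q) (Fx ρ t.1) = r := by omega
    rw [this]
  have := Fintype.ofFinite {g : G // orderOf g = 2 ∧ g ∉ Subgroup.center G}
  have hcard : Nat.card {v : V // v ≠ 0} =
      Nat.card {g : G // orderOf g = 2 ∧ g ∉ Subgroup.center G} * (q ^ r - 1) := by
    rw [← Nat.card_congr (Equiv.sigmaFiberEquiv f), Nat.card_sigma,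
      Finset.sum_congr rfl (fun t _ => fiber t), Finset.sum_const, Finset.card_univ, smul_eq_mul,
      Nat.card_eq_fintype_card]
  rw [card_ne, hN] at hcard
  have hrpos : 0 < r := by
    have h3 := hd t0 ht0 ht0c
    have h4 : 0 < Module.finrank (ZMod q) V := Module.finrank_pos
    omega
  have hq : 2 ≤ q := (Fact.out : q.Prime).two_le
  have hx : 2 ≤ q ^ r := by
    calc 2 ≤ q := hq
      _ = q ^ 1 := (pow_one q).symm
      _ ≤ q ^ r := Nat.pow_le_pow_right (by omega) hrpos
  obtain ⟨y, hy⟩ : ∃ y, q ^ r = y + 2 := ⟨q ^ r - 2, by omega⟩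
  rw [mul_comm 2 r, pow_mul, hy] at hcard
  rw [hy]
  have h5 : (y + 2) ^ 2 - 1 = (y + 2 + 1) * (y + 1) := by
    have : (y + 2) ^ 2 = (y + 2 + 1) * (y + 1) + 1 := by ring
    omega
  have h6 : y + 2 - 1 = y + 1 := by omega
  rw [h5, h6] at hcard
  exact (Nat.eq_of_mul_eq_mul_right (by omega) hcard).symm

end Cfsg.Agent.S3381
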