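import Mathlib
import Cfsg.Agent.Lib.Lead.FrobConj
import Cfsg.Statements.S3383

open Pointwise

namespace Cfsg.Agent.S3383

open Cfsg.Agent.Lib.Lead Cfsg.Agent.Lib.Helper1

/-- Let H be a Frobenius complement in a finite group L and K the Frobenius kernel (as a subgroup). Then K is characteristic in L, and every normal subgroup of L either contains K or is contained in K. -/
theorem result {L : Type*} [Group L] [Finite L]
    (H : Subgroup L) (hH : Cfsg.IsFrobeniusComplement H)
    (K : Subgroup L) (hK : (K : Set L) = Cfsg.frobeniusKernel H) :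
    K.Characteristic ∧ ∀ N : Subgroup L, N.Normal → K ≤ N ∨ N ≤ K := by
  have hmem : ∀ x, x ∈ K ↔ x ∈ Cfsg.frobeniusKernel H := fun x => by rw [← hK]; rfl
  have hKn : K.Normal := by
    constructor
    intro x hx g
    rw [hmem, mem_frobeniusKernel_iff] at hx ⊢
    rcases hx with rfl | hx
    · left; group
    · right
      intro a ha
      apply hx (g⁻¹ * a)
      rw [mem_conj_smul] at ha ⊢
      convert ha using 1
      group
  have hcomp : ∀ N : Subgroup L, N.Normal → K ≤ N ∨ N ≤ K := fun N hN =>
    (frob_normal_comparable hH hK hKn N hN).symm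
  refine ⟨?_, hcomp⟩
  rw [Subgroup.characteristic_iff_map_eq]
  intro ϕ
  have hn : (K.map ϕ.toMonoidHom).Normal := hKn.map _ ϕ.surjective
  have hcard : Nat.card (K.map ϕ.toMonoidHom) = Nat.card K :=
    Subgroup.card_map_of_injective ϕ.injective
  rcases hcomp _ hn with h | h
  · exact (Subgroup.eq_of_le_of_card_ge h hcard.le).symm
  · exact Subgroup.eq_of_le_of_card_ge h hcard.ge

end Cfsg.Agent.S3383
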