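import Cfsg.Statements.S3704
import Cfsg.Agent.S0157
import Cfsg.Agent.Lib.Helper24.Constituent
import Cfsg.Agent.Lib.Helper2.PermChar

set_option autoImplicit false
open Cfsg

namespace Cfsg.Agent.S3704

open Cfsg.Agent.Lib.Helper2 Cfsg.Agent.Lib.Helper6 Cfsg.Agent.Lib.Helper24
open scoped ComplexConjugate

attribute [local instance] irrFintype

/-- Let G be a finite group acting faithfully and 2-transitively on a finite set Ω of size n, and let H be a subgroup of index n in G which is not transitive on Ω and fixes no point of Ω. Then H has exactly two orbits on Ω. -/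
theorem result {G Ω : Type*} [Group G] [Finite G] [MulAction G Ω] [FaithfulSMul G Ω] [Finite Ω] (h2 : MulAction.IsMultiplyPretransitive G Ω 2) (H : Subgroup G) (hidx : H.index = Nat.card Ω) (hnt : ¬ MulAction.IsPretransitive H Ω) (hfix : ∀ a : Ω, ∃ h : H, h • a ≠ a) : Nat.card (MulAction.orbitRel.Quotient H Ω) = 2 := by
  classical
  cases nonempty_fintype G
  cases nonempty_fintype Ω
  haveI : MulAction.IsPretransitive G Ω := MulAction.isPretransitive_of_is_two_pretransitive
  have hn2 : 2 ≤ Nat.card Ω := by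
    by_contra hlt
    apply hnt
    have : Subsingleton Ω := (Finite.card_le_one_iff_subsingleton).1 (by omega)
    exact ⟨fun a b => ⟨1, Subsingleton.elim _ _⟩⟩
  set π : G → ℂ := fun g => (Nat.card (MulAction.fixedBy Ω g) : ℂ) with hπdef
  have hπ : IsCharacter G π := isCharacter_permChar
  have hχ : IsIrrCharacter G (fun g => (Nat.card (MulAction.fixedBy Ω g) : ℂ) - 1) :=
    (Cfsg.Agent.S0157.result Ω hn2).2 h2
  set χ : G → ℂ := fun g => (Nat.card (MulAction.fixedBy Ω g) : ℂ) - 1 with hχdef
  have hone : IsIrrCharacter G (fun _ => (1 : ℂ)) := isIrrCharacter_one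
  have honeH : IsIrrCharacter H (fun _ => (1 : ℂ)) := isIrrCharacter_one
  set ρ : G → ℂ := indFun H (fun _ => (1 : ℂ)) with hρdef
  have hρ : IsCharacter G ρ := IsCharacter.indFun H (IsIrrCharacter.isCharacter honeH)
  set k := Nat.card (MulAction.orbitRel.Quotient H Ω) with hkdef
  have h1 : classInner ρ (fun _ => (1 : ℂ)) = 1 := by
    rw [hρdef, frobenius_reciprocity H _ _ (IsCharacter.isClassFunction (IsIrrCharacter.isCharacter hone))]
    rw [classInner_irr honeH honeH, if_pos rfl]
  have hk : classInner ρ π = k := by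
    rw [hρdef, frobenius_reciprocity H _ _ (IsCharacter.isClassFunction hπ)]
    have hB := MulAction.sum_card_fixedBy_eq_card_orbits_mul_card_group H Ω
    have hH : (Nat.card H : ℂ) ≠ 0 := card_ne_zero_complex
    unfold classInner
    have : ∑ g : H, (1 : ℂ) * conj (π g) = ((∑ a : H, Fintype.card (MulAction.fixedBy Ω a) : ℕ) : ℂ) := by
      push_cast
      refine Finset.sum_congr rfl fun g _ => ?_
      rw [one_mul, hπdef]
      simp only [map_natCast]
      rw [Nat.card_eq_fintype_card]
      rfl
    rw [this, hB]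
    push_cast
    rw [← Nat.card_eq_fintype_card, ← Nat.card_eq_fintype_card]
    rw [hkdef]
    field_simp
  have hkχ : classInner ρ χ = (k : ℂ) - 1 := by
    have : χ = π - (fun _ => (1 : ℂ)) := by
      funext g
      rfl
    rw [this, classInner_sub_right, hk, h1]
  obtain ⟨n, hn⟩ := IsCharacter.exists_eq_sum hρ
  have hn1 : (n ⟨_, hone⟩ : ℂ) = 1 := by
    have h := classInner_sum_irr_left (fun ψ => (n ψ : ℂ)) (⟨_, hone⟩ : IrrCharacter G)
    rw [← hn] at h
    exact h.symm.trans h1
  have hnχ : (n ⟨_, hχ⟩ : ℂ) = (k : ℂ) - 1 := by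
    have h := classInner_sum_irr_left (fun ψ => (n ψ : ℂ)) (⟨_, hχ⟩ : IrrCharacter G)
    rw [← hn] at h
    exact h.symm.trans hkχ
  have hdeg := degree_eq_sum n hn
  rw [hρdef, charDegree_indFun H (IsIrrCharacter.isCharacter honeH)] at hdeg
  have hd1H : charDegree (fun _ : H => (1 : ℂ)) = 1 := by
    have := charDegree_cast (IsIrrCharacter.isCharacter honeH)
    exact_mod_cast this
  have hd1 : charDegree (fun _ : G => (1 : ℂ)) = 1 := by
    have := charDegree_cast (IsIrrCharacter.isCharacter hone)
    exact_mod_cast this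
  have hdχ : (charDegree χ : ℂ) = (Nat.card Ω : ℂ) - 1 := by
    rw [charDegree_cast (IsIrrCharacter.isCharacter hχ), hχdef]
    have : MulAction.fixedBy Ω (1 : G) = Set.univ := by
      ext a; simp
    simp only [this]
    rw [Nat.card_coe_set_eq, Set.ncard_univ]
  have hne : (⟨_, hone⟩ : IrrCharacter G) ≠ ⟨_, hχ⟩ := by
    intro he
    have h3 := congrArg Subtype.val he
    have h4 : classInner ρ (fun _ => (1 : ℂ)) = classInner ρ χ := by
      rw [show (fun _ : G => (1 : ℂ)) = χ from h3]
    have h5 : (charDegree (fun _ : G => (1 : ℂ)) : ℂ) = charDegree χ := by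
      rw [show (fun _ : G => (1 : ℂ)) = χ from h3]
    rw [hd1, hdχ] at h5
    have h6 : (Nat.card Ω : ℂ) = 2 := by linear_combination -h5
    have h7 : Nat.card Ω = 2 := by exact_mod_cast h6
    -- then χ = 1 means every element fixes both points
    have h8 : ∀ g : G, Nat.card (MulAction.fixedBy Ω g) = 2 := by
      intro g
      have := congrFun h3 g
      have h9 : (Nat.card (MulAction.fixedBy Ω g) : ℂ) = 2 := by
        simp only [hχdef] at this
        linear_combination -this
      exact_mod_cast h9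
    obtain ⟨a⟩ : Nonempty Ω := by
      rw [← Finite.card_pos_iff]; omega
    obtain ⟨h, hh⟩ := hfix a
    apply hh
    have h10 : MulAction.fixedBy Ω (h : G) = Set.univ := by
      apply Set.eq_of_subset_of_ncard_le (Set.subset_univ _)
      rw [Set.ncard_univ, h7, ← Nat.card_coe_set_eq, h8]
    have : a ∈ MulAction.fixedBy Ω (h : G) := by rw [h10]; trivial
    exact this
  have hle : n ⟨_, hone⟩ * charDegree (fun _ : G => (1 : ℂ)) + n ⟨_, hχ⟩ * charDegree χ ≤ H.index * charDegree (fun _ : H => (1 : ℂ)) := by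
    rw [hdeg, ← Finset.sum_pair (f := fun ψ : IrrCharacter G => n ψ * charDegree (ψ : G → ℂ)) hne]
    exact Finset.sum_le_sum_of_subset (Finset.subset_univ _)
  have hn1' : n ⟨_, hone⟩ = 1 := by exact_mod_cast hn1
  rw [hn1', hd1, hd1H, hidx] at hle
  have hkpos : 1 ≤ k := by
    rw [hkdef, Nat.succ_le_iff, Finite.card_pos_iff]
    obtain ⟨a⟩ : Nonempty Ω := by
      rw [← Finite.card_pos_iff]; omega
    exact ⟨Quotient.mk'' a⟩
  have hk1 : k ≠ 1 := by
    intro hk1
    apply hnt
    rw [MulAction.pretransitive_iff_subsingleton_quotient]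
    exact (Finite.card_le_one_iff_subsingleton).1 (by rw [← hkdef]; omega)
  have hnχ' : n ⟨_, hχ⟩ + 1 = k := by
    have : ((n ⟨_, hχ⟩ + 1 : ℕ) : ℂ) = k := by
      push_cast
      rw [hnχ]; ring
    exact_mod_cast this
  have hdχ' : charDegree χ + 1 = Nat.card Ω := by
    have : ((charDegree χ + 1 : ℕ) : ℂ) = Nat.card Ω := by
      push_cast
      rw [hdχ]; ring
    exact_mod_cast this
  by_contra hk2
  have hk3 : 2 ≤ n ⟨_, hχ⟩ := by omega
  have hd : 1 ≤ charDegree χ := by omega
  nlinarith

end Cfsg.Agent.S3704
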