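import Cfsg.Statements.S3707
import Mathlib

set_option autoImplicit false
open Cfsg
open scoped Pointwise

namespace Cfsg.Agent.S3707

/-- Jordan set -/
def JS (G : Type*) {Ω : Type*} [Group G] [MulAction G Ω] (J : Set Ω) : Prop :=
  ∀ x ∈ J, ∀ y ∈ J, ∃ g : G, (∀ z ∉ J, g • z = z) ∧ g • x = y

theorem JS.union {G Ω : Type*} [Group G] [MulAction G Ω] {J₁ J₂ : Set Ω} (h1 : JS G J₁)
    (h2 : JS G J₂) (h : (J₁ ∩ J₂).Nonempty) : JS G (J₁ ∪ J₂) := by
  obtain ⟨w, hw1, hw2⟩ := h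
  have key : ∀ x ∈ J₁ ∪ J₂, ∃ g : G, (∀ z ∉ J₁ ∪ J₂, g • z = z) ∧ g • x = w := by
    rintro x (hx | hx)
    · obtain ⟨g, hg, hgx⟩ := h1 x hx w hw1
      exact ⟨g, fun z hz => hg z (fun h => hz (Or.inl h)), hgx⟩
    · obtain ⟨g, hg, hgx⟩ := h2 x hx w hw2
      exact ⟨g, fun z hz => hg z (fun h => hz (Or.inr h)), hgx⟩
  intro x hx y hy
  obtain ⟨g, hg, hgx⟩ := key x hx
  obtain ⟨k, hk, hky⟩ := key y hy
  refine ⟨k⁻¹ * g, fun z hz => ?_, ?_⟩
  · rw [mul_smul, hg z hz, inv_smul_eq_iff, hk z hz]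
  · rw [mul_smul, hgx, inv_smul_eq_iff, hky]

theorem JS.smul {G Ω : Type*} [Group G] [MulAction G Ω] {J : Set Ω} (h1 : JS G J) (h : G) :
    JS G (h • J) := by
  rintro _ ⟨x, hx, rfl⟩ _ ⟨y, hy, rfl⟩
  obtain ⟨g, hg, hgx⟩ := h1 x hx y hy
  refine ⟨h * g * h⁻¹, fun z hz => ?_, ?_⟩
  · have hz' : h⁻¹ • z ∉ J := fun hh => hz (Set.mem_smul_set_iff_inv_smul_mem.mpr hh)
    rw [mul_smul, mul_smul, hg _ hz', smul_inv_smul]
  · simp only [mul_smul, inv_smul_smul, hgx]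

theorem three_trans {G Ω : Type*} [Group G] [MulAction G Ω]
    (h2 : MulAction.IsMultiplyPretransitive G Ω 2) {J : Set Ω} (hJ : JS G J) (hc : Jᶜ.ncard = 2) :
    MulAction.IsMultiplyPretransitive G Ω 3 := by
  obtain ⟨a, b, hab, hJab⟩ := Set.ncard_eq_two.mp hc
  rw [MulAction.is_two_pretransitive_iff] at h2
  have hmem : ∀ z, z ≠ a → z ≠ b → z ∈ J := by
    intro z hza hzb
    by_contra hz
    have : z ∈ Jᶜ := hz
    rw [hJab] at this
    rcases this with h | h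
    · exact hza h
    · exact hzb h
  have hnot : ∀ z, z ∉ J → z = a ∨ z = b := by
    intro z hz
    have : z ∈ Jᶜ := hz
    rw [hJab] at this
    exact this
  have haJ : a ∉ J := by
    have : a ∈ Jᶜ := by rw [hJab]; exact Or.inl rfl
    exact this
  have hbJ : b ∉ J := by
    have : b ∈ Jᶜ := by rw [hJab]; exact Or.inr rfl
    exact this
  have key : ∀ x : Fin 3 ↪ Ω, ∃ g : G, g • x 0 = a ∧ g • x 1 = b ∧ g • x 2 ∈ J := by
    intro x
    have h01 : x 0 ≠ x 1 := fun h => by simpa using x.injective h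
    obtain ⟨g, hg0, hg1⟩ := h2 h01 hab
    refine ⟨g, hg0, hg1, hmem _ ?_ ?_⟩
    · rw [← hg0]; intro h
      have := x.injective (smul_left_cancel g h)
      simp at this
    · rw [← hg1]; intro h
      have := x.injective (smul_left_cancel g h)
      simp at this
  rw [MulAction.isMultiplyPretransitive_iff]
  intro x y
  obtain ⟨g, hg0, hg1, hg2⟩ := key x
  obtain ⟨k, hk0, hk1, hk2⟩ := key y
  obtain ⟨t, ht, ht2⟩ := hJ _ hg2 _ hk2
  refine ⟨k⁻¹ * t * g, ?_⟩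
  ext i
  simp only [Function.Embedding.smul_apply, mul_smul]
  rw [inv_smul_eq_iff]
  fin_cases i
  · simp only [Fin.zero_eta]
    rw [hg0, hk0, ht a haJ]
  · simp only [Fin.mk_one]
    rw [hg1, hk1, ht b hbJ]
  · exact ht2


theorem lt_union {Ω : Type*} [Finite Ω] {A B : Set Ω} (x : Ω) (hx : x ∈ B) (hx' : x ∉ A) :
    A.ncard < (A ∪ B).ncard :=
  Set.ncard_lt_ncard ⟨Set.subset_union_left, fun h => hx' (h (Or.inr hx))⟩


/-- Let G be a finite primitive permutation group on Ω of degree n and Γ ⊂ Ω a subset with 1 < #Γ ≤ n/2 such that the pointwise stabilizer of Ω ∖ Γ is transitive on Γ. Then G is 3-transitive on Ω. -/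
theorem result {G Ω : Type*} [Group G] [Finite G] [MulAction G Ω] [FaithfulSMul G Ω] [Finite Ω] (hprim : MulAction.IsPreprimitive G Ω) (Γ : Set Ω) (h1 : 1 < Γ.ncard) (h2 : 2 * Γ.ncard ≤ Nat.card Ω) (htr : ∀ x ∈ Γ, ∀ y ∈ Γ, ∃ g : G, (∀ z ∉ Γ, g • z = z) ∧ g • x = y) : MulAction.IsMultiplyPretransitive G Ω 3 := by
  have hΓ : JS G Γ := htr
  have hcompl : ∀ A : Set Ω, A.ncard + Aᶜ.ncard = Nat.card Ω := fun A => Set.ncard_add_ncard_compl A
  -- 2-transitivity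
  have h2t : MulAction.IsMultiplyPretransitive G Ω 2 := by
    have hc := hcompl Γ
    obtain ⟨m, hm⟩ : ∃ m, Γᶜ.ncard = m + 1 := ⟨Γᶜ.ncard - 1, by omega⟩
    refine hprim.is_two_pretransitive hm (by omega) ⟨?_⟩
    rintro ⟨x, hx⟩ ⟨y, hy⟩
    have hx' : x ∈ Γ := by
      by_contra h; exact hx h
    have hy' : y ∈ Γ := by
      by_contra h; exact hy h
    obtain ⟨g, hg, hgx⟩ := htr x hx' y hy'
    exact ⟨⟨g, (mem_fixingSubgroup_iff G).mpr fun z hz => hg z hz⟩, Subtype.ext hgx⟩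
  obtain ⟨J, ⟨hJ, hJc⟩, hJmax⟩ := Set.exists_max_image {J : Set Ω | JS G J ∧ 2 ≤ Jᶜ.ncard}
    Set.ncard (Set.toFinite _) ⟨Γ, hΓ, by have := hcompl Γ; omega⟩
  by_cases hc2 : Jᶜ.ncard = 2
  · exact three_trans h2t hJ hc2
  exfalso
  have hc3 : 3 ≤ Jᶜ.ncard := by omega
  have hJΓ : Γ.ncard ≤ J.ncard := hJmax Γ ⟨hΓ, by have := hcompl Γ; omega⟩
  have hK : ∀ J' : Set Ω, JS G J' → J.ncard < J'.ncard → J'ᶜ.ncard ≤ 1 := by
    intro J' hJ' hlt
    by_contra hcon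
    have := hJmax J' ⟨hJ', by omega⟩
    omega
  have hcard : ∀ h : G, (h • J).ncard = J.ncard := fun h => Set.ncard_smul_set h J
  have hpair : ∀ A B : Set Ω, JS G A → JS G B → A.ncard = J.ncard → B.ncard = J.ncard → A ≠ B →
      (A ∩ B).Nonempty → (A ∪ B)ᶜ.ncard ≤ 1 := by
    intro A B hA hB hAc hBc hne hint
    apply hK _ (hA.union hB hint)
    obtain ⟨x, hxB, hxA⟩ : ∃ x ∈ B, x ∉ A := by
      by_contra hcon
      push Not at hcon
      exact hne (Set.eq_of_subset_of_ncard_le hcon (by omega)).symm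
    rw [← hAc]
    exact lt_union x hxB hxA
  have hex : ∃ h : G, h • J ≠ J ∧ (h • J ∩ J).Nonempty := by
    by_contra hcon
    push Not at hcon
    have hB : MulAction.IsBlock G J := by
      rw [MulAction.isBlock_iff_smul_eq_or_disjoint]
      intro g
      by_cases hg : g • J = J
      · exact Or.inl hg
      · exact Or.inr (Set.disjoint_iff_inter_eq_empty.mpr (hcon g hg))
    rcases hprim.isTrivialBlock_of_isBlock hB with h | h
    · have := (Set.ncard_le_one (Set.toFinite J)).mpr (fun a ha b hb => h ha hb)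
      omega
    · rw [h] at hJc; simp at hJc
  have hbig : Nat.card Ω ≤ 2 * J.ncard := by
    obtain ⟨h, hne, hint⟩ := hex
    have h3 := hpair _ _ (hJ.smul h) hJ (hcard h) rfl hne hint
    have h4 := Set.ncard_union_add_ncard_inter (h • J) J
    have h5 : 0 < (h • J ∩ J).ncard := (Set.ncard_pos).mpr hint
    have h6 := hcompl (h • J ∪ J)
    rw [hcard h] at h4
    omega
  have hpair2 : ∀ A B : Set Ω, JS G A → JS G B → A.ncard = J.ncard → B.ncard = J.ncard → A ≠ B →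
      (A ∪ B)ᶜ.ncard ≤ 1 := by
    intro A B hA hB hAc hBc hne
    by_cases hint : (A ∩ B).Nonempty
    · exact hpair A B hA hB hAc hBc hne hint
    · rw [Set.not_nonempty_iff_eq_empty] at hint
      have h4 := Set.ncard_union_add_ncard_inter A B
      rw [hint, Set.ncard_empty] at h4
      have h6 := hcompl (A ∪ B)
      omega
  have claim2 : ∀ A B : Set Ω, JS G A → JS G B → A.ncard = J.ncard → B.ncard = J.ncard →
      ∀ x w, x ≠ w → x ∉ A → w ∉ A → x ∉ B → w ∉ B → A = B := by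
    intro A B hA hB hAc hBc x w hxw hxA hwA hxB hwB
    by_contra hne
    have h3 := hpair2 A B hA hB hAc hBc hne
    rw [Set.ncard_le_one] at h3
    exact hxw (h3 x (by simp [hxA, hxB]) w (by simp [hwA, hwB]))
  have claim3 : ∀ x y : Ω, x ≠ y → ∃ A : Set Ω, JS G A ∧ A.ncard = J.ncard ∧ x ∉ A ∧ y ∉ A := by
    intro x y hxy
    obtain ⟨a, b, ha, hb, hab⟩ := (Set.one_lt_ncard_iff).mp (by omega : 1 < Jᶜ.ncard)
    obtain ⟨g, hga, hgb⟩ := (MulAction.is_two_pretransitive_iff.mp h2t) hab hxy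
    refine ⟨g • J, hJ.smul g, hcard g, ?_, ?_⟩
    · rw [← hga, Set.smul_mem_smul_set_iff]; exact ha
    · rw [← hgb, Set.smul_mem_smul_set_iff]; exact hb
  have claim4 : ∀ A : Set Ω, A.ncard = J.ncard → ∀ x y : Ω, ∃ w, w ∉ A ∧ w ≠ x ∧ w ≠ y := by
    intro A hAc x y
    have h3 : ({x, y} : Set Ω).ncard < Aᶜ.ncard := by
      have h4 : ({x, y} : Set Ω).ncard ≤ 2 := (Set.ncard_insert_le x {y}).trans (by simp)
      have h5 := hcompl A
      have h6 := hcompl J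
      omega
    obtain ⟨w, hw, hw'⟩ := Set.exists_mem_notMem_of_ncard_lt_ncard h3
    refine ⟨w, hw, fun h => hw' (Or.inl h), fun h => hw' (Or.inr h)⟩
  have star : ∀ A : Set Ω, JS G A → A.ncard = J.ncard → ∀ x ∈ Γ, x ∉ A → ∀ x' ∈ Γ, x' ∈ A →
      (A ∪ Γ)ᶜ.ncard ≤ 1 := by
    intro A hA hAc x hx hxA x' hx' hx'A
    apply hK _ (hA.union hΓ ⟨x', hx'A, hx'⟩)
    rw [← hAc]
    exact lt_union x hx hxA
  obtain ⟨x, x', hx, hx', hxx'⟩ := (Set.one_lt_ncard_iff).mp h1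
  obtain ⟨A₀, hA₀, hA₀c, hxA₀, hx'A₀⟩ := claim3 x x' hxx'
  have key : ∀ y, y ∈ Γᶜ ∩ A₀ → ∃ w, w ∈ Γ ∩ A₀ ∧ ∃ A : Set Ω, JS G A ∧ A.ncard = J.ncard ∧
      x ∉ A ∧ y ∉ A ∧ w ∉ A ∧ w ≠ x ∧ ∀ y', y' ∉ A → y' ∉ Γ → y' = y := by
    rintro y ⟨hyΓ, hyA₀⟩
    have hxy : x ≠ y := fun h => hyΓ (h ▸ hx)
    obtain ⟨A, hA, hAc, hxA, hyA⟩ := claim3 x y hxy
    have hAA₀ : A ≠ A₀ := fun h => hyA (h ▸ hyA₀)
    have hx'A : x' ∈ A := by
      by_contra h
      exact hAA₀ (claim2 A A₀ hA hA₀ hAc hA₀c x x' hxx' hxA h hxA₀ hx'A₀)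
    have h3 := star A hA hAc x hx hxA x' hx' hx'A
    rw [Set.ncard_le_one] at h3
    have huniq : ∀ y', y' ∉ A → y' ∉ Γ → y' = y := fun y' h4 h5 =>
      h3 y' (by simp [h4, h5]) y (by simp only [Set.mem_compl_iff, Set.mem_union, not_or]; exact ⟨hyA, hyΓ⟩)
    obtain ⟨w, hwA, hwx, hwy⟩ := claim4 A hAc x y
    refine ⟨w, ⟨?_, ?_⟩, A, hA, hAc, hxA, hyA, hwA, hwx, huniq⟩
    · by_contra h
      exact hwy (huniq w hwA h)
    · by_contra h
      exact hAA₀ (claim2 A A₀ hA hA₀ hAc hA₀c x w hwx.symm hxA hwA hxA₀ h)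
  choose! φ hφ using key
  have hle : (Γᶜ ∩ A₀).ncard ≤ (Γ ∩ A₀).ncard := by
    refine Set.ncard_le_ncard_of_injOn φ (fun y hy => (hφ y hy).1) ?_
    intro y hy y' hy' heq
    obtain ⟨-, A, hA, hAc, hxA, hyA, hwA, hwx, huniq⟩ := hφ y hy
    obtain ⟨-, A', hA', hAc', hxA', hyA', hwA', hwx', huniq'⟩ := hφ y' hy'
    rw [← heq] at hwA'
    have hAA' : A = A' := claim2 A A' hA hA' hAc hAc' x (φ y) hwx.symm hxA hwA hxA' hwA'
    rw [← hAA'] at hyA'
    exact (huniq y' hyA' hy'.1).symm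
  by_cases hsub : ∃ x'' ∈ Γ, x'' ∈ A₀
  · obtain ⟨x'', hx'', hx''A⟩ := hsub
    have h3 := star A₀ hA₀ hA₀c x hx hxA₀ x'' hx'' hx''A
    have h4 := Set.ncard_inter_add_ncard_sdiff_eq_ncard Γᶜ A₀
    have h5 := Set.ncard_inter_add_ncard_sdiff_eq_ncard Γ A₀
    have h6 : Γᶜ \ A₀ = (A₀ ∪ Γ)ᶜ := by
      ext z; simp only [Set.mem_sdiff, Set.mem_compl_iff, Set.mem_union, not_or]; tauto
    have h7 : 1 < (Γ \ A₀).ncard := (Set.one_lt_ncard_iff).mpr ⟨x, x', ⟨hx, hxA₀⟩, ⟨hx', hx'A₀⟩, hxx'⟩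
    have h8 := hcompl Γ
    rw [h6] at h4
    omega
  · push Not at hsub
    have h3 : Γ ∩ A₀ = ∅ := by
      ext z; simp only [Set.mem_inter_iff, Set.mem_empty_iff_false, iff_false, not_and]; exact hsub z
    rw [h3, Set.ncard_empty, Nat.le_zero, Set.ncard_eq_zero] at hle
    have h4 : A₀ = ∅ := by
      ext z
      simp only [Set.mem_empty_iff_false, iff_false]
      intro hz
      by_cases hzΓ : z ∈ Γ
      · exact hsub z hzΓ hz
      · have : z ∈ Γᶜ ∩ A₀ := ⟨hzΓ, hz⟩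
        rw [hle] at this
        exact this
    rw [h4, Set.ncard_empty] at hA₀c
    omega

end Cfsg.Agent.S3707
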