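import Cfsg.Statements.S3733

set_option autoImplicit false
open Cfsg

namespace Cfsg.Agent.S3733

set_option linter.style.haveILetI false
open scoped IsMulCommutative

/-- Let A and V be subgroups of a finite group with V abelian and nontrivial and A normalizing V. Suppose a nonempty finite family of proper subgroups of A partitions A: every non-identity element of A lies in exactly one member. If the number of members minus one is coprime to the order of V, then some member B of the family has a non-identity fixed point on V, that is V ∩ C(B) ≠ 1. -/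
theorem result {G : Type*} [Group G] [Finite G] (A V : Subgroup G) (hVab : IsMulCommutative V) (hV : V ≠ ⊥) (hAV : A ≤ Subgroup.normalizer (V : Set G)) (𝒜 : Finset (Subgroup G)) (hne : 𝒜.Nonempty) (hprop : ∀ B ∈ 𝒜, B < A) (hpart : ∀ a ∈ A, a ≠ 1 → ∃! B, B ∈ 𝒜 ∧ a ∈ B) (hk : (𝒜.card - 1).Coprime (Nat.card V)) : ∃ B ∈ 𝒜, V ⊓ Subgroup.centralizer (B : Set G) ≠ ⊥ := by
  classical
  by_contra hcon
  push Not at hcon
  haveI := hVab
  letI : Fintype G := Fintype.ofFinite G
  set N := Subgroup.normalizer (V : Set G) with hN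
  let f : V → G → V := fun v g => if h : g ∈ N then (⟨g, h⟩ : N) • v else 1
  have hfmul : ∀ (v : V) (b g : G) (hb : b ∈ N), g ∈ N → (⟨b, hb⟩ : N) • f v g = f v (b * g) := by
    intro v b g hb hg
    simp only [f, dif_pos hg, dif_pos (N.mul_mem hb hg)]
    rw [smul_smul]
    rfl
  have hf1 : ∀ v : V, f v 1 = v := by
    intro v
    simp only [f, dif_pos N.one_mem]
    exact one_smul N v
  let P : Subgroup G → V → V := fun B v => ∏ g ∈ Finset.univ.filter (· ∈ B), f v g
  have hPfix : ∀ B : Subgroup G, B ≤ N → ∀ (v : V) (b : G) (hb : b ∈ N), b ∈ B →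
      (⟨b, hb⟩ : N) • P B v = P B v := by
    intro B hBN v b hb hbB
    simp only [P]
    rw [Finset.smul_prod']
    apply Finset.prod_nbij' (fun g => b * g) (fun g => b⁻¹ * g)
    · intro g hg
      simp only [Finset.mem_filter, Finset.mem_univ, true_and] at hg ⊢
      exact B.mul_mem hbB hg
    · intro g hg
      simp only [Finset.mem_filter, Finset.mem_univ, true_and] at hg ⊢
      exact B.mul_mem (B.inv_mem hbB) hg
    · intro g _; simp
    · intro g _; simp
    · intro g hg
      simp only [Finset.mem_filter, Finset.mem_univ, true_and] at hg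
      exact hfmul v b g hb (hBN hg)
  have hPone : ∀ B : Subgroup G, B ≤ N → V ⊓ Subgroup.centralizer (B : Set G) = ⊥ → ∀ v : V, P B v = 1 := by
    intro B hBN hB v
    have hmem : ((P B v : V) : G) ∈ V ⊓ Subgroup.centralizer (B : Set G) := by
      refine Subgroup.mem_inf.mpr ⟨(P B v).2, ?_⟩
      rw [Subgroup.mem_centralizer_iff]
      intro b hb
      have := congrArg Subtype.val (hPfix B hBN v b (hBN hb) hb)
      have h2 : b * ((P B v : V) : G) * b⁻¹ = ((P B v : V) : G) := this
      calc b * ((P B v : V) : G) = (b * ((P B v : V) : G) * b⁻¹) * b := by group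
        _ = ((P B v : V) : G) * b := by rw [h2]
    rw [hB, Subgroup.mem_bot] at hmem
    ext; exact hmem
  obtain ⟨B₀, hB₀⟩ := hne
  have hAone : ∀ v : V, P A v = 1 := by
    apply hPone A hAV
    rw [eq_bot_iff, ← hcon B₀ hB₀]
    apply inf_le_inf_left
    apply Subgroup.centralizer_le
    exact (hprop B₀ hB₀).le
  have hcard : 1 ≤ 𝒜.card := Finset.card_pos.mpr ⟨B₀, hB₀⟩
  have hpartition : ∀ v : V, ∏ B ∈ 𝒜, P B v = P A v * v ^ (𝒜.card - 1) := by
    intro v
    simp only [P]
    simp_rw [Finset.prod_filter]
    rw [Finset.prod_comm]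
    have key : ∀ g : G, ∏ B ∈ 𝒜, (if g ∈ B then f v g else 1) =
        (if g ∈ A then f v g else 1) * (if g = 1 then v ^ (𝒜.card - 1) else 1) := by
      intro g
      by_cases hg1 : g = 1
      · subst hg1
        rw [if_pos A.one_mem, if_pos rfl, hf1]
        have : ∏ B ∈ 𝒜, (if (1 : G) ∈ B then v else 1) = ∏ B ∈ 𝒜, v :=
          Finset.prod_congr rfl (fun B _ => if_pos B.one_mem)
        rw [this, Finset.prod_const, ← pow_succ']
        congr 1
        omega
      · rw [if_neg hg1, mul_one]
        by_cases hgA : g ∈ A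
        · rw [if_pos hgA]
          obtain ⟨B₁, ⟨hB₁, hgB₁⟩, huniq⟩ := hpart g hgA hg1
          rw [Finset.prod_eq_single B₁]
          · rw [if_pos hgB₁]
          · intro B hB hne
            rw [if_neg]
            intro hgB
            exact hne (huniq B ⟨hB, hgB⟩)
          · intro h; exact absurd hB₁ h
        · rw [if_neg hgA]
          apply Finset.prod_eq_one
          intro B hB
          rw [if_neg]
          intro hgB
          exact hgA ((hprop B hB).le hgB)
    simp_rw [key]
    rw [Finset.prod_mul_distrib, Finset.prod_ite_eq' Finset.univ (1 : G)]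
    simp
  apply hV
  rw [Subgroup.eq_bot_iff_forall]
  intro x hx
  have h1 := hpartition ⟨x, hx⟩
  rw [hAone, one_mul, Finset.prod_eq_one (fun B hB => hPone B ((hprop B hB).le.trans hAV) (hcon B hB) _)] at h1
  have h2 : (⟨x, hx⟩ : V) ^ Nat.card V = 1 := pow_card_eq_one'
  have h3 := pow_gcd_eq_one.mpr ⟨h1.symm, h2⟩
  rw [Nat.Coprime] at hk
  rw [hk, pow_one] at h3
  exact congrArg Subtype.val h3

end Cfsg.Agent.S3733
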