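import Cfsg.Statements.S3734
import Cfsg.Agent.Lib.Helper9.Cocyclic

set_option autoImplicit false
open Cfsg

namespace Cfsg.Agent.S3734

open Cfsg.Agent.Lib.Helper1 Cfsg.Agent.Lib.Helper9
open scoped commutatorElement

theorem part1 {X : Type*} [Group X] [Finite X] (A G : Subgroup X) (hAab : IsMulCommutative A)
    (hAG : A ≤ Subgroup.normalizer (G : Set X)) (hcop : (Nat.card A).Coprime (Nat.card G))
    (D : Subgroup X) (hD : D ≤ A) :
    G ⊓ Subgroup.centralizer (D : Set X) ≤
      ⨆ B ∈ {B : Subgroup X | B ≤ A ∧ ∃ a ∈ A, B ⊔ Subgroup.zpowers a = A},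
        G ⊓ Subgroup.centralizer (B : Set X) := by
  induction hk : Nat.card A - Nat.card D using Nat.strong_induction_on generalizing D with
  | _ k ih =>
    by_cases h : ∃ a ∈ A, D ⊔ Subgroup.zpowers a = A
    · exact le_iSup₂ (f := fun (B : Subgroup X)
        (_ : B ∈ {B : Subgroup X | B ≤ A ∧ ∃ a ∈ A, B ⊔ Subgroup.zpowers a = A}) =>
          G ⊓ Subgroup.centralizer (B : Set X)) D ⟨hD, h⟩
    · have hAD : A ≤ Subgroup.normalizer (D : Set X) := by
        apply le_normalizer_of_forall_conj_mem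
        intro a ha d hd
        rw [abelian_comm hAab ha (hD hd), mul_inv_cancel_right]
        exact hd
      have hAY : A ≤ Subgroup.normalizer ((G ⊓ Subgroup.centralizer (D : Set X) : Subgroup X) : Set X) :=
        le_normalizer_inf hAG (le_normalizer_centralizer_of hAD)
      have hDY : D ≤ Subgroup.centralizer ((G ⊓ Subgroup.centralizer (D : Set X) : Subgroup X) : Set X) :=
        Subgroup.le_centralizer_iff.mp inf_le_right
      have hcop' : (Nat.card A).Coprime (Nat.card ↥(G ⊓ Subgroup.centralizer (D : Set X))) :=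
        Nat.Coprime.coprime_dvd_right (Subgroup.card_dvd_of_le inf_le_left) hcop
      refine (gen_mod A _ D hAab hD hDY hAY hcop' h).trans ?_
      apply iSup₂_le
      rintro a ⟨haA, haD⟩
      have hD' : D ⊔ Subgroup.zpowers a ≤ A := sup_le hD ((Subgroup.zpowers_le).mpr haA)
      have hlt : D < D ⊔ Subgroup.zpowers a := by
        refine lt_of_le_of_ne le_sup_left ?_
        intro e
        apply haD
        rw [e]
        exact (le_sup_right : Subgroup.zpowers a ≤ _) (Subgroup.mem_zpowers a)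
      have hc1 : Nat.card D < Nat.card ↥(D ⊔ Subgroup.zpowers a) := Cfsg.Agent.Lib.Helper8.card_lt_of_lt hlt
      have hc2 : Nat.card ↥(D ⊔ Subgroup.zpowers a) ≤ Nat.card A := Subgroup.card_le_of_le hD'
      refine le_trans ?_ (ih (Nat.card A - Nat.card ↥(D ⊔ Subgroup.zpowers a)) (by omega) _ hD' rfl)
      intro y hy
      obtain ⟨hy1, hy2⟩ := Subgroup.mem_inf.mp hy
      obtain ⟨hy3, hy4⟩ := Subgroup.mem_inf.mp hy1
      refine Subgroup.mem_inf.mpr ⟨hy3, ?_⟩
      have h1 : D ⊔ Subgroup.zpowers a ≤ Subgroup.centralizer ({y} : Set X) := by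
        apply sup_le
        · intro d hd
          rw [Subgroup.mem_centralizer_singleton_iff]
          exact (Subgroup.mem_centralizer_iff.mp hy4) d hd
        · rw [Subgroup.zpowers_le, Subgroup.mem_centralizer_singleton_iff]
          rw [Subgroup.mem_centralizer_singleton_iff] at hy2
          exact hy2.symm
      rw [Subgroup.mem_centralizer_iff]
      intro d hd
      have := h1 hd
      rw [Subgroup.mem_centralizer_singleton_iff] at this
      exact this

/-- Let A and G be subgroups of a finite group with A abelian, A normalizing G and the orders of A and G coprime. Then G is generated by the fixed-point subgroups C_G(B) of those subgroups B of A for which A/B is cyclic (that is, A = ⟨B, a⟩ for some a), and [G, A] is generated by the commutator subgroups [C_G(B), A] over the same subgroups B. -/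
theorem result {X : Type*} [Group X] [Finite X] (A G : Subgroup X) (hAab : IsMulCommutative A) (hAG : A ≤ Subgroup.normalizer (G : Set X)) (hcop : (Nat.card A).Coprime (Nat.card G)) : (⨆ B ∈ {B : Subgroup X | B ≤ A ∧ ∃ a ∈ A, B ⊔ Subgroup.zpowers a = A}, G ⊓ Subgroup.centralizer (B : Set X)) = G ∧ (⨆ B ∈ {B : Subgroup X | B ≤ A ∧ ∃ a ∈ A, B ⊔ Subgroup.zpowers a = A}, ⁅G ⊓ Subgroup.centralizer (B : Set X), A⁆) = ⁅G, A⁆ := by
  have hgen : (⨆ B ∈ {B : Subgroup X | B ≤ A ∧ ∃ a ∈ A, B ⊔ Subgroup.zpowers a = A},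
      G ⊓ Subgroup.centralizer (B : Set X)) = G := by
    apply le_antisymm (iSup₂_le fun _ _ => inf_le_left)
    refine le_trans ?_ (part1 A G hAab hAG hcop ⊥ bot_le)
    refine le_inf le_rfl ?_
    intro x _
    rw [Subgroup.mem_centralizer_iff]
    intro d hd
    have : d = 1 := hd
    rw [this, one_mul, mul_one]
  refine ⟨hgen, ?_⟩
  apply le_antisymm (iSup₂_le fun _ _ => Subgroup.commutator_mono inf_le_left le_rfl)
  obtain ⟨H, hH⟩ : ∃ H, H = ⨆ B ∈ {B : Subgroup X | B ≤ A ∧ ∃ a ∈ A, B ⊔ Subgroup.zpowers a = A},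
      ⁅G ⊓ Subgroup.centralizer (B : Set X), A⁆ := ⟨_, rfl⟩
  rw [← hH]
  have hAsolv : Group.IsSolvable A := by
    have : IsMulCommutative A := hAab
    have hc : ∀ a b : A, a * b = b * a := fun a b => Subtype.ext (abelian_comm hAab a.2 b.2)
    exact Group.isSolvable_of_comm hc
  have hAK : ∀ B : Subgroup X, B ≤ A →
      A ≤ Subgroup.normalizer ((G ⊓ Subgroup.centralizer (B : Set X) : Subgroup X) : Set X) := by
    intro B hB
    apply le_normalizer_inf hAG (le_normalizer_centralizer_of _)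
    apply le_normalizer_of_forall_conj_mem
    intro a ha d hd
    rw [abelian_comm hAab ha (hB hd), mul_inv_cancel_right]
    exact hd
  have hnormSup : ∀ Z : Subgroup X, (∀ B ∈ {B : Subgroup X | B ≤ A ∧ ∃ a ∈ A, B ⊔ Subgroup.zpowers a = A},
      Z ≤ Subgroup.normalizer ((⁅G ⊓ Subgroup.centralizer (B : Set X), A⁆ : Subgroup X) : Set X)) →
      Z ≤ Subgroup.normalizer (H : Set X) := by
    intro Z hZ z hz
    rw [Subgroup.mem_normalizer_iff_map_conj_eq, hH, Subgroup.map_iSup]
    refine iSup_congr fun B => ?_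
    rw [Subgroup.map_iSup]
    refine iSup_congr fun hB => ?_
    exact Subgroup.mem_normalizer_iff_map_conj_eq.mp (hZ B hB hz)
  have hAH : A ≤ Subgroup.normalizer (H : Set X) :=
    hnormSup A fun B hB => le_normalizer_commutator_right (hAK B hB.1)
  have hCH : G ⊓ Subgroup.centralizer (A : Set X) ≤ Subgroup.normalizer (H : Set X) :=
    hnormSup _ fun B hB => (inf_le_inf le_rfl (Subgroup.centralizer_le hB.1)).trans
      (le_normalizer_commutator_left _ A)
  have hGle : G ≤ H ⊔ (G ⊓ Subgroup.centralizer (A : Set X)) := by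
    nth_rewrite 1 [← hgen]
    apply iSup₂_le
    intro B hB
    have hcop' : (Nat.card A).Coprime (Nat.card ↥(G ⊓ Subgroup.centralizer (B : Set X))) :=
      Nat.Coprime.coprime_dvd_right (Subgroup.card_dvd_of_le inf_le_left) hcop
    rw [← coprime_commutator_sup_centralizer A _ (hAK B hB.1) hcop' (Or.inl hAsolv)]
    apply sup_le_sup
    · rw [hH]
      exact le_iSup₂ (f := fun (B : Subgroup X)
        (_ : B ∈ {B : Subgroup X | B ≤ A ∧ ∃ a ∈ A, B ⊔ Subgroup.zpowers a = A}) =>
          ⁅G ⊓ Subgroup.centralizer (B : Set X), A⁆) B hB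
    · exact inf_le_inf inf_le_left le_rfl
  rw [Subgroup.commutator_le]
  intro g hg a ha
  obtain ⟨c, hc, h, hh, rfl⟩ := (Cfsg.Agent.Lib.Helper8.mem_sup_of_le_normalizer hCH).mp (hGle hg)
  have hca : a * c = c * a := (Subgroup.mem_centralizer_iff.mp (Subgroup.mem_inf.mp hc).2) a ha
  have hca' : a * c⁻¹ * a⁻¹ = c⁻¹ := by
    calc a * c⁻¹ * a⁻¹ = c⁻¹ * (c * a) * c⁻¹ * a⁻¹ := by group
      _ = c⁻¹ * (a * c) * c⁻¹ * a⁻¹ := by rw [hca]
      _ = _ := by group
  have e1 : ⁅c * h, a⁆ = c * (h * (a * h⁻¹ * a⁻¹)) * (a * c⁻¹ * a⁻¹) := by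
    rw [commutatorElement_def]; group
  rw [e1, hca']
  exact conj_mem_of_mem_normalizer (hCH hc)
    (mul_mem hh (conj_mem_of_mem_normalizer (hAH ha) (inv_mem hh)))

end Cfsg.Agent.S3734
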