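import Cfsg.Statements.S3735

set_option autoImplicit false
open Cfsg

namespace Cfsg.Agent.S3735

set_option linter.style.haveILetI false

/-- `A` stabilizes `X` under conjugation (elementwise form). -/
def Stab {G : Type*} [Group G] (A X : Subgroup G) : Prop := ∀ a ∈ A, ∀ x ∈ X, a * x * a⁻¹ ∈ X

theorem stab_iff {G : Type*} [Group G] (A X : Subgroup G) :
    Stab A X ↔ A ≤ Subgroup.normalizer (X : Set G) := by
  constructor
  · intro h a ha
    rw [Subgroup.mem_normalizer_iff]
    intro x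
    refine ⟨fun hx => h a ha x hx, fun hx => ?_⟩
    have := h a⁻¹ (A.inv_mem ha) _ hx
    simpa [mul_assoc] using this
  · intro h a ha x hx
    exact (Subgroup.mem_normalizer_iff.mp (h ha) x).mp hx

theorem stab_sup {G : Type*} [Group G] {A X Y : Subgroup G} (hX : Stab A X) (hY : Stab A Y) :
    Stab A (X ⊔ Y) := by
  intro a ha
  have : X ⊔ Y ≤ (X ⊔ Y).comap (MulAut.conj a).toMonoidHom := by
    apply sup_le
    · intro x hx
      exact Subgroup.mem_sup_left (hX a ha x hx)
    · intro y hy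
      exact Subgroup.mem_sup_right (hY a ha y hy)
  intro x hx
  exact this hx

theorem stab_inf {G : Type*} [Group G] {A X Y : Subgroup G} (hX : Stab A X) (hY : Stab A Y) :
    Stab A (X ⊓ Y) := fun a ha x hx => ⟨hX a ha x hx.1, hY a ha x hx.2⟩

theorem mem_sup_comm {G : Type*} [Group G] {V X Y : Subgroup G}
    (hV : ∀ x ∈ V, ∀ y ∈ V, x * y = y * x) (hX : X ≤ V) (hY : Y ≤ V) {z : G} (hz : z ∈ X ⊔ Y) :
    ∃ x ∈ X, ∃ y ∈ Y, z = x * y := by
  rw [Subgroup.sup_eq_closure] at hz
  induction hz using Subgroup.closure_induction with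
  | mem z hz =>
    rcases hz with hz | hz
    · exact ⟨z, hz, 1, Y.one_mem, by simp⟩
    · exact ⟨1, X.one_mem, z, hz, by simp⟩
  | one => exact ⟨1, X.one_mem, 1, Y.one_mem, by simp⟩
  | mul a b _ _ iha ihb =>
    obtain ⟨x, hx, y, hy, rfl⟩ := iha
    obtain ⟨x', hx', y', hy', rfl⟩ := ihb
    refine ⟨x * x', X.mul_mem hx hx', y * y', Y.mul_mem hy hy', ?_⟩
    have := hV y (hY hy) x' (hX hx')
    calc x * y * (x' * y') = x * (y * x') * y' := by group
      _ = x * (x' * y) * y' := by rw [this]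
      _ = x * x' * (y * y') := by group
  | inv a _ iha =>
    obtain ⟨x, hx, y, hy, rfl⟩ := iha
    refine ⟨x⁻¹, X.inv_mem hx, y⁻¹, Y.inv_mem hy, ?_⟩
    have := hV x⁻¹ (hX (X.inv_mem hx)) y⁻¹ (hY (Y.inv_mem hy))
    rw [mul_inv_rev, this]

/-- conjugate of a subgroup -/
abbrev cj {G : Type*} [Group G] (h : G) (X : Subgroup G) : Subgroup G :=
  X.map (MulAut.conj h).toMonoidHom

theorem mem_cj {G : Type*} [Group G] (h : G) (X : Subgroup G) (z : G) :
    z ∈ cj h X ↔ h⁻¹ * z * h ∈ X := by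
  constructor
  · rintro ⟨x, hx, rfl⟩
    simpa [mul_assoc] using hx
  · intro hz
    exact ⟨h⁻¹ * z * h, hz, by simp [mul_assoc]⟩

theorem cj_cj_inv {G : Type*} [Group G] (h : G) (X : Subgroup G) : cj h (cj h⁻¹ X) = X := by
  ext z
  rw [mem_cj, mem_cj]
  simp [mul_assoc]

theorem cj_mono {G : Type*} [Group G] (h : G) {X Y : Subgroup G} (hXY : X ≤ Y) : cj h X ≤ cj h Y :=
  Subgroup.map_mono hXY

/-- Clifford's Theorem for actions on finite abelian groups, first part. Let H and V be subgroups of a finite group with V abelian and H normalizing V, and let A be a normal subgroup of H. If every H-invariant subgroup of V has an H-invariant complement in V, then every A-invariant subgroup of V has an A-invariant complement in V. -/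
theorem result {G : Type*} [Group G] [Finite G] (H A V : Subgroup G) (hVab : IsMulCommutative V) (hHV : H ≤ Subgroup.normalizer (V : Set G)) (hAH : A ≤ H) (hAn : H ≤ Subgroup.normalizer (A : Set G)) (hss : ∀ U : Subgroup G, U ≤ V → H ≤ Subgroup.normalizer (U : Set G) → ∃ W : Subgroup G, W ≤ V ∧ H ≤ Subgroup.normalizer (W : Set G) ∧ U ⊓ W = ⊥ ∧ U ⊔ W = V) (U : Subgroup G) (hUV : U ≤ V) (hAU : A ≤ Subgroup.normalizer (U : Set G)) : ∃ W : Subgroup G, W ≤ V ∧ A ≤ Subgroup.normalizer (W : Set G) ∧ U ⊓ W = ⊥ ∧ U ⊔ W = V := by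
  classical
  have hV : ∀ x ∈ V, ∀ y ∈ V, x * y = y * x := by
    intro x hx y hy
    have := hVab.is_comm.comm (⟨x, hx⟩ : V) ⟨y, hy⟩
    exact congrArg Subtype.val this
  have hHV' : Stab H V := (stab_iff H V).mpr hHV
  have hAn' : Stab H A := (stab_iff H A).mpr hAn
  have hAU' : Stab A U := (stab_iff A U).mpr hAU
  -- invariance is preserved by conjugation with elements of H
  have hinv : ∀ h ∈ H, ∀ X : Subgroup G, X ≤ V → Stab A X → (cj h X ≤ V ∧ Stab A (cj h X)) := by
    intro h hh X hXV hX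
    refine ⟨?_, ?_⟩
    · rintro _ ⟨x, hx, rfl⟩
      exact hHV' h hh x (hXV hx)
    · intro a ha z hz
      rw [mem_cj] at hz ⊢
      have ha' : h⁻¹ * a * h ∈ A := by
        have := hAn' h⁻¹ (H.inv_mem hh) a ha
        simpa using this
      have := hX _ ha' _ hz
      convert this using 1
      group
  -- irreducible A-invariant subgroups
  let Irr : Subgroup G → Prop := fun S => S ≤ V ∧ Stab A S ∧ S ≠ ⊥ ∧
    ∀ S' : Subgroup G, S' ≤ S → Stab A S' → S' = ⊥ ∨ S' = S
  have hIrr_cj : ∀ h ∈ H, ∀ S, Irr S → Irr (cj h S) := by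
    intro h hh S hS
    obtain ⟨h1, h2, h3, h4⟩ := hS
    obtain ⟨i1, i2⟩ := hinv h hh S h1 h2
    refine ⟨i1, i2, ?_, ?_⟩
    · intro hbot
      apply h3
      have := congrArg (cj h⁻¹) hbot
      have e : cj h⁻¹ (cj h S) = S := by
        have := cj_cj_inv h⁻¹ S
        rwa [inv_inv] at this
      rw [e] at this
      rw [this]
      exact Subgroup.map_bot _
    · intro S' hS' hS'st
      have e : cj h⁻¹ (cj h S) = S := by
        have := cj_cj_inv h⁻¹ S
        rwa [inv_inv] at this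
      have j := hinv h⁻¹ (H.inv_mem hh) S' (hS'.trans i1) hS'st
      have hle : cj h⁻¹ S' ≤ S := by
        have := cj_mono h⁻¹ hS'
        rwa [e] at this
      rcases h4 _ hle j.2 with hb | hb
      · left
        have := congrArg (cj h) hb
        rw [cj_cj_inv] at this
        rw [this]; exact Subgroup.map_bot _
      · right
        have := congrArg (cj h) hb
        rwa [cj_cj_inv] at this
  set T : Subgroup G := sSup {S | Irr S} with hT
  have hTV : T ≤ V := sSup_le (fun S hS => hS.1)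
  have hHT : Stab H T := by
    intro h hh
    have : T ≤ T.comap (MulAut.conj h).toMonoidHom := by
      apply sSup_le
      intro S hS
      rw [← Subgroup.map_le_iff_le_comap]
      exact le_sSup (hIrr_cj h hh S hS)
    intro x hx
    exact this hx
  -- every nontrivial invariant subgroup contains an irreducible one
  have hexIrr : ∀ W : Subgroup G, W ≤ V → Stab A W → W ≠ ⊥ → ∃ S, Irr S ∧ S ≤ W := by
    intro W hWV hW hWne
    have hfin : ({X : Subgroup G | X ≤ W ∧ Stab A X ∧ X ≠ ⊥} : Set (Subgroup G)).Finite :=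
      Set.toFinite _
    obtain ⟨S, hS⟩ := hfin.exists_minimal ⟨W, le_rfl, hW, hWne⟩
    refine ⟨S, ⟨hS.prop.1.trans hWV, hS.prop.2.1, hS.prop.2.2, ?_⟩, hS.prop.1⟩
    intro S' hS' hS'st
    by_cases hb : S' = ⊥
    · exact Or.inl hb
    · right
      exact le_antisymm hS' (hS.le_of_le ⟨hS'.trans hS.prop.1, hS'st, hb⟩ hS')
  have hTeq : T = V := by
    obtain ⟨W, hWV, hHW, hTW, hTW'⟩ := hss T hTV ((stab_iff H T).mp hHT)
    have hWst : Stab A W := fun a ha => ((stab_iff H W).mpr hHW) a (hAH ha)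
    by_cases hWb : W = ⊥
    · rw [hWb, sup_bot_eq] at hTW'
      exact hTW'
    · exfalso
      obtain ⟨S, hS, hSW⟩ := hexIrr W hWV hWst hWb
      have : S ≤ T ⊓ W := le_inf (le_sSup hS) hSW
      rw [hTW, le_bot_iff] at this
      exact hS.2.2.1 this
  -- a maximal invariant subgroup meeting U trivially
  have hfin : ({X : Subgroup G | X ≤ V ∧ Stab A X ∧ U ⊓ X = ⊥} : Set (Subgroup G)).Finite :=
    Set.toFinite _
  obtain ⟨W, hW⟩ := hfin.exists_maximal ⟨⊥, bot_le, fun a _ x hx => by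
    rw [Subgroup.mem_bot] at hx ⊢; rw [hx]; simp, inf_bot_eq _⟩
  obtain ⟨hWV, hWst, hUW⟩ := hW.prop
  refine ⟨W, hWV, (stab_iff A W).mp hWst, hUW, ?_⟩
  apply le_antisymm (sup_le hUV hWV)
  rw [← hTeq]
  apply sSup_le
  intro S hS
  by_contra hSle
  obtain ⟨hSV, hSst, hSne, hSmin⟩ := hS
  have hUWst : Stab A (U ⊔ W) := stab_sup hAU' hWst
  have hint : S ⊓ (U ⊔ W) = ⊥ := by
    rcases hSmin (S ⊓ (U ⊔ W)) inf_le_left (stab_inf hSst hUWst) with h | h
    · exact h
    · exact absurd (h ▸ inf_le_right) hSle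
  have hnew : U ⊓ (W ⊔ S) = ⊥ := by
    rw [eq_bot_iff]
    rintro x ⟨hxU, hxWS⟩
    obtain ⟨w, hw, s, hs, rfl⟩ := mem_sup_comm hV hWV hSV hxWS
    have hsmem : s ∈ S ⊓ (U ⊔ W) := by
      refine ⟨hs, ?_⟩
      have : s = w⁻¹ * (w * s) := by group
      rw [this]
      exact Subgroup.mul_mem _ (Subgroup.mem_sup_right (W.inv_mem hw)) (Subgroup.mem_sup_left hxU)
    rw [hint, Subgroup.mem_bot] at hsmem
    rw [hsmem, mul_one] at hxU ⊢
    have : w ∈ U ⊓ W := ⟨hxU, hw⟩
    rwa [hUW] at this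
  have hle : W ⊔ S ≤ W := hW.le_of_ge ⟨sup_le hWV hSV, stab_sup hWst hSst, hnew⟩ le_sup_left
  exact hSle ((le_sup_right.trans hle).trans le_sup_right)

end Cfsg.Agent.S3735
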