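import Cfsg.Statements.S3736
import Mathlib
import Cfsg.Agent.Lib.Helper5.HH1

set_option autoImplicit false
open Cfsg

namespace Cfsg.Agent.S3736

open Cfsg.Agent.Lib.Helper1 Cfsg.Agent.Lib.Helper5.HH Cfsg.Agent.Lib.Helper22
open scoped commutatorElement

/-- The Hall–Higman reduction for a minimal non-trivial action. Let B, A and P be subgroups of a finite group with P a p-group, B normalizing P, and A a normal subgroup of B of order prime to p. Suppose A does not centralize P but centralizes every proper B-invariant subgroup of P. Then [P, A] = P; P is elementary abelian or special; B acts irreducibly on P/Φ(P), that is, the only B-invariant subgroups of P containing Φ(P) are Φ(P) and P; and if p is odd then every element of P has order dividing p. -/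
theorem result {X : Type*} [Group X] [Finite X] {p : ℕ} [Fact p.Prime] (B A P : Subgroup X) (hP : IsPGroup p P) (hBP : B ≤ Subgroup.normalizer (P : Set X)) (hAB : A ≤ B) (hAn : B ≤ Subgroup.normalizer (A : Set X)) (hAp : (Nat.card A).Coprime p) (hnt : ⁅P, A⁆ ≠ ⊥) (hmin : ∀ U : Subgroup X, U < P → B ≤ Subgroup.normalizer (U : Set X) → ⁅U, A⁆ = ⊥) : ⁅P, A⁆ = P ∧ (Cfsg.IsElementaryAbelian p P ∨ Cfsg.IsSpecial p ↥P) ∧ (∀ U : Subgroup X, (frattini ↥P).map P.subtype ≤ U → U ≤ P → B ≤ Subgroup.normalizer (U : Set X) → U = (frattini ↥P).map P.subtype ∨ U = P) ∧ (p ≠ 2 → ∀ x ∈ P, x ^ p = 1) := by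
  classical
  have hpp : p.Prime := Fact.out
  have hAP : A ≤ Subgroup.normalizer (P : Set X) := hAB.trans hBP
  have hcop : (Nat.card A).Coprime (Nat.card P) := coprime_card_of_isPGroup hP hAp
  have hsolv : Group.IsSolvable A ∨ Group.IsSolvable P := Or.inr (solvable_of_isPGroup hP)
  have hBcomm : B ≤ Subgroup.normalizer ((⁅P, A⁆ : Subgroup X) : Set X) := by
    intro b hb
    rw [Subgroup.mem_normalizer_iff_map_conj_eq, Subgroup.map_commutator,
      Subgroup.mem_normalizer_iff_map_conj_eq.mp (hBP hb), Subgroup.mem_normalizer_iff_map_conj_eq.mp (hAn hb)]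
  have hPA : ⁅P, A⁆ = P := by
    by_contra hne
    have hlt : ⁅P, A⁆ < P := lt_of_le_of_ne (commutator_le_of_le_normalizer hAP) hne
    have h1 := hmin _ hlt hBcomm
    rw [coprime_commutator_stable A P hAP hcop hsolv] at h1
    exact hnt h1
  have hU1 : ∀ U : Subgroup X, U < P → B ≤ Subgroup.normalizer (U : Set X) →
      U ≤ (commutator P).map P.subtype := by
    intro U hU hBU u hu
    have h1 := hmin U hU hBU
    rw [Subgroup.commutator_eq_bot_iff_le_centralizer] at h1
    exact ⟨⟨u, hU.le hu⟩, cent_le_commutator A P hP hAP hAp hPA _ (h1 hu), rfl⟩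
  have hZ : ∀ U : Subgroup X, U < P → B ≤ Subgroup.normalizer (U : Set X) →
      P ≤ Subgroup.normalizer (U : Set X) → U ≤ Subgroup.centralizer (P : Set X) := by
    intro U hU hBU hPU
    have h1 := hmin U hU hBU
    have h2 : ⁅⁅A, U⁆, P⁆ = ⊥ := by rw [Subgroup.commutator_comm A U, h1]; simp
    have h3 : ⁅⁅U, P⁆, A⁆ = ⊥ := by
      rw [eq_bot_iff, ← h1]
      exact Subgroup.commutator_mono (commutator_le_of_le_normalizer hPU) le_rfl
    have h4 : ⁅⁅P, A⁆, U⁆ = ⊥ := Subgroup.commutator_commutator_eq_bot_of_rotate h2 h3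
    rw [hPA, Subgroup.commutator_comm, Subgroup.commutator_eq_bot_iff_le_centralizer] at h4
    exact h4
  have hchar : ∀ C : Subgroup P, C.Characteristic → C ≠ ⊤ → C.map P.subtype < P ∧
      B ≤ Subgroup.normalizer ((C.map P.subtype : Subgroup X) : Set X) ∧
      P ≤ Subgroup.normalizer ((C.map P.subtype : Subgroup X) : Set X) := by
    intro C hC hne
    refine ⟨lt_of_le_of_ne (Subgroup.map_subtype_le C) ?_,
      hBP.trans (normalizer_le_normalizer_map_char C),
      Subgroup.le_normalizer.trans (normalizer_le_normalizer_map_char C)⟩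
    intro h
    apply hne
    rw [eq_top_iff]
    intro x _
    have hx : (x : X) ∈ C.map P.subtype := by rw [h]; exact x.2
    obtain ⟨y, hy, hyx⟩ := hx
    have : y = x := Subtype.ext hyx
    rw [← this]; exact hy
  haveI hPnt : Nontrivial P := by
    rw [Subgroup.nontrivial_iff_ne_bot]
    rintro rfl
    exact hnt (by simp)
  haveI : Group.IsSolvable P := solvable_of_isPGroup hP
  have hcomm_ne : commutator P ≠ ⊤ := (Group.IsSolvable.commutator_lt_top_of_nontrivial (G := P)).ne
  have hfrat_ne : frattini P ≠ ⊤ := by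
    rcases eq_top_or_exists_le_coatom (⊥ : Subgroup P) with h | ⟨M, hM, _⟩
    · exact absurd h bot_ne_top
    · intro h
      have := frattini_le_coatom hM
      rw [h, top_le_iff] at this
      exact hM.1 this
  have hcf : commutator P ≤ frattini P := commutator_le_frattini hP
  obtain ⟨hF1, hF2, hF3⟩ := hchar (frattini P) inferInstance hfrat_ne
  have hFA := hmin _ hF1 hF2
  rw [Subgroup.commutator_eq_bot_iff_le_centralizer] at hFA
  -- exponent
  have hexp : (∀ x y : P, (x * y) ^ p = x ^ p * y ^ p) → ∀ x ∈ P, x ^ p = 1 := by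
    intro hpow
    let Om : Subgroup X :=
      { carrier := {x | x ∈ P ∧ x ^ p = 1}
        one_mem' := ⟨P.one_mem, one_pow _⟩
        mul_mem' := by
          rintro x y ⟨hx, hx'⟩ ⟨hy, hy'⟩
          refine ⟨P.mul_mem hx hy, ?_⟩
          have := congrArg Subtype.val (hpow ⟨x, hx⟩ ⟨y, hy⟩)
          simp only [Subgroup.coe_pow, Subgroup.coe_mul] at this
          rw [this, hx', hy', one_mul]
        inv_mem' := by
          rintro x ⟨hx, hx'⟩
          exact ⟨P.inv_mem hx, by rw [inv_pow, hx', inv_one]⟩ }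
    have h1 : ⁅P, A⁆ ≤ Om := by
      rw [Subgroup.commutator_le]
      intro x hx a ha
      have hy : a * x⁻¹ * a⁻¹ ∈ P := conj_mem_of_mem_normalizer (hAP ha) (P.inv_mem hx)
      have e : ⁅x, a⁆ = x * (a * x⁻¹ * a⁻¹) := by rw [commutatorElement_def]; group
      rw [e]
      refine ⟨P.mul_mem hx hy, ?_⟩
      have h2 := congrArg Subtype.val (hpow ⟨x, hx⟩ ⟨_, hy⟩)
      simp only [Subgroup.coe_pow, Subgroup.coe_mul] at h2
      rw [h2, conj_pow]
      have h3 : (x⁻¹) ^ p ∈ (frattini P).map P.subtype :=
        ⟨(⟨x, hx⟩ : P)⁻¹ ^ p, pow_mem_frattini hP _, by simp⟩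
      have h4 := Subgroup.mem_centralizer_iff.mp (hFA h3) a ha
      rw [h4, mul_inv_cancel_right, inv_pow, mul_inv_cancel]
    intro x hx
    have : x ∈ Om := h1 (by rw [hPA]; exact hx)
    exact this.2
  have h3 : ∀ U : Subgroup X, (frattini ↥P).map P.subtype ≤ U → U ≤ P →
      B ≤ Subgroup.normalizer (U : Set X) → U = (frattini ↥P).map P.subtype ∨ U = P := by
    intro U hFU hUP hBU
    by_cases hUP' : U = P
    · right; exact hUP'
    · left
      exact le_antisymm ((hU1 U (lt_of_le_of_ne hUP hUP') hBU).trans (Subgroup.map_mono hcf)) hFU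
  by_cases hab : commutator P = ⊥
  · have hc : ∀ x y : P, x * y = y * x := by
      intro x y
      have : ⁅x, y⁆ ∈ commutator P := Subgroup.commutator_mem_commutator (Subgroup.mem_top x) (Subgroup.mem_top y)
      rw [hab, Subgroup.mem_bot, commutatorElement_eq_one_iff_mul_comm] at this
      exact this
    have he := hexp (fun x y => (show Commute x y from hc x y).mul_pow p)
    exact ⟨hPA, Or.inl ⟨⟨⟨hc⟩⟩, he⟩, h3, fun _ => he⟩
  · have hcen_ne : Subgroup.center P ≠ ⊤ := by
      intro h
      apply hab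
      rw [eq_bot_iff, commutator_def, Subgroup.commutator_le]
      intro x _ y _
      rw [Subgroup.mem_bot, commutatorElement_eq_one_iff_mul_comm]
      have hy : y ∈ Subgroup.center P := by rw [h]; trivial
      exact (Subgroup.mem_center_iff.mp hy x)
    have hle_cen : ∀ C : Subgroup P, C.Characteristic → C ≠ ⊤ → C ≤ Subgroup.center P := by
      intro C hC hne c hc
      obtain ⟨h1, h2, h3'⟩ := hchar C hC hne
      have h4 := hZ _ h1 h2 h3' (Subgroup.mem_map_of_mem P.subtype hc)
      rw [Subgroup.mem_center_iff]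
      intro g
      exact Subtype.ext (Subgroup.mem_centralizer_iff.mp h4 g.1 g.2)
    have hcz : commutator P ≤ Subgroup.center P := hle_cen _ inferInstance hcomm_ne
    have hfz : frattini P ≤ Subgroup.center P := hle_cen _ inferInstance hfrat_ne
    have hzc : Subgroup.center P ≤ commutator P := by
      intro z hz
      obtain ⟨h1, h2, _⟩ := hchar (Subgroup.center P) inferInstance hcen_ne
      obtain ⟨y, hy, hyz⟩ := hU1 _ h1 h2 (Subgroup.mem_map_of_mem P.subtype hz)
      have : y = z := Subtype.ext hyz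
      rw [← this]; exact hy
    refine ⟨hPA, Or.inr ⟨hP, le_antisymm hfz (hzc.trans hcf), le_antisymm hcz hzc⟩, h3, ?_⟩
    intro hp2
    apply hexp
    intro x y
    have hcl : Class2 P := class2_of_commutator_le_center hcz
    apply hcl.mul_pow_prime hpp hp2
    rw [← hcl.pow_left, commutatorElement_eq_one_iff_mul_comm]
    exact (Subgroup.mem_center_iff.mp (hfz (pow_mem_frattini hP y)) x).symm

end Cfsg.Agent.S3736
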