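import Cfsg.Statements.S3737
import Mathlib
import Cfsg.Agent.Lib.Helper5.HH2

set_option autoImplicit false
open Cfsg

namespace Cfsg.Agent.S3737

open Cfsg.Agent.Lib.Helper1 Cfsg.Agent.Lib.Helper5.HH
open scoped commutatorElement

theorem main {X : Type*} [Group X] [Finite X] {p : ℕ} [Fact p.Prime] (hp : p ≠ 2) (P Q : Subgroup X)
    (hP : IsPGroup p P) (hQ : (Nat.card Q).Coprime p) (hPQ : P ≤ Subgroup.normalizer (Q : Set X)) :
    ∀ (n : ℕ) (G : Subgroup X), Nat.card G = n → IsPGroup p G → P ≤ Subgroup.normalizer (G : Set X) →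
      Q ≤ Subgroup.normalizer (G : Set X) →
      G ⊓ Subgroup.centralizer (P : Set X) ≤ Subgroup.centralizer (Q : Set X) → ⁅G, Q⁆ = ⊥ := by
  intro n
  induction n using Nat.strong_induction_on with
  | _ n ih =>
    intro G hn hG hPG hQG hC
    have hpp : p.Prime := Fact.out
    have hcop : (Nat.card Q).Coprime (Nat.card G) := coprime_card_of_isPGroup hG hQ
    have hsolv : Group.IsSolvable Q ∨ Group.IsSolvable G := Or.inr (solvable_of_isPGroup hG)
    have hnorm : ∀ {S H K : Subgroup X}, S ≤ Subgroup.normalizer (H : Set X) →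
        S ≤ Subgroup.normalizer (K : Set X) → S ≤ Subgroup.normalizer ((⁅H, K⁆ : Subgroup X) : Set X) := by
      intro S H K h1 h2 a ha
      rw [Subgroup.mem_normalizer_iff_map_conj_eq, Subgroup.map_commutator,
        Subgroup.mem_normalizer_iff_map_conj_eq.mp (h1 ha), Subgroup.mem_normalizer_iff_map_conj_eq.mp (h2 ha)]
    by_cases h1 : ⁅G, Q⁆ = G
    swap
    · have hlt : ⁅G, Q⁆ < G := lt_of_le_of_ne (commutator_le_of_le_normalizer hQG) h1
      have := ih _ (hn ▸ card_lt_of_lt hlt) ⁅G, Q⁆ rfl (hG.to_le hlt.le) (hnorm hPG hPQ)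
        (hnorm hQG Subgroup.le_normalizer) ((inf_le_inf_right _ hlt.le).trans hC)
      rwa [coprime_commutator_stable Q G hQG hcop hsolv] at this
    by_cases hne : G = ⊥
    · rw [hne]; simp
    have hlt : ⁅G, G⁆ < G := commutator_lt_of_pgroups hG hG Subgroup.le_normalizer hne
    have h2 := ih _ (hn ▸ card_lt_of_lt hlt) ⁅G, G⁆ rfl (hG.to_le hlt.le) (hnorm hPG hPG)
      (hnorm hQG hQG) ((inf_le_inf_right _ hlt.le).trans hC)
    have h3 : ⁅⁅Q, ⁅G, G⁆⁆, G⁆ = ⊥ := by rw [Subgroup.commutator_comm Q ⁅G, G⁆, h2]; simp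
    have h4 : ⁅⁅⁅G, G⁆, G⁆, Q⁆ = ⊥ := by
      rw [eq_bot_iff, ← h2]
      exact Subgroup.commutator_mono (commutator_le_of_le_normalizer
        (hnorm Subgroup.le_normalizer Subgroup.le_normalizer)) le_rfl
    have h5 : ⁅⁅G, Q⁆, ⁅G, G⁆⁆ = ⊥ := Subgroup.commutator_commutator_eq_bot_of_rotate h3 h4
    rw [h1, Subgroup.commutator_comm, Subgroup.commutator_eq_bot_iff_le_centralizer] at h5
    have hcl : Class2 G := by
      intro x y
      rw [Subgroup.mem_center_iff]
      intro g
      apply Subtype.ext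
      have : ((⁅x, y⁆ : G) : X) ∈ ⁅G, G⁆ := Subgroup.commutator_mem_commutator x.2 y.2
      exact Subgroup.mem_centralizer_iff.mp (h5 this) g.1 g.2
    obtain ⟨k, hk⟩ := IsPGroup.iff_card.mp hG
    obtain ⟨r, hr⟩ : Odd (Nat.card G) := by
      rw [hk]; exact (hpp.odd_of_ne_two hp).pow
    let D : BaerData G := ⟨r + 1, hcl, fun c => by
      rw [show 2 * (r + 1) = Nat.card G + 1 by omega, pow_succ, pow_card_eq_one', one_mul]⟩
    letI := Baer.action D (G.normalizerMonoidHom)
    have hV : IsPGroup p (Baer D) := IsPGroup.of_card (n := k) (by rw [Baer.card_eq, hk])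
    have hP' : IsPGroup p (P.subgroupOf (Subgroup.normalizer (G : Set X))) := hP.comap_subtype
    have hQ' : (Nat.card (Q.subgroupOf (Subgroup.normalizer (G : Set X)))).Coprime p := by
      rw [Nat.card_congr (Subgroup.subgroupOfEquivOfLe hQG).toEquiv]; exact hQ
    have hPQ' : P.subgroupOf (Subgroup.normalizer (G : Set X)) ≤
        Subgroup.normalizer ((Q.subgroupOf (Subgroup.normalizer (G : Set X)) : Subgroup _) : Set _) := by
      apply le_normalizer_of_forall_conj_mem
      intro x hx y hy
      rw [Subgroup.mem_subgroupOf] at hx hy ⊢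
      exact conj_mem_of_mem_normalizer (hPQ hx) hy
    have hact : ∀ (t : Subgroup.normalizer (G : Set X)) (v : Baer D),
        ((t • v).val : X) = t.1 * v.val.1 * t.1⁻¹ := fun t v => rfl
    have key := ab_case hV _ _ hP' hQ' hPQ' (by
      intro v hv q hq
      have hg : (v.val : X) ∈ G ⊓ Subgroup.centralizer (P : Set X) := by
        refine Subgroup.mem_inf.mpr ⟨v.val.2, ?_⟩
        rw [Subgroup.mem_centralizer_iff]
        intro a ha
        have h6 := congrArg (fun w : Baer D => (w.val : X)) (hv ⟨a, hPG ha⟩ (Subgroup.mem_subgroupOf.mpr ha))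
        simp only [hact] at h6
        rw [mul_inv_eq_iff_eq_mul] at h6
        exact h6
      apply Baer.ext'
      apply Subtype.ext
      rw [hact, Subgroup.mem_centralizer_iff.mp (hC hg) q.1 (Subgroup.mem_subgroupOf.mp hq),
        mul_inv_cancel_right])
    rw [Subgroup.commutator_eq_bot_iff_le_centralizer]
    intro g hg
    rw [Subgroup.mem_centralizer_iff]
    intro q hq
    have h6 := congrArg (fun w : Baer D => (w.val : X))
      (key ⟨q, hQG hq⟩ (Subgroup.mem_subgroupOf.mpr hq) ⟨⟨g, hg⟩⟩)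
    simp only [hact] at h6
    rw [mul_inv_eq_iff_eq_mul] at h6
    exact h6

/-- Thompson's strengthening of the P × Q lemma for odd primes. Let p be an odd prime and let P, Q and G be subgroups of a finite group with P a p-group, Q of order prime to p and normalized by P, and G a p-group normalized by both P and Q. If every element of G centralized by P is centralized by Q, then Q centralizes G. -/
theorem result {X : Type*} [Group X] [Finite X] {p : ℕ} [Fact p.Prime] (hp : p ≠ 2) (P Q G : Subgroup X) (hP : IsPGroup p P) (hQ : (Nat.card Q).Coprime p) (hPQ : P ≤ Subgroup.normalizer (Q : Set X)) (hG : IsPGroup p G) (hPG : P ≤ Subgroup.normalizer (G : Set X)) (hQG : Q ≤ Subgroup.normalizer (G : Set X)) (hC : G ⊓ Subgroup.centralizer (P : Set X) ≤ Subgroup.centralizer (Q : Set X)) : Q ≤ Subgroup.centralizer (G : Set X) := by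
  have h1 := main hp P Q hP hQ hPQ _ G rfl hG hPG hQG hC
  rw [Subgroup.commutator_eq_bot_iff_le_centralizer] at h1
  exact Subgroup.le_centralizer_iff.mp h1

end Cfsg.Agent.S3737
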