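import Cfsg.Statements.S3740
import Mathlib
import Cfsg.Agent.Lib.Helper5.Dk10
import Cfsg.Agent.Lib.Helper13.SL2Quat
import Cfsg.Agent.Lib.Helper13.SL2

set_option autoImplicit false
open Cfsg

namespace Cfsg.Agent.S3740

open Cfsg.Agent.Lib.Helper5.Dk Cfsg.Agent.Lib.Helper13

/-- Let F be a finite field of odd characteristic p and let a be a p-element of SL₂(F) normalizing a subgroup R of order prime to p with [R, a] ≠ 1. Then p = 3, R is a quaternion group of order 8, and R⟨a⟩ is isomorphic to SL₂(3). -/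
theorem result (F : Type) [Field F] [Fintype F] {p : ℕ} [Fact p.Prime] [CharP F p] (hp : p ≠ 2) (a : Matrix.SpecialLinearGroup (Fin 2) F) (ha : IsPGroup p ↥(Subgroup.zpowers a)) (R : Subgroup (Matrix.SpecialLinearGroup (Fin 2) F)) (hR : (Nat.card R).Coprime p) (haR : a ∈ Subgroup.normalizer (R : Set (Matrix.SpecialLinearGroup (Fin 2) F))) (hnt : ⁅R, Subgroup.zpowers a⁆ ≠ ⊥) : p = 3 ∧ Nonempty (↥R ≃* QuaternionGroup 2) ∧ Nonempty (↥(R ⊔ Subgroup.zpowers a) ≃* Matrix.SpecialLinearGroup (Fin 2) (ZMod 3)) := by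
  classical
  have hpp : p.Prime := Fact.out
  have h2 : (2 : F) ≠ 0 := two_ne_zero' (F := F) hp
  have htr : tr a = 2 := by
    obtain ⟨j, hj⟩ := ha ⟨a, Subgroup.mem_zpowers a⟩
    exact tr_eq_two_of_pow (p := p) j (by simpa using congrArg Subtype.val hj)
  have hap : a ^ p = 1 := pow_char_of_tr_two htr
  obtain ⟨r₀, hr₀, hnc⟩ : ∃ r₀ ∈ R, r₀ * a ≠ a * r₀ := by
    by_contra hcon
    push Not at hcon
    apply hnt
    rw [Subgroup.commutator_eq_bot_iff_le_centralizer]
    intro r hr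
    rw [Subgroup.mem_centralizer_iff]
    intro h hh
    obtain ⟨i, rfl⟩ := Subgroup.mem_zpowers_iff.mp hh
    exact ((show Commute a r from (hcon r hr).symm).zpow_left i).eq
  obtain ⟨T, a₀, hT⟩ := exists_conj_eq_xx a htr
  have hinj : Function.Injective (MulAut.conj T).toMonoidHom := (MulAut.conj T).injective
  have hmem : ∀ h, h ∈ R.map (MulAut.conj T).toMonoidHom ↔ T⁻¹ * h * T ∈ R := by
    intro h
    constructor
    · rintro ⟨y, hy, rfl⟩
      have : T⁻¹ * (MulAut.conj T).toMonoidHom y * T = y := by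
        simp [MulAut.conj_apply, mul_assoc]
      rw [this]; exact hy
    · intro hh
      exact ⟨_, hh, by simp [MulAut.conj_apply, mul_assoc]⟩
  have ha₀ : a₀ ≠ 0 := by
    rintro rfl
    rw [xx_zero] at hT
    have : a = 1 := by
      have h1 : a = T⁻¹ * (T * a * T⁻¹) * T := by group
      rw [h1, hT]; group
    rw [this] at hnc
    simp at hnc
  have hcore := core (p := p) hp ha₀ (R.map (MulAut.conj T).toMonoidHom)
    (by rw [Subgroup.card_map_of_injective hinj]; exact hR)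
    (by
      rw [Subgroup.mem_normalizer_iff]
      intro h
      rw [hmem, hmem, ← hT]
      have e : T⁻¹ * (T * a * T⁻¹ * h * (T * a * T⁻¹)⁻¹) * T = a * (T⁻¹ * h * T) * a⁻¹ := by group
      rw [e]
      exact Subgroup.mem_normalizer_iff.mp haR _)
    (r₀ := T * r₀ * T⁻¹) ⟨r₀, hr₀, rfl⟩
    (by
      rw [← hT]
      intro h
      apply hnc
      have : T * (r₀ * a) * T⁻¹ = T * (a * r₀) * T⁻¹ := by
        calc T * (r₀ * a) * T⁻¹ = T * r₀ * T⁻¹ * (T * a * T⁻¹) := by group
          _ = T * a * T⁻¹ * (T * r₀ * T⁻¹) := h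
          _ = T * (a * r₀) * T⁻¹ := by group
      exact mul_left_cancel (mul_right_cancel this))
  obtain ⟨hp3, hR8, hK24⟩ := hcore
  rw [Subgroup.card_map_of_injective hinj] at hR8
  have hKmap : (R.map (MulAut.conj T).toMonoidHom ⊔ Subgroup.zpowers (xx a₀) : Subgroup _) =
      (R ⊔ Subgroup.zpowers a).map (MulAut.conj T).toMonoidHom := by
    rw [Subgroup.map_sup, MonoidHom.map_zpowers, ← hT]; rfl
  rw [hKmap, Subgroup.card_map_of_injective hinj] at hK24
  have hr₀t : tr r₀ ^ 2 ≠ 4 := by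
    intro h
    rcases central_of_tr hp hR hr₀ h with h | h
    · rw [h] at hnc; simp at hnc
    · rw [h] at hnc; exact hnc (mone_comm a)
  have hconjR : a * r₀ * a⁻¹ ∈ R := (Subgroup.mem_normalizer_iff.mp haR r₀).mp hr₀
  refine ⟨hp3, ?_, ?_⟩
  · have hP : IsPGroup 2 R := IsPGroup.of_card (n := 3) (by rw [hR8]; norm_num)
    rcases cyclic_or_quaternion_of_embeds_SL2 h2 hP R.subtype R.subtype_injective with hc | ⟨m, hm⟩
    · exfalso
      have hcomm := congrArg Subtype.val (hc.commutative.is_comm.comm ⟨_, hconjR⟩ ⟨_, hr₀⟩)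
      simp only [Subgroup.coe_mul] at hcomm
      rcases eq_or_eq_inv_of_comm h2 hcomm (tr_conj r₀ a) hr₀t with h | h
      · apply hnc
        calc r₀ * a = a * r₀ * a⁻¹ * a := by rw [h]
          _ = a * r₀ := by group
      · apply hnc
        have h3 : a ^ 3 = 1 := by rw [← hp3]; exact hap
        have h4 : a * r₀⁻¹ * a⁻¹ = r₀ := by
          have : a * r₀⁻¹ * a⁻¹ = (a * r₀ * a⁻¹)⁻¹ := by group
          rw [this, h, inv_inv]
        have h5 : a * a * r₀ * (a * a)⁻¹ = r₀ := by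
          calc a * a * r₀ * (a * a)⁻¹ = a * (a * r₀ * a⁻¹) * a⁻¹ := by group
            _ = r₀ := by rw [h, h4]
        have h6 : a * a = a⁻¹ := by
          apply eq_inv_of_mul_eq_one_left
          rw [← h3, pow_succ, pow_succ, pow_one]
        rw [h6, inv_inv] at h5
        calc r₀ * a = a * (a⁻¹ * r₀ * a) := by group
          _ = a * r₀ := by rw [h5]
    · obtain ⟨e⟩ := hm
      have h1 := Nat.card_congr e.toEquiv
      rw [hR8, Nat.card_eq_fintype_card, QuaternionGroup.card] at h1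
      have h3 : 2 ^ (m + 1) = 2 := by omega
      rw [h3] at e
      exact ⟨e⟩
  · have haK : a ∈ R ⊔ Subgroup.zpowers a := (le_sup_right : _ ≤ R ⊔ _) (Subgroup.mem_zpowers a)
    have hrK : r₀ ∈ R ⊔ Subgroup.zpowers a := (le_sup_left : R ≤ R ⊔ _) hr₀
    have hHas : Has p (R ⊔ Subgroup.zpowers a) := by
      apply has_of_noncomm hp haK (Subgroup.mul_mem _ (Subgroup.mul_mem _ hrK haK) (Subgroup.inv_mem _ hrK))
        htr (by rw [tr_conj]; exact htr)
      intro hc
      apply hnc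
      have hcR : r₀ * (a * r₀⁻¹ * a⁻¹) ∈ R :=
        R.mul_mem hr₀ ((Subgroup.mem_normalizer_iff.mp haR _).mp (R.inv_mem hr₀))
      have hcp : (r₀ * (a * r₀⁻¹ * a⁻¹)) ^ p = 1 := by
        have e : r₀ * (a * r₀⁻¹ * a⁻¹) = (r₀ * a * r₀⁻¹) * a⁻¹ := by group
        have hC : Commute (r₀ * a * r₀⁻¹) a⁻¹ := (show Commute (r₀ * a * r₀⁻¹) a from hc.symm).inv_right
        rw [e, hC.mul_pow, inv_pow, hap, inv_one, mul_one]
        exact pow_char_of_tr_two (by rw [tr_conj]; exact htr)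
      have h1 := eq_one_of_pow_p hR hcR hcp
      calc r₀ * a = r₀ * (a * r₀⁻¹ * a⁻¹) * (a * r₀) := by group
        _ = a * r₀ := by rw [h1, one_mul]
    subst hp3
    obtain ⟨Φ, hi, hr⟩ := hHas
    have hc := card_SL2 (F := ZMod 3)
    rw [ZMod.card 3] at hc
    have hrange : Nat.card Φ.range = 24 := by
      rw [← Nat.card_congr (MonoidHom.ofInjective hi).toEquiv, hc]; norm_num
    have heq : Φ.range = R ⊔ Subgroup.zpowers a :=
      Subgroup.eq_of_le_of_card_ge hr (by rw [hrange, hK24])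
    exact ⟨(MulEquiv.subgroupCongr heq.symm).trans (MonoidHom.ofInjective hi).symm⟩

end Cfsg.Agent.S3740
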