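import Cfsg.Statements.S3744
import Mathlib
import Cfsg.Agent.Lib.Helper20.PSolvable

set_option autoImplicit false
open Cfsg Cfsg.Agent.Lib.Helper20 Cfsg.Agent.Lib.Helper1 Pointwise

namespace Cfsg.Agent.S3744




/-- A finite p-soluble group has a p-complement, all its p-complements are conjugate, and every subgroup of order prime to p lies in one of them. Here a p-complement is a subgroup of order prime to p whose index is a power of p. -/
theorem result {G : Type*} [Group G] [Finite G] {p : ℕ} [Fact p.Prime] (hG : Cfsg.IsPSolvable p G) : (∃ H : Subgroup G, (Nat.card H).Coprime p ∧ ∃ n : ℕ, H.index = p ^ n) ∧ (∀ H₁ H₂ : Subgroup G, (Nat.card H₁).Coprime p → (∃ n : ℕ, H₁.index = p ^ n) → (Nat.card H₂).Coprime p → (∃ n : ℕ, H₂.index = p ^ n) → ∃ g : G, H₂ = H₁.map (MulAut.conj g).toMonoidHom) ∧ (∀ U : Subgroup G, (Nat.card U).Coprime p → ∃ H : Subgroup G, (Nat.card H).Coprime p ∧ (∃ n : ℕ, H.index = p ^ n) ∧ ∃ g : G,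 U.map (MulAut.conj g).toMonoidHom ≤ H) := by
  classical
  obtain ⟨m, k, hmk, hm⟩ := exists_card_eq_mul_pow (G := G) p
  obtain ⟨⟨H, hH⟩, hD⟩ := hallPP_all p _ G hG rfl m (p ^ k) hmk hm ⟨k, rfl⟩
  refine ⟨⟨H, hH ▸ hm, k, index_eq_of_card_eq hmk hH⟩, ?_, ?_⟩
  · rintro H₁ H₂ h1 ⟨n1, hn1⟩ h2 ⟨n2, hn2⟩
    have c1 := card_eq_of_isPComplement hmk hm h1 hn1
    have c2 := card_eq_of_isPComplement hmk hm h2 hn2
    obtain ⟨g, hg⟩ := hD H₁ H₂ c1 h2
    refine ⟨g, ?_⟩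
    rw [← conj_smul_eq_map]
    exact Subgroup.eq_of_le_of_card_ge hg (by rw [card_conj_smul, c1, c2])
  · intro U hU
    obtain ⟨g, hg⟩ := hD H U hH hU
    have c : Nat.card (MulAut.conj g • H : Subgroup G) = m := (card_conj_smul g H).trans hH
    refine ⟨MulAut.conj g • H, c ▸ hm, ⟨k, index_eq_of_card_eq hmk c⟩, 1, ?_⟩
    rintro _ ⟨u, hu, rfl⟩
    simpa using hg hu

end Cfsg.Agent.S3744
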