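import Cfsg.Statements.S3745
import Cfsg.Agent.Lib.Helper1.CoprimeSylow
import Cfsg.Agent.Lib.Helper1.Hall

set_option autoImplicit false
open Cfsg

namespace Cfsg.Agent.S3745

open Subgroup Cfsg.Agent.Lib.Helper1 Pointwise
open scoped commutatorElement

universe u

section aux
variable {X : Type u} [Group X]

theorem sup_eq_of_card [Finite X] {N H G : Subgroup X} (hN : N ≤ G) (hH : H ≤ G)
    (hcard : Nat.card G = Nat.card N * Nat.card H) (hcop : (Nat.card N).Coprime (Nat.card H)) :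
    N ⊔ H = G := by
  apply eq_of_le_of_card_ge (sup_le hN hH)
  rw [hcard]
  exact Nat.le_of_dvd Nat.card_pos
    (hcop.mul_dvd_of_dvd_of_dvd (card_dvd_of_le le_sup_left) (card_dvd_of_le le_sup_right))

theorem le_normalizer_centralizer {A U : Subgroup X} (h : A ≤ normalizer (U : Set X)) :
    A ≤ normalizer ((centralizer (U : Set X) : Subgroup X) : Set X) := by
  apply le_normalizer_of_forall_conj_mem
  intro a ha y hy
  rw [mem_centralizer_iff] at hy ⊢
  intro u hu
  have h1 : a⁻¹ * u * a ∈ U := conj_mem_of_mem_normalizer' (h ha) hu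
  have h2 := hy _ h1
  calc u * (a * y * a⁻¹) = a * ((a⁻¹ * u * a) * y) * a⁻¹ := by group
    _ = a * (y * (a⁻¹ * u * a)) * a⁻¹ := by rw [h2]
    _ = a * y * a⁻¹ * u := by group

/-- special case: normal Hall subgroup `N` of `G`; invariant subgroup of coprime order lies in an
invariant complement. -/
theorem special [Finite X] (A G N U : Subgroup X) (hAG : A ≤ normalizer (G : Set X))
    (hAN : A ≤ normalizer (N : Set X)) (hNG : N ≤ G) (hGN : G ≤ normalizer (N : Set X))
    (hcop : (Nat.card A).Coprime (Nat.card G)) (hsolv : Group.IsSolvable G) (m : ℕ)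
    (hm : Nat.card G = Nat.card N * m) (hNm : (Nat.card N).Coprime m)
    (hUG : U ≤ G) (hAU : A ≤ normalizer (U : Set X)) (hUN : (Nat.card U).Coprime (Nat.card N)) :
    ∃ H : Subgroup X, H ≤ G ∧ Nat.card H = m ∧ A ≤ normalizer (H : Set X) ∧ U ≤ H := by
  obtain ⟨H₀', hH₀c, hUH₀'⟩ := hall_dominance (G := G) m (Nat.card N) (by rw [hm, mul_comm])
    hNm.symm (U.subgroupOf G) (by rw [card_subgroupOf_of_le hUG]; exact hUN)
  set H₀ : Subgroup X := H₀'.map G.subtype with hH₀
  have hH₀G : H₀ ≤ G := by rintro _ ⟨y, -, rfl⟩; exact y.2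
  have hH₀card : Nat.card H₀ = m := by
    rw [hH₀, card_map_of_injective G.subtype_injective, hH₀c]
  have hUH₀ : U ≤ H₀ := by
    rw [← map_subgroupOf_eq_of_le hUG]; exact map_mono hUH₀'
  set K : Subgroup X := N ⊓ centralizer (U : Set X) with hK
  have hKN : K ≤ N := inf_le_left
  have hAK : A ≤ normalizer (K : Set X) := le_normalizer_inf hAN (le_normalizer_centralizer hAU)
  have hdisj : Disjoint N H₀ := disjoint_of_coprime_card (hH₀card ▸ hNm)
  obtain ⟨k, hk, hkA⟩ := coprime_exists_conj_le K A (normalizer (H₀ : Set X)) hAK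
    (Nat.Coprime.of_dvd_left (card_dvd_of_le (hKN.trans hNG)) hcop.symm)
    (Or.inl (solvable_of_le (hKN.trans hNG) hsolv)) (fun a ha => by
      have hH₁G : MulAut.conj a • H₀ ≤ G := by
        intro x hx
        rw [mem_conj_smul] at hx
        have := conj_mem_of_mem_normalizer (hAG ha) (hH₀G hx)
        simpa [mul_assoc] using this
      have hH₁c : Nat.card (MulAut.conj a • H₀ : Subgroup X) = m := by
        rw [card_conj_smul, hH₀card]
      have hUH₁ : U ≤ MulAut.conj a • H₀ := by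
        intro x hx
        rw [mem_conj_smul]
        exact hUH₀ (conj_mem_of_mem_normalizer' (hAU ha) hx)
      have hsup : N ⊔ MulAut.conj a • H₀ = G :=
        sup_eq_of_card hNG hH₁G (by rw [hH₁c, hm]) (by rw [hH₁c]; exact hNm)
      obtain ⟨n, hn, hconj⟩ := szi_card N (MulAut.conj a • H₀) H₀ (hH₁G.trans hGN)
        (by rw [hsup]; exact hH₀G) (by rw [hH₁c, hH₀card]) (by rw [hH₁c]; exact hNm)
        (Or.inl (solvable_of_le hNG hsolv))
      refine ⟨n, ⟨hn, ?_⟩, ?_⟩
      · change n ∈ centralizer (U : Set X)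
        rw [mem_centralizer_iff]
        intro u hu
        have h1 : n * u * n⁻¹ ∈ H₀ := by
          rw [← hconj]; exact conj_mem_conj_smul (hUH₁ hu)
        have h2 : n * u * n⁻¹ * u⁻¹ ∈ H₀ := H₀.mul_mem h1 (H₀.inv_mem (hUH₀ hu))
        have h3 : n * u * n⁻¹ * u⁻¹ ∈ N := by
          have : n * u * n⁻¹ * u⁻¹ = n * (u * n⁻¹ * u⁻¹) := by group
          rw [this]
          exact N.mul_mem hn (conj_mem_of_mem_normalizer (hGN (hUG hu)) (N.inv_mem hn))
        have h4 : n * u * n⁻¹ * u⁻¹ ∈ N ⊓ H₀ := ⟨h3, h2⟩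
        rw [hdisj.eq_bot, mem_bot] at h4
        have h5 : n * u * n⁻¹ = u := by rwa [mul_inv_eq_one] at h4
        calc u * n = (n * u * n⁻¹) * n := by rw [h5]
          _ = n * u := by group
      · rw [← conj_smul_eq_self_iff, conj_mul_smul, hconj])
  refine ⟨MulAut.conj k⁻¹ • H₀, ?_, ?_, ?_, ?_⟩
  · intro x hx
    rw [mem_conj_smul] at hx
    have hkG : k ∈ G := hNG (hKN hk)
    have := G.mul_mem (G.mul_mem (G.inv_mem hkG) (hH₀G hx)) hkG
    simpa [mul_assoc] using this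
  · rw [card_conj_smul, hH₀card]
  · intro a ha
    rw [mem_normalizer_conj_smul]
    have := hkA (conj_mem_conj_smul (g := k) ha)
    simpa using this
  · intro x hx
    rw [mem_conj_smul]
    have h1 : x * k = k * x := (mem_centralizer_iff.mp hk.2) x hx
    have : k⁻¹⁻¹ * x * k⁻¹ = x := by
      rw [inv_inv, ← h1]; group
    rw [this]; exact hUH₀ hx

theorem exists_normal_pgroup_le [Finite X] : ∀ (n : ℕ) (G : Subgroup X), Nat.card G = n → G.Normal →
    Group.IsSolvable G → G ≠ ⊥ →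
    ∃ (p : ℕ) (N : Subgroup X), p.Prime ∧ N.Normal ∧ N ≤ G ∧ N ≠ ⊥ ∧ IsPGroup p N := by
  intro n
  induction n using Nat.strong_induction_on with
  | _ n ih =>
  intro G hn hG hsolv hne
  by_cases hc : ⁅G, G⁆ = ⊥
  · have hab : ∀ x ∈ G, ∀ y ∈ G, x * y = y * x := by
      rw [commutator_eq_bot_iff_le_centralizer] at hc
      intro x hx y hy
      exact ((mem_centralizer_iff.mp (hc hx)) y hy).symm
    have h1 : Nat.card G ≠ 1 := fun h => hne ((card_eq_one (H := G)).mp h)
    obtain ⟨p, hp, hdvd⟩ := Nat.exists_prime_and_dvd h1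
    have := Fact.mk hp
    exact ⟨p, omegaP G hab p, hp, omegaP_normal G hab p, omegaP_le G hab p,
      omegaP_ne_bot G hab p hdvd, isPGroup_of_pow_eq_one fun x hx => hx.2⟩
  · have hlt := commutator_lt_of_solvable hsolv hne
    obtain ⟨p, N, hp, hN, hle, hNne, hNp⟩ := ih _ (hn ▸ card_lt_of_lt hlt) ⁅G, G⁆ rfl
      inferInstance (solvable_of_le hlt.le hsolv) hc
    exact ⟨p, N, hp, hN, hle.trans hlt.le, hNne, hNp⟩

/-- card-based Hall predicate -/
def HallC (π : Set ℕ) (H G : Subgroup X) : Prop :=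
  H ≤ G ∧ (∀ p : ℕ, p.Prime → p ∣ Nat.card H → p ∈ π) ∧
    ∃ r : ℕ, Nat.card G = Nat.card H * r ∧ ∀ p : ℕ, p.Prime → p ∈ π → ¬ p ∣ r

theorem card_mul_relIndex' {H G : Subgroup X} (h : H ≤ G) :
    Nat.card H * H.relIndex G = Nat.card G := by
  have := (H.subgroupOf G).card_mul_index
  rwa [card_subgroupOf_of_le h] at this

theorem hallC_iff [Finite X] {π : Set ℕ} {H G : Subgroup X} :
    HallC π H G ↔ Cfsg.IsPiHallOf π H G := by
  constructor
  · rintro ⟨h1, h2, r, hr, h3⟩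
    refine ⟨h1, h2, ?_⟩
    have h4 := card_mul_relIndex' h1
    rw [hr] at h4
    have h5 : H.relIndex G = r := Nat.eq_of_mul_eq_mul_left Nat.card_pos h4
    rw [h5]; exact h3
  · rintro ⟨h1, h2, h3⟩
    refine ⟨h1, h2, H.relIndex G, ?_, h3⟩
    exact (card_mul_relIndex' h1).symm

end aux

theorem prime_dvd_card_pgroup {X : Type u} [Group X] [Finite X] {p q : ℕ} (hp : p.Prime)
    (hq : q.Prime) {N : Subgroup X} (hN : IsPGroup p N) (h : q ∣ Nat.card N) : q = p := by
  have := Fact.mk hp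
  obtain ⟨k, hk⟩ := hN.exists_card_eq
  rw [hk] at h
  exact (Nat.prime_dvd_prime_iff_eq hq hp).mp (hq.dvd_of_dvd_pow h)

theorem main (π : Set ℕ) : ∀ (n : ℕ) (X : Type u) [Group X] [Finite X] (A G : Subgroup X),
    G.Normal → (Nat.card A).Coprime (Nat.card G) → Group.IsSolvable G → Nat.card G = n →
    ∀ U : Subgroup X, U ≤ G → A ≤ normalizer (U : Set X) →
    (∀ p : ℕ, p.Prime → p ∣ Nat.card U → p ∈ π) →
    ∃ H : Subgroup X, HallC π H G ∧ A ≤ normalizer (H : Set X) ∧ U ≤ H := by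
  intro n
  induction n using Nat.strong_induction_on with
  | _ n ih =>
  intro X _ _ A G hG hcop hsolv hn U hUG hAU hU
  by_cases hne : G = ⊥
  · subst hne
    refine ⟨⊥, ⟨le_rfl, ?_, 1, by simp, ?_⟩, ?_, hUG⟩
    · intro p hp hd
      rw [card_bot] at hd
      exact absurd (Nat.dvd_one.mp hd) hp.one_lt.ne'
    · intro p hp _ hd
      exact absurd (Nat.dvd_one.mp hd) hp.one_lt.ne'
    · intro a _
      rw [mem_normalizer_iff]
      intro x
      simp
  obtain ⟨p, N, hp, hN, hNG, hNne, hNp⟩ := exists_normal_pgroup_le _ G rfl hG hsolv hne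
  set f := QuotientGroup.mk' N with hf
  have hfs : Function.Surjective f := QuotientGroup.mk'_surjective N
  have hker : f.ker = N := QuotientGroup.ker_mk' N
  have hcomapG : (G.map f).comap f = G := comap_map_eq_self (by rw [hker]; exact hNG)
  have hcardG : Nat.card G = Nat.card N * Nat.card (G.map f) := by
    conv_lhs => rw [← hcomapG]
    exact card_comap_mk' N _
  have hN1 : 1 < Nat.card N := by
    rcases Nat.lt_or_ge 1 (Nat.card N) with h | h
    · exact h
    · exact absurd ((card_eq_one (H := N)).mp (le_antisymm h Nat.card_pos)) hNne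
  have hlt : Nat.card (G.map f) < n := by
    rw [← hn, hcardG]
    have : 0 < Nat.card (G.map f) := Nat.card_pos
    nlinarith
  obtain ⟨H', ⟨hH'G, hH'π, r, hr, hrπ⟩, hAH', hUH'⟩ := ih _ hlt (X ⧸ N) (A.map f) (G.map f)
    (hG.map f hfs) (Nat.Coprime.of_dvd (card_map_dvd _ f) (card_map_dvd _ f) hcop)
    (solvable_map f hsolv) rfl (U.map f) (map_mono hUG)
    ((map_mono hAU).trans (le_normalizer_map f))
    (fun q hq hd => hU q hq (hd.trans (card_map_dvd _ f)))
  set H₁ := H'.comap f with hH₁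
  have hNH₁ : N ≤ H₁ := by rw [← hker]; exact ker_le_comap f H'
  have hH₁G : H₁ ≤ G := by rw [← hcomapG]; exact comap_mono hH'G
  have hH₁c : Nat.card H₁ = Nat.card N * Nat.card H' := card_comap_mk' N _
  have hAH₁ : A ≤ normalizer (H₁ : Set X) := by
    intro a ha
    exact le_normalizer_comap f (hAH' (mem_map_of_mem f ha))
  have hUH₁ : U ≤ H₁ := map_le_iff_le_comap.mp hUH'
  have hGr : Nat.card G = Nat.card H₁ * r := by rw [hcardG, hr, hH₁c, mul_assoc]
  by_cases hpπ : p ∈ π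
  · refine ⟨H₁, ⟨hH₁G, ?_, r, hGr, hrπ⟩, hAH₁, hUH₁⟩
    intro q hq hd
    rw [hH₁c] at hd
    rcases hq.dvd_mul.mp hd with h | h
    · rw [prime_dvd_card_pgroup hp hq hNp h]; exact hpπ
    · exact hH'π q hq h
  · have hnorm : ∀ S : Subgroup X, S ≤ normalizer (N : Set X) := by
      intro S
      rw [normalizer_eq_top]; exact le_top
    have hcopN : ∀ m : ℕ, (∀ q : ℕ, q.Prime → q ∣ m → q ∈ π) → (Nat.card N).Coprime m := by
      intro m hm
      apply Nat.coprime_of_dvd
      intro q hq h1 h2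
      rw [prime_dvd_card_pgroup hp hq hNp h1] at h2
      exact hpπ (hm p hp h2)
    obtain ⟨H, hHH₁, hHc, hAH, hUH⟩ := special A H₁ N U hAH₁ (hnorm A) hNH₁ (hnorm H₁)
      (Nat.Coprime.of_dvd_right (card_dvd_of_le hH₁G) hcop) (solvable_of_le hH₁G hsolv)
      (Nat.card H') hH₁c (hcopN _ hH'π) hUH₁ hAU (hcopN _ hU).symm
    refine ⟨H, ⟨hHH₁.trans hH₁G, by rw [hHc]; exact hH'π, Nat.card N * r, ?_, ?_⟩, hAH, hUH⟩
    · rw [hGr, hH₁c, hHc]; ring
    · intro q hq hqπ hd
      rcases hq.dvd_mul.mp hd with h | h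
      · rw [prime_dvd_card_pgroup hp hq hNp h] at hqπ; exact hpπ hqπ
      · exact hrπ q hq hqπ h

theorem partC {X : Type u} [Group X] [Finite X] (A G : Subgroup X)
    (hAG : A ≤ Subgroup.normalizer (G : Set X)) (hcop : (Nat.card A).Coprime (Nat.card G))
    (hsolv : Group.IsSolvable G) (π : Set ℕ) (U : Subgroup X) (hUG : U ≤ G)
    (hAU : A ≤ Subgroup.normalizer (U : Set X))
    (hU : ∀ p : ℕ, p.Prime → p ∣ Nat.card U → p ∈ π) :
    ∃ H : Subgroup X, Cfsg.IsPiHallOf π H G ∧ A ≤ Subgroup.normalizer (H : Set X) ∧ U ≤ H := by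
  set Y : Subgroup X := normalizer (G : Set X) with hY
  have hGY : G ≤ Y := le_normalizer
  have hn : (G.subgroupOf Y).Normal := normal_in_normalizer
  obtain ⟨H', ⟨hH'G, hH'π, r, hr, hrπ⟩, hAH', hUH'⟩ := main π _ Y (A.subgroupOf Y) (G.subgroupOf Y) hn
    (by rw [card_subgroupOf_of_le hAG, card_subgroupOf_of_le hGY]; exact hcop)
    (solvable_subgroupOf Y hsolv) rfl (U.subgroupOf Y) (fun x hx => hUG hx)
    (by
      intro a ha
      rw [mem_normalizer_iff]
      intro x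
      exact (mem_normalizer_iff.mp (hAU ha)) (x : X))
    (by rw [card_subgroupOf_of_le (hUG.trans hGY)]; exact hU)
  have hc : Nat.card (H'.map Y.subtype) = Nat.card H' := card_map_of_injective Y.subtype_injective
  refine ⟨H'.map Y.subtype, hallC_iff.mp ⟨?_, ?_, r, ?_, hrπ⟩, ?_, ?_⟩
  · rintro _ ⟨y, hy, rfl⟩; exact hH'G hy
  · rw [hc]; exact hH'π
  · rw [hc, ← hr, card_subgroupOf_of_le hGY]
  · apply le_normalizer_of_forall_conj_mem
    rintro a ha _ ⟨y, hy, rfl⟩
    have h1 : (⟨a, hAG ha⟩ : Y) ∈ A.subgroupOf Y := ha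
    exact ⟨_, conj_mem_of_mem_normalizer (hAH' h1) hy, rfl⟩
  · rw [← map_subgroupOf_eq_of_le (hUG.trans hGY)]; exact map_mono hUH'

theorem hallC_card_dvd {X : Type u} [Group X] [Finite X] {π : Set ℕ} {H₁ H₂ G : Subgroup X}
    (h₁ : HallC π H₁ G) (h₂ : HallC π H₂ G) : Nat.card H₁ ∣ Nat.card H₂ := by
  obtain ⟨-, h1π, r1, hr1, -⟩ := h₁
  obtain ⟨-, -, r2, hr2, h2π⟩ := h₂
  have hc : (Nat.card H₁).Coprime r2 := by
    apply Nat.coprime_of_dvd
    intro q hq h1 h2
    exact h2π q hq (h1π q hq h1) h2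
  apply hc.dvd_of_dvd_mul_right
  rw [← hr2, hr1]; exact dvd_mul_right _ _

theorem partB {X : Type u} [Group X] [Finite X] (A G : Subgroup X)
    (hAG : A ≤ Subgroup.normalizer (G : Set X)) (hcop : (Nat.card A).Coprime (Nat.card G))
    (hsolv : Group.IsSolvable G) (π : Set ℕ) (H₁ H₂ : Subgroup X)
    (h₁ : Cfsg.IsPiHallOf π H₁ G) (hA₁ : A ≤ Subgroup.normalizer (H₁ : Set X))
    (h₂ : Cfsg.IsPiHallOf π H₂ G) (hA₂ : A ≤ Subgroup.normalizer (H₂ : Set X)) :
    ∃ c ∈ G ⊓ Subgroup.centralizer (A : Set X), H₂ = H₁.map (MulAut.conj c).toMonoidHom := by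
  rw [← hallC_iff] at h₁ h₂
  have hcard : Nat.card H₂ = Nat.card H₁ :=
    Nat.dvd_antisymm (hallC_card_dvd h₂ h₁) (hallC_card_dvd h₁ h₂)
  obtain ⟨hH₁G, h1π, r, hr, hrπ⟩ := h₁
  have hH₂G := h₂.1
  have hc : (Nat.card H₁).Coprime r := by
    apply Nat.coprime_of_dvd
    intro q hq h1 h2
    exact hrπ q hq (h1π q hq h1) h2
  obtain ⟨k, hk⟩ := hall_conj (G := G) (Nat.card H₁) r hr hc (H₁.subgroupOf G) (H₂.subgroupOf G)
    (card_subgroupOf_of_le hH₁G) ((card_subgroupOf_of_le hH₂G).trans hcard)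
  have hk' : MulAut.conj (k : X) • H₁ = H₂ := conj_smul_of_subgroupOf hH₁G hH₂G k hk
  have hk'' : MulAut.conj (k : X)⁻¹ • H₂ = H₁ := by
    rw [← hk', ← conj_mul_smul]; simp
  have hNK : G ⊓ normalizer (H₁ : Set X) ≤ G := inf_le_left
  have hAN : A ≤ normalizer ((G ⊓ normalizer (H₁ : Set X) : Subgroup X) : Set X) := by
    apply le_normalizer_of_forall_conj_mem
    intro a ha y hy
    refine ⟨conj_mem_of_mem_normalizer (hAG ha) hy.1, ?_⟩
    exact (normalizer (H₁ : Set X)).mul_mem ((normalizer (H₁ : Set X)).mul_mem (hA₁ ha) hy.2)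
      ((normalizer (H₁ : Set X)).inv_mem (hA₁ ha))
  obtain ⟨n, hn, hcen⟩ := coprime_key _ A hAN
    (Nat.Coprime.of_dvd_left (card_dvd_of_le hNK) hcop.symm)
    (Or.inl (solvable_of_le hNK hsolv)) (k : X) (fun a ha => by
      constructor
      · have : (k : X)⁻¹ * a * k * a⁻¹ = (k : X)⁻¹ * (a * k * a⁻¹) := by group
        rw [this]
        exact G.mul_mem (G.inv_mem k.2) (conj_mem_of_mem_normalizer (hAG ha) k.2)
      · change _ ∈ normalizer (H₁ : Set X)
        rw [← conj_smul_eq_self_iff, conj_mul_smul, conj_mul_smul, conj_mul_smul,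
          conj_smul_eq_self_iff.mpr (inv_mem (hA₁ ha)), hk', conj_smul_eq_self_iff.mpr (hA₂ ha), hk''])
  refine ⟨k * n, ⟨G.mul_mem k.2 hn.1, hcen⟩, ?_⟩
  rw [← conj_smul_eq_map, conj_mul_smul, conj_smul_eq_self_iff.mpr hn.2, hk']

/-- Coprime action on a solvable group and Hall subgroups. Let A and G be subgroups of a finite group with A normalizing G, the orders of A and G coprime, and G solvable, and let π be a set of primes. Then (a) G has an A-invariant Hall π-subgroup; (b) any two A-invariant Hall π-subgroups of G are conjugate by an element of C_G(A); (c) every A-invariant π-subgroup of G lies in an A-invariant Hall π-subgroup of G. -/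
theorem result {X : Type*} [Group X] [Finite X] (A G : Subgroup X) (hAG : A ≤ Subgroup.normalizer (G : Set X)) (hcop : (Nat.card A).Coprime (Nat.card G)) (hsolv : Group.IsSolvable G) (π : Set ℕ) : (∃ H : Subgroup X, Cfsg.IsPiHallOf π H G ∧ A ≤ Subgroup.normalizer (H : Set X)) ∧ (∀ H₁ H₂ : Subgroup X, Cfsg.IsPiHallOf π H₁ G → A ≤ Subgroup.normalizer (H₁ : Set X) → Cfsg.IsPiHallOf π H₂ G → A ≤ Subgroup.normalizer (H₂ : Set X) → ∃ c ∈ G ⊓ Subgroup.centralizer (A : Set X), H₂ = H₁.map (MulAut.conj c).toMonoidHom) ∧ (∀ U : Subgroup X, U ≤ G → A ≤ Subgroup.normalizer (U : Set X) → (∀ p : ℕ, p.Prime → p ∣ Nat.card U → p ∈ π) → ∃ H : Subgroup X, Cfsg.IsPiHallOf π H G ∧ A ≤ Subgroup.normalizer (H : Set X) ∧ U ≤ H) := by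
  refine ⟨?_, ?_, ?_⟩
  · obtain ⟨H, h1, h2, -⟩ := partC A G hAG hcop hsolv π ⊥ bot_le (by
      intro a _
      rw [mem_normalizer_iff]
      intro x
      simp) (by
      intro p hp hd
      rw [card_bot] at hd
      exact absurd (Nat.dvd_one.mp hd) hp.one_lt.ne')
    exact ⟨H, h1, h2⟩
  · intro H₁ H₂ h₁ hA₁ h₂ hA₂
    exact partB A G hAG hcop hsolv π H₁ H₂ h₁ hA₁ h₂ hA₂
  · intro U hUG hAU hU
    exact partC A G hAG hcop hsolv π U hUG hAU hU

end Cfsg.Agent.S3745
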