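import Cfsg.Statements.S3746
import Mathlib
import Cfsg.Agent.Lib.Helper8.Components

set_option autoImplicit false
open Cfsg Cfsg.Agent.Lib.Helper8 commutatorElement

namespace Cfsg.Agent.S3746


theorem commutator_sup_central_le {G : Type*} [Group G] (Z : Subgroup G) (hZ : Z ≤ Subgroup.center G) [Z.Normal]
    (A B : Subgroup G) : ⁅A ⊔ Z, B ⊔ Z⁆ ≤ ⁅A, B⁆ := by
  rw [Subgroup.commutator_le]
  intro x hx y hy
  obtain ⟨a, ha, z, hz, rfl⟩ := Subgroup.mem_sup_of_normal_right.1 hx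
  obtain ⟨b, hb, z', hz', rfl⟩ := Subgroup.mem_sup_of_normal_right.1 hy
  have h1 : ∀ g : G, g * z = z * g := Subgroup.mem_center_iff.1 (hZ hz)
  have h2 : ∀ g : G, g * z' = z' * g := Subgroup.mem_center_iff.1 (hZ hz')
  have h3 : ⁅a * z, b * z'⁆ = ⁅a, b⁆ := by
    rw [commutatorElement_def, commutatorElement_def]
    calc a * z * (b * z') * (a * z)⁻¹ * (b * z')⁻¹
        = a * (z * b) * (z' * z⁻¹) * a⁻¹ * z'⁻¹ * b⁻¹ := by group
      _ = a * (b * z) * (z' * z⁻¹) * a⁻¹ * z'⁻¹ * b⁻¹ := by rw [h1 b]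
      _ = a * b * (z * z') * z⁻¹ * a⁻¹ * z'⁻¹ * b⁻¹ := by group
      _ = a * b * (z' * z) * z⁻¹ * a⁻¹ * z'⁻¹ * b⁻¹ := by rw [h2 z]
      _ = a * (b * z') * a⁻¹ * z'⁻¹ * b⁻¹ := by group
      _ = a * (z' * b) * a⁻¹ * z'⁻¹ * b⁻¹ := by rw [h2 b]
      _ = (a * z') * b * a⁻¹ * z'⁻¹ * b⁻¹ := by group
      _ = (z' * a) * b * a⁻¹ * z'⁻¹ * b⁻¹ := by rw [h2 a]
      _ = z' * ((a * b * a⁻¹) * z'⁻¹) * b⁻¹ := by group
      _ = z' * (z'⁻¹ * (a * b * a⁻¹)) * b⁻¹ := by
          have h4 : ∀ g : G, g * z'⁻¹ = z'⁻¹ * g := Subgroup.mem_center_iff.1 (hZ (Z.inv_mem hz'))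
          rw [h4]
      _ = a * b * a⁻¹ * b⁻¹ := by group
  rw [h3]
  exact Subgroup.commutator_mem_commutator ha hb



/-- Let Z ≤ Z(G) be a central subgroup of a finite group G and E a subgroup of G containing Z whose image E/Z is a component of G/Z (subnormal and quasisimple). Then the derived subgroup [E, E] is a component of G. -/
theorem result {G : Type*} [Group G] [Finite G] (Z : Subgroup G) (hZ : Z ≤ Subgroup.center G) [Z.Normal] (E : Subgroup G) (hZE : Z ≤ E) (hE : Cfsg.IsComponent (E.map (QuotientGroup.mk' Z))) : Cfsg.IsComponent ⁅E, E⁆ := by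
  classical
  obtain ⟨hsub, hqs⟩ := hE
  rw [isQuasisimple_iff_QS] at hqs
  obtain ⟨hperf, hne, hnorm⟩ := hqs
  set π := QuotientGroup.mk' Z with hπ
  have hker : π.ker = Z := QuotientGroup.ker_mk' Z
  have hcomap : ∀ A : Subgroup G, (A.map π).comap π = A ⊔ Z := by
    intro A; rw [Subgroup.comap_map_eq, hker]
  have hEZ : E ⊔ Z = E := sup_eq_left.2 hZE
  set K := ⁅E, E⁆ with hK
  have hKE : K ≤ E := Subgroup.commutator_le_self E
  have hKmap : K.map π = E.map π := by
    rw [hK, Subgroup.map_commutator, hperf]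
  have hKZ : K ⊔ Z = E := by
    rw [← hcomap, hKmap, hcomap, hEZ]
  refine ⟨?_, ?_⟩
  · have h1 : E.IsSubnormal := by
      have := hsub.comap π
      rwa [hcomap, hEZ] at this
    have h2 : SubnIn K E := SubnIn.of_normal hKE (by
      intro e he
      rw [Subgroup.mem_normalizer_iff_map_conj_eq, hK, Subgroup.map_commutator,
        Subgroup.mem_normalizer_iff_map_conj_eq.1 (Subgroup.le_normalizer he)])
    exact h2.isSubnormal h1
  · rw [isQuasisimple_iff_QS]
    refine ⟨?_, ?_, ?_⟩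
    · apply le_antisymm (Subgroup.commutator_le_self K)
      calc K = ⁅K ⊔ Z, K ⊔ Z⁆ := by rw [hKZ]
        _ ≤ ⁅K, K⁆ := commutator_sup_central_le Z hZ K K
    · intro h
      apply hne
      rw [← hKmap, h, Subgroup.map_bot]
    · intro N hNK hKN
      have h1 : N.map π ≤ E.map π := Subgroup.map_mono (hNK.trans hKE)
      have h2 : E.map π ≤ Subgroup.normalizer ((N.map π : Subgroup (G ⧸ Z)) : Set (G ⧸ Z)) := by
        rw [← hKmap]
        exact (Subgroup.map_mono hKN).trans (Subgroup.le_normalizer_map π)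
      rcases hnorm _ h1 h2 with h3 | h3
      · left
        have h4 : N ⊔ Z = E := by rw [← hcomap, h3, hcomap, hEZ]
        apply le_antisymm hNK
        calc K = ⁅N ⊔ Z, N ⊔ Z⁆ := by rw [h4]
          _ ≤ ⁅N, N⁆ := commutator_sup_central_le Z hZ N N
          _ ≤ N := Subgroup.commutator_le_self N
      · right
        rw [← Subgroup.map_commutator, Subgroup.map_eq_bot_iff, hker] at h3
        have h4 : ⁅N, K⁆ ≤ Subgroup.center G := (Subgroup.commutator_mono le_rfl hKE).trans (h3.trans hZ)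
        have h5 : ⁅⁅N, K⁆, K⁆ = ⊥ := by
          rw [Subgroup.commutator_eq_bot_iff_le_centralizer]
          exact h4.trans (Subgroup.center_le_centralizer _)
        have h6 : ⁅⁅K, N⁆, K⁆ = ⊥ := by rw [Subgroup.commutator_comm K N]; exact h5
        have h7 := Subgroup.commutator_commutator_eq_bot_of_rotate h6 h5
        have h8 : ⁅K, K⁆ = K := by
          apply le_antisymm (Subgroup.commutator_le_self K)
          calc K = ⁅K ⊔ Z, K ⊔ Z⁆ := by rw [hKZ]
            _ ≤ ⁅K, K⁆ := commutator_sup_central_le Z hZ K K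
        rw [h8] at h7
        rw [Subgroup.commutator_comm]; exact h7

end Cfsg.Agent.S3746
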