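import Cfsg.Statements.S3747
import Mathlib
import Cfsg.Agent.Lib.Helper9.Layer
import Cfsg.Agent.Lib.Helper1.Coprime
import Cfsg.Agent.Lib.Helper20.Subnormal

set_option autoImplicit false
open Cfsg Cfsg.Agent.Lib.Helper8 Cfsg.Agent.Lib.Helper9 commutatorElement

namespace Cfsg.Agent.S3747


theorem inf_centralizer_sup_eq_bot {G : Type*} [Group G] (s : Finset (Subgroup G)) :
    (∀ A ∈ s, ∀ B ∈ s, A ≠ B → ⁅A, B⁆ = ⊥) → (∀ A ∈ s, A ⊓ Subgroup.centralizer (A : Set G) = ⊥) →
    (s.sup id) ⊓ Subgroup.centralizer ((s.sup id : Subgroup G) : Set G) = ⊥ := by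
  classical
  induction s using Finset.induction_on with
  | empty => intro _ _; simp
  | insert A s hAs ih =>
    intro hcomm hZ
    have ih' := ih (fun B hB C hC => hcomm B (Finset.mem_insert_of_mem hB) C (Finset.mem_insert_of_mem hC))
      (fun B hB => hZ B (Finset.mem_insert_of_mem hB))
    set X := s.sup id with hX
    have hXA : X ≤ Subgroup.centralizer (A : Set G) := by
      apply Finset.sup_le
      intro B hB
      have hne : B ≠ A := by rintro rfl; exact hAs hB
      exact Subgroup.commutator_eq_bot_iff_le_centralizer.1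
        (hcomm B (Finset.mem_insert_of_mem hB) A (Finset.mem_insert_self A s) hne)
    rw [Finset.sup_insert, id, ← hX, eq_bot_iff]
    rintro z ⟨hz1, hz2⟩
    have hz2' : z ∈ Subgroup.centralizer ((A ⊔ X : Subgroup G) : Set G) := hz2
    obtain ⟨a, ha, x, hx, rfl⟩ := (Cfsg.Agent.Lib.Helper1.mem_sup_of_le_normalizer
      (hXA.trans (Subgroup.centralizer_le_normalizer _))).1 hz1
    have ha1 : a ∈ A ⊓ Subgroup.centralizer (A : Set G) := by
      refine ⟨ha, ?_⟩
      change a ∈ Subgroup.centralizer (A : Set G)
      rw [Subgroup.mem_centralizer_iff]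
      intro y hy
      have h1 := Subgroup.mem_centralizer_iff.1 hz2' y (le_sup_left (a := A) hy)
      have h2 := Subgroup.mem_centralizer_iff.1 (hXA hx) y hy
      have h3 : y * a * x = a * y * x := by
        calc y * a * x = y * (a * x) := by group
          _ = a * x * y := h1
          _ = a * (x * y) := by group
          _ = a * (y * x) := by rw [h2]
          _ = a * y * x := by group
      exact mul_right_cancel h3
    rw [hZ A (Finset.mem_insert_self A s), Subgroup.mem_bot] at ha1
    subst ha1
    rw [one_mul] at hz2' ⊢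
    rw [← ih']
    refine ⟨hx, ?_⟩
    exact Subgroup.centralizer_le (by exact_mod_cast (le_sup_right : X ≤ A ⊔ X)) hz2'

theorem part_a {G : Type*} [Group G] [Finite G] (K : Subgroup G) (hK : Cfsg.IsComponent K)
    (hZ : Subgroup.center ↥K = ⊥) :
    Subgroup.normalClosure (K : Set G) ≠ ⊥ ∧ ∀ N : Subgroup G, N.Normal → N ≤ Subgroup.normalClosure (K : Set G) →
      N = ⊥ ∨ N = Subgroup.normalClosure (K : Set G) := by
  classical
  haveI := Fintype.ofFinite G
  have hKle : K ≤ Subgroup.normalClosure (K : Set G) := Subgroup.le_normalClosure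
  have hKne : K ≠ ⊥ := ((isComponent_iff K).1 hK).2.2.1
  refine ⟨fun h => hKne (eq_bot_iff.2 (h ▸ hKle)), ?_⟩
  intro N hN hNle
  rcases comp_le_or_comm hK hN.isSubnormal with h | h
  · right
    exact le_antisymm hNle (Subgroup.normalClosure_le_normal h)
  · left
    have h1 : K ≤ Subgroup.centralizer (N : Set G) := Subgroup.commutator_eq_bot_iff_le_centralizer.1 h
    have h2 : Subgroup.normalClosure (K : Set G) ≤ Subgroup.centralizer (N : Set G) :=
      Subgroup.normalClosure_le_normal h1
    set s : Finset (Subgroup G) := Finset.univ.image (fun g : G => K.map (MulAut.conj g).toMonoidHom) with hs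
    have hKZ : K ⊓ Subgroup.centralizer (K : Set G) = ⊥ := by
      rw [eq_bot_iff]
      rintro x ⟨hx1, hx2⟩
      have h3 : (⟨x, hx1⟩ : K) ∈ Subgroup.center K := by
        rw [Subgroup.mem_center_iff]
        rintro ⟨y, hy⟩
        exact Subtype.ext (Subgroup.mem_centralizer_iff.1 hx2 y hy)
      rw [hZ, Subgroup.mem_bot] at h3
      exact congrArg Subtype.val h3
    have key := inf_centralizer_sup_eq_bot s (by
      intro A hA B hB hne
      simp only [hs, Finset.mem_image, Finset.mem_univ, true_and] at hA hB
      obtain ⟨g, rfl⟩ := hA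
      obtain ⟨g', rfl⟩ := hB
      exact comp_comm_of_ne (isComponent_conj hK g) (isComponent_conj hK g') hne) (by
      intro A hA
      simp only [hs, Finset.mem_image, Finset.mem_univ, true_and] at hA
      obtain ⟨g, rfl⟩ := hA
      rw [eq_bot_iff]
      rintro x ⟨hx1, hx2⟩
      obtain ⟨y, hy, rfl⟩ := hx1
      have h3 : y ∈ K ⊓ Subgroup.centralizer (K : Set G) := by
        refine ⟨hy, ?_⟩
        change y ∈ Subgroup.centralizer (K : Set G)
        rw [Subgroup.mem_centralizer_iff]
        intro k hk
        have h4 := Subgroup.mem_centralizer_iff.1 hx2 ((MulAut.conj g).toMonoidHom k) ⟨k, hk, rfl⟩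
        rw [← map_mul, ← map_mul] at h4
        exact (MulAut.conj g).injective h4
      rw [hKZ, Subgroup.mem_bot] at h3
      rw [h3, map_one]; exact one_mem _)
    have hS : s.sup id = Subgroup.normalClosure (K : Set G) := by
      apply le_antisymm
      · apply Finset.sup_le
        intro A hA
        simp only [hs, Finset.mem_image, Finset.mem_univ, true_and] at hA
        obtain ⟨g, rfl⟩ := hA
        rintro _ ⟨k, hk, rfl⟩
        exact Subgroup.normalClosure_normal.conj_mem k (hKle hk) g
      · unfold Subgroup.normalClosure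
        rw [Subgroup.closure_le]
        intro x hx
        obtain ⟨k, hk, hkx⟩ := Group.mem_conjugatesOfSet_iff.1 hx
        obtain ⟨g, rfl⟩ := isConj_iff.1 hkx
        have h5 : K.map (MulAut.conj g).toMonoidHom ≤ s.sup id :=
          Finset.le_sup (f := id) (by simp only [hs, Finset.mem_image, Finset.mem_univ, true_and]; exact ⟨g, rfl⟩)
        exact h5 ⟨k, hk, rfl⟩
    rw [hS] at key
    rw [eq_bot_iff, ← key]
    exact le_inf hNle (Subgroup.le_centralizer_iff.1 h2)



/-- Let G be a finite group. (a) If K is a component of G with trivial centre, then the normal closure of K in G is a minimal normal subgroup of G. (b) If the Fitting subgroup of G is trivial, then the layer E(G) is generated by the minimal normal subgroups of G. -/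
theorem result {G : Type*} [Group G] [Finite G] : (∀ K : Subgroup G, Cfsg.IsComponent K → Subgroup.center ↥K = ⊥ → (Subgroup.normalClosure (K : Set G) ≠ ⊥ ∧ ∀ N : Subgroup G, N.Normal → N ≤ Subgroup.normalClosure (K : Set G) → N = ⊥ ∨ N = Subgroup.normalClosure (K : Set G))) ∧ (Cfsg.fittingSubgroup G = ⊥ → sSup {N : Subgroup G | N ≠ ⊥ ∧ N.Normal ∧ ∀ N' : Subgroup G, N'.Normal → N' ≤ N → N' = ⊥ ∨ N' = N} = Cfsg.layer G) := by
  classical
  refine ⟨part_a, ?_⟩
  intro hF
  apply le_antisymm
  · apply sSup_le
    rintro M ⟨hM1, hMn, hMmin⟩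
    haveI hEn := layer_normal (G := G)
    have hinf : (M ⊓ Cfsg.layer G).Normal := inferInstance
    rcases hMmin _ hinf inf_le_left with h | h
    · exfalso
      apply hM1
      have h1 : ⁅M, Cfsg.layer G⁆ = ⊥ := by
        rw [eq_bot_iff, ← h]
        exact Subgroup.commutator_le_inf M (Cfsg.layer G)
      have h2 : Cfsg.generalizedFittingSubgroup G = Cfsg.layer G := by
        unfold Cfsg.generalizedFittingSubgroup
        rw [hF, sup_bot_eq]
      have h3 : M ≤ Subgroup.centralizer (Cfsg.generalizedFittingSubgroup G : Set G) := by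
        rw [h2]; exact Subgroup.commutator_eq_bot_iff_le_centralizer.1 h1
      have h4 := h3.trans centralizer_generalizedFitting_le
      rw [h2] at h4
      rw [← h]; exact (inf_eq_left.2 h4).symm
    · exact inf_eq_left.1 h
  · apply sSup_le
    intro K hK
    have hZ : Subgroup.center ↥K = ⊥ := by
      have h1 : ((Subgroup.center ↥K).map K.subtype).IsSubnormal := by
        have h2 : SubnIn ((Subgroup.center ↥K).map K.subtype) K :=
          subnIn_map_subtype.2 (Subgroup.Normal.isSubnormal inferInstance)
        exact h2.isSubnormal hK.1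
      have h3 : Group.IsNilpotent ((Subgroup.center ↥K).map K.subtype) := by
        have e := (Subgroup.equivMapOfInjective (Subgroup.center ↥K) K.subtype K.subtype_injective)
        have h0 : Group.IsNilpotent (Subgroup.center ↥K) :=
          ⟨1, Subgroup.upperCentralSeries_one_eq_top_iff.2 inferInstance⟩
        exact (Group.isNilpotent_congr e).1 h0
      have h4 := le_fittingSubgroup_of_isSubnormal h1 h3
      rw [hF, le_bot_iff, Subgroup.map_eq_bot_iff_of_injective _ K.subtype_injective] at h4
      exact h4
    obtain ⟨h1, h2⟩ := part_a K hK hZ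
    exact (Subgroup.le_normalClosure).trans (le_sSup ⟨h1, Subgroup.normalClosure_normal, h2⟩)

end Cfsg.Agent.S3747
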