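import Cfsg.Statements.S3748
import Cfsg.Agent.Lib.Helper20.Subnormal
import Cfsg.Agent.Lib.Helper20.Fitting

set_option autoImplicit false
open Cfsg

namespace Cfsg.Agent.S3748

open Cfsg.Agent.Lib.Helper20

theorem result {G : Type*} [Group G] [Finite G] (M : Subgroup G) (hM : M ≠ ⊤) (hprim : ∀ N : Subgroup G, N ≤ M → M ≤ Subgroup.normalizer (N : Set G) → N ≠ ⊥ → Subgroup.normalizer (N : Set G) = M) : (∀ L : Subgroup G, L.IsSubnormal → L ≤ M → L = ⊥) ∧ M ⊓ Cfsg.fittingSubgroup G = ⊥ := by
  classical
  constructor
  · intro L hL hLM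
    by_contra hLne
    set D := sSup {L : Subgroup G | L.IsSubnormal ∧ L ≤ M} with hD
    have hLD : L ≤ D := le_sSup ⟨hL, hLM⟩
    have hDne : D ≠ ⊥ := fun h => hLne (by rw [eq_bot_iff, ← h]; exact hLD)
    have hDM : D ≤ M := sSup_le (fun _ h => h.2)
    have hMD : M ≤ Subgroup.normalizer (D : Set G) := by
      rw [Subgroup.le_normalizer_iff]
      intro m hm
      have : D ≤ D.comap (MulAut.conj m).toMonoidHom := by
        apply sSup_le
        intro L' hL'
        rw [← Subgroup.map_le_iff_le_comap]
        apply le_sSup
        refine ⟨hL'.1.map (MulAut.conj m).surjective, ?_⟩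
        rintro _ ⟨y, hy, rfl⟩
        exact M.mul_mem (M.mul_mem hm (hL'.2 hy)) (M.inv_mem hm)
      intro k hk
      exact this hk
    have hND := hprim D hDM hMD hDne
    have htop : (⊤ : Subgroup G) ≠ ⊥ := by
      intro h
      apply hM
      rw [h]
      exact (eq_bot_iff).2 (by rw [← h]; exact le_top)
    obtain ⟨K, -, hK⟩ := exists_minNormalIn (G := G) (L := ⊤) (H := ⊤) le_rfl htop
      (by rw [Subgroup.normalizer_eq_top])
    have hKD : K ≤ Subgroup.normalizer (D : Set G) := by
      rw [Subgroup.le_normalizer_iff]
      intro k hk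
      have : D ≤ D.comap (MulAut.conj k).toMonoidHom := by
        apply sSup_le
        intro L' hL'
        rw [← Subgroup.map_le_iff_le_comap]
        have h1 := minNormal_le_normalizer hL'.1 hK hk
        have h2 : L'.map (MulAut.conj k).toMonoidHom = L' := cj_eq_of_mem_normalizer h1
        rw [h2]
        exact le_sSup hL'
      intro d hd
      exact this hd
    rw [hND] at hKD
    have hKn : Subgroup.normalizer (K : Set G) = ⊤ := top_le_iff.1 hK.2.2.1
    have := hprim K hKD (by rw [hKn]; exact le_top) hK.2.1
    rw [hKn] at this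
    exact hM this.symm
  · by_contra hne
    set F := Cfsg.fittingSubgroup G with hF
    have hFn : F.Normal := fitting_normal
    have hFnil : Group.IsNilpotent F := fitting_isNilpotent
    set D := M ⊓ F with hD
    have hMD : M ≤ Subgroup.normalizer (D : Set G) := by
      refine le_trans ?_ Subgroup.inf_normalizer_le_normalizer_inf
      exact le_inf Subgroup.le_normalizer (by rw [Subgroup.normalizer_eq_top]; exact le_top)
    have hND := hprim D inf_le_left hMD hne
    have hcond := Group.normalizerCondition_of_isNilpotent (G := F)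
    rw [normalizerCondition_iff_only_full_group_self_normalizing] at hcond
    have h1 : Subgroup.normalizer ((D.subgroupOf F : Subgroup F) : Set F) = D.subgroupOf F := by
      rw [← Subgroup.subgroupOf_normalizer_eq inf_le_right, hND]
      rw [hD, Subgroup.inf_subgroupOf_right]
    have h2 := hcond _ h1
    rw [Subgroup.subgroupOf_eq_top] at h2
    have h3 : D = F := le_antisymm inf_le_right h2
    rw [h3, Subgroup.normalizer_eq_top] at hND
    exact hM hND.symm

end Cfsg.Agent.S3748
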