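import Mathlib
import Cfsg.Statements.S3749
import Cfsg.Agent.Lib.Helper20.SylowExtra
import Cfsg.Agent.Lib.Helper20.PAction

set_option autoImplicit false
open Cfsg

namespace Cfsg.Agent.S3749

open Cfsg.Agent.Lib.Helper20
open scoped Pointwise

theorem cj_map_subtype {G : Type*} [Group G] (N : Subgroup G) (n : N) (Q : Subgroup N) :
    (cj n Q).map N.subtype = cj (n : G) (Q.map N.subtype) := by
  rw [cj, cj, Subgroup.map_map, Subgroup.map_map]
  congr 1

theorem cj_sylow_normal {G : Type*} [Group G] (N : Subgroup G) [N.Normal] {q : ℕ} (a : G) (Q : Sylow q N) :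
    ∃ Q' : Sylow q N, cj a ((Q : Subgroup N).map N.subtype) = (Q' : Subgroup N).map N.subtype := by
  refine ⟨(MulAut.conjNormal (H := N) a) • Q, ?_⟩
  rw [Sylow.pointwise_smul_def]
  have h1 : (MulAut.conjNormal (H := N) a) • (Q : Subgroup N) =
      (Q : Subgroup N).map (MulAut.conjNormal (H := N) a).toMonoidHom := rfl
  rw [h1, cj, Subgroup.map_map, Subgroup.map_map]
  congr 1

theorem result {G : Type*} [Group G] [Finite G] (M : Subgroup G) (hM : M ≠ ⊤) (hprim : ∀ N : Subgroup G, N ≤ M → M ≤ Subgroup.normalizer (N : Set G) → N ≠ ⊥ → Subgroup.normalizer (N : Set G) = M) {p : ℕ} [Fact p.Prime] (hOp : Cfsg.pCore p ↥M ≠ ⊥) (N : Subgroup G) [N.Normal] (hMN : M ⊓ N = ⊥) : ¬ p ∣ Nat.card N ∧ (∀ q : ℕ, [Fact q.Prime] → ∃! Q : Sylow q ↥N, M ≤ Subgroup.normalizer ((Q : Subgroup ↥N).map N.subtype : Set G)) ∧ ((∃ q r : ℕ, q.Prime ∧ r.Prime ∧ q ≠ r ∧ q ∣ Nat.card N ∧ r ∣ Nat.card N) → ¬ IsCoatom M) := by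
  classical
  set Q0 : Subgroup G := (Cfsg.pCore p ↥M).map M.subtype with hQ0
  have hcoreP : IsPGroup p (Cfsg.pCore p ↥M) := Sylow.sSup_of_normal _ (fun H h => h.2) (fun H h => h.1)
  have hcoreN : (Cfsg.pCore p ↥M).Normal := Subgroup.sSup_normal _ (fun _ h => h.1)
  have hQ0P : IsPGroup p Q0 := hcoreP.map _
  have hQ0M : Q0 ≤ M := Subgroup.map_subtype_le _
  have hQ0ne : Q0 ≠ ⊥ := by
    rwa [Ne, Subgroup.map_eq_bot_iff_of_injective _ Subtype.coe_injective]
  have hMQ0 : M ≤ Subgroup.normalizer (Q0 : Set G) := by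
    apply (Subgroup.normal_subgroupOf_iff_le_normalizer hQ0M).1
    have : Q0.subgroupOf M = Cfsg.pCore p ↥M :=
      Subgroup.comap_map_eq_self_of_injective Subtype.coe_injective _
    rw [this]; exact hcoreN
  have hNQ0 : Subgroup.normalizer (Q0 : Set G) = M := hprim Q0 hQ0M hMQ0 hQ0ne
  have hC : ∀ x ∈ N, (∀ a ∈ Q0, a * x * a⁻¹ = x) → x = 1 := by
    intro x hxN hx
    have h1 : x ∈ Subgroup.centralizer (Q0 : Set G) := by
      rw [Subgroup.mem_centralizer_iff]
      intro a ha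
      have := hx a ha
      rw [mul_inv_eq_iff_eq_mul] at this
      exact this
    have h2 : x ∈ M := by
      rw [← hNQ0]; exact Subgroup.centralizer_le_normalizer _ h1
    have h3 : x ∈ M ⊓ N := ⟨h2, hxN⟩
    rwa [hMN, Subgroup.mem_bot] at h3
  have hpN : ¬ p ∣ Nat.card N := by
    intro hdvd
    obtain ⟨x, hx, hne, hfix⟩ := exists_centralized_ne_one_of_dvd Q0 hQ0P N
      (by rw [Subgroup.normalizer_eq_top]; exact le_top) hdvd
    exact hne (hC x hx hfix)
  -- uniqueness of Q0-invariant Sylow subgroups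
  have huniq : ∀ (q : ℕ) [Fact q.Prime] (Q1 Q2 : Sylow q N),
      (∀ a ∈ Q0, cj a ((Q1 : Subgroup N).map N.subtype) = (Q1 : Subgroup N).map N.subtype) →
      (∀ a ∈ Q0, cj a ((Q2 : Subgroup N).map N.subtype) = (Q2 : Subgroup N).map N.subtype) → Q1 = Q2 := by
    intro q _ Q1 Q2 h1 h2
    set S1 := (Q1 : Subgroup N).map N.subtype with hS1
    set S2 := (Q2 : Subgroup N).map N.subtype with hS2
    obtain ⟨n0, hn0⟩ := MulAction.exists_smul_eq N Q1 Q2
    have hn0' : cj (n0 : G) S1 = S2 := by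
      rw [hS1, ← cj_map_subtype, hS2, ← hn0, sylow_smul_coe]
    set X : Set G := {x | x ∈ N ∧ cj x S1 = S2} with hX
    set K : Subgroup G := N ⊓ Subgroup.normalizer (S1 : Set G) with hK
    have hXK : X = (fun k => (n0 : G) * k) '' (K : Set G) := by
      ext x
      constructor
      · rintro ⟨hxN, hx⟩
        refine ⟨(n0 : G)⁻¹ * x, ⟨N.mul_mem (N.inv_mem n0.2) hxN, ?_⟩, by simp⟩
        apply mem_normalizer_of_cj_eq
        rw [← cj_cj, hx, ← hn0', cj_inv_cj]
      · rintro ⟨k, ⟨hkN, hk⟩, rfl⟩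
        refine ⟨N.mul_mem n0.2 hkN, ?_⟩
        rw [← cj_cj, cj_eq_of_mem_normalizer hk, hn0']
    have hcardX : ¬ p ∣ Nat.card X := by
      rw [hXK, Nat.card_image_of_injective (mul_right_injective _)]
      intro hdvd
      exact hpN (hdvd.trans (Subgroup.card_dvd_of_le inf_le_left))
    obtain ⟨x, ⟨hxN, hx⟩, hfix⟩ := exists_centralized_of_not_dvd Q0 hQ0P X (by
      rintro a ha x ⟨hxN, hx⟩
      refine ⟨(inferInstance : N.Normal).conj_mem x hxN a, ?_⟩
      have e1 : cj a⁻¹ S1 = S1 := h1 a⁻¹ (Q0.inv_mem ha)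
      rw [← cj_cj, ← cj_cj, e1, hx, h2 a ha]) hcardX
    have hx1 := hC x hxN hfix
    rw [hx1, cj_one] at hx
    apply Sylow.ext
    exact Subgroup.map_injective Subtype.coe_injective hx
  have hex : ∀ (q : ℕ) [Fact q.Prime], ∃ Q : Sylow q N,
      M ≤ Subgroup.normalizer ((Q : Subgroup ↥N).map N.subtype : Set G) := by
    intro q _
    set 𝒮 : Set (Subgroup G) := Set.range (fun Q : Sylow q N => (Q : Subgroup N).map N.subtype) with h𝒮
    have hinj : Function.Injective (fun Q : Sylow q N => (Q : Subgroup N).map N.subtype) := by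
      intro Q1 Q2 h
      exact Sylow.ext (Subgroup.map_injective Subtype.coe_injective h)
    have hcard : ¬ p ∣ Nat.card 𝒮 := by
      rw [h𝒮, Nat.card_range_of_injective hinj]
      intro hdvd
      exact hpN (hdvd.trans (((default : Sylow q N).card_dvd_index).trans (Subgroup.index_dvd_card _)))
    obtain ⟨S, ⟨Q, rfl⟩, hfix⟩ := exists_cj_fixed_of_not_dvd Q0 hQ0P 𝒮 (by
      rintro a _ _ ⟨Q, rfl⟩
      obtain ⟨Q', hQ'⟩ := cj_sylow_normal N a Q
      exact ⟨Q', hQ'.symm⟩) hcard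
    refine ⟨Q, ?_⟩
    intro m hm
    apply mem_normalizer_of_cj_eq
    obtain ⟨Q', hQ'⟩ := cj_sylow_normal N m Q
    have : Q' = Q := by
      apply huniq q Q' Q _ hfix
      intro a ha
      rw [← hQ', cj_cj]
      have h1 : m⁻¹ * a * m ∈ Q0 := by
        have := (Subgroup.le_normalizer_iff.1 hMQ0) m⁻¹ (M.inv_mem hm) a ha
        simpa using this
      have h2 : a * m = m * (m⁻¹ * a * m) := by simp [mul_assoc]
      rw [h2, ← cj_cj]
      congr 1
      exact hfix _ h1
    rw [hQ', this]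
  refine ⟨hpN, ?_, ?_⟩
  · intro q _
    obtain ⟨Q, hQ⟩ := hex q
    refine ⟨Q, hQ, ?_⟩
    intro Q' hQ'
    apply huniq q Q' Q
    · intro a ha
      exact cj_eq_of_mem_normalizer (hQ' (hQ0M ha))
    · intro a ha
      exact cj_eq_of_mem_normalizer (hQ (hQ0M ha))
  · rintro ⟨q, r, hq, hr, hqr, hqN, hrN⟩ hco
    have : Fact q.Prime := ⟨hq⟩
    obtain ⟨Q, hQ⟩ := hex q
    set S := (Q : Subgroup N).map N.subtype with hS
    have hSN : S ≤ N := Subgroup.map_subtype_le _
    have hSne : S ≠ ⊥ := by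
      rw [hS, Ne, Subgroup.map_eq_bot_iff_of_injective _ Subtype.coe_injective]
      exact Q.ne_bot_of_dvd_card hqN
    have hSM : ¬ S ≤ M := by
      intro h
      apply hSne
      rw [eq_bot_iff, ← hMN]
      exact le_inf h hSN
    have hlt : M < M ⊔ S := lt_of_le_of_ne le_sup_left (fun h => hSM (by rw [h]; exact le_sup_right))
    have htop := hco.2 _ hlt
    have hNS : N ≤ S := by
      intro x hx
      have hx' : x ∈ ((M ⊔ S : Subgroup G) : Set G) := by rw [htop]; trivial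
      rw [Subgroup.coe_mul_of_left_le_normalizer_right M S hQ] at hx'
      obtain ⟨m, hm, s, hs, rfl⟩ := hx'
      have h1 : m ∈ N := by
        have := N.mul_mem hx (N.inv_mem (hSN hs))
        simpa using this
      have h2 : m ∈ M ⊓ N := ⟨hm, h1⟩
      rw [hMN, Subgroup.mem_bot] at h2
      rw [h2]; simpa using hs
    have hNq : IsPGroup q N := (Q.isPGroup'.map N.subtype).to_le hNS
    obtain ⟨k, hk⟩ := hNq.exists_card_eq
    rw [hk] at hrN
    exact hqr ((Nat.prime_dvd_prime_iff_eq hr hq).1 (hr.dvd_of_dvd_pow hrN)).symm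

end Cfsg.Agent.S3749
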