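import Cfsg.Statements.S3750
import Cfsg.Agent.Lib.Helper9.Layer
import Cfsg.Agent.Lib.Helper20.Fitting

set_option autoImplicit false
open Cfsg

namespace Cfsg.Agent.S3750

open Cfsg.Agent.Lib.Helper8


/-- Call a proper subgroup M of G primitive when M = N_G(N) for every non-trivial normal subgroup N of M. Let M be a primitive subgroup of the finite group G and N a normal subgroup of G with M ∩ F*(N) ≠ 1. Then F(G) = 1 and F*(N) = F*(G) = E(G); in particular every minimal normal subgroup of G is contained in N. -/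
theorem result {G : Type*} [Group G] [Finite G] (M : Subgroup G) (hM : M ≠ ⊤) (hprim : ∀ N : Subgroup G, N ≤ M → M ≤ Subgroup.normalizer (N : Set G) → N ≠ ⊥ → Subgroup.normalizer (N : Set G) = M) (N : Subgroup G) [N.Normal] (hMF : M ⊓ (Cfsg.generalizedFittingSubgroup ↥N).map N.subtype ≠ ⊥) : Cfsg.fittingSubgroup G = ⊥ ∧ (Cfsg.generalizedFittingSubgroup ↥N).map N.subtype = Cfsg.generalizedFittingSubgroup G ∧ Cfsg.generalizedFittingSubgroup G = Cfsg.layer G ∧ ∀ K : Subgroup G, K.Normal → K ≠ ⊥ → (∀ K' : Subgroup G, K'.Normal → K' ≤ K → K' = ⊥ ∨ K' = K) → K ≤ N := by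
  have hNsn : N.IsSubnormal := (inferInstance : N.Normal).isSubnormal
  have hFn : (Cfsg.fittingSubgroup G).Normal := fittingSubgroup_normal
  set 𝒮 : Set (Subgroup G) := {L | Cfsg.IsComponent L ∧ L ≤ N} with h𝒮
  set EN := sSup 𝒮 with hEN
  have hENn : EN.Normal := by
    apply sSup_normal_of_conj
    intro L hL g
    refine ⟨isComponent_conj hL.1 g, ?_⟩
    rintro _ ⟨x, hx, rfl⟩
    exact (inferInstance : N.Normal).conj_mem x (hL.2 hx) g
  have hENeq : (Cfsg.layer ↥N).map N.subtype = EN := by
    apply le_antisymm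
    · rw [Subgroup.map_le_iff_le_comap]
      apply sSup_le
      intro K hK
      rw [← Subgroup.map_le_iff_le_comap]
      exact le_sSup ⟨Cfsg.Agent.Lib.Helper9.map_comp_isComponent hNsn hK, Subgroup.map_subtype_le _⟩
    · apply sSup_le
      intro L hL
      exact Cfsg.Agent.Lib.Helper9.comp_le_map_layer hL.1 hL.2
  set FN := (Cfsg.generalizedFittingSubgroup ↥N).map N.subtype with hFN
  have hFNeq : FN = EN ⊔ (Cfsg.fittingSubgroup G ⊓ N) := by
    rw [hFN, Cfsg.generalizedFittingSubgroup, Subgroup.map_sup, hENeq,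
      Cfsg.Agent.Lib.Helper9.map_fitting_eq hNsn]
  have hFNn : FN.Normal := by
    rw [hFNeq]; infer_instance
  have hFNN : FN ≤ N := Subgroup.map_subtype_le _
  have hENE : EN ≤ Cfsg.layer G := sSup_le (fun L hL => le_layer_of_isComponent hL.1)
  -- no normal subgroups inside `M`
  have hnon : ∀ L : Subgroup G, L.Normal → L ≤ M → L = ⊥ := by
    intro L hL hLM
    by_contra hne
    have h1 := hprim L hLM (by rw [Subgroup.normalizer_eq_top]; exact le_top) hne
    rw [Subgroup.normalizer_eq_top] at h1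
    exact hM h1.symm
  have hMD : M ≤ Subgroup.normalizer ((M ⊓ FN : Subgroup G) : Set G) :=
    le_normalizer_inf Subgroup.le_normalizer (by rw [Subgroup.normalizer_eq_top]; exact le_top)
  have hND := hprim _ inf_le_left hMD hMF
  have hC : Subgroup.centralizer (FN : Set G) = ⊥ := by
    apply hnon _ inferInstance
    calc Subgroup.centralizer (FN : Set G) ≤ Subgroup.centralizer ((M ⊓ FN : Subgroup G) : Set G) :=
          Subgroup.centralizer_le inf_le_right
      _ ≤ Subgroup.normalizer ((M ⊓ FN : Subgroup G) : Set G) := Subgroup.centralizer_le_normalizer _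
      _ = M := hND
  have hCN : Subgroup.centralizer (N : Set G) = ⊥ := by
    rw [eq_bot_iff, ← hC]; exact Subgroup.centralizer_le hFNN
  -- `F(G) ∩ N = 1`
  have hnil : Group.IsNilpotent ↥(Cfsg.fittingSubgroup G) := Cfsg.Agent.Lib.Helper1.fitting_nilpotent
  have hA : Cfsg.fittingSubgroup G ⊓ N = ⊥ := by
    by_contra hne
    have hAnil : Group.IsNilpotent ↥(Cfsg.fittingSubgroup G ⊓ N : Subgroup G) := by
      have := Subgroup.isNilpotent ((Cfsg.fittingSubgroup G ⊓ N).subgroupOf (Cfsg.fittingSubgroup G))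
      exact Group.nilpotent_of_mulEquiv (Subgroup.subgroupOfEquivOfLe inf_le_left)
    obtain ⟨x, hx, hxc, hx1⟩ := Cfsg.Agent.Lib.Helper20.inf_centralizer_ne_bot _ _ hAnil le_rfl hne
      Subgroup.le_normalizer
    apply hx1
    have : x ∈ Subgroup.centralizer (FN : Set G) := by
      rw [hFNeq]
      have h1 : EN ⊔ (Cfsg.fittingSubgroup G ⊓ N) ≤ Subgroup.centralizer (Subgroup.zpowers x : Set G) := by
        refine sup_le ?_ ?_
        · have h2 : ⁅Cfsg.layer G, Cfsg.fittingSubgroup G⁆ = ⊥ := Cfsg.Agent.Lib.Helper9.layer_comm_fitting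
          rw [Subgroup.commutator_eq_bot_iff_le_centralizer] at h2
          refine (hENE.trans h2).trans (Subgroup.centralizer_le ?_)
          exact Subgroup.zpowers_le.mpr hx.1
        · rw [Subgroup.le_centralizer_iff]
          exact Subgroup.zpowers_le.mpr hxc
      rw [Subgroup.le_centralizer_iff] at h1
      exact h1 (Subgroup.mem_zpowers x)
    rw [hC] at this
    exact Subgroup.mem_bot.mp this
  have hF : Cfsg.fittingSubgroup G = ⊥ := by
    rw [eq_bot_iff, ← hCN, ← Subgroup.commutator_eq_bot_iff_le_centralizer, eq_bot_iff, ← hA]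
    exact Subgroup.commutator_le_inf _ _
  have hFS : Cfsg.generalizedFittingSubgroup G = Cfsg.layer G := by
    rw [Cfsg.generalizedFittingSubgroup, hF, sup_bot_eq]
  refine ⟨hF, ?_, hFS, ?_⟩
  · rw [hFS, hFNeq, hA, sup_bot_eq]
    apply le_antisymm hENE
    apply sSup_le
    intro L hL
    rcases Cfsg.Agent.Lib.Helper9.comp_le_or_comm hL hNsn with h | h
    · exact le_sSup ⟨hL, h⟩
    · exfalso
      rw [Subgroup.commutator_eq_bot_iff_le_centralizer, hCN, le_bot_iff] at h
      apply Cfsg.Agent.Lib.Helper9.comp_not_solvable hL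
      rw [h]
      infer_instance
  · intro K hK hK1 hmin
    have h1 : (K ⊓ N).Normal := inferInstance
    rcases hmin (K ⊓ N) h1 inf_le_left with h | h
    · exfalso
      apply hK1
      rw [eq_bot_iff, ← hCN, ← Subgroup.commutator_eq_bot_iff_le_centralizer, eq_bot_iff, ← h]
      exact Subgroup.commutator_le_inf _ _
    · exact inf_eq_left.mp h

end Cfsg.Agent.S3750
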