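import Cfsg.Statements.S3755
import Cfsg.Agent.Lib.Helper1.FF9

set_option autoImplicit false
open Cfsg

namespace Cfsg.Agent.S3755

/-- Let M and V be subgroups of a finite group with V an elementary abelian 2-group, M normalizing V and acting faithfully on it (M ∩ C(V) = 1), and C_M(O_{2'}(M)) ≤ O_{2'}(M). If some elementary abelian 2-subgroup A of M satisfies |V : C_V(A)| < |A|², then M has a section isomorphic to the symmetric group of degree 3. -/
theorem result {X : Type*} [Group X] [Finite X] (M V : Subgroup X) (hV : Cfsg.IsElementaryAbelian 2 V) (hMV : M ≤ Subgroup.normalizer (V : Set X)) (hfaith : M ⊓ Subgroup.centralizer (V : Set X) = ⊥) (hcon : Subgroup.centralizer (Cfsg.pPrimeCore 2 ↥M : Set ↥M) ≤ Cfsg.pPrimeCore 2 ↥M) (A : Subgroup X) (hAM : A ≤ M) (hA : Cfsg.IsElementaryAbelian 2 A) (hsmall : (V ⊓ Subgroup.centralizer (A : Set X)).relIndex V < Nat.card A ^ 2) : Cfsg.Involves (Equiv.Perm (Fin 3)) ↥M := by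
  haveI : Fact (Nat.Prime 2) := ⟨Nat.prime_two⟩
  have h := Cfsg.Agent.Lib.Helper1.FF.of_hyp hV hMV hfaith hcon
  by_contra hS3
  have h1 := h.card_sq_mul_le hS3 _ A rfl hAM hA
  have h2 := Cfsg.Agent.Lib.Helper4.card_eq_mul_relIndex
    (inf_le_left : V ⊓ Subgroup.centralizer (A : Set X) ≤ V)
  rw [h2, mul_comm] at h1
  have h3 := Nat.le_of_mul_le_mul_left h1 Nat.card_pos
  omega

end Cfsg.Agent.S3755
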