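import Cfsg.Statements.S3761
import Cfsg.Agent.S0646
import Cfsg.Agent.S0127
import Cfsg.Agent.S0519
import Cfsg.Agent.Lib.Helper4.Basic
import Cfsg.Agent.Lib.Helper4.NormalFour
import Cfsg.Agent.Lib.Helper20.PGroup
import Cfsg.Agent.Lib.Helper23.Recog

set_option autoImplicit false
set_option linter.unusedSectionVars false
open Cfsg

namespace Cfsg.Agent.S3761

open Subgroup
open scoped commutatorElement
open Cfsg.Agent.S0519 (exists_pow exists_gen involution_unique)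

structure Ctx {G : Type*} [Group G] (p n : ℕ) (u : G) : Prop where
  pg : IsPGroup p G
  ord : orderOf u = p ^ n
  nor : ∀ g : G, g * u * g⁻¹ ∈ zpowers u
  cen : ∀ g : G, g * u = u * g → g ∈ zpowers u

section
variable {G : Type*} [Group G] [Finite G] {p n : ℕ} [Fact p.Prime] {u : G}

theorem Ctx.conj_mem (h : Ctx p n u) (g : G) {w : G} (hw : w ∈ zpowers u) :
    g * w * g⁻¹ ∈ zpowers u := by
  obtain ⟨k, rfl⟩ := hw
  show g * u ^ k * g⁻¹ ∈ _
  rw [← conj_zpow]
  exact zpow_mem (h.nor g) k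

omit [Finite G] [Fact p.Prime] in
theorem comm_U {v w : G} (hv : v ∈ zpowers u) (hw : w ∈ zpowers u) : v * w = w * v := by
  obtain ⟨i, rfl⟩ := hv
  obtain ⟨j, rfl⟩ := hw
  exact ((Commute.refl u).zpow_zpow i j).eq

/-- the subgroup of elements of `U` of order dividing `p` -/
def ZZ (p : ℕ) (u : G) : Subgroup G where
  carrier := {w | w ∈ zpowers u ∧ w ^ p = 1}
  one_mem' := ⟨one_mem _, one_pow _⟩
  mul_mem' := by
    rintro a b ⟨ha, ha'⟩ ⟨hb, hb'⟩
    exact ⟨mul_mem ha hb, by rw [(show Commute a b from comm_U ha hb).mul_pow, ha', hb', one_mul]⟩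
  inv_mem' := by
    rintro a ⟨ha, ha'⟩
    exact ⟨inv_mem ha, by rw [inv_pow, ha', inv_one]⟩

theorem card_ZZ_dvd : Nat.card (ZZ p u) ∣ p := by
  have hle : ZZ p u ≤ zpowers u := fun w hw => hw.1
  have : IsCyclic (ZZ p u) := isCyclic_of_injective (inclusion hle) (inclusion_injective hle)
  obtain ⟨g, hg⟩ := IsCyclic.exists_generator (α := ZZ p u)
  rw [← orderOf_eq_card_of_forall_mem_zpowers hg]
  apply orderOf_dvd_of_pow_eq_one
  exact Subtype.ext g.2.2

theorem Ctx.central (h : Ctx p n u) {w : G} (hw : w ∈ zpowers u) (hwp : w ^ p = 1) (g : G) :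
    g * w = w * g := by
  have hp : p.Prime := Fact.out
  have hn : (ZZ p u).Normal := by
    constructor
    rintro a ⟨ha, ha'⟩ g
    exact ⟨h.conj_mem g ha, by rw [conj_pow, ha', mul_one, mul_inv_cancel]⟩
  rcases (Nat.dvd_prime hp).1 (card_ZZ_dvd (p := p) (u := u)) with h1 | h1
  · rw [Subgroup.card_eq_one] at h1
    have h2 : w ∈ ZZ p u := ⟨hw, hwp⟩
    rw [h1, mem_bot] at h2
    rw [h2, mul_one, one_mul]
  · have h2 := Cfsg.Agent.Lib.Helper20.le_center_of_normal_of_card_eq_p h.pg (ZZ p u) hn h1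
    exact (mem_center_iff.1 (h2 ⟨hw, hwp⟩) g)

omit [Finite G] [Fact p.Prime] in
theorem mem_M (g : G) : g ∈ centralizer (Cfsg.powerClosure p 1 (zpowers u) : Set G) ↔
    g * u ^ p = u ^ p * g := by
  constructor
  · intro hg
    have h1 : u ^ p ∈ Cfsg.powerClosure p 1 (zpowers u) :=
      subset_closure ⟨u, mem_zpowers u, by rw [pow_one]⟩
    exact (mem_centralizer_iff.1 hg _ h1).symm
  · intro hg
    have h1 : Cfsg.powerClosure p 1 (zpowers u) ≤ centralizer {g} := by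
      unfold Cfsg.powerClosure
      rw [closure_le]
      rintro y ⟨x, ⟨k, rfl⟩, rfl⟩
      show (u ^ k) ^ p ^ 1 ∈ centralizer {g}
      rw [mem_centralizer_singleton_iff, pow_one, ← zpow_natCast, ← zpow_mul, mul_comm, zpow_mul,
        zpow_natCast]
      exact ((show Commute (u ^ p) g from hg.symm).zpow_left k).eq
    rw [mem_centralizer_iff]
    intro y hy
    exact mem_centralizer_singleton_iff.1 (h1 hy)

theorem Ctx.c_mem (h : Ctx p n u) (g : G) : g * u * g⁻¹ * u⁻¹ ∈ zpowers u :=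
  mul_mem (h.nor g) (inv_mem (mem_zpowers u))

theorem Ctx.c_pow (h : Ctx p n u) (g : G) :
    (g * u * g⁻¹ * u⁻¹) ^ p = g * u ^ p * g⁻¹ * (u ^ p)⁻¹ := by
  rw [(show Commute (g * u * g⁻¹) u⁻¹ from comm_U (h.nor g) (inv_mem (mem_zpowers u))).mul_pow,
    conj_pow, inv_pow]

theorem Ctx.c_pow_eq_one_iff (h : Ctx p n u) (g : G) :
    (g * u * g⁻¹ * u⁻¹) ^ p = 1 ↔ g * u ^ p = u ^ p * g := by
  rw [h.c_pow, mul_inv_eq_one, mul_inv_eq_iff_eq_mul]

theorem Ctx.relIndex_dvd (h : Ctx p n u) :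
    (zpowers u).relIndex (centralizer (Cfsg.powerClosure p 1 (zpowers u) : Set G)) ∣ p := by
  let f : ↥(centralizer (Cfsg.powerClosure p 1 (zpowers u) : Set G)) →* G :=
    MonoidHom.mk' (fun g => (g : G) * u * (g : G)⁻¹ * u⁻¹) (by
      intro a b
      have hb : ((b : G) * u * (b : G)⁻¹ * u⁻¹) ^ p = 1 := (h.c_pow_eq_one_iff b).2 ((mem_M _).1 b.2)
      have hc := h.central (h.c_mem b) hb
      show ((a : G) * (b : G)) * u * ((a : G) * (b : G))⁻¹ * u⁻¹ = _
      calc ((a : G) * (b : G)) * u * ((a : G) * (b : G))⁻¹ * u⁻¹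
          = ((a : G) * ((b : G) * u * (b : G)⁻¹ * u⁻¹)) * u * (a : G)⁻¹ * u⁻¹ := by group
        _ = (((b : G) * u * (b : G)⁻¹ * u⁻¹) * (a : G)) * u * (a : G)⁻¹ * u⁻¹ := by rw [hc]
        _ = ((b : G) * u * (b : G)⁻¹ * u⁻¹) * ((a : G) * u * (a : G)⁻¹ * u⁻¹) := by group
        _ = _ := (hc _).symm)
  have hker : f.ker = (zpowers u).subgroupOf _ := by
    ext g
    rw [MonoidHom.mem_ker, mem_subgroupOf]
    show (g : G) * u * (g : G)⁻¹ * u⁻¹ = 1 ↔ _
    rw [mul_inv_eq_one, mul_inv_eq_iff_eq_mul]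
    constructor
    · exact h.cen g
    · intro hg
      exact comm_U hg (mem_zpowers u)
  have h1 := Subgroup.index_ker f
  rw [hker] at h1
  have h2 : f.range ≤ ZZ p u := by
    rintro _ ⟨g, rfl⟩
    exact ⟨h.c_mem g, (h.c_pow_eq_one_iff g).2 ((mem_M _).1 g.2)⟩
  show ((zpowers u).subgroupOf _).index ∣ p
  rw [h1]
  exact (Subgroup.card_dvd_of_le h2).trans card_ZZ_dvd

end

theorem nt_odd {p : ℕ} [Fact p.Prime] (hp2 : p ≠ 2) (k n : ℕ) (hk : 1 ≤ k) (hn : 1 ≤ n)
    (h : p ^ n ∣ k ^ p - 1) : p ^ (n - 1) ∣ k - 1 := by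
  have hp : p.Prime := Fact.out
  rcases Nat.eq_or_lt_of_le hk with rfl | hk1
  · simp
  have hpk : p ∣ k ^ p - 1 := (dvd_pow_self p (by omega)).trans h
  have h1 : (k : ZMod p) = 1 := by
    have h0 : ((k ^ p - 1 : ℕ) : ZMod p) = 0 := (ZMod.natCast_eq_zero_iff _ _).2 hpk
    rw [Nat.cast_sub (Nat.one_le_pow _ _ (by omega)), Nat.cast_pow, ZMod.pow_card, Nat.cast_one,
      sub_eq_zero] at h0
    exact h0
  have h2 : p ∣ k - 1 := by
    rw [← ZMod.natCast_eq_zero_iff, Nat.cast_sub hk, h1]; simp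
  have h3 : ¬ p ∣ k := by
    intro hd
    have h0 : (k : ZMod p) = 0 := (ZMod.natCast_eq_zero_iff _ _).2 hd
    rw [h1] at h0; exact one_ne_zero h0
  have h4 := padicValNat.pow_sub_pow (hp.odd_of_ne_two hp2) hk1 h2 h3 (n := p) hp.ne_zero
  rw [one_pow, padicValNat_self] at h4
  have h5 : k ^ p - 1 ≠ 0 := by
    have : 1 < k ^ p := Nat.one_lt_pow hp.ne_zero hk1
    omega
  have h6 : n ≤ padicValNat p (k ^ p - 1) := (padicValNat_dvd_iff_le h5).1 h
  have h7 : k - 1 ≠ 0 := by omega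
  exact (padicValNat_dvd_iff_le h7).2 (by omega)

theorem nt_two (k n : ℕ) (hn : 1 ≤ n) (h : 2 ^ n ∣ k ^ 2 - 1) (hk : 1 ≤ k) :
    2 ^ (n - 1) ∣ k - 1 ∨ 2 ^ (n - 1) ∣ k + 1 := by
  obtain ⟨n', rfl⟩ : ∃ n', n = n' + 1 := ⟨n - 1, by omega⟩
  have hodd : Odd k := by
    by_contra hev
    rw [Nat.not_odd_iff_even] at hev
    obtain ⟨j, rfl⟩ := hev
    have h2 : 2 ∣ (j + j) ^ 2 - 1 := (dvd_pow_self 2 (by omega)).trans h
    have h3 : (j + j) ^ 2 = 2 * (2 * j * j) := by ring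
    have h4 : 1 ≤ j := by omega
    have h5 : 1 ≤ 2 * j * j := by nlinarith
    omega
  obtain ⟨m, rfl⟩ := hodd
  have h1 : (2 * m + 1) ^ 2 - 1 = 2 * (2 * m * (m + 1)) := by
    have : (2 * m + 1) ^ 2 = 2 * (2 * m * (m + 1)) + 1 := by ring
    omega
  rw [h1, pow_succ'] at h
  have h2 : 2 ^ n' ∣ 2 * m * (m + 1) := Nat.dvd_of_mul_dvd_mul_left (by norm_num) h
  simp only [Nat.add_sub_cancel]
  rcases Nat.even_or_odd m with hm | hm
  · left
    have hc : Nat.Coprime (2 ^ n') (m + 1) :=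
      Nat.Coprime.pow_left _ (Nat.coprime_two_left.2 hm.add_one)
    exact hc.dvd_of_dvd_mul_right h2
  · right
    have hc : Nat.Coprime (2 ^ n') m := Nat.Coprime.pow_left _ (Nat.coprime_two_left.2 hm)
    have h3 : 2 * m * (m + 1) = m * (2 * m + 1 + 1) := by ring
    rw [h3] at h2
    exact hc.dvd_of_dvd_mul_left h2

theorem conj_pow_exp {G : Type*} [Group G] (x u : G) (k : ℕ) (h : x * u * x⁻¹ = u ^ k) (i : ℕ) :
    x ^ i * u * (x ^ i)⁻¹ = u ^ (k ^ i) := by
  induction i with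
  | zero => simp
  | succ i ih =>
    calc x ^ (i + 1) * u * (x ^ (i + 1))⁻¹ = x * (x ^ i * u * (x ^ i)⁻¹) * x⁻¹ := by
          rw [pow_succ']; group
      _ = x * u ^ (k ^ i) * x⁻¹ := by rw [ih]
      _ = (x * u * x⁻¹) ^ (k ^ i) := by rw [conj_pow]
      _ = u ^ (k ^ (i + 1)) := by rw [h, ← pow_mul, pow_succ']

section
variable {G : Type*} [Group G] [Finite G] {p n : ℕ} [Fact p.Prime] {u : G}

theorem Ctx.exists_exp (h : Ctx p n u) (hn : 1 ≤ n) (x : G) : ∃ k : ℕ, 1 ≤ k ∧ x * u * x⁻¹ = u ^ k := by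
  have hp : p.Prime := Fact.out
  obtain ⟨k, hk⟩ := exists_pow (h.nor x)
  refine ⟨k, ?_, hk.symm⟩
  by_contra hk0
  have hk0' : k = 0 := by omega
  subst hk0'
  rw [pow_zero] at hk
  have h1 : u = 1 := by
    have h2 : x * u = x := by rw [← mul_inv_eq_one]; exact hk.symm
    exact mul_eq_left.1 h2
  have h2 := h.ord
  rw [h1, orderOf_one] at h2
  have h3 : 1 < p ^ n := Nat.one_lt_pow (by omega) hp.one_lt
  omega

theorem Ctx.dvd_of_pow_mem (h : Ctx p n u) (x : G) (k i : ℕ) (hk1 : 1 ≤ k) (hk : x * u * x⁻¹ = u ^ k)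
    (hx : x ^ i ∈ zpowers u) : p ^ n ∣ k ^ i - 1 := by
  have h1 := conj_pow_exp x u k hk i
  rw [comm_U hx (mem_zpowers u), mul_inv_cancel_right] at h1
  have h2 : u ^ 1 = u ^ (k ^ i) := by rw [pow_one]; exact h1
  rw [pow_eq_pow_iff_modEq, h.ord] at h2
  exact (Nat.modEq_iff_dvd' (Nat.one_le_pow _ _ hk1)).1 h2

theorem Ctx.mem_M_of_odd (h : Ctx p n u) (hp2 : p ≠ 2) (hn : 1 ≤ n) (x : G)
    (hx : x ^ p ∈ zpowers u) : x * u ^ p = u ^ p * x := by
  obtain ⟨k, hk1, hk⟩ := h.exists_exp hn x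
  have h1 := nt_odd hp2 k n hk1 hn (h.dvd_of_pow_mem x k p hk1 hk hx)
  have h2 : x * u ^ p * x⁻¹ = u ^ p := by
    rw [← conj_pow, hk, ← pow_mul]
    have h3 : k * p = p + (k - 1) * p := by
      obtain ⟨j, rfl⟩ : ∃ j, k = j + 1 := ⟨k - 1, by omega⟩
      simp; ring
    rw [h3, pow_add]
    have h4 : u ^ ((k - 1) * p) = 1 := by
      apply orderOf_dvd_iff_pow_eq_one.1
      rw [h.ord]
      obtain ⟨j, hj⟩ := h1
      refine ⟨j, ?_⟩
      rw [hj]
      have : p ^ n = p ^ (n - 1) * p := by rw [← pow_succ]; congr 1; omega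
      rw [this]; ring
    rw [h4, mul_one]
  exact mul_inv_eq_iff_eq_mul.1 h2

theorem Ctx.two_cases {u : G} (h : Ctx 2 n u) (hn : 1 ≤ n) (x : G)
    (hx : x ^ 2 ∈ zpowers u) : x * u ^ 2 = u ^ 2 * x ∨ (x * u * x⁻¹ * u) ^ 2 = 1 := by
  obtain ⟨k, hk1, hk⟩ := h.exists_exp hn x
  have hpow : (2 : ℕ) ^ n = 2 ^ (n - 1) * 2 := by rw [← pow_succ]; congr 1; omega
  rcases nt_two k n hn (h.dvd_of_pow_mem x k 2 hk1 hk hx) hk1 with h1 | h1
  · left
    have h2 : x * u ^ 2 * x⁻¹ = u ^ 2 := by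
      rw [← conj_pow, hk, ← pow_mul]
      have h3 : k * 2 = 2 + (k - 1) * 2 := by omega
      rw [h3, pow_add]
      have h4 : u ^ ((k - 1) * 2) = 1 := by
        apply orderOf_dvd_iff_pow_eq_one.1
        rw [h.ord, hpow]
        exact Nat.mul_dvd_mul_right h1 2
      rw [h4, mul_one]
    exact mul_inv_eq_iff_eq_mul.1 h2
  · right
    rw [hk, ← pow_succ, ← pow_mul]
    apply orderOf_dvd_iff_pow_eq_one.1
    rw [h.ord, hpow]
    exact Nat.mul_dvd_mul_right h1 2

theorem Ctx.exists_x (h : Ctx p n u) (g : G) (hg : g ∉ zpowers u) :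
    ∃ i : ℕ, g ^ p ^ i ∉ zpowers u ∧ (g ^ p ^ i) ^ p ∈ zpowers u := by
  classical
  have hex : ∃ j, g ^ p ^ j ∈ zpowers u := by
    obtain ⟨j, hj⟩ := h.pg g
    exact ⟨j, by rw [hj]; exact one_mem _⟩
  have h0 : Nat.find hex ≠ 0 := by
    intro h0
    have h1 := Nat.find_spec hex
    rw [h0, pow_zero, pow_one] at h1
    exact hg h1
  obtain ⟨i, hi⟩ := Nat.exists_eq_succ_of_ne_zero h0
  refine ⟨i, Nat.find_min hex (by omega), ?_⟩
  have h1 := Nat.find_spec hex
  rw [hi, Nat.succ_eq_add_one, pow_succ, pow_mul] at h1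
  exact h1

end

theorem omegaOne_eq_map {G : Type*} [Group G] (p : ℕ) (M : Subgroup G) :
    Cfsg.omegaOne p M = (closure {x : M | x ^ p = 1}).map M.subtype := by
  rw [MonoidHom.map_closure]
  unfold Cfsg.omegaOne
  congr 1
  ext x
  constructor
  · rintro ⟨hx, hxp⟩
    exact ⟨⟨x, hx⟩, Subtype.ext hxp, rfl⟩
  · rintro ⟨y, hy, rfl⟩
    exact ⟨y.2, by have h0 := congrArg Subtype.val hy; simpa using h0⟩

theorem omegaOne_char {G : Type*} [Group G] (p : ℕ) (M : Subgroup G)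
    (hM : ∀ (φ : G ≃* G), ∀ x ∈ M, φ x ∈ M) : (Cfsg.omegaOne p M).Characteristic := by
  rw [characteristic_iff_map_le]
  intro φ
  unfold Cfsg.omegaOne
  rw [MonoidHom.map_closure, closure_le]
  rintro _ ⟨x, ⟨hx, hxp⟩, rfl⟩
  apply Subgroup.subset_closure
  exact ⟨hM φ x hx, by show (φ x) ^ p = 1; rw [← map_pow, hxp, map_one]⟩

theorem elemAb_map {G : Type*} [Group G] (p : ℕ) (M : Subgroup G) (A : Subgroup M)
    (hA : Cfsg.IsElementaryAbelian p A) : Cfsg.IsElementaryAbelian p (A.map M.subtype) := by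
  obtain ⟨h1, h2⟩ := hA
  rw [Cfsg.Agent.Lib.Helper4.isMulCommutative_iff] at h1
  refine ⟨(Cfsg.Agent.Lib.Helper4.isMulCommutative_iff _).2 ?_, ?_⟩
  · rintro _ ⟨a, ha, rfl⟩ _ ⟨b, hb, rfl⟩
    exact congrArg Subtype.val (h1 a ha b hb)
  · rintro _ ⟨a, ha, rfl⟩
    exact congrArg Subtype.val (h2 a ha)

section
variable {G : Type*} [Group G] [Finite G] {p n : ℕ} [Fact p.Prime] {u : G}

theorem Ctx.relIndex_eq (h : Ctx p n u) (x : G) (hxM : x * u ^ p = u ^ p * x) (hxU : x ∉ zpowers u) :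
    (zpowers u).relIndex (centralizer (Cfsg.powerClosure p 1 (zpowers u) : Set G)) = p := by
  have hp : p.Prime := Fact.out
  rcases (Nat.dvd_prime hp).1 h.relIndex_dvd with h1 | h1
  · exfalso
    rw [relIndex_eq_one] at h1
    exact hxU (h1 ((mem_M x).2 hxM))
  · exact h1

theorem Ctx.odd_case (h : Ctx p n u) (hp2 : p ≠ 2) (hn : 1 ≤ n) (g : G) (hg : g ∉ zpowers u) :
    (zpowers u).relIndex (centralizer (Cfsg.powerClosure p 1 (zpowers u) : Set G)) = p ∧
    Cfsg.IsElementaryAbelian p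
      (Cfsg.omegaOne p (centralizer (Cfsg.powerClosure p 1 (zpowers u) : Set G))) ∧
    Nat.card ↥(Cfsg.omegaOne p (centralizer (Cfsg.powerClosure p 1 (zpowers u) : Set G))) = p ^ 2 ∧
    (Cfsg.omegaOne p (centralizer (Cfsg.powerClosure p 1 (zpowers u) : Set G))).Characteristic := by
  obtain ⟨i, hx1, hx2⟩ := h.exists_x g hg
  obtain ⟨x, hx⟩ : ∃ x, x = g ^ p ^ i := ⟨_, rfl⟩
  rw [← hx] at hx1 hx2
  have hxM := h.mem_M_of_odd hp2 hn x hx2
  have hrel := h.relIndex_eq x hxM hx1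
  obtain ⟨M, hM⟩ : ∃ M, M = centralizer (Cfsg.powerClosure p 1 (zpowers u) : Set G) := ⟨_, rfl⟩
  rw [← hM] at hrel ⊢
  have hUM : zpowers u ≤ M := by
    rw [zpowers_le, hM, mem_M]
    exact ((Commute.refl u).pow_right p).eq
  have hxM' : x ∈ M := by rw [hM, mem_M]; exact hxM
  have hnc : ¬ IsCyclic M := by
    intro hc
    apply hx1
    apply h.cen
    have h1 := hc.isMulCommutative.is_comm.comm (⟨x, hxM'⟩ : M) ⟨u, hUM (mem_zpowers u)⟩
    exact congrArg Subtype.val h1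
  have hcyc : IsCyclic ((zpowers u).subgroupOf M) :=
    isCyclic_of_surjective (subgroupOfEquivOfLe hUM).symm (subgroupOfEquivOfLe hUM).symm.surjective
  obtain ⟨hE, hcard⟩ := Cfsg.Agent.S0127.result (R := M) hp2 (h.pg.to_subgroup M) hnc
    ((zpowers u).subgroupOf M) hcyc hrel
  refine ⟨hrel, ?_, ?_, ?_⟩
  · rw [omegaOne_eq_map]; exact elemAb_map p M _ hE
  · rw [omegaOne_eq_map, card_map_of_injective (subtype_injective M)]; exact hcard
  · have h1 : Cfsg.omegaOne p M = Cfsg.omegaOne p (⊤ : Subgroup G) := by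
      unfold Cfsg.omegaOne
      congr 1
      ext y
      constructor
      · rintro ⟨-, hy⟩
        exact ⟨mem_top y, hy⟩
      · rintro ⟨-, hy⟩
        refine ⟨?_, hy⟩
        rw [hM, mem_M]
        exact h.mem_M_of_odd hp2 hn y (by rw [hy]; exact one_mem _)
    rw [h1]
    exact omegaOne_char p ⊤ (fun _ _ _ => mem_top _)

end

section
variable {G : Type*} [Group G] [Finite G] {n : ℕ} {u : G}

/-- `y` lies in `M` but not in `U` -/
def MU (u y : G) : Prop := y * u ^ 2 = u ^ 2 * y ∧ y ∉ zpowers u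

structure ZC (u z : G) : Prop where
  mem : z ∈ zpowers u
  sq : z ^ 2 = 1
  ne : z ≠ 1
  cen : ∀ g : G, g * z = z * g

theorem Ctx.zc (h : Ctx 2 n u) (hn : 1 ≤ n) : ZC u (u ^ 2 ^ (n - 1)) := by
  have hpow : (2 : ℕ) ^ n = 2 ^ (n - 1) * 2 := by rw [← pow_succ]; congr 1; omega
  have hsq : (u ^ 2 ^ (n - 1)) ^ 2 = 1 := by
    rw [← pow_mul, ← hpow, ← h.ord]; exact pow_orderOf_eq_one u
  refine ⟨pow_mem (mem_zpowers u) _, hsq, ?_, ?_⟩
  · intro h0
    have h1 := orderOf_dvd_of_pow_eq_one h0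
    rw [h.ord, hpow] at h1
    have h2 := Nat.le_of_dvd (by positivity) h1
    have h3 : 0 < 2 ^ (n - 1) := by positivity
    omega
  · exact h.central (pow_mem (mem_zpowers u) _) hsq

theorem MU.inv {y : G} (hy : MU u y) : MU u y⁻¹ := by
  refine ⟨?_, fun h0 => hy.2 (by simpa using inv_mem h0)⟩
  exact ((show Commute y (u ^ 2) from hy.1).inv_left).eq

theorem Ctx.conj_eq (h : Ctx 2 n u) {z : G} (hz : ZC u z) {y : G} (hy : MU u y) :
    y * u * y⁻¹ = u * z := by
  have h1 : (y * u * y⁻¹ * u⁻¹) ^ 2 = 1 := (h.c_pow_eq_one_iff y).2 hy.1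
  have h2 : y * u * y⁻¹ * u⁻¹ ≠ 1 := by
    intro h0
    apply hy.2
    apply h.cen
    rw [mul_inv_eq_one, mul_inv_eq_iff_eq_mul] at h0
    exact h0
  have h3 := involution_unique u _ z (h.c_mem y) hz.mem h1 hz.sq h2 hz.ne
  rw [mul_inv_eq_iff_eq_mul] at h3
  rw [h3]
  exact comm_U hz.mem (mem_zpowers u)

theorem Ctx.conj_pow_eq (h : Ctx 2 n u) {z : G} (hz : ZC u z) {y : G} (hy : MU u y) (b : ℕ) :
    y * u ^ b * y⁻¹ = u ^ b * z ^ b := by
  rw [← conj_pow, h.conj_eq hz hy,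
    (show Commute u z from comm_U (mem_zpowers u) hz.mem).mul_pow]

theorem Ctx.inv_mul_mem (h : Ctx 2 n u) {z : G} (hz : ZC u z) {y1 y2 : G} (hy1 : MU u y1)
    (hy2 : MU u y2) : y1⁻¹ * y2 ∈ zpowers u := by
  apply h.cen
  have e1 := h.conj_eq hz hy1.inv
  have e2 := h.conj_eq hz hy2
  rw [inv_inv] at e1
  have e3 : y1⁻¹ * y2 * u * (y1⁻¹ * y2)⁻¹ = u := by
    calc y1⁻¹ * y2 * u * (y1⁻¹ * y2)⁻¹ = y1⁻¹ * (y2 * u * y2⁻¹) * y1 := by group
      _ = y1⁻¹ * (u * z) * y1 := by rw [e2]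
      _ = (y1⁻¹ * u * y1) * (y1⁻¹ * z) * y1 := by group
      _ = (u * z) * (z * y1⁻¹) * y1 := by rw [e1, hz.cen y1⁻¹]
      _ = u * (z ^ 2) := by rw [pow_two]; group
      _ = u := by rw [hz.sq, mul_one]
  exact mul_inv_eq_iff_eq_mul.1 e3

theorem zpow_parity {z : G} (hz2 : z ^ 2 = 1) (a : ℕ) : (Even a → z ^ a = 1) ∧ (Odd a → z ^ a = z) := by
  constructor
  · rintro ⟨c, rfl⟩
    rw [← two_mul, pow_mul, hz2, one_pow]
  · rintro ⟨c, rfl⟩
    rw [pow_succ, pow_mul, hz2, one_pow, one_mul]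

theorem MU.mul_right {y w : G} (hy : MU u y) (hw : w ∈ zpowers u) : MU u (y * w) := by
  refine ⟨?_, fun h0 => hy.2 ?_⟩
  · have h1 : Commute w (u ^ 2) := comm_U hw (pow_mem (mem_zpowers u) 2)
    exact ((show Commute y (u ^ 2) from hy.1).mul_left h1).eq
  · have h1 := mul_mem h0 (inv_mem hw)
    rwa [mul_inv_cancel_right] at h1

theorem Ctx.exists_invol (h : Ctx 2 n u) (hn3 : 3 ≤ n) {x : G} (hx : MU u x) :
    ∃ t, MU u t ∧ t ^ 2 = 1 := by
  have hz := h.zc (by omega : 1 ≤ n)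
  obtain ⟨z, hzdef⟩ : ∃ z, z = u ^ 2 ^ (n - 1) := ⟨_, rfl⟩
  rw [← hzdef] at hz
  have hxu := h.conj_eq hz hx
  have hx2U : x ^ 2 ∈ zpowers u := by
    have h1 := h.inv_mul_mem hz hx.inv hx
    rwa [inv_inv, ← pow_two] at h1
  obtain ⟨i, hi⟩ := exists_pow hx2U
  have hzi : z ^ i = 1 := by
    have h1 := h.conj_pow_eq hz hx i
    rw [hi] at h1
    have h2 : x * x ^ 2 * x⁻¹ = x ^ 2 := by group
    rw [h2] at h1
    exact (mul_eq_left.1 h1.symm)
  have hieven : Even i := by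
    by_contra hodd
    rw [Nat.not_even_iff_odd] at hodd
    exact hz.ne (((zpow_parity hz.sq i).2 hodd).symm.trans hzi)
  obtain ⟨a, rfl⟩ := hieven
  obtain ⟨v, hv⟩ : ∃ v, v = u ^ a := ⟨_, rfl⟩
  have hvU : v ∈ zpowers u := hv ▸ pow_mem (mem_zpowers u) a
  have hvv : v * v = x * x := by rw [hv, ← pow_add, hi, pow_two]
  have hxv : x * v * x⁻¹ = v * z ^ a := by rw [hv]; exact h.conj_pow_eq hz hx a
  have hs : MU u (x * v⁻¹) := hx.mul_right (inv_mem hvU)
  have hss : (x * v⁻¹) ^ 2 = (z ^ a)⁻¹ := by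
    have e1 : x * v⁻¹ = (v * z ^ a)⁻¹ * x := by
      rw [← hxv]; group
    calc (x * v⁻¹) ^ 2 = (x * v⁻¹) * (x * v⁻¹) := pow_two _
      _ = (v * z ^ a)⁻¹ * x * (x * v⁻¹) := by rw [← e1]
      _ = (v * z ^ a)⁻¹ * (x * x) * v⁻¹ := by group
      _ = (v * z ^ a)⁻¹ * (v * v) * v⁻¹ := by rw [hvv]
      _ = (z ^ a)⁻¹ := by group
  rcases Nat.even_or_odd a with ha | ha
  · refine ⟨x * v⁻¹, hs, ?_⟩
    rw [hss, (zpow_parity hz.sq a).1 ha, inv_one]
  · rw [(zpow_parity hz.sq a).2 ha] at hss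
    have hzinv : z⁻¹ = z := by
      have := hz.sq
      rw [pow_two] at this
      exact inv_eq_of_mul_eq_one_left this
    rw [hzinv] at hss
    obtain ⟨q, hq⟩ : ∃ q, q = u ^ 2 ^ (n - 2) := ⟨_, rfl⟩
    have hqU : q ∈ zpowers u := hq ▸ pow_mem (mem_zpowers u) _
    have hqq : q ^ 2 = z := by
      rw [hq, hzdef, ← pow_mul, ← pow_succ]; congr 2; omega
    have hsq : (x * v⁻¹) * q * (x * v⁻¹)⁻¹ = q := by
      rw [hq, h.conj_pow_eq hz hs]
      have he : Even (2 ^ (n - 2)) := by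
        refine (Nat.even_pow.2 ⟨even_two, by omega⟩)
      rw [(zpow_parity hz.sq _).1 he, mul_one]
    have hcomm : Commute (x * v⁻¹) q := mul_inv_eq_iff_eq_mul.1 hsq
    refine ⟨x * v⁻¹ * q, hs.mul_right hqU, ?_⟩
    rw [hcomm.mul_pow, hss, hqq, ← pow_two, hz.sq]

end

section
variable {G : Type*} [Group G] [Finite G] {n : ℕ} {u : G}

theorem inv_of_sq {t : G} (ht2 : t ^ 2 = 1) : t⁻¹ = t := by
  rw [pow_two] at ht2
  exact inv_eq_of_mul_eq_one_left ht2

theorem Ctx.invol_class (h : Ctx 2 n u) (hn3 : 3 ≤ n) {z t : G} (hz : ZC u z) (ht : MU u t)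
    (ht2 : t ^ 2 = 1) (y : G) (hyM : y * u ^ 2 = u ^ 2 * y) (hy2 : y ^ 2 = 1) :
    y = 1 ∨ y = z ∨ y = t ∨ y = t * z := by
  by_cases hyU : y ∈ zpowers u
  · by_cases hy1 : y = 1
    · left; exact hy1
    · right; left; exact involution_unique u y z hyU hz.mem hy2 hz.sq hy1 hz.ne
  · have hy : MU u y := ⟨hyM, hyU⟩
    have hw := h.inv_mul_mem hz ht hy
    obtain ⟨b, hb⟩ := exists_pow hw
    have hyt : y = t * u ^ b := by rw [hb]; group
    have e1 := h.conj_pow_eq hz ht b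
    have h1 : u ^ b * z ^ b * u ^ b = 1 := by
      rw [← e1, inv_of_sq ht2, mul_assoc (t * u ^ b), ← hyt, ← pow_two, hy2]
    rcases Nat.even_or_odd b with hbe | hbo
    · rw [(zpow_parity hz.sq b).1 hbe, mul_one, ← pow_two] at h1
      by_cases hb1 : u ^ b = 1
      · right; right; left
        rw [hyt, hb1, mul_one]
      · right; right; right
        rw [hyt, involution_unique u (u ^ b) z (pow_mem (mem_zpowers u) b) hz.mem h1 hz.sq hb1 hz.ne]
    · exfalso
      rw [(zpow_parity hz.sq b).2 hbo] at h1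
      have h2 : (u ^ b) ^ 2 = z := by
        have h3 : u ^ b * z * u ^ b = (u ^ b) ^ 2 * z := by
          rw [mul_assoc, comm_U hz.mem (pow_mem (mem_zpowers u) b), ← mul_assoc, pow_two]
        rw [h3] at h1
        rw [eq_inv_of_mul_eq_one_left h1, inv_of_sq hz.sq]
      have h4 : u ^ (b * 4) = 1 := by
        have : b * 4 = b * 2 * 2 := by ring
        rw [this, pow_mul, pow_mul, h2, hz.sq]
      have h5 := orderOf_dvd_of_pow_eq_one h4
      rw [h.ord] at h5
      have hc : Nat.Coprime (2 ^ n) b := Nat.Coprime.pow_left _ (Nat.coprime_two_left.2 hbo)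
      have h6 := hc.dvd_of_dvd_mul_left h5
      have h7 := Nat.le_of_dvd (by norm_num) h6
      have h8 : 2 ^ 3 ≤ 2 ^ n := Nat.pow_le_pow_right (by norm_num) hn3
      omega

theorem Ctx.omega_struct (h : Ctx 2 n u) (hn3 : 3 ≤ n) {z t : G} (hz : ZC u z) (ht : MU u t)
    (ht2 : t ^ 2 = 1) :
    Cfsg.IsElementaryAbelian 2
      (Cfsg.omegaOne 2 (centralizer (Cfsg.powerClosure 2 1 (zpowers u) : Set G))) ∧
    Nat.card ↥(Cfsg.omegaOne 2 (centralizer (Cfsg.powerClosure 2 1 (zpowers u) : Set G))) = 2 ^ 2 := by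
  have hzE : z ∈ Subgroup.closure ({z, t} : Set G) := Subgroup.subset_closure (by simp)
  have htE : t ∈ Subgroup.closure ({z, t} : Set G) := Subgroup.subset_closure (by simp)
  have hEq : Cfsg.omegaOne 2 (centralizer (Cfsg.powerClosure 2 1 (zpowers u) : Set G)) =
      Subgroup.closure ({z, t} : Set G) := by
    apply le_antisymm
    · unfold Cfsg.omegaOne
      rw [closure_le]
      rintro y ⟨hyM, hy2⟩
      rcases h.invol_class hn3 hz ht ht2 y ((mem_M y).1 hyM) hy2 with rfl | rfl | rfl | rfl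
      · exact one_mem _
      · exact hzE
      · exact htE
      · exact mul_mem htE hzE
    · rw [closure_le]
      rintro y (rfl | hy)
      · exact Subgroup.subset_closure ⟨(mem_M _).2 (hz.cen _).symm, hz.sq⟩
      · rw [Set.mem_singleton_iff] at hy
        subst hy
        exact Subgroup.subset_closure ⟨(mem_M _).2 ht.1, ht2⟩
  rw [hEq]
  have hcomm : IsMulCommutative (Subgroup.closure ({z, t} : Set G)) := by
    apply Subgroup.isMulCommutative_closure
    rintro y (rfl | rfl) y' (rfl | rfl)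
    · rfl
    · exact (hz.cen _).symm
    · exact hz.cen _
    · rfl
  have hcomm' := (Cfsg.Agent.Lib.Helper4.isMulCommutative_iff _).1 hcomm
  refine ⟨⟨hcomm, ?_⟩, ?_⟩
  · intro a ha
    induction ha using Subgroup.closure_induction with
    | mem y hy =>
      rcases hy with rfl | hy
      · exact hz.sq
      · rw [Set.mem_singleton_iff] at hy
        subst hy
        exact ht2
    | one => exact one_pow _
    | mul a b ha hb iha ihb =>
      rw [(show Commute a b from hcomm' a ha b hb).mul_pow, iha, ihb, one_mul]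
    | inv a _ iha => rw [inv_pow, iha, inv_one]
  · have hoz : orderOf z = 2 := orderOf_eq_prime hz.sq hz.ne
    have ht1 : t ≠ 1 := by
      rintro rfl
      exact ht.2 (one_mem _)
    have hot : orderOf t = 2 := orderOf_eq_prime ht2 ht1
    have hsup : zpowers t ⊔ zpowers z = Subgroup.closure ({z, t} : Set G) := by
      rw [zpowers_eq_closure, zpowers_eq_closure, ← Subgroup.closure_union]
      congr 1
      ext y
      simp [or_comm]
    have hnorm : zpowers t ≤ normalizer ((zpowers z : Subgroup G) : Set G) := by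
      intro g _
      rw [mem_normalizer_iff]
      intro w
      have hgw : ∀ w ∈ zpowers z, g * w * g⁻¹ = w := by
        rintro _ ⟨k, rfl⟩
        have : Commute g (z ^ k) := (show Commute g z from hz.cen g).zpow_right k
        exact mul_inv_eq_iff_eq_mul.2 this.eq
      constructor
      · intro hw
        rw [hgw w hw]; exact hw
      · intro hw
        have h1 := hgw _ hw
        have h2 : g * w * g⁻¹ = w := by
          have h3 : g * (g * w * g⁻¹) * g⁻¹ = g * w * g⁻¹ := h1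
          exact mul_left_cancel (mul_right_cancel h3)
        rw [← h2]; exact hw
    have hinf : zpowers t ⊓ zpowers z = ⊥ := by
      have h1 : Nat.card (zpowers t ⊓ zpowers z : Subgroup G) ∣ 2 := by
        have := Subgroup.card_dvd_of_le (inf_le_left : zpowers t ⊓ zpowers z ≤ zpowers t)
        rwa [Nat.card_zpowers, hot] at this
      rcases (Nat.dvd_prime Nat.prime_two).1 h1 with h2 | h2
      · exact (Subgroup.card_eq_one).1 h2
      · exfalso
        have h3 : zpowers t ⊓ zpowers z = zpowers t :=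
          Subgroup.eq_of_le_of_card_ge inf_le_left (by rw [h2, Nat.card_zpowers, hot])
        have h4 : t ∈ zpowers t ⊓ zpowers z := by rw [h3]; exact mem_zpowers t
        exact ht.2 ((zpowers_le.2 hz.mem) h4.2)
    have hcard := Cfsg.Agent.Lib.Helper4.card_mul_card_eq_of_le_normalizer (zpowers t) (zpowers z) hnorm
    rw [hsup, hinf, Subgroup.card_bot, Nat.card_zpowers, Nat.card_zpowers, hot, hoz, mul_one] at hcard
    rw [← hcard]; norm_num

end

section
variable {G : Type*} [Group G] [Finite G] {n : ℕ} {u : G}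

theorem Ctx.commutator_le (h : Ctx 2 n u) : commutator G ≤ zpowers u := by
  have hn : (zpowers u).Normal := by
    constructor
    intro w hw g
    exact h.conj_mem g hw
  rw [commutator_eq_closure, closure_le]
  rintro _ ⟨a, b, rfl⟩
  have h1 := Cfsg.Agent.Lib.Helper4.commutator_centralizes_cyclic (zpowers u) a b
  apply h.cen
  exact (mem_centralizer_iff.1 h1 u (mem_zpowers u)).symm

theorem Ctx.char_two (h : Ctx 2 n u) (hn3 : 3 ≤ n) :
    (Cfsg.omegaOne 2 (centralizer (Cfsg.powerClosure 2 1 (zpowers u) : Set G))).Characteristic := by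
  by_cases hall : ∀ y : G, y ^ 2 = 1 → y * u ^ 2 = u ^ 2 * y
  · have h1 : Cfsg.omegaOne 2 (centralizer (Cfsg.powerClosure 2 1 (zpowers u) : Set G)) =
        Cfsg.omegaOne 2 (⊤ : Subgroup G) := by
      unfold Cfsg.omegaOne
      congr 1
      ext y
      constructor
      · rintro ⟨-, hy⟩
        exact ⟨mem_top y, hy⟩
      · rintro ⟨-, hy⟩
        exact ⟨(mem_M y).2 (hall y hy), hy⟩
    rw [h1]
    exact omegaOne_char 2 ⊤ (fun _ _ _ => mem_top _)
  · push Not at hall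
    obtain ⟨y, hy2, hyM⟩ := hall
    have hz := h.zc (by omega : 1 ≤ n)
    obtain ⟨z, hzdef⟩ : ∃ z, z = u ^ 2 ^ (n - 1) := ⟨_, rfl⟩
    rw [← hzdef] at hz
    have hd2 : (y * u * y⁻¹ * u) ^ 2 = 1 := by
      rcases h.two_cases (by omega) y (by rw [hy2]; exact one_mem _) with h0 | h0
      · exact absurd h0 hyM
      · exact h0
    have hdU : y * u * y⁻¹ * u ∈ zpowers u := mul_mem (h.nor y) (mem_zpowers u)
    have heG : y * u * y⁻¹ * u⁻¹ ∈ commutator G := by
      have : ⁅y, u⁆ ∈ commutator G := Subgroup.commutator_mem_commutator (mem_top y) (mem_top u)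
      exact this
    have hed : y * u * y⁻¹ * u⁻¹ = (y * u * y⁻¹ * u) * (u ^ 2)⁻¹ := by
      rw [pow_two]; group
    have hu2 : u ^ 2 ∈ commutator G := by
      by_cases hd1 : y * u * y⁻¹ * u = 1
      · rw [hed, hd1, one_mul] at heG
        simpa using inv_mem heG
      · have hdz := involution_unique u _ z hdU hz.mem hd2 hz.sq hd1 hz.ne
        rw [hed, hdz] at heG
        have hzG : z ∈ commutator G := by
          have h1 := pow_mem heG (2 ^ (n - 2))
          have hc : Commute z (u ^ 2)⁻¹ := (hz.cen _).symm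
          have he : Even (2 ^ (n - 2)) := Nat.even_pow.2 ⟨even_two, by omega⟩
          rw [hc.mul_pow, (zpow_parity hz.sq _).1 he, one_mul, inv_pow, ← pow_mul, ← pow_succ'] at h1
          have h2 : n - 2 + 1 = n - 1 := by omega
          rw [h2, ← hzdef, inv_of_sq hz.sq] at h1
          exact h1
        have h3 := mul_mem (inv_mem heG) hzG
        have h4 : (z * (u ^ 2)⁻¹)⁻¹ * z = u ^ 2 := by
          rw [mul_inv_rev, inv_inv, mul_assoc, inv_mul_cancel, mul_one]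
        rwa [h4] at h3
    have hchar : (commutator G).Characteristic := inferInstance
    have haut : ∀ ψ : G ≃* G, ∃ m : ℕ, ψ (u ^ 2) = (u ^ 2) ^ m := by
      intro ψ
      have h1 : ψ (u ^ 2) ∈ commutator G :=
        (characteristic_iff_map_le.1 hchar ψ) ⟨u ^ 2, hu2, rfl⟩
      obtain ⟨j, hj⟩ := exists_pow (h.commutator_le h1)
      have h2 : (ψ (u ^ 2)) ^ 2 ^ (n - 1) = 1 := by
        rw [← map_pow, ← pow_mul, ← pow_succ']
        have : n - 1 + 1 = n := by omega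
        rw [this, ← h.ord, pow_orderOf_eq_one, map_one]
      rw [← hj, ← pow_mul] at h2
      have h3 := orderOf_dvd_of_pow_eq_one h2
      have hpow : (2 : ℕ) ^ n = 2 * 2 ^ (n - 1) := by rw [← pow_succ']; congr 1; omega
      rw [h.ord, hpow] at h3
      obtain ⟨m, rfl⟩ := Nat.dvd_of_mul_dvd_mul_right (by positivity) h3
      exact ⟨m, by rw [← hj, pow_mul]⟩
    apply omegaOne_char
    intro φ x hx
    rw [mem_M] at hx ⊢
    obtain ⟨m, hm⟩ := haut φ.symm
    have h1 : u ^ 2 = (φ (u ^ 2)) ^ m := by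
      rw [← map_pow, ← hm, MulEquiv.apply_symm_apply]
    have h2 : Commute (φ x) (φ (u ^ 2)) := by
      show φ x * φ (u ^ 2) = φ (u ^ 2) * φ x
      rw [← map_mul, ← map_mul, hx]
    rw [h1]
    exact (h2.pow_right m).eq

end

section
variable {G : Type*} [Group G] [Finite G] {n : ℕ} {u : G}

theorem index_two_of {U : Subgroup G} (g : G) (hg : g ∉ U)
    (hmul : ∀ a b, a ∉ U → b ∉ U → a * b ∈ U) : U.index = 2 := by
  rw [index_eq_two_iff]
  refine ⟨g, fun b => ?_⟩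
  by_cases hb : b ∈ U
  · right; exact ⟨hb, fun h0 => hg ((mul_mem_cancel_left hb).1 h0)⟩
  · left; exact ⟨hmul b g hb hg, hb⟩

theorem Ctx.case_n2 (h : Ctx 2 2 u) (a b : G) (ha : a ∉ zpowers u) (hb : b ∉ zpowers u) :
    a * b ∈ zpowers u := by
  have hc : ∀ y : G, y * u ^ 2 = u ^ 2 * y := by
    apply h.central (pow_mem (mem_zpowers u) 2)
    rw [← pow_mul]
    have := pow_orderOf_eq_one u
    rw [h.ord] at this
    exact this
  have h1 := h.inv_mul_mem (h.zc (by norm_num)) (MU.inv ⟨hc a, ha⟩) ⟨hc b, hb⟩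
  rwa [inv_inv] at h1

theorem Ctx.conj_sq_of_d (h : Ctx 2 n u) (g : G) (hd : (g * u * g⁻¹ * u) ^ 2 = 1) (j : ℕ) :
    g * (u ^ 2) ^ j * g⁻¹ = ((u ^ 2) ^ j)⁻¹ := by
  have h1 : g * u * g⁻¹ = (g * u * g⁻¹ * u) * u⁻¹ := by group
  have h2 : Commute (g * u * g⁻¹ * u) u⁻¹ :=
    comm_U (mul_mem (h.nor g) (mem_zpowers u)) (inv_mem (mem_zpowers u))
  rw [← conj_pow, ← conj_pow, h1, h2.mul_pow, hd, one_mul, inv_pow, inv_pow]

theorem Ctx.d_sq (h : Ctx 2 n u) (hn3 : 3 ≤ n) (hno : ∀ x, x * u ^ 2 = u ^ 2 * x → x ∈ zpowers u)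
    (g : G) (hg : g ∉ zpowers u) : (g * u * g⁻¹ * u) ^ 2 = 1 := by
  obtain ⟨i, hy1, hy2⟩ := h.exists_x g hg
  have hy3 : (g ^ 2 ^ i * u * (g ^ 2 ^ i)⁻¹ * u) ^ 2 = 1 := by
    rcases h.two_cases (by omega) _ hy2 with h0 | h0
    · exact absurd (hno _ h0) hy1
    · exact h0
  rcases Nat.eq_zero_or_pos i with rfl | hi
  · simpa using hy3
  · exfalso
    obtain ⟨i', rfl⟩ : ∃ i', i = i' + 1 := ⟨i - 1, by omega⟩
    obtain ⟨k, hk1, hk⟩ := h.exists_exp (by omega) (g ^ 2 ^ i')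
    have h1 := conj_pow_exp _ u k hk 2
    rw [← pow_mul, ← pow_succ] at h1
    rw [h1, ← pow_succ, ← pow_mul] at hy3
    have h2 := orderOf_dvd_of_pow_eq_one hy3
    have hpow : (2 : ℕ) ^ n = 2 ^ (n - 3) * 4 * 2 := by
      have : (2 : ℕ) ^ (n - 3) * 4 * 2 = 2 ^ (n - 3) * 2 ^ 3 := by ring
      rw [this, ← pow_add]; congr 1; omega
    rw [h.ord, hpow] at h2
    have h3 : 2 ^ (n - 3) * 4 ∣ k ^ 2 + 1 := Nat.dvd_of_mul_dvd_mul_right (by norm_num) h2
    have h4 : 4 ∣ k ^ 2 + 1 := (dvd_mul_left 4 _).trans h3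
    rcases Nat.even_or_odd' k with ⟨c, rfl | rfl⟩
    · have : (2 * c) ^ 2 + 1 = 4 * (c * c) + 1 := by ring
      omega
    · have : (2 * c + 1) ^ 2 + 1 = 4 * (c * c + c) + 2 := by ring
      omega

theorem Ctx.mul_mem_of_no (h : Ctx 2 n u) (hn3 : 3 ≤ n)
    (hno : ∀ x, x * u ^ 2 = u ^ 2 * x → x ∈ zpowers u) (a b : G) (ha : a ∉ zpowers u)
    (hb : b ∉ zpowers u) : a * b ∈ zpowers u := by
  apply hno
  have h1 := h.conj_sq_of_d a (h.d_sq hn3 hno a ha) 1
  have h2 := h.conj_sq_of_d b (h.d_sq hn3 hno b hb) 1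
  rw [pow_one] at h1 h2
  have h3 : a * b * u ^ 2 * (a * b)⁻¹ = u ^ 2 := by
    calc a * b * u ^ 2 * (a * b)⁻¹ = a * (b * u ^ 2 * b⁻¹) * a⁻¹ := by group
      _ = a * (u ^ 2)⁻¹ * a⁻¹ := by rw [h2]
      _ = (a * u ^ 2 * a⁻¹)⁻¹ := by group
      _ = u ^ 2 := by rw [h1, inv_inv]
  exact mul_inv_eq_iff_eq_mul.1 h3

theorem Ctx.first_alt (h : Ctx 2 n u) (hn2 : 2 ≤ n) (hidx : (zpowers u).index = 2)
    (hna : ∃ x y : G, x * y ≠ y * x)
    (hd : 3 ≤ n → ∃ g, g ∉ zpowers u ∧ (g * u * g⁻¹ * u) ^ 2 = 1) :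
    Nat.card G = 2 ^ (n + 1) ∧ ((∃ m : ℕ, Nonempty (G ≃* DihedralGroup m)) ∨
      (∃ m : ℕ, Nonempty (G ≃* QuaternionGroup m)) ∨ Cfsg.IsQuasiDihedral G) := by
  have hcard : Nat.card G = 2 ^ (n + 1) := by
    have h1 := (zpowers u).card_mul_index
    rw [hidx, Nat.card_zpowers, h.ord] at h1
    rw [← h1, pow_succ]
  refine ⟨hcard, ?_⟩
  obtain ⟨a, b, ha, hb, hcases⟩ := Cfsg.Agent.S0646.result (n + 1) (by omega) hcard (zpowers u)
    inferInstance hidx hna
  have e1 : n + 1 - 1 = n := by omega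
  have e2 : n + 1 - 2 = n - 1 := by omega
  rw [e1] at ha
  rw [e2] at hcases
  have hpow1 : (2 : ℕ) ^ (n + 1) = 2 * 2 ^ n := pow_succ' 2 n
  have hpow2 : (2 : ℕ) ^ n = 2 * 2 ^ (n - 1) := by rw [← pow_succ']; congr 1; omega
  rcases hcases with ⟨hb2, hba⟩ | ⟨hb2, hba⟩ | ⟨h4, hb2, hba⟩ | ⟨h4, hb2, hba⟩
  · left
    exact ⟨2 ^ n, Cfsg.Agent.Lib.Helper23.nonempty_mulEquiv_dihedralGroup (2 ^ n) a b ha
      (by rw [← pow_two]; exact hb2) hba hb (by rw [hcard, hpow1])⟩
  · right; left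
    exact ⟨2 ^ (n - 1), Cfsg.Agent.Lib.Helper23.nonempty_mulEquiv_quaternionGroup (2 ^ (n - 1)) a b
      (by rw [ha, hpow2]) (by rw [← pow_two]; exact hb2) hba hb (by rw [hcard, hpow1, hpow2]; ring)⟩
  · exfalso
    have hn3 : 3 ≤ n := by omega
    obtain ⟨g, hgU, hd2⟩ := hd hn3
    have hbw : Commute b (a ^ 2) := by
      have h1 : b * a ^ 2 * b⁻¹ = a ^ 2 := by
        rw [← conj_pow, hba, ← pow_mul]
        have : (1 + 2 ^ (n - 1)) * 2 = 2 + 2 ^ n := by rw [hpow2]; ring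
        rw [this, pow_add, ← ha, pow_orderOf_eq_one, mul_one]
      exact mul_inv_eq_iff_eq_mul.1 h1
    have hidxa : (zpowers a).index = 2 := by
      have h1 := (zpowers a).card_mul_index
      rw [Nat.card_zpowers, ha, hcard, hpow1, mul_comm 2] at h1
      exact Nat.eq_of_mul_eq_mul_left (by positivity) h1
    have hcen : ∀ y : G, Commute y (a ^ 2) := by
      intro y
      by_cases hy : y ∈ zpowers a
      · exact comm_U hy (pow_mem (mem_zpowers a) 2)
      · have h1 : y * b ∈ zpowers a := by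
          rw [mul_mem_iff_of_index_two hidxa]
          exact ⟨fun h0 => absurd h0 hy, fun h0 => absurd h0 hb⟩
        have h2 : Commute (y * b) (a ^ 2) := comm_U h1 (pow_mem (mem_zpowers a) 2)
        have h3 : y = (y * b) * b⁻¹ := by group
        rw [h3]
        exact h2.mul_left hbw.inv_left
    have hwU : a ^ 2 ∈ zpowers u := h.cen _ (hcen u).eq.symm
    obtain ⟨j, hj⟩ := exists_pow hwU
    have h2 : (a ^ 2) ^ 2 ^ (n - 1) = 1 := by
      rw [← pow_mul, ← hpow2, ← ha, pow_orderOf_eq_one]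
    rw [← hj, ← pow_mul] at h2
    have h3 := orderOf_dvd_of_pow_eq_one h2
    rw [h.ord, hpow2] at h3
    obtain ⟨m, rfl⟩ := Nat.dvd_of_mul_dvd_mul_right (by positivity) h3
    rw [pow_mul] at hj
    have h5 := h.conj_sq_of_d g hd2 m
    rw [hj, (hcen g).eq, mul_inv_cancel_right] at h5
    have h6 : a ^ 4 = 1 := by
      have h7 : a ^ 2 * a ^ 2 = 1 := by
        nth_rewrite 1 [h5]
        exact inv_mul_cancel _
      rw [← pow_add] at h7
      exact h7
    have h8 := orderOf_dvd_of_pow_eq_one h6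
    rw [ha] at h8
    have h9 := Nat.le_of_dvd (by norm_num) h8
    have h10 : 2 ^ 3 ≤ 2 ^ n := Nat.pow_le_pow_right (by norm_num) hn3
    omega
  · right; right
    refine ⟨n, by omega, hcard, a, b, ha, ?_, hba⟩
    exact orderOf_eq_prime hb2 (by rintro rfl; exact hb (one_mem _))

end

/-- Let G be a finite non-abelian p-group with a cyclic normal subgroup U of order p^n such that C_G(U) = U. Then either p = 2 and G is dihedral, generalized quaternion or semidihedral of order 2^(n+1); or, writing U₁ for the subgroup generated by the p-th powers of elements of U and M = C_G(U₁), the subgroup U has index p in M and the subgroup Ω₁(M) generated by the elements of M of order dividing p is elementary abelian of order p² and characteristic in G. -/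
theorem result {G : Type*} [Group G] [Finite G] {p : ℕ} [Fact p.Prime] (hG : IsPGroup p G) (hna : ¬ IsMulCommutative G) (U : Subgroup G) [U.Normal] (hU : IsCyclic U) (n : ℕ) (hUn : Nat.card U = p ^ n) (hC : Subgroup.centralizer (U : Set G) = U) : (p = 2 ∧ Nat.card G = 2 ^ (n + 1) ∧ ((∃ m : ℕ, Nonempty (G ≃* DihedralGroup m)) ∨ (∃ m : ℕ, Nonempty (G ≃* QuaternionGroup m)) ∨ Cfsg.IsQuasiDihedral G)) ∨ (U.relIndex (Subgroup.centralizer (Cfsg.powerClosure p 1 U : Set G)) = p ∧ Cfsg.IsElementaryAbelian p (Cfsg.omegaOne p (Subgroup.centralizer (Cfsg.powerClosure p 1 U : Set G))) ∧ Nat.card ↥(Cfsg.omegaOne p (Subgroup.centralizer (Cfsg.powerClosure p 1 U : Set G))) = p ^ 2 ∧ (Cfsg.omegaOne p (Subgroup.centralizer (Cfsg.powerClosure p 1 U : Set G))).Characteristic) := by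
  have hp : p.Prime := Fact.out
  obtain ⟨u, rfl⟩ := exists_gen U hU
  have hctx : Ctx p n u := ⟨hG, by rw [← Nat.card_zpowers, hUn],
    fun g => (inferInstance : (zpowers u).Normal).conj_mem u (mem_zpowers u) g, fun g hg => by
      rw [← hC, mem_centralizer_iff]
      rintro _ ⟨k, rfl⟩
      exact ((show Commute g u from hg).zpow_right k).eq.symm⟩
  have hex : ∃ g, g ∉ zpowers u := by
    by_contra hcon
    push Not at hcon
    apply hna
    exact ⟨⟨fun a b => comm_U (hcon a) (hcon b)⟩⟩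
  obtain ⟨g, hg⟩ := hex
  have hn1 : 1 ≤ n := by
    by_contra h0
    have h1 : n = 0 := by omega
    subst h1
    apply hg
    apply hctx.cen
    have h2 : u = 1 := orderOf_eq_one_iff.1 (by rw [hctx.ord, pow_zero])
    rw [h2, mul_one, one_mul]
  by_cases hp2 : p = 2
  · subst hp2
    have hn2 : 2 ≤ n := by
      by_contra h0
      have h1 : n = 1 := by omega
      subst h1
      apply hg
      apply hctx.cen
      have h2 := pow_orderOf_eq_one u
      rw [hctx.ord, pow_one] at h2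
      exact hctx.central (mem_zpowers u) h2 g
    have hna' : ∃ x y : G, x * y ≠ y * x := by
      by_contra hcon
      push Not at hcon
      exact hna ⟨⟨hcon⟩⟩
    by_cases hcase : 3 ≤ n ∧ ∃ x, MU u x
    · right
      obtain ⟨hn3, x, hx⟩ := hcase
      obtain ⟨t, ht, ht2⟩ := hctx.exists_invol hn3 hx
      have hz := hctx.zc hn1
      obtain ⟨hE, hcard⟩ := hctx.omega_struct hn3 hz ht ht2
      exact ⟨hctx.relIndex_eq x hx.1 hx.2, hE, hcard, hctx.char_two hn3⟩
    · left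
      refine ⟨rfl, ?_⟩
      rcases Nat.lt_or_ge n 3 with hlt | hn3
      · have h1 : n = 2 := by omega
        subst h1
        exact hctx.first_alt le_rfl
          (index_two_of g hg (fun a b ha hb => hctx.case_n2 a b ha hb)) hna'
          (fun h => absurd h (by norm_num))
      · have hno : ∀ x, x * u ^ 2 = u ^ 2 * x → x ∈ zpowers u := by
          intro x hx
          by_contra hxU
          exact hcase ⟨hn3, x, hx, hxU⟩
        exact hctx.first_alt hn2 (index_two_of g hg (hctx.mul_mem_of_no hn3 hno)) hna'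
          (fun _ => ⟨g, hg, hctx.d_sq hn3 hno g hg⟩)
  · right
    exact hctx.odd_case hp2 hn1 g hg

end Cfsg.Agent.S3761
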