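import Cfsg.Statements.S3763
import Cfsg.Agent.Lib.Helper19.ESE

set_option autoImplicit false
open Cfsg

namespace Cfsg.Agent.S3763

open Cfsg.Agent.Lib.Helper19.ES

theorem prank_iff {E : Type*} [Group E] [Finite E] {ρ : ℕ}
    (h1 : ∃ A : Subgroup E, Cfsg.IsElementaryAbelian 2 A ∧ Nat.card A = 2 ^ ρ)
    (h2 : ∀ B : Subgroup E, Cfsg.IsElementaryAbelian 2 B → Nat.card B ≤ 2 ^ ρ) (k : ℕ) :
    Cfsg.PRankLE 2 k E ↔ ρ ≤ k := by
  constructor
  · intro h
    obtain ⟨A, hA, hc⟩ := h1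
    have := h A hA.1 hA.2
    rw [hc] at this
    exact (Nat.pow_le_pow_iff_right (by norm_num)).1 this
  · intro h A hA1 hA2
    exact (h2 A ⟨hA1, hA2⟩).trans (Nat.pow_le_pow_right (by norm_num) h)

/-- Let E be an extraspecial 2-group of order 2^(2n+1). Then the largest elementary abelian subgroups of E have order 2^n or 2^(n+1); and two extraspecial 2-groups of the same order whose largest elementary abelian subgroups have the same order are isomorphic. -/
theorem result {E : Type*} [Group E] [Finite E] (hE : Cfsg.IsExtraspecial 2 E) (n : ℕ) (hn : Nat.card E = 2 ^ (2 * n + 1)) : ((Cfsg.PRankLE 2 n E ∧ ¬ Cfsg.PRankLE 2 (n - 1) E) ∨ (Cfsg.PRankLE 2 (n + 1) E ∧ ¬ Cfsg.PRankLE 2 n E)) ∧ ∀ (E' : Type*) [Group E'] [Finite E'], Cfsg.IsExtraspecial 2 E' → Nat.card E' = Nat.card E → (∀ k : ℕ, Cfsg.PRankLE 2 k E ↔ Cfsg.PRankLE 2 k E') → Nonempty (E ≃* E') := by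
  obtain ⟨m, hm, hcard⟩ := card_form hE
  have hmn : m = n := by
    rw [hn] at hcard
    have := Nat.pow_right_injective (le_refl 2) hcard
    omega
  subst hmn
  obtain ⟨ρ, hρ, hex, hle⟩ := rank_summary hE m hn
  have hP := prank_iff hex hle
  refine ⟨?_, ?_⟩
  · rcases hρ with ⟨-, h2⟩ | ⟨-, h2⟩
    · right; rw [hP, hP]; omega
    · left; rw [hP, hP]; omega
  · intro E' _ _ hE' hc hk
    obtain ⟨ρ', hρ', hex', hle'⟩ := rank_summary hE' m (by rw [hc, hn])
    have hP' := prank_iff hex' hle'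
    have hρρ : ρ = ρ' := by
      have a1 := (hk ρ).1 ((hP ρ).2 le_rfl)
      have a2 := (hk ρ').2 ((hP' ρ').2 le_rfl)
      rw [hP'] at a1
      rw [hP] at a2
      omega
    apply iso_of_SS hE hE' hc.symm
    rcases hρ with ⟨h1, h2⟩ | ⟨h1, h2⟩ <;> rcases hρ' with ⟨h3, h4⟩ | ⟨h3, h4⟩
    · rw [h1, h3]
    · omega
    · omega
    · rw [h1, h3]

end Cfsg.Agent.S3763
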