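import Cfsg.Statements.S3766
import Mathlib
import Cfsg.Agent.Lib.Helper9.Layer
import Cfsg.Agent.Lib.Helper1.Cores
import Cfsg.Agent.Lib.Helper20.Fitting

set_option autoImplicit false
open Cfsg Cfsg.Agent.Lib.Helper1 commutatorElement

namespace Cfsg.Agent.S3766


def IsChief {G : Type*} [Group G] (U V : Subgroup G) : Prop :=
  U.Normal ∧ V.Normal ∧ V < U ∧ ∀ W : Subgroup G, W.Normal → V ≤ W → W ≤ U → W = V ∨ W = U

theorem comm_sup_le {G : Type*} [Group G] {A B C T : Subgroup G} (hT : T.Normal) (hA : ⁅A, C⁆ ≤ T)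
    (hB : ⁅B, C⁆ ≤ T) : ⁅A ⊔ B, C⁆ ≤ T := by
  rw [Subgroup.commutator_le] at hA hB ⊢
  intro x hx
  rw [Subgroup.sup_eq_closure] at hx
  induction hx using Subgroup.closure_induction with
  | mem x hx =>
    rcases hx with hx | hx
    · exact hA x hx
    · exact hB x hx
  | one => intro c _; rw [commutatorElement_one_left]; exact one_mem _
  | mul x y _ _ hx hy =>
    intro c hc
    have h0 : ⁅x * y, c⁆ = x * ⁅y, c⁆ * x⁻¹ * ⁅x, c⁆ := by
      simp only [commutatorElement_def]; group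
    rw [h0]
    exact mul_mem (hT.conj_mem _ (hy c hc) x) (hx c hc)
  | inv x _ hx =>
    intro c hc
    have h0 : ⁅x⁻¹, c⁆ = x⁻¹ * ⁅x, c⁆⁻¹ * x⁻¹⁻¹ := by
      simp only [commutatorElement_def]; group
    rw [h0]
    exact hT.conj_mem _ (inv_mem (hx c hc)) x⁻¹

theorem lcs_normal {G : Type*} [Group G] (F : Subgroup G) [hF : F.Normal] (n : ℕ) :
    (F.lowerCentralSeries n).Normal := by
  induction n with
  | zero => exact hF
  | succ n ih =>
    rw [Subgroup.lowerCentralSeries_succ]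
    infer_instance

/-- a nilpotent normal subgroup centralizes every chief factor -/
theorem cf1 {G : Type*} [Group G] (F : Subgroup G) [hF : F.Normal] (hnil : Group.IsNilpotent F)
    {U V : Subgroup G} (h : IsChief U V) : ⁅U, F⁆ ≤ V := by
  obtain ⟨hU, hV, hlt, hmax⟩ := h
  have hUF : ⁅U, F⁆ ≤ U := Subgroup.commutator_le_left U F
  rcases hmax (⁅U, F⁆ ⊔ V) inferInstance le_sup_right (sup_le hUF hlt.le) with h1 | h1
  · rw [← h1]; exact le_sup_left
  · exfalso
    obtain ⟨c, hc⟩ := (Subgroup.isNilpotent_iff_lowerCentralSeries F).1 hnil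
    have key : ∀ j : ℕ, U ≤ F.lowerCentralSeries j ⊔ V := by
      intro j
      induction j with
      | zero =>
        rw [Subgroup.lowerCentralSeries_zero]
        conv_lhs => rw [← h1]
        exact sup_le_sup_right (Subgroup.commutator_le_right U F) V
      | succ j ih =>
        haveI := lcs_normal F (j + 1)
        have h2 : ⁅F.lowerCentralSeries j ⊔ V, F⁆ ≤ F.lowerCentralSeries (j + 1) ⊔ V :=
          comm_sup_le inferInstance (by rw [Subgroup.lowerCentralSeries_succ]; exact le_sup_left)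
            ((Subgroup.commutator_le_left V F).trans le_sup_right)
        conv_lhs => rw [← h1]
        exact sup_le ((Subgroup.commutator_mono ih le_rfl).trans h2) le_sup_right
    have h3 := key c
    rw [hc, bot_sup_eq] at h3
    exact absurd h3 (not_le_of_gt hlt)

theorem exists_chief {G : Type*} [Group G] [Finite G] (Y : Subgroup G) (hY : Y.Normal) (hne : Y ≠ ⊥) :
    ∃ V : Subgroup G, IsChief Y V := by
  have hfin : ({V : Subgroup G | V.Normal ∧ V < Y}).Finite := Set.toFinite _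
  obtain ⟨V, hV⟩ := hfin.exists_maximal ⟨⊥, inferInstance, bot_lt_iff_ne_bot.2 hne⟩
  refine ⟨V, hY, hV.1.1, hV.1.2, ?_⟩
  intro W hW hVW hWY
  by_cases h : W = Y
  · exact Or.inr h
  · left
    exact le_antisymm (hV.2 ⟨hW, lt_of_le_of_ne hWY h⟩ hVW) hVW

theorem nil_aux {G : Type*} [Group G] [Finite G] (F M : Subgroup G) [hM : M.Normal]
    (hcen : ∀ U V : Subgroup G, IsChief U V → U ≤ F → ⁅U, M⁆ ≤ V) :
    ∀ (n : ℕ) (Y : Subgroup G), Nat.card Y = n → Y.Normal → Y ≤ F → ∀ k : ℕ, M.lowerCentralSeries k ≤ Y →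
      ∃ m : ℕ, M.lowerCentralSeries m = ⊥ := by
  intro n
  induction n using Nat.strong_induction_on with
  | _ n ih =>
  intro Y hn hY hYF k hk
  by_cases hb : Y = ⊥
  · exact ⟨k, by rw [eq_bot_iff, ← hb]; exact hk⟩
  · obtain ⟨V, hV⟩ := exists_chief Y hY hb
    have h1 : ⁅Y, M⁆ ≤ V := hcen Y V hV hYF
    have h2 : ⁅Y, M⁆ < Y := lt_of_le_of_lt h1 hV.2.2.1
    exact ih _ (hn ▸ card_lt_of_lt h2) ⁅Y, M⁆ rfl inferInstance (h2.le.trans hYF) (k + 1)
      (by rw [Subgroup.lowerCentralSeries_succ]; exact Subgroup.commutator_mono hk le_rfl)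


/-- Let G be a finite solvable group and N a normal subgroup of G. Call a pair V < U of normal subgroups of G a chief factor of G when no normal subgroup of G lies strictly between them; an element g centralizes the chief factor U/V when u g u⁻¹ g⁻¹ ∈ V for all u ∈ U. Then an element of G lies in the Fitting subgroup F(N) if and only if it lies in N and centralizes every chief factor of G; and also if and only if it lies in N and centralizes every chief factor U/V of G with U ≤ F(N). -/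
theorem result {G : Type*} [Group G] [Finite G] (hG : Group.IsSolvable G) (N : Subgroup G) [N.Normal] (g : G) : (g ∈ (Cfsg.fittingSubgroup ↥N).map N.subtype ↔ g ∈ N ∧ ∀ U V : Subgroup G, (U.Normal ∧ V.Normal ∧ V < U ∧ ∀ W : Subgroup G, W.Normal → V ≤ W → W ≤ U → W = V ∨ W = U) → ∀ u ∈ U, u * g * u⁻¹ * g⁻¹ ∈ V) ∧ (g ∈ (Cfsg.fittingSubgroup ↥N).map N.subtype ↔ g ∈ N ∧ ∀ U V : Subgroup G, (U.Normal ∧ V.Normal ∧ V < U ∧ ∀ W : Subgroup G, W.Normal → V ≤ W → W ≤ U → W = V ∨ W = U) → U ≤ (Cfsg.fittingSubgroup ↥N).map N.subtype → ∀ u ∈ U, u * g * u⁻¹ * g⁻¹ ∈ V) := by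
  have hFeq : (Cfsg.fittingSubgroup ↥N).map N.subtype = Cfsg.fittingSubgroup G ⊓ N :=
    Cfsg.Agent.Lib.Helper9.map_fitting_eq (Subgroup.Normal.isSubnormal inferInstance)
  rw [hFeq]
  haveI hFGn : (Cfsg.fittingSubgroup G).Normal := Cfsg.Agent.Lib.Helper20.fitting_normal
  have hFn : (Cfsg.fittingSubgroup G ⊓ N).Normal := inferInstance
  have hFnil : Group.IsNilpotent ↥(Cfsg.fittingSubgroup G ⊓ N) := by
    obtain ⟨c, hc⟩ := (Subgroup.isNilpotent_iff_lowerCentralSeries _).1
      (Cfsg.Agent.Lib.Helper20.fitting_isNilpotent (G := G))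
    apply Subgroup.isNilpotent_of_lowerCentralSeries_eq_bot (n := c)
    rw [eq_bot_iff, ← hc]
    exact Subgroup.lowerCentralSeries_mono c inf_le_left
  have h12 : g ∈ Cfsg.fittingSubgroup G ⊓ N → g ∈ N ∧ ∀ U V : Subgroup G, (U.Normal ∧ V.Normal ∧ V < U ∧
      ∀ W : Subgroup G, W.Normal → V ≤ W → W ≤ U → W = V ∨ W = U) → ∀ u ∈ U, u * g * u⁻¹ * g⁻¹ ∈ V := by
    intro hg
    refine ⟨hg.2, ?_⟩
    intro U V hUV u hu
    exact cf1 _ hFnil hUV (Subgroup.commutator_mem_commutator hu hg)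
  have h31 : (g ∈ N ∧ ∀ U V : Subgroup G, (U.Normal ∧ V.Normal ∧ V < U ∧
      ∀ W : Subgroup G, W.Normal → V ≤ W → W ≤ U → W = V ∨ W = U) → U ≤ Cfsg.fittingSubgroup G ⊓ N →
        ∀ u ∈ U, u * g * u⁻¹ * g⁻¹ ∈ V) → g ∈ Cfsg.fittingSubgroup G ⊓ N := by
    intro hg
    let C : Subgroup G :=
      { carrier := {g | g ∈ N ∧ ∀ U V : Subgroup G, IsChief U V → U ≤ Cfsg.fittingSubgroup G ⊓ N →
          ∀ u ∈ U, ⁅u, g⁆ ∈ V}
        one_mem' := ⟨one_mem _, fun U V _ _ u _ => by rw [commutatorElement_one_right]; exact one_mem _⟩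
        mul_mem' := by
          rintro a b ⟨ha, ha'⟩ ⟨hb, hb'⟩
          refine ⟨mul_mem ha hb, fun U V hUV hU u hu => ?_⟩
          have h0 : ⁅u, a * b⁆ = ⁅u, a⁆ * (a * ⁅u, b⁆ * a⁻¹) := by
            simp only [commutatorElement_def]; group
          rw [h0]
          exact mul_mem (ha' U V hUV hU u hu) (hUV.2.1.conj_mem _ (hb' U V hUV hU u hu) a)
        inv_mem' := by
          rintro a ⟨ha, ha'⟩
          refine ⟨inv_mem ha, fun U V hUV hU u hu => ?_⟩
          have h0 : ⁅u, a⁻¹⁆ = a⁻¹ * ⁅u, a⁆⁻¹ * a⁻¹⁻¹ := by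
            simp only [commutatorElement_def]; group
          rw [h0]
          exact hUV.2.1.conj_mem _ (inv_mem (ha' U V hUV hU u hu)) a⁻¹ }
    have hCn : C.Normal := by
      constructor
      rintro a ⟨ha, ha'⟩ x
      refine ⟨(inferInstance : N.Normal).conj_mem a ha x, fun U V hUV hU u hu => ?_⟩
      have h0 : ⁅u, x * a * x⁻¹⁆ = x * ⁅x⁻¹ * u * x⁻¹⁻¹, a⁆ * x⁻¹ := by
        simp only [commutatorElement_def]; group
      rw [h0]
      exact hUV.2.1.conj_mem _ (ha' U V hUV hU _ (hUV.1.conj_mem u hu x⁻¹)) x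
    have hgC : g ∈ C := ⟨hg.1, fun U V hUV hU u hu => hg.2 U V hUV hU u hu⟩
    have hCF : C ≤ Cfsg.fittingSubgroup G ⊓ N := by
      by_contra hcon
      obtain ⟨M, hMn, hMC, hMF, hMM⟩ := exists_normal_le_commutator_le C _ hcon
      apply hMF
      have hcen : ∀ U V : Subgroup G, IsChief U V → U ≤ Cfsg.fittingSubgroup G ⊓ N → ⁅U, M⁆ ≤ V := by
        intro U V hUV hU
        rw [Subgroup.commutator_le]
        intro u hu m hm
        exact (hMC hm).2 U V hUV hU u hu
      obtain ⟨m, hm⟩ := nil_aux _ M hcen _ _ rfl hFn le_rfl 1 (by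
        rw [Subgroup.lowerCentralSeries_succ, Subgroup.lowerCentralSeries_zero]; exact hMM)
      have hMnil : Group.IsNilpotent M := Subgroup.isNilpotent_of_lowerCentralSeries_eq_bot hm
      exact le_inf (Cfsg.Agent.Lib.Helper20.le_fitting hMn hMnil) (fun y hy => (hMC hy).1)
    exact hCF hgC
  constructor
  · constructor
    · exact h12
    · intro h
      exact h31 ⟨h.1, fun U V hUV _ => h.2 U V hUV⟩
  · constructor
    · intro h
      have := h12 h
      exact ⟨this.1, fun U V hUV _ => this.2 U V hUV⟩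
    · exact h31

end Cfsg.Agent.S3766
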