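import Cfsg.Statements.S3768
import Mathlib
import Cfsg.Agent.S0035
import Cfsg.Agent.Lib.Lead.FrobConj
import Cfsg.Agent.Lib.Lead.FrobInv
import Cfsg.Agent.Lib.Helper1.Coprime

set_option autoImplicit false
open Cfsg Cfsg.Agent.Lib.Lead Cfsg.Agent.Lib.Helper1 Pointwise

namespace Cfsg.Agent.S3768




/-- Let G be a finite Frobenius group with Frobenius complement R and Frobenius kernel K (the identity together with the elements in no conjugate of R), and let N be a normal subgroup of G not containing K. Then G/N is a Frobenius group with Frobenius complement RN/N whose Frobenius kernel is the image of K. -/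
theorem result {G : Type*} [Group G] [Finite G] (R : Subgroup G) (hR : Cfsg.IsFrobeniusComplement R) (N : Subgroup G) [N.Normal] (hKN : ¬ Cfsg.frobeniusKernel R ⊆ N) : Cfsg.IsFrobeniusComplement (R.map (QuotientGroup.mk' N)) ∧ Cfsg.frobeniusKernel (R.map (QuotientGroup.mk' N)) = QuotientGroup.mk' N '' Cfsg.frobeniusKernel R := by
  obtain ⟨K, hK, hKn, hKc⟩ := Cfsg.Agent.S0035.result R hR
  set π := QuotientGroup.mk' N with hπ
  have hNK : N ≤ K := by
    rcases frob_normal_comparable hR hK hKn N inferInstance with h | h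
    · exact h
    · exfalso; apply hKN; rw [← hK]; exact h
  have hKR : K ⊓ R = ⊥ := frob_kernel_inf hK
  have hπ1 : ∀ x : G, π x = 1 ↔ x ∈ N := fun x => QuotientGroup.eq_one_iff x
  have hbasic : ∀ k ∈ K, ∀ r ∈ R, π k = π r → r = 1 ∧ k ∈ N := by
    intro k hk r hr h
    have h1 : r⁻¹ * k ∈ N := by rw [← hπ1, map_mul, map_inv, h]; simp
    have h2 : r ∈ K := by
      have h0 : r = k * (r⁻¹ * k)⁻¹ := by group
      rw [h0]; exact mul_mem hk (inv_mem (hNK h1))
    have h3 : r ∈ K ⊓ R := ⟨h2, hr⟩
    rw [hKR, Subgroup.mem_bot] at h3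
    refine ⟨h3, ?_⟩
    rw [h3] at h1; simpa using h1
  obtain ⟨k0, hk0K, hk0N⟩ : ∃ k ∈ K, k ∉ N := by
    by_contra hcon
    push Not at hcon
    apply hKN; rw [← hK]; exact hcon
  have hdecomp : ∀ g : G, ∃ k ∈ K, ∃ r ∈ R, g = k * r := fun g => Cfsg.Agent.Lib.Helper1.IsComplement'.exists_mul hKc g
  constructor
  · refine ⟨?_, ?_, ?_⟩
    · intro h
      apply hR.1
      rw [eq_bot_iff]
      intro r hr
      have h1 : π r ∈ R.map π := ⟨r, hr, rfl⟩
      rw [h, Subgroup.mem_bot] at h1
      exact (hbasic 1 K.one_mem r hr (by rw [map_one, h1])).1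
    · intro h
      have h1 : π k0 ∈ R.map π := h ▸ Subgroup.mem_top _
      obtain ⟨r, hr, hrk⟩ := h1
      exact hk0N (hbasic k0 hk0K r hr hrk.symm).2
    · intro g' hg'
      obtain ⟨g, rfl⟩ := QuotientGroup.mk'_surjective N g'
      obtain ⟨k, hk, r0, hr0, rfl⟩ := hdecomp g
      rw [eq_bot_iff]
      rintro x ⟨⟨r1, hr1, rfl⟩, hx2⟩
      have hx2' : π r1 ∈ MulAut.conj (π (k * r0)) • R.map π := hx2
      rw [mem_conj_smul] at hx2'
      obtain ⟨r2, hr2, h2⟩ := hx2'
      rw [Subgroup.mem_bot]
      by_contra hne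
      have hr11 : r1 ≠ 1 := by
        intro h; apply hne; rw [h, map_one]
      have hcK : k⁻¹ * (r1 * k * r1⁻¹) ∈ K := mul_mem (inv_mem hk) (hKn.conj_mem k hk r1)
      have h3 : π (k⁻¹ * (r1 * k * r1⁻¹)) = π (r0 * r2 * r0⁻¹ * r1⁻¹) := by
        have h4 : π (r0 * r2 * r0⁻¹ * r1⁻¹) = π r0 * π r2 * (π r0)⁻¹ * (π r1)⁻¹ := by
          simp only [map_mul, map_inv]
        rw [h4, h2]
        simp only [map_mul, map_inv]
        group
      obtain ⟨-, hcN⟩ := hbasic _ hcK _ (mul_mem (mul_mem (mul_mem hr0 hr2) (inv_mem hr0)) (inv_mem hr1)) h3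
      have hcomm : Commute (π k) (π r1) := by
        have h5 := (hπ1 _).2 hcN
        simp only [map_mul, map_inv] at h5
        have h6 : π r1 * π k = π k * π r1 := by
          calc π r1 * π k = π k * ((π k)⁻¹ * (π r1 * π k * (π r1)⁻¹)) * π r1 := by group
            _ = π k * π r1 := by rw [h5, mul_one]
        exact h6.symm
      have hcop : (Nat.card N).Coprime (Nat.card (Subgroup.zpowers r1)) := by
        have h7 := frob_coprime hR hK
        exact Nat.Coprime.coprime_dvd_left (Subgroup.card_dvd_of_le hNK)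
          (Nat.Coprime.coprime_dvd_right (Subgroup.card_dvd_of_le (Subgroup.zpowers_le.2 hr1)) h7)
      obtain ⟨n, hn, hkn⟩ := coprime_key N (Subgroup.zpowers r1)
        (by rw [Subgroup.normalizer_eq_top]; exact le_top) hcop (Or.inr inferInstance) k (by
          rintro _ ⟨i, rfl⟩
          rw [← hπ1]
          have h8 : Commute (π k) (π r1 ^ i) := hcomm.zpow_right i
          simp only [map_mul, map_inv, map_zpow]
          calc (π k)⁻¹ * π r1 ^ i * π k * (π r1 ^ i)⁻¹ = (π k)⁻¹ * (π r1 ^ i * π k) * (π r1 ^ i)⁻¹ := by group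
            _ = (π k)⁻¹ * (π k * π r1 ^ i) * (π r1 ^ i)⁻¹ := by rw [h8.eq]
            _ = 1 := by group)
      have h9 : r1 * (k * n) * r1⁻¹ = k * n := by
        have := Subgroup.mem_centralizer_iff.1 hkn r1 (Subgroup.mem_zpowers r1)
        rw [this]; group
      have h10 : k * n = 1 := frob_fpf hR hK hr1 hr11 (mul_mem hk (hNK hn)) h9
      apply hg'
      refine ⟨r0, hr0, ?_⟩
      have h11 : k ∈ N := by
        have : k = n⁻¹ := eq_inv_of_mul_eq_one_left h10
        rw [this]; exact inv_mem hn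
      change π r0 = π (k * r0)
      rw [map_mul, (hπ1 k).2 h11, one_mul]
  · ext x'
    obtain ⟨x, rfl⟩ := QuotientGroup.mk'_surjective N x'
    constructor
    · intro hx
      by_cases hxK : x ∈ Cfsg.frobeniusKernel R
      · exact ⟨x, hxK, rfl⟩
      · obtain ⟨-, g, hg⟩ := not_mem_frobeniusKernel_iff.1 hxK
        rcases hx with hx | hx
        · exact ⟨1, Or.inl rfl, by rw [map_one]; exact hx.symm⟩
        · exfalso
          apply hx (π g)
          rw [mem_conj_smul] at hg ⊢
          exact ⟨_, hg, by simp only [map_mul, map_inv]; rfl⟩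
    · rintro ⟨k, hk, hkx⟩
      have hkK : k ∈ K := by
        have : k ∈ (K : Set G) := hK ▸ hk
        exact this
      change π k = π x at hkx
      rw [← hkx]
      by_cases hk1 : π k = 1
      · exact Or.inl hk1
      · right
        intro g' hg'
        obtain ⟨g, rfl⟩ := QuotientGroup.mk'_surjective N g'
        rw [mem_conj_smul] at hg'
        obtain ⟨r, hr, hr2⟩ := hg'
        have h1 : g⁻¹ * k * g ∈ K := by
          have := hKn.conj_mem k hkK g⁻¹
          simpa using this
        have h2 : π (g⁻¹ * k * g) = π r := by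
          rw [hr2]; simp only [map_mul, map_inv]; rfl
        have h3 := (hbasic _ h1 r hr h2).2
        apply hk1
        rw [hπ1]
        have h4 := (inferInstance : N.Normal).conj_mem _ h3 g
        have h5 : g * (g⁻¹ * k * g) * g⁻¹ = k := by group
        rwa [h5] at h4

end Cfsg.Agent.S3768
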