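import Cfsg.Statements.S3771
import Mathlib
import Cfsg.Agent.Lib.Helper20.MaxAbelian
import Cfsg.Agent.Lib.Helper20.PGroup
import Cfsg.Agent.Lib.Helper20.Abelian
import Cfsg.Agent.Lib.Helper20.ConjClass

set_option autoImplicit false
open Cfsg Cfsg.Agent.Lib.Helper20

namespace Cfsg.Agent.S3771




/-- Let p be a prime and R a finite p-group of p-rank at most 2 (no elementary abelian subgroup of order p³) in which every element has order dividing p. Then R has order at most p³. -/
theorem result {R : Type*} [Group R] [Finite R] {p : ℕ} [Fact p.Prime] (hR : IsPGroup p R) (hrank : Cfsg.PRankLE p 2 R) (hexp : ∀ x : R, x ^ p = 1) : Nat.card R ≤ p ^ 3 := by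
  classical
  have hp : p.Prime := Fact.out
  haveI : Group.IsNilpotent R := hR.isNilpotent
  obtain ⟨A, hAn, hAc, -, hCA⟩ := exists_normal_abelian_self_centralizing (⊥ : Subgroup R) inferInstance inferInstance
  have hA2 : Nat.card A ≤ p ^ 2 := hrank A hAc (fun a _ => hexp a)
  obtain ⟨k, hk⟩ := (hR.to_subgroup A).exists_card_eq
  have hk2 : k ≤ 2 := (Nat.pow_le_pow_iff_right hp.one_lt).1 (hk ▸ hA2)
  by_cases hAZ : A ≤ Subgroup.center R
  · have h1 : Subgroup.centralizer (A : Set R) = ⊤ := Subgroup.centralizer_eq_top_iff_subset.2 hAZ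
    rw [hCA] at h1
    have h2 : Nat.card R = Nat.card A := by rw [h1, Subgroup.card_top]
    rw [h2]
    exact hA2.trans (Nat.pow_le_pow_right hp.pos (by omega))
  · have hk2' : k = 2 := by
      by_contra hne
      have : k = 0 ∨ k = 1 := by omega
      rcases this with rfl | rfl
      · apply hAZ
        rw [pow_zero, Subgroup.card_eq_one] at hk
        rw [hk]; exact bot_le
      · apply hAZ
        exact le_center_of_normal_of_card_eq_p hR A hAn (by rw [hk, pow_one])
    subst hk2'
    have hAne : A ≠ ⊥ := by
      rintro rfl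
      exact hAZ bot_le
    obtain ⟨z, hzA, hzc, hz1⟩ := normal_inf_center_ne_bot A hAne
    have hzo : orderOf z = p := orderOf_eq_prime (hexp z) hz1
    have hpp : p < p ^ 2 := by nlinarith [hp.one_lt]
    obtain ⟨a, haA, haz⟩ : ∃ a ∈ A, a ∉ Subgroup.zpowers z := by
      by_contra hcon
      push Not at hcon
      have h1 : A ≤ Subgroup.zpowers z := hcon
      have h2 := Subgroup.card_le_of_le h1
      rw [hk, Nat.card_zpowers, hzo] at h2
      omega
    have ha1 : a ≠ 1 := by
      rintro rfl
      exact haz (one_mem _)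
    have hao : orderOf a = p := orderOf_eq_prime (hexp a) ha1
    haveI hzn : (Subgroup.zpowers z).Normal := by
      constructor
      intro n hn g
      have h1 : Subgroup.zpowers z ≤ Subgroup.center R := Subgroup.zpowers_le.2 hzc
      have h2 := Subgroup.mem_center_iff.1 (h1 hn) g
      rw [h2]; simpa using hn
    have hsup : Subgroup.zpowers z ⊔ Subgroup.zpowers a = A := by
      apply Subgroup.eq_of_le_of_card_ge (sup_le (Subgroup.zpowers_le.2 hzA) (Subgroup.zpowers_le.2 haA))
      have h1 : (Subgroup.zpowers z).relIndex (Subgroup.zpowers z ⊔ Subgroup.zpowers a) = p := by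
        rw [Subgroup.relIndex_sup_left, ← Subgroup.inf_relIndex_right, zpowers_inf_zpowers_eq_bot hp hao haz,
          Subgroup.relIndex_bot_left, Nat.card_zpowers, hao]
      have h2 := card_mul_relIndex_of_le (le_sup_left : Subgroup.zpowers z ≤ Subgroup.zpowers z ⊔ Subgroup.zpowers a)
      rw [h1, Nat.card_zpowers, hzo] at h2
      rw [← h2, hk, sq]
    have hCa : Subgroup.centralizer ({a} : Set R) ≤ A := by
      intro g hg
      rw [← hCA, Subgroup.mem_centralizer_iff]
      have h1 : A ≤ Subgroup.centralizer ({g} : Set R) := by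
        rw [← hsup, sup_le_iff, Subgroup.zpowers_le, Subgroup.zpowers_le, Subgroup.mem_centralizer_singleton_iff,
          Subgroup.mem_centralizer_singleton_iff]
        refine ⟨(Subgroup.mem_center_iff.1 hzc g).symm, ?_⟩
        exact (Subgroup.mem_centralizer_singleton_iff.1 hg).symm
      intro b hb
      exact (Subgroup.mem_centralizer_singleton_iff.1 (h1 hb))
    have hidx : (Subgroup.centralizer ({a} : Set R)).index < p ^ 2 := by
      rw [← card_conjClass_eq_index, ← hk]
      apply Set.Finite.card_lt_card (s := {y : R | IsConj a y}) (t := (A : Set R)) (Set.toFinite _)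
      refine ⟨?_, ?_⟩
      · intro y hy
        obtain ⟨c, hc⟩ := isConj_iff.1 hy
        rw [← hc]
        exact hAn.conj_mem a haA c
      · intro hsub
        have h1 : IsConj a 1 := hsub (one_mem A)
        exact ha1 (isConj_one_left.1 h1)
    have hidx2 : (Subgroup.centralizer ({a} : Set R)).index ≤ p := by
      obtain ⟨n, hn⟩ := hR.exists_card_eq
      have h1 : (Subgroup.centralizer ({a} : Set R)).index ∣ p ^ n := hn ▸ Subgroup.index_dvd_card _
      obtain ⟨j, _, hj⟩ := (Nat.dvd_prime_pow hp).1 h1
      rw [hj] at hidx ⊢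
      have hj2 : j < 2 := (Nat.pow_lt_pow_iff_right hp.one_lt).1 hidx
      calc p ^ j ≤ p ^ 1 := Nat.pow_le_pow_right hp.pos (by omega)
        _ = p := pow_one p
    rw [← Subgroup.card_mul_index (Subgroup.centralizer ({a} : Set R))]
    calc _ ≤ p ^ 2 * p := Nat.mul_le_mul (hk ▸ Subgroup.card_le_of_le hCa) hidx2
      _ = p ^ 3 := by ring

end Cfsg.Agent.S3771
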