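import Cfsg.Statements.S3772
import Cfsg.Agent.Lib.Helper19.ESH
import Cfsg.Agent.Lib.Helper22.Frat
import Cfsg.Agent.Lib.Helper16.Frat

set_option autoImplicit false
open Cfsg

namespace Cfsg.Agent.S3772

open Cfsg.Agent.Lib.Helper19.ES
open scoped commutatorElement
open Classical

theorem q2_of_frattini {G : Type*} [Group G] [Finite G] (hG : IsPGroup 2 G) (hΦ : Nat.card (frattini G) = 2) :
    ∃ z : G, Q2 G z := by
  haveI : Fact (Nat.Prime 2) := ⟨Nat.prime_two⟩
  obtain ⟨⟨z, hzΦ⟩, hz1, huniq⟩ := (Nat.card_eq_two_iff' (1 : frattini G)).1 hΦ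
  have hz1' : z ≠ 1 := fun h => hz1 (Subtype.ext h)
  have hmem : ∀ g ∈ frattini G, g = 1 ∨ g = z := by
    intro g hg
    by_cases h1 : g = 1
    · exact Or.inl h1
    · right
      have := huniq ⟨g, hg⟩ (fun h => h1 (congrArg Subtype.val h))
      exact congrArg Subtype.val this
  have hzc : ∀ g : G, Commute z g := by
    intro g
    have hn : (frattini G).Normal := inferInstance
    have h1 := hn.conj_mem z hzΦ g
    rcases hmem _ h1 with h2 | h2
    · exfalso; apply hz1'
      have : g * z = g := by simpa using mul_inv_eq_one.1 h2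
      exact mul_left_cancel (a := g) (by rw [this, mul_one])
    · exact (mul_inv_eq_iff_eq_mul.1 h2).symm
  refine ⟨z, hz1', ?_, hzc, ?_, ?_⟩
  · rcases hmem _ (mul_mem hzΦ hzΦ) with h | h
    · exact h
    · exfalso; apply hz1'
      exact mul_left_cancel (a := z) (by rw [h, mul_one])
  · intro a
    have := Cfsg.Agent.Lib.Helper22.pow_mem_frattini hG a
    rw [sq] at this
    exact hmem _ this
  · intro a b
    have h1 : ⁅a, b⁆ ∈ frattini G := Cfsg.Agent.Lib.Helper22.commutator_le_frattini hG
      (Subgroup.commutator_mem_commutator (Subgroup.mem_top a) (Subgroup.mem_top b))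
    rw [commutatorElement_def] at h1
    rcases hmem _ h1 with h | h
    · left
      have h2 := mul_inv_eq_one.1 h
      exact mul_inv_eq_iff_eq_mul.1 h2
    · right
      have h2 := mul_inv_eq_iff_eq_mul.1 h
      have h3 := mul_inv_eq_iff_eq_mul.1 h2
      rw [h3, mul_assoc, (hzc (b * a)).eq]

theorem not_elab {G : Type*} [Group G] [Finite G] (hΦ : Nat.card (frattini G) = 2)
    (h1 : ∀ a b : G, a * b = b * a) (h2 : ∀ a : G, a * a = 1) : False := by
  haveI : Fact (Nat.Prime 2) := ⟨Nat.prime_two⟩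
  have h3 : frattini G ≤ ⊥ := by
    apply Cfsg.Agent.Lib.Helper16.frattini_le_of_elemAb (p := 2)
    · rw [commutator_def, Subgroup.commutator_le]
      intro a _ b _
      rw [Subgroup.mem_bot, commutatorElement_def, h1 a b, mul_inv_cancel_right, mul_inv_cancel]
    · intro x
      rw [Subgroup.mem_bot, sq, h2]
  rw [le_bot_iff.1 h3, Subgroup.card_bot] at hΦ
  omega

theorem centre_sum {G : Type*} [Group G] [Fintype G] {z : G} (hq : Q2 G z) :
    (∑ u : G, (if ∀ y, u * y = y * u then eps u else 0)) = 0 ∨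
    ((∑ u : G, (if ∀ y, u * y = y * u then eps u else 0)) = (Nat.card (Subgroup.center G) : ℤ) ∧
      ∀ u : G, (∀ y, u * y = y * u) → u * u = 1) := by
  have e1 : (∑ u : G, (if ∀ y, u * y = y * u then eps u else 0)) = ∑ u : Subgroup.center G, eps (u : G) := by
    rw [← Finset.sum_filter]
    apply Finset.sum_subtype
    intro x
    simp only [Finset.mem_filter, Finset.mem_univ, true_and, Subgroup.mem_center_iff]
    constructor
    · intro h y; exact (h y).symm
    · intro h y; exact (h y).symm
  rw [e1]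
  have e2 := sum_hom (fun u : Subgroup.center G => eps (u : G))
    (by
      intro a b
      show eps ((a : G) * (b : G)) = _
      rw [hq.eps_mul, chi_of_comm ((Subgroup.mem_center_iff.1 a.2 b).symm), mul_one])
    (fun a => eps_cases _)
  rw [e2]
  split_ifs with h
  · right
    refine ⟨by rw [Nat.card_eq_fintype_card], fun u hu => ?_⟩
    have h3 := h ⟨u, Subgroup.mem_center_iff.2 fun y => (hu y).symm⟩
    by_contra h4
    simp [eps, h4] at h3
  · left; rfl

/-- Let G be a finite 2-group whose Frattini subgroup Φ(G) has order 2, with |G : Φ(G)| = 2^d, and let j be the number of elements x of G with x² = 1. Then j = 2^d, or j = 2^d + 2^(d−r) or j = 2^d − 2^(d−r) for some positive integer r with 2r ≤ d. Moreover if d = 2r and j is 2^d + 2^r or 2^d − 2^r, then G is extraspecial. -/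
theorem result {G : Type*} [Group G] [Finite G] (hG : IsPGroup 2 G) (hΦ : Nat.card (frattini G) = 2) (d : ℕ) (hd : (frattini G).index = 2 ^ d) : (Nat.card {x : G // x ^ 2 = 1} = 2 ^ d ∨ ∃ r : ℕ, 1 ≤ r ∧ 2 * r ≤ d ∧ (Nat.card {x : G // x ^ 2 = 1} = 2 ^ d + 2 ^ (d - r) ∨ Nat.card {x : G // x ^ 2 = 1} + 2 ^ (d - r) = 2 ^ d)) ∧ (∀ r : ℕ, d = 2 * r → (Nat.card {x : G // x ^ 2 = 1} = 2 ^ d + 2 ^ r ∨ Nat.card {x : G // x ^ 2 = 1} + 2 ^ r = 2 ^ d) → Cfsg.IsExtraspecial 2 G) := by
  haveI : Fact (Nat.Prime 2) := ⟨Nat.prime_two⟩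
  haveI := Fintype.ofFinite G
  obtain ⟨z, hq⟩ := q2_of_frattini hG hΦ
  have hcard : Nat.card G = 2 ^ (d + 1) := by
    rw [← Subgroup.card_mul_index (frattini G), hΦ, hd]; ring
  have hgauss := hq.gauss
  rw [sum_eps', ← Nat.card_eq_fintype_card, hcard] at hgauss
  have hSS : SS G = 2 * (Nat.card {x : G // x ^ 2 = 1} : ℤ) - 2 ^ (d + 1) := by
    unfold SS; rw [hcard]; push_cast; ring
  set s := Nat.card {x : G // x ^ 2 = 1} with hs
  have hnotall : ¬ ((∀ a b : G, a * b = b * a) ∧ ∀ u : G, (∀ y, u * y = y * u) → u * u = 1) := by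
    rintro ⟨h1, h2⟩
    exact not_elab hΦ h1 (fun a => h2 a (h1 a))
  obtain ⟨j, hj⟩ := (IsPGroup.iff_card.1 (hG.to_subgroup (Subgroup.center G)))
  have hzcen : z ∈ Subgroup.center G := Subgroup.mem_center_iff.2 fun y => ((hq.zc y).eq).symm
  have hj1 : 1 ≤ j := by
    by_contra h0
    have h1 : j = 0 := by omega
    rw [h1, pow_zero] at hj
    have := (Subgroup.card_eq_one.1 hj)
    rw [this, Subgroup.mem_bot] at hzcen
    exact hq.z1 hzcen
  constructor
  · rcases centre_sum hq with hT | ⟨hT, hsq⟩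
    · left
      rw [hT, mul_zero] at hgauss
      have h0 : SS G = 0 := by simpa using hgauss
      rw [hSS] at h0
      have e : (2 : ℤ) ^ (d + 1) = 2 * ((2 ^ d : ℕ) : ℤ) := by push_cast; ring
      rw [e] at h0
      omega
    · right
      rw [hT, hj] at hgauss
      have hjd : j ≤ d := by
        have h1 : Nat.card (Subgroup.center G) ≤ Nat.card G := Subgroup.card_le_card_group _
        rw [hj, hcard] at h1
        have h2 : j ≤ d + 1 := (Nat.pow_le_pow_iff_right (by norm_num)).1 h1
        by_contra h3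
        have h4 : j = d + 1 := by omega
        have h5 : Subgroup.center G = ⊤ := Subgroup.eq_top_of_card_eq _ (by rw [hj, hcard, h4])
        apply hnotall
        refine ⟨fun a b => ?_, hsq⟩
        have : a ∈ Subgroup.center G := by rw [h5]; exact Subgroup.mem_top a
        exact (Subgroup.mem_center_iff.1 this b).symm
      have hn : (SS G).natAbs ^ 2 = 2 ^ (d + 1 + j) := by
        zify
        rw [sq_abs, hgauss]
        push_cast
        rw [← pow_add]
      have hdv : (SS G).natAbs ∣ 2 ^ (d + 1 + j) := by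
        rw [← hn]; exact dvd_pow_self _ (by norm_num)
      obtain ⟨t, -, ht⟩ := (Nat.dvd_prime_pow Nat.prime_two).1 hdv
      rw [ht, ← pow_mul] at hn
      have h2t : t * 2 = d + 1 + j := Nat.pow_right_injective (le_refl 2) hn
      obtain ⟨t', rfl⟩ : ∃ t', t = t' + 1 := ⟨t - 1, by omega⟩
      refine ⟨d - t', by omega, by omega, ?_⟩
      have hdr : d - (d - t') = t' := by omega
      rw [hdr]
      have e : (2 : ℤ) ^ (d + 1) = 2 * ((2 ^ d : ℕ) : ℤ) := by push_cast; ring
      have e' : ((2 ^ (t' + 1) : ℕ) : ℤ) = 2 * ((2 ^ t' : ℕ) : ℤ) := by push_cast; ring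
      rcases Int.natAbs_eq (SS G) with h | h
      · left
        rw [ht, hSS, e, e'] at h
        omega
      · right
        rw [ht, hSS, e, e'] at h
        omega
  · intro r hdr hsr
    have hS2 : (SS G) ^ 2 = 2 ^ (d + 1) * 2 := by
      have e : (2 : ℤ) ^ (d + 1) = 2 * ((2 ^ d : ℕ) : ℤ) := by push_cast; ring
      have h1 : SS G = 2 * ((2 ^ r : ℕ) : ℤ) ∨ SS G = - (2 * ((2 ^ r : ℕ) : ℤ)) := by
        rw [hSS, e]
        rcases hsr with h | h
        · left; omega
        · right; omega
      have h2 : (SS G) ^ 2 = 4 * (((2 ^ r : ℕ) : ℤ)) ^ 2 := by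
        rcases h1 with h1 | h1 <;> rw [h1] <;> ring
      rw [h2, hdr]
      push_cast
      ring
    rw [hS2] at hgauss
    have hpos : (0 : ℤ) < 2 ^ (d + 1) := by positivity
    push_cast at hgauss
    have hT2 := mul_left_cancel₀ (ne_of_gt hpos) hgauss
    rcases centre_sum hq with hT | ⟨hT, hsq⟩
    · rw [hT] at hT2; norm_num at hT2
    · rw [hT] at hT2
      have hZ2 : Nat.card (Subgroup.center G) = 2 := by exact_mod_cast hT2.symm
      obtain ⟨w, hw1, huniq⟩ := (Nat.card_eq_two_iff' (1 : Subgroup.center G)).1 hZ2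
      have hcen : ∀ g : G, (∀ k, g * k = k * g) → g = 1 ∨ g = z := by
        intro g hg
        by_cases h1 : g = 1
        · exact Or.inl h1
        · right
          have hgc : g ∈ Subgroup.center G := Subgroup.mem_center_iff.2 fun y => (hg y).symm
          have a1 := huniq ⟨g, hgc⟩ (fun h => h1 (congrArg Subtype.val h))
          have a2 := huniq ⟨z, hzcen⟩ (fun h => hq.z1 (congrArg Subtype.val h))
          exact congrArg Subtype.val (a1.trans a2.symm)
      have hES := IsES.mk2 hq hcen
      apply hES.to_extraspecial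
      by_contra hcon
      push Not at hcon
      exact hnotall ⟨hcon, hsq⟩

end Cfsg.Agent.S3772
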