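import Mathlib
import Cfsg.Statements.S3774

set_option autoImplicit false
open Cfsg

namespace Cfsg.Agent.S3774

theorem result {G : Type*} [Group G] [Finite G] [Nontrivial G] (hG : IsPGroup 2 G) (htrans : ∀ x y : G, x ≠ 1 → x ^ 2 = 1 → y ≠ 1 → y ^ 2 = 1 → ∃ a : MulAut G, a x = y) : (∀ x : G, x ^ 2 = 1 → x ∈ Subgroup.center G) ∧ ∃ m : ℕ, Nat.card G = Nat.card {z : G // z ^ 2 = 1} ^ m := by
  classical
  haveI : Fact (Nat.Prime 2) := ⟨Nat.prime_two⟩
  letI : Fintype G := Fintype.ofFinite G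
  have hord : ∀ x : G, x ≠ 1 → ∃ k, orderOf x = 2 ^ (k + 1) := by
    intro x hx
    obtain ⟨k, hk⟩ := (IsPGroup.iff_orderOf.1 hG) x
    cases k with
    | zero => exact absurd (orderOf_eq_one_iff.1 (by simpa using hk)) hx
    | succ k => exact ⟨k, hk⟩
  let f : G → G := fun x => x ^ (orderOf x / 2)
  have hf2 : ∀ x : G, x ≠ 1 → (f x) ^ 2 = 1 := by
    intro x hx
    obtain ⟨k, hk⟩ := hord x hx
    have : orderOf x / 2 * 2 = orderOf x := by rw [hk, pow_succ]; simp
    change (x ^ (orderOf x / 2)) ^ 2 = 1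
    rw [← pow_mul, this, pow_orderOf_eq_one]
  have hf1 : ∀ x : G, x ≠ 1 → f x ≠ 1 := by
    intro x hx
    obtain ⟨k, hk⟩ := hord x hx
    apply pow_ne_one_of_lt_orderOf
    · rw [hk, pow_succ]; simp
    · rw [hk, pow_succ]; simp
  have hfa : ∀ (a : MulAut G) (x : G), f (a x) = a (f x) := by
    intro a x
    change (a x) ^ (orderOf (a x) / 2) = a (x ^ (orderOf x / 2))
    rw [MulEquiv.orderOf_eq, map_pow]
  -- a central involution
  obtain ⟨z0, hz0c, hz01⟩ : ∃ z ∈ Subgroup.center G, z ≠ 1 := by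
    have := hG.center_nontrivial
    obtain ⟨⟨z, hz⟩, hz1⟩ := exists_ne (1 : Subgroup.center G)
    exact ⟨z, hz, fun h => hz1 (Subtype.ext h)⟩
  have ht0c : f z0 ∈ Subgroup.center G := Subgroup.pow_mem _ hz0c _
  have hcent : ∀ x : G, x ^ 2 = 1 → x ∈ Subgroup.center G := by
    intro x hx
    by_cases hx1 : x = 1
    · rw [hx1]; exact Subgroup.one_mem _
    · obtain ⟨a, ha⟩ := htrans (f z0) x (hf1 z0 hz01) (hf2 z0 hz01) hx1 hx
      rw [← ha, Subgroup.mem_center_iff]
      intro g
      have h1 := (Subgroup.mem_center_iff.1 ht0c) (a.symm g)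
      have h2 := congrArg a h1
      simpa using h2
  refine ⟨hcent, ?_⟩
  let Ω : Subgroup G :=
    { carrier := {z | z ^ 2 = 1}
      one_mem' := by simp
      mul_mem' := by
        intro a b ha hb
        have hc : Commute a b := ((Subgroup.mem_center_iff.1 (hcent a ha)) b).symm
        change (a * b) ^ 2 = 1
        rw [hc.mul_pow, show a ^ 2 = 1 from ha, show b ^ 2 = 1 from hb, one_mul]
      inv_mem' := by
        intro a ha
        change (a⁻¹) ^ 2 = 1
        rw [inv_pow, show a ^ 2 = 1 from ha, inv_one] }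
  have hΩcard : Nat.card {z : G // z ^ 2 = 1} = Nat.card Ω := rfl
  obtain ⟨a, ha⟩ := (hG.to_subgroup Ω).exists_card_eq
  obtain ⟨n, hn⟩ := hG.exists_card_eq
  set S : Finset G := Finset.univ.filter (fun x => x ≠ 1) with hS
  set T : Finset G := Finset.univ.filter (fun t => t ≠ 1 ∧ t ^ 2 = 1) with hT
  have hScard : S.card + 1 = Nat.card G := by
    rw [Nat.card_eq_fintype_card, hS, Finset.filter_ne' Finset.univ (1 : G), Finset.card_erase_of_mem (Finset.mem_univ _),
      Finset.card_univ]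
    exact Nat.sub_add_cancel Fintype.card_pos
  have hTcard : T.card + 1 = Nat.card Ω := by
    have h1 : Nat.card Ω = (Finset.univ.filter (fun t : G => t ^ 2 = 1)).card := by
      rw [Nat.card_eq_fintype_card, Fintype.card_subtype]
      rfl
    have h2 : T = (Finset.univ.filter (fun t : G => t ^ 2 = 1)).erase 1 := by
      ext t; simp [hT]
    rw [h1, h2, Finset.card_erase_of_mem (by simp)]
    apply Nat.sub_add_cancel
    exact Finset.card_pos.2 ⟨1, by simp⟩
  have hmaps : ∀ x ∈ S, f x ∈ T := by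
    intro x hx
    have hx1 : x ≠ 1 := by simpa [hS] using hx
    simp only [hT, Finset.mem_filter, Finset.mem_univ, true_and]
    exact ⟨hf1 x hx1, hf2 x hx1⟩
  have hsum := Finset.card_eq_sum_card_fiberwise hmaps
  set c := (S.filter (fun x => f x = f z0)).card with hc
  have hfib : ∀ t ∈ T, (S.filter (fun x => f x = t)).card = c := by
    intro t ht
    have ht' : t ≠ 1 ∧ t ^ 2 = 1 := by simpa [hT] using ht
    obtain ⟨α, hα⟩ := htrans (f z0) t (hf1 z0 hz01) (hf2 z0 hz01) ht'.1 ht'.2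
    have : S.filter (fun x => f x = t) = (S.filter (fun x => f x = f z0)).map α.toEquiv.toEmbedding := by
      ext y
      simp only [Finset.mem_filter, Finset.mem_map, hS, Finset.mem_univ, true_and]
      constructor
      · rintro ⟨hy1, hy2⟩
        refine ⟨α.symm y, ⟨?_, ?_⟩, by simp⟩
        · intro h
          apply hy1
          have := congrArg α h
          simpa using this
        · apply α.injective
          rw [← hfa, hα]
          simpa using hy2
      · rintro ⟨x, ⟨hx1, hx2⟩, rfl⟩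
        refine ⟨?_, ?_⟩
        · intro h
          apply hx1
          have h' : α x = 1 := h
          simpa using h'
        · have : f (α x) = t := by rw [hfa, hx2, hα]
          exact this
    rw [this, Finset.card_map]
  rw [Finset.sum_congr rfl hfib, Finset.sum_const, smul_eq_mul] at hsum
  -- number theory
  have h1 : 2 ^ n - 1 = (2 ^ a - 1) * c := by
    rw [← hn, ← ha, ← hScard, ← hTcard, hsum]; simp
  have h2 : Nat.gcd (2 ^ a - 1) (2 ^ n - 1) = 2 ^ a - 1 := Nat.gcd_eq_left ⟨c, h1⟩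
  rw [Nat.pow_sub_one_gcd_pow_sub_one] at h2
  have h3 : 2 ^ Nat.gcd a n = 2 ^ a := by
    have e1 : 1 ≤ 2 ^ Nat.gcd a n := Nat.one_le_two_pow
    have e2 : 1 ≤ 2 ^ a := Nat.one_le_two_pow
    omega
  have h4 : Nat.gcd a n = a := Nat.pow_right_injective (le_refl 2) h3
  obtain ⟨m, hm⟩ : a ∣ n := Nat.gcd_eq_left_iff_dvd.1 h4
  refine ⟨m, ?_⟩
  rw [hΩcard, ha, hn, hm, pow_mul]

end Cfsg.Agent.S3774
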