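import Cfsg.Statements.S3775
import Cfsg.Agent.Lib.Helper12.AbIndec

set_option autoImplicit false
open Cfsg Cfsg.Agent.Lib.Helper12.AbIndec

namespace Cfsg.Agent.S3775

/-- Let A be a finite abelian p-group and X a group of automorphisms of A of order prime to p. Call a subgroup of A invariant when every element of X maps it onto itself. Then the following are equivalent: (i) A is not the direct product of two nontrivial invariant subgroups; (ii) every invariant subgroup of A is one of the subgroups Ω_i(A) = {a : a^(p^i) = 1}; (iii) the subgroup Ω₁(A) of elements of order dividing p has no invariant subgroups other than 1 and itself. -/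
theorem result {A : Type*} [CommGroup A] [Finite A] {p : ℕ} [Fact p.Prime] (hA : IsPGroup p A) (X : Subgroup (MulAut A)) (hX : (Nat.card X).Coprime p) : ((¬ ∃ B C : Subgroup A, B ≠ ⊥ ∧ C ≠ ⊥ ∧ (∀ x ∈ X, B.map x.toMonoidHom = B) ∧ (∀ x ∈ X, C.map x.toMonoidHom = C) ∧ B ⊓ C = ⊥ ∧ B ⊔ C = ⊤) ↔ (∀ B : Subgroup A, (∀ x ∈ X, B.map x.toMonoidHom = B) → ∃ i : ℕ, ∀ a : A, a ∈ B ↔ a ^ p ^ i = 1)) ∧ ((∀ B : Subgroup A, (∀ x ∈ X, B.map x.toMonoidHom = B) → ∃ i : ℕ, ∀ a : A, a ∈ B ↔ a ^ p ^ i = 1) ↔ (∀ B : Subgroup A, (∀ x ∈ X, B.map x.toMonoidHom = B) → (∀ b ∈ B, b ^ p = 1) → B = ⊥ ∨ ∀ a : A, a ∈ B ↔ a ^ p = 1)) := by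
  simp only [inv_iff]
  have h32 : (∀ B : Subgroup A, Inv X B → (∀ b ∈ B, b ^ p = 1) →
      B = ⊥ ∨ ∀ a : A, a ∈ B ↔ a ^ p = 1) →
      (∀ B : Subgroup A, Inv X B → ∃ i : ℕ, ∀ a : A, a ∈ B ↔ a ^ p ^ i = 1) :=
    fun h B hB => P3_P2 hA h B hB
  refine ⟨⟨fun h1 => h32 (fun B hB hBp => P1_P3 hA hX ?_ B hB hBp), fun h2 => ?_⟩,
    ⟨fun h2 B hB hBp => P2_P3 h2 B hB hBp, h32⟩⟩
  · intro B C hB hC hBC hsup
    by_contra hcon
    push Not at hcon
    exact h1 ⟨B, C, hcon.1, hcon.2, hB, hC, hBC, hsup⟩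
  · rintro ⟨B, C, hB1, hC1, hB, hC, hBC, -⟩
    rcases P2_P1 h2 B C hB hC hBC with h | h
    · exact hB1 h
    · exact hC1 h

end Cfsg.Agent.S3775
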