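import Cfsg.Statements.S3780
import Mathlib
import Cfsg.Agent.Lib.Helper22.Frat
import Cfsg.Agent.Lib.Helper1.Basic

set_option autoImplicit false
open Cfsg

namespace Cfsg.Agent.S3780

open Cfsg.Agent.Lib.Helper22

theorem gen_lemma {G : Type*} [Group G] [Finite G] {p : ℕ} (hpp : p.Prime) :
    ∀ (k : ℕ) (H : Subgroup G), H.index ∣ p ^ k →
      ∃ S : Finset G, S.card ≤ k ∧ H ⊔ Subgroup.closure (S : Set G) = ⊤ := by
  classical
  intro k
  induction k with
  | zero =>
    intro H hH
    refine ⟨∅, by simp, ?_⟩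
    have : H.index = 1 := by simpa using hH
    rw [Subgroup.index_eq_one] at this
    simp [this]
  | succ k ih =>
    intro H hH
    by_cases hT : H = ⊤
    · exact ⟨∅, by simp, by simp [hT]⟩
    obtain ⟨g, hg⟩ : ∃ g, g ∉ H := by
      by_contra h
      push Not at h
      exact hT (eq_top_iff.mpr fun x _ => h x)
    have hlt : H < H ⊔ Subgroup.zpowers g :=
      lt_of_le_of_ne le_sup_left (fun h => hg (h ▸ (le_sup_right : Subgroup.zpowers g ≤ H ⊔ Subgroup.zpowers g)
        (Subgroup.mem_zpowers g)))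
    have h1 : (H ⊔ Subgroup.zpowers g).index ∣ H.index := Subgroup.index_dvd_of_le hlt.le
    have h2 : (H ⊔ Subgroup.zpowers g).index ≠ H.index := by
      intro h
      have e1 := H.card_mul_index
      have e2 := (H ⊔ Subgroup.zpowers g).card_mul_index
      rw [h, ← e1] at e2
      have h3 : 0 < H.index := Nat.pos_of_ne_zero Subgroup.index_ne_zero_of_finite
      have := Nat.eq_of_mul_eq_mul_right h3 e2
      have h4 := Cfsg.Agent.Lib.Helper1.card_lt_of_lt hlt
      omega
    obtain ⟨j, hj, hj'⟩ := (Nat.dvd_prime_pow hpp).mp (h1.trans hH)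
    have hjk : j ≤ k := by
      by_contra hcon
      have hj1 : j = k + 1 := by omega
      rw [hj1] at hj'
      exact h2 (Nat.dvd_antisymm h1 (hj' ▸ hH))
    obtain ⟨S, hS, hS'⟩ := ih (H ⊔ Subgroup.zpowers g) (hj' ▸ pow_dvd_pow p hjk)
    refine ⟨insert g S, (Finset.card_insert_le _ _).trans (by omega), ?_⟩
    rw [Finset.coe_insert, Set.insert_eq, Subgroup.closure_union, ← Subgroup.zpowers_eq_closure,
      ← sup_assoc]
    exact hS'

/-- Let V be a finite abelian p-group and α an automorphism of V of order p whose fixed-point subgroup has order p^n. Then V can be generated by pn elements: some subset of V with at most pn elements generates V. -/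
theorem result {V : Type*} [CommGroup V] [Finite V] {p : ℕ} [Fact p.Prime] (hV : IsPGroup p V) (α : MulAut V) (hα : orderOf α = p) (n : ℕ) (hfix : Nat.card {v : V // α v = v} = p ^ n) : ∃ S : Finset V, S.card ≤ p * n ∧ Subgroup.closure (S : Set V) = ⊤ := by
  classical
  have hpp : p.Prime := Fact.out
  let N : V →* V :=
    { toFun := fun v => α v * v⁻¹
      map_one' := by simp
      map_mul' := by
        intro x y
        rw [map_mul, mul_inv]
        exact mul_mul_mul_comm _ _ _ _ }
  have hN : ∀ v, N v = α v * v⁻¹ := fun v => rfl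
  have hker : Nat.card N.ker = p ^ n := by
    rw [← hfix]
    exact Nat.card_congr (Equiv.subtypeEquivRight (fun v => by
      rw [MonoidHom.mem_ker, hN]; exact mul_inv_eq_one))
  have hidx : N.range.index = p ^ n := by
    have e1 := N.ker.card_mul_index
    have e2 := N.range.card_mul_index
    rw [Subgroup.index_ker, hker] at e1
    rw [← e1, mul_comm] at e2
    exact Nat.eq_of_mul_eq_mul_right Nat.card_pos e2
  set Vp : Subgroup V := (powMonoidHom p : V →* V).range with hVp
  obtain ⟨S₀, hS₀, hS₀'⟩ := gen_lemma hpp n (N.range ⊔ Vp) (hidx ▸ Subgroup.index_dvd_of_le le_sup_left)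
  set S : Finset V := S₀.biUnion (fun s => (Finset.range p).image (fun i => (α ^ i) s)) with hS
  have hScard : S.card ≤ p * n := by
    calc S.card ≤ S₀.card * p := Finset.card_biUnion_le_card_mul _ _ _ (fun s _ =>
          (Finset.card_image_le).trans (by simp))
      _ ≤ n * p := Nat.mul_le_mul_right _ hS₀
      _ = p * n := mul_comm _ _
  refine ⟨S, hScard, ?_⟩
  set H := Subgroup.closure (S : Set V) with hH
  have hS₀H : Subgroup.closure (S₀ : Set V) ≤ H := by
    apply Subgroup.closure_mono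
    intro s hs
    rw [Finset.mem_coe, hS, Finset.mem_biUnion]
    exact ⟨s, hs, Finset.mem_image.mpr ⟨0, Finset.mem_range.mpr hpp.pos, by simp⟩⟩
  have hαp : α ^ p = 1 := by rw [← hα]; exact pow_orderOf_eq_one α
  have hHα : ∀ h ∈ H, α h ∈ H := by
    intro h hh
    induction hh using Subgroup.closure_induction with
    | mem x hx =>
      rw [Finset.mem_coe, hS, Finset.mem_biUnion] at hx
      obtain ⟨s, hs, hx⟩ := hx
      obtain ⟨i, hi, rfl⟩ := Finset.mem_image.mp hx
      apply Subgroup.subset_closure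
      rw [Finset.mem_coe, hS, Finset.mem_biUnion]
      refine ⟨s, hs, Finset.mem_image.mpr ?_⟩
      rw [Finset.mem_range] at hi
      by_cases hi' : i + 1 < p
      · exact ⟨i + 1, Finset.mem_range.mpr hi', by rw [pow_succ']; rfl⟩
      · refine ⟨0, Finset.mem_range.mpr hpp.pos, ?_⟩
        have : i + 1 = p := by omega
        have e : α ((α ^ i) s) = (α ^ (i + 1)) s := by rw [pow_succ']; rfl
        rw [e, this, hαp]; simp
    | one => rw [map_one]; exact H.one_mem
    | mul x y _ _ hx hy => rw [map_mul]; exact H.mul_mem hx hy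
    | inv x _ hx => rw [map_inv]; exact H.inv_mem hx
  have hH'α : ∀ h ∈ H ⊔ Vp, α h ∈ H ⊔ Vp := by
    intro h hh
    obtain ⟨a, ha, b, hb, rfl⟩ := Subgroup.mem_sup.mp hh
    obtain ⟨c, rfl⟩ := hb
    rw [map_mul]
    refine Subgroup.mul_mem _ (Subgroup.mem_sup_left (hHα a ha)) (Subgroup.mem_sup_right ⟨α c, ?_⟩)
    simp
  have htop : N.range ⊔ (H ⊔ Vp) = ⊤ := by
    rw [eq_top_iff, ← hS₀']
    refine sup_le (sup_le le_sup_left ((le_sup_right : Vp ≤ H ⊔ Vp).trans le_sup_right))
      ((hS₀H.trans le_sup_left).trans le_sup_right)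
  have hH' : H ⊔ Vp = ⊤ := by
    by_contra hne
    haveI : Nontrivial (V ⧸ (H ⊔ Vp)) := QuotientGroup.nontrivial_iff.mpr hne
    let f : (V ⧸ (H ⊔ Vp)) →* (V ⧸ (H ⊔ Vp)) :=
      QuotientGroup.map (H ⊔ Vp) (H ⊔ Vp) α.toMonoidHom (fun h hh => hH'α h hh)
    have hf : ∀ v : V, f (QuotientGroup.mk v) = QuotientGroup.mk (α v) := fun v => rfl
    let F : Function.End (V ⧸ (H ⊔ Vp)) := fun u => f u
    have hFk : ∀ (k : ℕ) (v : V), (F ^ k) (QuotientGroup.mk v) = QuotientGroup.mk ((α ^ k) v) := by
      intro k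
      induction k with
      | zero => intro v; simp only [pow_zero]; rfl
      | succ k ih =>
        intro v
        rw [pow_succ, pow_succ]
        show (F ^ k) (f (QuotientGroup.mk v)) = _
        rw [hf, ih]; rfl
    have hFp : F ^ p ^ 1 = 1 := by
      funext u
      obtain ⟨v, rfl⟩ := QuotientGroup.mk_surjective u
      rw [pow_one, hFk, hαp]; rfl
    haveI := Fintype.ofFinite (V ⧸ (H ⊔ Vp))
    have hmod := Equiv.Perm.card_fixedPoints_modEq hFp
    have hUp : IsPGroup p (V ⧸ (H ⊔ Vp)) := hV.to_quotient _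
    obtain ⟨m, hm0, hm⟩ := hUp.nontrivial_iff_card.mp inferInstance
    have hdvd : p ∣ Fintype.card (V ⧸ (H ⊔ Vp)) := by
      rw [← Nat.card_eq_fintype_card, hm]; exact dvd_pow_self _ (ne_of_gt hm0)
    have hdvd2 : p ∣ Nat.card (Function.fixedPoints F) := by
      have := (Nat.modEq_zero_iff_dvd.mp (hmod.symm.trans (Nat.modEq_zero_iff_dvd.mpr hdvd)))
      rwa [← Nat.card_eq_fintype_card] at this
    have h1fix : (1 : V ⧸ (H ⊔ Vp)) ∈ Function.fixedPoints F := by
      show f 1 = 1
      exact map_one f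
    haveI : Nonempty (Function.fixedPoints F) := ⟨⟨1, h1fix⟩⟩
    have hpos : 0 < Nat.card (Function.fixedPoints F) := Nat.card_pos
    have hlt : 1 < Nat.card (Function.fixedPoints F) :=
      lt_of_lt_of_le hpp.one_lt (Nat.le_of_dvd hpos hdvd2)
    haveI := Finite.one_lt_card_iff_nontrivial.mp hlt
    obtain ⟨⟨b, hb⟩, hb1⟩ := exists_ne (⟨1, h1fix⟩ : Function.fixedPoints F)
    have hb1' : b ≠ 1 := fun h => hb1 (Subtype.ext h)
    have hbf : f b = b := hb
    let NU : (V ⧸ (H ⊔ Vp)) → (V ⧸ (H ⊔ Vp)) := fun u => f u * u⁻¹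
    have hsurj : Function.Surjective NU := by
      intro u
      obtain ⟨v, rfl⟩ := QuotientGroup.mk_surjective u
      have hv : v ∈ N.range ⊔ (H ⊔ Vp) := by rw [htop]; trivial
      obtain ⟨r, ⟨w, rfl⟩, h, hh, rfl⟩ := Subgroup.mem_sup.mp hv
      refine ⟨QuotientGroup.mk w, ?_⟩
      show f (QuotientGroup.mk w) * (QuotientGroup.mk w)⁻¹ = _
      rw [hf, QuotientGroup.mk_mul, (QuotientGroup.eq_one_iff h).mpr hh, mul_one, hN]
      rfl
    have hinj := Finite.injective_iff_surjective.mpr hsurj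
    apply hb1'
    apply hinj
    show f b * b⁻¹ = f 1 * 1⁻¹
    rw [hbf]; simp
  apply frattini_nongenerating
  rw [eq_top_iff, ← hH']
  refine sup_le le_sup_left (le_trans ?_ le_sup_right)
  rintro _ ⟨c, rfl⟩
  exact pow_mem_frattini hV c

end Cfsg.Agent.S3780
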