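import Cfsg.Statements.S3781
import Mathlib
import Cfsg.Agent.Lib.Helper22.Comm

set_option autoImplicit false
open Cfsg Subgroup

namespace Cfsg.Agent.S3781


/-- iterated commutator with the whole group -/
def itc {G : Type*} [Group G] : ℕ → Subgroup G → Subgroup G
  | 0, K => K
  | j + 1, K => itc j ⁅K, (⊤ : Subgroup G)⁆

theorem itc_succ' {G : Type*} [Group G] (j : ℕ) (K : Subgroup G) :
    itc (j + 1) K = ⁅itc j K, (⊤ : Subgroup G)⁆ := by
  induction j generalizing K with
  | zero => rfl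
  | succ j ih =>
    show itc (j + 1) ⁅K, (⊤ : Subgroup G)⁆ = ⁅itc j ⁅K, (⊤ : Subgroup G)⁆, (⊤ : Subgroup G)⁆
    exact ih _

theorem itc_normal {G : Type*} [Group G] (j : ℕ) (K : Subgroup G) [K.Normal] :
    (itc j K).Normal := by
  induction j generalizing K with
  | zero => exact ‹K.Normal›
  | succ j ih =>
    show (itc j ⁅K, (⊤ : Subgroup G)⁆).Normal
    exact ih _

theorem itc_bot {G : Type*} [Group G] (j : ℕ) : itc j (⊥ : Subgroup G) = ⊥ := by
  induction j with
  | zero => rfl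
  | succ j ih =>
    show itc j ⁅(⊥ : Subgroup G), (⊤ : Subgroup G)⁆ = ⊥
    rw [Subgroup.commutator_bot_left, ih]

theorem itc_map {G Q : Type*} [Group G] [Group Q] (f : G →* Q) (hf : Function.Surjective f)
    (j : ℕ) (K : Subgroup G) : (itc j K).map f = itc j (K.map f) := by
  induction j generalizing K with
  | zero => rfl
  | succ j ih =>
    show (itc j ⁅K, (⊤ : Subgroup G)⁆).map f = itc j ⁅K.map f, (⊤ : Subgroup Q)⁆
    rw [ih, Subgroup.map_commutator, Subgroup.map_top_of_surjective f hf]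

theorem comm_lcs_le {G : Type*} [Group G] (j : ℕ) (K : Subgroup G) [K.Normal] :
    ⁅K, (⊤ : Subgroup G).lowerCentralSeries j⁆ ≤ itc (j + 1) K := by
  induction j generalizing K with
  | zero => exact le_refl _
  | succ j ih =>
    rw [Subgroup.lowerCentralSeries_succ, Subgroup.commutator_comm]
    haveI := itc_normal (j + 2) K
    apply Cfsg.Agent.Lib.Helper22.three_subgroups_le
    · rw [Subgroup.commutator_comm (⊤ : Subgroup G) K]
      exact ih ⁅K, (⊤ : Subgroup G)⁆
    · rw [itc_succ' (j + 1) K]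
      exact Subgroup.commutator_mono (ih K) le_rfl

theorem eq_bot_of_le_comm {Q : Type*} [Group Q] [Group.IsNilpotent Q] (H : Subgroup Q)
    (h : H ≤ ⁅H, (⊤ : Subgroup Q)⁆) : H = ⊥ := by
  have key : ∀ j, H ≤ (⊤ : Subgroup Q).lowerCentralSeries j := by
    intro j
    induction j with
    | zero => exact le_top
    | succ j ih =>
      rw [Subgroup.lowerCentralSeries_succ]
      exact h.trans (Subgroup.commutator_mono ih le_rfl)
  obtain ⟨c, hc⟩ := Subgroup.nilpotent_iff_lowerCentralSeries.mp ‹Group.IsNilpotent Q›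
  rw [eq_bot_iff, ← hc]
  exact key c

theorem itc_eq_bot {Q : Type*} [Group Q] [Finite Q] {p : ℕ} [Fact p.Prime] (hQ : IsPGroup p Q)
    (m : ℕ) (H : Subgroup Q) [H.Normal] (hH : Nat.card H < p ^ (m + 1)) : itc m H = ⊥ := by
  haveI : Group.IsNilpotent Q := hQ.isNilpotent
  have hp : p.Prime := Fact.out
  induction m generalizing H with
  | zero =>
    show H = ⊥
    obtain ⟨a, ha⟩ := (hQ.to_subgroup H).exists_card_eq
    rw [ha] at hH
    have : a = 0 := by
      by_contra h0
      have : p ^ (0 + 1) ≤ p ^ a := Nat.pow_le_pow_right hp.pos (Nat.one_le_iff_ne_zero.mpr h0)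
      omega
    rw [this, pow_zero] at ha
    exact Subgroup.card_eq_one.mp ha
  | succ m ih =>
    show itc m ⁅H, (⊤ : Subgroup Q)⁆ = ⊥
    by_cases hb : H = ⊥
    · rw [hb, Subgroup.commutator_bot_left, itc_bot]
    apply ih
    have hle : ⁅H, (⊤ : Subgroup Q)⁆ ≤ H := Subgroup.commutator_le_left H ⊤
    have hlt : ⁅H, (⊤ : Subgroup Q)⁆ < H :=
      lt_of_le_of_ne hle (fun he => hb (eq_bot_of_le_comm H he.ge))
    obtain ⟨a, ha⟩ := (hQ.to_subgroup H).exists_card_eq
    obtain ⟨b, hb'⟩ := (hQ.to_subgroup ⁅H, (⊤ : Subgroup Q)⁆).exists_card_eq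
    have hcl : Nat.card (⁅H, (⊤ : Subgroup Q)⁆ : Subgroup Q) < Nat.card H := by
      by_contra hcon
      exact hlt.ne (Subgroup.eq_of_le_of_card_ge hle (not_lt.mp hcon))
    rw [ha, hb'] at hcl
    have hba : b < a := (Nat.pow_lt_pow_iff_right hp.one_lt).mp hcl
    rw [ha] at hH
    have : a < m + 1 + 1 := (Nat.pow_lt_pow_iff_right hp.one_lt).mp hH
    rw [hb']
    exact Nat.pow_lt_pow_right hp.one_lt (by omega)

theorem lcs_normal {G : Type*} [Group G] (N : Subgroup G) [N.Normal] (j : ℕ) :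
    (N.lowerCentralSeries j).Normal := by
  induction j with
  | zero => exact ‹N.Normal›
  | succ j ih =>
    rw [Subgroup.lowerCentralSeries_succ]
    infer_instance


/-- Let G be a finite p-group and n ≥ 1, and write γ_1(G) = G, γ_{k+1}(G) = [γ_k(G), G], and likewise γ_k(N) for a subgroup N. Let N be a normal subgroup of G contained in γ_n(G). If i > 1 and γ_{i+1}(N) ≠ 1, then |γ_i(N) : γ_{i+1}(N)| ≥ p^n. -/
theorem result {G : Type*} [Group G] [Finite G] {p : ℕ} [Fact p.Prime] (hG : IsPGroup p G) (n : ℕ) (hn : 1 ≤ n) (N : Subgroup G) [N.Normal] (hN : N ≤ (⊤ : Subgroup G).lowerCentralSeries (n - 1)) (i : ℕ) (hi : 1 < i) (hne : N.lowerCentralSeries i ≠ ⊥) : p ^ n ≤ (N.lowerCentralSeries i).relIndex (N.lowerCentralSeries (i - 1)) := by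
  obtain ⟨i, rfl⟩ : ∃ i', i = i' + 1 := ⟨i - 1, by omega⟩
  obtain ⟨m, rfl⟩ : ∃ m, n = m + 1 := ⟨n - 1, by omega⟩
  simp only [Nat.add_sub_cancel] at hN ⊢
  by_contra hcon
  rw [not_le] at hcon
  set K := N.lowerCentralSeries i with hK
  set L := N.lowerCentralSeries (i + 1) with hL
  haveI : K.Normal := lcs_normal N i
  haveI : L.Normal := lcs_normal N (i + 1)
  haveI : Group.IsNilpotent G := hG.isNilpotent
  have hLK : L = ⁅K, N⁆ := rfl
  -- pass to the quotient by L
  have h1 : itc m K ≤ L := by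
    have h2 : itc m (K.map (QuotientGroup.mk' L)) = ⊥ := by
      haveI : (K.map (QuotientGroup.mk' L)).Normal :=
        Subgroup.Normal.map ‹K.Normal› _ (QuotientGroup.mk'_surjective L)
      apply itc_eq_bot (hG.to_quotient L) m
      rw [← Subgroup.relIndex_ker, QuotientGroup.ker_mk']
      exact hcon
    rw [← itc_map _ (QuotientGroup.mk'_surjective L), Subgroup.map_eq_bot_iff,
      QuotientGroup.ker_mk'] at h2
    exact h2
  have h3 : L ≤ ⁅L, (⊤ : Subgroup G)⁆ := by
    calc L = ⁅K, N⁆ := hLK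
      _ ≤ ⁅K, (⊤ : Subgroup G).lowerCentralSeries m⁆ := Subgroup.commutator_mono le_rfl hN
      _ ≤ itc (m + 1) K := comm_lcs_le m K
      _ = ⁅itc m K, (⊤ : Subgroup G)⁆ := itc_succ' m K
      _ ≤ ⁅L, (⊤ : Subgroup G)⁆ := Subgroup.commutator_mono h1 le_rfl
  exact hne (eq_bot_of_le_comm L h3)

end Cfsg.Agent.S3781
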