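import Mathlib
import Cfsg.Statements.S3784

set_option autoImplicit false
open Cfsg

namespace Cfsg.Agent.S3784

theorem odd_geom_sum (x n : ℕ) (hx : Odd x) (hn : Odd n) : Odd (∑ i ∈ Finset.range n, x ^ i) := by
  rw [Finset.odd_sum_iff_odd_card_odd]
  have : (Finset.range n).filter (fun i => Odd (x ^ i)) = Finset.range n := by
    apply Finset.filter_true_of_mem
    intro i _
    exact hx.pow
  rw [this, Finset.card_range]; exact hn

theorem odd_sum_int (f : ℕ → ℤ) (hf : ∀ i, Odd (f i)) : ∀ n : ℕ, Odd (∑ i ∈ Finset.range n, f i) ↔ Odd n := by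
  intro n
  induction n with
  | zero => simp
  | succ n ih =>
    rw [Finset.sum_range_succ, Int.odd_add, ih, Nat.odd_add_one]
    have := hf n
    constructor
    · intro h hn
      exact (Int.not_even_iff_odd.2 this) (h.1 hn)
    · intro h
      exact ⟨fun h' => absurd h' h, fun h' => absurd h' (Int.not_even_iff_odd.2 this)⟩

theorem odd_dvd_two_pow (s k : ℕ) (hs : Odd s) (h : s ∣ 2 ^ k) : s = 1 := by
  apply Nat.Coprime.eq_one_of_dvd _ h
  apply Nat.Coprime.pow_right
  exact Nat.coprime_two_right.2 hs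

theorem case_p2 (q a b : ℕ) (hq : q.Prime) (ha : 1 ≤ a) (hb : 1 ≤ b) (h : 2 ^ a = q ^ b + 1) :
    b = 1 ∧ a.Prime ∧ q + 1 = 2 ^ a := by
  have hqodd : Odd q := by
    rcases hq.eq_two_or_odd' with rfl | h'
    · exfalso
      have h1 : Even (2 ^ a) := (Nat.even_pow).2 ⟨even_two, by omega⟩
      have h2 : Even (2 ^ b) := (Nat.even_pow).2 ⟨even_two, by omega⟩
      rw [h] at h1
      have := (Nat.even_add_one).1 h1
      exact this h2
    · exact h'
  have hb1 : b = 1 := by
    rcases Nat.even_or_odd b with hbe | hbo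
    · exfalso
      obtain ⟨c, rfl⟩ := hbe
      have h1 : (q ^ c) ^ 2 % 4 = 1 := by
        have : Odd (q ^ c) := hqodd.pow
        obtain ⟨k, hk⟩ := this
        rw [hk]
        have : (2 * k + 1) ^ 2 = 4 * (k * k + k) + 1 := by ring
        omega
      have h2 : q ^ (c + c) = (q ^ c) ^ 2 := by rw [← pow_mul]; congr 1; omega
      rw [h2] at h
      have h3 : 2 ^ a % 4 = 2 := by rw [h]; omega
      have ha1 : a = 1 := by
        by_contra hne
        obtain ⟨d, rfl⟩ : ∃ d, a = d + 2 := ⟨a - 2, by omega⟩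
        rw [pow_add] at h3
        omega
      rw [ha1] at h
      have h4 : (q ^ c) ^ 2 = 1 := by omega
      have h5 : q ^ c = 1 := by
        rcases Nat.pow_eq_one.1 h4 with h | h
        · exact h
        · omega
      rcases Nat.pow_eq_one.1 h5 with h | h
      · exact hq.one_lt.ne' h
      · omega
    · -- b odd
      have key := geom_sum₂_mul (q : ℤ) (-1) b
      rw [hbo.neg_one_pow] at key
      set s : ℤ := ∑ i ∈ Finset.range b, (q : ℤ) ^ i * (-1) ^ (b - 1 - i) with hs
      have hsodd : Odd s := by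
        rw [hs, odd_sum_int]
        · exact hbo
        · intro i
          apply Odd.mul
          · exact Odd.pow (by exact_mod_cast hqodd)
          · exact Odd.pow (by decide)
      have key2 : s * ((q : ℤ) + 1) = 2 ^ a := by
        have : (2 : ℤ) ^ a = (q : ℤ) ^ b + 1 := by exact_mod_cast h
        rw [this, ← sub_neg_eq_add ((q : ℤ) ^ b) 1, ← key]; ring
      have hdvd : s.natAbs ∣ 2 ^ a := by
        have : s ∣ (2 : ℤ) ^ a := ⟨_, key2.symm⟩
        have h2 := Int.natAbs_dvd_natAbs.2 this
        simpa [Int.natAbs_pow] using h2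
      have hs1 : s.natAbs = 1 := odd_dvd_two_pow _ a (Int.natAbs_odd.2 hsodd) hdvd
      have hspos : 0 < s := by
        by_contra hneg
        have h1 : s ≤ 0 := not_lt.1 hneg
        have h2 : s * ((q : ℤ) + 1) ≤ 0 := mul_nonpos_of_nonpos_of_nonneg h1 (by positivity)
        rw [key2] at h2
        have : (0 : ℤ) < 2 ^ a := by positivity
        omega
      have hs1' : s = 1 := by omega
      rw [hs1', one_mul] at key2
      have h3 : q + 1 = 2 ^ a := by exact_mod_cast key2
      have h4 : q ^ b = q ^ 1 := by rw [pow_one]; omega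
      exact Nat.pow_right_injective hq.two_le h4
  subst hb1
  rw [pow_one] at h
  refine ⟨rfl, ?_, h.symm⟩
  have hP : (2 ^ a - 1).Prime := by
    have : 2 ^ a - 1 = q := by omega
    rw [this]; exact hq
  have ha1 : a ≠ 1 := by
    rintro rfl
    norm_num at hP
  exact (Nat.prime_of_pow_sub_one_prime ha1 hP).2

theorem case_q2 (p a b : ℕ) (hp : p.Prime) (ha : 1 ≤ a) (hb : 1 ≤ b) (h : p ^ a = 2 ^ b + 1) :
    (a = 1 ∧ (∃ m : ℕ, b = 2 ^ m) ∧ p = 2 ^ b + 1) ∨ (p ^ a = 9 ∧ 2 ^ b = 8) := by
  have hpodd : Odd p := by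
    rcases hp.eq_two_or_odd' with rfl | h'
    · exfalso
      have h1 : Even (2 ^ a) := (Nat.even_pow).2 ⟨even_two, by omega⟩
      have h2 : Even (2 ^ b) := (Nat.even_pow).2 ⟨even_two, by omega⟩
      rw [h] at h1
      exact (Nat.even_add_one).1 h1 h2
    · exact h'
  by_cases ha1 : a = 1
  · subst ha1
    rw [pow_one] at h
    left
    refine ⟨rfl, ?_, h⟩
    apply Nat.pow_of_pow_add_prime (a := 2) (by norm_num) (by omega)
    rw [← h]; exact hp
  · right
    rcases Nat.even_or_odd a with hae | hao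
    · obtain ⟨c, rfl⟩ := hae
      have hc : 1 ≤ c := by omega
      set x := p ^ c with hx
      have hx2 : p ^ (c + c) = x * x := by rw [pow_add]
      rw [hx2] at h
      have hx1 : 2 ≤ x := by
        calc 2 ≤ p := hp.two_le
          _ = p ^ 1 := (pow_one p).symm
          _ ≤ p ^ c := Nat.pow_le_pow_right hp.pos hc
      have hfac : (x - 1) * (x + 1) = 2 ^ b := by
        obtain ⟨y, hy⟩ : ∃ y, x = y + 1 := ⟨x - 1, by omega⟩
        rw [hy] at h ⊢
        simp only [Nat.add_sub_cancel]
        have : (y + 1) * (y + 1) = y * (y + 1 + 1) + 1 := by ring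
        omega
      obtain ⟨i, -, hi⟩ := (Nat.dvd_prime_pow Nat.prime_two).1 (Dvd.intro _ hfac)
      obtain ⟨j, -, hj⟩ := (Nat.dvd_prime_pow Nat.prime_two).1 (Dvd.intro_left _ hfac)
      have hij : 2 ^ j = 2 ^ i + 2 := by omega
      have hi1 : i = 1 := by
        rcases i with _ | _ | i
        · -- 2^j = 3
          exfalso
          rcases j with _ | _ | j
          · simp at hij
          · simp at hij
          · rw [pow_succ, pow_succ] at hij; omega
        · rfl
        · exfalso
          rcases j with _ | _ | j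
          · simp at hij
          · rw [pow_succ, pow_succ] at hij; omega
          · rw [pow_succ, pow_succ] at hij
            rw [pow_succ 2 (i+1), pow_succ 2 i] at hij
            omega
      subst hi1
      have hx3 : x = 3 := by omega
      rw [hx2, hx3]
      rw [hx3] at h
      constructor <;> omega
    · exfalso
      have key := geom_sum_mul_of_one_le (x := p) hp.one_lt.le a
      have hs := odd_geom_sum p a hpodd hao
      have h2 : p ^ a - 1 = 2 ^ b := by rw [h]; simp
      rw [h2] at key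
      have hs1 := odd_dvd_two_pow _ b hs (Dvd.intro _ key)
      obtain ⟨d, rfl⟩ : ∃ d, a = d + 2 := ⟨a - 2, by omega⟩
      rw [Finset.sum_range_succ', Finset.sum_range_succ'] at hs1
      have : 0 < p := hp.pos
      simp at hs1
      omega

theorem result (p q a b : ℕ) (hp : p.Prime) (hq : q.Prime) (ha : 1 ≤ a) (hb : 1 ≤ b) (h : p ^ a = q ^ b + 1) : (p = 2 ∧ b = 1 ∧ a.Prime ∧ q + 1 = 2 ^ a) ∨ (q = 2 ∧ a = 1 ∧ (∃ m : ℕ, b = 2 ^ m) ∧ p = 2 ^ b + 1) ∨ (p ^ a = 9 ∧ q ^ b = 8) := by
  rcases hp.eq_two_or_odd' with rfl | hpo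
  · left
    exact ⟨rfl, case_p2 q a b hq ha hb h⟩
  · rcases hq.eq_two_or_odd' with rfl | hqo
    · right
      rcases case_q2 p a b hp ha hb h with h1 | h1
      · left; exact ⟨rfl, h1⟩
      · right; exact h1
    · exfalso
      have h1 : Odd (p ^ a) := hpo.pow
      have h2 : Odd (q ^ b) := hqo.pow
      rw [h] at h1
      exact (Nat.not_even_iff_odd.2 h1) (h2.add_odd odd_one)

end Cfsg.Agent.S3784
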