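import Cfsg.Statements.S3785
import Mathlib
import Cfsg.Agent.Lib.Helper20.Primary
import Cfsg.Agent.S0120
import Cfsg.Agent.S0044

set_option autoImplicit false
open Cfsg Cfsg.Agent.Lib.Helper20

namespace Cfsg.Agent.S3785


theorem pow_coprime {G : Type*} [Group G] [Finite G] (p : ℕ) (hp : p.Prime) (m : G) :
    ∃ k : ℕ, (orderOf (m ^ p ^ k)).Coprime p := by
  obtain ⟨k, t, ht, hn⟩ := Nat.exists_eq_pow_mul_and_not_dvd (orderOf_pos m).ne' p hp.ne_one
  refine ⟨k, ?_⟩
  have h1 : orderOf (m ^ p ^ k) = t := by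
    rw [orderOf_pow' _ (pow_ne_zero k hp.ne_zero), hn, Nat.gcd_eq_right (Dvd.intro _ rfl),
      Nat.mul_div_cancel_left _ (pow_pos hp.pos k)]
  rw [h1]
  exact ((Nat.Prime.coprime_iff_not_dvd hp).2 ht).symm

theorem lemA {G : Type*} [Group G] [Finite G] (hodd : Odd (Nat.card (Cfsg.fittingSubgroup G))) {p : ℕ}
    [hpf : Fact p.Prime] {y : G}
    (hy : ∀ x ∈ Cfsg.fittingSubgroup G, (orderOf x).Prime → y * x = x * y) (hcop : (orderOf y).Coprime p) :
    y ∈ Subgroup.centralizer (Cfsg.pCore p G : Set G) := by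
  haveI hn : (Cfsg.pCore p G).Normal := Cfsg.Agent.Lib.Helper1.pCore_normal p
  have hP : IsPGroup p (Cfsg.pCore p G) := Cfsg.Agent.Lib.Helper1.pCore_isPGroup p
  have hle := pCore_le_fitting (G := G) p
  by_cases hp2 : p = 2
  · subst hp2
    obtain ⟨k, hk⟩ := hP.exists_card_eq
    have h1 : Nat.card (Cfsg.pCore 2 G) ∣ Nat.card (Cfsg.fittingSubgroup G) := Subgroup.card_dvd_of_le hle
    have h2 : Cfsg.pCore 2 G = ⊥ := by
      rcases k with _ | k
      · rw [pow_zero] at hk; exact Subgroup.card_eq_one.1 hk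
      · exfalso
        rw [hk] at h1
        have : 2 ∣ Nat.card (Cfsg.fittingSubgroup G) := (dvd_pow_self 2 (Nat.succ_ne_zero k)).trans h1
        exact (Nat.not_even_iff_odd.2 hodd) (even_iff_two_dvd.2 this)
    rw [h2, Subgroup.mem_centralizer_iff]
    intro x hx
    have hx1 : x = 1 := hx
    rw [hx1]; simp
  · have ha : (orderOf (MulAut.conjNormal y : MulAut (Cfsg.pCore p G))).Coprime p :=
      Nat.Coprime.coprime_dvd_left (orderOf_map_dvd _ y) hcop
    have h1 := Cfsg.Agent.S0120.result hp2 hP (MulAut.conjNormal y) ha (by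
      intro x hx
      by_cases hx1 : x = 1
      · rw [hx1, map_one]
      · have ho : orderOf x = p := orderOf_eq_prime hx hx1
        apply Subtype.ext
        rw [MulAut.conjNormal_apply]
        have h2 := hy x (hle x.2) (by rw [Subgroup.orderOf_coe, ho]; exact hpf.out)
        rw [h2]; group)
    rw [Subgroup.mem_centralizer_iff]
    intro x hx
    have h2 := congrArg (fun f : MulAut (Cfsg.pCore p G) => ((f ⟨x, hx⟩ : Cfsg.pCore p G) : G)) h1
    simp only [MulAut.conjNormal_apply, MulAut.one_apply] at h2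
    calc x * y = (y * x * y⁻¹) * y := by rw [h2]
      _ = y * x := by group

theorem lemC {G : Type*} [Group G] [Finite G] (hG : Group.IsSolvable G)
    (hodd : Odd (Nat.card (Cfsg.fittingSubgroup G))) {q : ℕ} (hq : q.Prime) {x : G}
    (hx : ∀ u ∈ Cfsg.fittingSubgroup G, (orderOf u).Prime → x * u = u * x) (hxo : ∃ k : ℕ, orderOf x = q ^ k) :
    x ∈ Cfsg.fittingSubgroup G := by
  haveI : Fact q.Prime := ⟨hq⟩
  haveI hFn : (Cfsg.fittingSubgroup G).Normal := fitting_normal
  set D := Subgroup.normalClosure ({x} : Set G) with hD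
  let C : Subgroup G := Subgroup.centralizer {u | u ∈ Cfsg.fittingSubgroup G ∧ (orderOf u).Prime}
  have hCn : C.Normal := by
    constructor
    intro c hc g
    rw [Subgroup.mem_centralizer_iff] at hc ⊢
    rintro u ⟨hu, huo⟩
    have h1 := hc (g⁻¹ * u * g) ⟨by
      have := hFn.conj_mem u hu g⁻¹
      simpa using this, by
      have : orderOf (g⁻¹ * u * g) = orderOf u := by
        have := (MulAut.conj g⁻¹).orderOf_eq u
        simpa using this
      rw [this]; exact huo⟩
    calc u * (g * c * g⁻¹) = g * ((g⁻¹ * u * g) * c) * g⁻¹ := by group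
      _ = g * (c * (g⁻¹ * u * g)) * g⁻¹ := by rw [h1]
      _ = g * c * g⁻¹ * u := by group
  have hDC : D ≤ C := by
    apply Subgroup.normalClosure_le_normal
    rw [Set.singleton_subset_iff]
    change x ∈ C
    rw [Subgroup.mem_centralizer_iff]
    rintro u ⟨hu, huo⟩
    exact (hx u hu huo).symm
  have hDp : ∀ p : ℕ, p.Prime → p ≠ q → D ≤ Subgroup.centralizer (Cfsg.pCore p G : Set G) := by
    intro p hp hpq
    haveI := Cfsg.Agent.Lib.Helper1.pCore_normal (G := G) p
    haveI : Fact p.Prime := ⟨hp⟩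
    apply Subgroup.normalClosure_le_normal
    rw [Set.singleton_subset_iff]
    obtain ⟨k, hk⟩ := hxo
    exact lemA hodd hx (by rw [hk]; exact Nat.Coprime.pow_left _ ((Nat.coprime_primes hq hp).2 (Ne.symm hpq)))
  have hpg : IsPGroup q (D ⧸ Subgroup.center D) := by
    intro a
    obtain ⟨d, rfl⟩ := QuotientGroup.mk_surjective a
    obtain ⟨k, hk⟩ := pow_coprime q hq (d : G)
    refine ⟨k, ?_⟩
    rw [← QuotientGroup.mk_pow, QuotientGroup.eq_one_iff, Subgroup.mem_center_iff]
    intro e
    apply Subtype.ext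
    have hyD : (d : G) ^ q ^ k ∈ D := pow_mem d.2 _
    have hyC : ∀ u ∈ Cfsg.fittingSubgroup G, (orderOf u).Prime → (d : G) ^ q ^ k * u = u * (d : G) ^ q ^ k := by
      intro u hu huo
      exact (Subgroup.mem_centralizer_iff.1 (hDC hyD) u ⟨hu, huo⟩).symm
    have hyF : (d : G) ^ q ^ k ∈ Cfsg.fittingSubgroup G := by
      apply Cfsg.Agent.S0044.result
      apply mem_centralizer_fitting
      intro p hp
      by_cases hpq : p = q
      · subst hpq; exact lemA hodd hyC hk
      · exact hDp p hp hpq hyD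
    exact (commute_of_mem_fitting_of_coprime (q := q) (s := (e : G))
      (fun p hp hpq => hDp p hp hpq e.2) hyF hk).symm
  haveI := hpg.isNilpotent
  haveI : Group.IsNilpotent D := Group.of_quotient_center_nilpotent inferInstance
  have hDF : D ≤ Cfsg.fittingSubgroup G := le_fitting (Subgroup.normalClosure_normal) this
  exact hDF (Subgroup.subset_normalClosure (Set.mem_singleton x))


/-- Let G be a finite solvable group whose Fitting subgroup F(G) has odd order. If an element g of G commutes with every element of prime order of F(G), then g ∈ F(G). -/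
theorem result {G : Type*} [Group G] [Finite G] (hG : Group.IsSolvable G) (hodd : Odd (Nat.card (Cfsg.fittingSubgroup G))) (g : G) (hg : ∀ x ∈ Cfsg.fittingSubgroup G, (orderOf x).Prime → g * x = x * g) : g ∈ Cfsg.fittingSubgroup G := by
  apply mem_of_primary_mem
  intro p x hp hx hxo
  apply lemC hG hodd hp _ hxo
  intro u hu huo
  obtain ⟨i, rfl⟩ := hx
  exact ((Commute.zpow_left (show Commute g u from hg u hu huo) i)).eq

end Cfsg.Agent.S3785
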