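import Cfsg.Statements.S3790
import Cfsg.Agent.Lib.Helper29.PLength2

set_option autoImplicit false
open Cfsg

namespace Cfsg.Agent.S3790

open Cfsg.Agent.Lib.Helper29 Cfsg.Agent.Lib.Helper8

universe u

theorem main (p : ℕ) [hp : Fact p.Prime] : ∀ (r : ℕ) (q l : Fin r → ℕ), (∀ i, (q i).Prime ∧ q i ≠ p) →
    ∀ (G : Type u) [Group G] [Finite G], (∀ s : ℕ, s.Prime → s ∣ Nat.card G → s ≠ p → ∃ i, q i = s) →
    (∀ i, Cfsg.PLengthLE (q i) (l i) G) → Cfsg.PLengthLE p (∏ i, (1 + l i)) G := by
  intro r
  induction r with
  | zero =>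
    intro q l _ G _ _ hcover _
    rw [Finset.univ_eq_empty, Finset.prod_empty]
    apply pLengthLE_one_of_isPGroup
    apply IsPGroup.of_card
    apply Nat.eq_prime_pow_of_unique_prime_dvd Nat.card_pos.ne'
    intro s hs hsd
    by_contra hne
    obtain ⟨i, -⟩ := hcover s hs hsd hne
    exact i.elim0
  | succ r ihr =>
    intro q l hq G _ _ hcover hl
    rw [Fin.prod_univ_succ]
    set M := ∏ i : Fin r, (1 + l i.succ) with hM
    haveI : Fact (q 0).Prime := ⟨(hq 0).1⟩
    -- groups of order prime to `q 0`
    have base : ∀ (X : Type u) [Group X] [Finite X],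
        (∀ s : ℕ, s.Prime → s ∣ Nat.card X → s ≠ p → ∃ i, q i = s) → (Nat.card X).Coprime (q 0) →
        (∀ i : Fin r, Cfsg.PLengthLE (q i.succ) (l i.succ) X) → Cfsg.PLengthLE p M X := by
      intro X _ _ hc hcop hlX
      apply ihr (fun i => q i.succ) (fun i => l i.succ) (fun i => hq i.succ) X _ hlX
      intro s hs hsd hsp
      obtain ⟨i, hi⟩ := hc s hs hsd hsp
      induction i using Fin.cases with
      | zero =>
        exfalso
        rw [← hi] at hsd
        exact (hq 0).1.one_lt.ne' (Nat.eq_one_of_dvd_coprimes hcop hsd dvd_rfl)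
      | succ i => exact ⟨i, hi⟩
    have inner : ∀ (m : ℕ) (X : Type u) [Group X] [Finite X],
        (∀ s : ℕ, s.Prime → s ∣ Nat.card X → s ≠ p → ∃ i, q i = s) → Cfsg.PLengthLE (q 0) m X →
        (∀ i : Fin r, Cfsg.PLengthLE (q i.succ) (l i.succ) X) → Cfsg.PLengthLE p ((1 + m) * M) X := by
      intro m
      induction m with
      | zero =>
        intro X _ _ hc h0 hlX
        rw [add_zero, one_mul]
        exact base X hc (coprime_card_of_pLengthLE_zero h0) hlX
      | succ m ihm =>
        intro X _ _ hc h0 hlX
        set V1 := (upperPSeries (q 0) X 1).1 with hV1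
        set V2 := (upperPSeries (q 0) X 2).1 with hV2
        have hV1c : (Nat.card V1).Coprime (q 0) := by
          have := relIndex_upper_even (G := X) (q 0) (n := 0) (by decide)
          rwa [show (upperPSeries (q 0) X 0).1 = ⊥ from rfl, Subgroup.relIndex_bot_left] at this
        have h1 : Cfsg.PLengthLE p M V1 := by
          apply base V1 _ hV1c
          · intro i
            haveI : Fact (q i.succ).Prime := ⟨(hq i.succ).1⟩
            exact PLengthLE.subgroup (hlX i) V1
          · intro s hs hsd hsp
            exact hc s hs (hsd.trans (Subgroup.card_subgroup_dvd_card V1)) hsp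
        have h2 : V1 ≤ (upperPSeries p X (2 * M + 1)).1 := by
          have := map_subtype_upper_le p V1 (2 * M + 1)
          rwa [show (upperPSeries p V1 (2 * M + 1)).1 = ⊤ from h1, ← MonoidHom.range_eq_map,
            Subgroup.range_subtype] at this
        have h3 : V2 ≤ (upperPSeries p X (2 * M + 1)).1 := by
          apply le_upper_odd_of_coprime (by simp) inferInstance h2
          obtain ⟨k, hk⟩ := relIndex_upper_odd (G := X) (q 0) (n := 1) (by decide)
          rw [hk]
          exact Nat.Coprime.pow_left k ((Nat.coprime_primes (hq 0).1 hp.out).mpr (hq 0).2)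
        have h4 : Cfsg.PLengthLE p ((1 + m) * M) (X ⧸ V2) := by
          apply ihm (X ⧸ V2)
          · intro s hs hsd hsp
            exact hc s hs (hsd.trans (by
              rw [Subgroup.card_eq_card_quotient_mul_card_subgroup V2]; exact Dvd.intro _ rfl)) hsp
          · exact PLengthLE.quotient_upper (k := 1) h0
          · intro i
            haveI : Fact (q i.succ).Prime := ⟨(hq i.succ).1⟩
            exact PLengthLE.of_surjective (hlX i) _ (QuotientGroup.mk'_surjective V2)
        have h5 := comap_upper_le_of_odd p (QuotientGroup.mk' V2) (QuotientGroup.mk'_surjective V2)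
          (j := 2 * M + 1) (by simp) (by rw [QuotientGroup.ker_mk']; exact h3) (2 * ((1 + m) * M))
        rw [show (upperPSeries p (X ⧸ V2) (2 * ((1 + m) * M) + 1)).1 = ⊤ from h4, Subgroup.comap_top] at h5
        show (upperPSeries p X (2 * ((1 + (m + 1)) * M) + 1)).1 = ⊤
        rw [show 2 * ((1 + (m + 1)) * M) + 1 = 2 * ((1 + m) * M) + (2 * M + 1) by ring]
        exact top_le_iff.mp h5
    exact inner (l 0) G hcover (hl 0) (fun i => hl i.succ)

/-- Let G be a finite solvable group and p a prime. Suppose p₁, …, p_r are distinct primes, all different from p, that include every prime dividing the order of G other than p, and that G has p_i-length at most l_i for each i. Then G has p-length at most the product of the numbers 1 + l_i. -/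
theorem result {G : Type*} [Group G] [Finite G] (hG : Group.IsSolvable G) (p : ℕ) [Fact p.Prime] (r : ℕ) (q : Fin r → ℕ) (hq : ∀ i, (q i).Prime ∧ q i ≠ p) (hinj : Function.Injective q) (hcover : ∀ s : ℕ, s.Prime → s ∣ Nat.card G → s ≠ p → ∃ i, q i = s) (l : Fin r → ℕ) (hl : ∀ i, Cfsg.PLengthLE (q i) (l i) G) : Cfsg.PLengthLE p (Finset.univ.prod fun i => 1 + l i) G := by
  exact main p r q l hq G hcover hl

end Cfsg.Agent.S3790
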