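import Cfsg.Statements.S3791
import Cfsg.Agent.Lib.Helper29.PLength
import Cfsg.Agent.Lib.Lead.Basic

set_option autoImplicit false
open Cfsg

namespace Cfsg.Agent.S3791

open Cfsg.Agent.Lib.Helper29 Cfsg.Agent.Lib.Helper8

universe u

theorem derived_of_surj {A B : Type*} [Group A] [Group B] (f : A →* B) (hf : Function.Surjective f) {n : ℕ}
    (h : derivedSeries A n = ⊥) : derivedSeries B n = ⊥ := by
  rw [← map_derivedSeries_eq hf, h, Subgroup.map_bot]

theorem derived_of_inj {A B : Type*} [Group A] [Group B] (f : A →* B) (hf : Function.Injective f) {n : ℕ}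
    (h : derivedSeries B n = ⊥) : derivedSeries A n = ⊥ := by
  have h1 := map_derivedSeries_le_derivedSeries f n
  rw [h, le_bot_iff, Subgroup.map_eq_bot_iff_of_injective _ hf] at h1
  exact h1

theorem derived_add {G : Type*} [Group G] (T : Subgroup G) {a b : ℕ} (h1 : derivedSeries G a ≤ T)
    (h2 : derivedSeries ↥T b = ⊥) : derivedSeries G (a + b) = ⊥ := by
  have key : ∀ c : ℕ, derivedSeries G (a + c) ≤ (derivedSeries ↥T c).map T.subtype := by
    intro c
    induction c with
    | zero =>
      rw [add_zero, derivedSeries_zero, ← MonoidHom.range_eq_map, Subgroup.range_subtype]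
      exact h1
    | succ c ih =>
      rw [← add_assoc, derivedSeries_succ, derivedSeries_succ, Subgroup.map_commutator]
      exact Subgroup.commutator_mono ih ih
  have := key b
  rwa [h2, Subgroup.map_bot, le_bot_iff] at this

/-- all `q i`-subgroups have derived length at most `d i` -/
def HD {r : ℕ} (q d : Fin r → ℕ) (G : Type*) [Group G] : Prop :=
  ∀ i, ∀ P : Subgroup G, IsPGroup (q i) P → derivedSeries ↥P (d i) = ⊥

theorem HD.quot {r : ℕ} {q d : Fin r → ℕ} (hq : ∀ i, (q i).Prime) {G : Type*} [Group G] [Finite G]
    (h : HD q d G) (N : Subgroup G) [N.Normal] : HD q d (G ⧸ N) := by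
  intro i P hP
  haveI : Fact (q i).Prime := ⟨hq i⟩
  let π := QuotientGroup.mk' N
  have hπ : Function.Surjective π := QuotientGroup.mk'_surjective N
  obtain ⟨S', hS'⟩ := hP.exists_le_sylow
  obtain ⟨S, rfl⟩ := Sylow.mapSurjective_surjective hπ (q i) S'
  rw [Sylow.coe_mapSurjective] at hS'
  set R : Subgroup G := (S : Subgroup G) ⊓ P.comap π with hR
  have hRp : IsPGroup (q i) R := S.isPGroup'.to_le inf_le_left
  have hRP : R.map π = P := by
    apply le_antisymm
    · rintro _ ⟨x, hx, rfl⟩
      exact (Subgroup.mem_inf.mp hx).2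
    · intro y hy
      obtain ⟨s, hs, rfl⟩ := hS' hy
      exact ⟨s, Subgroup.mem_inf.mpr ⟨hs, hy⟩, rfl⟩
  have h1 := derived_of_surj (π.subgroupMap R) (π.subgroupMap_surjective R) (h i R hRp)
  rw [hRP] at h1
  exact h1

theorem main {r : ℕ} (q : Fin r → ℕ) (hq : ∀ i, (q i).Prime) (d : Fin r → ℕ) (μ : ℕ) :
    ∀ (G : Type u) [Group G] [Finite G] (l : Fin r → ℕ), Nat.card G + ∑ i, l i = μ →
    (∀ s : ℕ, s.Prime → s ∣ Nat.card G → ∃ i, q i = s) → HD q d G →
    (∀ i, Cfsg.PLengthLE (q i) (l i) G) → derivedSeries G (∑ i, d i * l i) = ⊥ := by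
  induction μ using Nat.strong_induction_on with
  | _ μ ih =>
  intro G _ _ l hμ hcover hd hl
  set n := ∑ i, d i * l i with hn
  have key : ∀ i, derivedSeries G n ≤ pPrimeCore (q i) G := by
    intro i
    haveI : Fact (q i).Prime := ⟨hq i⟩
    set N := pPrimeCore (q i) G with hN
    by_cases hNb : N = ⊥
    · -- `O_{p'}(G) = 1`
      have hU1 : (upperPSeries (q i) G 1).1 = ⊥ := by
        rw [← le_bot_iff, ← hNb]
        apply le_pPrimeCore_of_normal inferInstance
        have := relIndex_upper_even (G := G) (q i) (n := 0) (by decide)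
        rwa [show (upperPSeries (q i) G 0).1 = ⊥ from rfl, Subgroup.relIndex_bot_left] at this
      rcases Nat.eq_zero_or_pos (l i) with hl0 | hlpos
      · have h1 : (upperPSeries (q i) G 1).1 = ⊤ := by
          have := hl i
          rw [hl0] at this
          exact this
        rw [hU1] at h1
        rw [hNb, h1]; exact le_top
      · obtain ⟨l0, hl0⟩ : ∃ l0, l i = l0 + 1 := ⟨l i - 1, by omega⟩
        set T := (upperPSeries (q i) G 2).1 with hT
        have hTp : IsPGroup (q i) T := by
          obtain ⟨m, hm⟩ := relIndex_upper_odd (G := G) (q i) (n := 1) (by decide)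
          rw [hU1, Subgroup.relIndex_bot_left] at hm
          exact IsPGroup.of_card hm
        set l' := Function.update l i l0 with hl'
        have hsum : ∀ f : Fin r → ℕ, ∑ j, f j * l j = ∑ j, f j * l' j + f i := by
          intro f
          rw [← Finset.add_sum_erase Finset.univ _ (Finset.mem_univ i),
            ← Finset.add_sum_erase Finset.univ (fun j => f j * l' j) (Finset.mem_univ i)]
          have e1 : ∑ j ∈ Finset.univ.erase i, f j * l' j = ∑ j ∈ Finset.univ.erase i, f j * l j := by
            apply Finset.sum_congr rfl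
            intro j hj
            rw [hl', Function.update_of_ne (Finset.ne_of_mem_erase hj)]
          rw [e1, hl', Function.update_self, hl0]
          ring
        have hlt : Nat.card (G ⧸ T) + ∑ j, l' j < μ := by
          have h1 := hsum (fun _ => 1)
          simp only [one_mul] at h1
          have h2 : Nat.card (G ⧸ T) ≤ Nat.card G := by
            rw [Subgroup.card_eq_card_quotient_mul_card_subgroup T]
            exact Nat.le_mul_of_pos_right _ Nat.card_pos
          omega
        have h1 := ih _ hlt (G ⧸ T) l' rfl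
          (fun s hs hsd => hcover s hs (hsd.trans (by
            rw [Subgroup.card_eq_card_quotient_mul_card_subgroup T]; exact Dvd.intro _ rfl)))
          (hd.quot hq T)
          (fun j => by
            haveI : Fact (q j).Prime := ⟨hq j⟩
            by_cases hj : j = i
            · subst hj
              rw [hl', Function.update_self]
              have h2 := hl j
              rw [hl0] at h2
              exact PLengthLE.quotient_upper (k := 1) h2
            · rw [hl', Function.update_of_ne hj]
              exact PLengthLE.of_surjective (hl j) _ (QuotientGroup.mk'_surjective T))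
        have h2 : derivedSeries G (∑ j, d j * l' j) ≤ T := by
          have h3 := map_derivedSeries_eq (QuotientGroup.mk'_surjective T) (∑ j, d j * l' j)
          rw [h1, Subgroup.map_eq_bot_iff, QuotientGroup.ker_mk'] at h3
          exact h3
        have h3 := derived_add T h2 (hd i T hTp)
        rw [← hsum d, ← hn] at h3
        rw [h3]; exact bot_le
    · have hlt : Nat.card (G ⧸ N) + ∑ j, l j < μ := by
        have := Cfsg.Agent.Lib.Lead.card_quotient_lt_of_ne_bot N hNb
        omega
      have h1 := ih _ hlt (G ⧸ N) l rfl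
        (fun s hs hsd => hcover s hs (hsd.trans (by
          rw [Subgroup.card_eq_card_quotient_mul_card_subgroup N]; exact Dvd.intro _ rfl)))
        (hd.quot hq N)
        (fun j => by
          haveI : Fact (q j).Prime := ⟨hq j⟩
          exact PLengthLE.of_surjective (hl j) _ (QuotientGroup.mk'_surjective N))
      have h3 := map_derivedSeries_eq (QuotientGroup.mk'_surjective N) n
      rw [h1, Subgroup.map_eq_bot_iff, QuotientGroup.ker_mk'] at h3
      exact h3
  rw [eq_bot_iff]
  intro x hx
  rw [Subgroup.mem_bot]
  by_contra hne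
  have hne1 : orderOf x ≠ 1 := fun h => hne (orderOf_eq_one_iff.mp h)
  obtain ⟨s, hs, hsd⟩ := Nat.exists_prime_and_dvd hne1
  obtain ⟨i, rfl⟩ := hcover s hs (hsd.trans (orderOf_dvd_natCard x))
  have h1 : orderOf x ∣ Nat.card (pPrimeCore (q i) G) := by
    have := orderOf_dvd_natCard (⟨x, key i hx⟩ : pPrimeCore (q i) G)
    rwa [Subgroup.orderOf_mk] at this
  exact hs.one_lt.ne' (Nat.eq_one_of_dvd_coprimes (coprime_card_pPrimeCore (q i)) (hsd.trans h1) dvd_rfl)

/-- The Hall–Higman bound on derived length: let G be a finite solvable group, let p₁, …, p_r be distinct primes that include every prime dividing the order of G, and suppose that for each i the Sylow p_i-subgroups of G have derived length at most d_i and G has p_i-length at most l_i. Then G has derived length at most Σ d_i l_i. -/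
theorem result {G : Type*} [Group G] [Finite G] (hG : Group.IsSolvable G) (r : ℕ) (q : Fin r → ℕ) (hq : ∀ i, (q i).Prime) (hinj : Function.Injective q) (hcover : ∀ s : ℕ, s.Prime → s ∣ Nat.card G → ∃ i, q i = s) (d l : Fin r → ℕ) (hd : ∀ i, ∀ P : Subgroup G, (haveI := Fact.mk (hq i); ∃ S : Sylow (q i) G, (S : Subgroup G) = P) → derivedSeries ↥P (d i) = ⊥) (hl : ∀ i, Cfsg.PLengthLE (q i) (l i) G) : derivedSeries G (Finset.univ.sum fun i => d i * l i) = ⊥ := by
  apply main q hq d _ G l rfl hcover _ hl
  intro i P hP
  haveI : Fact (q i).Prime := ⟨hq i⟩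
  obtain ⟨S, hS⟩ := hP.exists_le_sylow
  exact derived_of_inj (Subgroup.inclusion hS) (Subgroup.inclusion_injective hS) (hd i S ⟨S, rfl⟩)

end Cfsg.Agent.S3791
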