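import Mathlib
import Cfsg.Statements.S3800
import Cfsg.Agent.Lib.Helper20.SylowExtra
import Cfsg.Agent.Lib.Helper20.Radical

set_option autoImplicit false
open Cfsg

namespace Cfsg.Agent.S3800

open Cfsg.Agent.Lib.Helper20

theorem result {G : Type*} [Group G] [Finite G] {p : ℕ} [Fact p.Prime] (N : Subgroup G) [N.Normal] (hN : (Nat.card N).Coprime p) (P : Subgroup G) (hP : IsPGroup p P) : Subgroup.normalizer ((P.map (QuotientGroup.mk' N)) : Set (G ⧸ N)) = (Subgroup.normalizer (P : Set G)).map (QuotientGroup.mk' N) ∧ Subgroup.centralizer ((P.map (QuotientGroup.mk' N)) : Set (G ⧸ N)) = (Subgroup.centralizer (P : Set G)).map (QuotientGroup.mk' N) := by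
  have hpN : ¬ p ∣ Nat.card N := by
    intro h
    have := Nat.Coprime.eq_one_of_dvd hN.symm h
    exact (Fact.out : p.Prime).one_lt.ne' this
  have hidx : ¬ p ∣ P.relIndex (N ⊔ P) := by
    intro hdvd
    have h1 : Nat.card (N ⊔ P : Subgroup G) ∣ Nat.card N * Nat.card P :=
      card_sup_dvd_of_le_normalizer N P (by rw [Subgroup.normalizer_eq_top]; exact le_top)
    rw [← card_mul_relIndex_of_le (le_sup_right : P ≤ N ⊔ P), mul_comm (Nat.card N)] at h1
    have h2 : P.relIndex (N ⊔ P) ∣ Nat.card N := Nat.dvd_of_mul_dvd_mul_left Nat.card_pos h1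
    exact hpN (hdvd.trans h2)
  have lemA : ∀ x : G, cj x P ≤ N ⊔ P → ∃ n ∈ N, cj x P = cj n P := by
    intro x hx
    have hpx : IsPGroup p (cj x P) := hP.map _
    obtain ⟨h, hh, hle⟩ := exists_le_cj_of_not_dvd_relIndex (N ⊔ P) P (cj x P) hx hpx hidx
    have heq : cj x P = cj h P := Subgroup.eq_of_le_of_card_ge hle (by rw [card_cj, card_cj])
    have hh' : h ∈ ((N ⊔ P : Subgroup G) : Set G) := hh
    rw [Subgroup.normal_mul] at hh'
    obtain ⟨n, hn, a, ha, rfl⟩ := hh'
    refine ⟨n, hn, ?_⟩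
    rw [heq]
    change cj (n * a) P = cj n P
    rw [← cj_cj, cj_eq_of_mem_normalizer (Subgroup.le_normalizer ha)]
  have lemB : ∀ x : G, QuotientGroup.mk' N x ∈ Subgroup.normalizer ((P.map (QuotientGroup.mk' N)) : Set (G ⧸ N)) →
      ∃ y ∈ Subgroup.normalizer (P : Set G), QuotientGroup.mk' N y = QuotientGroup.mk' N x := by
    intro x hx
    have h1 : cj x P ≤ N ⊔ P := by
      rintro _ ⟨a, ha, rfl⟩
      have h2 := (Subgroup.mem_normalizer_iff.1 hx (QuotientGroup.mk' N a)).1 ⟨a, ha, rfl⟩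
      obtain ⟨b, hb, hb'⟩ := h2
      have h3 : (x * a * x⁻¹) * b⁻¹ ∈ N := by
        rw [← QuotientGroup.eq_one_iff]
        have : (QuotientGroup.mk' N) ((x * a * x⁻¹) * b⁻¹) = 1 := by
          rw [map_mul, map_inv, hb']; simp
        exact this
      have h4 := Subgroup.mul_mem _ ((le_sup_left : N ≤ N ⊔ P) h3) ((le_sup_right : P ≤ N ⊔ P) hb)
      simpa using h4
    obtain ⟨n, hn, hnx⟩ := lemA x h1
    refine ⟨n⁻¹ * x, ?_, ?_⟩
    · apply mem_normalizer_of_cj_eq
      rw [← cj_cj, hnx, cj_inv_cj]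
    · rw [map_mul, map_inv]
      have : (QuotientGroup.mk' N) n = 1 := (QuotientGroup.eq_one_iff n).2 hn
      rw [this]; simp
  constructor
  · apply le_antisymm
    · intro q hq
      obtain ⟨x, rfl⟩ := QuotientGroup.mk'_surjective N q
      obtain ⟨y, hy, hyx⟩ := lemB x hq
      exact ⟨y, hy, hyx⟩
    · exact Subgroup.le_normalizer_map _
  · apply le_antisymm
    · intro q hq
      obtain ⟨x, rfl⟩ := QuotientGroup.mk'_surjective N q
      obtain ⟨y, hy, hyx⟩ := lemB x (Subgroup.centralizer_le_normalizer _ hq)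
      refine ⟨y, ?_, hyx⟩
      rw [SetLike.mem_coe, Subgroup.mem_centralizer_iff]
      intro a ha
      have h1 : y * a * y⁻¹ * a⁻¹ ∈ P :=
        P.mul_mem ((Subgroup.mem_normalizer_iff.1 hy a).1 ha) (P.inv_mem ha)
      have h2 : y * a * y⁻¹ * a⁻¹ ∈ N := by
        rw [← QuotientGroup.eq_one_iff]
        have h3 := (Subgroup.mem_centralizer_iff.1 hq) (QuotientGroup.mk' N a) ⟨a, ha, rfl⟩
        have : (QuotientGroup.mk' N) (y * a * y⁻¹ * a⁻¹) = 1 := by
          simp only [map_mul, map_inv, hyx]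
          rw [← h3]; simp
        exact this
      have hdisj : P ⊓ N = ⊥ := by
        apply Subgroup.inf_eq_bot_of_coprime
        obtain ⟨k, hk⟩ := hP.exists_card_eq
        rw [hk]
        exact (Nat.Coprime.pow_right k hN).symm
      have h4 : y * a * y⁻¹ * a⁻¹ ∈ P ⊓ N := ⟨h1, h2⟩
      rw [hdisj, Subgroup.mem_bot, mul_inv_eq_one, mul_inv_eq_iff_eq_mul] at h4
      exact h4.symm
    · rintro _ ⟨c, hc, rfl⟩
      rw [Subgroup.mem_centralizer_iff]
      rintro _ ⟨a, ha, rfl⟩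
      have := (Subgroup.mem_centralizer_iff.1 hc) a ha
      rw [← map_mul, ← map_mul, this]

end Cfsg.Agent.S3800
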