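import Cfsg.Statements.S3979
import Mathlib

set_option autoImplicit false
open Cfsg

namespace Cfsg.Agent.S3979

/-- A finite cyclic group has trivial Schur multiplier: every finite stem extension of it is an isomorphism, said through `HasCyclicSchurMultiplier G 1`. -/
theorem result {G : Type*} [Group G] [Finite G] [IsCyclic G] : Cfsg.HasCyclicSchurMultiplier G 1 := by
  constructor
  · refine ⟨G, inferInstance, inferInstance, MonoidHom.id G, ⟨Function.surjective_id, ?_, ?_⟩, ?_⟩
    · simp
    · simp
    · have : (MonoidHom.id G).ker = ⊥ := by simp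
      rw [this]
      exact ⟨MulEquiv.ofUnique⟩
  · intro Γ _ _ σ hσ
    obtain ⟨hs, hc, hd⟩ := hσ
    have hcomm : ∀ a b : Γ, a * b = b * a :=
      commutative_of_cyclic_center_quotient σ hc
    have hcomm' : commutator Γ = ⊥ := by
      rw [commutator_def, Subgroup.commutator_eq_bot_iff_le_centralizer]
      intro a _
      rw [Subgroup.mem_centralizer_iff]
      intro b _
      exact hcomm b a
    have hk : σ.ker = ⊥ := by
      rw [eq_bot_iff, ← hcomm']; exact hd
    refine ⟨1, ?_⟩
    intro x
    refine ⟨1, ?_⟩
    have hx : (x : Γ) ∈ (⊥ : Subgroup Γ) := hk ▸ x.2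
    ext
    simpa using (Subgroup.mem_bot.mp hx).symm

end Cfsg.Agent.S3979
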