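import Cfsg.Statements.S3950
import Cfsg.Agent.Lib.Helper21.BilinExt
import Cfsg.Agent.Lib.Helper21.Multiplier
import Cfsg.Agent.S3979

set_option autoImplicit false
open Cfsg

namespace Cfsg.Agent.S3950

open Cfsg.Agent.Lib.Helper21
open scoped commutatorElement

theorem isCyclic_pi_of_coprime {ι : Type} [Fintype ι] (n : ι → ℕ) (hn : ∀ i, 1 < n i)
    (hcop : ∀ i j, i ≠ j → (n i).Coprime (n j)) : IsCyclic ((i : ι) → Multiplicative (ZMod (n i))) := by
  have : ∀ i, NeZero (n i) := fun i => ⟨by have := hn i; omega⟩
  apply IsCyclic.of_exponent_eq_card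
  rw [Monoid.exponent_pi, Nat.card_pi]
  have h1 : ∀ i, Monoid.exponent (Multiplicative (ZMod (n i))) = n i := by
    intro i
    rw [Monoid.exponent_multiplicative, ZMod.exponent]
  have h2 : ∀ i, Nat.card (Multiplicative (ZMod (n i))) = n i := by
    intro i
    rw [Nat.card_congr Multiplicative.toAdd, Nat.card_zmod]
  simp only [h1, h2]
  apply Finset.lcm_eq_prod
  intro i _ j _ hij
  exact hcop i j hij

/-- A finite abelian group has trivial Schur multiplier if and only if it is cyclic. -/
theorem result {G : Type*} [CommGroup G] [Finite G] : Cfsg.HasCyclicSchurMultiplier G 1 ↔ IsCyclic G := by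
  constructor
  · intro hM
    obtain ⟨ι, _, n, hn, ⟨e⟩⟩ := CommGroup.equiv_prod_multiplicative_zmod_of_finite G
    classical
    by_cases hcop : ∀ i j, i ≠ j → (n i).Coprime (n j)
    · have := isCyclic_pi_of_coprime n hn hcop
      exact isCyclic_of_surjective e.symm e.symm.surjective
    · exfalso
      push Not at hcop
      obtain ⟨i, j, hij, hnc⟩ := hcop
      obtain ⟨p, hp, hpi, hpj⟩ := Nat.Prime.not_coprime_iff_dvd.mp hnc
      have : Fact p.Prime := ⟨hp⟩
      let f₁ : G →* Multiplicative (ZMod p) :=
        ((AddMonoidHom.toMultiplicative (ZMod.castHom hpi (ZMod p)).toAddMonoidHom).comp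
          (Pi.evalMonoidHom (fun i => Multiplicative (ZMod (n i))) i)).comp e.toMonoidHom
      let f₂ : G →* Multiplicative (ZMod p) :=
        ((AddMonoidHom.toMultiplicative (ZMod.castHom hpj (ZMod p)).toAddMonoidHom).comp
          (Pi.evalMonoidHom (fun i => Multiplicative (ZMod (n i))) j)).comp e.toMonoidHom
      let β := ringBilin f₁ f₂
      obtain ⟨π₀, hπ₀⟩ := surj_of_central hM (BilinExt.proj β) (BilinExt.proj_surjective β)
        (BilinExt.ker_proj_le_center β)
      let g : G := e.symm (Pi.mulSingle i (Multiplicative.ofAdd 1))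
      let h : G := e.symm (Pi.mulSingle j (Multiplicative.ofAdd 1))
      have hcomm := BilinExt.commutator_of_commute β ⟨g, 1⟩ ⟨h, 1⟩ (mul_comm _ _)
      have h2 : β g h * (β h g)⁻¹ = Multiplicative.ofAdd (1 : ZMod p) := by
        have e1 : f₁ g = Multiplicative.ofAdd 1 := by
          simp only [f₁, g, MonoidHom.comp_apply, MulEquiv.coe_toMonoidHom, MulEquiv.apply_symm_apply,
            Pi.evalMonoidHom_apply, Pi.mulSingle_eq_same]
          show Multiplicative.ofAdd (ZMod.castHom hpi (ZMod p) 1) = _
          rw [map_one]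
        have e2 : f₂ h = Multiplicative.ofAdd 1 := by
          simp only [f₂, h, MonoidHom.comp_apply, MulEquiv.coe_toMonoidHom, MulEquiv.apply_symm_apply,
            Pi.evalMonoidHom_apply, Pi.mulSingle_eq_same]
          show Multiplicative.ofAdd (ZMod.castHom hpj (ZMod p) 1) = _
          rw [map_one]
        have e3 : f₁ h = 1 := by
          simp only [f₁, h, MonoidHom.comp_apply, MulEquiv.coe_toMonoidHom, MulEquiv.apply_symm_apply,
            Pi.evalMonoidHom_apply, Pi.mulSingle_eq_of_ne hij, map_one]
        simp only [β, ringBilin_apply, e1, e2, e3]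
        simp
      have hmem : BilinExt.incl β (Multiplicative.ofAdd (1 : ZMod p)) ∈
          (BilinExt.proj β).ker ⊓ commutator (BilinExt β) := by
        refine ⟨rfl, ?_⟩
        show _ ∈ commutator (BilinExt β)
        rw [← h2, ← hcomm]
        exact Subgroup.commutator_mem_commutator (Subgroup.mem_top _) (Subgroup.mem_top _)
      obtain ⟨a, ha⟩ := hπ₀ ⟨_, hmem⟩
      have ha1 : a = 1 := Subsingleton.elim _ _
      rw [ha1, map_one] at ha
      have h3 : (1 : BilinExt β) = BilinExt.incl β (Multiplicative.ofAdd (1 : ZMod p)) :=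
        congrArg Subtype.val ha
      have h4 : (1 : Multiplicative (ZMod p)) = Multiplicative.ofAdd (1 : ZMod p) :=
        congrArg BilinExt.snd h3
      have h5 : (0 : ZMod p) = 1 := congrArg Multiplicative.toAdd h4
      exact zero_ne_one h5
  · intro h
    exact Cfsg.Agent.S3979.result

end Cfsg.Agent.S3950
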