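import Cfsg.Statements.S3951
import Cfsg.Agent.Lib.Helper21.BilinExt
import Cfsg.Agent.Lib.Helper21.Gens
import Cfsg.Agent.Lib.Helper21.Stem

set_option autoImplicit false
open Cfsg

namespace Cfsg.Agent.S3951

open Cfsg.Agent.Lib.Helper21
open scoped commutatorElement

theorem closure_gens (m n : ℕ) [NeZero m] [NeZero n] :
    Subgroup.closure ({Multiplicative.ofAdd ((1, 0) : ZMod m × ZMod n),
      Multiplicative.ofAdd ((0, 1) : ZMod m × ZMod n)} : Set (Multiplicative (ZMod m × ZMod n))) = ⊤ := by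
  rw [eq_top_iff]
  intro q _
  have h1 : Multiplicative.ofAdd ((1, 0) : ZMod m × ZMod n) ∈ Subgroup.closure ({Multiplicative.ofAdd ((1, 0) : ZMod m × ZMod n),
      Multiplicative.ofAdd ((0, 1) : ZMod m × ZMod n)} : Set (Multiplicative (ZMod m × ZMod n))) :=
    Subgroup.subset_closure (by simp)
  have h2 : Multiplicative.ofAdd ((0, 1) : ZMod m × ZMod n) ∈ Subgroup.closure ({Multiplicative.ofAdd ((1, 0) : ZMod m × ZMod n),
      Multiplicative.ofAdd ((0, 1) : ZMod m × ZMod n)} : Set (Multiplicative (ZMod m × ZMod n))) :=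
    Subgroup.subset_closure (by simp)
  have hq : q = Multiplicative.ofAdd ((1, 0) : ZMod m × ZMod n) ^ (Multiplicative.toAdd q).1.val *
      Multiplicative.ofAdd ((0, 1) : ZMod m × ZMod n) ^ (Multiplicative.toAdd q).2.val := by
    rw [← ofAdd_nsmul, ← ofAdd_nsmul, ← ofAdd_add]
    apply Multiplicative.toAdd.injective
    ext <;> simp
  rw [hq]
  exact Subgroup.mul_mem _ (Subgroup.pow_mem _ h1 _) (Subgroup.pow_mem _ h2 _)

/-- For positive integers `m` and `n` with `n` dividing `m`, the Schur multiplier of the abelian group `ZMod m × ZMod n` (written multiplicatively) is cyclic of order `n`. In particular the elementary abelian group of order `p ^ 2` has multiplier of order `p`. -/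
theorem result (m n : ℕ) [NeZero m] [NeZero n] (hnm : n ∣ m) : Cfsg.HasCyclicSchurMultiplier (Multiplicative (ZMod m × ZMod n)) n := by
  constructor
  · let f₁ : Multiplicative (ZMod m × ZMod n) →* Multiplicative (ZMod n) :=
      AddMonoidHom.toMultiplicative ((ZMod.castHom hnm (ZMod n)).toAddMonoidHom.comp (AddMonoidHom.fst _ _))
    let f₂ : Multiplicative (ZMod m × ZMod n) →* Multiplicative (ZMod n) :=
      AddMonoidHom.toMultiplicative (AddMonoidHom.snd _ _)
    let β := ringBilin f₁ f₂
    refine ⟨BilinExt β, inferInstance, inferInstance, BilinExt.proj β,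
      ⟨BilinExt.proj_surjective β, BilinExt.ker_proj_le_center β, ?_⟩, ⟨BilinExt.kerEquiv β⟩⟩
    rw [BilinExt.ker_proj_eq_range]
    rintro _ ⟨t, rfl⟩
    have h1 : BilinExt.incl β (Multiplicative.ofAdd (1 : ZMod n)) ∈ commutator (BilinExt β) := by
      have := BilinExt.commutator_of_commute β ⟨Multiplicative.ofAdd ((1, 0) : ZMod m × ZMod n), 1⟩
        ⟨Multiplicative.ofAdd ((0, 1) : ZMod m × ZMod n), 1⟩ (mul_comm _ _)
      have h2 : β (Multiplicative.ofAdd ((1, 0) : ZMod m × ZMod n)) (Multiplicative.ofAdd ((0, 1) : ZMod m × ZMod n)) *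
          (β (Multiplicative.ofAdd ((0, 1) : ZMod m × ZMod n)) (Multiplicative.ofAdd ((1, 0) : ZMod m × ZMod n)))⁻¹
          = Multiplicative.ofAdd (1 : ZMod n) := by
        simp [β, f₁, f₂]
        exact ZMod.cast_one hnm
      rw [h2] at this
      rw [← this]
      exact Subgroup.commutator_mem_commutator (Subgroup.mem_top _) (Subgroup.mem_top _)
    have h3 : t = Multiplicative.ofAdd (1 : ZMod n) ^ (Multiplicative.toAdd t).val := by
      rw [← ofAdd_nsmul]
      apply Multiplicative.toAdd.injective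
      simp
    rw [h3, map_pow]
    exact Subgroup.pow_mem _ h1 _
  · intro Γ _ _ σ hσ
    obtain ⟨hs, hc, hd⟩ := hσ
    obtain ⟨a, ha⟩ := hs (Multiplicative.ofAdd ((1, 0) : ZMod m × ZMod n))
    obtain ⟨b, hb⟩ := hs (Multiplicative.ofAdd ((0, 1) : ZMod m × ZMod n))
    have hcK : ⁅a, b⁆ ∈ σ.ker := by
      rw [MonoidHom.mem_ker, map_commutatorElement, commutatorElement_eq_one_iff_mul_comm]
      exact mul_comm _ _
    have hcZ : ⁅a, b⁆ ∈ Subgroup.center Γ := hc hcK
    have hnorm : (Subgroup.zpowers ⁅a, b⁆).Normal := by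
      constructor
      intro z hz g
      have hzc : z ∈ Subgroup.center Γ := by
        obtain ⟨i, rfl⟩ := hz
        exact Subgroup.zpow_mem _ hcZ i
      have : g * z * g⁻¹ = z := by rw [Subgroup.mem_center_iff.mp hzc g]; group
      rw [this]; exact hz
    have hgen : Subgroup.closure (({a, b} : Set Γ) ∪ (σ.ker : Set Γ)) = ⊤ := by
      apply closure_union_ker_eq_top
      rw [Set.image_pair, ha, hb]
      exact closure_gens m n
    have hle : commutator Γ ≤ Subgroup.zpowers ⁅a, b⁆ := by
      apply commutator_le_of_generators _ hgen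
      have hk1 : ∀ k ∈ σ.ker, ∀ y : Γ, ⁅k, y⁆ ∈ Subgroup.zpowers ⁅a, b⁆ := by
        intro k hk y
        have : ⁅k, y⁆ = 1 := by
          rw [commutatorElement_eq_one_iff_mul_comm]
          exact (Subgroup.mem_center_iff.mp (hc hk) y).symm
        rw [this]; exact Subgroup.one_mem _
      have hk2 : ∀ k ∈ σ.ker, ∀ y : Γ, ⁅y, k⁆ ∈ Subgroup.zpowers ⁅a, b⁆ := by
        intro k hk y
        have : ⁅y, k⁆ = 1 := by
          rw [commutatorElement_eq_one_iff_mul_comm]
          exact (Subgroup.mem_center_iff.mp (hc hk) y)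
        rw [this]; exact Subgroup.one_mem _
      rintro x (hx | hx) y (hy | hy)
      · have h_ab : ⁅a, b⁆ ∈ Subgroup.zpowers ⁅a, b⁆ := Subgroup.mem_zpowers _
        have h_ba : ⁅b, a⁆ ∈ Subgroup.zpowers ⁅a, b⁆ := by
          rw [← commutatorElement_inv a b]; exact Subgroup.inv_mem _ (Subgroup.mem_zpowers _)
        have h_aa : ⁅a, a⁆ ∈ Subgroup.zpowers ⁅a, b⁆ := by simp
        have h_bb : ⁅b, b⁆ ∈ Subgroup.zpowers ⁅a, b⁆ := by simp
        rcases hx with hx | hx <;> rcases hy with hy | hy <;> rw [hx, hy] <;> assumption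
      · exact hk2 y hy x
      · exact hk1 x hx y
      · exact hk1 x hx y
    have hpow : ⁅a, b⁆ ^ n = 1 := by
      rw [← comm_pow_right_of_central hcZ, commutatorElement_eq_one_iff_mul_comm]
      have : b ^ n ∈ σ.ker := by
        rw [MonoidHom.mem_ker, map_pow, hb, ← ofAdd_nsmul]
        have : n • ((0, 1) : ZMod m × ZMod n) = 0 := by
          ext <;> simp
        rw [this]; rfl
      exact Subgroup.mem_center_iff.mp (hc this) a
    apply exists_surj_zmod_of_zpowers (⟨⁅a, b⁆, hcK⟩ : σ.ker) n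
    · ext; simpa using hpow
    · intro k
      obtain ⟨i, hi⟩ := hle (hd k.2)
      exact ⟨i, by ext; simpa using hi⟩

end Cfsg.Agent.S3951
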