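import Cfsg.Statements.S3952
import Cfsg.Agent.Lib.Helper24.Central
import Cfsg.Agent.Lib.Helper24.Codegree
import Cfsg.Agent.Lib.Helper2.Schur

set_option autoImplicit false
open Cfsg

namespace Cfsg.Agent.S3952

open Cfsg.Agent.Lib.Helper2 Cfsg.Agent.Lib.Helper6 Cfsg.Agent.Lib.Helper24

attribute [local instance] irrFintype

/-- the determinant argument: a central element of the commutator subgroup acts by a scalar whose
`χ(1)`-th power is one. -/
theorem central_pow {Γ : Type*} [Group Γ] [Finite Γ] {χ : Γ → ℂ} (hχ : IsIrrCharacter Γ χ) {k : Γ}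
    (hk : k ∈ Subgroup.center Γ) (hk' : k ∈ commutator Γ) :
    (χ k / χ 1) ^ (charDegree χ) = 1 := by
  have hdeg := charDegree_cast (IsIrrCharacter.isCharacter hχ)
  obtain ⟨n, ρ, hirr, rfl⟩ := hχ
  haveI := hirr
  have h1 : ρ.character 1 = (n : ℂ) := by
    rw [Representation.char_one]; simp
  have hn : charDegree ρ.character = n := by
    have : (charDegree ρ.character : ℂ) = (n : ℂ) := by rw [hdeg, h1]
    exact_mod_cast this
  have hs := schur_scalar ρ (ρ k) (by
    intro g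
    show ρ k * ρ g = ρ g * ρ k
    rw [← map_mul, ← map_mul, Subgroup.mem_center_iff.1 hk g])
  have hfr : (Module.finrank ℂ (Fin n → ℂ) : ℂ) = (n : ℂ) := by simp
  have hc : LinearMap.trace ℂ (Fin n → ℂ) (ρ k) = ρ.character k := rfl
  rw [hc, hfr, ← h1] at hs
  -- determinant
  let δ : Γ →* ℂ := LinearMap.det.comp ρ
  have hδ : δ k = 1 := by
    have h2 := Abelianization.commutator_subset_ker (MonoidHom.toHomUnits δ) hk'
    rw [MonoidHom.mem_ker] at h2
    have h3 := congrArg Units.val h2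
    simpa using h3
  have hδ' : δ k = (ρ.character k / ρ.character 1) ^ n := by
    show LinearMap.det (ρ k) = _
    rw [hs, LinearMap.det_smul, LinearMap.det_id, mul_one]
    simp
  rw [hn, ← hδ', hδ]

theorem main {Γ : Type*} [Group Γ] [Finite Γ] (K : Subgroup Γ) (hK : K ≤ Subgroup.center Γ)
    (hK' : K ≤ commutator Γ) (lam : K →* ℂˣ) (E : ℕ)
    (hE : ∀ d : ℕ, (∀ k, lam k ^ d = 1) → E ∣ d) : E ^ 2 ∣ K.index := by
  classical
  cases nonempty_fintype Γ
  -- the twisted sums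
  let mu : IrrCharacter Γ → (K →* ℂ) := fun χ =>
    centralHom χ.2 K hK * (Units.coeHom ℂ).comp lam⁻¹
  have hmu : ∀ (χ : IrrCharacter Γ) (k : K), mu χ k = (χ : Γ → ℂ) k / (χ : Γ → ℂ) 1 * ((lam k)⁻¹ : ℂˣ) := by
    intro χ k
    rfl
  have h1 : ∀ k : K, ∑ χ : IrrCharacter Γ, (χ : Γ → ℂ) 1 * (χ : Γ → ℂ) k =
      if (k : Γ) = 1 then (Nat.card Γ : ℂ) else 0 := fun k => sum_degree_mul_irr (k : Γ)
  have h2 : ∑ k : K, (∑ χ : IrrCharacter Γ, (χ : Γ → ℂ) 1 * (χ : Γ → ℂ) k) * ((lam k)⁻¹ : ℂˣ) =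
      (Nat.card Γ : ℂ) := by
    simp only [h1]
    rw [Finset.sum_eq_single 1]
    · simp
    · intro b _ hb
      have : (b : Γ) ≠ 1 := fun h => hb (Subtype.ext h)
      simp [this]
    · intro h; exact absurd (Finset.mem_univ _) h
  have h3 : ∑ k : K, (∑ χ : IrrCharacter Γ, (χ : Γ → ℂ) 1 * (χ : Γ → ℂ) k) * ((lam k)⁻¹ : ℂˣ) =
      ∑ χ : IrrCharacter Γ, ((χ : Γ → ℂ) 1) ^ 2 * ∑ k : K, mu χ k := by
    simp only [Finset.sum_mul, Finset.mul_sum]
    rw [Finset.sum_comm]
    refine Finset.sum_congr rfl fun χ _ => Finset.sum_congr rfl fun k _ => ?_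
    rw [hmu]
    have h0 := irr_one_ne_zero χ.2
    field_simp
  have h4 : ∀ χ : IrrCharacter Γ, ((χ : Γ → ℂ) 1) ^ 2 * ∑ k : K, mu χ k =
      (((if mu χ = 1 then charDegree (χ : Γ → ℂ) ^ 2 else 0 : ℕ) * Nat.card K : ℕ) : ℂ) := by
    intro χ
    rw [sum_hom_units (mu χ), ← charDegree_cast (IsIrrCharacter.isCharacter χ.2)]
    split_ifs with h
    · push_cast
      rw [Nat.card_eq_fintype_card]
    · simp
  rw [h3] at h2
  simp only [h4] at h2
  have h5 : (∑ χ : IrrCharacter Γ, (if mu χ = 1 then charDegree (χ : Γ → ℂ) ^ 2 else 0)) * Nat.card K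
      = Nat.card Γ := by
    rw [Finset.sum_mul]
    exact_mod_cast h2
  have h6 : (∑ χ : IrrCharacter Γ, (if mu χ = 1 then charDegree (χ : Γ → ℂ) ^ 2 else 0)) = K.index := by
    have := Subgroup.card_mul_index K
    rw [← h5, mul_comm] at this
    exact (Nat.eq_of_mul_eq_mul_right Nat.card_pos this).symm
  rw [← h6]
  apply Finset.dvd_sum
  intro χ _
  split_ifs with h
  · apply pow_dvd_pow_of_dvd
    apply hE
    intro k
    have h7 : mu χ k = 1 := by rw [h]; rfl
    rw [hmu] at h7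
    have h8 : (χ : Γ → ℂ) k / (χ : Γ → ℂ) 1 = (lam k : ℂ) := by
      have : ((lam k : ℂˣ) : ℂ) ≠ 0 := Units.ne_zero _
      rw [Units.val_inv_eq_inv_val] at h7
      field_simp at h7
      field_simp
      exact h7
    have h9 := central_pow χ.2 (hK k.2) (hK' k.2)
    rw [h8] at h9
    exact Units.ext (by simpa using h9)
  · exact dvd_zero _

/-- If `A` is the Schur multiplier of the finite group `Q`, then the square of the exponent of `A` divides the order of `Q`. -/
theorem result {Q : Type*} [Group Q] [Finite Q] {A : Type*} [CommGroup A] (hA : Cfsg.HasSchurMultiplier Q A) : Monoid.exponent A ^ 2 ∣ Nat.card Q := by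
  obtain ⟨⟨Γ, _, _, σ, ⟨hsurj, hcen, hcom⟩, ⟨e⟩⟩, -⟩ := hA
  haveI : Finite A := Finite.of_equiv _ e.toEquiv
  have hex : Monoid.exponent A ≠ 0 := Monoid.exponent_ne_zero_of_finite
  haveI : NeZero (Monoid.exponent A) := ⟨hex⟩
  obtain ⟨d⟩ := CommGroup.monoidHom_mulEquiv_of_hasEnoughRootsOfUnity A ℂ
  haveI : Finite (A →* ℂˣ) := Finite.of_equiv _ d.symm.toEquiv
  obtain ⟨lamA, hlam⟩ := Monoid.exists_orderOf_eq_exponent
    (G := A →* ℂˣ) (Monoid.exponent_ne_zero.1 (by
      rw [Monoid.exponent_eq_of_mulEquiv d]; exact hex))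
  rw [Monoid.exponent_eq_of_mulEquiv d] at hlam
  have hidx : σ.ker.index = Nat.card Q := by
    rw [Subgroup.index_ker, MonoidHom.range_eq_top.2 hsurj]
    exact Nat.card_congr Subgroup.topEquiv.toEquiv
  rw [← hidx]
  apply main σ.ker hcen hcom (lamA.comp e.toMonoidHom)
  intro n hn
  rw [← hlam]
  apply orderOf_dvd_of_pow_eq_one
  ext a
  have := hn (e.symm a)
  simpa using congrArg Units.val this

end Cfsg.Agent.S3952
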