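import Cfsg.Statements.S3954
import Cfsg.Agent.Lib.Helper21.DualEmbed
import Cfsg.Agent.Lib.Helper21.Multiplier

set_option autoImplicit false
open Cfsg

namespace Cfsg.Agent.S3954

/-- Let `U` be a subgroup of index `m` in the finite group `G`, let `A` be the Schur multiplier of `G` and `B` that of `U`. Then the subgroup of `m`-th powers of `A` is isomorphic to a subgroup of `B`. -/
theorem result {G : Type*} [Group G] [Finite G] (U : Subgroup G) {A B : Type*} [CommGroup A] [CommGroup B] (hA : Cfsg.HasSchurMultiplier G A) (hB : Cfsg.HasSchurMultiplier U B) : ∃ C : Subgroup B, Nonempty ((powMonoidHom U.index : A →* A).range ≃* C) := by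
  obtain ⟨⟨Γ, _, _, σ, hσ, ⟨e⟩⟩, -⟩ := hA
  have hfB : Finite B := Lib.Helper21.finite_of_hasSchurMultiplier hB
  set W : Subgroup Γ := U.comap σ with hW
  have hidx : W.index = U.index := Subgroup.index_comap_of_surjective U hσ.1
  let ξ : W →* U := σ.subgroupComap U
  have hξ : Function.Surjective ξ := σ.subgroupComap_surjective_of_surjective U hσ.1
  have hker : ∀ x : W, x ∈ ξ.ker ↔ (x : Γ) ∈ σ.ker := by
    intro x
    rw [MonoidHom.mem_ker, MonoidHom.mem_ker]
    constructor
    · intro h
      exact congrArg Subtype.val h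
    · intro h
      exact Subtype.ext h
  have hc : ξ.ker ≤ Subgroup.center W := by
    intro x hx
    have h1 : (x : Γ) ∈ Subgroup.center Γ := hσ.2.1 ((hker x).1 hx)
    rw [Subgroup.mem_center_iff] at h1 ⊢
    intro y
    exact Subtype.ext (h1 y)
  obtain ⟨π, hπ⟩ := Lib.Helper21.surj_of_central hB ξ hξ hc
  obtain ⟨ι, hι⟩ := Lib.Helper21.exists_injective_of_surjective π hπ
  -- `m`-th powers of kernel elements lie in the commutator subgroup of `W`
  have hmemW : ∀ z : Γ, z ∈ σ.ker → z ∈ W := by
    intro z hz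
    rw [hW, Subgroup.mem_comap, MonoidHom.mem_ker.1 hz]
    exact U.one_mem
  have hpow : ∀ (z : Γ) (hz : z ∈ σ.ker),
      (⟨z ^ U.index, hmemW _ (Subgroup.pow_mem _ hz _)⟩ : W) ∈ commutator W := by
    intro z hz
    have hzc : z ∈ Subgroup.center Γ := hσ.2.1 hz
    have key : ∀ (k : ℕ) (g₀ : Γ), g₀⁻¹ * z ^ k * g₀ ∈ W → g₀⁻¹ * z ^ k * g₀ = z ^ k := by
      intro k g₀ _
      have h2 : z ^ k ∈ Subgroup.center Γ := Subgroup.pow_mem _ hzc k
      rw [Subgroup.mem_center_iff] at h2
      rw [mul_assoc, ← h2 g₀, ← mul_assoc, inv_mul_cancel, one_mul]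
    have h1 := MonoidHom.transfer_eq_pow (Abelianization.of : W →* Abelianization W) z key
    have h2 : (Abelianization.of : W →* Abelianization W).transfer z = 1 :=
      MonoidHom.mem_ker.1 (Abelianization.commutator_subset_ker _ (hσ.2.2 hz))
    rw [h2] at h1
    have h3 : (⟨z ^ W.index, MonoidHom.transfer_eq_pow_aux z key⟩ : W) ∈
        (Abelianization.of : W →* Abelianization W).ker := MonoidHom.mem_ker.2 h1.symm
    rw [Abelianization.ker_of] at h3
    have h4 : (⟨z ^ W.index, MonoidHom.transfer_eq_pow_aux z key⟩ : W) =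
        ⟨z ^ U.index, hmemW _ (Subgroup.pow_mem _ hz _)⟩ := Subtype.ext (by simp only [hidx])
    rwa [h4] at h3
  let j : (powMonoidHom U.index : A →* A).range →* ↥(ξ.ker ⊓ commutator W) :=
    { toFun := fun a => ⟨⟨((e.symm a.1 : σ.ker) : Γ), hmemW _ (e.symm a.1).2⟩, by
        obtain ⟨b, hb⟩ := a.2
        refine ⟨(hker _).2 (e.symm a.1).2, ?_⟩
        have h5 := hpow (e.symm b : σ.ker) (e.symm b).2
        have h6 : (((e.symm a.1 : σ.ker) : Γ)) = ((e.symm b : σ.ker) : Γ) ^ U.index := by
          rw [← hb, powMonoidHom_apply, map_pow, Subgroup.coe_pow]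
        have h7 : (⟨((e.symm a.1 : σ.ker) : Γ), hmemW _ (e.symm a.1).2⟩ : W) =
            ⟨((e.symm b : σ.ker) : Γ) ^ U.index, hmemW _ (Subgroup.pow_mem _ (e.symm b).2 _)⟩ :=
          Subtype.ext h6
        rw [h7]
        exact h5⟩
      map_one' := by
        apply Subtype.ext
        apply Subtype.ext
        simp
      map_mul' := by
        intro a b
        apply Subtype.ext
        apply Subtype.ext
        simp }
  have hj : Function.Injective j := by
    intro a b h
    have h1 : ((e.symm a.1 : σ.ker) : Γ) = ((e.symm b.1 : σ.ker) : Γ) :=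
      congrArg (fun t : ↥(ξ.ker ⊓ commutator W) => ((t : W) : Γ)) h
    exact Subtype.ext (e.symm.injective (Subtype.ext h1))
  exact ⟨(ι.comp j).range, ⟨MonoidHom.ofInjective (hι.comp hj)⟩⟩

end Cfsg.Agent.S3954
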