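import Cfsg.Statements.S3957
import Cfsg.Agent.Lib.Helper21.Multiplier

set_option autoImplicit false
universe u v
open Cfsg

namespace Cfsg.Agent.S3957

open Cfsg.Agent.Lib.Helper21

/-- Let `Q` be a finite group with Schur multiplier `A` and let `τ : Δ →* Q` be a finite stem extension, `Δ` in the universe of `Q`. Then there is a finite stem extension `σ : Γ →* Q` with kernel isomorphic to `A` (a Schur covering group) and a surjective homomorphism `β : Γ →* Δ` with `τ ∘ β = σ`. -/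
theorem result {Q : Type u} [Group Q] [Finite Q] {A : Type v} [CommGroup A] (hA : Cfsg.HasSchurMultiplier Q A) {Δ : Type u} [Group Δ] [Finite Δ] (τ : Δ →* Q) (hτ : Cfsg.IsStemExtension τ) : ∃ (Γ : Type u) (_ : Group Γ) (_ : Finite Γ) (σ : Γ →* Q), Cfsg.IsStemExtension σ ∧ Nonempty (σ.ker ≃* A) ∧ ∃ β : Γ →* Δ, Function.Surjective β ∧ τ.comp β = σ := by
  have hf : Function.Surjective (FreeGroup.lift (id : Q → Q)) := lift_id_surjective
  obtain ⟨ψ, hψ⟩ := CE_free_exists_lift (id : Q → Q) τ hτ.1 hτ.2.1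
  have hψ' : ∀ x, τ (ψ x) = CEproj (FreeGroup.lift (id : Q → Q)) x := fun x => congrArg (fun θ => θ x) hψ
  have hmap := map_ker_inf_commutator (CEproj (FreeGroup.lift (id : Q → Q))) (CEproj_surjective _ hf) τ hτ.2.1 ψ hψ
  rw [stem_ker_inf τ hτ] at hmap
  obtain ⟨Γ, i1, i2, σ, q, h1, h2, h3, h4, ⟨e⟩⟩ := exists_cover_below (id : Q → Q) hf ψ.ker
    (by
      intro x hx
      rw [MonoidHom.mem_ker] at hx ⊢
      rw [← hψ', hx, map_one])
    (by
      intro z hz
      have : ψ z ∈ τ.ker := by rw [MonoidHom.mem_ker, hψ']; exact hz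
      rw [← hmap] at this
      obtain ⟨m, hm, hmz⟩ := this
      refine ⟨z * m⁻¹, ?_, m, hm, by group⟩
      rw [MonoidHom.mem_ker, map_mul, map_inv, hmz]; simp)
  obtain ⟨eA⟩ := equiv_presM (id : Q → Q) hf hA
  refine ⟨Γ, i1, i2, σ, h1, ⟨e.symm.trans eA.symm⟩, q.liftOfSurjective h3 ⟨ψ, h4⟩, ?_, ?_⟩
  · intro δ
    obtain ⟨x, hx⟩ := CEproj_surjective _ hf (τ δ)
    have : (ψ x)⁻¹ * δ ∈ τ.ker := by
      rw [MonoidHom.mem_ker, map_mul, map_inv, hψ', hx]; simp
    rw [← hmap] at this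
    obtain ⟨m, hm, hmz⟩ := this
    refine ⟨q (x * m), ?_⟩
    rw [MonoidHom.liftOfRightInverse_comp_apply]
    show ψ (x * m) = δ
    rw [map_mul, hmz]; group
  · ext y
    obtain ⟨x, rfl⟩ := h3 y
    rw [MonoidHom.comp_apply, MonoidHom.liftOfRightInverse_comp_apply]
    show τ (ψ x) = σ (q x)
    rw [hψ', ← h2]; rfl

end Cfsg.Agent.S3957
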