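import Cfsg.Statements.S3958
import Cfsg.Agent.Lib.Helper21.Multiplier

set_option autoImplicit false
universe u v
open Cfsg

namespace Cfsg.Agent.S3958

open Cfsg.Agent.Lib.Helper21

/-- Let `σ : Γ →* Q` be a finite stem extension of the finite group `Q` with `Γ` of trivial Schur multiplier. Then `σ` is a Schur covering group of `Q`: for every finite stem extension `τ : Δ →* Q` with `Δ` in the same universe as `Q`, the kernel of `τ` is a homomorphic image of the kernel of `σ`. -/
theorem result {Q : Type u} [Group Q] [Finite Q] {Γ : Type v} [Group Γ] [Finite Γ] (σ : Γ →* Q) (hσ : Cfsg.IsStemExtension σ) (hΓ : Cfsg.HasCyclicSchurMultiplier Γ 1) (Δ : Type u) [Group Δ] [Finite Δ] (τ : Δ →* Q) (hτ : Cfsg.IsStemExtension τ) : ∃ π : σ.ker →* τ.ker, Function.Surjective π := by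
  have hp1 := pullbackFst_surjective σ τ hτ.1
  have hp2 := pullbackSnd_surjective σ τ hσ.1
  have hc1 := pullbackFst_ker_le_center σ τ hτ.2.1
  obtain ⟨π₀, hπ₀⟩ := surj_of_central hΓ (pullbackFst σ τ) hp1 hc1
  have htriv : ∀ y : pullback σ τ, y ∈ (pullbackFst σ τ).ker → y ∈ commutator (pullback σ τ) → y = 1 := by
    intro y h1 h2
    obtain ⟨a, ha⟩ := hπ₀ ⟨y, h1, h2⟩
    have ha1 : a = 1 := Subsingleton.elim _ _
    rw [ha1, map_one] at ha
    exact (congrArg Subtype.val ha).symm
  let T : Subgroup (pullback σ τ) := commutator (pullback σ τ) ⊓ (σ.comp (pullbackFst σ τ)).ker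
  let g₁ : T →* σ.ker := ((pullbackFst σ τ).comp T.subtype).codRestrict σ.ker (fun y => y.2.2)
  let g₂ : T →* τ.ker := ((pullbackSnd σ τ).comp T.subtype).codRestrict τ.ker (fun y => by
    rw [MonoidHom.mem_ker]
    show τ (pullbackSnd σ τ y.1) = 1
    rw [← pullback_comm]
    exact y.2.2)
  have hg₁ : Function.Bijective g₁ := by
    constructor
    · rw [injective_iff_map_eq_one]
      intro y hy
      have h1 : pullbackFst σ τ y.1 = 1 := congrArg Subtype.val hy
      ext1
      exact htriv y.1 h1 y.2.1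
    · rintro ⟨a, ha⟩
      have : a ∈ (commutator (pullback σ τ)).map (pullbackFst σ τ) := by
        rw [map_commutator_of_surjective _ hp1]; exact hσ.2.2 ha
      obtain ⟨y, hy, rfl⟩ := this
      exact ⟨⟨y, hy, ha⟩, rfl⟩
  have hg₂ : Function.Surjective g₂ := by
    rintro ⟨b, hb⟩
    have : b ∈ (commutator (pullback σ τ)).map (pullbackSnd σ τ) := by
      rw [map_commutator_of_surjective _ hp2]; exact hτ.2.2 hb
    obtain ⟨y, hy, rfl⟩ := this
    refine ⟨⟨y, hy, ?_⟩, rfl⟩
    show σ (pullbackFst σ τ y) = 1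
    rw [pullback_comm]; exact hb
  exact ⟨g₂.comp (MulEquiv.ofBijective g₁ hg₁).symm.toMonoidHom,
    hg₂.comp (MulEquiv.ofBijective g₁ hg₁).symm.surjective⟩

end Cfsg.Agent.S3958
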