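import Cfsg.Statements.S3960
import Cfsg.Agent.Lib.Helper21.Central

set_option autoImplicit false
universe u
open Cfsg

namespace Cfsg.Agent.S3960

open Cfsg.Agent.Lib.Helper21

/-- A finite perfect group `Q` has a universal central extension: a finite perfect group `G` in the universe of `Q` and a surjective homomorphism `π : G →* Q` with central kernel such that for every group `X` in that universe and every surjective homomorphism `ξ : X →* Q` with central kernel there is exactly one homomorphism `η : G →* X` with `ξ ∘ η = π`. -/
theorem result {Q : Type u} [Group Q] [Finite Q] (hQ : Group.IsPerfect Q) : ∃ (G : Type u) (_ : Group G) (_ : Finite G) (π : G →* Q), Group.IsPerfect G ∧ Function.Surjective π ∧ π.ker ≤ Subgroup.center G ∧ ∀ (X : Type u) [Group X] (ξ : X →* Q), Function.Surjective ξ → ξ.ker ≤ Subgroup.center X → ∃! η : G →* X, ξ.comp η = π := by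
  set φ : FreeGroup Q →* Q := FreeGroup.lift (id : Q → Q) with hφdef
  have hφ : Function.Surjective φ := fun q => ⟨FreeGroup.of q, by simp [hφdef]⟩
  have hp : Function.Surjective (CEproj φ) := CEproj_surjective φ hφ
  have hc : (CEproj φ).ker ≤ Subgroup.center (CE φ) := CEproj_ker_le_center φ
  have hperf : Group.IsPerfect (commutator (CE φ)) := commutator_perfect_of_central hQ _ hp hc
  refine ⟨commutator (CE φ), inferInstance, finite_commutator_of_central _ hc,
    (CEproj φ).comp (commutator (CE φ)).subtype, hperf, ?_, ?_, ?_⟩
  · intro q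
    have : q ∈ (commutator (CE φ)).map (CEproj φ) := by
      rw [map_commutator_of_surjective _ hp, hQ.commutator_eq_top]; trivial
    obtain ⟨x, hx, rfl⟩ := this
    exact ⟨⟨x, hx⟩, rfl⟩
  · intro x hx
    have hx' : (x : CE φ) ∈ Subgroup.center (CE φ) := hc hx
    rw [Subgroup.mem_center_iff] at hx' ⊢
    intro y
    ext
    exact hx' y
  · intro X _ ξ hξ hξc
    obtain ⟨ψ', hψ'⟩ := CE_free_exists_lift (id : Q → Q) ξ hξ hξc
    refine ⟨ψ'.comp (commutator (CE φ)).subtype, ?_, ?_⟩
    · show ξ.comp (ψ'.comp _) = _
      rw [← MonoidHom.comp_assoc, hψ']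
    · intro η hη
      apply hom_eq_of_perfect_of_central hperf
      intro g
      apply hξc
      rw [MonoidHom.mem_ker, map_mul, map_inv]
      have h1 : ξ (η g) = CEproj φ g := by
        have := congrArg (fun θ => θ g) hη
        exact this
      have h2 : ξ ((ψ'.comp (commutator (CE φ)).subtype) g) = CEproj φ g := by
        have := congrArg (fun θ => θ (g : CE φ)) hψ'
        exact this
      rw [h1, h2, mul_inv_cancel]

end Cfsg.Agent.S3960
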