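import Cfsg.Statements.S3961
import Cfsg.Agent.Lib.Helper21.Stem

set_option autoImplicit false
universe u v
open Cfsg

namespace Cfsg.Agent.S3961

open Cfsg.Agent.Lib.Helper21

/-- Let `π : G →* Q` be a surjective homomorphism with central kernel from a finite perfect group `G` (a perfect cover of `Q`). Then `π` is universal, in the sense that every surjective homomorphism `ξ : X →* Q` with central kernel from a group `X` in the universe of `G` admits a homomorphism `η : G →* X` with `ξ ∘ η = π`, if and only if `G` has trivial Schur multiplier. -/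
theorem result {G : Type u} {Q : Type v} [Group G] [Group Q] [Finite G] (hG : Group.IsPerfect G) (π : G →* Q) (hπ : Function.Surjective π) (hker : π.ker ≤ Subgroup.center G) : (∀ (X : Type u) [Group X] (ξ : X →* Q), Function.Surjective ξ → ξ.ker ≤ Subgroup.center X → ∃ η : G →* X, ξ.comp η = π) ↔ Cfsg.HasCyclicSchurMultiplier G 1 := by
  rw [hasCyclicSchurMultiplier_one_iff]
  constructor
  · intro hU Γ _ _ σ hσ
    have hΓ : Group.IsPerfect Γ := perfect_of_stem hG σ hσ
    obtain ⟨hs, hc, hd⟩ := hσ
    have hcent : (π.comp σ).ker ≤ Subgroup.center Γ := by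
      intro n hn
      have hn' : σ n ∈ Subgroup.center G := hker hn
      have key : (MulAut.conj n).toMonoidHom = MonoidHom.id Γ := by
        apply hom_eq_of_perfect_of_central hΓ
        intro h
        apply hc
        rw [MonoidHom.mem_ker]
        simp only [MulEquiv.coe_toMonoidHom, MulAut.conj_apply, MonoidHom.id_apply, map_mul, map_inv]
        rw [← Subgroup.mem_center_iff.mp hn' (σ h)]
        group
      rw [Subgroup.mem_center_iff]
      intro h
      have := congrArg (fun φ : Γ →* Γ => φ h) key
      simp only [MulEquiv.coe_toMonoidHom, MulAut.conj_apply, MonoidHom.id_apply] at this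
      calc h * n = (n * h * n⁻¹) * n := by rw [this]
        _ = n * h := by group
    obtain ⟨η, hη⟩ := hU Γ (π.comp σ) (hπ.comp hs) hcent
    have h1 : σ.comp η = MonoidHom.id G := by
      apply hom_eq_of_perfect_of_central hG
      intro g
      apply hker
      rw [MonoidHom.mem_ker, map_mul, map_inv]
      have : π (σ (η g)) = π g := congrArg (fun θ => θ g) hη
      simp [this]
    have h2 : η.comp σ = MonoidHom.id Γ := by
      apply hom_eq_of_perfect_of_central hΓ
      intro x
      apply hc
      rw [MonoidHom.mem_ker, map_mul, map_inv]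
      have : σ (η (σ x)) = σ x := congrArg (fun θ => θ (σ x)) h1
      simp [this]
    rw [MonoidHom.ker_eq_bot_iff]
    intro a b hab
    have ha : η (σ a) = a := congrArg (fun θ => θ a) h2
    have hb : η (σ b) = b := congrArg (fun θ => θ b) h2
    rw [← ha, ← hb, hab]
  · intro hM X _ ξ hξ hξc
    have hp := pullbackFst_surjective π ξ hξ
    have hc := pullbackFst_ker_le_center π ξ hξc
    have hstem := stem_of_central_of_perfect hG _ hp hc
    have hfin : Finite (commutator (pullback π ξ)) := finite_commutator_of_central _ hc
    have hk := hM _ _ hstem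
    have hinj : Function.Injective ((pullbackFst π ξ).comp (commutator (pullback π ξ)).subtype) :=
      (MonoidHom.ker_eq_bot_iff _).mp hk
    let e := MulEquiv.ofBijective _ ⟨hinj, hstem.1⟩
    refine ⟨((pullbackSnd π ξ).comp (commutator (pullback π ξ)).subtype).comp e.symm.toMonoidHom, ?_⟩
    ext g
    obtain ⟨y, rfl⟩ := e.surjective g
    simp only [MonoidHom.comp_apply, MulEquiv.coe_toMonoidHom, MulEquiv.symm_apply_apply]
    exact (pullback_comm π ξ y.1).symm

end Cfsg.Agent.S3961
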