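import Cfsg.Statements.S3962
import Cfsg.Agent.Lib.Helper21.Perfect

set_option autoImplicit false
open Cfsg

namespace Cfsg.Agent.S3962

/-- Let `G` be a perfect group and `π : G →* Q` a surjective homomorphism whose kernel is central. Then `π` maps the centre of `G` onto the centre of `Q`. Taking `π` to be the map to `G ⧸ Z(G)` shows that the central quotient of a perfect group has trivial centre. -/
theorem result {G Q : Type*} [Group G] [Group Q] (hG : Group.IsPerfect G) (π : G →* Q) (hπ : Function.Surjective π) (hker : π.ker ≤ Subgroup.center G) : (Subgroup.center G).map π = Subgroup.center Q := by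
  apply le_antisymm
  · rintro _ ⟨z, hz, rfl⟩
    rw [Subgroup.mem_center_iff]
    intro q
    obtain ⟨g, rfl⟩ := hπ q
    rw [← map_mul, ← map_mul, Subgroup.mem_center_iff.mp hz g]
  · intro z hz
    obtain ⟨g, rfl⟩ := hπ z
    refine ⟨g, ?_, rfl⟩
    have key : (MulAut.conj g).toMonoidHom = MonoidHom.id G := by
      apply Cfsg.Agent.Lib.Helper21.hom_eq_of_perfect_of_central hG
      intro h
      apply hker
      rw [MonoidHom.mem_ker]
      simp only [MulEquiv.coe_toMonoidHom, MulAut.conj_apply, MonoidHom.id_apply, map_mul, map_inv]
      rw [← Subgroup.mem_center_iff.mp hz (π h)]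
      group
    show g ∈ Subgroup.center G
    rw [Subgroup.mem_center_iff]
    intro h
    have := congrArg (fun φ : G →* G => φ h) key
    simp only [MulEquiv.coe_toMonoidHom, MulAut.conj_apply, MonoidHom.id_apply] at this
    calc h * g = (g * h * g⁻¹) * g := by rw [this]
      _ = g * h := by group

end Cfsg.Agent.S3962
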