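import Cfsg.Statements.S3963
import Cfsg.Agent.Lib.Helper21.Inverting
import Cfsg.Agent.Lib.Helper21.Stem

set_option autoImplicit false
open Cfsg

namespace Cfsg.Agent.S3963

open Cfsg.Agent.Lib.Helper21
open QuaternionGroup

theorem inv_a' {n : ℕ} (i : ZMod (2 * n)) : ((a i : QuaternionGroup n))⁻¹ = a (-i) := rfl
theorem inv_xa' {n : ℕ} (i : ZMod (2 * n)) : ((xa i : QuaternionGroup n))⁻¹ = xa ((n : ZMod (2 * n)) + i) := rfl

theorem a_pow' {n : ℕ} (i : ZMod (2 * n)) (k : ℕ) : (a i : QuaternionGroup n) ^ k = a (i * (k : ZMod (2 * n))) := by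
  induction k with
  | zero => simp
  | succ k IH =>
    rw [pow_succ, IH, a_mul_a, Nat.cast_add, Nat.cast_one, mul_add, mul_one]

theorem a_zpow' {n : ℕ} (i : ZMod (2 * n)) (k : ℤ) : (a i : QuaternionGroup n) ^ k = a (i * (k : ZMod (2 * n))) := by
  cases k with
  | ofNat k => simp [a_pow']
  | negSucc k =>
    rw [zpow_negSucc, a_pow', inv_a']
    congr 1
    push_cast
    ring

theorem quaternion_closure (n : ℕ) [NeZero n] :
    Subgroup.closure ({a 1, xa 0} : Set (QuaternionGroup n)) = ⊤ := by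
  rw [eq_top_iff]
  have h1 : (a 1 : QuaternionGroup n) ∈ Subgroup.closure ({a 1, xa 0} : Set (QuaternionGroup n)) :=
    Subgroup.subset_closure (by simp)
  have h2 : (xa 0 : QuaternionGroup n) ∈ Subgroup.closure ({a 1, xa 0} : Set (QuaternionGroup n)) :=
    Subgroup.subset_closure (by simp)
  have hr : ∀ i : ZMod (2 * n), (a i : QuaternionGroup n) ∈ Subgroup.closure ({a 1, xa 0} : Set (QuaternionGroup n)) := by
    intro i
    have : (a i : QuaternionGroup n) = (a 1) ^ i.val := by simp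
    rw [this]; exact Subgroup.pow_mem _ h1 _
  rintro (i | i) _
  · exact hr i
  · have : (xa i : QuaternionGroup n) = xa 0 * a i := by simp
    rw [this]; exact Subgroup.mul_mem _ h2 (hr i)

theorem two_n_cast (n : ℕ) : ((n : ℕ) : ZMod (2 * n)) + (n : ZMod (2 * n)) = 0 := by
  have : ((n : ℕ) : ZMod (2 * n)) + (n : ZMod (2 * n)) = ((2 * n : ℕ) : ZMod (2 * n)) := by
    push_cast; ring
  rw [this]; simp

/-- For every `n ≥ 1` the dicyclic (generalized quaternion) group of order `4 n` has trivial Schur multiplier. -/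
theorem result (n : ℕ) [NeZero n] : Cfsg.HasCyclicSchurMultiplier (QuaternionGroup n) 1 := by
  rw [hasCyclicSchurMultiplier_one_iff]
  intro Γ _ _ σ hσ
  obtain ⟨hs, hc, hd⟩ := hσ
  obtain ⟨A, hA⟩ := hs (a 1)
  obtain ⟨X, hX⟩ := hs (xa 0)
  have h2n := two_n_cast n
  have hk₀ : A * (X * A * X⁻¹) ∈ σ.ker := by
    rw [MonoidHom.mem_ker]
    simp only [map_mul, map_inv, hA, hX, inv_xa', xa_mul_a, xa_mul_xa, a_mul_a]
    rw [QuaternionGroup.one_def, a.injEq]
    linear_combination h2n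
  have hxa : X * A * X⁻¹ = A⁻¹ * (A * (X * A * X⁻¹)) := by group
  have hgen : Subgroup.closure (({A, X} : Set Γ) ∪ (σ.ker : Set Γ)) = ⊤ := by
    apply closure_union_ker_eq_top
    rw [Set.image_pair, hA, hX]
    exact quaternion_closure n
  set c := A⁻¹ * A⁻¹ * (A * (X * A * X⁻¹)) with hcdef
  have hcn : c ^ n = 1 := by
    apply inverting_pow_eq_one σ.ker hc A X _ hk₀ hxa
    have hk1 : (X * X)⁻¹ * A ^ n ∈ σ.ker := by
      rw [MonoidHom.mem_ker]
      simp only [map_mul, map_inv, map_pow, hA, hX, xa_mul_xa, a_pow', inv_a', a_mul_a]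
      rw [QuaternionGroup.one_def, a.injEq]
      ring
    have hz := Subgroup.mem_center_iff.mp (hc hk1) X
    calc X * A ^ n * X⁻¹ = X * (X * X) * ((X * X)⁻¹ * A ^ n) * X⁻¹ := by group
      _ = (X * X) * (X * ((X * X)⁻¹ * A ^ n)) * X⁻¹ := by group
      _ = (X * X) * (((X * X)⁻¹ * A ^ n) * X) * X⁻¹ := by rw [hz]
      _ = A ^ n := by group
  have hσc : σ c = a (-2) := by
    simp only [hcdef, map_mul, map_inv, hA, hX, inv_xa', inv_a', xa_mul_a, xa_mul_xa, a_mul_a, a.injEq]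
    linear_combination h2n
  have hle : σ.ker ≤ Subgroup.zpowers c :=
    hd.trans (inverting_commutator_le σ.ker hc A X _ hk₀ hxa hgen)
  rw [eq_bot_iff]
  intro k hk
  obtain ⟨j, rfl⟩ := hle hk
  have h1 : σ (c ^ j) = 1 := hk
  rw [map_zpow, hσc, a_zpow', QuaternionGroup.one_def, a.injEq] at h1
  have h2 : ((-2 * j : ℤ) : ZMod (2 * n)) = 0 := by push_cast; exact h1
  rw [ZMod.intCast_zmod_eq_zero_iff_dvd] at h2
  have h3 : (n : ℤ) ∣ j := by
    obtain ⟨t, ht⟩ := h2
    refine ⟨-t, ?_⟩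
    push_cast at ht
    linarith
  obtain ⟨t, rfl⟩ := h3
  rw [Subgroup.mem_bot]
  show c ^ ((n : ℤ) * t) = 1
  rw [zpow_mul, zpow_natCast, hcn, one_zpow]

end Cfsg.Agent.S3963
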