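import Cfsg.Statements.S3964
import Cfsg.Agent.Lib.Helper21.DihedralStem

set_option autoImplicit false
open Cfsg

namespace Cfsg.Agent.S3964

open Cfsg.Agent.Lib.Helper21
open DihedralGroup

/-- For odd `n` the dihedral group of order `2 n` has trivial Schur multiplier. -/
theorem result (n : ℕ) (hn : Odd n) : Cfsg.HasCyclicSchurMultiplier (DihedralGroup n) 1 := by
  have : NeZero n := ⟨by rintro rfl; simp at hn⟩
  rw [hasCyclicSchurMultiplier_one_iff]
  intro Γ _ _ σ hσ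
  obtain ⟨c, hcn, hσc, hle⟩ := dihedral_stem n σ hσ
  rw [eq_bot_iff]
  intro k hk
  obtain ⟨j, rfl⟩ := hle hk
  have h1 : σ (c ^ j) = 1 := hk
  rw [map_zpow, hσc, r_zpow, DihedralGroup.one_def, r.injEq] at h1
  have h2 : ((-2 * j : ℤ) : ZMod n) = 0 := by push_cast; exact h1
  rw [ZMod.intCast_zmod_eq_zero_iff_dvd] at h2
  have hcop : IsCoprime (n : ℤ) (-2) := by
    rw [IsCoprime.neg_right_iff]
    have : Nat.Coprime n 2 := (Nat.coprime_two_right).mpr hn
    exact_mod_cast Nat.isCoprime_iff_coprime.mpr this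
  obtain ⟨t, rfl⟩ := hcop.dvd_of_dvd_mul_left h2
  rw [Subgroup.mem_bot]
  show c ^ ((n : ℤ) * t) = 1
  rw [zpow_mul, zpow_natCast, hcn, one_zpow]

end Cfsg.Agent.S3964
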