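import Cfsg.Statements.S3966
import Mathlib

set_option autoImplicit false
open Cfsg

namespace Cfsg.Agent.S3966

open scoped commutatorElement
open QuaternionGroup DihedralGroup

theorem dvd_two_mul (n : ℕ) : n ∣ 2 * n := Dvd.intro_left 2 rfl

/-- the natural map from the dicyclic group to the dihedral group -/
def toDihedral (n : ℕ) : QuaternionGroup n →* DihedralGroup n where
  toFun
    | a i => r (ZMod.castHom (dvd_two_mul n) (ZMod n) i)
    | xa i => sr (ZMod.castHom (dvd_two_mul n) (ZMod n) i)
  map_one' := by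
    show r (ZMod.castHom (dvd_two_mul n) (ZMod n) 0) = 1
    rw [map_zero]; rfl
  map_mul' := by
    rintro (i | i) (j | j)
    · simp only [a_mul_a, map_add, r_mul_r]
    · simp only [a_mul_xa, map_sub, r_mul_sr]
    · simp only [xa_mul_a, map_add, sr_mul_r]
    · simp only [xa_mul_xa, map_sub, map_add, map_natCast, sr_mul_sr, CharP.cast_eq_zero, zero_add]

theorem toDihedral_a (n : ℕ) (i : ZMod (2 * n)) :
    toDihedral n (a i) = r (ZMod.castHom (dvd_two_mul n) (ZMod n) i) := rfl
theorem toDihedral_xa (n : ℕ) (i : ZMod (2 * n)) :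
    toDihedral n (xa i) = sr (ZMod.castHom (dvd_two_mul n) (ZMod n) i) := rfl

theorem toDihedral_surjective (n : ℕ) : Function.Surjective (toDihedral n) := by
  have hs : Function.Surjective (ZMod.castHom (dvd_two_mul n) (ZMod n)) := ZMod.castHom_surjective _
  rintro (i | i)
  · obtain ⟨j, rfl⟩ := hs i
    exact ⟨a j, rfl⟩
  · obtain ⟨j, rfl⟩ := hs i
    exact ⟨xa j, rfl⟩

theorem mem_ker (n : ℕ) [NeZero n] (x : QuaternionGroup n) (hx : x ∈ (toDihedral n).ker) :
    ∃ w : ℕ, x = a ((n * w : ℕ) : ZMod (2 * n)) := by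
  rcases x with i | i
  · rw [MonoidHom.mem_ker, toDihedral_a, DihedralGroup.one_def, r.injEq] at hx
    have h1 : i = ((i.val : ℕ) : ZMod (2 * n)) := by simp
    rw [h1, map_natCast, ZMod.natCast_eq_zero_iff] at hx
    obtain ⟨w, hw⟩ := hx
    exact ⟨w, by rw [← hw, ← h1]⟩
  · rw [MonoidHom.mem_ker, toDihedral_xa, DihedralGroup.one_def] at hx
    cases hx

/-- For even `n ≥ 2` the dicyclic group of order `4 n` is a stem extension of the dihedral group of order `2 n` with kernel of order `2`: there is a surjective homomorphism `QuaternionGroup n →* DihedralGroup n` whose kernel is central, lies in the commutator subgroup and has two elements. Together with the order of the multiplier this exhibits the dicyclic group as a Schur covering group of the dihedral group. -/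
theorem result (n : ℕ) [NeZero n] (hn : Even n) : ∃ σ : QuaternionGroup n →* DihedralGroup n, Cfsg.IsStemExtension σ ∧ Nat.card σ.ker = 2 := by
  refine ⟨toDihedral n, ⟨toDihedral_surjective n, ?_, ?_⟩, ?_⟩
  · intro x hx
    obtain ⟨w, rfl⟩ := mem_ker n x hx
    have h2 : (2 : ZMod (2 * n)) * ((n * w : ℕ) : ZMod (2 * n)) = 0 := by
      have : (2 : ZMod (2 * n)) * ((n * w : ℕ) : ZMod (2 * n)) = ((2 * n * w : ℕ) : ZMod (2 * n)) := by
        push_cast; ring
      rw [this, ZMod.natCast_eq_zero_iff]
      exact Dvd.intro w rfl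
    rw [Subgroup.mem_center_iff]
    rintro (j | j)
    · simp only [a_mul_a, add_comm]
    · simp only [a_mul_xa, xa_mul_a, xa.injEq]
      linear_combination h2
  · intro x hx
    obtain ⟨w, rfl⟩ := mem_ker n x hx
    obtain ⟨u, hu⟩ := hn
    have h1 : a ((n * w : ℕ) : ZMod (2 * n)) = ⁅a ((u * w : ℕ) : ZMod (2 * n)), (xa 0 : QuaternionGroup n)⁆ := by
      have hinv : ((xa 0 : QuaternionGroup n))⁻¹ = xa (n + 0) := rfl
      have hinv2 : ∀ i : ZMod (2 * n), ((a i : QuaternionGroup n))⁻¹ = a (-i) := fun i => rfl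
      rw [commutatorElement_def, hinv, hinv2]
      simp only [a_mul_xa, xa_mul_a, xa_mul_xa, a.injEq]
      have h2n : ((n : ℕ) : ZMod (2 * n)) + (n : ZMod (2 * n)) = 0 := by
        have : ((n : ℕ) : ZMod (2 * n)) + (n : ZMod (2 * n)) = ((2 * n : ℕ) : ZMod (2 * n)) := by
          push_cast; ring
        rw [this]; simp
      have h3 : ((n * w : ℕ) : ZMod (2 * n)) = 2 * ((u * w : ℕ) : ZMod (2 * n)) := by
        rw [hu]; push_cast; ring
      rw [h3]
      linear_combination -h2n
    rw [h1]
    exact Subgroup.commutator_mem_commutator (Subgroup.mem_top _) (Subgroup.mem_top _)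
  · have h1 := (toDihedral n).ker.card_mul_index
    rw [Subgroup.index_ker, MonoidHom.range_eq_top.mpr (toDihedral_surjective n), Subgroup.card_top,
      Nat.card_eq_fintype_card (α := DihedralGroup n), Nat.card_eq_fintype_card (α := QuaternionGroup n),
      DihedralGroup.card, QuaternionGroup.card] at h1
    have hn0 : 0 < n := Nat.pos_of_ne_zero (NeZero.ne n)
    nlinarith

end Cfsg.Agent.S3966
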