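import Cfsg.Statements.S3965
import Cfsg.Agent.Lib.Helper21.DihedralStem
import Cfsg.Agent.S3966

set_option autoImplicit false
open Cfsg

namespace Cfsg.Agent.S3965

open Cfsg.Agent.Lib.Helper21
open DihedralGroup

/-- For even `n ≥ 2` the dihedral group of order `2 n` has Schur multiplier cyclic of order `2`. -/
theorem result (n : ℕ) [NeZero n] (hn : Even n) : Cfsg.HasCyclicSchurMultiplier (DihedralGroup n) 2 := by
  constructor
  · obtain ⟨σ, hσ, hcard⟩ := Cfsg.Agent.S3966.result n hn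
    refine ⟨QuaternionGroup n, inferInstance, inferInstance, σ, hσ, ?_⟩
    have : Fact (Nat.Prime 2) := ⟨Nat.prime_two⟩
    exact ⟨mulEquivOfPrimeCardEq (p := 2) hcard (by rw [Nat.card_congr Multiplicative.toAdd, Nat.card_zmod])⟩
  · intro Γ _ _ σ hσ
    obtain ⟨c, hcn, hσc, hle⟩ := dihedral_stem n σ hσ
    obtain ⟨u, hu⟩ := hn
    have hdK : c ^ u ∈ σ.ker := by
      rw [MonoidHom.mem_ker, map_pow, hσc, r_pow, DihedralGroup.one_def, r.injEq]
      have : (-2 * (u : ZMod n)) = -((n : ℕ) : ZMod n) := by rw [hu]; push_cast; ring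
      rw [this]; simp
    apply exists_surj_zmod_of_zpowers (⟨c ^ u, hdK⟩ : σ.ker) 2
    · ext
      show (c ^ u) ^ 2 = 1
      rw [← pow_mul, ← hcn, hu]; congr 1; ring
    · intro k
      obtain ⟨j, hj⟩ := hle k.2
      have h1 : σ (c ^ j) = 1 := by
        have : c ^ j = k.1 := hj
        rw [this]; exact k.2
      rw [map_zpow, hσc, r_zpow, DihedralGroup.one_def, r.injEq] at h1
      have h2 : ((-2 * j : ℤ) : ZMod n) = 0 := by push_cast; exact h1
      rw [ZMod.intCast_zmod_eq_zero_iff_dvd] at h2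
      have hu0 : (u : ℤ) ≠ 0 := by
        have : n ≠ 0 := NeZero.ne n
        intro h; apply this; rw [hu]; have : u = 0 := by exact_mod_cast h
        omega
      have h3 : (u : ℤ) ∣ j := by
        obtain ⟨t, ht⟩ := h2
        refine ⟨-t, ?_⟩
        have : (n : ℤ) = 2 * u := by rw [hu]; push_cast; ring
        rw [this] at ht
        linarith
      obtain ⟨t, rfl⟩ := h3
      refine ⟨t, ?_⟩
      ext
      show ((⟨c ^ u, hdK⟩ : σ.ker) ^ t : σ.ker).1 = k.1
      rw [Subgroup.coe_zpow]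
      show (c ^ u) ^ t = k.1
      rw [← zpow_natCast, ← zpow_mul]; exact hj

end Cfsg.Agent.S3965
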