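import Cfsg.Statements.S3968
import Mathlib
import Cfsg.Agent.Lib.Helper24.BurnsideCoprime
import Cfsg.Agent.Lib.Helper24.Central
import Cfsg.Agent.Lib.Helper13.CharTools
import Cfsg.Agent.Lib.Helper13.Clifford4
import Cfsg.Agent.S0189

set_option autoImplicit false
open Cfsg

namespace Cfsg.Agent.S3968

open Cfsg.Agent.Lib.Helper2 Cfsg.Agent.Lib.Helper24 Cfsg.Agent.Lib.Helper6 Cfsg.Agent.Lib.Helper13
open scoped ComplexConjugate

attribute [local instance] irrFintype

/-- Let `p` be a prime and `G` a finite group with a faithful irreducible complex character of degree `p` (so `G` is an irreducible linear group in `p` variables). If `p ^ 2` divides the order of `G`, then the centre of `G` is nontrivial. -/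
theorem result {G : Type*} [Group G] [Finite G] (p : ℕ) (hp : p.Prime) (χ : Cfsg.IrrCharacter G) (hdeg : χ.1 1 = p) (hfaith : ∀ g : G, χ.1 g = χ.1 1 → g = 1) (hdiv : p ^ 2 ∣ Nat.card G) : Subgroup.center G ≠ ⊥ := by
  classical
  intro hZ
  haveI := Fact.mk hp
  cases nonempty_fintype G
  have hχc := IsIrrCharacter.isCharacter χ.2
  have hdeg' : charDegree χ.1 = p := by
    have := charDegree_cast hχc
    rw [hdeg] at this
    exact_mod_cast this
  let P : Sylow p G := default
  letI : Fintype (P : Subgroup G) := Fintype.ofFinite _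
  have hP2 : p ^ 2 ∣ Nat.card (P : Subgroup G) := by
    rw [Sylow.card_eq_multiplicity]
    exact pow_dvd_pow p ((hp.pow_dvd_iff_le_factorization Nat.card_pos.ne').mp hdiv)
  have hvan : ∀ z ∈ (P : Subgroup G), (∀ y ∈ (P : Subgroup G), z * y = y * z) → z ≠ 1 →
      χ.1 z = 0 := by
    intro z hz hcomm hz1
    have hle : (P : Subgroup G) ≤ Subgroup.centralizer {z} := by
      intro y hy
      rw [Subgroup.mem_centralizer_singleton_iff]
      exact (hcomm y hy).symm
    have hcop : Nat.Coprime (charDegree χ.1) (Subgroup.centralizer ({z} : Set G)).index := by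
      rw [hdeg', Nat.Prime.coprime_iff_not_dvd hp]
      intro hd
      exact P.not_dvd_index (hd.trans (Subgroup.index_dvd_of_le hle))
    rcases zero_or_norm_of_coprime χ.2 z hcop with h | h
    · exact h
    · have := mem_center_of_norm_eq hχc hfaith h
      rw [hZ] at this
      exact absurd (Subgroup.mem_bot.mp this) hz1
  set ψ : ↥(P : Subgroup G) → ℂ := fun x => χ.1 x with hψdef
  have hψ : IsCharacter (P : Subgroup G) ψ := IsCharacter.restrict _ hχc
  by_cases hlin : ∀ φ : IrrCharacter (P : Subgroup G), classInner ψ φ ≠ 0 →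
      (φ : ↥(P : Subgroup G) → ℂ) 1 = 1
  · -- all constituents linear: `P` abelian
    obtain ⟨n, hn⟩ := IsCharacter.exists_eq_sum hψ
    have hn' : ∀ φ : IrrCharacter (P : Subgroup G), classInner ψ φ = n φ := by
      intro φ
      rw [hn]
      exact classInner_sum_irr_left (fun φ => (n φ : ℂ)) φ
    have hcomm : ∀ x y : (P : Subgroup G), x * y = y * x := by
      intro x y
      have h1 : ψ (x * y * x⁻¹ * y⁻¹) = ψ 1 := by
        rw [hn]
        simp only [Finset.sum_apply, Pi.smul_apply, smul_eq_mul]
        refine Finset.sum_congr rfl fun φ _ => ?_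
        by_cases h0 : n φ = 0
        · rw [h0]; simp
        · have h2 : classInner ψ φ ≠ 0 := by rw [hn']; exact_mod_cast h0
          obtain ⟨lam, hlam⟩ := exists_hom_of_degree_one (IsIrrCharacter.isCharacter φ.2)
            (hlin φ h2)
          rw [hlam]
          simp only [map_mul, map_inv, map_one]
          congr 2
          rw [mul_comm (lam x) (lam y), mul_assoc (lam y), mul_inv_cancel, mul_one, mul_inv_cancel]
      have h3 := hfaith _ h1
      have h4 : x * y * x⁻¹ * y⁻¹ = 1 := Subtype.ext h3
      calc x * y = (x * y * x⁻¹ * y⁻¹) * (y * x) := by group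
        _ = y * x := by rw [h4, one_mul]
    obtain ⟨k, hk⟩ := Cfsg.Agent.S0189.result p P χ.1 hχc (by
      intro g hg hg1
      exact hvan g hg (fun y hy => congrArg Subtype.val (hcomm ⟨g, hg⟩ ⟨y, hy⟩)) hg1)
    rw [hdeg] at hk
    have hk' : p = Nat.card P * k := by exact_mod_cast hk
    have h5 : p ^ 2 ∣ p := hP2.trans ⟨k, hk'⟩
    have h6 := Nat.le_of_dvd hp.pos h5
    have h7 := hp.one_lt
    nlinarith
  · push Not at hlin
    obtain ⟨φ, hφ0, hφ1⟩ := hlin
    have hφc := IsIrrCharacter.isCharacter φ.2
    have hd1 : charDegree (φ : ↥(P : Subgroup G) → ℂ) ≠ 1 := by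
      intro h
      apply hφ1
      rw [← charDegree_cast hφc, h]
      simp
    obtain ⟨k, hk⟩ := IsPGroup.iff_card.mp P.2
    have hdvd := degree_dvd_card φ.2
    rw [hk] at hdvd
    obtain ⟨j, _, hj⟩ := (Nat.dvd_prime_pow hp).1 hdvd
    have hj0 : j ≠ 0 := by
      rintro rfl
      exact hd1 (by rw [hj, pow_zero])
    have hple : p ≤ charDegree (φ : ↥(P : Subgroup G) → ℂ) := by
      rw [hj]
      exact Nat.le_of_dvd (pow_pos hp.pos j) (dvd_pow_self p hj0)
    have hsub := isCharacter_sub_of_constituent hψ φ.2 hφ0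
    have hsd := charDegree_cast hsub
    have hsd' : charDegree (ψ - (φ : ↥(P : Subgroup G) → ℂ)) +
        charDegree (φ : ↥(P : Subgroup G) → ℂ) = p := by
      have h1 : ((charDegree (ψ - (φ : ↥(P : Subgroup G) → ℂ)) +
          charDegree (φ : ↥(P : Subgroup G) → ℂ) : ℕ) : ℂ) = p := by
        push_cast
        rw [hsd, charDegree_cast hφc, Pi.sub_apply, sub_add_cancel, ← hdeg]
        rfl
      exact_mod_cast h1
    have hs0 : charDegree (ψ - (φ : ↥(P : Subgroup G) → ℂ)) = 0 := by omega
    have hφp : charDegree (φ : ↥(P : Subgroup G) → ℂ) = p := by omega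
    haveI : Nontrivial (P : Subgroup G) := by
      rw [← Finite.one_lt_card_iff_nontrivial]
      have := Nat.le_of_dvd Nat.card_pos hP2
      have h7 := hp.one_lt
      nlinarith
    haveI := IsPGroup.center_nontrivial P.2
    obtain ⟨z, hz⟩ := exists_ne (1 : Subgroup.center (P : Subgroup G))
    have hz1 : ((z : (P : Subgroup G)) : G) ≠ 1 := by
      intro h
      apply hz
      apply Subtype.ext
      apply Subtype.ext
      exact h
    have h1 : χ.1 ((z : (P : Subgroup G)) : G) = 0 := by
      apply hvan _ (z : (P : Subgroup G)).2 _ hz1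
      intro y hy
      exact (congrArg Subtype.val (Subgroup.mem_center_iff.mp z.2 ⟨y, hy⟩)).symm
    have h2 := IsCharacter.norm_le hsub (z : (P : Subgroup G))
    rw [hs0] at h2
    have h3 : (ψ - (φ : ↥(P : Subgroup G) → ℂ)) (z : (P : Subgroup G)) = 0 :=
      norm_le_zero_iff.mp (by simpa using h2)
    have h4 : (φ : ↥(P : Subgroup G) → ℂ) (z : (P : Subgroup G)) = 0 := by
      rw [Pi.sub_apply, sub_eq_zero] at h3
      rw [← h3]
      exact h1
    have h5 := norm_central φ.2 z.2
    rw [h4, norm_zero, ← charDegree_cast hφc, hφp] at h5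
    have h6 : (p : ℂ) = 0 := norm_eq_zero.mp h5.symm
    exact hp.ne_zero (by exact_mod_cast h6)

end Cfsg.Agent.S3968
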