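import Cfsg.Statements.S3973
import Cfsg.Agent.Lib.Helper21.Multiplier

set_option autoImplicit false
open Cfsg

namespace Cfsg.Agent.S3973

open Cfsg.Agent.Lib.Helper21
open Module

theorem rank_multiplicative_le {L : Type*} [AddCommGroup L] {k : ℕ} (b : Module.Basis (Fin k) ℤ L)
    [Group.FG (Multiplicative L)] : Group.rank (Multiplicative L) ≤ k := by
  classical
  have hcl : Subgroup.closure ((Finset.univ.image (fun i => Multiplicative.ofAdd (b i)) : Finset (Multiplicative L)) :
      Set (Multiplicative L)) = ⊤ := by
    rw [eq_top_iff]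
    intro x _
    have hx : Multiplicative.toAdd x ∈ Submodule.span ℤ (Set.range b) := by rw [b.span_eq]; trivial
    have key : ∀ l ∈ Submodule.span ℤ (Set.range b), Multiplicative.ofAdd l ∈ Subgroup.closure
        ((Finset.univ.image (fun i => Multiplicative.ofAdd (b i)) : Finset (Multiplicative L)) : Set (Multiplicative L)) := by
      intro l hl
      induction hl using Submodule.span_induction with
      | mem y hy =>
        obtain ⟨i, rfl⟩ := hy
        apply Subgroup.subset_closure
        simp
      | zero => exact Subgroup.one_mem _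
      | add y z _ _ hy hz => exact Subgroup.mul_mem _ hy hz
      | smul c y _ hy =>
        rw [ofAdd_zsmul]
        exact Subgroup.zpow_mem _ hy c
    exact key _ hx
  refine (Group.rank_le hcl).trans ?_
  refine Finset.card_image_le.trans ?_
  simp

theorem fg_multiplicative {L : Type*} [AddCommGroup L] {k : ℕ} (b : Module.Basis (Fin k) ℤ L) :
    Group.FG (Multiplicative L) := by
  have : Module.Finite ℤ L := Module.Finite.of_basis b
  have h2 : AddGroup.FG L := Module.Finite.iff_addGroup_fg.mp this
  exact GroupFG.iff_add_fg.mpr (by exact h2)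

/-- If a finite group is presented by `n` generators and a finite set of `r` relators, then its Schur multiplier can be generated by `r - n` elements. In particular a finite group with a presentation having as many relators as generators has trivial Schur multiplier. -/
theorem result (n : ℕ) (rels : Finset (FreeGroup (Fin n))) [Finite (PresentedGroup (rels : Set (FreeGroup (Fin n))))] {A : Type*} [CommGroup A] [Finite A] (hA : Cfsg.HasSchurMultiplier (PresentedGroup (rels : Set (FreeGroup (Fin n)))) A) : Group.rank A ≤ rels.card - n := by
  classical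
  let f : Fin n → PresentedGroup (rels : Set (FreeGroup (Fin n))) := PresentedGroup.of
  have hφ : FreeGroup.lift f = PresentedGroup.mk (rels : Set (FreeGroup (Fin n))) := by
    ext i
    simp only [FreeGroup.lift_apply_of]
    rfl
  have hf : Function.Surjective (FreeGroup.lift f) := by
    rw [hφ]; exact PresentedGroup.mk_surjective _
  obtain ⟨e⟩ := equiv_presM f hf hA
  have hZc : (CEproj (FreeGroup.lift f)).ker ≤ Subgroup.center (CE (FreeGroup.lift f)) :=
    CEproj_ker_le_center _
  letI : CommGroup (CEproj (FreeGroup.lift f)).ker :=
    { (CEproj (FreeGroup.lift f)).ker.toGroup with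
      mul_comm := by
        intro x y
        ext
        exact (Subgroup.mem_center_iff.mp (hZc y.2) x.1) }
  have hrel : ∀ w ∈ rels, (QuotientGroup.mk w : CE (FreeGroup.lift f)) ∈ (CEproj (FreeGroup.lift f)).ker := by
    intro w hw
    rw [MonoidHom.mem_ker, CEproj_mk, hφ]
    exact (QuotientGroup.eq_one_iff w).mpr (Subgroup.subset_normalClosure hw)
  have hZgen : ∀ z ∈ (CEproj (FreeGroup.lift f)).ker, z ∈ Subgroup.closure
      ((fun w => (QuotientGroup.mk w : CE (FreeGroup.lift f))) '' (rels : Set (FreeGroup (Fin n)))) := by
    set H := Subgroup.closure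
      ((fun w => (QuotientGroup.mk w : CE (FreeGroup.lift f))) '' (rels : Set (FreeGroup (Fin n)))) with hH
    have hHc : H ≤ Subgroup.center (CE (FreeGroup.lift f)) := by
      rw [hH, Subgroup.closure_le]
      rintro _ ⟨w, hw, rfl⟩
      exact hZc (hrel w hw)
    have hHn : H.Normal := by
      constructor
      intro c hcH g
      have h2 : g * c * g⁻¹ = c := by
        rw [Subgroup.mem_center_iff.mp (hHc hcH) g]; group
      rw [h2]; exact hcH
    have hcomap : Subgroup.normalClosure (rels : Set (FreeGroup (Fin n))) ≤
        H.comap (QuotientGroup.mk' (relComm (FreeGroup.lift f))) := by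
      apply Subgroup.normalClosure_le_normal
      intro w hw
      exact Subgroup.subset_closure ⟨w, hw, rfl⟩
    intro z hz
    obtain ⟨w, rfl⟩ := QuotientGroup.mk'_surjective _ z
    have hw : w ∈ Subgroup.normalClosure (rels : Set (FreeGroup (Fin n))) := by
      have h1 : FreeGroup.lift f w = 1 := hz
      rw [hφ] at h1
      exact (QuotientGroup.eq_one_iff w).mp h1
    exact hcomap hw
  let v : rels → Additive (CEproj (FreeGroup.lift f)).ker :=
    fun w => Additive.ofMul ⟨QuotientGroup.mk w.1, hrel w.1 w.2⟩
  let g₁ : (rels → ℤ) →ₗ[ℤ] Additive (CEproj (FreeGroup.lift f)).ker := Fintype.linearCombination ℤ v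
  have hg₁ : Function.Surjective g₁ := by
    have key : ∀ z (hz : z ∈ (CEproj (FreeGroup.lift f)).ker),
        Additive.ofMul (⟨z, hz⟩ : (CEproj (FreeGroup.lift f)).ker) ∈ LinearMap.range g₁ := by
      intro z hz
      have hz' := hZgen z hz
      induction hz' using Subgroup.closure_induction with
      | mem x hx =>
        obtain ⟨w, hw, rfl⟩ := hx
        refine ⟨Pi.single ⟨w, hw⟩ 1, ?_⟩
        simp only [g₁, Fintype.linearCombination_apply_single, one_smul]
        rfl
      | one => exact Submodule.zero_mem _
      | mul x y hx hy ihx ihy =>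
        have hxZ : x ∈ (CEproj (FreeGroup.lift f)).ker := by
          have : Subgroup.closure ((fun w => (QuotientGroup.mk w : CE (FreeGroup.lift f))) ''
              (rels : Set (FreeGroup (Fin n)))) ≤ (CEproj (FreeGroup.lift f)).ker := by
            rw [Subgroup.closure_le]
            rintro _ ⟨w, hw, rfl⟩
            exact hrel w hw
          exact this hx
        have hyZ : y ∈ (CEproj (FreeGroup.lift f)).ker := by
          have : Subgroup.closure ((fun w => (QuotientGroup.mk w : CE (FreeGroup.lift f))) ''
              (rels : Set (FreeGroup (Fin n)))) ≤ (CEproj (FreeGroup.lift f)).ker := by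
            rw [Subgroup.closure_le]
            rintro _ ⟨w, hw, rfl⟩
            exact hrel w hw
          exact this hy
        exact Submodule.add_mem _ (ihx hxZ) (ihy hyZ)
      | inv x hx ihx =>
        have hxZ : x ∈ (CEproj (FreeGroup.lift f)).ker := by
          have : Subgroup.closure ((fun w => (QuotientGroup.mk w : CE (FreeGroup.lift f))) ''
              (rels : Set (FreeGroup (Fin n)))) ≤ (CEproj (FreeGroup.lift f)).ker := by
            rw [Subgroup.closure_le]
            rintro _ ⟨w, hw, rfl⟩
            exact hrel w hw
          exact this hx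
        exact Submodule.neg_mem _ (ihx hxZ)
    intro z
    exact key (Additive.toMul z).1 (Additive.toMul z).2
  let θ : Additive (CEproj (FreeGroup.lift f)).ker →ₗ[ℤ] Additive (Abelianization (FreeGroup (Fin n))) :=
    (MonoidHom.toAdditive ((CEab f).comp (CEproj (FreeGroup.lift f)).ker.subtype)).toIntLinearMap
  let g := θ ∘ₗ g₁
  let bΛ : Module.Basis (Fin n) ℤ (Additive (Abelianization (FreeGroup (Fin n)))) := FreeAbelianGroup.basis (Fin n)
  have hΛfin : Module.Finite ℤ (Additive (Abelianization (FreeGroup (Fin n)))) := Module.Finite.of_basis bΛ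
  have hΛfree : Module.Free ℤ (Additive (Abelianization (FreeGroup (Fin n)))) := Module.Free.of_basis bΛ
  have hΛrank : finrank ℤ (Additive (Abelianization (FreeGroup (Fin n)))) = n := by
    rw [Module.finrank_eq_card_basis bΛ, Fintype.card_fin]
  have hrange : finrank ℤ (LinearMap.range g) = n := by
    have h1 : LinearMap.range g = LinearMap.range θ :=
      LinearMap.range_comp_of_range_eq_top _ (LinearMap.range_eq_top.mpr hg₁)
    rw [h1]
    apply le_antisymm
    · exact (Submodule.finrank_le _).trans_eq hΛrank
    · set N := Nat.card (PresentedGroup (rels : Set (FreeGroup (Fin n)))) with hN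
      have hN0 : (N : ℤ) ≠ 0 := by
        have : N ≠ 0 := Nat.card_pos.ne'
        exact_mod_cast this
      let μ : Additive (Abelianization (FreeGroup (Fin n))) →ₗ[ℤ] Additive (Abelianization (FreeGroup (Fin n))) :=
        (N : ℤ) • LinearMap.id
      have hμ : Function.Injective μ := by
        intro a b hab
        exact smul_right_injective _ hN0 hab
      have hle : LinearMap.range μ ≤ LinearMap.range θ := by
        rintro _ ⟨l, rfl⟩
        obtain ⟨w, hw⟩ := QuotientGroup.mk'_surjective _ (Additive.toMul l)
        have hwN : (QuotientGroup.mk (w ^ N) : CE (FreeGroup.lift f)) ∈ (CEproj (FreeGroup.lift f)).ker := by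
          rw [MonoidHom.mem_ker, CEproj_mk, map_pow, hN, pow_card_eq_one']
        refine ⟨Additive.ofMul ⟨_, hwN⟩, ?_⟩
        show Additive.ofMul (Abelianization.of (w ^ N)) = (N : ℤ) • l
        rw [map_pow, ofMul_pow, natCast_zsmul]
        congr 1
      calc n = finrank ℤ (Additive (Abelianization (FreeGroup (Fin n)))) := hΛrank.symm
        _ = finrank ℤ (LinearMap.range μ) := (LinearMap.finrank_range_of_inj hμ).symm
        _ ≤ finrank ℤ (LinearMap.range θ) := Submodule.finrank_mono hle
  have hker : finrank ℤ (LinearMap.ker g) = rels.card - n := by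
    have h1 := Submodule.finrank_quotient_add_finrank (LinearMap.ker g)
    rw [LinearEquiv.finrank_eq g.quotKerEquivRange, hrange, Module.finrank_fintype_fun_eq_card,
      Fintype.card_coe] at h1
    omega
  let bL : Module.Basis (Fin (finrank ℤ (LinearMap.ker g))) ℤ (LinearMap.ker g) := Module.finBasis ℤ _
  have hfg := fg_multiplicative bL
  let Ψ₁ : Multiplicative (LinearMap.ker g) →* presM f :=
    { toFun := fun l => ⟨(Additive.toMul (g₁ (Multiplicative.toAdd l).1)).1,
        (Additive.toMul (g₁ (Multiplicative.toAdd l).1)).2, by
          show _ ∈ commutator (CE (FreeGroup.lift f))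
          rw [← CEab_ker f]
          exact (Multiplicative.toAdd l).2⟩
      map_one' := by
        ext
        show (Additive.toMul (g₁ 0)).1 = 1
        rw [map_zero]; rfl
      map_mul' := by
        intro a b
        ext
        show (Additive.toMul (g₁ ((Multiplicative.toAdd a).1 + (Multiplicative.toAdd b).1))).1 = _
        rw [map_add]; rfl }
  have hΨ₁ : Function.Surjective Ψ₁ := by
    intro m
    obtain ⟨c, hc⟩ := hg₁ (Additive.ofMul ⟨m.1, m.2.1⟩)
    have hcker : c ∈ LinearMap.ker g := by
      rw [LinearMap.mem_ker]
      show θ (g₁ c) = 0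
      rw [hc]
      have : m.1 ∈ (CEab f).ker := by rw [CEab_ker f]; exact m.2.2
      exact this
    refine ⟨Multiplicative.ofAdd ⟨c, hcker⟩, ?_⟩
    ext
    show (Additive.toMul (g₁ c)).1 = m.1
    rw [hc]; rfl
  calc Group.rank A ≤ Group.rank (Multiplicative (LinearMap.ker g)) :=
        Group.rank_le_of_surjective (e.symm.toMonoidHom.comp Ψ₁) (e.symm.surjective.comp hΨ₁)
    _ ≤ finrank ℤ (LinearMap.ker g) := rank_multiplicative_le bL
    _ = rels.card - n := hker

end Cfsg.Agent.S3973
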