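import Cfsg.Statements.S3977
import Cfsg.Agent.S0016
import Cfsg.Agent.Lib.Lead.PGroupCyc

set_option autoImplicit false
open Cfsg

namespace Cfsg.Agent.S3977

/-- Let `p` be a prime and `G` a group of order `p ^ m` which has exactly one subgroup of order `p ^ s`, where `1 ≤ s < m`, and where `s ≥ 2` if `p = 2`. Then `G` is cyclic. (For `p = 2` and `s = 1` the generalized quaternion groups also occur; that case is the classical criterion for a unique involution.) -/
theorem result {G : Type*} [Group G] [Finite G] (p m s : ℕ) (hp : p.Prime) (hG : Nat.card G = p ^ m) (hs : 1 ≤ s) (hsm : s < m) (h2 : p ≠ 2 ∨ 2 ≤ s) (huniq : ∀ H K : Subgroup G, Nat.card H = p ^ s → Nat.card K = p ^ s → H = K) : IsCyclic G := by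
  classical
  haveI : Fact p.Prime := ⟨hp⟩
  have hPG : IsPGroup p G := IsPGroup.of_card hG
  obtain ⟨H, hH⟩ := Sylow.exists_subgroup_card_pow_prime (G := G) p (n := s)
    (by rw [hG]; exact pow_dvd_pow p hsm.le)
  obtain ⟨K, hK, hHK⟩ := Sylow.exists_subgroup_card_pow_prime_le (G := G) p (n := s) (m := s + 1)
    (by rw [hG]; exact pow_dvd_pow p hsm) H hH (Nat.le_succ s)
  -- small subgroups lie in H
  have hsmall : ∀ (U : Subgroup G) (j : ℕ), Nat.card U = p ^ j → j ≤ s → U ≤ H := by
    intro U j hU hj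
    obtain ⟨V, hV, hUV⟩ := Sylow.exists_subgroup_card_pow_prime_le (G := G) p (n := j) (m := s)
      (by rw [hG]; exact pow_dvd_pow p hsm.le) U hU hj
    rw [huniq V H hV hH] at hUV
    exact hUV
  -- K is cyclic
  have hKcyc : IsCyclic K := by
    have hne : ∃ x ∈ K, x ∉ H := by
      by_contra hcon
      push Not at hcon
      have hKH : K ≤ H := hcon
      have := Subgroup.card_le_of_le hKH
      rw [hK, hH] at this
      exact absurd this (not_le.mpr (Nat.pow_lt_pow_right hp.one_lt (Nat.lt_succ_self s)))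
    obtain ⟨x, hxK, hxH⟩ := hne
    have hzK : Subgroup.zpowers x ≤ K := Subgroup.zpowers_le.mpr hxK
    have hdvd : Nat.card (Subgroup.zpowers x) ∣ p ^ (s + 1) := hK ▸ Subgroup.card_dvd_of_le hzK
    obtain ⟨i, hi, hci⟩ := (Nat.dvd_prime_pow hp).mp hdvd
    have his : i = s + 1 := by
      by_contra hne
      have : i ≤ s := by omega
      exact hxH (hsmall _ i hci this (Subgroup.mem_zpowers x))
    have hzeq : Subgroup.zpowers x = K := by
      apply Subgroup.eq_of_le_of_card_ge hzK
      rw [hK, hci, his]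
    rw [← hzeq]
    infer_instance
  have hHcomm : ∀ a ∈ H, ∀ b ∈ H, a * b = b * a := by
    intro a ha b hb
    haveI : IsMulCommutative K := IsCyclic.isMulCommutative
    exact setLike_mul_comm (s := K) (hHK ha) (hHK hb)
  have hU : ∀ x y : G, orderOf x = p → orderOf y = p → x ∈ Subgroup.zpowers y := by
    intro x y hx hy
    have hxH : x ∈ H := hsmall (Subgroup.zpowers x) 1 (by rw [Nat.card_zpowers, hx, pow_one]) hs
      (Subgroup.mem_zpowers x)
    have hyH : y ∈ H := hsmall (Subgroup.zpowers y) 1 (by rw [Nat.card_zpowers, hy, pow_one]) hs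
      (Subgroup.mem_zpowers y)
    have h1 : (⟨x, hHK hxH⟩ : K) ∈ Subgroup.zpowers (⟨y, hHK hyH⟩ : K) := by
      apply Cfsg.Agent.Lib.Lead.mem_of_pow_card_eq_one
      rw [Nat.card_zpowers, Subgroup.orderOf_mk, hy]
      apply Subtype.ext
      show x ^ p = 1
      rw [← hx, pow_orderOf_eq_one]
    obtain ⟨i, hi⟩ := h1
    exact ⟨i, congrArg Subtype.val hi⟩
  rcases Cfsg.Agent.S0016.main p hPG hU with h | ⟨hp2, n, ⟨e⟩⟩
  · exact h
  · subst hp2
    have hs2 : 2 ≤ s := by
      rcases h2 with h | h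
      · exact absurd rfl h
      · exact h
    rcases Nat.eq_zero_or_pos n with hn | hn
    · subst hn
      haveI := QuaternionGroup.quaternionGroup_one_isCyclic
      exact isCyclic_of_surjective e.symm e.symm.surjective
    · exfalso
      haveI : NeZero (2 ^ n) := ⟨by positivity⟩
      have hmem : ∀ i : ZMod (2 * 2 ^ n), e.symm (QuaternionGroup.xa i) ∈ H := by
        intro i
        apply hsmall (Subgroup.zpowers (e.symm (QuaternionGroup.xa i))) 2 _ hs2
          (Subgroup.mem_zpowers _)
        rw [Nat.card_zpowers, MulEquiv.orderOf_eq, QuaternionGroup.orderOf_xa]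
        norm_num
      have h3 := hHcomm _ (hmem 0) _ (hmem 1)
      rw [← map_mul, ← map_mul] at h3
      have h4 := e.symm.injective h3
      rw [QuaternionGroup.xa_mul_xa, QuaternionGroup.xa_mul_xa] at h4
      have h5 : ((2 ^ n : ℕ) : ZMod (2 * 2 ^ n)) + 1 - 0 = ((2 ^ n : ℕ) : ZMod (2 * 2 ^ n)) + 0 - 1 :=
        QuaternionGroup.a.inj h4
      have h6 : ((2 : ℕ) : ZMod (2 * 2 ^ n)) = 0 := by
        have : (2 : ZMod (2 * 2 ^ n)) = 0 := by linear_combination h5
        exact_mod_cast this
      rw [ZMod.natCast_eq_zero_iff] at h6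
      have h7 : 2 * 2 ^ n ≤ 2 := Nat.le_of_dvd (by norm_num) h6
      have h8 : 2 ≤ 2 ^ n := by
        calc 2 = 2 ^ 1 := by norm_num
          _ ≤ 2 ^ n := Nat.pow_le_pow_right (by norm_num) hn
      omega

end Cfsg.Agent.S3977
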