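import Cfsg.Statements.S3978
import Cfsg.Agent.Lib.Helper21.ProjLift
import Cfsg.Agent.Lib.Helper21.ProjLift2

set_option autoImplicit false
open Cfsg

namespace Cfsg.Agent.S3978

/-- A finite group `Q` has trivial Schur multiplier if and only if, for every `n`, every homomorphism from `Q` to the projective general linear group (the quotient of `GL n ℂ` by its centre) lifts to a homomorphism into `GL n ℂ`. -/
theorem result {Q : Type*} [Group Q] [Finite Q] : Cfsg.HasCyclicSchurMultiplier Q 1 ↔ ∀ (n : ℕ) (γ : Q →* (GL (Fin n) ℂ ⧸ Subgroup.center (GL (Fin n) ℂ))), ∃ ρ : Q →* GL (Fin n) ℂ, (QuotientGroup.mk' (Subgroup.center (GL (Fin n) ℂ))).comp ρ = γ := by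
  have hid : Cfsg.IsStemExtension (MonoidHom.id Q) := ⟨Function.surjective_id, by simp, by simp⟩
  constructor
  · intro h n γ
    have hk : Nonempty ((MonoidHom.id Q).ker ≃* Multiplicative (ZMod 1)) := by
      have : (MonoidHom.id Q).ker = ⊥ := by simp
      rw [this]
      exact ⟨MulEquiv.ofUnique⟩
    obtain ⟨ρ, hρ⟩ := Lib.Helper21.proj_lift h (MonoidHom.id Q) hid hk n γ
    exact ⟨ρ, by rw [hρ, MonoidHom.comp_id]⟩
  · intro h
    rw [Lib.Helper21.hasCyclicSchurMultiplier_one_iff]
    intro Γ _ _ τ hτ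
    obtain ⟨π, hπ⟩ := Lib.Helper21.surj_of_proj_lift (MonoidHom.id Q) hid (by
      intro n γ
      obtain ⟨ρ, hρ⟩ := h n γ
      exact ⟨ρ, by rw [hρ, MonoidHom.comp_id]⟩) τ hτ
    rw [eq_bot_iff]
    intro x hx
    obtain ⟨a, ha⟩ := hπ ⟨x, hx⟩
    have ha1 : a = 1 := by
      apply Subtype.ext
      have := a.2
      simpa using this
    rw [ha1, map_one] at ha
    exact Subgroup.mem_bot.mpr (congrArg Subtype.val ha).symm

end Cfsg.Agent.S3978
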