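import Cfsg.Statements.S3994
import Cfsg.Agent.Lib.Helper21.Frobenius

set_option autoImplicit false
open Cfsg
open Cfsg.Agent.Lib.Helper21

namespace Cfsg.Agent.S3994

theorem coprime_aux (N n : ℕ) (hN : 0 < N) : Nat.Coprime (N / Nat.gcd N (n ^ N)) n := by
  set u := Nat.gcd N (n ^ N) with hu
  set k := N / u with hk
  have huk : u * k = N := Nat.mul_div_cancel' (Nat.gcd_dvd_left _ _)
  apply Nat.Coprime.symm
  rw [Nat.coprime_iff_gcd_eq_one] 
  by_contra hne
  obtain ⟨q, hq, hqd⟩ := Nat.exists_prime_and_dvd hne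
  have hqn : q ∣ n := hqd.trans (Nat.gcd_dvd_left _ _)
  have hqk : q ∣ k := hqd.trans (Nat.gcd_dvd_right _ _)
  obtain ⟨a, m, hm, hNa⟩ := Nat.exists_eq_pow_mul_and_not_dvd hN.ne' q hq.ne_one
  have h1 : q ^ a ∣ N := ⟨m, hNa⟩
  have haN : a ≤ N := by
    have h2 : a < q ^ a := Nat.lt_pow_self hq.one_lt
    have h3 : q ^ a ≤ N := Nat.le_of_dvd hN h1
    omega
  have h2 : q ^ a ∣ n ^ N := (pow_dvd_pow q haN).trans (pow_dvd_pow_of_dvd hqn N)
  have h3 : q ^ a ∣ u := Nat.dvd_gcd h1 h2
  have h4 : q ^ a * q ∣ q ^ a * m := by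
    rw [← hNa, ← huk]
    exact Nat.mul_dvd_mul h3 hqk
  exact hm (Nat.dvd_of_mul_dvd_mul_left (pow_pos hq.pos a) h4)

/-- Let G be a finite group and n a positive integer. The number of elements of G whose order is divisible by n is either 0 or divisible by the largest divisor of the order of G that is coprime to n. -/
theorem result {G : Type*} [Group G] [Finite G] (n : ℕ) (hn : 0 < n) :
    Nat.card {g : G // n ∣ orderOf g} = 0 ∨
      (Nat.card G / Nat.gcd (Nat.card G) (n ^ Nat.card G)) ∣ Nat.card {g : G // n ∣ orderOf g} := by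
  right
  have hN : 0 < Nat.card G := Nat.card_pos
  have hkn := coprime_aux (Nat.card G) n hN
  set u := Nat.gcd (Nat.card G) (n ^ Nat.card G) with hu
  set k := Nat.card G / u with hk
  have huk : u * k = Nat.card G := Nat.mul_div_cancel' (Nat.gcd_dvd_left _ _)
  have hcop : Nat.Coprime u k :=
    Nat.Coprime.coprime_dvd_left (Nat.gcd_dvd_right _ _) (Nat.Coprime.pow_left _ hkn.symm)
  have h1 : Nat.card {g : G // n ∣ orderOf g} =
      Nat.card {x : G // x ^ (u * k) = 1 ∧ n ∣ orderOf x} := by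
    apply Nat.card_congr
    apply Equiv.subtypeEquivRight
    intro x
    constructor
    · intro h
      exact ⟨by rw [huk]; exact pow_card_eq_one', h⟩
    · intro h
      exact h.2
  have hP : ∀ y z : G, y ^ u = 1 → z ^ k = 1 → Commute y z →
      (n ∣ orderOf (y * z) ↔ n ∣ orderOf y) := by
    intro y z hy hz hc
    have hoy : orderOf y ∣ u := orderOf_dvd_of_pow_eq_one hy
    have hoz : orderOf z ∣ k := orderOf_dvd_of_pow_eq_one hz
    have hco : (orderOf y).Coprime (orderOf z) :=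
      Nat.Coprime.coprime_dvd_left hoy (Nat.Coprime.coprime_dvd_right hoz hcop)
    rw [hc.orderOf_mul_eq_mul_orderOf_of_coprime hco]
    exact Nat.Coprime.dvd_mul_right (Nat.Coprime.coprime_dvd_right hoz hkn.symm)
  rw [h1, card_decomp u k hcop (fun x : G => n ∣ orderOf x) (fun y => n ∣ orderOf y) hP]
  apply dvd_card_pairs_full k ⟨u, by rw [← huk, mul_comm]⟩ (fun y => y ^ u = 1 ∧ n ∣ orderOf y)
  rintro g y ⟨h2, h3⟩
  refine ⟨by rw [conj_pow, h2]; simp, ?_⟩
  have hs : SemiconjBy g y (g * y * g⁻¹) := by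
    show g * y = g * y * g⁻¹ * g
    simp
  rw [← hs.orderOf_eq g]
  exact h3

end Cfsg.Agent.S3994
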