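import Cfsg.Statements.S3995
import Cfsg.Agent.Lib.Helper21.Frobenius
import Cfsg.Agent.S0016

set_option autoImplicit false
open Cfsg

namespace Cfsg.Agent.S3995

open Cfsg.Agent.Lib.Helper21

/-- number of elements of order `m` -/
noncomputable def sc (G : Type*) [Group G] (m : ℕ) : ℕ := Nat.card {g : G // orderOf g = m}

theorem powCard_eq_sum (G : Type*) [Group G] [Finite G] (d : ℕ) (hd : d ≠ 0) :
    powCard G d = ∑ m ∈ d.divisors, sc G m := by
  classical
  have := Fintype.ofFinite G
  have h := sum_card_orderOf_eq_card_pow_eq_one (G := G) hd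
  unfold powCard sc
  rw [Nat.card_eq_fintype_card, Fintype.card_subtype, ← h]
  apply Finset.sum_congr rfl
  intro m _
  rw [Nat.card_eq_fintype_card, Fintype.card_subtype]

theorem sum_divisors_mul_coprime {a b : ℕ} (hab : a.Coprime b) (f : ℕ → ℕ) :
    ∑ d ∈ (a * b).divisors, f d = ∑ i ∈ a.divisors, ∑ j ∈ b.divisors, f (i * j) := by
  rw [Nat.divisors_mul, Finset.mul_def, Finset.sum_image hab.mul_injOn_divisors, Finset.sum_product]

theorem frob (G : Type*) [Group G] [Finite G] (d : ℕ) (hd : d ∣ Nat.card G) :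
    d ∣ ∑ m ∈ d.divisors, sc G m := by
  have hd0 : d ≠ 0 := by
    rintro rfl
    exact Nat.card_pos.ne' (Nat.eq_zero_of_zero_dvd hd)
  rw [← powCard_eq_sum G d hd0]
  exact frobenius_dvd G d hd

section

variable {G : Type*} [Group G] [Finite G] {n : ℕ}

theorem sc_eq_zero {m : ℕ} (h : ∀ g : G, orderOf g ≠ m) : sc G m = 0 := by
  unfold sc
  have : IsEmpty {g : G // orderOf g = m} := ⟨fun g => h g.1 g.2⟩
  exact Nat.card_of_isEmpty

theorem sc_one : sc G 1 = 1 := by
  unfold sc
  have : Unique {g : G // orderOf g = 1} :=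
    ⟨⟨⟨1, orderOf_one⟩⟩, fun g => Subtype.ext (orderOf_eq_one_iff.1 g.2)⟩
  exact Nat.card_unique

theorem eq_of_sc_eq_one {m : ℕ} (h : sc G m = 1) : m = 1 ∨ m = 2 := by
  unfold sc at h
  rw [Nat.card_eq_one_iff_unique] at h
  obtain ⟨hs, ⟨g⟩⟩ := h
  have h1 : (⟨g.1⁻¹, by rw [orderOf_inv]; exact g.2⟩ : {g : G // orderOf g = m}) = g :=
    Subsingleton.elim _ _
  have h2 : g.1⁻¹ = g.1 := congrArg Subtype.val h1
  have h3 : g.1 ^ 2 = 1 := by
    rw [pow_two]; nth_rewrite 1 [← h2]; simp
  have h4 := orderOf_dvd_of_pow_eq_one h3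
  rw [g.2] at h4
  exact (Nat.dvd_prime Nat.prime_two).1 h4

theorem sc_eq_n (H1 : ∀ g : G, sc G (orderOf g) = 1 ∨ sc G (orderOf g) = n) (g : G)
    (h1 : orderOf g ≠ 1) (h2 : orderOf g ≠ 2) : sc G (orderOf g) = n := by
  rcases H1 g with h | h
  · rcases eq_of_sc_eq_one h with h' | h'
    · exact absurd h' h1
    · exact absurd h' h2
  · exact h

theorem sc_zero_or_n (H1 : ∀ g : G, sc G (orderOf g) = 1 ∨ sc G (orderOf g) = n) (m : ℕ)
    (h1 : m ≠ 1) (h2 : m ≠ 2) : sc G m = 0 ∨ sc G m = n := by
  by_cases h : ∃ g : G, orderOf g = m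
  · obtain ⟨g, rfl⟩ := h
    right; exact sc_eq_n H1 g h1 h2
  · left
    push Not at h
    exact sc_eq_zero h

theorem dvd_succ (_H1 : ∀ g : G, sc G (orderOf g) = 1 ∨ sc G (orderOf g) = n) {p : ℕ} (hp : p.Prime)
    (hd : p ∣ Nat.card G) (hsp : sc G p = n) : p ∣ n + 1 := by
  have f1 := frob G p hd
  rwa [hp.sum_divisors, hsp, sc_one] at f1

theorem not_dvd_n {p : ℕ} (hp : p.Prime) (h : p ∣ n + 1) : ¬ p ∣ n := by
  intro h'
  have f5 : p ∣ 1 := (Nat.dvd_add_right h').1 h
  exact hp.one_lt.ne' (Nat.dvd_one.1 f5)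

theorem no_sq (H1 : ∀ g : G, sc G (orderOf g) = 1 ∨ sc G (orderOf g) = n) {p : ℕ} (hp : p.Prime)
    (hsp : sc G p = n) (x : G) (hx : orderOf x = p ^ 2) : False := by
  have hd2 : p ^ 2 ∣ Nat.card G := hx ▸ orderOf_dvd_natCard x
  have hd1 : p ∣ Nat.card G := (dvd_pow_self p two_ne_zero).trans hd2
  have f1 := dvd_succ H1 hp hd1 hsp
  have f2 := frob G (p ^ 2) hd2
  have hp2 := hp.two_le
  have hs2 : sc G (p ^ 2) = n := by
    rw [← hx]
    apply sc_eq_n H1 <;> rw [hx] <;> nlinarith
  rw [Nat.sum_divisors_prime_pow hp, Finset.sum_range_succ, Finset.sum_range_succ,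
    Finset.sum_range_one, pow_zero, pow_one, sc_one, hsp, hs2] at f2
  have f3 : p ∣ 1 + n + n := (dvd_pow_self p two_ne_zero).trans f2
  apply not_dvd_n hp f1
  have : 1 + n + n = (n + 1) + n := by ring
  rw [this] at f3
  exact (Nat.dvd_add_right f1).1 f3

theorem no_two_primes (H1 : ∀ g : G, sc G (orderOf g) = 1 ∨ sc G (orderOf g) = n) {p q : ℕ}
    (hp : p.Prime) (hq : q.Prime) (hpq : p ≠ q) (hdp : p ∣ Nat.card G) (hdq : q ∣ Nat.card G)
    (hsp : sc G p = n) (hsq : sc G q = n) : False := by
  have hcop : p.Coprime q := (Nat.coprime_primes hp hq).2 hpq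
  have f1 := dvd_succ H1 hp hdp hsp
  have f2 := dvd_succ H1 hq hdq hsq
  have f3 := frob G (p * q) (hcop.mul_dvd_of_dvd_of_dvd hdp hdq)
  rw [sum_divisors_mul_coprime hcop, hp.sum_divisors, hq.sum_divisors, hq.sum_divisors, one_mul,
    one_mul, mul_one, sc_one, hsp, hsq] at f3
  have hp2 := hp.two_le
  have hq2 := hq.two_le
  rcases sc_zero_or_n H1 (p * q) (by nlinarith) (by nlinarith) with h | h
  · rw [h] at f3
    have f4 : p ∣ 0 + n + (n + 1) := (dvd_mul_right p q).trans f3
    apply not_dvd_n hp f1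
    have f5 := (Nat.dvd_add_left f1).1 f4
    simpa using f5
  · rw [h] at f3
    have key : ∀ r : ℕ, r.Prime → r ∣ n + 1 → r ∣ n + n + (n + 1) → r = 2 := by
      intro r hr h1 h2
      have h3 : r ∣ n + n := (Nat.dvd_add_left h1).1 h2
      have h4 : r ∣ 2 * n := by rwa [two_mul]
      rcases (Nat.Prime.dvd_mul hr).1 h4 with h5 | h5
      · exact (Nat.prime_dvd_prime_iff_eq hr Nat.prime_two).1 h5
      · exact absurd h5 (not_dvd_n hr h1)
    apply hpq
    rw [key p hp f1 ((dvd_mul_right p q).trans f3), key q hq f2 ((dvd_mul_left q p).trans f3)]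

theorem exists_orderOf_sq {p : ℕ} (hp : p.Prime) (g : G) {j : ℕ} (hg : orderOf g = p ^ j)
    {i : ℕ} (hi : i ≤ j) : ∃ x : G, orderOf x = p ^ i := by
  refine ⟨g ^ (p ^ (j - i)), ?_⟩
  rw [orderOf_pow_of_dvd (pow_ne_zero _ hp.ne_zero) (by rw [hg]; exact pow_dvd_pow p (by omega)), hg,
    Nat.pow_div (by omega) hp.pos]
  congr 1
  omega

theorem exponent_eq_prime {K : Type*} [Group K] [Nontrivial K] {p : ℕ} (hp : p.Prime)
    (h : ∀ k : K, k ^ p = 1) : Monoid.exponent K = p := by
  have h1 : Monoid.exponent K ∣ p := Monoid.exponent_dvd_of_forall_pow_eq_one h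
  rcases (Nat.dvd_prime hp).1 h1 with h2 | h2
  · exfalso
    rw [Monoid.exp_eq_one_iff] at h2
    exact not_subsingleton K h2
  · exact h2

end

theorem exists_small_copy (K : Type*) [Group K] [Finite K] :
    ∃ (P : Type) (_ : Group P) (_ : Finite P), Nonempty (K ≃* P) := by
  let e : {i : ℕ // i < Nat.card K} ≃ K := (Fin.equivSubtype.symm).trans (Finite.equivFin K).symm
  let _ : Group {i : ℕ // i < Nat.card K} := e.group
  exact ⟨{i : ℕ // i < Nat.card K}, inferInstance, Finite.of_equiv _ e.symm, ⟨e.mulEquiv.symm⟩⟩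

/-- Let G be a finite group such that the numbers of elements of each order that occurs in G (the numbers #{g : o(g) = m}, m ranging over the element orders of G) take exactly two values, 1 and some n ≠ 1. Then either G is a p-group of exponent p and order at least 3 for some prime p, or G is the quaternion group of order 8, or G is cyclic of order 4, or G ≅ Z₂ × P for a p-group P of exponent p with p an odd prime. -/
theorem result {G : Type*} [Group G] [Finite G] (n : ℕ) (hn : n ≠ 1) (h : ((fun m : ℕ => Nat.card {g : G // orderOf g = m}) '' Set.range (orderOf : G → ℕ)) = {1, n}) :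
    (∃ p : ℕ, p.Prime ∧ IsPGroup p G ∧ 3 ≤ Nat.card G ∧ Monoid.exponent G = p) ∨
      Nonempty (G ≃* QuaternionGroup 2) ∨ (IsCyclic G ∧ Nat.card G = 4) ∨
      (∃ (p : ℕ) (P : Type) (_ : Group P) (_ : Finite P), p.Prime ∧ p ≠ 2 ∧ IsPGroup p P ∧ Monoid.exponent P = p ∧
        Nonempty (G ≃* Multiplicative (ZMod 2) × P)) := by
  classical
  have H1 : ∀ g : G, sc G (orderOf g) = 1 ∨ sc G (orderOf g) = n := by
    intro g
    have : sc G (orderOf g) ∈ ({1, n} : Set ℕ) := by rw [← h]; exact ⟨orderOf g, ⟨g, rfl⟩, rfl⟩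
    simpa using this
  obtain ⟨g0, hg0⟩ : ∃ g0 : G, sc G (orderOf g0) = n := by
    have : n ∈ ({1, n} : Set ℕ) := by simp
    rw [← h] at this
    obtain ⟨m, ⟨g, rfl⟩, hm⟩ := this
    exact ⟨g, hm⟩
  have hg01 : orderOf g0 ≠ 1 := by
    intro h'; rw [h', sc_one] at hg0; exact hn hg0.symm
  have hG0 : Nat.card G ≠ 0 := Nat.card_pos.ne'
  have hG1 : Nat.card G ≠ 1 := by
    intro h'
    have := orderOf_dvd_natCard g0
    rw [h'] at this
    exact hg01 (Nat.dvd_one.1 this)
  have hprime : ∀ p : ℕ, p.Prime → p ∣ Nat.card G → p ≠ 2 → sc G p = n := by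
    intro p hp hd h2
    have : Fact p.Prime := ⟨hp⟩
    obtain ⟨x, hx⟩ := exists_prime_orderOf_dvd_card' p hd
    rw [← hx]
    apply sc_eq_n H1 <;> rw [hx]
    · exact hp.ne_one
    · exact h2
  have hexpo : ∀ p : ℕ, p.Prime → sc G p = n → ∀ g : G, (∃ j, orderOf g = p ^ j) → g ^ p = 1 := by
    intro p hp hsp g ⟨j, hj⟩
    by_cases hj2 : 2 ≤ j
    · exfalso
      obtain ⟨x, hx⟩ := exists_orderOf_sq hp g hj hj2
      exact no_sq H1 hp hsp x hx
    · have : orderOf g ∣ p := by
        rw [hj]
        exact (pow_dvd_pow p (by omega : j ≤ 1)).trans (by rw [pow_one])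
      exact orderOf_dvd_iff_pow_eq_one.1 this
  by_cases hs2 : sc G 2 = 1
  · obtain ⟨z, hz, hzu⟩ : ∃ z : G, orderOf z = 2 ∧ ∀ y : G, orderOf y = 2 → y = z := by
      unfold sc at hs2
      rw [Nat.card_eq_one_iff_unique] at hs2
      obtain ⟨hsub, ⟨z⟩⟩ := hs2
      exact ⟨z.1, z.2, fun y hy =>
        congrArg Subtype.val (Subsingleton.elim (⟨y, hy⟩ : {g : G // orderOf g = 2}) z)⟩
    have hzc : ∀ g : G, g * z = z * g := by
      intro g
      have h1 := MulEquiv.orderOf_eq (MulAut.conj g) z
      rw [MulAut.conj_apply, hz] at h1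
      have h2 := hzu _ h1
      calc g * z = (g * z * g⁻¹) * g := by group
        _ = z * g := by rw [h2]
    have h2d : 2 ∣ Nat.card G := hz ▸ orderOf_dvd_natCard z
    by_cases hodd : ∃ p : ℕ, p.Prime ∧ p ∣ Nat.card G ∧ p ≠ 2
    · obtain ⟨p, hp, hpd, hp2⟩ := hodd
      have : Fact p.Prime := ⟨hp⟩
      have hsp := hprime p hp hpd hp2
      have f1 := dvd_succ H1 hp hpd hsp
      have h4 : ¬ 2 ^ 2 ∣ Nat.card G := by
        intro h4
        have f4 := frob G (2 ^ 2) h4
        rw [Nat.sum_divisors_prime_pow Nat.prime_two, Finset.sum_range_succ, Finset.sum_range_succ,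
          Finset.sum_range_one, pow_zero, pow_one, sc_one, hs2] at f4
        have hs4 : sc G (2 ^ 2) = n := by
          rcases sc_zero_or_n H1 (2 ^ 2) (by norm_num) (by norm_num) with h' | h'
          · rw [h'] at f4; norm_num at f4
          · exact h'
        have hcop : Nat.Coprime (2 ^ 2) p :=
          Nat.Coprime.pow_left 2 ((Nat.coprime_primes Nat.prime_two hp).2 (Ne.symm hp2))
        have f5 := frob G (2 ^ 2 * p) (hcop.mul_dvd_of_dvd_of_dvd h4 hpd)
        rw [sum_divisors_mul_coprime hcop, Nat.sum_divisors_prime_pow Nat.prime_two] at f5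
        simp only [hp.sum_divisors, Finset.sum_range_succ, Finset.sum_range_zero, pow_zero, pow_one,
          one_mul, mul_one, zero_add] at f5
        obtain ⟨x, hx⟩ := exists_prime_orderOf_dvd_card' p hpd
        have hzx : orderOf (z * x) = 2 * p := by
          have hcm : Commute z x := (hzc x).symm
          rw [hcm.orderOf_mul_eq_mul_orderOf_of_coprime (by
            rw [hz, hx]; exact (Nat.coprime_primes Nat.prime_two hp).2 (Ne.symm hp2)), hz, hx]
        have hp3 := hp.two_le
        have hs2p : sc G (2 * p) = n := by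
          rw [← hzx]
          apply sc_eq_n H1 <;> rw [hzx] <;> omega
        rw [hsp, sc_one, hs2p, hs2, hs4] at f5
        have f6 : p ∣ n + 1 + (n + 1) + (sc G (2 ^ 2 * p) + n) := (dvd_mul_left p (2 ^ 2)).trans f5
        rcases sc_zero_or_n H1 (2 ^ 2 * p) (by omega) (by omega) with h' | h'
        · rw [h'] at f6
          have f7 : p ∣ (n + 1 + (n + 1) + (0 + n)) + 1 := by
            have : (n + 1 + (n + 1) + (0 + n)) + 1 = 3 * (n + 1) := by ring
            rw [this]; exact f1.mul_left 3
          have f8 : p ∣ 1 := (Nat.dvd_add_right f6).1 f7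
          exact hp.one_lt.ne' (Nat.dvd_one.1 f8)
        · rw [h'] at f6
          have f7 : p ∣ (n + 1 + (n + 1) + (n + n)) + 2 := by
            have : (n + 1 + (n + 1) + (n + n)) + 2 = 4 * (n + 1) := by ring
            rw [this]; exact f1.mul_left 4
          have f8 : p ∣ 2 := (Nat.dvd_add_right f6).1 f7
          exact hp2 ((Nat.prime_dvd_prime_iff_eq hp Nat.prime_two).1 f8)
      have hpf : (Nat.card G).primeFactors = {2, p} := by
        ext r
        rw [Nat.mem_primeFactors]
        simp only [Finset.mem_insert, Finset.mem_singleton]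
        constructor
        · rintro ⟨hr, hrd, _⟩
          by_cases hr2 : r = 2
          · left; exact hr2
          · right
            by_contra hne
            exact no_two_primes H1 hr hp hne hrd hpd (hprime r hr hrd hr2) hsp
        · rintro (rfl | rfl)
          · exact ⟨Nat.prime_two, h2d, hG0⟩
          · exact ⟨hp, hpd, hG0⟩
      have hcard : Nat.card G =
          2 ^ (Nat.card G).factorization 2 * p ^ (Nat.card G).factorization p := by
        have h1 := Nat.prod_factorization_pow_eq_self hG0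
        rw [Finsupp.prod, Nat.support_factorization, hpf, Finset.prod_pair (Ne.symm hp2)] at h1
        exact h1.symm
      have hf2 : (Nat.card G).factorization 2 = 1 := by
        have h1 : 0 < (Nat.card G).factorization 2 :=
          Nat.prime_two.factorization_pos_of_dvd hG0 h2d
        have h2 : ¬ 2 ≤ (Nat.card G).factorization 2 := fun h' =>
          h4 ((Nat.prime_two.pow_dvd_iff_le_factorization hG0).2 h')
        omega
      rw [hf2, pow_one] at hcard
      obtain ⟨K⟩ : Nonempty (Sylow p G) := inferInstance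
      have hcK : Nat.card (K : Subgroup G) = p ^ (Nat.card G).factorization p :=
        K.card_eq_multiplicity
      have hcomp : (Subgroup.zpowers z).IsComplement' (K : Subgroup G) := by
        apply Subgroup.isComplement'_of_coprime
        · rw [Nat.card_zpowers, hz, hcK]; exact hcard.symm
        · rw [Nat.card_zpowers, hz, hcK]
          exact Nat.Coprime.pow_right _ ((Nat.coprime_primes Nat.prime_two hp).2 (Ne.symm hp2))
      have hcomm : ∀ (a : Subgroup.zpowers z) (b : (K : Subgroup G)),
          Commute ((Subgroup.zpowers z).subtype a) ((K : Subgroup G).subtype b) := by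
        rintro ⟨a, ha⟩ b
        obtain ⟨i, rfl⟩ := Subgroup.mem_zpowers_iff.1 ha
        have : Commute z (b : G) := (hzc b).symm
        exact this.zpow_left i
      let e1 : Subgroup.zpowers z × (K : Subgroup G) ≃* G :=
        MulEquiv.ofBijective (MonoidHom.noncommCoprod _ _ hcomm) hcomp
      obtain ⟨P, iP, fP, ⟨e2⟩⟩ := exists_small_copy (K : Subgroup G)
      have e3 : Subgroup.zpowers z ≃* Multiplicative (ZMod 2) :=
        mulEquivOfPrimeCardEq (p := 2) (by rw [Nat.card_zpowers, hz]) (by simp)
      right; right; right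
      have hKp : ∀ k : (K : Subgroup G), k ^ p = 1 := by
        intro k
        apply Subtype.ext
        obtain ⟨j, hj⟩ := (IsPGroup.iff_orderOf.1 K.2) k
        rw [← Subgroup.orderOf_coe] at hj
        exact hexpo p hp hsp k ⟨j, hj⟩
      have hPnt : Nontrivial P := by
        have h1 : 0 < (Nat.card G).factorization p := hp.factorization_pos_of_dvd hG0 hpd
        have h2 : 1 < Nat.card P := by
          rw [← Nat.card_congr e2.toEquiv, hcK]
          exact Nat.one_lt_pow h1.ne' hp.one_lt
        exact Finite.one_lt_card_iff_nontrivial.1 h2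
      refine ⟨p, P, iP, fP, hp, hp2, K.2.of_equiv e2, ?_, ⟨e1.symm.trans (e3.prodCongr e2)⟩⟩
      apply exponent_eq_prime hp
      intro k
      obtain ⟨k', rfl⟩ := e2.surjective k
      rw [← map_pow, hKp, map_one]
    · push Not at hodd
      have huniq : ∀ {d : ℕ}, d.Prime → d ∣ Nat.card G → d = 2 := fun {d} hd hdd => hodd d hd hdd
      have hcard := Nat.eq_prime_pow_of_unique_prime_dvd hG0 huniq
      have h2G : IsPGroup 2 G := IsPGroup.of_card hcard
      have hg02 : orderOf g0 ≠ 2 := by
        intro h'; rw [h', hs2] at hg0; exact hn hg0.symm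
      obtain ⟨j, hj⟩ := (IsPGroup.iff_orderOf.1 h2G) g0
      have hj2 : 2 ≤ j := by
        by_contra hlt
        have : j = 0 ∨ j = 1 := by omega
        rcases this with rfl | rfl
        · exact hg01 (by simpa using hj)
        · exact hg02 (by simpa using hj)
      obtain ⟨x4, hx4⟩ := exists_orderOf_sq Nat.prime_two g0 hj hj2
      have hs4 : sc G (2 ^ 2) = n := by
        rw [← hx4]
        apply sc_eq_n H1 <;> rw [hx4] <;> norm_num
      have f4 := frob G (2 ^ 2) (hx4 ▸ orderOf_dvd_natCard x4)
      rw [Nat.sum_divisors_prime_pow Nat.prime_two, Finset.sum_range_succ, Finset.sum_range_succ,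
        Finset.sum_range_one, pow_zero, pow_one, sc_one, hs2, hs4] at f4
      have hno8 : ∀ x : G, orderOf x ≠ 2 ^ 3 := by
        intro x hx
        have hs8 : sc G (2 ^ 3) = n := by
          rw [← hx]
          apply sc_eq_n H1 <;> rw [hx] <;> norm_num
        have f8 := frob G (2 ^ 3) (hx ▸ orderOf_dvd_natCard x)
        rw [Nat.sum_divisors_prime_pow Nat.prime_two, Finset.sum_range_succ, Finset.sum_range_succ,
          Finset.sum_range_succ, Finset.sum_range_one, pow_zero, pow_one, sc_one, hs2, hs4, hs8] at f8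
        norm_num at f4 f8
        omega
      have hexp4 : ∀ g : G, orderOf g ∣ 4 := by
        intro g
        obtain ⟨i, hi⟩ := (IsPGroup.iff_orderOf.1 h2G) g
        by_cases hi3 : 3 ≤ i
        · exfalso
          obtain ⟨x, hx⟩ := exists_orderOf_sq Nat.prime_two g hi hi3
          exact hno8 x hx
        · rw [hi]
          exact (pow_dvd_pow 2 (by omega : i ≤ 2)).trans (by norm_num)
      have hsub : ∀ H K : Subgroup G, Nat.card H = 2 → Nat.card K = 2 → H = K := by
        have hone : ∀ H : Subgroup G, Nat.card H = 2 → H = Subgroup.zpowers z := by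
          intro H hH
          have : Fact (Nat.Prime 2) := ⟨Nat.prime_two⟩
          obtain ⟨y, hy⟩ := exists_prime_orderOf_dvd_card' (G := H) 2 (by rw [hH])
          rw [← Subgroup.orderOf_coe] at hy
          have hyz := hzu _ hy
          symm
          apply Subgroup.eq_of_le_of_card_ge
          · rw [Subgroup.zpowers_le, ← hyz]; exact y.2
          · rw [hH, Nat.card_zpowers, hz]
        intro H K hH hK
        rw [hone H hH, hone K hK]
      have : Fact (Nat.Prime 2) := ⟨Nat.prime_two⟩
      rcases Cfsg.Agent.S0016.result 2 h2G hsub with hcyc | ⟨_, k, ⟨e⟩⟩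
      · right; right; left
        refine ⟨hcyc, ?_⟩
        obtain ⟨w, hw⟩ := hcyc.exists_generator
        have h1 : orderOf w = Nat.card G := orderOf_eq_card_of_forall_mem_zpowers hw
        have h2 := hexp4 w
        rw [h1] at h2
        have h3 : 4 ∣ Nat.card G := by
          have := orderOf_dvd_natCard x4
          rw [hx4] at this
          simpa using this
        exact Nat.dvd_antisymm h2 h3
      · have h1 : orderOf (e.symm (QuaternionGroup.a 1)) = 2 * 2 ^ k := by
          rw [MulEquiv.orderOf_eq]; exact QuaternionGroup.orderOf_a_one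
        have h2 := hexp4 (e.symm (QuaternionGroup.a 1))
        rw [h1] at h2
        have h3 : 2 * 2 ^ k ≤ 4 := Nat.le_of_dvd (by norm_num) h2
        have hk : k = 0 ∨ k = 1 := by
          by_contra hcon
          have hk2 : 2 ≤ k := by omega
          have := Nat.pow_le_pow_right (by norm_num : 0 < 2) hk2
          omega
        rcases hk with rfl | rfl
        · right; right; left
          rw [pow_zero] at e
          have hc1 := QuaternionGroup.quaternionGroup_one_isCyclic
          refine ⟨isCyclic_of_surjective e.symm e.symm.surjective, ?_⟩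
          rw [Nat.card_congr e.toEquiv, Nat.card_eq_fintype_card, QuaternionGroup.card, mul_one]
        · right; left
          rw [pow_one] at e
          exact ⟨e⟩
  · have hprime' : ∀ p : ℕ, p.Prime → p ∣ Nat.card G → sc G p = n := by
      intro p hp hd
      by_cases h2 : p = 2
      · subst h2
        have : Fact (Nat.Prime 2) := ⟨Nat.prime_two⟩
        obtain ⟨x, hx⟩ := exists_prime_orderOf_dvd_card' 2 hd
        rcases H1 x with h' | h'
        · rw [hx] at h'; exact absurd h' hs2
        · rwa [hx] at h'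
      · exact hprime p hp hd h2
    obtain ⟨p, hp, hpd⟩ := Nat.exists_prime_and_dvd hG1
    have huniq : ∀ {d : ℕ}, d.Prime → d ∣ Nat.card G → d = p := by
      intro d hd hdd
      by_contra hne
      exact no_two_primes H1 hd hp hne hdd hpd (hprime' d hd hdd) (hprime' p hp hpd)
    have hcard := Nat.eq_prime_pow_of_unique_prime_dvd hG0 huniq
    have : Fact p.Prime := ⟨hp⟩
    have hpG : IsPGroup p G := IsPGroup.of_card hcard
    have hexp : ∀ g : G, g ^ p = 1 := fun g =>
      hexpo p hp (hprime' p hp hpd) g ((IsPGroup.iff_orderOf.1 hpG) g)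
    left
    refine ⟨p, hp, hpG, ?_, ?_⟩
    · have h1 := powCard_eq_sum G p hp.ne_zero
      rw [hp.sum_divisors, hprime' p hp hpd, sc_one] at h1
      have h2 : powCard G p = Nat.card G := by
        unfold powCard
        exact Nat.card_congr (Equiv.subtypeUnivEquiv hexp)
      omega
    · have : Nontrivial G := Finite.one_lt_card_iff_nontrivial.1 (by omega)
      exact exponent_eq_prime hp hexp

end Cfsg.Agent.S3995
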