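import Cfsg.Statements.S3997
import Cfsg.Agent.Lib.Helper21.OrderType

set_option autoImplicit false
open Cfsg

namespace Cfsg.Agent.S3997

/-- Let G and H be finite groups with the same order type: for every m they have the same number of elements of order m. If G is nilpotent then so is H. -/
theorem result {G H : Type*} [Group G] [Finite G] [Group H] [Finite H] (hT : (∀ m : ℕ, Nat.card {g : G // orderOf g = m} = Nat.card {h : H // orderOf h = m})) (hG : Group.IsNilpotent G) :
    Group.IsNilpotent H := by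
  obtain ⟨e, he⟩ := Cfsg.Agent.Lib.Helper21.exists_orderOf_equiv hT
  have hcard : Nat.card H = Nat.card G := (Nat.card_congr e).symm
  have hGn := ((Group.isNilpotent_of_finite_tfae (G := G)).out 0 3).mp hG
  apply ((Group.isNilpotent_of_finite_tfae (G := H)).out 0 3).mpr
  intro p hp P
  obtain ⟨Q⟩ : Nonempty (Sylow p G) := inferInstance
  have hQn : (Q : Subgroup G).Normal := hGn p hp Q
  -- the p-elements of G are exactly Q
  have hSG : {x : G | ∃ k : ℕ, orderOf x = p ^ k} ⊆ ((Q : Subgroup G) : Set G) := by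
    rintro x ⟨k, hk⟩
    have hz : IsPGroup p (Subgroup.zpowers x) := by
      apply IsPGroup.of_card (n := k)
      rw [Nat.card_zpowers, hk]
    obtain ⟨Q', hQ'⟩ := hz.exists_le_sylow
    have : Subsingleton (Sylow p G) := Sylow.unique_of_normal Q hQn |>.instSubsingleton
    rw [Subsingleton.elim Q' Q] at hQ'
    exact hQ' (Subgroup.mem_zpowers x)
  have hSH : {y : H | ∃ k : ℕ, orderOf y = p ^ k} = e '' {x : G | ∃ k : ℕ, orderOf x = p ^ k} := by
    ext y
    simp only [Set.mem_ofPred_eq, Set.mem_image]
    constructor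
    · intro hy
      refine ⟨e.symm y, ?_, by simp⟩
      rw [← he, Equiv.apply_symm_apply]
      exact hy
    · rintro ⟨x, hx, rfl⟩
      rw [he]
      exact hx
  refine (Cfsg.Agent.Lib.Helper21.normal_of_ncard_le (P : Subgroup H)
    {y : H | ∃ k : ℕ, orderOf y = p ^ k} ?_ ?_ ?_).1
  · intro x hx
    obtain ⟨k, hk⟩ := (IsPGroup.iff_orderOf.mp P.2) ⟨x, hx⟩
    rw [Subgroup.orderOf_mk] at hk
    exact ⟨k, hk⟩
  · rintro x ⟨k, hk⟩ g
    refine ⟨k, ?_⟩
    have := (MulAut.conj g).orderOf_eq x
    rw [← hk, ← this]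
    simp
  · rw [hSH, Set.ncard_image_of_injective _ e.injective, P.card_eq_multiplicity, hcard,
      ← Q.card_eq_multiplicity]
    have := Set.ncard_le_ncard hSG (Set.toFinite _)
    rwa [← Nat.card_coe_set_eq ((Q : Subgroup G) : Set G)] at this

end Cfsg.Agent.S3997
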