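import Cfsg.Statements.S4005
import Mathlib
import Cfsg.Agent.S0144
import Cfsg.Agent.Lib.Helper1.Hall

set_option autoImplicit false
open Cfsg

namespace Cfsg.Agent.S4005

open Cfsg.Agent.Lib.Helper1

theorem exists_not_mem {α : Type*} [Finite α] (S : Finset α) (h : S.card < Nat.card α) :
    ∃ x, x ∉ S := by
  classical
  by_contra hcon
  push Not at hcon
  haveI := Fintype.ofFinite α
  rw [Nat.card_eq_fintype_card, ← Finset.card_univ] at h
  exact absurd (Finset.card_le_card (fun x _ => hcon x)) (not_le.mpr h)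

theorem comm2 {G : Type*} [Group G] (x y : G) (hx : x ^ 2 = 1) (hy : y ^ 2 = 1)
    (hxy : (x * y) ^ 2 = 1) : x * y = y * x := by
  have h1 : x⁻¹ = x := by rw [inv_eq_iff_mul_eq_one, ← pow_two, hx]
  have h2 : y⁻¹ = y := by rw [inv_eq_iff_mul_eq_one, ← pow_two, hy]
  have h3 : (x * y)⁻¹ = x * y := by rw [inv_eq_iff_mul_eq_one, ← pow_two, hxy]
  rw [← h3, mul_inv_rev, h1, h2]

/-- A finite group whose set of element orders is exactly {1, 2, 3} has either a normal elementary abelian 3-subgroup of index 2 or a normal elementary abelian 2-subgroup of index 3. -/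
theorem result {G : Type*} [Group G] [Finite G] (h : Set.range (orderOf : G → ℕ) = {k : ℕ | 1 ≤ k ∧ k ≤ 3}) :
    (∃ N : Subgroup G, N.Normal ∧ Cfsg.IsElementaryAbelian 3 N ∧ N.index = 2) ∨
      (∃ N : Subgroup G, N.Normal ∧ Cfsg.IsElementaryAbelian 2 N ∧ N.index = 3) := by
  classical
  have hord : ∀ g : G, orderOf g = 1 ∨ orderOf g = 2 ∨ orderOf g = 3 := by
    intro g
    have h1 : orderOf g ∈ Set.range (orderOf : G → ℕ) := ⟨g, rfl⟩
    rw [h] at h1
    obtain ⟨h1, h2⟩ := h1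
    omega
  obtain ⟨t, ht⟩ : ∃ t : G, orderOf t = 2 := by
    have h1 : (2:ℕ) ∈ {k : ℕ | 1 ≤ k ∧ k ≤ 3} := by simp
    rw [← h] at h1; exact h1
  obtain ⟨c, hc⟩ : ∃ c : G, orderOf c = 3 := by
    have h1 : (3:ℕ) ∈ {k : ℕ | 1 ≤ k ∧ k ≤ 3} := by simp
    rw [← h] at h1; exact h1
  have no6 : ∀ a b : G, a ^ 2 = 1 → b ^ 3 = 1 → a * b = b * a → a = 1 ∨ b = 1 := by
    intro a b ha hb hab
    have hcomm : Commute a b := hab
    have key2 : (a * b) ^ 2 = 1 → b = 1 := by
      intro h2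
      rw [hcomm.mul_pow, ha, one_mul] at h2
      calc b = b ^ 3 * (b ^ 2)⁻¹ := by group
        _ = 1 := by rw [hb, h2]; simp
    rcases hord (a * b) with h1 | h1 | h1
    · right
      exact key2 (by rw [orderOf_eq_one_iff.mp h1]; simp)
    · right
      exact key2 (by rw [← h1]; exact pow_orderOf_eq_one _)
    · left
      have h2 : (a * b) ^ 3 = 1 := by rw [← h1]; exact pow_orderOf_eq_one _
      rw [hcomm.mul_pow, hb, mul_one] at h2
      calc a = a ^ 3 * (a ^ 2)⁻¹ := by group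
        _ = 1 := by rw [h2, ha]; simp
  have h2el : ∀ (x : G) (k : ℕ), x ^ 2 ^ k = 1 → x ^ 2 = 1 := by
    intro x k hx
    have h1 := orderOf_dvd_of_pow_eq_one hx
    rcases hord x with h2 | h2 | h2
    · rw [orderOf_eq_one_iff.mp h2]; simp
    · rw [← h2]; exact pow_orderOf_eq_one _
    · rw [h2] at h1
      have := Nat.Prime.dvd_of_dvd_pow Nat.prime_three h1
      omega
  have h3el : ∀ (x : G) (k : ℕ), x ^ 3 ^ k = 1 → x ^ 3 = 1 := by
    intro x k hx
    have h1 := orderOf_dvd_of_pow_eq_one hx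
    rcases hord x with h2 | h2 | h2
    · rw [orderOf_eq_one_iff.mp h2]; simp
    · rw [h2] at h1
      have := Nat.Prime.dvd_of_dvd_pow Nat.prime_two h1
      omega
    · rw [← h2]; exact pow_orderOf_eq_one _
  have hprimes : ∀ q : ℕ, q.Prime → q ∣ Nat.card G → q = 2 ∨ q = 3 := by
    intro q hq hdvd
    haveI := Fact.mk hq
    obtain ⟨x, hx⟩ := exists_prime_orderOf_dvd_card' q hdvd
    rcases hord x with h1 | h1 | h1 <;> rw [hx] at h1
    · exact absurd h1 hq.ne_one
    · left; exact h1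
    · right; exact h1
  obtain ⟨a, b, hab⟩ : ∃ a b, Nat.card G = 2 ^ a * 3 ^ b := by
    obtain ⟨a, m, hm, hnm⟩ := Nat.exists_eq_pow_mul_and_not_dvd (Nat.card_pos (α := G)).ne' 2 (by norm_num)
    have hm0 : m ≠ 0 := by
      rintro rfl
      simp at hm
    obtain ⟨b, m', hm', hmm'⟩ := Nat.exists_eq_pow_mul_and_not_dvd hm0 3 (by norm_num)
    have h1 : m' = 1 := by
      by_contra hne
      obtain ⟨q, hq, hqd⟩ := Nat.exists_prime_and_dvd hne
      rcases hprimes q hq (by rw [hnm, hmm']; exact Dvd.dvd.mul_left (Dvd.dvd.mul_left hqd _) _) with rfl | rfl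
      · exact hm (by rw [hmm']; exact Dvd.dvd.mul_left hqd _)
      · exact hm' hqd
    exact ⟨a, b, by rw [hnm, hmm', h1, mul_one]⟩
  have hf2 : (Nat.card G).factorization 2 = a := by
    rw [hab, Nat.factorization_mul (by positivity) (by positivity)]
    simp [Nat.factorization_pow, Nat.Prime.factorization Nat.prime_two, Nat.Prime.factorization Nat.prime_three]
  have hf3 : (Nat.card G).factorization 3 = b := by
    rw [hab, Nat.factorization_mul (by positivity) (by positivity)]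
    simp [Nat.factorization_pow, Nat.Prime.factorization Nat.prime_two, Nat.Prime.factorization Nat.prime_three]
  haveI : Fact (Nat.Prime 2) := ⟨Nat.prime_two⟩
  haveI : Fact (Nat.Prime 3) := ⟨Nat.prime_three⟩
  have hcT : ∀ T : Sylow 2 G, Nat.card T = 2 ^ a := fun T => by rw [T.card_eq_multiplicity, hf2]
  have hcP : ∀ P : Sylow 3 G, Nat.card P = 3 ^ b := fun P => by rw [P.card_eq_multiplicity, hf3]
  have hT2 : ∀ (T : Sylow 2 G), ∀ x ∈ T, x ^ 2 = 1 := by
    intro T x hx
    obtain ⟨k, hk⟩ := T.isPGroup' ⟨x, hx⟩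
    exact h2el x k (by simpa using congrArg Subtype.val hk)
  have hP3 : ∀ (P : Sylow 3 G), ∀ x ∈ P, x ^ 3 = 1 := by
    intro P x hx
    obtain ⟨k, hk⟩ := P.isPGroup' ⟨x, hx⟩
    exact h3el x k (by simpa using congrArg Subtype.val hk)
  have ht2 : t ^ 2 = 1 := by rw [← ht]; exact pow_orderOf_eq_one _
  have ht1 : t ≠ 1 := by rintro rfl; simp at ht
  have hc3 : c ^ 3 = 1 := by rw [← hc]; exact pow_orderOf_eq_one _
  have hc1 : c ≠ 1 := by rintro rfl; simp at hc
  have ha0 : a ≠ 0 := by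
    rintro rfl
    have h1 : 2 ∣ Nat.card G := ht ▸ orderOf_dvd_natCard t
    rw [hab, pow_zero, one_mul] at h1
    have := Nat.Prime.dvd_of_dvd_pow Nat.prime_two h1
    omega
  have hb0 : b ≠ 0 := by
    rintro rfl
    have h1 : 3 ∣ Nat.card G := hc ▸ orderOf_dvd_natCard c
    rw [hab, pow_zero, mul_one] at h1
    have := Nat.Prime.dvd_of_dvd_pow Nat.prime_three h1
    omega
  haveI hsolv : Group.IsSolvable G := Cfsg.Agent.S0144.result 2 3 a b Nat.prime_two Nat.prime_three hab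
  haveI : Nontrivial G := ⟨⟨t, 1, ht1⟩⟩
  obtain ⟨p, M, hp, hMn, hMne, hMc, hMp⟩ := exists_normal_elementary_abelian (G := G)
  obtain ⟨m, hmM, hm1⟩ : ∃ m ∈ M, m ≠ 1 := by
    by_contra hcon
    push Not at hcon
    exact hMne ((Subgroup.eq_bot_iff_forall M).mpr hcon)
  haveI := Fact.mk hp
  have hp23 : p = 2 ∨ p = 3 := by
    have h1 : orderOf m = p := orderOf_eq_prime (hMp m hmM) hm1
    rcases hord m with h2 | h2 | h2 <;> rw [h1] at h2
    · exact absurd h2 hp.ne_one
    · left; exact h2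
    · right; exact h2
  have inv3 : ∀ (N : Subgroup G), N.Normal → (∀ x ∈ N, x ^ 3 = 1) → ∀ s : G, s ^ 2 = 1 → s ≠ 1 →
      ∀ x ∈ N, s * x * s⁻¹ = x⁻¹ := by
    intro N hN hN3 s hs hs1
    let f : N → N := fun a => ⟨a.1⁻¹ * (s * a.1 * s⁻¹), N.mul_mem (N.inv_mem a.2) (hN.conj_mem _ a.2 s)⟩
    have hinj : Function.Injective f := by
      intro a b hab'
      have h1 : a.1⁻¹ * (s * a.1 * s⁻¹) = b.1⁻¹ * (s * b.1 * s⁻¹) := congrArg Subtype.val hab'
      have h2 : s * (b.1 * a.1⁻¹) = (b.1 * a.1⁻¹) * s := by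
        have h3 : s * (b.1 * a.1⁻¹) * s⁻¹ = b.1 * a.1⁻¹ := by
          have e1 : s * (b.1 * a.1⁻¹) * s⁻¹ = (s * b.1 * s⁻¹) * (s * a.1 * s⁻¹)⁻¹ := by group
          have e2 : s * b.1 * s⁻¹ = b.1 * (a.1⁻¹ * (s * a.1 * s⁻¹)) := by rw [h1]; group
          rw [e1, e2]; group
        rw [mul_inv_eq_iff_eq_mul] at h3
        exact h3
      rcases no6 s (b.1 * a.1⁻¹) hs (hN3 _ (N.mul_mem b.2 (N.inv_mem a.2))) h2 with h3 | h3
      · exact absurd h3 hs1
      · exact Subtype.ext (mul_inv_eq_one.mp h3).symm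
    have hsurj := Finite.surjective_of_injective hinj
    intro x hx
    obtain ⟨a, ha⟩ := hsurj ⟨x, hx⟩
    have hxa : x = a.1⁻¹ * (s * a.1 * s⁻¹) := (congrArg Subtype.val ha).symm
    have hss : s * s = 1 := by rw [← pow_two, hs]
    have h4 : s * (a.1⁻¹ * (s * a.1 * s⁻¹)) * s⁻¹ = (s * a.1 * s⁻¹)⁻¹ * ((s * s) * a.1 * (s * s)⁻¹) := by group
    rw [hxa, h4, hss]; group
  rcases hp23 with rfl | rfl
  · -- normal 2-subgroup
    right
    set C := Subgroup.centralizer (M : Set G) with hC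
    have hCn : C.Normal := inferInstance
    have hMC : M ≤ C := by
      intro x hx
      rw [hC, Subgroup.mem_centralizer_iff]
      intro y hy
      exact hMc y hy x hx
    have hC2 : ∀ g ∈ C, g ^ 2 = 1 := by
      intro g hg
      rcases hord g with h1 | h1 | h1
      · rw [orderOf_eq_one_iff.mp h1]; simp
      · rw [← h1]; exact pow_orderOf_eq_one _
      · exfalso
        have h2 : g ^ 3 = 1 := by rw [← h1]; exact pow_orderOf_eq_one _
        rcases no6 m g (hMp m hmM) h2 (Subgroup.mem_centralizer_iff.mp hg m hmM) with h3 | h3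
        · exact hm1 h3
        · rw [h3] at h1; simp at h1
    have hCc : ∀ x ∈ C, ∀ y ∈ C, x * y = y * x := fun x hx y hy =>
      comm2 x y (hC2 x hx) (hC2 y hy) (hC2 _ (C.mul_mem hx hy))
    have hCinv : ∀ x ∈ C, x⁻¹ = x := by
      intro x hx
      rw [inv_eq_iff_mul_eq_one, ← pow_two, hC2 x hx]
    have hCp : IsPGroup 2 C := by
      intro x
      exact ⟨1, Subtype.ext (by simpa using hC2 x.1 x.2)⟩
    obtain ⟨T, hCT⟩ := hCp.exists_le_sylow
    have hTC : (T : Subgroup G) ≤ C := by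
      intro x hx
      rw [hC, Subgroup.mem_centralizer_iff]
      intro y hy
      have hyT := hCT (hMC hy)
      exact comm2 y x (hT2 T y hyT) (hT2 T x hx) (hT2 T _ ((T : Subgroup G).mul_mem hyT hx))
    have hCeq : C = T := le_antisymm hCT hTC
    have hCcard : Nat.card C = 2 ^ a := by rw [hCeq]; exact hcT T
    -- relation
    have hR : ∀ g : G, g ^ 3 = 1 → g ≠ 1 → ∀ v ∈ C, g ^ 2 * v * (g ^ 2)⁻¹ = v * (g * v * g⁻¹) := by
      intro g hg hg1 v hv
      have hb' : g * v * g⁻¹ ∈ C := hCn.conj_mem v hv g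
      have hc' : g ^ 2 * v * (g ^ 2)⁻¹ ∈ C := hCn.conj_mem v hv _
      have hw : v * (g * v * g⁻¹) * (g ^ 2 * v * (g ^ 2)⁻¹) ∈ C := C.mul_mem (C.mul_mem hv hb') hc'
      have h1 : g * (v * (g * v * g⁻¹) * (g ^ 2 * v * (g ^ 2)⁻¹)) * g⁻¹
          = v * (g * v * g⁻¹) * (g ^ 2 * v * (g ^ 2)⁻¹) := by
        have e1 : g * (v * (g * v * g⁻¹) * (g ^ 2 * v * (g ^ 2)⁻¹)) * g⁻¹
            = (g * v * g⁻¹) * (g ^ 2 * v * (g ^ 2)⁻¹) * (g ^ 3 * v * (g ^ 3)⁻¹) := by group
        rw [e1, hg, one_mul, inv_one, mul_one, hCc _ (C.mul_mem hb' hc') v hv, ← mul_assoc]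
      rw [mul_inv_eq_iff_eq_mul] at h1
      rcases no6 _ g (hC2 _ hw) hg h1.symm with h2 | h2
      · have h3 := eq_inv_of_mul_eq_one_right h2
        rw [h3, hCinv _ (C.mul_mem hv hb')]
      · exact absurd h2 hg1
    have hb1 : b = 1 := by
      by_contra hb1
      have hb2 : 2 ≤ b := by omega
      obtain P : Sylow 3 G := default
      have hP9 : 9 ≤ Nat.card P := by
        rw [hcP P]
        calc 9 = 3 ^ 2 := by norm_num
          _ ≤ 3 ^ b := Nat.pow_le_pow_right (by norm_num) hb2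
      haveI : Nontrivial P := by
        rw [← Finite.one_lt_card_iff_nontrivial]; omega
      haveI := P.isPGroup'.center_nontrivial
      obtain ⟨⟨z, hz⟩, hz1⟩ := exists_ne (1 : Subgroup.center P)
      have hz1' : z ≠ 1 := fun h => hz1 (Subtype.ext h)
      obtain ⟨x, hx⟩ := exists_not_mem ({1, z, z⁻¹} : Finset P) (lt_of_le_of_lt Finset.card_le_three (by omega))
      simp only [Finset.mem_insert, Finset.mem_singleton, not_or] at hx
      obtain ⟨hx1, hxz, hxz'⟩ := hx
      have hcomm : (x : G) * z = z * x := by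
        have := Subgroup.mem_center_iff.mp hz x
        exact congrArg Subtype.val this
      have hx3 : (x : G) ^ 3 = 1 := hP3 P _ x.2
      have hz3 : (z : G) ^ 3 = 1 := hP3 P _ z.2
      have hX1 : (x : G) ≠ 1 := fun h => hx1 (Subtype.ext h)
      have hZ1 : (z : G) ≠ 1 := fun h => hz1' (Subtype.ext h)
      have hXZ : (x : G) * z ≠ 1 := fun h => hxz' (Subtype.ext (by simpa using eq_inv_of_mul_eq_one_left h))
      have hXZ3 : ((x : G) * z) ^ 3 = 1 := by
        rw [(show Commute (x : G) z from hcomm).mul_pow, hx3, hz3, one_mul]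
      have hmC := hMC hmM
      -- apply relations to v = m
      have key : (x : G) * m * (x : G)⁻¹ = (z : G) * m * (z : G)⁻¹ := by
        have r1 := hR _ hXZ3 hXZ m hmC
        have r2 := hR _ hz3 hZ1 m hmC
        have hzm : (z : G) * m * (z : G)⁻¹ ∈ C := hCn.conj_mem m hmC _
        have hxm : (x : G) * m * (x : G)⁻¹ ∈ C := hCn.conj_mem m hmC _
        have hxzm : (x : G) * z * m * ((x : G) * z)⁻¹ ∈ C := hCn.conj_mem m hmC _
        have r3 := hR _ hx3 hX1 m hmC
        have r4 := hR _ hx3 hX1 _ hzm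
        have e1 : ((x : G) * z) ^ 2 * m * (((x : G) * z) ^ 2)⁻¹
            = (x : G) ^ 2 * ((z : G) ^ 2 * m * ((z : G) ^ 2)⁻¹) * ((x : G) ^ 2)⁻¹ := by
          rw [(show Commute (x : G) z from hcomm).mul_pow]; group
        rw [e1, r2] at r1
        have e2 : (x : G) ^ 2 * (m * ((z : G) * m * (z : G)⁻¹)) * ((x : G) ^ 2)⁻¹
            = ((x : G) ^ 2 * m * ((x : G) ^ 2)⁻¹) * ((x : G) ^ 2 * ((z : G) * m * (z : G)⁻¹) * ((x : G) ^ 2)⁻¹) := by
          group
        rw [e2, r3, r4] at r1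
        have e3 : (x : G) * ((z : G) * m * (z : G)⁻¹) * (x : G)⁻¹ = (x : G) * z * m * ((x : G) * z)⁻¹ := by group
        rw [e3] at r1
        -- m * X * (Z * XZ) = m * XZ
        rw [mul_assoc m, mul_right_inj, ← mul_assoc, mul_eq_right] at r1
        have := eq_inv_of_mul_eq_one_left r1
        rw [this, hCinv _ hzm]
      have h5 : ((z : G)⁻¹ * x) * m = m * ((z : G)⁻¹ * x) := by
        have h6 : ((z : G)⁻¹ * x) * m * ((z : G)⁻¹ * x)⁻¹ = m := by
          have : ((z : G)⁻¹ * x) * m * ((z : G)⁻¹ * x)⁻¹ = (z : G)⁻¹ * ((x : G) * m * (x : G)⁻¹) * z := by group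
          rw [this, key]; group
        rw [mul_inv_eq_iff_eq_mul] at h6
        exact h6
      have h7 : ((z : G)⁻¹ * x) ^ 3 = 1 := by
        have hc' : Commute (z : G)⁻¹ (x : G) := (show Commute (x : G) z from hcomm).symm.inv_left
        rw [hc'.mul_pow, hx3, inv_pow, hz3]; simp
      rcases no6 m _ (hMp m hmM) h7 h5.symm with h8 | h8
      · exact hm1 h8
      · exact hxz (Subtype.ext (by
          have := inv_mul_eq_one.mp h8
          exact this.symm))
    refine ⟨C, hCn, ⟨⟨⟨fun x y => Subtype.ext (hCc x.1 x.2 y.1 y.2)⟩⟩, hC2⟩, ?_⟩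
    have h1 := C.card_mul_index
    rw [hCcard, hab, hb1] at h1
    have h2 : 0 < 2 ^ a := by positivity
    simpa using Nat.eq_of_mul_eq_mul_left h2 h1
  · -- normal 3-subgroup
    left
    have huniq : ∀ s u : G, s ^ 2 = 1 → s ≠ 1 → u ^ 2 = 1 → u ≠ 1 → s * u = u * s → s = u := by
      intro s u hs hs1 hu hu1 hsu
      have h1 := inv3 M hMn hMp s hs hs1
      have h2 := inv3 M hMn hMp u hu hu1
      have h3 : (s * u) * m = m * (s * u) := by
        have h4 : (s * u) * m * (s * u)⁻¹ = m := by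
          have e : (s * u) * m * (s * u)⁻¹ = s * (u * m * u⁻¹) * s⁻¹ := by group
          rw [e, h2 m hmM, h1 _ (M.inv_mem hmM), inv_inv]
        rw [mul_inv_eq_iff_eq_mul] at h4; exact h4
      have h4 : (s * u) ^ 2 = 1 := by rw [(show Commute s u from hsu).mul_pow, hs, hu, one_mul]
      rcases no6 (s * u) m h4 (hMp m hmM) h3 with h5 | h5
      · have h6 : s = u⁻¹ := eq_inv_of_mul_eq_one_left h5
        rw [h6, inv_eq_iff_mul_eq_one, ← pow_two, hu]
      · exact absurd h5 hm1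
    have ha1 : a = 1 := by
      by_contra ha1
      have ha2 : 2 ≤ a := by omega
      obtain T : Sylow 2 G := default
      have hT4 : 4 ≤ Nat.card T := by
        rw [hcT T]
        calc 4 = 2 ^ 2 := by norm_num
          _ ≤ 2 ^ a := Nat.pow_le_pow_right (by norm_num) ha2
      obtain ⟨s, hs⟩ := exists_not_mem ({1} : Finset T) (by simp; omega)
      obtain ⟨u, hu⟩ := exists_not_mem ({1, s} : Finset T) (lt_of_le_of_lt Finset.card_le_two (by omega))
      simp only [Finset.mem_insert, Finset.mem_singleton, not_or] at hs hu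
      have := huniq s u (hT2 T _ s.2) (fun h => hs (Subtype.ext h)) (hT2 T _ u.2)
        (fun h => hu.1 (Subtype.ext h))
        (comm2 _ _ (hT2 T _ s.2) (hT2 T _ u.2) (hT2 T _ ((T : Subgroup G).mul_mem s.2 u.2)))
      exact hu.2 (Subtype.ext this.symm)
    obtain P : Sylow 3 G := default
    have hidx : (P : Subgroup G).index = 2 := by
      have h1 := (P : Subgroup G).card_mul_index
      rw [hcP P, hab, ha1, mul_comm] at h1
      have h2 : 0 < 3 ^ b := by positivity
      simpa using Nat.eq_of_mul_eq_mul_right h2 h1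
    have hPn : (P : Subgroup G).Normal := Subgroup.normal_of_index_eq_two hidx
    have hinv := inv3 P hPn (hP3 P) t ht2 ht1
    refine ⟨P, hPn, ⟨⟨⟨fun x y => Subtype.ext ?_⟩⟩, hP3 P⟩, hidx⟩
    have h1 := hinv _ ((P : Subgroup G).mul_mem x.2 y.2)
    have h2 : t * (x.1 * y.1) * t⁻¹ = (t * x.1 * t⁻¹) * (t * y.1 * t⁻¹) := by group
    rw [h2, hinv _ x.2, hinv _ y.2, ← mul_inv_rev, inv_inj] at h1
    exact h1.symm

end Cfsg.Agent.S4005
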