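import Cfsg.Statements.S4200
import Cfsg.Agent.Lib.Helper17.ClassNum1

set_option autoImplicit false
open Cfsg

namespace Cfsg.Agent.S4200

open Cfsg.Agent.Lib.Helper17 in

/-- Let Y be a subgroup of the finite group X, of index m. Then the numbers of conjugacy classes satisfy k(Y) ≤ m·k(X) and k(X) ≤ m·k(Y), and the second inequality is strict unless Y is normal in X. -/
theorem result {X : Type*} [Group X] [Finite X] (Y : Subgroup X) : Nat.card (ConjClasses Y) ≤ Y.index * Nat.card (ConjClasses X) ∧ Nat.card (ConjClasses X) ≤ Y.index * Nat.card (ConjClasses Y) ∧ (¬ Y.Normal → Nat.card (ConjClasses X) < Y.index * Nat.card (ConjClasses Y)) := by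
  classical
  haveI := Fintype.ofFinite X
  haveI : Fintype (X ⧸ Y) := Fintype.ofFinite _
  have hidx : Y.index * Nat.card Y = Nat.card X := Subgroup.index_mul_card Y
  have hYpos : 0 < Nat.card Y := Nat.card_pos
  have hmpos : 0 < Y.index := Nat.pos_of_ne_zero Subgroup.index_ne_zero_of_finite
  have h1 := card_comm_eq_sum_cpF Y
  obtain ⟨c, hc⟩ : ∃ c, c = (cpF Y ((1 : X) : X ⧸ Y) ((1 : X) : X ⧸ Y)).card := ⟨_, rfl⟩
  have hcard : (Finset.univ : Finset ((X ⧸ Y) × (X ⧸ Y))).card = Y.index * Y.index := by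
    rw [Finset.card_univ, Fintype.card_prod, Subgroup.index, Nat.card_eq_fintype_card]
  have hsumc : ∑ _q : (X ⧸ Y) × (X ⧸ Y), c = Y.index * Y.index * c := by
    rw [Finset.sum_const, smul_eq_mul, hcard]
  have hc2 : c = Nat.card (ConjClasses Y) * Nat.card Y := by rw [hc, cpF_one_one]
  refine ⟨?_, ?_, ?_⟩
  · have h := Subgroup.commProb_subgroup_le Y
    rw [commProb_def', commProb_def', ← hidx] at h
    have hY' : (0 : ℚ) < (Nat.card Y : ℚ) := by exact_mod_cast hYpos
    have hm' : (0 : ℚ) < (Y.index : ℚ) := by exact_mod_cast hmpos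
    push_cast at h
    rw [div_le_iff₀ hY'] at h
    have h5 : (Nat.card (ConjClasses X) : ℚ) / ((Y.index : ℚ) * (Nat.card Y : ℚ)) * (Y.index : ℚ) ^ 2 * (Nat.card Y : ℚ)
        = (Y.index : ℚ) * (Nat.card (ConjClasses X) : ℚ) := by
      field_simp
    rw [h5] at h
    exact_mod_cast h
  · have h2 : ∑ q : (X ⧸ Y) × (X ⧸ Y), (cpF Y q.1 q.2).card ≤ ∑ _q : (X ⧸ Y) × (X ⧸ Y), c := by
      apply Finset.sum_le_sum
      intro q _
      rw [hc]
      exact cpF_le Y q.1 q.2
    rw [hsumc, ← h1, hc2, ← hidx] at h2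
    apply Nat.le_of_mul_le_mul_right _ (Nat.mul_pos hmpos hYpos)
    calc Nat.card (ConjClasses X) * (Y.index * Nat.card Y)
        ≤ Y.index * Y.index * (Nat.card (ConjClasses Y) * Nat.card Y) := h2
      _ = Y.index * Nat.card (ConjClasses Y) * (Y.index * Nat.card Y) := by ring
  · intro hnn
    have hex : ∃ y ∈ Y, ∃ g : X, g * y * g⁻¹ ∉ Y := by
      by_contra hcon
      push Not at hcon
      exact hnn ⟨fun y hy g => hcon y hy g⟩
    obtain ⟨y, hy, g, hg⟩ := hex
    have h2 : ∑ q : (X ⧸ Y) × (X ⧸ Y), (cpF Y q.1 q.2).card < ∑ _q : (X ⧸ Y) × (X ⧸ Y), c := by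
      apply Finset.sum_lt_sum
      · intro q _
        rw [hc]
        exact cpF_le Y q.1 q.2
      · refine ⟨(((1 : X) : X ⧸ Y), ((g⁻¹ : X) : X ⧸ Y)), Finset.mem_univ _, ?_⟩
        rw [hc]
        apply cpF_lt Y _ y hy
        intro x hx hxy
        rw [eq_comm, QuotientGroup.eq] at hx
        -- g * x ∈ Y
        apply hg
        have hgx : g * x ∈ Y := by simpa using hx
        have : g * y * g⁻¹ = (g * x) * y * (g * x)⁻¹ := by
          have : x * y * x⁻¹ = y := by rw [← hxy]; group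
          calc g * y * g⁻¹ = g * (x * y * x⁻¹) * g⁻¹ := by rw [this]
            _ = (g * x) * y * (g * x)⁻¹ := by group
        rw [this]
        exact Y.mul_mem (Y.mul_mem hgx hy) (Y.inv_mem hgx)
    rw [hsumc, ← h1, hc2, ← hidx] at h2
    apply Nat.lt_of_mul_lt_mul_right (a := Y.index * Nat.card Y)
    calc Nat.card (ConjClasses X) * (Y.index * Nat.card Y)
        < Y.index * Y.index * (Nat.card (ConjClasses Y) * Nat.card Y) := h2
      _ = Y.index * Nat.card (ConjClasses Y) * (Y.index * Nat.card Y) := by ring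

end Cfsg.Agent.S4200
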