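import Cfsg.Statements.S4201
import Cfsg.Agent.Lib.Helper17.ClassNum1

set_option autoImplicit false
open Cfsg

namespace Cfsg.Agent.S4201

open Cfsg.Agent.Lib.Helper17 in

/-- If N is a normal subgroup of the finite group X then k(X) ≤ k(N)·k(X ⧸ N), where k denotes the number of conjugacy classes. -/
theorem result {X : Type*} [Group X] [Finite X] (N : Subgroup X) [N.Normal] : Nat.card (ConjClasses X) ≤ Nat.card (ConjClasses N) * Nat.card (ConjClasses (X ⧸ N)) := by
  classical
  haveI := Fintype.ofFinite X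
  haveI : Fintype (X ⧸ N) := Fintype.ofFinite _
  have h1 := card_comm_eq_sum_cpF N
  obtain ⟨c, hc⟩ : ∃ c, c = (cpF N ((1 : X) : X ⧸ N) ((1 : X) : X ⧸ N)).card := ⟨_, rfl⟩
  have h2 : ∑ q : (X ⧸ N) × (X ⧸ N), (cpF N q.1 q.2).card ≤
      ∑ q : (X ⧸ N) × (X ⧸ N), if Commute q.1 q.2 then c else 0 := by
    apply Finset.sum_le_sum
    intro q _
    by_cases hq : Commute q.1 q.2
    · rw [if_pos hq, hc]
      exact cpF_le N q.1 q.2
    · rw [if_neg hq]
      rw [Nat.le_zero, Finset.card_eq_zero, Finset.eq_empty_iff_forall_notMem]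
      intro p hp
      rw [mem_cpF] at hp
      apply hq
      show q.1 * q.2 = q.2 * q.1
      rw [← hp.1, ← hp.2.1, ← QuotientGroup.mk_mul, ← QuotientGroup.mk_mul, hp.2.2]
  rw [← Finset.sum_filter, Finset.sum_const, smul_eq_mul] at h2
  have h3 : (Finset.univ.filter (fun q : (X ⧸ N) × (X ⧸ N) => Commute q.1 q.2)).card =
      Nat.card (ConjClasses (X ⧸ N)) * Nat.card (X ⧸ N) := by
    rw [← card_comm_eq_card_conjClasses_mul_card, Nat.card_eq_fintype_card, Fintype.card_subtype]
  rw [h3, ← h1, hc, cpF_one_one, Subgroup.card_eq_card_quotient_mul_card_subgroup N] at h2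
  have hpos : 0 < Nat.card (X ⧸ N) * Nat.card N := Nat.mul_pos Nat.card_pos Nat.card_pos
  apply Nat.le_of_mul_le_mul_right _ hpos
  calc Nat.card (ConjClasses X) * (Nat.card (X ⧸ N) * Nat.card N)
      ≤ Nat.card (ConjClasses (X ⧸ N)) * Nat.card (X ⧸ N) * (Nat.card (ConjClasses N) * Nat.card N) := h2
    _ = Nat.card (ConjClasses N) * Nat.card (ConjClasses (X ⧸ N)) * (Nat.card (X ⧸ N) * Nat.card N) := by ring

end Cfsg.Agent.S4201
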