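import Mathlib
import Cfsg.Statements.S4203
import Cfsg.Agent.Lib.Helper22.Index

set_option autoImplicit false
open Cfsg

namespace Cfsg.Agent.S4203

open Cfsg.Agent.Lib.Helper22

theorem solvable_of_prime_card {G : Type*} [Group G] {p : ℕ} (hp : p.Prime) (h : Nat.card G = p) :
    Group.IsSolvable G := by
  have := Fact.mk hp
  have := isCyclic_of_prime_card h
  exact Group.isSolvable_of_comm (fun a b => IsCyclic.isMulCommutative.is_comm.comm a b)

theorem perm4_solvable {α : Type*} [Fintype α] [DecidableEq α] (h : Nat.card α = 4) :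
    Group.IsSolvable (Equiv.Perm α) := by
  have hK : (alternatingGroup.kleinFour α).Normal := alternatingGroup.normal_kleinFour h
  have hA : Group.IsSolvable (alternatingGroup α) := by
    rw [Group.isSolvable_iff_subgroup_quotient (alternatingGroup.kleinFour α)]
    constructor
    · have := alternatingGroup.kleinFour_isKleinFour h
      exact Group.isSolvable_of_comm (fun a b => mul_comm_of_exponent_two IsKleinFour.exponent_two a b)
    · apply solvable_of_prime_card Nat.prime_three
      have h1 := Subgroup.card_eq_card_quotient_mul_card_subgroup (alternatingGroup.kleinFour α)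
      rw [alternatingGroup.kleinFour_card_of_card_eq_four h, alternatingGroup.card_of_card_eq_four h] at h1
      omega
  rw [Group.isSolvable_iff_subgroup_quotient (alternatingGroup α)]
  refine ⟨hA, ?_⟩
  apply solvable_of_prime_card Nat.prime_two
  have : Nontrivial α := by
    apply (Finite.one_lt_card_iff_nontrivial).1; omega
  exact alternatingGroup.index_eq_two

/-- overgroup of Sylow normalizer has index ≡ 1 mod p -/
theorem index_modEq_one_of_normalizer_le {G : Type*} [Group G] [Finite G] {p : ℕ} [Fact p.Prime]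
    (P : Sylow p G) (H : Subgroup G) (hH : Subgroup.normalizer (P : Set G) ≤ H) :
    H.index ≡ 1 [MOD p] := by
  have hPH : (P : Subgroup G) ≤ H := le_trans Subgroup.le_normalizer hH
  have h1 : (Subgroup.normalizer (P : Set G)).index ≡ 1 [MOD p] := by
    rw [← Sylow.card_eq_index_normalizer]; exact card_sylow_modEq_one p G
  have h2 : (Subgroup.normalizer (P : Set G)).relIndex H ≡ 1 [MOD p] := by
    have h3 := card_sylow_modEq_one p H
    rw [Sylow.card_eq_index_normalizer (P.subtype hPH)] at h3
    have := Subgroup.subgroupOf_normalizer_eq hPH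
    rw [← (P.subtype hPH).coe_coe, Sylow.coe_subtype, ← this] at h3
    exact h3
  have h4 := Subgroup.relIndex_mul_index hH
  rw [← h4] at h1
  have h5 : (Subgroup.normalizer (P : Set G)).relIndex H * H.index ≡ 1 * H.index [MOD p] :=
    Nat.ModEq.mul_right _ h2
  rw [one_mul] at h5
  exact h5.symm.trans h1

theorem nt_aux {p q m : ℕ} (hp : p.Prime) (hq : q.Prime) (hqp : q ≤ p) (hm : m = q ∨ m = q ^ 2)
    (h1 : m ≡ 1 [MOD p]) : m = 4 := by
  have hp2 := hp.two_le
  have hq2 := hq.two_le
  rcases hm with rfl | rfl
  · exfalso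
    rcases hqp.lt_or_eq with h | h
    · have := Nat.ModEq.eq_of_lt_of_lt h1 h (by omega)
      omega
    · subst h
      have : m ∣ 1 := by
        have := (Nat.modEq_zero_iff_dvd.2 (dvd_refl m)).symm.trans h1
        exact (Nat.modEq_zero_iff_dvd.1 this.symm)
      have := Nat.le_of_dvd one_pos this
      omega
  · have h2 : p ∣ q ^ 2 - 1 := (Nat.modEq_iff_dvd' (Nat.one_le_pow _ _ (by omega))).1 h1.symm
    have h3 : q ^ 2 - 1 = (q - 1) * (q + 1) := by
      obtain ⟨k, rfl⟩ : ∃ k, q = k + 1 := ⟨q - 1, by omega⟩
      simp only [Nat.add_sub_cancel]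
      have : (k + 1) ^ 2 = k * (k + 1 + 1) + 1 := by ring
      omega
    rw [h3] at h2
    rcases (Nat.Prime.dvd_mul hp).1 h2 with h4 | h4
    · have := Nat.le_of_dvd (by omega) h4
      omega
    · have h5 := Nat.le_of_dvd (by omega) h4
      rcases hqp.lt_or_eq with h | h
      · have hpq : p = q + 1 := by omega
        rcases hq.eq_two_or_odd with h6 | h6
        · subst h6; norm_num
        · rcases hp.eq_two_or_odd with h7 | h7
          · omega
          · omega
      · subst h
        have : q ∣ 1 := (Nat.dvd_add_right (dvd_refl q)).1 h4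
        have := Nat.le_of_dvd one_pos this
        omega

universe u

theorem main : ∀ n : ℕ, ∀ (G : Type u) [Group G] [Finite G], Nat.card G = n →
    (∀ M : Subgroup G, IsCoatom M → ∃ p : ℕ, p.Prime ∧ (M.index = p ∨ M.index = p ^ 2)) →
    Group.IsSolvable G := by
  intro n
  induction n using Nat.strong_induction_on with
  | _ n ih =>
  intro G _ _ hn h
  by_cases hG : Subsingleton G
  · infer_instance
  rw [not_subsingleton_iff_nontrivial] at hG
  obtain ⟨N, hN⟩ : ∃ N : Subgroup G, Minimal (fun N : Subgroup G => N.Normal ∧ N ≠ ⊥) N :=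
    exists_minimal_of_wellFoundedLT _ ⟨⊤, inferInstance, top_ne_bot⟩
  have hNn : N.Normal := hN.1.1
  have hNb : N ≠ ⊥ := hN.1.2
  have hNcard : 1 < Nat.card N := (Subgroup.one_lt_card_iff_ne_bot N).2 hNb
  have hQ : Group.IsSolvable (G ⧸ N) := by
    refine ih (Nat.card (G ⧸ N)) ?_ (G ⧸ N) rfl ?_
    · rw [← hn, Subgroup.card_eq_card_quotient_mul_card_subgroup N]
      have : 0 < Nat.card (G ⧸ N) := Nat.card_pos
      nlinarith
    · intro M hM
      have h1 := h (M.comap (QuotientGroup.mk' N))
        (Subgroup.isCoatom_comap_of_surjective (QuotientGroup.mk'_surjective N) hM)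
      rwa [Subgroup.index_comap_of_surjective _ (QuotientGroup.mk'_surjective N)] at h1
  rw [Group.isSolvable_iff_subgroup_quotient N]
  refine ⟨?_, hQ⟩
  have hne : (Nat.card N).primeFactors.Nonempty := Nat.nonempty_primeFactors.2 hNcard
  obtain ⟨p, hpmem, hpmax⟩ : ∃ p ∈ (Nat.card N).primeFactors, ∀ q ∈ (Nat.card N).primeFactors, q ≤ p :=
    ⟨_, Finset.max'_mem _ hne, fun q hq => Finset.le_max' _ q hq⟩
  have hp : p.Prime := Nat.prime_of_mem_primeFactors hpmem
  have hpd : p ∣ Nat.card N := Nat.dvd_of_mem_primeFactors hpmem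
  have := Fact.mk hp
  obtain ⟨P⟩ : Nonempty (Sylow p N) := inferInstance
  by_cases hPn : Subgroup.normalizer ((Subgroup.map N.subtype (P : Subgroup N) : Subgroup G) : Set G) = ⊤
  · have h1 : (Subgroup.map N.subtype (P : Subgroup N)).Normal := Subgroup.normalizer_eq_top_iff.1 hPn
    have h2 : (P : Subgroup N) ≠ ⊥ := P.ne_bot_of_dvd_card hpd
    have h3 : Subgroup.map N.subtype (P : Subgroup N) ≠ ⊥ := by
      intro h4
      exact h2 ((Subgroup.map_eq_bot_iff_of_injective _ N.subtype_injective).1 h4)
    have h4 : N ≤ Subgroup.map N.subtype (P : Subgroup N) :=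
      hN.2 ⟨h1, h3⟩ (Subgroup.map_subtype_le _)
    have h5 : (P : Subgroup N) = ⊤ := by
      rw [eq_top_iff]
      intro x _
      obtain ⟨y, hy, hyx⟩ := h4 x.2
      have : y = x := Subtype.ext hyx
      rwa [← this]
    have h6 : IsPGroup p N := by
      have := P.isPGroup'
      rw [h5] at this
      exact this.of_surjective (Subgroup.topEquiv : (⊤ : Subgroup N) ≃* N).toMonoidHom
        (Subgroup.topEquiv : (⊤ : Subgroup N) ≃* N).surjective
    have := h6.isNilpotent
    infer_instance
  · obtain ⟨M, hM, hle⟩ := (eq_top_or_exists_le_coatom _).resolve_left hPn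
    have hsup : M ⊔ N = ⊤ := by
      rw [eq_top_iff, ← Sylow.normalizer_sup_eq_top P]
      exact sup_le_sup_right hle N
    have hidx : (M.subgroupOf N).index = M.index := by
      have := relIndex_eq_relIndex_sup_of_normal (K := M) (H := N)
      rw [hsup, Subgroup.relIndex_top_right] at this
      exact this
    have hnor : Subgroup.normalizer (P : Set N) ≤ M.subgroupOf N := by
      intro x hx
      rw [Subgroup.mem_subgroupOf]
      apply hle
      exact Subgroup.le_normalizer_map N.subtype ⟨x, hx, rfl⟩
    have hmod := index_modEq_one_of_normalizer_le P _ hnor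
    have hdvd : (M.subgroupOf N).index ∣ Nat.card N := Subgroup.index_dvd_card _
    rw [hidx] at hmod hdvd
    obtain ⟨q, hq, hqM⟩ := h M hM
    have hqd : q ∣ M.index := by
      rcases hqM with h1 | h1
      · rw [h1]
      · rw [h1]; exact dvd_pow_self q two_ne_zero
    have hqp : q ≤ p := hpmax q (Nat.mem_primeFactors.2 ⟨hq, hqd.trans hdvd, by omega⟩)
    have h4 : M.index = 4 := nt_aux hp hq hqp hqM hmod
    have hcore : N ⊓ M.normalCore = ⊥ := by
      by_contra hcon
      have h5 : N ≤ N ⊓ M.normalCore := hN.2 ⟨inferInstance, hcon⟩ inf_le_left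
      have h6 : N ≤ M := h5.trans (inf_le_right.trans (Subgroup.normalCore_le M))
      rw [sup_eq_left.2 h6] at hsup
      exact hM.1 hsup
    classical
    have : Fintype (G ⧸ M) := Fintype.ofFinite _
    have hS : Group.IsSolvable (Equiv.Perm (G ⧸ M)) := perm4_solvable h4
    refine Group.isSolvable_of_isSolvable_injective
      (f := (MulAction.toPermHom G (G ⧸ M)).comp N.subtype) ?_
    rw [injective_iff_map_eq_one]
    intro x hx
    have h7 : (x : G) ∈ N ⊓ M.normalCore := by
      refine ⟨x.2, ?_⟩
      rw [Subgroup.normalCore_eq_ker]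
      exact hx
    rw [hcore, Subgroup.mem_bot] at h7
    exact Subtype.ext h7

/-- A finite group in which every maximal subgroup has index a prime or the square of a prime is solvable. -/
theorem result {G : Type*} [Group G] [Finite G] (h : ∀ M : Subgroup G, IsCoatom M → ∃ p : ℕ, p.Prime ∧ (M.index = p ∨ M.index = p ^ 2)) : Group.IsSolvable G := by
  exact main _ G rfl h

end Cfsg.Agent.S4203
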