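import Cfsg.Statements.S4204
import Cfsg.Agent.Lib.Helper22.Comm2

set_option autoImplicit false
open Cfsg

namespace Cfsg.Agent.S4204

open Cfsg.Agent.Lib.Helper22

variable {G : Type*} [Group G]

/-- shifted lower central series, starting with `⊤`. -/
def Lser (H : Subgroup G) : ℕ → Subgroup G
  | 0 => ⊤
  | a + 1 => H.lowerCentralSeries a

theorem lcs_normal (H : Subgroup G) [H.Normal] (n : ℕ) : (H.lowerCentralSeries n).Normal := by
  induction n with
  | zero => simpa
  | succ n ih => rw [Subgroup.lowerCentralSeries_succ]; infer_instance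

theorem Lser_normal (H : Subgroup G) [H.Normal] (n : ℕ) : (Lser H n).Normal := by
  cases n with
  | zero => exact Subgroup.normal_top
  | succ n => exact lcs_normal H n

theorem comm_Lser_le (H : Subgroup G) [H.Normal] (a : ℕ) : ⁅Lser H a, H⁆ ≤ Lser H (a + 1) := by
  cases a with
  | zero => exact Subgroup.commutator_le_right _ _
  | succ a => exact le_rfl

/-- the product of the mixed terms -/
def T (H K : Subgroup G) (n : ℕ) : Subgroup G :=
  ⨆ (a : ℕ) (b : ℕ) (_ : a + b = n + 1), Lser H a ⊓ Lser K b

theorem T_normal (H K : Subgroup G) [H.Normal] [K.Normal] (n : ℕ) : (T H K n).Normal := by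
  unfold T
  have := Lser_normal H
  have := Lser_normal K
  infer_instance

theorem le_T (H K : Subgroup G) (n a b : ℕ) (h : a + b = n + 1) : Lser H a ⊓ Lser K b ≤ T H K n := by
  unfold T
  exact le_iSup_of_le a (le_iSup_of_le b (le_iSup_of_le h le_rfl))

theorem comm_T_le (H K : Subgroup G) [H.Normal] [K.Normal] (n : ℕ) :
    ⁅T H K n, H ⊔ K⁆ ≤ T H K (n + 1) := by
  have := T_normal H K (n + 1)
  have hL := Lser_normal H
  have hM := Lser_normal K
  unfold T
  apply commutator_iSup_left_le
  intro a
  apply commutator_iSup_left_le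
  intro b
  apply commutator_iSup_left_le
  intro hab
  apply commutator_sup_right_le
  · refine le_trans ?_ (le_T H K (n + 1) (a + 1) b (by omega))
    apply le_inf
    · exact (Subgroup.commutator_mono inf_le_left le_rfl).trans (comm_Lser_le H a)
    · exact (Subgroup.commutator_mono inf_le_right le_rfl).trans (Subgroup.commutator_le_left _ _)
  · refine le_trans ?_ (le_T H K (n + 1) a (b + 1) (by omega))
    apply le_inf
    · exact (Subgroup.commutator_mono inf_le_left le_rfl).trans (Subgroup.commutator_le_left _ _)
    · exact (Subgroup.commutator_mono inf_le_right le_rfl).trans (comm_Lser_le K b)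

theorem lcs_le_T (H K : Subgroup G) [H.Normal] [K.Normal] (n : ℕ) :
    (H ⊔ K).lowerCentralSeries n ≤ T H K n := by
  induction n with
  | zero =>
    rw [Subgroup.lowerCentralSeries_zero]
    apply sup_le
    · refine le_trans ?_ (le_T H K 0 1 0 rfl)
      exact le_inf le_rfl le_top
    · refine le_trans ?_ (le_T H K 0 0 1 rfl)
      exact le_inf le_top le_rfl
  | succ n ih =>
    rw [Subgroup.lowerCentralSeries_succ]
    exact (Subgroup.commutator_mono ih le_rfl).trans (comm_T_le H K n)

/-- If `H` and `K` are normal subgroups of a finite group with `H` nilpotent of class at most `c` and `K` nilpotent of class at most `d` (the terms with index `c`, respectively `d`, of their lower central series are trivial, indices starting at `0`), then `HK` is nilpotent of class at most `c + d`. -/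
theorem result {G : Type*} [Group G] [Finite G] (H K : Subgroup G) [H.Normal] [K.Normal] (c d : ℕ) (hH : H.lowerCentralSeries c = ⊥) (hK : K.lowerCentralSeries d = ⊥) : (H ⊔ K).lowerCentralSeries (c + d) = ⊥ := by
  rw [eq_bot_iff]
  refine (lcs_le_T H K (c + d)).trans ?_
  unfold T
  refine iSup_le fun a => iSup_le fun b => iSup_le fun hab => ?_
  by_cases ha : c + 1 ≤ a
  · obtain ⟨a', rfl⟩ : ∃ a', a = a' + 1 := ⟨a - 1, by omega⟩
    refine inf_le_left.trans ?_
    show H.lowerCentralSeries a' ≤ ⊥
    rw [← hH]
    exact Subgroup.lowerCentralSeries_antitone H (by omega)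
  · obtain ⟨b', rfl⟩ : ∃ b', b = b' + 1 := ⟨b - 1, by omega⟩
    refine inf_le_right.trans ?_
    show K.lowerCentralSeries b' ≤ ⊥
    rw [← hK]
    exact Subgroup.lowerCentralSeries_antitone K (by omega)

end Cfsg.Agent.S4204
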