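import Cfsg.Statements.S4205

set_option autoImplicit false
open Cfsg

namespace Cfsg.Agent.S4205

open scoped commutatorElement

/-- In a finite group whose upper central series reaches the whole group at step `c` (nilpotent of class at most `c`), starting from any subgroup and taking normalizers `c` times reaches the whole group. -/
theorem result {G : Type*} [Group G] [Finite G] (c : ℕ) (hG : Subgroup.upperCentralSeries G c = ⊤) (H : Subgroup G) : (fun K : Subgroup G => Subgroup.normalizer (K : Set G))^[c] H = ⊤ := by
  have key : ∀ i : ℕ, Subgroup.upperCentralSeries G i ≤ (fun K : Subgroup G => Subgroup.normalizer (K : Set G))^[i] H := by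
    intro i
    induction i with
    | zero => simp
    | succ i ih =>
      rw [Function.iterate_succ_apply']
      set K := (fun K : Subgroup G => Subgroup.normalizer (K : Set G))^[i] H with hK
      have h1 : ∀ z ∈ Subgroup.upperCentralSeries G (i + 1), ∀ k ∈ K, z * k * z⁻¹ ∈ K := by
        intro z hz k hk
        rw [Subgroup.mem_upperCentralSeries_succ_iff] at hz
        have h2 := K.mul_mem (ih (hz k)) hk
        have : ⁅z, k⁆ * k = z * k * z⁻¹ := by rw [commutatorElement_def]; group
        rwa [this] at h2
      intro z hz
      show z ∈ Subgroup.normalizer (K : Set G)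
      rw [Subgroup.mem_normalizer_iff]
      intro k
      refine ⟨h1 z hz k, fun hk => ?_⟩
      have := h1 z⁻¹ (Subgroup.inv_mem _ hz) _ hk
      simpa [mul_assoc] using this
  rw [eq_top_iff, ← hG]
  exact key c

end Cfsg.Agent.S4205
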