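import Cfsg.Statements.S4208
import Cfsg.Agent.Lib.Helper22.Frat
import Cfsg.Agent.Lib.Helper22.ElemAb
import Cfsg.Agent.S4207

set_option autoImplicit false
open Cfsg

namespace Cfsg.Agent.S4208

open Cfsg.Agent.Lib.Helper22

/-- Let `P` be a group of order `p^n` whose Frattini subgroup has index `p^r`. Then the order of the automorphism group of `P` divides `p^(r(n-r)) · (p^r - 1)(p^r - p) ⋯ (p^r - p^(r-1))`. -/
theorem result {P : Type*} [Group P] [Finite P] {p n r : ℕ} [Fact p.Prime] (hP : Nat.card P = p ^ n) (hr : (frattini P).index = p ^ r) : Nat.card (MulAut P) ∣ p ^ (r * (n - r)) * ∏ i ∈ Finset.range r, (p ^ r - p ^ i) := by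
  classical
  have hp : p.Prime := Fact.out
  have hPG : IsPGroup p P := IsPGroup.of_card hP
  let Ω : SubMulAction (MulAut P) (Fin r → P) :=
    { carrier := {z | Subgroup.closure (Set.range z) = ⊤}
      smul_mem' := by
        intro α z hz
        have hz' : Subgroup.closure (Set.range z) = ⊤ := hz
        show Subgroup.closure (Set.range (α • z)) = ⊤
        have h1 : Set.range (α • z) = (α : P ≃* P).toMonoidHom '' Set.range z := by
          rw [← Set.range_comp]; rfl
        rw [h1, ← MonoidHom.map_closure, hz', ← MonoidHom.range_eq_map, MonoidHom.range_eq_top]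
        exact (α : P ≃* P).surjective }
  have hfree : ∀ z : Ω, MulAction.stabilizer (MulAut P) z = ⊥ := by
    intro z
    rw [eq_bot_iff]
    intro α hα
    rw [MulAction.mem_stabilizer_iff] at hα
    have hα' : ∀ i, α ((z : Fin r → P) i) = (z : Fin r → P) i := by
      intro i
      have := congrArg (fun w : Ω => (w : Fin r → P) i) hα
      exact this
    have hgen : Subgroup.closure (Set.range (z : Fin r → P)) = ⊤ := z.2
    have h1 : (α : P ≃* P).toMonoidHom = MonoidHom.id P := by
      apply MonoidHom.eq_of_eqOn_dense hgen
      rintro _ ⟨i, rfl⟩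
      exact hα' i
    rw [Subgroup.mem_bot]
    ext x
    exact congrArg (fun f : P →* P => f x) h1
  have e1 := MulAction.selfEquivOrbitsQuotientProd hfree
  have hcard1 : Nat.card Ω = Nat.card (Quotient (MulAction.orbitRel (MulAut P) Ω)) * Nat.card (MulAut P) := by
    rw [Nat.card_congr e1, Nat.card_prod]
  let e2 : Ω ≃ {w : Fin r → P ⧸ frattini P // Subgroup.closure (Set.range w) = ⊤} × (Fin r → frattini P) :=
    { toFun := fun z => (⟨fun i => QuotientGroup.mk ((z : Fin r → P) i), by
          have hz : Subgroup.closure (Set.range (z : Fin r → P)) = ⊤ := z.2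
          have h1 : Set.range (fun i => (QuotientGroup.mk ((z : Fin r → P) i) : P ⧸ frattini P)) =
              (QuotientGroup.mk' (frattini P)) '' Set.range (z : Fin r → P) := by
            rw [← Set.range_comp]; rfl
          rw [h1, ← MonoidHom.map_closure, hz, ← MonoidHom.range_eq_map, MonoidHom.range_eq_top]
          exact QuotientGroup.mk'_surjective _⟩,
          fun i => ⟨(Quotient.out (QuotientGroup.mk ((z : Fin r → P) i) : P ⧸ frattini P))⁻¹ * (z : Fin r → P) i, by
            rw [← QuotientGroup.eq]
            exact Quotient.out_eq _⟩)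
      invFun := fun wu => ⟨fun i => Quotient.out (wu.1.1 i) * (wu.2 i : P), by
          apply Cfsg.Agent.S4207.closure_eq_top_of_mk
          have : (fun i => (QuotientGroup.mk (Quotient.out (wu.1.1 i) * (wu.2 i : P)) : P ⧸ frattini P)) = wu.1.1 := by
            funext i
            rw [QuotientGroup.mk_mul_of_mem _ (wu.2 i).2]
            exact Quotient.out_eq _
          rw [this]
          exact wu.1.2⟩
      left_inv := by
        intro z
        apply Subtype.ext
        funext i
        simp
      right_inv := by
        rintro ⟨⟨w, hw⟩, u⟩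
        have h1 : ∀ i, (QuotientGroup.mk (Quotient.out (w i) * (u i : P)) : P ⧸ frattini P) = w i := by
          intro i
          rw [QuotientGroup.mk_mul_of_mem _ (u i).2]
          exact Quotient.out_eq _
        apply Prod.ext
        · apply Subtype.ext
          funext i
          exact h1 i
        · funext i
          apply Subtype.ext
          show (Quotient.out (QuotientGroup.mk (Quotient.out (w i) * (u i : P)) : P ⧸ frattini P))⁻¹ * (Quotient.out (w i) * (u i : P)) = u i
          rw [h1 i]
          group }
  have hΦ : Nat.card (frattini P) = p ^ (n - r) := by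
    have h1 := Subgroup.card_mul_index (frattini P)
    rw [hr, hP] at h1
    have hrn : r ≤ n := by
      have : p ^ r ∣ p ^ n := ⟨_, by rw [← h1, mul_comm]⟩
      exact (Nat.pow_dvd_pow_iff_le_right hp.one_lt).mp this
    have h2 : p ^ n = p ^ (n - r) * p ^ r := by rw [← pow_add]; congr 1; omega
    rw [h2] at h1
    exact Nat.eq_of_mul_eq_mul_right (pow_pos hp.pos r) h1
  have hcomm : IsMulCommutative (P ⧸ frattini P) :=
    Subgroup.Normal.quotient_commutative_iff_commutator_le.mpr (commutator_le_frattini hPG)
  have hcnt : Nat.card {w : Fin r → P ⧸ frattini P // Subgroup.closure (Set.range w) = ⊤} =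
      ∏ i : Fin r, (p ^ r - p ^ (i : ℕ)) :=
    @card_generating_tuples (P ⧸ frattini P)
      { (inferInstance : Group (P ⧸ frattini P)) with mul_comm := hcomm.is_comm.comm } _ p _
      (by
        intro x
        obtain ⟨y, rfl⟩ := QuotientGroup.mk_surjective x
        exact (QuotientGroup.eq_one_iff _).mpr (pow_mem_frattini hPG y)) r hr
  have hcard2 : Nat.card Ω = (∏ i : Fin r, (p ^ r - p ^ (i : ℕ))) * (p ^ (n - r)) ^ r := by
    rw [Nat.card_congr e2, Nat.card_prod, hcnt, Nat.card_fun, Nat.card_eq_fintype_card (α := Fin r),
      Fintype.card_fin, hΦ]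
  rw [Finset.prod_range (fun i => p ^ r - p ^ i)]
  rw [hcard2, ← pow_mul, mul_comm (n - r) r] at hcard1
  exact ⟨_, by rw [mul_comm (p ^ (r * (n - r))), hcard1, mul_comm]⟩

end Cfsg.Agent.S4208
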