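import Cfsg.Statements.S4210
import Cfsg.Agent.Lib.Helper22.Comm2

set_option autoImplicit false
open Cfsg

namespace Cfsg.Agent.S4210

open Cfsg.Agent.Lib.Helper22
open scoped commutatorElement

/-- Subgroups of regular `p`-groups are regular. -/
theorem regular_subgroup {G : Type*} [Group G] {p : ℕ} (hG : Cfsg.IsRegularPGroup p G) (H : Subgroup G) :
    Cfsg.IsRegularPGroup p H := by
  refine ⟨hG.1.to_subgroup H, fun a b n => ?_⟩
  obtain ⟨c, hc, hab⟩ := hG.2 (a : G) (b : G) n
  have h1 : (Subgroup.closure ({a, b} : Set H)).map H.subtype = Subgroup.closure ({(a : G), (b : G)} : Set G) := by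
    rw [MonoidHom.map_closure, Set.image_pair]; rfl
  have h2 : (Cfsg.powerClosure p n ⁅Subgroup.closure ({a, b} : Set H), Subgroup.closure ({a, b} : Set H)⁆).map H.subtype
      = Cfsg.powerClosure p n ⁅Subgroup.closure ({(a : G), (b : G)} : Set G), Subgroup.closure ({(a : G), (b : G)} : Set G)⁆ := by
    unfold Cfsg.powerClosure
    rw [MonoidHom.map_closure, ← h1, ← Subgroup.map_commutator]
    congr 1
    ext y
    constructor
    · rintro ⟨z, ⟨x, hx, rfl⟩, rfl⟩
      exact ⟨x, Subgroup.mem_map_of_mem _ hx, by simp⟩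
    · rintro ⟨x, ⟨x', hx', rfl⟩, rfl⟩
      exact ⟨x' ^ p ^ n, ⟨x', hx', rfl⟩, by simp⟩
  rw [← h2] at hc
  obtain ⟨c', hc', rfl⟩ := hc
  refine ⟨c', hc', ?_⟩
  apply Subtype.ext
  simpa using hab

theorem main (p : ℕ) [hp : Fact p.Prime] (k : ℕ) : ∀ (n : ℕ) (G : Type*) [Group G] [Finite G],
    Nat.card G = n → Cfsg.IsRegularPGroup p G →
    ∀ a b : G, a ^ p ^ k = b ^ p ^ k ↔ (a * b⁻¹) ^ p ^ k = 1 := by
  intro n
  induction n using Nat.strong_induction_on with
  | _ n ih =>
  intro G _ _ hn hG a b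
  set q := p ^ k with hq
  -- induction hypothesis for proper subgroups
  have IH : ∀ M : Subgroup G, M ≠ ⊤ → ∀ x ∈ M, ∀ y ∈ M, (x ^ q = y ^ q ↔ (x * y⁻¹) ^ q = 1) := by
    intro M hM x hx y hy
    have hcard : Nat.card M < n := by
      rw [← hn]
      by_contra hge
      exact hM (Subgroup.eq_top_of_card_eq M (le_antisymm (Subgroup.card_le_card_group M) (not_lt.mp hge)))
    have := ih (Nat.card M) hcard M rfl (regular_subgroup hG M) ⟨x, hx⟩ ⟨y, hy⟩
    simpa [Subtype.ext_iff] using this
  by_cases htop : Subgroup.closure ({a, b} : Set G) = ⊤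
  swap
  · exact IH _ htop a (Subgroup.subset_closure (by simp)) b (Subgroup.subset_closure (by simp))
  by_cases hcomm : commutator G = ⊥
  · have hc : Commute a b⁻¹ := by
      have := (commutator_eq_bot_iff G).mp hcomm
      exact this.is_comm.comm a b⁻¹
    rw [hc.mul_pow, inv_pow, mul_inv_eq_one]
  have hnil : Group.IsNilpotent G := hG.1.isNilpotent
  -- F1
  have F1 : ∀ x : G, Subgroup.zpowers x ⊔ commutator G ≠ ⊤ := fun x h =>
    hcomm (commutator_eq_bot_of_sup_commutator_eq_top (Subgroup.zpowers x) inferInstance h)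
  have hG'top : commutator G ≠ ⊤ := by
    intro h
    apply F1 1
    rw [h]; simp
  -- key
  have key : ∀ u v : G, Subgroup.closure ({u, v} : Set G) = ⊤ → ⁅u, v⁆ ^ q = 1 →
      ∀ x y : G, (x * y) ^ q = x ^ q * y ^ q := by
    intro u v huv hc x y
    let Ω : Subgroup G :=
      { carrier := {z | z ∈ commutator G ∧ z ^ q = 1}
        one_mem' := ⟨one_mem _, one_pow _⟩
        mul_mem' := by
          rintro z w ⟨hz, hz1⟩ ⟨hw, hw1⟩
          refine ⟨mul_mem hz hw, ?_⟩
          have := (IH (commutator G) hG'top z hz w⁻¹ (inv_mem hw)).mp (by rw [hz1, inv_pow, hw1, inv_one])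
          simpa using this
        inv_mem' := by
          rintro z ⟨hz, hz1⟩
          exact ⟨inv_mem hz, by rw [inv_pow, hz1, inv_one]⟩ }
    have hΩn : Ω.Normal := by
      refine ⟨fun z hz g => ⟨?_, ?_⟩⟩
      · exact (inferInstance : (commutator G).Normal).conj_mem z hz.1 g
      · rw [conj_pow, hz.2]; simp
    have hle : commutator G ≤ Ω := by
      apply commutator_le_of_closure_pair Ω u v huv
      refine ⟨?_, hc⟩
      rw [commutator_def]
      exact Subgroup.commutator_mem_commutator (Subgroup.mem_top u) (Subgroup.mem_top v)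
    obtain ⟨c, hcmem, hxy⟩ := hG.2 x y k
    have hbot : Cfsg.powerClosure p k ⁅Subgroup.closure ({x, y} : Set G), Subgroup.closure ({x, y} : Set G)⁆ = ⊥ := by
      unfold Cfsg.powerClosure
      rw [Subgroup.closure_eq_bot_iff]
      rintro z ⟨w, hw, rfl⟩
      have hw' : w ∈ commutator G := by
        rw [commutator_def]
        exact Subgroup.commutator_mono le_top le_top hw
      exact (hle hw').2
    rw [hbot, Subgroup.mem_bot] at hcmem
    rw [hxy, hcmem, mul_one]
  have memM : ∀ x y : G, y * x * y⁻¹ ∈ Subgroup.zpowers x ⊔ commutator G := by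
    intro x y
    have h1 : y * x * y⁻¹ = ⁅y, x⁆ * x := by rw [commutatorElement_def]; group
    rw [h1]
    apply mul_mem
    · apply Subgroup.mem_sup_right
      rw [commutator_def]
      exact Subgroup.commutator_mem_commutator (Subgroup.mem_top y) (Subgroup.mem_top x)
    · exact Subgroup.mem_sup_left (Subgroup.mem_zpowers x)
  constructor
  · intro hab
    have h1 : (b * a * b⁻¹) ^ q = a ^ q := by
      rw [conj_pow, hab]; group
    have h2 := (IH _ (F1 a) a (Subgroup.mem_sup_left (Subgroup.mem_zpowers a)) _ (memM a b)).mp h1.symm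
    have h3 : a * (b * a * b⁻¹)⁻¹ = ⁅a, b⁆ := by rw [commutatorElement_def]; group
    rw [h3] at h2
    rw [key a b htop h2, inv_pow, hab, mul_inv_cancel]
  · intro hab
    set c := a * b⁻¹ with hc
    have htop' : Subgroup.closure ({c, b} : Set G) = ⊤ := by
      rw [eq_top_iff, ← htop, Subgroup.closure_le]
      rintro x (rfl | rfl)
      · have : x = c * b := by rw [hc]; group
        rw [this]
        exact mul_mem (Subgroup.subset_closure (by simp)) (Subgroup.subset_closure (by simp))
      · exact Subgroup.subset_closure (by simp)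
    have h1 : (b * c * b⁻¹) ^ q = c ^ q := by
      rw [conj_pow, hab]; group
    have h2 := (IH _ (F1 c) c (Subgroup.mem_sup_left (Subgroup.mem_zpowers c)) _ (memM c b)).mp h1.symm
    have h3 : c * (b * c * b⁻¹)⁻¹ = ⁅c, b⁆ := by rw [commutatorElement_def]; group
    rw [h3] at h2
    have h4 : a = c * b := by rw [hc]; group
    rw [h4, key c b htop' h2, hab, one_mul]

/-- In a regular `p`-group, for all elements `a`, `b` and every power `q = p^k`: `a^q = b^q` if and only if `(ab⁻¹)^q = 1`. -/
theorem result {G : Type*} [Group G] [Finite G] {p : ℕ} [Fact p.Prime] (hG : Cfsg.IsRegularPGroup p G) (a b : G) (k : ℕ) : a ^ p ^ k = b ^ p ^ k ↔ (a * b⁻¹) ^ p ^ k = 1 :=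
  main p k (Nat.card G) G rfl hG a b

end Cfsg.Agent.S4210
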