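import Mathlib
import Cfsg.Statements.S4211
import Cfsg.Agent.Lib.Helper9.Omega
import Cfsg.Agent.Lib.Helper23.Recog
import Cfsg.Agent.Lib.Helper4.MinNormal


set_option autoImplicit false
open Cfsg Cfsg.Agent.Lib.Helper4 Cfsg.Agent.Lib.Helper9 Cfsg.Agent.Lib.Helper23

namespace Cfsg.Agent.S4211


theorem mem_zpowers_pow_of_pow_eq_one {G : Type*} [Group G] {g u : G} {p n : ℕ} (hp : 0 < p)
    (hg : orderOf g = p * n) (hu : u ∈ Subgroup.zpowers g) (hup : u ^ p = 1) :
    u ∈ Subgroup.zpowers (g ^ n) := by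
  obtain ⟨i, rfl⟩ := hu
  have h1 : ((p * n : ℕ) : ℤ) ∣ i * p := by
    rw [← hg]
    apply orderOf_dvd_iff_zpow_eq_one.mpr
    rw [zpow_mul]
    exact_mod_cast hup
  have h2 : (n : ℤ) ∣ i := by
    push_cast at h1
    rw [mul_comm i] at h1
    exact Int.dvd_of_mul_dvd_mul_left (by positivity) h1
  obtain ⟨j, rfl⟩ := h2
  refine ⟨j, ?_⟩
  simp [zpow_mul]

theorem commute_of_mem_zpowers {G : Type*} [Group G] {g u : G} (hu : u ∈ Subgroup.zpowers g) :
    Commute u g := by
  obtain ⟨i, rfl⟩ := hu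
  exact (Commute.refl g).zpow_left i

theorem exists_q8_pair {G : Type*} [Group G] [Finite G] (hna : ∃ a b : G, a * b ≠ b * a)
    (hn : ∀ H : Subgroup G, H.Normal) :
    ∃ x y : G, orderOf x = 4 ∧ y * y = x ^ 2 ∧ y * x * y⁻¹ = x⁻¹ ∧ y ∉ Subgroup.zpowers x := by
  classical
  let S : Set ℕ := {n | ∃ a b : G, a * b ≠ b * a ∧ orderOf a + orderOf b = n}
  have hS : S.Nonempty := by
    obtain ⟨a, b, hab⟩ := hna
    exact ⟨_, a, b, hab, rfl⟩
  obtain ⟨x0, y0, h0, hn0⟩ := Nat.sInf_mem hS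
  have hmin : ∀ a b : G, a * b ≠ b * a → sInf S ≤ orderOf a + orderOf b :=
    fun a b h => Nat.sInf_le ⟨a, b, h, rfl⟩
  obtain ⟨x, y, hxy, hsum, hle⟩ : ∃ x y : G, x * y ≠ y * x ∧ orderOf x + orderOf y = sInf S ∧
      orderOf y ≤ orderOf x := by
    rcases le_total (orderOf y0) (orderOf x0) with h | h
    · exact ⟨x0, y0, h0, hn0, h⟩
    · exact ⟨y0, x0, h0.symm, by omega, h⟩
  set c := x * y * x⁻¹ * y⁻¹ with hc
  have hcx_mem : c ∈ Subgroup.zpowers x := by
    have h1 := (hn (Subgroup.zpowers x)).conj_mem x⁻¹ (inv_mem (Subgroup.mem_zpowers x)) y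
    have h2 := mul_mem (Subgroup.mem_zpowers x) h1
    have h3 : x * (y * x⁻¹ * y⁻¹) = c := by rw [hc]; group
    rwa [h3] at h2
  have hcy_mem : c ∈ Subgroup.zpowers y := by
    have h1 := (hn (Subgroup.zpowers y)).conj_mem y (Subgroup.mem_zpowers y) x
    exact mul_mem h1 (inv_mem (Subgroup.mem_zpowers y))
  have hcx : Commute c x := commute_of_mem_zpowers hcx_mem
  have hcy : Commute c y := commute_of_mem_zpowers hcy_mem
  have hc1 : c ≠ 1 := by
    intro h
    apply hxy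
    have h1 : x * y = c * (y * x) := by rw [hc]; group
    rw [h1, h, one_mul]
  have hrel : x * y = c * y * x := by rw [hc]; group
  have hrel' : y * x = c⁻¹ * x * y := by rw [hc]; group
  have hpx : ∀ k : ℕ, orderOf (x ^ k) < orderOf x → c ^ k = 1 := by
    intro k hk
    have h1 : x ^ k * y = y * x ^ k := by
      by_contra hcon
      have := hmin _ _ hcon
      omega
    have h2 := pow_mul_comm_of_central hrel hcy hcx k
    rw [h1, mul_assoc] at h2
    exact (mul_eq_right.mp h2.symm)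
  have hpy : ∀ k : ℕ, orderOf (y ^ k) < orderOf y → c ^ k = 1 := by
    intro k hk
    have h1 : x * y ^ k = y ^ k * x := by
      by_contra hcon
      have := hmin _ _ hcon
      omega
    have h2 := pow_mul_comm_of_central hrel' hcx.inv_left hcy.inv_left k
    rw [← h1, mul_assoc] at h2
    have h3 := (mul_eq_right.mp h2.symm)
    rwa [inv_pow, inv_eq_one] at h3
  have hx1 : orderOf x ≠ 1 := by
    intro h
    rw [orderOf_eq_one_iff] at h
    apply hxy; rw [h]; simp
  have hy1 : orderOf y ≠ 1 := by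
    intro h
    rw [orderOf_eq_one_iff] at h
    apply hxy; rw [h]; simp
  have hx0 : 0 < orderOf x := orderOf_pos x
  have hy0 : 0 < orderOf y := orderOf_pos y
  have hlt : ∀ (g : G) (q : ℕ), q.Prime → q ∣ orderOf g → orderOf (g ^ q) < orderOf g := by
    intro g q hq hd
    rw [orderOf_pow_of_dvd hq.ne_zero hd]
    exact Nat.div_lt_self (orderOf_pos g) hq.one_lt
  set p := (orderOf x).minFac with hp
  have hpp : p.Prime := Nat.minFac_prime hx1
  haveI : Fact p.Prime := ⟨hpp⟩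
  have hcp : c ^ p = 1 := hpx p (hlt x p hpp (Nat.minFac_dvd _))
  have hoc : orderOf c = p := orderOf_eq_prime hcp hc1
  have hqx : ∀ q : ℕ, q.Prime → q ∣ orderOf x → q = p := by
    intro q hq hd
    have h1 := hpx q (hlt x q hq hd)
    have h2 := orderOf_dvd_of_pow_eq_one h1
    rw [hoc] at h2
    exact ((Nat.prime_dvd_prime_iff_eq hpp hq).mp h2).symm
  have hqy : ∀ q : ℕ, q.Prime → q ∣ orderOf y → q = p := by
    intro q hq hd
    have h1 := hpy q (hlt y q hq hd)
    have h2 := orderOf_dvd_of_pow_eq_one h1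
    rw [hoc] at h2
    exact ((Nat.prime_dvd_prime_iff_eq hpp hq).mp h2).symm
  obtain ⟨a, hxa⟩ : ∃ a, orderOf x = p ^ a :=
    ⟨_, Nat.eq_prime_pow_of_unique_prime_dvd hx0.ne' (fun {q} hq hd => hqx q hq hd)⟩
  obtain ⟨b, hyb⟩ : ∃ b, orderOf y = p ^ b :=
    ⟨_, Nat.eq_prime_pow_of_unique_prime_dvd hy0.ne' (fun {q} hq hd => hqy q hq hd)⟩
  have hb0 : b ≠ 0 := by
    intro h
    rw [h, pow_zero] at hyb
    exact hy1 hyb
  have hba : b ≤ a := by
    rw [hxa, hyb] at hle
    exact (Nat.pow_le_pow_iff_right hpp.one_lt).mp hle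
  obtain ⟨b', rfl⟩ : ∃ b', b = b' + 1 := ⟨b - 1, by omega⟩
  obtain ⟨a', rfl⟩ : ∃ a', a = b' + 1 + a' := ⟨a - (b' + 1), by omega⟩
  set n := p ^ b' with hn_def
  have hn0 : 0 < n := pow_pos hpp.pos _
  have hyn : orderOf y = p * n := by rw [hyb, pow_succ, mul_comm]
  have hxn : orderOf x = p * (n * p ^ a') := by rw [hxa, hn_def]; ring
  have h1 : c ∈ Subgroup.zpowers (y ^ n) := mem_zpowers_pow_of_pow_eq_one hpp.pos hyn hcy_mem hcp
  have h2 : c ∈ Subgroup.zpowers (x ^ (n * p ^ a')) :=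
    mem_zpowers_pow_of_pow_eq_one hpp.pos hxn hcx_mem hcp
  have hoyn : orderOf (y ^ n) = p := by
    rw [orderOf_pow_of_dvd hn0.ne' (by rw [hyn]; exact Dvd.intro_left p rfl), hyn]
    exact Nat.mul_div_cancel _ hn0
  have h3 : Subgroup.zpowers c = Subgroup.zpowers (y ^ n) := by
    apply Subgroup.eq_of_le_of_card_ge (Subgroup.zpowers_le.mpr h1)
    rw [Nat.card_zpowers, Nat.card_zpowers, hoc, hoyn]
  have h4 : y ^ n ∈ Subgroup.zpowers (x ^ (n * p ^ a')) := by
    have h5 : y ^ n ∈ Subgroup.zpowers c := by rw [h3]; exact Subgroup.mem_zpowers _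
    exact (Subgroup.zpowers_le.mpr h2) h5
  obtain ⟨j, hj⟩ := h4
  obtain ⟨w, hwx, hwn⟩ : ∃ w ∈ Subgroup.zpowers x, w ^ n = (y ^ n)⁻¹ := by
    refine ⟨((x ^ (p ^ a')) ^ j)⁻¹, inv_mem (zpow_mem (pow_mem (Subgroup.mem_zpowers x) _) _), ?_⟩
    rw [inv_pow, ← hj]
    congr 1
    show ((x ^ p ^ a') ^ j) ^ n = (x ^ (n * p ^ a')) ^ j
    rw [← zpow_natCast, ← zpow_mul, mul_comm, zpow_mul, zpow_natCast, ← pow_mul, mul_comm]
  obtain ⟨m, hm⟩ := (mem_powers_iff_mem_zpowers).mpr hwx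
  have hm' : x ^ m = w := hm
  set d := c ^ m with hd
  have hwy : w * y = d * y * w := by rw [← hm']; exact pow_mul_comm_of_central hrel hcy hcx m
  have hwx' : Commute w x := commute_of_mem_zpowers hwx
  have hdw : Commute d w := by rw [← hm']; exact (hcx.pow_pow m m)
  have hdy : Commute d y := hcy.pow_left m
  have hdp : d ^ p = 1 := by rw [hd, ← pow_mul, mul_comm, pow_mul, hcp, one_pow]
  have hyw : y * w = d⁻¹ * w * y := by rw [mul_assoc, hwy]; group
  have hpow := mul_pow_of_central hyw hdw.inv_left hdy.inv_left n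
  rw [mul_assoc, hwn, inv_mul_cancel, mul_one] at hpow
  have hzx : x * (w * y) ≠ (w * y) * x := by
    intro h
    apply hxy
    have h5 : w * (x * y) = w * (y * x) := by rw [← mul_assoc, hwx'.eq, mul_assoc, h, mul_assoc]
    exact mul_left_cancel h5
  have hzo : orderOf y ≤ orderOf (w * y) := by have := hmin _ _ hzx; omega
  have hzn : (w * y) ^ n ≠ 1 := by
    intro h
    have h5 := orderOf_le_of_pow_eq_one hn0 h
    rw [hyn] at hzo
    nlinarith [hpp.two_le]
  have hnd : ¬ p ∣ n.choose 2 := by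
    rintro ⟨t, ht⟩
    apply hzn
    rw [hpow, ht, pow_mul, inv_pow, hdp, inv_one, one_pow]
  have h2c : 2 * n.choose 2 = n * (n - 1) := by
    rw [Nat.choose_two_right]; exact Nat.mul_div_cancel' (Nat.even_mul_pred_self n).two_dvd
  have hb'0 : b' ≠ 0 := by
    intro h
    apply hnd
    rw [hn_def, h, pow_zero]
    simp
  have hpn : p ∣ n := by rw [hn_def]; exact dvd_pow_self p hb'0
  have hp2 : p = 2 := by
    have h5 : p ∣ 2 * n.choose 2 := by rw [h2c]; exact Dvd.dvd.mul_right hpn _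
    rcases (Nat.Prime.dvd_mul hpp).mp h5 with h6 | h6
    · exact (Nat.prime_dvd_prime_iff_eq hpp Nat.prime_two).mp h6
    · exact absurd h6 hnd
  have hb'1 : b' = 1 := by
    by_contra hne
    obtain ⟨t, rfl⟩ : ∃ t, b' = t + 2 := ⟨b' - 2, by omega⟩
    apply hnd
    have h5 : 2 * n.choose 2 = 2 * (2 * (2 ^ t * (n - 1))) := by
      have hn4 : n = 4 * 2 ^ t := by rw [hn_def, hp2]; ring
      rw [h2c]
      nth_rewrite 1 [hn4]
      ring
    rw [hp2]
    exact ⟨_, Nat.eq_of_mul_eq_mul_left (by norm_num) h5⟩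
  have hn2 : n = 2 := by rw [hn_def, hp2, hb'1]; norm_num
  rw [hn2] at hpow hwn h3 hoyn hzn
  rw [hp2] at hcp hoc hoyn hdp
  simp only [Nat.choose_self, pow_one] at hpow
  have hd1 : d ≠ 1 := by
    intro h
    apply hzn
    rw [hpow, h, inv_one]
  have hdc : d = c := by
    rcases Nat.even_or_odd' m with ⟨t, ht | ht⟩
    · exfalso; apply hd1; rw [hd, ht, pow_mul, hcp, one_pow]
    · rw [hd, ht, pow_succ, pow_mul, hcp, one_pow, one_mul]
  have hy2 : y ^ 2 = c := by
    have h5 : y ^ 2 ∈ Subgroup.zpowers c := by rw [h3]; exact Subgroup.mem_zpowers _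
    obtain ⟨t, ht⟩ := (mem_powers_iff_mem_zpowers).mpr h5
    have ht' : c ^ t = y ^ 2 := ht
    have hy21 : y ^ 2 ≠ 1 := by
      intro h
      rw [h, orderOf_one] at hoyn
      norm_num at hoyn
    rcases Nat.even_or_odd' t with ⟨s, hs | hs⟩
    · exfalso; apply hy21; rw [← ht', hs, pow_mul, hcp, one_pow]
    · rw [← ht', hs, pow_succ, pow_mul, hcp, one_pow, one_mul]
  have hcinv : c⁻¹ = c := by
    rw [inv_eq_iff_mul_eq_one, ← pow_two, hcp]
  have hw2 : w ^ 2 = c := by rw [hwn, hy2, hcinv]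
  refine ⟨w, y, ?_, ?_, ?_, ?_⟩
  · have h5 : orderOf w = 2 ^ (1 + 1) := by
      apply orderOf_eq_prime_pow
      · rw [pow_one, hw2]; exact hc1
      · show w ^ (2 ^ 2) = 1
        rw [show (2:ℕ) ^ 2 = 2 * 2 by norm_num, pow_mul, hw2, hcp]
    rw [h5]; norm_num
  · rw [← pow_two, hy2, hw2]
  · rw [hyw, hdc, hcinv, mul_assoc, mul_assoc, mul_inv_cancel, mul_one, eq_inv_iff_mul_eq_one,
      mul_assoc, ← pow_two, hw2, ← pow_two, hcp]
  · intro h
    apply hd1
    have h5 : Commute y w := commute_of_mem_zpowers h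
    rw [h5.eq.symm, mul_assoc] at hwy
    exact (mul_eq_right.mp hwy.symm)


theorem mem_zpowers_four {G : Type*} [Group G] [Finite G] {u v : G} (hu : u ^ 4 = 1)
    (hv : v ∈ Subgroup.zpowers u) : v = 1 ∨ v = u ∨ v = u ^ 2 ∨ v = u ^ 3 := by
  obtain ⟨k, hk⟩ := (mem_powers_iff_mem_zpowers).mpr hv
  have hk' : u ^ k = v := hk
  rw [pow_eq_pow_mod k hu] at hk'
  have h4 : k % 4 < 4 := Nat.mod_lt _ (by norm_num)
  rw [← hk']
  interval_cases (k % 4)
  · left; simp
  · right; left; simp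
  · right; right; left; rfl
  · right; right; right; rfl

theorem conj_eq_or_inv {G : Type*} [Group G] [Finite G] (hn : ∀ H : Subgroup G, H.Normal) (x g : G)
    (hx : orderOf x = 4) : g * x * g⁻¹ = x ∨ g * x * g⁻¹ = x⁻¹ := by
  have hx4 : x ^ 4 = 1 := by rw [← hx]; exact pow_orderOf_eq_one x
  have hx2 : x ^ 2 ≠ 1 := by
    intro h
    have := orderOf_le_of_pow_eq_one (by norm_num) h
    omega
  have h1 := (hn (Subgroup.zpowers x)).conj_mem x (Subgroup.mem_zpowers x) g
  rcases mem_zpowers_four hx4 h1 with h | h | h | h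
  · exfalso
    apply hx2
    have h2 : x = 1 := by
      have : x = g⁻¹ * (g * x * g⁻¹) * g := by group
      rw [this, h]; group
    rw [h2, one_pow]
  · exact Or.inl h
  · exfalso
    apply hx2
    have h2 : g * x ^ 2 * g⁻¹ = 1 := by
      rw [← conj_pow, h, ← pow_mul]; exact hx4
    have : x ^ 2 = g⁻¹ * (g * x ^ 2 * g⁻¹) * g := by group
    rw [this, h2]; group
  · right
    rw [h, eq_inv_iff_mul_eq_one, ← pow_succ]; exact hx4

theorem q8_pow_four : ∀ w : QuaternionGroup 2, w ^ 4 = 1 := by decide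

theorem q8_sq : ∀ w : QuaternionGroup 2, w ^ 2 = 1 → w = 1 ∨ w = QuaternionGroup.a 1 * QuaternionGroup.a 1 := by
  decide

theorem eq_one_of_sq_of_odd {G : Type*} [Group G] {g : G} {m : ℕ} (hm : Odd m) (h2 : g ^ 2 = 1)
    (hgm : g ^ m = 1) : g = 1 := by
  obtain ⟨t, rfl⟩ := hm
  rwa [pow_succ, pow_mul, h2, one_pow, one_mul] at hgm




/-- A finite non-abelian group in which every subgroup is normal is the internal direct product of a subgroup isomorphic to the quaternion group of order `8`, an elementary abelian `2`-subgroup and an abelian subgroup of odd order. -/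
theorem result {G : Type*} [Group G] [Finite G] (hna : ¬ IsMulCommutative G) (hn : ∀ H : Subgroup G, H.Normal) : ∃ Q E A : Subgroup G, Nonempty (Q ≃* QuaternionGroup 2) ∧ Cfsg.IsElementaryAbelian 2 E ∧ IsMulCommutative A ∧ Odd (Nat.card A) ∧ E ⊓ A = ⊥ ∧ Q ⊓ (E ⊔ A) = ⊥ ∧ Q ⊔ (E ⊔ A) = ⊤ := by
  classical
  have hna' : ∃ a b : G, a * b ≠ b * a := by
    by_contra h
    push Not at h
    exact hna ⟨⟨h⟩⟩
  obtain ⟨x, y, hx4, hyy, hyx, hynot⟩ := exists_q8_pair hna' hn
  have hx4' : x ^ (2 * 2) = 1 := by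
    have := pow_orderOf_eq_one x
    rwa [hx4] at this
  have hx4'' : x ^ 4 = 1 := hx4'
  have hx2 : x ^ 2 ≠ 1 := by
    intro h
    have := orderOf_le_of_pow_eq_one (by norm_num) h
    omega
  have hy2 : y ^ 2 = x ^ 2 := by rw [pow_two, hyy]
  have hy4 : orderOf y = 4 := by
    have h5 : orderOf y = 2 ^ (1 + 1) := by
      apply orderOf_eq_prime_pow
      · rw [pow_one, hy2]; exact hx2
      · show y ^ (2 ^ 2) = 1
        rw [show (2:ℕ) ^ 2 = 2 * 2 by norm_num, pow_mul, hy2, ← pow_mul]; exact hx4'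
    rw [h5]; norm_num
  have hxy : x * y * x⁻¹ = y⁻¹ := by
    -- y x y⁻¹ = x⁻¹
    have h1 : y * x = x⁻¹ * y := by rw [← hyx]; group
    have h2 : x * y * x = y := by rw [mul_assoc, h1]; group
    have h3 : x * y * x⁻¹ = y * (x ^ 2)⁻¹ := by
      nth_rewrite 2 [← h2]
      group
    rw [h3, ← hy2]; group
  set φ := quaternionHom 2 x y hx4' hyy hyx with hφ
  have hinj : Function.Injective φ := by
    rw [injective_iff_map_eq_one]
    rintro (i | i) hi
    · change zmodPow x (2 * 2) hx4' (Multiplicative.ofAdd i) = 1 at hi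
      have := (injective_iff_map_eq_one _).mp (zmodPow_injective x (2 * 2) hx4) _ hi
      have h0 : i = 0 := this
      rw [h0]; rfl
    · exfalso
      change y * zmodPow x (2 * 2) hx4' (Multiplicative.ofAdd i) = 1 at hi
      apply hynot
      rw [eq_inv_of_mul_eq_one_left hi]
      exact Subgroup.inv_mem _ (zmodPow_mem_zpowers x (2 * 2) hx4' _)
  have hφx : φ (QuaternionGroup.a 1) = x := by
    change zmodPow x (2 * 2) hx4' (Multiplicative.ofAdd 1) = x
    have := zmodPow_natCast x (2 * 2) hx4' 1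
    simpa using this
  have hφy : φ (QuaternionGroup.xa 0) = y := by
    change y * zmodPow x (2 * 2) hx4' (Multiplicative.ofAdd 0) = y
    have := zmodPow_natCast x (2 * 2) hx4' 0
    simp
  set Q := φ.range with hQ
  have hxQ : x ∈ Q := ⟨_, hφx⟩
  have hyQ : y ∈ Q := ⟨_, hφy⟩
  have hQ4 : ∀ q ∈ Q, q ^ 4 = 1 := by
    rintro _ ⟨w, rfl⟩
    rw [← map_pow, q8_pow_four, map_one]
  have hQ2 : ∀ q ∈ Q, q ^ 2 = 1 → q = 1 ∨ q = x ^ 2 := by
    rintro _ ⟨w, rfl⟩ h
    rw [← map_pow, ← map_one φ] at h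
    rcases q8_sq w (hinj h) with h1 | h1
    · left; rw [h1, map_one]
    · right; rw [h1, map_mul, hφx, pow_two]
  set C := Subgroup.centralizer ({x, y} : Set G) with hC
  have hCmem : ∀ g : G, g ∈ C ↔ x * g = g * x ∧ y * g = g * y := by
    intro g
    rw [hC, Subgroup.mem_centralizer_iff]
    simp
  have hQC : ∀ g : G, g ∈ Q ⊔ C := by
    intro g
    have key : ∀ q ∈ Q, q * g ∈ C → g ∈ Q ⊔ C := by
      intro q hq h
      have : g = q⁻¹ * (q * g) := by group
      rw [this]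
      exact mul_mem (Subgroup.mem_sup_left (inv_mem hq)) (Subgroup.mem_sup_right h)
    have hconj : ∀ u v : G, u * v * u⁻¹ = v → v * u = u * v := by
      intro u v h
      nth_rewrite 1 [← h]; group
    rcases conj_eq_or_inv hn x g hx4 with h1 | h1 <;> rcases conj_eq_or_inv hn y g hy4 with h2 | h2
    · apply key 1 (one_mem _)
      rw [one_mul, hCmem]
      exact ⟨hconj _ _ h1, hconj _ _ h2⟩
    · apply key x hxQ
      rw [hCmem]
      refine ⟨hconj _ _ ?_, hconj _ _ ?_⟩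
      · rw [mul_inv_rev, show x * g * x * (g⁻¹ * x⁻¹) = x * (g * x * g⁻¹) * x⁻¹ by group, h1]; group
      · rw [mul_inv_rev, show x * g * y * (g⁻¹ * x⁻¹) = x * (g * y * g⁻¹) * x⁻¹ by group, h2,
          show x * y⁻¹ * x⁻¹ = (x * y * x⁻¹)⁻¹ by group, hxy, inv_inv]
    · apply key y hyQ
      rw [hCmem]
      refine ⟨hconj _ _ ?_, hconj _ _ ?_⟩
      · rw [mul_inv_rev, show y * g * x * (g⁻¹ * y⁻¹) = y * (g * x * g⁻¹) * y⁻¹ by group, h1,
          show y * x⁻¹ * y⁻¹ = (y * x * y⁻¹)⁻¹ by group, hyx, inv_inv]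
      · rw [mul_inv_rev, show y * g * y * (g⁻¹ * y⁻¹) = y * (g * y * g⁻¹) * y⁻¹ by group, h2]; group
    · apply key (x * y) (mul_mem hxQ hyQ)
      rw [hCmem]
      refine ⟨hconj _ _ ?_, hconj _ _ ?_⟩
      · rw [show x * y * g * x * (x * y * g)⁻¹ = x * (y * (g * x * g⁻¹) * y⁻¹) * x⁻¹ by group, h1,
          show y * x⁻¹ * y⁻¹ = (y * x * y⁻¹)⁻¹ by group, hyx]; group
      · rw [show x * y * g * y * (x * y * g)⁻¹ = x * (y * (g * y * g⁻¹) * y⁻¹) * x⁻¹ by group, h2,
          show x * (y * y⁻¹ * y⁻¹) * x⁻¹ = (x * y * x⁻¹)⁻¹ by group, hxy]; group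
  -- no elements of order four in C
  have hC4 : ∀ g ∈ C, g ^ 4 = 1 → g ^ 2 = 1 := by
    intro g hg hg4
    by_contra hg2
    obtain ⟨hgx, hgy⟩ := (hCmem g).mp hg
    have hgxc : Commute g x := hgx.symm
    have hne : g ≠ x := by
      rintro rfl
      apply hx2
      have h1 : y * g * y⁻¹ = g := by rw [hgy]; group
      rw [hyx] at h1
      rw [pow_two]
      nth_rewrite 1 [← h1]
      group
    have hu4 : (g * x) ^ 4 = 1 := by rw [hgxc.mul_pow, hg4, hx4'', one_mul]
    have h1 := (hn (Subgroup.zpowers (g * x))).conj_mem (g * x) (Subgroup.mem_zpowers _) y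
    have h2 : y * (g * x) * y⁻¹ = g * x⁻¹ := by
      rw [← mul_assoc, hgy, mul_assoc, mul_assoc, ← mul_assoc y, hyx]
    rw [h2] at h1
    rcases mem_zpowers_four hu4 h1 with h | h | h | h
    · exact hne (mul_inv_eq_one.mp h)
    · apply hx2
      have h3 : x⁻¹ = x := mul_left_cancel h
      rw [pow_two]
      nth_rewrite 1 [← h3]
      group
    · apply hne
      rw [hgxc.mul_pow, pow_two g, mul_assoc] at h
      have h3 : x⁻¹ = g * x ^ 2 := mul_left_cancel h
      have h4 : g = x⁻¹ * (x ^ 2)⁻¹ := by rw [h3]; group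
      rw [h4, ← mul_inv_rev, ← pow_succ, inv_eq_iff_mul_eq_one, ← pow_succ]
      exact hx4''
    · apply hg2
      rw [hgxc.mul_pow] at h
      have h3 : x ^ 3 = x⁻¹ := by rw [eq_inv_iff_mul_eq_one, ← pow_succ]; exact hx4''
      rw [h3] at h
      have h4 : g = g ^ 3 := mul_right_cancel h
      have h5 : g * 1 = g * g ^ 2 := by rw [mul_one, ← pow_succ']; exact h4
      exact (mul_left_cancel h5).symm
  have hC2 : ∀ j : ℕ, ∀ g ∈ C, g ^ (2 ^ j) = 1 → g ^ 2 = 1 := by
    intro j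
    induction j with
    | zero => intro g _ h; rw [pow_zero, pow_one] at h; rw [h, one_pow]
    | succ j ih =>
      intro g hg h
      apply hC4 g hg
      have h1 := ih (g ^ 2) (pow_mem hg 2) (by rw [← pow_mul, ← pow_succ']; exact h)
      rw [← pow_mul] at h1
      exact h1
  -- C is abelian
  have hCc : IsMulCommutative C := by
    by_contra hcon
    have hna2 : ∃ a b : C, a * b ≠ b * a := by
      by_contra h
      push Not at h
      exact hcon ⟨⟨h⟩⟩
    have hn2 : ∀ H : Subgroup C, H.Normal := by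
      intro H
      have h1 := (hn (H.map C.subtype)).comap C.subtype
      rwa [Subgroup.comap_map_eq_self_of_injective C.subtype_injective] at h1
    obtain ⟨u, _, hu4, -⟩ := exists_q8_pair hna2 hn2
    have h1 : (u : G) ^ 4 = 1 := by
      have := pow_orderOf_eq_one u
      rw [hu4] at this
      exact_mod_cast congrArg Subtype.val this
    have h2 := hC4 u u.2 h1
    have h3 : u ^ 2 = 1 := Subtype.ext (by exact_mod_cast h2)
    have := orderOf_le_of_pow_eq_one (by norm_num) h3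
    omega
  have hCcomm := (isMulCommutative_iff C).mp hCc
  obtain ⟨k, m, hm, hkm⟩ := Nat.exists_eq_two_pow_mul_odd (n := Nat.card G) Nat.card_pos.ne'
  have hC2m : ∀ g ∈ C, (g ^ m) ^ 2 = 1 := by
    intro g hg
    apply hC2 k _ (pow_mem hg m)
    rw [← pow_mul, mul_comm, ← hkm]
    exact pow_card_eq_one'
  set E0 := omegaAb 2 C hCc with hE0
  set A := omegaAb m C hCc with hA
  have hzC : x ^ 2 ∈ C := by
    rw [hCmem]
    refine ⟨by group, ?_⟩
    rw [← hy2]; group
  have hfin : {E : Subgroup G | E ≤ E0 ∧ x ^ 2 ∉ E}.Finite := Set.toFinite _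
  obtain ⟨E, hE⟩ := hfin.exists_maximal ⟨⊥, bot_le, by rw [Subgroup.mem_bot]; exact hx2⟩
  have hEE0 : E ≤ E0 := hE.1.1
  have hzE : x ^ 2 ∉ E := hE.1.2
  have hE0C : E0 ≤ C := fun g hg => hg.1
  have hAC : A ≤ C := fun g hg => hg.1
  have hE0le : E0 ≤ E ⊔ Subgroup.zpowers (x ^ 2) := by
    intro g hg
    by_cases hgE : g ∈ E
    · exact Subgroup.mem_sup_left hgE
    have h1 : x ^ 2 ∈ E ⊔ Subgroup.zpowers g := by
      by_contra hcon
      have h2 : E ⊔ Subgroup.zpowers g ≤ E :=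
        hE.2 ⟨sup_le hEE0 (Subgroup.zpowers_le.mpr hg), hcon⟩ le_sup_left
      exact hgE (h2 (Subgroup.mem_sup_right (Subgroup.mem_zpowers g)))
    haveI := hn E
    rw [Subgroup.mem_sup_of_normal_left] at h1
    obtain ⟨e, he, t, ht, het⟩ := h1
    have hg2 : g ^ 2 = 1 := hg.2
    have hg4 : g ^ 4 = 1 := by rw [show 4 = 2 * 2 by norm_num, pow_mul, hg2, one_pow]
    have ht' : t = 1 ∨ t = g := by
      rcases mem_zpowers_four hg4 ht with h | h | h | h
      · exact Or.inl h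
      · exact Or.inr h
      · left; rw [h, hg2]
      · right; rw [h, pow_succ, hg2, one_mul]
    rcases ht' with h | h
    · exfalso; apply hzE; rw [← het, h, mul_one]; exact he
    · have h3 : g = e⁻¹ * x ^ 2 := by rw [← het, h]; group
      rw [h3]
      exact mul_mem (Subgroup.mem_sup_left (inv_mem he)) (Subgroup.mem_sup_right (Subgroup.mem_zpowers _))
  have hCle : C ≤ E0 ⊔ A := by
    intro g hg
    obtain ⟨t, ht⟩ := hm
    have h1 : g = g ^ m * (g ^ (2 * t))⁻¹ := by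
      rw [ht, pow_succ]; group
    rw [h1]
    refine mul_mem (Subgroup.mem_sup_left ⟨pow_mem hg _, hC2m g hg⟩)
      (Subgroup.mem_sup_right ⟨inv_mem (pow_mem hg _), ?_⟩)
    rw [inv_pow, inv_eq_one, ← pow_mul, mul_assoc, mul_comm t, ← mul_assoc, mul_comm 2, pow_mul, pow_mul,
      hC2m g hg, one_pow]
  refine ⟨Q, E, A, ⟨(MonoidHom.ofInjective hinj).symm⟩, ⟨isMulCommutative_of_le (hEE0.trans hE0C) hCc,
    fun a ha => (hEE0 ha).2⟩, isMulCommutative_of_le hAC hCc, ?_, ?_, ?_, ?_⟩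
  · by_contra hodd
    rw [Nat.not_odd_iff_even, even_iff_two_dvd] at hodd
    obtain ⟨a, ha⟩ := exists_prime_orderOf_dvd_card' (G := A) 2 hodd
    have h1 : (a : G) ^ 2 = 1 := by
      have := pow_orderOf_eq_one a
      rw [ha] at this
      exact_mod_cast congrArg Subtype.val this
    have h2 : (a : G) = 1 := eq_one_of_sq_of_odd hm h1 a.2.2
    have h3 : a = 1 := Subtype.ext h2
    rw [h3, orderOf_one] at ha
    norm_num at ha
  · rw [eq_bot_iff]
    rintro g ⟨hgE, hgA⟩
    rw [Subgroup.mem_bot]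
    exact eq_one_of_sq_of_odd hm (hEE0 hgE).2 hgA.2
  · rw [eq_bot_iff]
    rintro q ⟨hqQ, hqEA⟩
    rw [Subgroup.mem_bot]
    have hqEA' : q ∈ E ⊔ A := hqEA
    haveI := hn E
    rw [Subgroup.mem_sup_of_normal_left] at hqEA'
    obtain ⟨e, he, a, ha, hea⟩ := hqEA'
    have heC : e ∈ C := hE0C (hEE0 he)
    have haC : a ∈ C := hAC ha
    have hqC : q ∈ C := by rw [← hea]; exact mul_mem heC haC
    have hq2 : q ^ 2 = 1 := hC4 q hqC (hQ4 q hqQ)
    have ha2 : a ^ 2 = 1 := by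
      rw [← hea, (show Commute e a from hCcomm e heC a haC).mul_pow, (hEE0 he).2, one_mul] at hq2
      exact hq2
    have ha1 : a = 1 := eq_one_of_sq_of_odd hm ha2 ha.2
    rw [ha1, mul_one] at hea
    rcases hQ2 q hqQ hq2 with h | h
    · exact h
    · exfalso; apply hzE; rw [← h, ← hea]; exact he
  · rw [eq_top_iff]
    intro g _
    have h1 : Q ⊔ C ≤ Q ⊔ (E ⊔ A) := by
      apply sup_le le_sup_left
      apply hCle.trans
      apply sup_le _ (le_sup_right.trans le_sup_right)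
      apply hE0le.trans
      apply sup_le (le_sup_left.trans le_sup_right)
      rw [Subgroup.zpowers_le]
      exact Subgroup.mem_sup_left (pow_mem hxQ 2)
    exact h1 (hQC g)


end Cfsg.Agent.S4211
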