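import Cfsg.Statements.S4212
import Cfsg.Agent.Lib.Helper21.Frobenius

set_option autoImplicit false
open Cfsg

namespace Cfsg.Agent.S4212

open Cfsg.Agent.Lib.Helper21

universe u

/-- number of `n`-th roots of `c` -/
noncomputable def rootCard (G : Type*) [Group G] (n : ℕ) (c : G) : ℕ := Nat.card {x : G // x ^ n = c}

theorem orderOf_of_pow_prime_pow {G : Type*} [Group G] {p : ℕ} (hp : p.Prime) (e : ℕ) :
    ∀ (x c : G), x ^ (p ^ e) = c → p ∣ orderOf c → orderOf x = p ^ e * orderOf c := by
  induction e with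
  | zero => intro x c h _; simp at h; simp [h]
  | succ e ih =>
    intro x c h hpc
    have h1 : (x ^ p) ^ (p ^ e) = c := by rw [← pow_mul, ← pow_succ']; exact h
    have h2 := ih _ _ h1 hpc
    have h3 : p ∣ orderOf (x ^ p) := by rw [h2]; exact hpc.mul_left _
    have h4 : p ∣ orderOf x := h3.trans (orderOf_pow_dvd p)
    have h5 := orderOf_pow_of_dvd hp.ne_zero h4
    rw [h2] at h5
    have h6 := Nat.div_mul_cancel h4
    rw [← h5] at h6
    rw [← h6, pow_succ]; ring

theorem fiber_card {G : Type*} [Group G] [Finite G] (n : ℕ) (c x₀ : G) (hx₀ : x₀ ^ n = c)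
    (hord : ∀ x : G, x ^ n = c → orderOf x = n * orderOf c) :
    Nat.card {x : G // x ^ n = c ∧ Subgroup.zpowers x = Subgroup.zpowers x₀} = n := by
  letI : CommGroup (Subgroup.zpowers x₀) := IsCyclic.commGroup
  have hk := IsCyclic.card_powMonoidHom_ker (G := Subgroup.zpowers x₀) n
  rw [Nat.card_zpowers, hord x₀ hx₀, Nat.gcd_mul_right_left] at hk
  have hker : ∀ u : (powMonoidHom n : Subgroup.zpowers x₀ →* Subgroup.zpowers x₀).ker,
      (u.1.1) ^ n = 1 := by
    intro u
    have := u.2
    rw [MonoidHom.mem_ker, powMonoidHom_apply] at this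
    have h2 := congrArg Subtype.val this
    rwa [Subgroup.coe_pow] at h2
  have hmem : ∀ x : {x : G // x ^ n = c ∧ Subgroup.zpowers x = Subgroup.zpowers x₀},
      x.1 ∈ Subgroup.zpowers x₀ := by
    intro x
    have := Subgroup.mem_zpowers x.1
    rwa [x.2.2] at this
  have hcomm : ∀ u ∈ Subgroup.zpowers x₀, Commute u x₀ := by
    intro u hu
    obtain ⟨k, hk⟩ := Subgroup.mem_zpowers_iff.mp hu
    rw [← hk]; exact (Commute.refl x₀).zpow_left k
  refine (Nat.card_congr ?_).trans hk
  refine
    { toFun := fun x => ⟨⟨x.1 * x₀⁻¹, mul_mem (hmem x) (inv_mem (Subgroup.mem_zpowers _))⟩, ?_⟩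
      invFun := fun u => ⟨u.1.1 * x₀, ?_, ?_⟩
      left_inv := fun x => Subtype.ext (by simp)
      right_inv := fun u => Subtype.ext (Subtype.ext (by simp)) }
  · rw [MonoidHom.mem_ker, powMonoidHom_apply]
    apply Subtype.ext
    rw [Subgroup.coe_pow]
    change (x.1 * x₀⁻¹) ^ n = 1
    rw [(hcomm _ (hmem x)).inv_right.mul_pow, x.2.1, inv_pow, hx₀, mul_inv_cancel]
  · rw [(hcomm _ u.1.2).mul_pow, hker u, one_mul, hx₀]
  · have h2 : (u.1.1 * x₀) ^ n = c := by rw [(hcomm _ u.1.2).mul_pow, hker u, one_mul, hx₀]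
    apply Subgroup.eq_of_le_of_card_ge
    · rw [Subgroup.zpowers_le]
      exact mul_mem u.1.2 (Subgroup.mem_zpowers _)
    · rw [Nat.card_zpowers, Nat.card_zpowers, hord _ h2, hord _ hx₀]

theorem dvd_rootCard_of_ord {G : Type*} [Group G] [Finite G] (n : ℕ) (c : G)
    (hord : ∀ x : G, x ^ n = c → orderOf x = n * orderOf c) : n ∣ rootCard G n c := by
  classical
  haveI := Fintype.ofFinite (Subgroup G)
  unfold rootCard
  rw [Nat.card_congr (Equiv.sigmaFiberEquiv
    (fun x : {x : G // x ^ n = c} => Subgroup.zpowers x.1)).symm, Nat.card_sigma]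
  apply Finset.dvd_sum
  intro C _
  by_cases hC : Nonempty {x : {x : G // x ^ n = c} // Subgroup.zpowers x.1 = C}
  · obtain ⟨⟨⟨x₀, hx₀⟩, rfl⟩⟩ := hC
    have := fiber_card n c x₀ hx₀ hord
    rw [← Nat.card_congr (Equiv.subtypeSubtypeEquivSubtypeInter (fun x : G => x ^ n = c)
      (fun x => Subgroup.zpowers x = Subgroup.zpowers x₀))] at this
    rw [this]
  · rw [not_nonempty_iff] at hC
    simp

theorem rootCard_central_coprime {G : Type u} [Group G] [Finite G] (n : ℕ) (c : G)
    (hc : c ∈ Subgroup.center G) (hcop : n.Coprime (orderOf c)) :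
    Nat.gcd n (Nat.card G) ∣ rootCard G n c := by
  obtain ⟨k, hk⟩ := exists_pow_eq_self_of_coprime hcop
  have hd : (c ^ k) ^ n = c := by rw [← pow_mul, mul_comm, pow_mul, hk]
  have hdc : c ^ k ∈ Subgroup.center G := pow_mem hc k
  have : rootCard G n c = powCard G n := by
    unfold rootCard powCard
    apply Nat.card_congr
    refine
      { toFun := fun x => ⟨x.1 * (c ^ k)⁻¹, ?_⟩
        invFun := fun x => ⟨x.1 * c ^ k, ?_⟩
        left_inv := fun x => Subtype.ext (by simp)
        right_inv := fun x => Subtype.ext (by simp) }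
    · have hcm : Commute x.1 (c ^ k)⁻¹ :=
        (show Commute x.1 (c ^ k) from Subgroup.mem_center_iff.mp hdc x.1).inv_right
      rw [hcm.mul_pow, x.2, inv_pow, hd, mul_inv_cancel]
    · have hcm : Commute x.1 (c ^ k) := Subgroup.mem_center_iff.mp hdc x.1
      rw [hcm.mul_pow, x.2, one_mul, hd]
  rw [this]
  exact frobenius_gcd_dvd G n

theorem rootCard_central_pp {G : Type u} [Group G] [Finite G] {p : ℕ} (hp : p.Prime) (e : ℕ) (c : G)
    (hc : c ∈ Subgroup.center G) : Nat.gcd (p ^ e) (Nat.card G) ∣ rootCard G (p ^ e) c := by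
  by_cases hpc : p ∣ orderOf c
  · exact (Nat.gcd_dvd_left _ _).trans
      (dvd_rootCard_of_ord _ c fun x hx => orderOf_of_pow_prime_pow hp e x c hx hpc)
  · exact rootCard_central_coprime _ c hc (((Nat.Prime.coprime_iff_not_dvd hp).mpr hpc).pow_left e)

theorem rootCard_centralizer {G : Type u} [Group G] (n : ℕ) (c : G) :
    rootCard G n c = rootCard (Subgroup.centralizer ({c} : Set G)) n
      ⟨c, Subgroup.mem_centralizer_singleton_iff.mpr rfl⟩ := by
  unfold rootCard
  apply Nat.card_congr
  refine
    { toFun := fun x => ⟨⟨x.1, ?_⟩, Subtype.ext x.2⟩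
      invFun := fun x => ⟨x.1.1, congrArg Subtype.val x.2⟩
      left_inv := fun x => rfl
      right_inv := fun x => rfl }
  rw [Subgroup.mem_centralizer_singleton_iff]
  have hx := x.2
  calc x.1 * c = x.1 * x.1 ^ n := by rw [hx]
    _ = x.1 ^ n * x.1 := by rw [← pow_succ, ← pow_succ']
    _ = c * x.1 := by rw [hx]

theorem self_mem_center_centralizer {G : Type u} [Group G] (c : G) :
    (⟨c, Subgroup.mem_centralizer_singleton_iff.mpr rfl⟩ : Subgroup.centralizer ({c} : Set G)) ∈
      Subgroup.center (Subgroup.centralizer ({c} : Set G)) := by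
  rw [Subgroup.mem_center_iff]
  intro g
  apply Subtype.ext
  exact Subgroup.mem_centralizer_singleton_iff.mp g.2

theorem gcd_dvd_index_mul {G : Type u} [Group G] [Finite G] (H : Subgroup G) (n r : ℕ)
    (h : Nat.gcd n (Nat.card H) ∣ r) : Nat.gcd (H.index * n) (Nat.card G) ∣ H.index * r := by
  rw [← H.card_mul_index, mul_comm (Nat.card H), Nat.gcd_mul_left]
  exact Nat.mul_dvd_mul_left _ h

theorem rootCard_conj {G : Type u} [Group G] (n : ℕ) (g y : G) :
    rootCard G n (g * y * g⁻¹) = rootCard G n y := by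
  unfold rootCard
  apply Nat.card_congr
  refine
    { toFun := fun x => ⟨g⁻¹ * x.1 * g, ?_⟩
      invFun := fun x => ⟨g * x.1 * g⁻¹, by rw [conj_pow, x.2]⟩
      left_inv := fun x => Subtype.ext (by simp [mul_assoc])
      right_inv := fun x => Subtype.ext (by simp [mul_assoc]) }
  have := conj_pow (a := g⁻¹) (b := x.1) (i := n)
  rw [inv_inv] at this
  rw [this, x.2]; group

theorem rootCard_central {G : Type u} [Group G] [Finite G] (n : ℕ) (c : G)
    (hc : c ∈ Subgroup.center G) : Nat.gcd n (Nat.card G) ∣ rootCard G n c := by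
  classical
  haveI := Fintype.ofFinite G
  rw [Nat.dvd_iff_prime_pow_dvd_dvd]
  intro p k hp hpk
  obtain ⟨n2, rfl⟩ := hpk.trans (Nat.gcd_dvd_left _ _)
  have hpg : p ^ k ∣ Nat.card G := hpk.trans (Nat.gcd_dvd_right _ _)
  have hsum : rootCard G (p ^ k * n2) c =
      ∑ y : G, if y ^ n2 = c then rootCard G (p ^ k) y else 0 := by
    unfold rootCard
    rw [Nat.card_congr (Equiv.sigmaFiberEquiv
      (fun x : {x : G // x ^ (p ^ k * n2) = c} => x.1 ^ (p ^ k))).symm, Nat.card_sigma]
    apply Finset.sum_congr rfl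
    intro y _
    split_ifs with hy
    · apply Nat.card_congr
      refine
        { toFun := fun x => ⟨x.1.1, x.2⟩
          invFun := fun x => ⟨⟨x.1, by rw [pow_mul, x.2, hy]⟩, x.2⟩
          left_inv := fun x => rfl
          right_inv := fun x => rfl }
    · rw [Nat.card_eq_zero]
      left
      constructor
      rintro ⟨⟨x, hx⟩, hxy⟩
      apply hy
      rw [← hxy, ← pow_mul]; exact hx
  rw [hsum]
  apply dvd_sum_of_class_function
  · intro g y
    have : (g * y * g⁻¹) ^ n2 = c ↔ y ^ n2 = c := by
      rw [conj_pow]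
      constructor
      · intro h
        have h1 : y ^ n2 = g⁻¹ * c * g := by rw [← h]; group
        rw [h1, mul_assoc, ← Subgroup.mem_center_iff.mp hc g]; group
      · intro h
        rw [h, Subgroup.mem_center_iff.mp hc g]; group
    simp only [this, rootCard_conj]
  · intro y
    split_ifs
    · have h1 := rootCard_central_pp hp k _ (self_mem_center_centralizer y)
      rw [← rootCard_centralizer] at h1
      have h2 := gcd_dvd_index_mul _ _ _ h1
      refine dvd_trans ?_ h2
      exact Nat.dvd_gcd (Dvd.intro_left _ rfl) hpg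
    · simp

/-- Let `G` be a finite group of order `g`, `c` an element whose conjugacy class has `h` elements, and `n` a natural number. Then the number of elements `x` of `G` with `x^n` conjugate to `c` is a multiple of `gcd(hn, g)`. -/
theorem result {G : Type*} [Group G] [Finite G] (c : G) (n : ℕ) : Nat.gcd (Nat.card {y : G // IsConj c y} * n) (Nat.card G) ∣ Nat.card {x : G // IsConj c (x ^ n)} := by
  classical
  haveI := Fintype.ofFinite G
  have hh : ∀ y : G, IsConj c y → Nat.card {y : G // IsConj c y} =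
      (Subgroup.centralizer ({y} : Set G)).index := by
    intro y hy
    rw [index_centralizer_eq_ncard_carrier, ← ConjClasses.mk_eq_mk_iff_isConj.mpr hy]
    rw [← Nat.card_coe_set_eq]
    apply Nat.card_congr
    apply Equiv.subtypeEquivRight
    intro z
    rw [ConjClasses.mem_carrier_iff_mk_eq, ConjClasses.mk_eq_mk_iff_isConj, isConj_comm]
  have hsum : Nat.card {x : G // IsConj c (x ^ n)} =
      ∑ y : G, if IsConj c y then rootCard G n y else 0 := by
    unfold rootCard
    rw [Nat.card_congr (Equiv.sigmaFiberEquiv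
      (fun x : {x : G // IsConj c (x ^ n)} => x.1 ^ n)).symm, Nat.card_sigma]
    apply Finset.sum_congr rfl
    intro y _
    split_ifs with hy
    · apply Nat.card_congr
      refine
        { toFun := fun x => ⟨x.1.1, x.2⟩
          invFun := fun x => ⟨⟨x.1, by rw [x.2]; exact hy⟩, x.2⟩
          left_inv := fun x => rfl
          right_inv := fun x => rfl }
    · rw [Nat.card_eq_zero]
      left
      constructor
      rintro ⟨⟨x, hx⟩, hxy⟩
      apply hy
      rw [← hxy]; exact hx
  rw [hsum]
  apply dvd_sum_of_class_function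
  · intro g y
    have : IsConj c (g * y * g⁻¹) ↔ IsConj c y := by
      have h1 : IsConj y (g * y * g⁻¹) := isConj_iff.mpr ⟨g, rfl⟩
      exact ⟨fun h => h.trans h1.symm, fun h => h.trans h1⟩
    simp only [this, rootCard_conj]
  · intro y
    split_ifs with hy
    · have h1 := rootCard_central n _ (self_mem_center_centralizer y)
      rw [← rootCard_centralizer] at h1
      rw [hh y hy]
      exact gcd_dvd_index_mul _ _ _ h1
    · simp

end Cfsg.Agent.S4212
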