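import Mathlib
import Cfsg.Statements.S4213
import Cfsg.Agent.Lib.Helper4.MinNormal
import Cfsg.Agent.Lib.Helper4.Basic
import Cfsg.Agent.S3993


set_option autoImplicit false
open Cfsg

namespace Cfsg.Agent.S4213


open Cfsg.Agent.Lib.Helper4

universe u

theorem card_mul_le {G : Type u} [Group G] [Finite G] (K : Subgroup G) [K.Normal]
    (S : Set (G ⧸ K)) :
    Nat.card S * Nat.card K ≤ Nat.card {x : G // (x : G ⧸ K) ∈ S} := by
  rw [← Nat.card_prod]
  apply Nat.card_le_card_of_injective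
    (fun a : S × K => (⟨(a.1 : G ⧸ K).out * (a.2 : G), by
      have : (((a.1 : G ⧸ K).out * (a.2 : G) : G) : G ⧸ K) = (a.1 : G ⧸ K) := by
        rw [QuotientGroup.mk_mul, (QuotientGroup.eq_one_iff (a.2 : G)).mpr a.2.2, mul_one,
          QuotientGroup.out_eq']
      rw [this]; exact a.1.2⟩ : {x : G // (x : G ⧸ K) ∈ S}))
  rintro ⟨a, k⟩ ⟨b, k'⟩ h
  have h1 : (a : G ⧸ K).out * (k : G) = (b : G ⧸ K).out * (k' : G) := congrArg Subtype.val h
  have h2 : (a : G ⧸ K) = (b : G ⧸ K) := by
    have := congrArg (fun x : G => (x : G ⧸ K)) h1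
    simp only [QuotientGroup.mk_mul, (QuotientGroup.eq_one_iff (k : G)).mpr k.2,
      (QuotientGroup.eq_one_iff (k' : G)).mpr k'.2, mul_one, QuotientGroup.out_eq'] at this
    exact this
  have h3 : a = b := Subtype.ext h2
  subst h3
  have h4 : (k : G) = (k' : G) := mul_left_cancel h1
  rw [Subtype.ext h4]

theorem key : ∀ (N : ℕ) (G : Type u) [Group G] [Finite G] [Group.IsSolvable G], Nat.card G = N →
    ∀ n, n ∣ Nat.card G → Nat.card {x : G // x ^ n = 1} = n →
    ∃ H : Subgroup G, (H : Set G) = {x : G | x ^ n = 1} := by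
  intro N
  induction N using Nat.strong_induction_on with
  | _ N ih =>
  intro G _ _ _ hN n hn hcount
  by_cases htriv : (⊤ : Subgroup G) = ⊥
  · refine ⟨⊤, ?_⟩
    ext x
    have hx : x ∈ (⊥ : Subgroup G) := by rw [← htriv]; trivial
    rw [Subgroup.mem_bot] at hx
    simp [hx]
  obtain ⟨K, hK, -⟩ := exists_minNormal_le (⊤ : Subgroup G) inferInstance htriv
  obtain ⟨p, hp, hKe⟩ := hK.elemAb
  haveI := Fact.mk hp
  haveI hKn : K.Normal := hK.1
  have hKpg : IsPGroup p K := elemAb_isPGroup hKe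
  obtain ⟨i, hi⟩ := IsPGroup.iff_card.mp hKpg
  have hi1 : 1 ≤ i := by
    rcases Nat.eq_zero_or_pos i with h | h
    · rw [h, pow_zero, Subgroup.card_eq_one] at hi
      exact absurd hi hK.2.1
    · exact h
  have hcard : Nat.card G = Nat.card (G ⧸ K) * p ^ i := by
    rw [← hi]; exact Subgroup.card_eq_card_quotient_mul_card_subgroup K
  have hpos : 0 < Nat.card (G ⧸ K) := Nat.card_pos
  have hlt : Nat.card (G ⧸ K) < N := by
    rw [← hN, hcard]
    have : 1 < p ^ i := Nat.one_lt_pow (by omega) hp.one_lt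
    nlinarith
  have hn0 : 0 < n := Nat.pos_of_dvd_of_pos hn Nat.card_pos
  have hTfin : (Set.ncard {x : G | x ^ n = 1}) = n := by
    rw [← Nat.card_coe_set_eq]; exact hcount
  by_cases hpn : p ∣ n
  · -- case B
    set d := Nat.gcd n (p ^ i) with hd
    have hdpos : 0 < d := Nat.gcd_pos_of_pos_left _ hn0
    obtain ⟨m, hm⟩ : d ∣ n := Nat.gcd_dvd_left _ _
    obtain ⟨e, he⟩ : d ∣ p ^ i := Nat.gcd_dvd_right _ _
    have hcop : Nat.Coprime m e := by
      have := Nat.coprime_div_gcd_div_gcd (m := n) (n := p ^ i) hdpos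
      rw [← hd] at this
      rwa [hm, he, Nat.mul_div_cancel_left _ hdpos, Nat.mul_div_cancel_left _ hdpos] at this
    have hmdvd : m ∣ Nat.card (G ⧸ K) := by
      have h1 : d * m ∣ Nat.card (G ⧸ K) * (d * e) := by rw [← hm, ← he, ← hcard]; exact hn
      have h2 : d * m ∣ d * (Nat.card (G ⧸ K) * e) := by
        have : Nat.card (G ⧸ K) * (d * e) = d * (Nat.card (G ⧸ K) * e) := by ring
        rwa [this] at h1
      have h3 := Nat.dvd_of_mul_dvd_mul_left hdpos h2
      exact hcop.dvd_of_dvd_mul_right h3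
    have hpd : p ∣ d := Nat.dvd_gcd hpn (dvd_pow_self p (by omega))
    have hmp : m * p ∣ n := by
      rw [hm, mul_comm d m]; exact Nat.mul_dvd_mul_left m hpd
    have hsub : {x : G | (x : G ⧸ K) ^ m = 1} ⊆ {x : G | x ^ n = 1} := by
      intro x hx
      have hx : (x : G ⧸ K) ^ m = 1 := hx
      rw [← QuotientGroup.mk_pow, QuotientGroup.eq_one_iff] at hx
      have h1 := hKe.2 _ hx
      rw [← pow_mul] at h1
      obtain ⟨c, hc⟩ := hmp
      show x ^ n = 1
      rw [hc, pow_mul, h1, one_pow]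
    have h1 := card_mul_le K {y : G ⧸ K | y ^ m = 1}
    have h2 : Nat.card {x : G // (x : G ⧸ K) ∈ {y : G ⧸ K | y ^ m = 1}} ≤ n := by
      have : Nat.card {x : G // (x : G ⧸ K) ∈ {y : G ⧸ K | y ^ m = 1}} =
          Set.ncard {x : G | (x : G ⧸ K) ^ m = 1} := by
        rw [← Nat.card_coe_set_eq]; rfl
      rw [this, ← hTfin]
      exact Set.ncard_le_ncard hsub (Set.toFinite _)
    have h3 : m ∣ Nat.card {y : G ⧸ K // y ^ m = 1} := Cfsg.Agent.S3993.result m hmdvd
    have h4 : 0 < Nat.card {y : G ⧸ K // y ^ m = 1} := by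
      haveI : Nonempty {y : G ⧸ K // y ^ m = 1} := ⟨⟨1, one_pow _⟩⟩
      exact Nat.card_pos
    have h5 : m ≤ Nat.card {y : G ⧸ K // y ^ m = 1} := Nat.le_of_dvd h4 h3
    have h1' : Nat.card {y : G ⧸ K // y ^ m = 1} * p ^ i ≤
        Nat.card {x : G // (x : G ⧸ K) ∈ {y : G ⧸ K | y ^ m = 1}} := by
      rw [← hi]; exact h1
    have hmpos : 0 < m := by
      rcases Nat.eq_zero_or_pos m with h | h
      · rw [h, mul_zero] at hm; omega
      · exact h
    have hdle : d ≤ p ^ i := Nat.le_of_dvd (pow_pos hp.pos _) (Nat.gcd_dvd_right _ _)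
    -- squeeze
    have h6 : Nat.card {y : G ⧸ K // y ^ m = 1} * p ^ i ≤ d * m := by
      rw [← hm]; exact h1'.trans h2
    have h7 : m * p ^ i ≤ Nat.card {y : G ⧸ K // y ^ m = 1} * p ^ i :=
      Nat.mul_le_mul_right _ h5
    have h8 : d * m ≤ m * p ^ i := by
      rw [mul_comm d m]; exact Nat.mul_le_mul_left _ hdle
    have h9 : Nat.card {y : G ⧸ K // y ^ m = 1} * p ^ i = m * p ^ i := by omega
    have h10 : Nat.card {y : G ⧸ K // y ^ m = 1} = m :=
      Nat.eq_of_mul_eq_mul_right (pow_pos hp.pos _) h9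
    obtain ⟨Hb, hHb⟩ := ih _ hlt (G ⧸ K) rfl m hmdvd h10
    refine ⟨Hb.comap (QuotientGroup.mk' K), ?_⟩
    have e1 : ((Hb.comap (QuotientGroup.mk' K) : Subgroup G) : Set G) =
        {x : G | (x : G ⧸ K) ^ m = 1} := by
      ext x
      rw [SetLike.mem_coe, Subgroup.mem_comap, ← SetLike.mem_coe, hHb]
      rfl
    rw [e1]
    apply Set.eq_of_subset_of_ncard_le hsub _ (Set.toFinite _)
    rw [hTfin]
    have : Nat.card {x : G // (x : G ⧸ K) ∈ {y : G ⧸ K | y ^ m = 1}} =
        Set.ncard {x : G | (x : G ⧸ K) ^ m = 1} := by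
      rw [← Nat.card_coe_set_eq]; rfl
    rw [← this, hm]
    omega
  · -- case A
    have hcop : Nat.Coprime n (p ^ i) :=
      Nat.Coprime.pow_right i ((Nat.Prime.coprime_iff_not_dvd hp).mpr hpn).symm
    have hndvd : n ∣ Nat.card (G ⧸ K) := by
      rw [hcard] at hn
      exact hcop.dvd_of_dvd_mul_right hn
    have hsurj : Function.Surjective
        (fun x : {x : G // x ^ n = 1} => (⟨(x.1 : G ⧸ K), by
          rw [← QuotientGroup.mk_pow, x.2]; rfl⟩ : {y : G ⧸ K // y ^ n = 1})) := by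
      rintro ⟨y, hy⟩
      obtain ⟨x, rfl⟩ := QuotientGroup.mk_surjective y
      obtain ⟨e, he1, he2⟩ := Nat.chineseRemainder hcop 1 0
      have hxK : x ^ n ∈ K := by
        rw [← QuotientGroup.eq_one_iff, QuotientGroup.mk_pow]; exact hy
      have hxK2 : (x ^ n) ^ (p ^ i) = 1 := by
        have := pow_card_eq_one' (x := (⟨x ^ n, hxK⟩ : K))
        rw [hi] at this
        exact congrArg Subtype.val this
      obtain ⟨c, hc⟩ : p ^ i ∣ e := (Nat.modEq_zero_iff_dvd).mp he2
      refine ⟨⟨x ^ e, ?_⟩, ?_⟩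
      · rw [← pow_mul, mul_comm, pow_mul, hc, pow_mul, hxK2, one_pow]
      · apply Subtype.ext
        show ((x ^ e : G) : G ⧸ K) = (x : G ⧸ K)
        rw [QuotientGroup.mk_pow]
        conv_rhs => rw [← pow_one (x : G ⧸ K)]
        rw [pow_eq_pow_iff_modEq]
        exact he1.of_dvd (orderOf_dvd_of_pow_eq_one hy)
    have h1 : Nat.card {y : G ⧸ K // y ^ n = 1} ≤ n := by
      conv_rhs => rw [← hcount]
      exact Nat.card_le_card_of_surjective _ hsurj
    have h3 : n ∣ Nat.card {y : G ⧸ K // y ^ n = 1} := Cfsg.Agent.S3993.result n hndvd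
    have h4 : 0 < Nat.card {y : G ⧸ K // y ^ n = 1} := by
      haveI : Nonempty {y : G ⧸ K // y ^ n = 1} := ⟨⟨1, one_pow _⟩⟩
      exact Nat.card_pos
    have h5 : Nat.card {y : G ⧸ K // y ^ n = 1} = n := le_antisymm h1 (Nat.le_of_dvd h4 h3)
    obtain ⟨Hb, hHb⟩ := ih _ hlt (G ⧸ K) rfl n hndvd h5
    have hHbc : Nat.card Hb = n := by
      rw [← h5]
      have : (Hb : Set (G ⧸ K)).ncard = Set.ncard {y : G ⧸ K | y ^ n = 1} := by rw [hHb]
      rw [← Nat.card_coe_set_eq, ← Nat.card_coe_set_eq] at this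
      exact this
    set H := Hb.comap (QuotientGroup.mk' K) with hH
    have hidx : (K.subgroupOf H).index = n := by
      change K.relIndex H = n
      have := Subgroup.relIndex_ker (K := H) (QuotientGroup.mk' K)
      rw [QuotientGroup.ker_mk'] at this
      rw [this, hH, Subgroup.map_comap_eq_self_of_surjective (QuotientGroup.mk'_surjective K), hHbc]
    have hKH : K ≤ H := by
      intro k hk
      rw [hH, Subgroup.mem_comap, QuotientGroup.mk'_apply, (QuotientGroup.eq_one_iff k).mpr hk]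
      exact Hb.one_mem
    have hcK : Nat.card (K.subgroupOf H) = p ^ i := by
      rw [card_subgroupOf_of_le hKH, hi]
    obtain ⟨C, hC⟩ := Subgroup.exists_right_complement'_of_coprime (N := K.subgroupOf H)
      (by rw [hcK, hidx]; exact hcop.symm)
    have hCc : Nat.card C = n := by
      rw [← hidx]; exact hC.symm.index_eq_card.symm
    refine ⟨C.map H.subtype, ?_⟩
    have hCc' : Nat.card (C.map H.subtype) = n := by rw [card_map_subtype, hCc]
    apply Set.eq_of_subset_of_ncard_le _ _ (Set.toFinite _)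
    · intro x hx
      have := pow_card_eq_one' (x := (⟨x, hx⟩ : C.map H.subtype))
      rw [hCc'] at this
      exact congrArg Subtype.val this
    · rw [hTfin, ← hCc', ← Nat.card_coe_set_eq]
      exact le_of_eq rfl


/-- If `G` is a finite solvable group and `n` divides the order of `G` and exactly `n` elements `x` of `G` satisfy `x^n = 1`, then these elements form a normal subgroup. -/
theorem result {G : Type*} [Group G] [Finite G] [Group.IsSolvable G] (n : ℕ) (hn : n ∣ Nat.card G) (hcount : Nat.card {x : G // x ^ n = 1} = n) : ∃ H : Subgroup G, H.Normal ∧ (H : Set G) = {x : G | x ^ n = 1} := by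

  obtain ⟨H, hH⟩ := key _ G rfl n hn hcount
  refine ⟨H, ?_, hH⟩
  constructor
  intro x hx g
  have hx' : x ∈ (H : Set G) := hx
  rw [hH] at hx'
  have hx' : x ^ n = 1 := hx'
  have : g * x * g⁻¹ ∈ (H : Set G) := by
    rw [hH]
    show (g * x * g⁻¹) ^ n = 1
    rw [conj_pow, hx']; simp
  exact this

end Cfsg.Agent.S4213
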