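import Mathlib
import Cfsg.Agent.Lib.Helper1.Gaschutz
import Cfsg.Agent.Lib.Helper1.SylowSystem

set_option autoImplicit false

namespace Cfsg.Agent.S4217

open Subgroup
open scoped Pointwise

/-- the `p'`-part of an abelian subgroup -/
def pp {G : Type*} [Group G] (A : Subgroup G) (hA : IsMulCommutative A) (p : ℕ) : Subgroup G where
  carrier := {a | a ∈ A ∧ (orderOf a).Coprime p}
  one_mem' := ⟨A.one_mem, by simp⟩
  inv_mem' := by
    rintro a ⟨h1, h2⟩
    exact ⟨A.inv_mem h1, by rwa [orderOf_inv]⟩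
  mul_mem' := by
    rintro a b ⟨h1, h2⟩ ⟨h3, h4⟩
    refine ⟨A.mul_mem h1 h3, ?_⟩
    have hc : Commute a b := by
      have := hA.is_comm.comm ⟨a, h1⟩ ⟨b, h3⟩
      exact congrArg Subtype.val this
    exact Nat.Coprime.coprime_dvd_left hc.orderOf_mul_dvd_mul_orderOf (Nat.Coprime.mul_left h2 h4)

theorem pp_normal {G : Type*} [Group G] (A : Subgroup G) [A.Normal] (hA : IsMulCommutative A)
    (p : ℕ) : (pp A hA p).Normal := by
  constructor
  rintro a ⟨h1, h2⟩ g
  refine ⟨Normal.conj_mem inferInstance a h1 g, ?_⟩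
  have : orderOf (g * a * g⁻¹) = orderOf a := by
    have := orderOf_injective (MulAut.conj g).toMonoidHom (MulAut.conj g).injective a
    simpa using this
  rwa [this]

theorem pp_le {G : Type*} [Group G] (A : Subgroup G) (hA : IsMulCommutative A)
    (p : ℕ) : pp A hA p ≤ A := fun _ h => h.1

theorem local_step {G : Type*} [Group G] [Finite G] (A : Subgroup G) [A.Normal]
    (hA : IsMulCommutative A) (p : ℕ) (hp : p.Prime) (U K : Subgroup G) (hU : ¬ p ∣ U.index)
    (h1 : K ⊓ A = ⊥) (h2 : K ⊔ A = U) :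
    ∃ L : Subgroup G, (∃ n, L.index = p ^ n) ∧ L.index ∣ Nat.card A ∧ L ⊓ A ≤ pp A hA p := by
  have : Fact p.Prime := ⟨hp⟩
  have hCn := pp_normal A hA p
  set C := pp A hA p with hC
  set f := QuotientGroup.mk' C with hf
  have hfs : Function.Surjective f := QuotientGroup.mk'_surjective C
  have hAn : (A.map f).Normal := Normal.map inferInstance f hfs
  have hAc : IsMulCommutative (A.map f) := by
    refine ⟨⟨?_⟩⟩
    rintro ⟨_, a, ha, rfl⟩ ⟨_, b, hb, rfl⟩
    apply Subtype.ext
    have := hA.is_comm.comm ⟨a, ha⟩ ⟨b, hb⟩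
    have h3 : a * b = b * a := congrArg Subtype.val this
    change f a * f b = f b * f a
    rw [← map_mul, ← map_mul, h3]
  have hpg : IsPGroup p (A.map f) := by
    rintro ⟨_, a, ha, rfl⟩
    obtain ⟨k, m, hm, hkm⟩ := Nat.exists_eq_pow_mul_and_not_dvd (orderOf_pos a).ne' p hp.ne_one
    refine ⟨k, ?_⟩
    apply Subtype.ext
    change f a ^ p ^ k = 1
    rw [← map_pow, hf, QuotientGroup.mk'_apply, QuotientGroup.eq_one_iff]
    refine ⟨A.pow_mem ha _, ?_⟩
    have h4 : orderOf (a ^ p ^ k) = m := by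
      rw [orderOf_pow_of_dvd (pow_ne_zero _ hp.ne_zero) ⟨m, hkm⟩, hkm,
        Nat.mul_div_cancel_left _ (pow_pos hp.pos _)]
    rw [h4]
    exact ((Nat.Prime.coprime_iff_not_dvd hp).2 hm).symm
  obtain ⟨n, hn⟩ := hpg.exists_card_eq
  have hCU : C ≤ U := (pp_le A hA p).trans (h2 ▸ le_sup_right)
  have hidx : (U.map f).index = U.index := by
    apply index_map_eq U hfs
    rw [hf, QuotientGroup.ker_mk']
    exact hCU
  obtain ⟨H, hH⟩ := Cfsg.Agent.Lib.Helper1.gaschutz_exists (A.map f) (U.map f) (K.map f)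
    (map_mono (h2 ▸ le_sup_right))
    (by
      rw [hn, hidx]
      exact Nat.Coprime.pow_left _ ((Nat.Prime.coprime_iff_not_dvd hp).2 hU))
    (map_mono (h2 ▸ le_sup_left))
    (by
      rw [eq_bot_iff]
      rintro _ ⟨⟨k, hk, rfl⟩, a, ha, hka⟩
      have h5 : a⁻¹ * k ∈ C := by
        rw [← QuotientGroup.eq_one_iff, ← QuotientGroup.mk'_apply, ← hf, map_mul, map_inv, hka]
        simp
      have h6 : k ∈ A := by
        have := A.mul_mem ha (pp_le A hA p h5)
        simpa using this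
      have h7 : k ∈ K ⊓ A := ⟨hk, h6⟩
      rw [h1, mem_bot] at h7
      rw [h7, map_one]
      exact Subgroup.one_mem _)
    (by rw [← Subgroup.map_sup, sup_comm, h2])
  refine ⟨H.comap f, ⟨n, ?_⟩, ?_, ?_⟩
  · rw [index_comap_of_surjective H hfs, hH.index_eq_card, hn]
  · rw [index_comap_of_surjective H hfs, hH.index_eq_card]
    exact card_map_dvd A f
  · rintro x ⟨hx1, hx2⟩
    have h8 : f x ∈ A.map f ⊓ H := ⟨mem_map_of_mem f hx2, hx1⟩
    rw [hH.disjoint.eq_bot, mem_bot, hf, QuotientGroup.mk'_apply, QuotientGroup.eq_one_iff] at h8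
    exact h8

theorem global_step {G : Type*} [Group G] [Finite G] (A : Subgroup G) [A.Normal]
    (hA : IsMulCommutative A)
    (h : ∀ p : ℕ, p.Prime → ∃ U K : Subgroup G, ¬ p ∣ U.index ∧ K ⊓ A = ⊥ ∧ K ⊔ A = U) :
    ∃ K : Subgroup G, K.IsComplement' A := by
  classical
  have h1 : ∀ p : ℕ, ∃ L : Subgroup G, p.Prime →
      (∃ n, L.index = p ^ n) ∧ L.index ∣ Nat.card A ∧ L ⊓ A ≤ pp A hA p := by
    intro p
    by_cases hp : p.Prime
    · obtain ⟨U, K, h2, h3, h4⟩ := h p hp
      obtain ⟨L, hL⟩ := local_step A hA p hp U K h2 h3 h4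
      exact ⟨L, fun _ => hL⟩
    · exact ⟨⊤, fun h => absurd h hp⟩
  choose L hL using h1
  set F := (Nat.card A).primeFactors with hF
  have hFp : ∀ q ∈ F, q.Prime := fun q hq => Nat.prime_of_mem_primeFactors hq
  have hcop : ∀ q ∈ F, ∀ r ∈ F, q ≠ r → ((L q).index).Coprime (L r).index := by
    intro q hq r hr hqr
    obtain ⟨n, hn⟩ := (hL q (hFp q hq)).1
    obtain ⟨m, hm⟩ := (hL r (hFp r hr)).1
    rw [hn, hm]
    exact Nat.Coprime.pow _ _ ((Nat.coprime_primes (hFp q hq) (hFp r hr)).2 hqr)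
  have hidx := Cfsg.Agent.Lib.Helper1.index_finset_inf (fun q => (L q).index) L F
    (fun q _ => rfl) hcop
  have hdvd : (F.inf L).index ∣ Nat.card A := by
    rw [hidx]
    apply Finset.prod_dvd_of_isRelPrime
    · intro q hq r hr hqr
      exact Nat.coprime_iff_isRelPrime.1 (hcop q hq r hr hqr)
    · intro q hq
      exact (hL q (hFp q hq)).2.1
  have hdisj : Disjoint (F.inf L) A := by
    rw [disjoint_iff, eq_bot_iff]
    rintro x ⟨hx1, hx2⟩
    rw [mem_bot]
    by_contra hx
    have hox : orderOf x ≠ 1 := fun h => hx (orderOf_eq_one_iff.1 h)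
    obtain ⟨q, hq, hqx⟩ := Nat.exists_prime_and_dvd hox
    have hxA : orderOf x ∣ Nat.card A := by
      have := orderOf_dvd_natCard (⟨x, hx2⟩ : A)
      rwa [Subgroup.orderOf_mk] at this
    have hqF : q ∈ F := Nat.mem_primeFactors.2 ⟨hq, hqx.trans hxA, Nat.card_pos.ne'⟩
    have hxL : x ∈ L q := (Finset.inf_le hqF : F.inf L ≤ L q) hx1
    have := ((hL q hq).2.2 ⟨hxL, hx2⟩).2
    exact hq.one_lt.ne' (Nat.eq_one_of_dvd_coprimes this hqx dvd_rfl)
  refine ⟨F.inf L, isComplement'_of_card_mul_and_disjoint ?_ hdisj⟩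
  have h2 : Nat.card (F.inf L : Subgroup G) * Nat.card A ≤ Nat.card G := by
    rw [← Nat.card_prod]
    exact Nat.card_le_card_of_injective _ (mul_injective_of_disjoint hdisj)
  have h3 : Nat.card G ≤ Nat.card (F.inf L : Subgroup G) * Nat.card A := by
    rw [← card_mul_index (F.inf L)]
    exact Nat.mul_le_mul_left _ (Nat.le_of_dvd Nat.card_pos hdvd)
  exact le_antisymm h2 h3

/-- Let `A` be an abelian normal subgroup of the finite group `G`. Then `A` has a complement in `G` if and only if, for every prime `p` dividing the index of `A`, there are a Sylow `p`-subgroup `S` of `G/A` and a subgroup `K` of `G` with `K ∩ A = 1` and `KA` equal to the preimage of `S` (that is, `A` has a complement in the preimage of a Sylow `p`-subgroup of `G/A`). -/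
theorem result {G : Type*} [Group G] [Finite G] (A : Subgroup G) [A.Normal] (hA : IsMulCommutative A) : (∃ K : Subgroup G, K.IsComplement' A) ↔ ∀ p : ℕ, p.Prime → p ∣ A.index → ∃ (S : Sylow p (G ⧸ A)) (K : Subgroup G), K ⊓ A = ⊥ ∧ K ⊔ A = (S : Subgroup (G ⧸ A)).comap (QuotientGroup.mk' A) := by
  constructor
  · rintro ⟨K, hK⟩ p hp _
    have : Fact p.Prime := ⟨hp⟩
    obtain ⟨S⟩ : Nonempty (Sylow p (G ⧸ A)) := inferInstance
    set U := (S : Subgroup (G ⧸ A)).comap (QuotientGroup.mk' A) with hU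
    have hAU : A ≤ U := by
      intro a ha
      rw [hU, mem_comap, QuotientGroup.mk'_apply, (QuotientGroup.eq_one_iff a).2 ha]
      exact Subgroup.one_mem _
    refine ⟨S, K ⊓ U, ?_, ?_⟩
    · rw [eq_bot_iff, ← hK.disjoint.eq_bot]
      exact inf_le_inf_right _ inf_le_left
    · apply le_antisymm (sup_le inf_le_right hAU)
      intro u hu
      have hu' : u ∈ (K : Set G) * (A : Set G) := by rw [hK.mul_eq]; trivial
      obtain ⟨k, hk, a, ha, rfl⟩ := Set.mem_mul.1 hu'
      have hkU : k ∈ U := by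
        have := U.mul_mem hu (U.inv_mem (hAU ha))
        simpa using this
      exact Subgroup.mul_mem _ (mem_sup_left ⟨hk, hkU⟩) (mem_sup_right ha)
  · intro h
    apply global_step A hA
    intro p hp
    by_cases hpA : p ∣ A.index
    · obtain ⟨S, K, h1, h2⟩ := h p hp hpA
      have : Fact p.Prime := ⟨hp⟩
      refine ⟨_, K, ?_, h1, h2⟩
      rw [index_comap_of_surjective _ (QuotientGroup.mk'_surjective A)]
      exact S.not_dvd_index
    · exact ⟨A, ⊥, hpA, bot_inf_eq _, bot_sup_eq _⟩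

end Cfsg.Agent.S4217
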