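import Cfsg.Statements.S4218
import Cfsg.Agent.Lib.Helper29.PSolvable2
import Cfsg.Agent.Lib.Helper1.Coprime
import Cfsg.Agent.Lib.Helper1.PGrp

set_option autoImplicit false
open Cfsg

namespace Cfsg.Agent.S4218

open Cfsg.Agent.Lib.Helper29 Cfsg.Agent.Lib.Helper8
open scoped commutatorElement

theorem aux {G : Type*} [Group G] [Finite G] {p : ℕ} [hp : Fact p.Prime] (hG : Cfsg.IsPSolvable p G)
    (K L : Subgroup G) [hKn : K.Normal] [hLn : L.Normal] (hK : K = pPrimeCore p G) (hL : L = pPrimePCore p G)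
    (g : G) :
    (∀ x ∈ L, g * x * g⁻¹ * x⁻¹ ∈ ((frattini (↥L ⧸ K.subgroupOf L)).comap
      (QuotientGroup.mk' (K.subgroupOf L))).map L.subtype) ↔ g ∈ L := by
  set F : Subgroup G := ((frattini (↥L ⧸ K.subgroupOf L)).comap
      (QuotientGroup.mk' (K.subgroupOf L))).map L.subtype with hF
  let μ := QuotientGroup.mk' (K.subgroupOf L)
  let π := QuotientGroup.mk' K
  have hπ : Function.Surjective π := QuotientGroup.mk'_surjective K
  have memF : ∀ z : G, z ∈ F ↔ ∃ hz : z ∈ L, μ ⟨z, hz⟩ ∈ frattini (↥L ⧸ K.subgroupOf L) := by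
    intro z
    constructor
    · rintro ⟨y, hy, rfl⟩
      exact ⟨y.2, hy⟩
    · rintro ⟨hz, h⟩
      exact ⟨⟨z, hz⟩, h, rfl⟩
  have hFL : F ≤ L := fun z hz => ((memF z).mp hz).1
  have hKL : K ≤ L := by rw [hK, hL]; exact pPrimeCore_le_pPrimePCore
  set V : Subgroup (G ⧸ K) := L.map π with hV
  have hVeq : ∀ (h : K = pPrimeCore p G), V = (pCore p (G ⧸ K)) := by
    intro h
    subst h
    rw [hV, hL]
    exact map_pPrimePCore
  have hVp : IsPGroup p V := by rw [hVeq hK]; exact isPGroup_pCore p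
  have hVcent : Subgroup.centralizer (V : Set (G ⧸ K)) ≤ V := by
    rw [hVeq hK]
    subst hK
    exact centralizer_pCore_quotient_le hG
  have hVmax : ∀ N : Subgroup (G ⧸ K), N.Normal → IsPGroup p N → N ≤ V := by
    intro N h1 h2
    rw [hVeq hK]
    exact le_pCore_of_normal h1 h2
  have hcomap : ∀ x : G, π x ∈ V → x ∈ L := by
    rintro x ⟨y, hy, hxy⟩
    have h1 : y⁻¹ * x ∈ K := by
      rw [← QuotientGroup.eq_one_iff]
      have : π (y⁻¹ * x) = 1 := by rw [map_mul, map_inv, hxy, inv_mul_cancel]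
      exact this
    have := L.mul_mem hy (hKL h1)
    rwa [mul_inv_cancel_left] at this
  have hYp : IsPGroup p (↥L ⧸ K.subgroupOf L) := by
    obtain ⟨n, hn⟩ := IsPGroup.iff_card.mp hVp
    apply IsPGroup.of_card (n := n)
    rw [← hn, hV, card_map_mk', ← Subgroup.index_eq_card]
    rfl
  constructor
  swap
  · intro hg x hx
    rw [memF]
    refine ⟨L.mul_mem (L.mul_mem (L.mul_mem hg hx) (L.inv_mem hg)) (L.inv_mem hx), ?_⟩
    apply (Cfsg.Agent.Lib.Helper1.pgroup_frattini hYp).1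
    have e : μ ⟨g * x * g⁻¹ * x⁻¹, L.mul_mem (L.mul_mem (L.mul_mem hg hx) (L.inv_mem hg)) (L.inv_mem hx)⟩
        = ⁅μ ⟨g, hg⟩, μ ⟨x, hx⟩⁆ := by
      rw [commutatorElement_def, ← map_mul, ← map_inv, ← map_mul, ← map_inv, ← map_mul]
      rfl
    rw [e, commutator_def]
    exact Subgroup.commutator_mem_commutator (Subgroup.mem_top _) (Subgroup.mem_top _)
  -- F is invariant under conjugation
  have hFconj : ∀ k : G, ∀ z ∈ F, k * z * k⁻¹ ∈ F := by
    intro k z hz
    obtain ⟨hzL, hzΦ⟩ := (memF z).mp hz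
    let e : MulAut L := MulAut.conjNormal k
    have he : (K.subgroupOf L).map (e : ↥L →* ↥L) = K.subgroupOf L := by
      apply le_antisymm
      · rintro _ ⟨y, hy, rfl⟩
        rw [Subgroup.mem_subgroupOf]
        have : ((e y : L) : G) = k * y * k⁻¹ := MulAut.conjNormal_apply k y
        show ((e y : L) : G) ∈ K
        rw [this]
        exact hKn.conj_mem _ hy k
      · intro y hy
        refine ⟨e.symm y, ?_, by simp⟩
        rw [SetLike.mem_coe, Subgroup.mem_subgroupOf]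
        have : ((e.symm y : L) : G) = k⁻¹ * y * k := MulAut.conjNormal_symm_apply k y
        rw [this]
        have := hKn.conj_mem _ hy k⁻¹
        simpa using this
    let eb := QuotientGroup.congr (K.subgroupOf L) (K.subgroupOf L) e he
    have hchar := (Subgroup.characteristic_iff_map_eq.mp
      (frattini_characteristic (G := ↥L ⧸ K.subgroupOf L))) eb
    rw [memF]
    refine ⟨hLn.conj_mem z hzL k, ?_⟩
    rw [← hchar]
    refine ⟨μ ⟨z, hzL⟩, hzΦ, ?_⟩
    show eb (μ ⟨z, hzL⟩) = _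
    rw [QuotientGroup.congr_mk']
    congr 1
  let T : Subgroup G :=
    { carrier := {g | ∀ x ∈ L, g * x * g⁻¹ * x⁻¹ ∈ F}
      one_mem' := by
        intro x _
        simp only [one_mul, inv_one, mul_one, mul_inv_cancel]
        exact F.one_mem
      mul_mem' := by
        intro a b ha hb x hx
        have h1 := F.mul_mem (hFconj a _ (hb x hx)) (ha x hx)
        have e : a * b * x * (a * b)⁻¹ * x⁻¹ = a * (b * x * b⁻¹ * x⁻¹) * a⁻¹ * (a * x * a⁻¹ * x⁻¹) := by group
        rw [e]; exact h1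
      inv_mem' := by
        intro a ha x hx
        have h1 := hFconj a⁻¹ _ (F.inv_mem (ha x hx))
        have e : a⁻¹ * x * a⁻¹⁻¹ * x⁻¹ = a⁻¹ * (a * x * a⁻¹ * x⁻¹)⁻¹ * a⁻¹⁻¹ := by group
        rw [e]; exact h1 }
  have memT : ∀ t : G, t ∈ T ↔ ∀ x ∈ L, t * x * t⁻¹ * x⁻¹ ∈ F := fun t => Iff.rfl
  have hTn : T.Normal := by
    constructor
    intro t ht k x hx
    have hx' : k⁻¹ * x * k ∈ L := by
      have := hLn.conj_mem x hx k⁻¹
      simpa using this
    have h1 := hFconj k _ (ht _ hx')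
    have e : k * t * k⁻¹ * x * (k * t * k⁻¹)⁻¹ * x⁻¹
        = k * (t * (k⁻¹ * x * k) * t⁻¹ * (k⁻¹ * x * k)⁻¹) * k⁻¹ := by group
    rw [e]; exact h1
  -- p'-elements of T lie in K
  have claim1 : ∀ h ∈ T, (orderOf h).Coprime p → h ∈ K := by
    intro h hT hcop
    set A : Subgroup (G ⧸ K) := Subgroup.zpowers (π h) with hA
    set N : Subgroup (G ⧸ K) := F.map π with hN
    have hNn : N.Normal := by
      have : F.Normal := ⟨fun z hz k => hFconj k z hz⟩
      exact this.map π hπ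
    have hNV : N ≤ V := Subgroup.map_mono hFL
    have hNp : IsPGroup p N := hVp.to_le hNV
    have hcardA : (Nat.card A).Coprime p := by
      rw [hA, Nat.card_zpowers]
      exact Nat.Coprime.of_dvd_left (orderOf_map_dvd π h) hcop
    have hcopNA : (Nat.card N).Coprime (Nat.card A) := by
      obtain ⟨n, hn⟩ := IsPGroup.iff_card.mp hNp
      rw [hn]
      exact (Nat.Coprime.pow_right n hcardA).symm
    have hsolvN : Group.IsSolvable N := by
      have := hNp.isNilpotent
      infer_instance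
    have hstep : ∀ x ∈ L, ∃ f ∈ F, π (x * f) ∈ Subgroup.centralizer (A : Set (G ⧸ K)) := by
      intro x hx
      obtain ⟨n, ⟨f, hf, rfl⟩, hn⟩ := Cfsg.Agent.Lib.Helper1.coprime_key N A
        (by rw [Subgroup.normalizer_eq_top]; exact le_top) hcopNA (Or.inl hsolvN) (π x) (by
          intro a ha
          obtain ⟨j, rfl⟩ := Subgroup.mem_zpowers_iff.mp ha
          have htj : h ^ j ∈ T := T.zpow_mem hT j
          have h1 := hFconj x⁻¹ _ (htj x hx)
          refine ⟨x⁻¹ * (h ^ j * x * (h ^ j)⁻¹ * x⁻¹) * x⁻¹⁻¹, h1, ?_⟩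
          simp only [map_mul, map_inv, map_zpow]
          group)
      exact ⟨f, hf, by rw [map_mul]; exact hn⟩
    set CL : Subgroup L := ((Subgroup.centralizer (A : Set (G ⧸ K))).comap π).subgroupOf L with hCL
    have htop : CL.map μ = ⊤ := by
      apply frattini_nongenerating
      rw [eq_top_iff]
      intro y _
      obtain ⟨⟨x, hx⟩, rfl⟩ := QuotientGroup.mk'_surjective (K.subgroupOf L) y
      obtain ⟨f, hf, hxf⟩ := hstep x hx
      obtain ⟨hfL, hfΦ⟩ := (memF f).mp hf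
      have h1 : μ (⟨x, hx⟩ * ⟨f, hfL⟩) ∈ CL.map μ := ⟨_, hxf, rfl⟩
      have h2 := Subgroup.mul_mem _ ((le_sup_left : CL.map μ ≤ CL.map μ ⊔ frattini _) h1)
        ((le_sup_right : frattini _ ≤ CL.map μ ⊔ frattini _) (Subgroup.inv_mem _ hfΦ))
      rw [map_mul, mul_inv_cancel_right] at h2
      exact h2
    have hcent : π h ∈ Subgroup.centralizer (V : Set (G ⧸ K)) := by
      rw [Subgroup.mem_centralizer_iff]
      rintro _ ⟨x, hx, rfl⟩
      have h1 : μ ⟨x, hx⟩ ∈ CL.map μ := by rw [htop]; trivial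
      obtain ⟨x', hx', hxx⟩ := h1
      have h2 : x'⁻¹ * ⟨x, hx⟩ ∈ K.subgroupOf L := by
        rw [← QuotientGroup.eq_one_iff]
        have : μ (x'⁻¹ * ⟨x, hx⟩) = 1 := by rw [map_mul, map_inv, hxx, inv_mul_cancel]
        exact this
      have h3 : π x = π x' := by
        have h4 : ((x' : G))⁻¹ * x ∈ K := h2
        have h5 : π ((x' : G)⁻¹ * x) = 1 := (QuotientGroup.eq_one_iff _).mpr h4
        rw [map_mul, map_inv, inv_mul_eq_one] at h5
        exact h5.symm
      have h6 : π (x' : G) ∈ Subgroup.centralizer (A : Set (G ⧸ K)) := hx'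
      rw [h3]
      exact (Subgroup.mem_centralizer_iff.mp h6 (π h) (Subgroup.mem_zpowers _)).symm
    have hV' : π h ∈ V := hVcent hcent
    obtain ⟨k, hk⟩ := hVp ⟨π h, hV'⟩
    have hk' : (π h) ^ p ^ k = 1 := by simpa using congrArg Subtype.val hk
    have h7 : orderOf (π h) = 1 := by
      apply Nat.eq_one_of_dvd_coprimes (Nat.Coprime.pow_right k hcop) (orderOf_map_dvd π h)
        (orderOf_dvd_of_pow_eq_one hk')
    exact (QuotientGroup.eq_one_iff h).mp (orderOf_eq_one_iff.mp h7)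
  have claim2 : IsPGroup p (T.map π) := by
    rintro ⟨_, t, ht, rfl⟩
    obtain ⟨a, m, hm, ham⟩ := Nat.exists_eq_pow_mul_and_not_dvd (orderOf_pos t).ne' p hp.out.ne_one
    refine ⟨a, Subtype.ext ?_⟩
    have h1 : t ^ p ^ a ∈ K := by
      apply claim1 _ (T.pow_mem ht _)
      have h2 : orderOf (t ^ p ^ a) ∣ m := by
        apply orderOf_dvd_of_pow_eq_one
        rw [← pow_mul, ← ham, pow_orderOf_eq_one]
      exact Nat.Coprime.of_dvd_left h2 ((Nat.Prime.coprime_iff_not_dvd hp.out).mpr hm).symm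
    have h3 : π (t ^ p ^ a) = 1 := (QuotientGroup.eq_one_iff _).mpr h1
    simpa using h3
  intro hg
  apply hcomap
  exact hVmax _ (hTn.map π hπ) claim2 ⟨g, hg, rfl⟩

theorem result {G : Type*} [Group G] [Finite G] {p : ℕ} [Fact p.Prime] (hG : Cfsg.IsPSolvable p G) (g : G) : (∀ x ∈ Cfsg.pPrimePCore p G, g * x * g⁻¹ * x⁻¹ ∈ ((frattini (↥(Cfsg.pPrimePCore p G) ⧸ (Cfsg.pPrimeCore p G).subgroupOf (Cfsg.pPrimePCore p G))).comap (QuotientGroup.mk' ((Cfsg.pPrimeCore p G).subgroupOf (Cfsg.pPrimePCore p G)))).map (Cfsg.pPrimePCore p G).subtype) ↔ g ∈ Cfsg.pPrimePCore p G :=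
  aux hG _ _ rfl rfl g

end Cfsg.Agent.S4218
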