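import Mathlib
import Cfsg.Statements.S4219
import Cfsg.Agent.Lib.Helper16.Syl

set_option autoImplicit false
open Cfsg

namespace Cfsg.Agent.S4219

open Cfsg.Agent.Lib.Helper16

theorem aux {G : Type*} [Group G] [Finite G] {α : Type*} [MulAction G α] {t : ℕ}
    (hG : MulAction.IsMultiplyPretransitive G α t) (x : Fin t ↪ α) {p : ℕ} [Fact p.Prime]
    (T : Subgroup G) (hT : SylIn p T (MulAction.stabilizer G x)) (a : Fin t ↪ α)
    (ha : ∀ i, a i ∈ MulAction.fixedPoints T α) :
    ∃ g ∈ Subgroup.normalizer (T : Set G), g • x = a := by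
  obtain ⟨g₀, hg₀⟩ := MulAction.exists_smul_eq G x a
  have h1 : SylIn p (T.map (MulAut.conj g₀).toMonoidHom) (MulAction.stabilizer G a) := by
    have := hT.map_conj g₀
    rwa [← MulAction.stabilizer_smul_eq_stabilizer_map_conj, hg₀] at this
  have h2 : T ≤ MulAction.stabilizer G a := by
    intro u hu
    rw [MulAction.mem_stabilizer_iff]
    ext i
    exact ha i ⟨u, hu⟩
  have h3 : SylIn p T (MulAction.stabilizer G a) :=
    sylIn_of_card_ge h1 hT.isPGroup h2 (by rw [card_conj])
  obtain ⟨l, hl, hlT⟩ := h1.exists_conj h3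
  refine ⟨l * g₀, ?_, ?_⟩
  · rw [Subgroup.mem_normalizer_iff_map_conj_eq]
    rw [Subgroup.map_map] at hlT
    conv_rhs => rw [hlT]
    congr 1
    ext y
    simp
  · rw [mul_smul, hg₀]
    exact hl

/-- Let a finite group `G` act `t`-fold transitively on a finite set, let `H` be the stabilizer of `t` distinct points and `P` a Sylow `p`-subgroup of `H`. Then the normalizer of `P` in `G` is `t`-fold transitive on the fixed points of `P`: any `t` distinct fixed points of `P` can be carried to any other `t` distinct fixed points of `P` by an element normalizing `P`. -/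
theorem result {G : Type*} [Group G] [Finite G] {α : Type*} [Fintype α] [MulAction G α] {t : ℕ} (hG : MulAction.IsMultiplyPretransitive G α t) (x : Fin t ↪ α) {p : ℕ} [Fact p.Prime] (P : Sylow p (MulAction.stabilizer G x)) (a b : Fin t ↪ α) (ha : ∀ i, a i ∈ MulAction.fixedPoints ((P : Subgroup (MulAction.stabilizer G x)).map (MulAction.stabilizer G x).subtype) α) (hb : ∀ i, b i ∈ MulAction.fixedPoints ((P : Subgroup (MulAction.stabilizer G x)).map (MulAction.stabilizer G x).subtype) α) : ∃ g ∈ Subgroup.normalizer ((((P : Subgroup (MulAction.stabilizer G x)).map (MulAction.stabilizer G x).subtype) : Subgroup G) : Set G), g • a = b := by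
  obtain ⟨g, hg, hga⟩ := aux hG x _ (sylIn_of_sylow P) a ha
  obtain ⟨k, hk, hkb⟩ := aux hG x _ (sylIn_of_sylow P) b hb
  refine ⟨k * g⁻¹, Subgroup.mul_mem _ hk (Subgroup.inv_mem _ hg), ?_⟩
  rw [mul_smul, ← hga, inv_smul_smul, hkb]

end Cfsg.Agent.S4219
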