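import Cfsg.Statements.S4225
import Cfsg.Agent.S4210

set_option autoImplicit false
open Cfsg

namespace Cfsg.Agent.S4225

/-- In a regular `p`-group, for every `k` the elements whose `p^k`-th power is `1` form a characteristic subgroup. -/
theorem result {G : Type*} [Group G] [Finite G] {p : ℕ} [Fact p.Prime] (hG : Cfsg.IsRegularPGroup p G) (k : ℕ) : ∃ H : Subgroup G, H.Characteristic ∧ (H : Set G) = {x : G | x ^ p ^ k = 1} := by
  let H : Subgroup G :=
    { carrier := {x : G | x ^ p ^ k = 1}
      one_mem' := one_pow _
      mul_mem' := by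
        intro x y hx hy
        have hx' : x ^ p ^ k = 1 := hx
        have hy' : y ^ p ^ k = 1 := hy
        have := (Cfsg.Agent.S4210.result hG x y⁻¹ k).mp (by rw [hx', inv_pow, hy', inv_one])
        simpa using this
      inv_mem' := by
        intro x hx
        have hx' : x ^ p ^ k = 1 := hx
        show x⁻¹ ^ p ^ k = 1
        rw [inv_pow, hx', inv_one] }
  refine ⟨H, ?_, rfl⟩
  rw [Subgroup.characteristic_iff_le_comap]
  intro φ x hx
  have hx' : x ^ p ^ k = 1 := hx
  show (φ x) ^ p ^ k = 1
  rw [← map_pow, hx', map_one]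

end Cfsg.Agent.S4225
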