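import Mathlib
import Cfsg.Statements.S4275

set_option autoImplicit false
open Cfsg

namespace Cfsg.Agent.S4275

/-- Let G be a transitive group of permutations of a finite set Ω, let o ∈ Ω, and let α be an automorphism of G. Then α is induced by conjugation by a permutation of Ω normalizing G if and only if the image under α of the stabilizer of o fixes some point of Ω. -/
theorem result {Ω : Type*} [Fintype Ω] (G : Subgroup (Equiv.Perm Ω)) (htr : MulAction.IsPretransitive G Ω) (o : Ω) (α : G ≃* G) : (∃ σ : Equiv.Perm Ω, σ ∈ Subgroup.normalizer (G : Set (Equiv.Perm Ω)) ∧ ∀ g : G, ((α g : G) : Equiv.Perm Ω) = σ * (g : Equiv.Perm Ω) * σ⁻¹) ↔ ∃ ω : Ω, ∀ g ∈ (MulAction.stabilizer G o).map α.toMonoidHom, g • ω = ω := by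
  constructor
  · rintro ⟨σ, -, hσ⟩
    refine ⟨σ o, ?_⟩
    rintro _ ⟨s, hs, rfl⟩
    have hs' : (s : Equiv.Perm Ω) o = o := hs
    change ((α s : G) : Equiv.Perm Ω) (σ o) = σ o
    rw [hσ]
    simp [hs']
  · rintro ⟨ω, hω⟩
    choose c hc using fun ω' : Ω => MulAction.exists_smul_eq G o ω'
    let σ₀ : Ω → Ω := fun ω' => α (c ω') • ω
    have key : ∀ g : G, σ₀ (g • o) = α g • ω := by
      intro g
      have h1 : g⁻¹ * c (g • o) ∈ MulAction.stabilizer G o := by
        rw [MulAction.mem_stabilizer_iff, mul_smul, hc, inv_smul_smul]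
      have h2 := hω (α (g⁻¹ * c (g • o))) ⟨_, h1, rfl⟩
      rw [map_mul, map_inv, mul_smul, inv_smul_eq_iff] at h2
      exact h2
    have hsurj : Function.Surjective σ₀ := by
      intro ω'
      obtain ⟨h, hh⟩ := MulAction.exists_smul_eq G ω ω'
      obtain ⟨g, rfl⟩ := α.surjective h
      exact ⟨g • o, by rw [key, hh]⟩
    have hbij : Function.Bijective σ₀ := hsurj.bijective_of_finite
    let σ : Equiv.Perm Ω := Equiv.ofBijective σ₀ hbij
    have hconj : ∀ g : G, ((α g : G) : Equiv.Perm Ω) = σ * (g : Equiv.Perm Ω) * σ⁻¹ := by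
      intro g
      rw [eq_mul_inv_iff_mul_eq]
      ext ω'
      obtain ⟨k, rfl⟩ := MulAction.exists_smul_eq G o ω'
      change ((α g : G) : Equiv.Perm Ω) (σ₀ (k • o)) = σ₀ (g • (k • o))
      rw [← mul_smul, key, key, map_mul, mul_smul]
      rfl
    refine ⟨σ, ?_, hconj⟩
    rw [Subgroup.mem_normalizer_iff]
    intro h
    constructor
    · intro hh
      have := hconj ⟨h, hh⟩
      rw [← this]
      exact (α ⟨h, hh⟩).2
    · intro hh
      obtain ⟨g, hg⟩ := α.surjective ⟨_, hh⟩
      have h3 := hconj g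
      rw [hg] at h3
      have h4 : h = (g : Equiv.Perm Ω) := by
        have : σ * h * σ⁻¹ = σ * (g : Equiv.Perm Ω) * σ⁻¹ := h3
        simpa using this
      rw [h4]
      exact g.2

end Cfsg.Agent.S4275
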