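import Mathlib
import Cfsg.Statements.S4283
import Cfsg.Agent.Lib.Helper22.Frob
import Cfsg.Agent.Lib.Helper22.Basic
import Cfsg.Agent.Lib.Lead.Frobenius

set_option autoImplicit false
open Cfsg

namespace Cfsg.Agent.S4283

open scoped Pointwise
open Cfsg.Agent.Lib.Helper22 Cfsg.Agent.Lib.Lead Subgroup

theorem mem_of_mk_mem {G : Type*} [Group G] {N H : Subgroup G} [N.Normal] (hNH : N ≤ H) {x : G}
    (hx : QuotientGroup.mk' N x ∈ H.map (QuotientGroup.mk' N)) : x ∈ H := by
  obtain ⟨h, hh, hhx⟩ := hx
  have h1 : h⁻¹ * x ∈ N := QuotientGroup.eq.1 hhx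
  have : x = h * (h⁻¹ * x) := by group
  rw [this]
  exact H.mul_mem hh (hNH h1)

theorem centralizer_eq_of_abelian {G : Type*} [Group G] {A : Subgroup G} (hA : IsMulCommutative A)
    {x : G} (hx : x ∈ A) (h : ∀ g : G, g * x = x * g → g ∈ A) :
    centralizer ({x} : Set G) = A := by
  apply le_antisymm
  · intro g hg
    rw [mem_centralizer_singleton_iff] at hg
    exact h g hg
  · intro a ha
    rw [mem_centralizer_singleton_iff]
    exact congrArg Subtype.val (hA.is_comm.comm ⟨a, ha⟩ ⟨x, hx⟩)

/-- Let G be a finite group with centre Z and let K, H be abelian subgroups of G containing Z such that G/Z is a Frobenius group with complement H/Z and kernel K/Z. Then the conjugacy class sizes of G are exactly 1, [G : K] and [G : H], and these two indices are coprime. (This is the converse half of the characterization of finite groups whose conjugacy class sizes are exactly 1, m and n with m and n coprime.) -/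
theorem result {G : Type*} [Group G] [Finite G] (K H : Subgroup G) (hZK : Subgroup.center G ≤ K) (hZH : Subgroup.center G ≤ H) (hK : IsMulCommutative K) (hH : IsMulCommutative H) (hFrob : Cfsg.IsFrobeniusComplement (H.map (QuotientGroup.mk' (Subgroup.center G)))) (hker : Cfsg.frobeniusKernel (H.map (QuotientGroup.mk' (Subgroup.center G))) = (K.map (QuotientGroup.mk' (Subgroup.center G)) : Set (G ⧸ Subgroup.center G))) : Set.range (fun x : G => (Subgroup.centralizer ({x} : Set G)).index) = ({1, K.index, H.index} : Set ℕ) ∧ K.index.Coprime H.index := by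
  set π := QuotientGroup.mk' (Subgroup.center G) with hπ
  have hπ1 : ∀ x : G, π x = 1 ↔ x ∈ center G := fun x => QuotientGroup.eq_one_iff x
  have hF := (isFrobeniusComplement_iff _).1 hFrob
  -- centralizers
  have hB : ∀ x ∈ K, x ∉ center G → centralizer ({x} : Set G) = K := by
    intro x hxK hxZ
    apply centralizer_eq_of_abelian hK hxK
    intro g hg
    by_contra hgK
    have h1 : π g ∉ Cfsg.frobeniusKernel (H.map π) := by
      rw [hker]
      intro h2
      exact hgK (mem_of_mk_mem hZK h2)
    rw [not_mem_frobeniusKernel_iff] at h1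
    obtain ⟨hg1, a, ha⟩ := h1
    have ha' : π g ∈ MulAut.conj (π x * a) • H.map π := by
      rw [mem_conj_smul_iff] at ha ⊢
      have : (π x * a)⁻¹ * π g * (π x * a) = a⁻¹ * π (x⁻¹ * (g * x)) * a := by
        simp only [map_mul, map_inv]; group
      rw [this, hg]
      have : x⁻¹ * (x * g) = g := by group
      rwa [this]
    have h3 := frob_inv_mul_mem hFrob hg1 ha ha'
    have h4 : π x ∈ Cfsg.frobeniusKernel (H.map π) := by
      rw [hker]; exact ⟨x, hxK, rfl⟩
    rcases h4 with h5 | h5
    · exact hxZ ((hπ1 x).1 h5)
    · apply h5 a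
      rw [mem_conj_smul_iff]
      rwa [← mul_assoc] at h3
  have hC : ∀ x ∈ H, x ∉ center G → centralizer ({x} : Set G) = H := by
    intro x hxH hxZ
    apply centralizer_eq_of_abelian hH hxH
    intro g hg
    by_contra hgH
    have h1 : π g ∉ H.map π := fun h2 => hgH (mem_of_mk_mem hZH h2)
    have h2 := hF.2.2 (π g) h1 (π x) ⟨x, hxH, rfl⟩ (by
      have : (π g)⁻¹ * π x * π g = π (g⁻¹ * (x * g)) := by
        simp only [map_mul, map_inv]; group
      rw [this, ← hg]
      have : g⁻¹ * (g * x) = x := by group
      rw [this]
      exact ⟨x, hxH, rfl⟩)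
    exact hxZ ((hπ1 x).1 h2)
  have hHidx : (H.map π).index = H.index :=
    index_map_eq H (QuotientGroup.mk'_surjective _) (by rw [hπ, QuotientGroup.ker_mk']; exact hZH)
  have hKidx : (K.map π).index = K.index :=
    index_map_eq K (QuotientGroup.mk'_surjective _) (by rw [hπ, QuotientGroup.ker_mk']; exact hZK)
  have hKcard : Nat.card (K.map π) = (H.map π).index := by
    rw [← frob_card_kernel hFrob, hker]
    rfl
  have hidx1 : (H.map π).index ≠ 1 := fun h => hF.2.1 (index_eq_one.1 h)
  constructor
  · ext n
    simp only [Set.mem_range, Set.mem_insert_iff, Set.mem_singleton_iff]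
    constructor
    · rintro ⟨x, rfl⟩
      by_cases hxZ : x ∈ center G
      · left
        rw [index_eq_one, centralizer_eq_top_iff_subset]
        simpa using hxZ
      · by_cases hxK : x ∈ K
        · right; left; rw [hB x hxK hxZ]
        · right; right
          have h1 : π x ∉ Cfsg.frobeniusKernel (H.map π) := by
            rw [hker]
            intro h2
            exact hxK (mem_of_mk_mem hZK h2)
          rw [not_mem_frobeniusKernel_iff] at h1
          obtain ⟨-, a, ha⟩ := h1
          obtain ⟨b, rfl⟩ := QuotientGroup.mk'_surjective _ a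
          rw [mem_conj_smul_iff] at ha
          have h2 : b⁻¹ * x * b ∈ H := by
            apply mem_of_mk_mem hZH
            simpa only [map_mul, map_inv] using ha
          have h3 : b⁻¹ * x * b ∉ center G := by
            intro h4
            apply hxZ
            have := (inferInstance : (center G).Normal).conj_mem _ h4 b
            have h5 : b * (b⁻¹ * x * b) * b⁻¹ = x := by group
            rwa [h5] at this
          rw [← hC _ h2 h3, index_centralizer_eq_card_carrier, index_centralizer_eq_card_carrier]
          have h6 : ConjClasses.mk x = ConjClasses.mk (b⁻¹ * x * b) := by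
            rw [ConjClasses.mk_eq_mk_iff_isConj, isConj_iff]
            exact ⟨b⁻¹, by simp⟩
          rw [h6]
    · rintro (rfl | rfl | rfl)
      · refine ⟨1, ?_⟩
        rw [index_eq_one, centralizer_eq_top_iff_subset]
        simp
      · have hne : K.map π ≠ ⊥ := by
          intro h
          rw [h, card_bot] at hKcard
          exact hidx1 hKcard.symm
        obtain ⟨⟨y, hy⟩, hy1⟩ := (K.map π).ne_bot_iff_exists_ne_one.1 hne
        obtain ⟨x, hx, rfl⟩ := hy
        refine ⟨x, ?_⟩
        rw [hB x hx (fun h => hy1 (Subtype.ext ((hπ1 x).2 h)))]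
      · obtain ⟨⟨y, hy⟩, hy1⟩ := (H.map π).ne_bot_iff_exists_ne_one.1 hF.1
        obtain ⟨x, hx, rfl⟩ := hy
        refine ⟨x, ?_⟩
        rw [hC x hx (fun h => hy1 (Subtype.ext ((hπ1 x).2 h)))]
  · rw [← hKidx, ← hHidx]
    have h1 := (K.map π).card_mul_index
    have h2 := (H.map π).card_mul_index
    rw [hKcard] at h1
    have hpos : 0 < (H.map π).index := Nat.pos_of_ne_zero (index_ne_zero_of_finite)
    have h3 : (K.map π).index = Nat.card (H.map π) := by
      have : (H.map π).index * (K.map π).index = (H.map π).index * Nat.card (H.map π) := by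
        rw [h1, ← h2, mul_comm]
      exact Nat.eq_of_mul_eq_mul_left hpos this
    rw [h3]
    have h4 := frob_index_mod hFrob
    have h5 : ((H.map π).index - 1).Coprime (H.map π).index := by
      obtain ⟨m, hm⟩ : ∃ m, (H.map π).index = m + 1 := ⟨(H.map π).index - 1, by omega⟩
      rw [hm]; simp
    exact h5.coprime_dvd_left h4

end Cfsg.Agent.S4283
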