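import Mathlib
import Cfsg.Statements.S4293
import Cfsg.Agent.Lib.Helper22.Frob

set_option autoImplicit false
open Cfsg

namespace Cfsg.Agent.S4293

open Cfsg.Agent.Lib.Helper22

theorem fpf_of_norm_zero {H V : Type*} [Group H] [AddCommGroup V] [DistribMulAction H V] (p : ℕ)
    (hpV : ∀ v : V, p • v = 0) (h : H) (hcop : p.Coprime (orderOf h))
    (hnorm : ∀ v : V, ∑ j ∈ Finset.range (orderOf h), (h ^ j) • v = 0) (v : V) (hv : h • v = v) :
    v = 0 := by
  have h1 : ∀ j : ℕ, (h ^ j) • v = v := by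
    intro j
    induction j with
    | zero => simp
    | succ j ih => rw [pow_succ, mul_smul, hv, ih]
  have h2 := hnorm v
  rw [Finset.sum_congr rfl (fun j _ => h1 j)] at h2
  simp only [Finset.sum_const, Finset.card_range] at h2
  have h3 : addOrderOf v ∣ p := addOrderOf_dvd_of_nsmul_eq_zero (hpV v)
  have h4 : addOrderOf v ∣ orderOf h := addOrderOf_dvd_of_nsmul_eq_zero h2
  have h5 : addOrderOf v ∣ 1 := by
    have := Nat.dvd_gcd h3 h4
    rwa [hcop] at this
  exact AddMonoid.addOrderOf_eq_one_iff.1 (Nat.dvd_one.1 h5)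

/-- choice of the prime -/
theorem exists_prime {D : Type*} [DivisionRing D] (H : Subgroup Dˣ) [Finite H]
    (N : Submodule ℤ D) (hN : N.FG) (h1N : (1 : D) ∈ N) (hmul : ∀ a ∈ N, ∀ b ∈ N, a * b ∈ N) :
    ∃ p : ℕ, p.Prime ∧ (∀ h ∈ H, p.Coprime (orderOf h)) ∧ ∀ b ∈ N, b * (p : D) ≠ 1 := by
  obtain ⟨q, hq⟩ := CharP.exists D
  rcases CharP.char_is_prime_or_zero D q with hq' | hq'
  · refine ⟨q, hq', ?_, ?_⟩
    · intro h hh
      rw [Nat.Prime.coprime_iff_not_dvd hq']
      intro hd
      have := Fact.mk hq'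
      have hn : orderOf h ≠ 0 := by
        have h2 : orderOf (⟨h, hh⟩ : H) = orderOf h := by
          rw [← Subgroup.orderOf_coe]
        rw [← h2]
        exact (orderOf_pos _).ne'
      have h1 : orderOf (h ^ (orderOf h / q)) = q := orderOf_pow_orderOf_div hn hd
      generalize h ^ (orderOf h / q) = k at h1
      have h2 : k ^ q = 1 := by rw [← h1]; exact pow_orderOf_eq_one _
      have h3 : ((k : D) - 1) ^ q = 0 := by
        rw [sub_pow_char_of_commute q (Commute.one_right _), one_pow, ← Units.val_pow_eq_pow_val, h2]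
        simp
      have h4 : (k : D) - 1 = 0 := pow_eq_zero_iff (hq'.ne_zero) |>.1 h3
      have h5 : k = 1 := Units.ext (by simpa using sub_eq_zero.1 h4)
      rw [h5, orderOf_one] at h1
      exact hq'.one_lt.ne h1
    · intro b _ hb
      rw [CharP.cast_eq_zero D q, mul_zero] at hb
      exact zero_ne_one hb
  · subst hq'
    have := CharP.charP_to_charZero D
    obtain ⟨p, hp1, hp⟩ := Nat.exists_infinite_primes (Nat.card H + 1)
    refine ⟨p, hp, ?_, ?_⟩
    · intro h hh
      rw [Nat.Prime.coprime_iff_not_dvd hp]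
      intro hd
      have h1 : orderOf (⟨h, hh⟩ : H) ∣ Nat.card H := orderOf_dvd_natCard _
      have h2 : orderOf (⟨h, hh⟩ : H) = orderOf h := by
        rw [← Subgroup.orderOf_coe]
      rw [h2] at h1
      have := Nat.le_of_dvd Nat.card_pos (hd.trans h1)
      omega
    · intro b hb hbp
      have hle : N ≤ (Ideal.span {(p : ℤ)}) • N := by
        intro a ha
        have : a = (p : ℤ) • (a * b) := by
          rw [zsmul_eq_mul, Int.cast_natCast, (Nat.cast_commute p (a * b)).eq, mul_assoc, hbp, mul_one]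
        rw [this]
        exact Submodule.smul_mem_smul (Ideal.mem_span_singleton_self _) (hmul a ha b hb)
      obtain ⟨r, hr1, hr2⟩ := Submodule.exists_sub_one_mem_and_smul_eq_zero_of_fg_of_le_smul _ N hN hle
      have h3 := hr2 1 h1N
      rw [zsmul_eq_mul, mul_one] at h3
      have h4 : r = 0 := by exact_mod_cast h3
      rw [h4, Ideal.mem_span_singleton] at hr1
      have h5 : (p : ℤ) ∣ 1 := by simpa using hr1
      have h6 : p ∣ 1 := by exact_mod_cast h5
      exact hp.one_lt.ne' (Nat.dvd_one.1 h6)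

theorem main_ring {A : Type*} [Ring A] {H : Type*} [Group H] [Finite H] [Nontrivial H]
    (ι : H →* A) (p : ℕ) (hp : p ≠ 0) [Module.Finite ℤ A] (hcop : ∀ h : H, p.Coprime (orderOf h))
    (hinv : ∀ b : A, b * (p : A) ≠ 1)
    (hnorm : ∀ h : H, h ≠ 1 → ∑ j ∈ Finset.range (orderOf h), (ι h) ^ j = 0) :
    ∃ (L : Type) (_ : Group L) (_ : Finite L) (C : Subgroup L),
      Cfsg.IsFrobeniusComplement C ∧ Nonempty (H ≃* C) := by
  have hpV : ∀ v : A ⧸ (Ideal.span {(p : A)}), p • v = 0 := by
    intro v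
    obtain ⟨a, rfl⟩ := Submodule.Quotient.mk_surjective _ v
    rw [← Submodule.Quotient.mk_smul, Submodule.Quotient.mk_eq_zero, Ideal.mem_span_singleton']
    exact ⟨a, by rw [nsmul_eq_mul, (Nat.cast_commute p a).eq]⟩
  have hfin : Finite (A ⧸ (Ideal.span {(p : A)})) := by
    have : Module.Finite ℤ (A ⧸ (Ideal.span {(p : A)})) :=
      Module.Finite.of_surjective ((Ideal.span {(p : A)}).mkQ.restrictScalars ℤ)
        (Submodule.Quotient.mk_surjective _)
    apply Module.finite_of_fg_torsion
    intro v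
    refine ⟨⟨(p : ℤ), ?_⟩, ?_⟩
    · rw [mem_nonZeroDivisors_iff_ne_zero]; exact_mod_cast hp
    · have := hpV v
      simpa [Submonoid.smul_def] using this
  have hnt : Nontrivial (A ⧸ (Ideal.span {(p : A)})) := by
    apply Submodule.Quotient.nontrivial_iff.2
    intro htop
    have : (1 : A) ∈ Ideal.span {(p : A)} := by rw [htop]; trivial
    rw [Ideal.mem_span_singleton'] at this
    obtain ⟨b, hb⟩ := this
    exact hinv b hb
  refine @exists_frobenius_of_fpf_add H (A ⧸ (Ideal.span {(p : A)})) _ _ _ _ hfin hnt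
    (DistribMulAction.compHom _ ι) ?_
  intro h hh v hv
  refine @fpf_of_norm_zero H (A ⧸ (Ideal.span {(p : A)})) _ _ (DistribMulAction.compHom _ ι) p hpV
    h (hcop h) ?_ v hv
  intro w
  have : ∀ j : ℕ, (@HSMul.hSMul H _ _ (@instHSMul _ _ (DistribMulAction.compHom _ ι).toSMul) (h ^ j) w) = (ι h) ^ j • w := by
    intro j
    change ι (h ^ j) • w = _
    rw [map_pow]
  rw [Finset.sum_congr rfl (fun j _ => this j), ← Finset.sum_smul, hnorm h hh, zero_smul]

/-- A nontrivial finite subgroup of the multiplicative group of a division ring occurs as a Frobenius complement of some finite Frobenius group. -/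
theorem result {D : Type*} [DivisionRing D] (H : Subgroup Dˣ) [Finite H] (hH : H ≠ ⊥) :
    ∃ (L : Type) (_ : Group L) (_ : Finite L) (C : Subgroup L), Cfsg.IsFrobeniusComplement C ∧ Nonempty (H ≃* C) := by
  classical
  let S : Submonoid D := H.toSubmonoid.map (Units.coeHom D)
  let A : Subalgebra ℤ D := Algebra.adjoin ℤ (S : Set D)
  have hSfin : (S : Set D).Finite := by
    have : (S : Set D) = (Units.coeHom D) '' (H : Set Dˣ) := rfl
    rw [this]
    exact Set.Finite.image _ (Set.toFinite _)
  have hA : Subalgebra.toSubmodule A = Submodule.span ℤ (S : Set D) := by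
    rw [Algebra.adjoin_eq_span, Submonoid.closure_eq]
  have hFG : (Subalgebra.toSubmodule A).FG := by rw [hA]; exact Submodule.fg_span hSfin
  obtain ⟨p, hp, hcop, hinv⟩ := exists_prime H (Subalgebra.toSubmodule A) hFG A.one_mem
    (fun a ha b hb => A.mul_mem ha hb)
  let ι : H →* A :=
    { toFun := fun h => ⟨((h : Dˣ) : D), Algebra.subset_adjoin ⟨h, h.2, rfl⟩⟩
      map_one' := by ext; simp
      map_mul' := by intro a b; ext; simp }
  have hnt : Nontrivial H := (Subgroup.nontrivial_iff_ne_bot H).2 hH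
  have hfinA : Module.Finite ℤ A := Module.Finite.of_fg hFG
  refine main_ring ι p hp.ne_zero ?_ ?_ ?_
  · intro h
    rw [← Subgroup.orderOf_coe]
    exact hcop h h.2
  · intro b hb
    apply hinv b b.2
    have := congrArg (Subtype.val) hb
    simpa using this
  · intro h hh
    apply Subtype.ext
    have h1 : (((h : Dˣ) : D) - 1) ≠ 0 := by
      intro h0
      apply hh
      apply Subtype.ext
      apply Units.ext
      simpa using sub_eq_zero.1 h0
    have h2 : (∑ j ∈ Finset.range (orderOf h), ((h : Dˣ) : D) ^ j) * (((h : Dˣ) : D) - 1) = 0 := by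
      rw [geom_sum_mul, ← Units.val_pow_eq_pow_val, ← Subgroup.coe_pow, pow_orderOf_eq_one]
      simp
    have h3 := (mul_eq_zero.1 h2).resolve_right h1
    rw [ZeroMemClass.coe_zero, ← h3]
    simp [ι]

end Cfsg.Agent.S4293
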