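import Cfsg.Statements.S4295
import Cfsg.Agent.Lib.Helper21.QuatKernel2
import Cfsg.Agent.Lib.Helper21.QuatKernel3
import Cfsg.Agent.Lib.Helper22.Frob
import Cfsg.Agent.S0034

set_option autoImplicit false
open Cfsg

namespace Cfsg.Agent.S4295

/-- For a natural number m the following are equivalent: (a) some finite group has a Frobenius complement isomorphic to the quaternion group of order 8 whose Frobenius kernel (the identity together with the elements lying in no conjugate of the complement) has exactly m elements; (b) m is an odd perfect square greater than 1. -/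
theorem result (m : ℕ) :
    (∃ (L : Type) (_ : Group L) (_ : Finite L) (H : Subgroup L), Cfsg.IsFrobeniusComplement H ∧
        Nonempty (H ≃* QuaternionGroup 2) ∧ Nat.card (Cfsg.frobeniusKernel H) = m) ↔
    (Odd m ∧ IsSquare m ∧ 1 < m) := by
  constructor
  · rintro ⟨L, _, _, H, hF, ⟨e⟩, hm⟩
    obtain ⟨x', y', h1, h2, h3, h4⟩ := Cfsg.Agent.Lib.Helper21.QuatKernel.quat_elems 1
    let f : QuaternionGroup (2 * 1) →* L := H.subtype.comp e.symm.toMonoidHom
    have hf : Function.Injective f := by
      intro u v huv
      exact e.symm.injective (Subtype.ext huv)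
    have := Cfsg.Agent.Lib.Helper21.QuatKernel.frob_quat H hF (f x') (f y') (e.symm x').2
      (by rw [← map_mul, ← map_mul, h1]) (by rw [← map_mul, ← map_mul, h2, map_one])
      (by rw [← map_inv, ← map_inv, ← map_mul, ← map_mul, h3])
      (by
        rw [← map_mul]
        intro h
        exact h4 (hf (h.trans (map_one f).symm)))
    rw [hm] at this
    refine ⟨this.1, this.2, ?_⟩
    rw [← hm, (Cfsg.Agent.S0034.result H hF).1]
    exact Subgroup.one_lt_index_of_ne_top hF.2.1
  · rintro ⟨hodd, ⟨k, rfl⟩, hlt⟩
    have hk : Odd k := (Nat.odd_mul.mp hodd).1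
    have hk1 : 1 < k := by
      rcases Nat.lt_or_ge 1 k with h | h
      · exact h
      · interval_cases k <;> simp at hlt
    obtain ⟨φ, hφ⟩ := Cfsg.Agent.Lib.Helper21.QuatKernel.exists_action k hk
    have hne : NeZero k := ⟨by omega⟩
    have := Fact.mk hk1
    have hfin : Finite (Multiplicative (ZMod k × ZMod k) ⋊[φ] QuaternionGroup 2) :=
      Finite.of_equiv _ SemidirectProduct.equivProd.symm
    have hF := Cfsg.Agent.Lib.Helper22.isFrobeniusComplement_range_inr φ hφ
    refine ⟨Multiplicative (ZMod k × ZMod k) ⋊[φ] QuaternionGroup 2, inferInstance, hfin,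
      (SemidirectProduct.inr : QuaternionGroup 2 →* _).range, hF,
      ⟨(MonoidHom.ofInjective (SemidirectProduct.inr_injective (φ := φ))).symm⟩, ?_⟩
    rw [(Cfsg.Agent.S0034.result _ hF).1]
    have h1 := (SemidirectProduct.inr : QuaternionGroup 2 →*
      Multiplicative (ZMod k × ZMod k) ⋊[φ] QuaternionGroup 2).range.card_mul_index
    have h2 : Nat.card (SemidirectProduct.inr : QuaternionGroup 2 →*
        Multiplicative (ZMod k × ZMod k) ⋊[φ] QuaternionGroup 2).range
        = Nat.card (QuaternionGroup 2) :=
      (Nat.card_congr (MonoidHom.ofInjective (SemidirectProduct.inr_injective (φ := φ))).toEquiv).symm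
    have h3 : Nat.card (Multiplicative (ZMod k × ZMod k) ⋊[φ] QuaternionGroup 2)
        = (k * k) * Nat.card (QuaternionGroup 2) := by
      rw [Nat.card_congr SemidirectProduct.equivProd, Nat.card_prod]
      congr 1
      change Nat.card (ZMod k × ZMod k) = _
      rw [Nat.card_prod, Nat.card_zmod]
    rw [h2, h3, mul_comm] at h1
    exact Nat.eq_of_mul_eq_mul_right Nat.card_pos h1

end Cfsg.Agent.S4295
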