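import Cfsg.Statements.S4296
import Cfsg.Agent.Lib.Helper21.QuatKernel2
import Cfsg.Agent.S0040

set_option autoImplicit false
open Cfsg

namespace Cfsg.Agent.S4296

/-- Let H be a Frobenius complement in a finite group, and suppose some Sylow subgroup of H is not cyclic. Then the number of elements of the Frobenius kernel (the identity together with the elements lying in no conjugate of H) is an odd perfect square. -/
theorem result {L : Type*} [Group L] [Finite L] (H : Subgroup L) (hF : Cfsg.IsFrobeniusComplement H)
    (hZ : ∃ (p : ℕ) (_ : Fact p.Prime) (P : Sylow p H), ¬ IsCyclic P) :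
    Odd (Nat.card (Cfsg.frobeniusKernel H)) ∧ IsSquare (Nat.card (Cfsg.frobeniusKernel H)) := by
  obtain ⟨p, hp, P, hP⟩ := hZ
  obtain ⟨N, hN, hNn, hc⟩ := Cfsg.Agent.S0035.result H hF
  have hNne : N ≠ ⊥ := by
    intro h
    rw [h] at hc
    exact hF.2.1 (Subgroup.isComplement'_bot_left.mp hc)
  have hfpf := (Cfsg.Agent.S0039.result N H hc hNne hF.1).mp hF
  rcases Cfsg.Agent.S0040.result N H hc hNne hfpf p P with h | ⟨n, ⟨e⟩⟩
  · exact absurd h hP
  rcases n with _ | k
  · exfalso
    apply hP
    have := QuaternionGroup.quaternionGroup_one_isCyclic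
    rw [pow_zero] at e
    exact isCyclic_of_surjective e.symm e.symm.surjective
  · have e' : P ≃* QuaternionGroup (2 * 2 ^ k) := by
      rw [pow_succ, mul_comm] at e
      exact e
    obtain ⟨x', y', h1, h2, h3, h4⟩ := Cfsg.Agent.Lib.Helper21.QuatKernel.quat_elems (2 ^ k)
    let f : QuaternionGroup (2 * 2 ^ k) →* L :=
      (H.subtype.comp (P : Subgroup H).subtype).comp e'.symm.toMonoidHom
    have hf : Function.Injective f := by
      intro u v huv
      exact e'.symm.injective (Subtype.ext (Subtype.ext huv))
    refine Cfsg.Agent.Lib.Helper21.QuatKernel.frob_quat H hF (f x') (f y') ?_ ?_ ?_ ?_ ?_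
    · exact (e'.symm x' : H).2
    · rw [← map_mul, ← map_mul, h1]
    · rw [← map_mul, ← map_mul, h2, map_one]
    · rw [← map_inv, ← map_inv, ← map_mul, ← map_mul, h3]
    · rw [← map_mul]
      intro h
      exact h4 (hf (h.trans (map_one f).symm))

end Cfsg.Agent.S4296
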