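import Mathlib
import Cfsg.Statements.S4297
import Cfsg.Agent.S4293

set_option autoImplicit false
open Cfsg

namespace Cfsg.Agent.S4297

open Quaternion QuaternionGroup ComplexConjugate

/-- the quaternion unit `j` -/
noncomputable def J : ℍ[ℝ] := ⟨0, 0, 1, 0⟩

@[simp] theorem J_re : J.re = 0 := rfl
@[simp] theorem J_imI : J.imI = 0 := rfl
@[simp] theorem J_imJ : J.imJ = 1 := rfl
@[simp] theorem J_imK : J.imK = 0 := rfl

theorem coe_mul_J (z : ℂ) : (z : ℍ[ℝ]) * J = J * ((conj z : ℂ) : ℍ[ℝ]) := by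
  ext <;> simp

theorem J_mul_J : J * J = -1 := by
  ext <;> simp

theorem coe_neg' (z : ℂ) : ((-z : ℂ) : ℍ[ℝ]) = -(z : ℍ[ℝ]) := by
  ext <;> simp

theorem coe_inj {z w : ℂ} (h : (z : ℍ[ℝ]) = w) : z = w := by
  apply Complex.ext
  · simpa using congrArg QuaternionAlgebra.re h
  · simpa using congrArg QuaternionAlgebra.imI h

theorem J_mul_inj {z w : ℂ} (h : J * (z : ℍ[ℝ]) = J * w) : z = w := by
  apply coe_inj
  have : J * (J * (z : ℍ[ℝ])) = J * (J * w) := by rw [h]
  rw [← mul_assoc, ← mul_assoc, J_mul_J] at this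
  simpa using this

theorem coe_ne_J_mul {z w : ℂ} (hz : z ≠ 0) : (z : ℍ[ℝ]) ≠ J * w := by
  intro h
  apply hz
  apply Complex.ext
  · simpa using congrArg QuaternionAlgebra.re h
  · simpa using congrArg QuaternionAlgebra.imI h

variable (n : ℕ) [NeZero n]

noncomputable def e : AddChar (ZMod (2 * n)) ℂ := ZMod.stdAddChar

theorem e_n : e n (n : ZMod (2 * n)) = -1 := by
  have := ZMod.stdAddChar_coe (N := 2 * n) (n : ℤ)
  unfold e
  rw [Int.cast_natCast] at this
  rw [this]
  have hn : (n : ℂ) ≠ 0 := Nat.cast_ne_zero.2 (NeZero.ne n)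
  have : 2 * (Real.pi : ℂ) * Complex.I * ((n : ℤ) : ℂ) / ((2 * n : ℕ) : ℂ) = Real.pi * Complex.I := by
    push_cast
    field_simp
  rw [this, Complex.exp_pi_mul_I]

noncomputable def fFun : QuaternionGroup n → ℍ[ℝ]
  | a i => ((e n i : ℂ) : ℍ[ℝ])
  | xa i => J * ((e n i : ℂ) : ℍ[ℝ])

noncomputable def f : QuaternionGroup n →* ℍ[ℝ] where
  toFun := fFun n
  map_one' := by
    rw [one_def]
    simp [fFun]
  map_mul' := by
    rintro (i | i) (j | j)
    · simp [fFun, AddChar.map_add_eq_mul]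
    · simp only [fFun, a_mul_xa]
      rw [← mul_assoc, coe_mul_J, mul_assoc, ← coeComplex_mul, ← AddChar.map_neg_eq_conj,
        ← AddChar.map_add_eq_mul, neg_add_eq_sub]
    · simp only [fFun, xa_mul_a]
      rw [mul_assoc, ← coeComplex_mul, ← AddChar.map_add_eq_mul]
    · simp only [fFun, xa_mul_xa]
      rw [mul_assoc, ← mul_assoc _ J, coe_mul_J, mul_assoc, ← mul_assoc, J_mul_J, ← coeComplex_mul,
        ← AddChar.map_neg_eq_conj, ← AddChar.map_add_eq_mul, neg_add_eq_sub, add_sub_assoc,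
        AddChar.map_add_eq_mul, e_n]
      simp [coe_neg']

theorem e_ne_zero (i : ZMod (2 * n)) : e n i ≠ 0 := by
  intro h
  have := AddChar.map_add_eq_mul (e n) i (-i)
  rw [h, zero_mul, add_neg_cancel, AddChar.map_zero_eq_one] at this
  exact one_ne_zero this

theorem f_injective : Function.Injective (f n) := by
  rintro (i | i) (j | j) h
  · exact congrArg a (ZMod.injective_stdAddChar (coe_inj h))
  · exact absurd h (coe_ne_J_mul (e_ne_zero n i))
  · exact absurd h.symm (coe_ne_J_mul (e_ne_zero n j))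
  · exact congrArg xa (ZMod.injective_stdAddChar (J_mul_inj h))

/-- For every n ≥ 2 the dicyclic group of order 4n (generated by an element a of order 2n and an element x with x² = aⁿ and x a x⁻¹ = a⁻¹) occurs as a Frobenius complement of some finite Frobenius group. -/
theorem result (n : ℕ) (hn : 2 ≤ n) :
    ∃ (L : Type) (_ : Group L) (_ : Finite L) (H : Subgroup L), Cfsg.IsFrobeniusComplement H ∧ Nonempty (H ≃* QuaternionGroup n) := by
  have : NeZero n := ⟨by omega⟩
  have hinj : Function.Injective (f n).toHomUnits := by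
    intro x y hxy
    apply f_injective n
    have := congrArg Units.val hxy
    simpa using this
  have hfin : Finite (f n).toHomUnits.range := Finite.of_equiv _ (MonoidHom.ofInjective hinj).toEquiv
  have hne : (f n).toHomUnits.range ≠ ⊥ := by
    rw [← Subgroup.nontrivial_iff_ne_bot]
    exact (MonoidHom.ofInjective hinj).toEquiv.symm.nontrivial
  obtain ⟨L, i1, i2, H, hH, ⟨e⟩⟩ := Cfsg.Agent.S4293.result (f n).toHomUnits.range hne
  exact ⟨L, i1, i2, H, hH, ⟨((MonoidHom.ofInjective hinj).trans e).symm⟩⟩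

end Cfsg.Agent.S4297
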