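import Mathlib
import Cfsg.Statements.S4298
import Cfsg.Agent.Lib.Helper22.Frob

set_option autoImplicit false
open Cfsg

namespace Cfsg.Agent.S4298

open Matrix Cfsg.Agent.Lib.Helper22

/-- lift of `{0, 1, -1}` from `𝔽₃` to `𝔽₅` -/
def lift35 : ZMod 3 → ZMod 5
  | 0 => 0
  | 1 => 1
  | 2 => 4

/-- `SL(2,3)` is the group of Hurwitz units mod 3; this map is "lift to the Hurwitz units and reduce
mod 5". -/
def gM (M : Matrix (Fin 2) (Fin 2) (ZMod 3)) : Matrix (Fin 2) (Fin 2) (ZMod 5) :=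
  let a := -(M 0 0 + M 1 1)
  let b := -(M 1 0 - M 0 1)
  let c := (M 0 0 - M 1 1) + (M 0 1 + M 1 0)
  let d := (M 0 1 + M 1 0) - (M 0 0 - M 1 1)
  let l : ZMod 5 := if a ≠ 0 ∧ b ≠ 0 ∧ c ≠ 0 ∧ d ≠ 0 then 2 else 1
  let a' := lift35 a
  let b' := lift35 b
  let c' := lift35 c
  let d' := lift35 d
  !![l * (a' + 2 * b'), l * (c' + 2 * d'); l * (-c' + 2 * d'), l * (a' - 2 * b')]

set_option maxRecDepth 100000 in
theorem gM_mul : ∀ x y : SpecialLinearGroup (Fin 2) (ZMod 3), gM (x * y).1 = gM x.1 * gM y.1 := by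
  decide +kernel

theorem gM_one : gM (1 : SpecialLinearGroup (Fin 2) (ZMod 3)).1 = 1 := by
  decide +kernel

set_option maxRecDepth 100000 in
theorem gM_fpf : ∀ x : SpecialLinearGroup (Fin 2) (ZMod 3), x ≠ 1 → ∀ v : Fin 2 → ZMod 5,
    (gM x.1).mulVec v = v → v = 0 := by
  decide +kernel

/-- the action of `SL(2,3)` on `𝔽₅²` -/
@[instance_reducible] def act : DistribMulAction (SpecialLinearGroup (Fin 2) (ZMod 3)) (Fin 2 → ZMod 5) where
  smul x v := (gM x.1).mulVec v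
  one_smul v := by
    change (gM (1 : SpecialLinearGroup (Fin 2) (ZMod 3)).1).mulVec v = v
    rw [gM_one, Matrix.one_mulVec]
  mul_smul x y v := by
    change (gM (x * y).1).mulVec v = (gM x.1).mulVec ((gM y.1).mulVec v)
    rw [gM_mul, Matrix.mulVec_mulVec]
  smul_zero x := Matrix.mulVec_zero _
  smul_add x v w := Matrix.mulVec_add _ _ _

/-- The group SL(2,3) of order 24 (the binary tetrahedral group) occurs as a Frobenius complement of some finite Frobenius group. -/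
theorem result :
    ∃ (L : Type) (_ : Group L) (_ : Finite L) (H : Subgroup L), Cfsg.IsFrobeniusComplement H ∧ Nonempty (H ≃* Matrix.SpecialLinearGroup (Fin 2) (ZMod 3)) := by
  have hnt : Nontrivial (SpecialLinearGroup (Fin 2) (ZMod 3)) := ⟨1, -1, by decide +kernel⟩
  have hnt' : Nontrivial (Fin 2 → ZMod 5) := ⟨0, 1, by decide⟩
  obtain ⟨L, i1, i2, H, hH, ⟨e⟩⟩ := @exists_frobenius_of_fpf_add
    (SpecialLinearGroup (Fin 2) (ZMod 3)) (Fin 2 → ZMod 5) _ _ hnt _ _ hnt' act gM_fpf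
  exact ⟨L, i1, i2, H, hH, ⟨e.symm⟩⟩

end Cfsg.Agent.S4298
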