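import Cfsg.Statements.S4300

set_option autoImplicit false
open Cfsg

namespace Cfsg.Agent.S4300

/-- Let G act faithfully and primitively on a set X, and suppose the stabilizer of some point is a simple group. Then either G is simple, or G has a normal subgroup, neither trivial nor the whole group, that acts regularly on X (transitively with trivial point stabilizers). -/
theorem result {G : Type*} [Group G] {X : Type*} [MulAction G X] [FaithfulSMul G X]
    (hprim : MulAction.IsPreprimitive G X) (x : X) (hsimple : IsSimpleGroup (MulAction.stabilizer G x)) :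
    IsSimpleGroup G ∨ ∃ N : Subgroup G, N.Normal ∧ N ≠ ⊥ ∧ N ≠ ⊤ ∧
      MulAction.IsPretransitive N X ∧ ∀ y : X, MulAction.stabilizer N y = ⊥ := by
  classical
  by_cases hex : ∃ N : Subgroup G, N.Normal ∧ N ≠ ⊥ ∧ N ≠ ⊤
  · right
    obtain ⟨N, hN, hbot, htop⟩ := hex
    have hq : MulAction.IsQuasiPreprimitive G X := inferInstance
    have hfp : MulAction.fixedPoints N X ≠ Set.univ := by
      intro h
      apply hbot
      rw [eq_bot_iff]
      intro n hn
      rw [Subgroup.mem_bot]
      apply FaithfulSMul.eq_of_smul_eq_smul (α := X)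
      intro y
      have : y ∈ MulAction.fixedPoints N X := by rw [h]; trivial
      rw [one_smul]
      exact this ⟨n, hn⟩
    have htr : MulAction.IsPretransitive N X := hq.isPretransitive_of_normal hfp
    have hx : (N.subgroupOf (MulAction.stabilizer G x)) = ⊥ := by
      have hn : (N.subgroupOf (MulAction.stabilizer G x)).Normal := inferInstance
      rcases hn.eq_bot_or_eq_top with h | h
      · exact h
      · exfalso
        apply htop
        rw [Subgroup.subgroupOf_eq_top] at h
        rw [eq_top_iff]
        intro g _
        obtain ⟨n, hn⟩ := htr.exists_smul_eq x (g • x)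
        have h1 : (n : G)⁻¹ * g ∈ MulAction.stabilizer G x := by
          rw [MulAction.mem_stabilizer_iff, mul_smul, inv_smul_eq_iff]
          exact hn.symm
        have h2 := N.mul_mem n.2 (h h1)
        simpa using h2
    refine ⟨N, hN, hbot, htop, htr, fun y => ?_⟩
    rw [eq_bot_iff]
    intro n hn
    rw [MulAction.mem_stabilizer_iff] at hn
    obtain ⟨k, hk⟩ := htr.exists_smul_eq x y
    -- k⁻¹ n k fixes x
    have h1 : (k⁻¹ * n * k : N) • x = x := by
      rw [mul_smul, mul_smul, hk, hn, ← hk, inv_smul_smul]
    have h2 : ((k⁻¹ * n * k : N) : G) ∈ MulAction.stabilizer G x := h1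
    have h3 : (⟨_, h2⟩ : MulAction.stabilizer G x) ∈ N.subgroupOf (MulAction.stabilizer G x) := by
      rw [Subgroup.mem_subgroupOf]
      exact (k⁻¹ * n * k : N).2
    rw [hx, Subgroup.mem_bot] at h3
    have h4 : (k⁻¹ * n * k : N) = 1 := by
      apply Subtype.ext
      exact congrArg (fun z : MulAction.stabilizer G x => (z : G)) h3
    rw [Subgroup.mem_bot]
    have : n = k * (k⁻¹ * n * k) * k⁻¹ := by group
    rw [this, h4]; group
  · left
    push Not at hex
    have hnt : Nontrivial G := by
      have := hsimple.toNontrivial
      obtain ⟨a, b, hab⟩ := this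
      exact ⟨a, b, fun h => hab (Subtype.ext h)⟩
    refine ⟨fun N hN => ?_⟩
    by_cases h : N = ⊥
    · exact Or.inl h
    · exact Or.inr (hex N hN h)

end Cfsg.Agent.S4300
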