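import Cfsg.Statements.S4301

set_option autoImplicit false
open Cfsg

namespace Cfsg.Agent.S4301

theorem two_trans {X : Type*} (G : Subgroup (Equiv.Perm (Option X)))
    (k : ℕ) (hk : 2 ≤ k) (hkX : Nonempty (Fin k ↪ X))
    (htrans : ∀ a b : Fin k ↪ X, ∃ f ∈ G, ∀ i, f (some (a i)) = some (b i))
    (a0 a1 b0 b1 : X) (ha : a0 ≠ a1) (hb : b0 ≠ b1) :
    ∃ f ∈ G, f (some a0) = some b0 ∧ f (some a1) = some b1 := by
  have hcard : (k : ℕ∞) ≤ ENat.card X := by
    obtain ⟨e⟩ := hkX
    have h1 := ENat.card_le_card_of_injective e.injective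
    simpa using h1
  have hs := Fin.Embedding.restrictSurjective_of_le_ENatCard hk hcard
  have hinj : ∀ (u v : X), u ≠ v → Function.Injective (![u, v] : Fin 2 → X) := by
    intro u v huv i j hij
    fin_cases i <;> fin_cases j <;> simp_all
  obtain ⟨A, hA⟩ := hs ⟨![a0, a1], hinj a0 a1 ha⟩
  obtain ⟨B, hB⟩ := hs ⟨![b0, b1], hinj b0 b1 hb⟩
  obtain ⟨f, hf, hfi⟩ := htrans A B
  refine ⟨f, hf, ?_, ?_⟩
  · have e1 := DFunLike.congr_fun hA (0 : Fin 2)
    have e2 := DFunLike.congr_fun hB (0 : Fin 2)
    simp only [Function.Embedding.trans_apply, Function.Embedding.coeFn_mk,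
      Matrix.cons_val_zero] at e1 e2
    rw [← e1, ← e2]
    exact hfi _
  · have e1 := DFunLike.congr_fun hA (1 : Fin 2)
    have e2 := DFunLike.congr_fun hB (1 : Fin 2)
    simp only [Function.Embedding.trans_apply, Function.Embedding.coeFn_mk,
      Matrix.cons_val_one, Matrix.cons_val_zero] at e1 e2
    rw [← e1, ← e2]
    exact hfi _

/-- One-point extension of a multiply transitive group. Let X be a set and G a group of permutations of Option X (the set X with one extra point ∗ = none) all of whose elements fix ∗, such that G is k-transitive on the points of X for some k ≥ 2, X having at least k points. Suppose a permutation h of Option X and an element g of G satisfy: h interchanges ∗ with a point x of X and fixes a point y of X; g interchanges x and y; (g h)³ and h² lie in G; and for every f in G fixing x, the product h f h lies in G and fixes x. Then an element of the group generated by G and h fixes ∗ exactly when it lies in G, and that group acts (k+1)-transitively on Option X.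 -/
theorem result {X : Type*} (G : Subgroup (Equiv.Perm (Option X))) (hfix : ∀ f ∈ G, f none = none)
    (k : ℕ) (hk : 2 ≤ k) (hkX : Nonempty (Fin k ↪ X))
    (htrans : ∀ a b : Fin k ↪ X, ∃ f ∈ G, ∀ i, f (some (a i)) = some (b i))
    (h g : Equiv.Perm (Option X)) (hg : g ∈ G) (x y : X)
    (h1 : h none = some x) (h2 : h (some x) = none) (h3 : h (some y) = some y)
    (h4 : g (some x) = some y) (h5 : g (some y) = some x)
    (h6 : (g * h) ^ 3 ∈ G) (h7 : h ^ 2 ∈ G)
    (h8 : ∀ f ∈ G, f (some x) = some x → h * f * h ∈ G ∧ (h * f * h) (some x) = some x) :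
    (∀ f ∈ Subgroup.closure ((G : Set (Equiv.Perm (Option X))) ∪ {h}), f none = none ↔ f ∈ G) ∧
      MulAction.IsMultiplyPretransitive (Subgroup.closure ((G : Set (Equiv.Perm (Option X))) ∪ {h})) (Option X) (k + 1) := by
  classical
  have hxy : x ≠ y := by
    rintro rfl
    rw [h2] at h3; exact absurd h3 (by simp)
  have h2t := two_trans G k hk hkX htrans
  have hsome : ∀ f ∈ G, ∀ z : X, ∃ w, f (some z) = some w := by
    intro f hf z
    have h9 : f (some z) ≠ none := by
      intro h0
      have h10 := hfix f hf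
      rw [← h10] at h0
      exact absurd (f.injective h0) (by simp)
    exact Option.ne_none_iff_exists'.1 h9
  have hdc : ∀ f ∈ G, f (some x) ≠ some x → ∃ f1 ∈ G, ∃ f2 ∈ G,
      f1 (some x) = some x ∧ f2 (some x) = some x ∧ f = f1 * g * f2 := by
    intro f hf hfx
    obtain ⟨w, hw⟩ := hsome f⁻¹ (G.inv_mem hf) x
    have e5 : f (some w) = some x := by
      rw [Equiv.Perm.inv_eq_iff_eq] at hw; exact hw.symm
    have hwx : x ≠ w := by
      rintro rfl
      exact hfx e5
    obtain ⟨f2, hf2, e1, e2⟩ := h2t x w x y hwx hxy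
    refine ⟨f * f2⁻¹ * g⁻¹, G.mul_mem (G.mul_mem hf (G.inv_mem hf2)) (G.inv_mem hg), f2, hf2,
      ?_, e1, by group⟩
    have e3 : g⁻¹ (some x) = some y := by rw [Equiv.Perm.inv_eq_iff_eq]; exact h5.symm
    have e4 : f2⁻¹ (some y) = some w := by rw [Equiv.Perm.inv_eq_iff_eq]; exact e2.symm
    simp only [Equiv.Perm.mul_apply, e3, e4, e5]
  have hkey : ∀ f ∈ G, h * f * h ∈ G ∨ ∃ a ∈ G, ∃ b ∈ G, h * f * h = a * h * b := by
    intro f hf
    by_cases hfx : f (some x) = some x
    · exact Or.inl (h8 f hf hfx).1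
    · obtain ⟨f1, hf1, f2, hf2, e1, e2, rfl⟩ := hdc f hf hfx
      right
      refine ⟨(h * f1 * h) * (h ^ 2)⁻¹ * g⁻¹ * (g * h) ^ 3 * (h ^ 2)⁻¹, ?_,
        g⁻¹ * (h ^ 2)⁻¹ * (h * f2 * h), ?_, by
          rw [show (g * h) ^ 3 = g * h * (g * h) * (g * h) by rw [pow_succ, pow_two]]; group⟩
      · exact G.mul_mem (G.mul_mem (G.mul_mem (G.mul_mem (h8 f1 hf1 e1).1 (G.inv_mem h7))
          (G.inv_mem hg)) h6) (G.inv_mem h7)
      · exact G.mul_mem (G.mul_mem (G.inv_mem hg) (G.inv_mem h7)) (h8 f2 hf2 e2).1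
  have hP : ∀ f ∈ Subgroup.closure ((G : Set (Equiv.Perm (Option X))) ∪ {h}),
      f ∈ G ∨ ∃ a ∈ G, ∃ b ∈ G, f = a * h * b := by
    intro f hf
    induction hf using Subgroup.closure_induction with
    | mem t ht =>
      rcases ht with ht | ht
      · exact Or.inl ht
      · right
        rw [Set.mem_singleton_iff] at ht
        subst ht
        exact ⟨1, G.one_mem, 1, G.one_mem, by simp⟩
    | one => exact Or.inl G.one_mem
    | mul s t _ _ hs ht =>
      rcases hs with hs | ⟨a, ha, b, hb, rfl⟩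
      · rcases ht with ht | ⟨a', ha', b', hb', rfl⟩
        · exact Or.inl (G.mul_mem hs ht)
        · exact Or.inr ⟨s * a', G.mul_mem hs ha', b', hb', by group⟩
      · rcases ht with ht | ⟨a', ha', b', hb', rfl⟩
        · exact Or.inr ⟨a, ha, b * t, G.mul_mem hb ht, by group⟩
        · have h10 : a * h * b * (a' * h * b') = a * (h * (b * a') * h) * b' := by group
          rcases hkey (b * a') (G.mul_mem hb ha') with h9 | ⟨c, hc, d, hd, h9⟩
          · left
            rw [h10]; exact G.mul_mem (G.mul_mem ha h9) hb'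
          · right
            refine ⟨a * c, G.mul_mem ha hc, d * b', G.mul_mem hd hb', ?_⟩
            rw [h10, h9]; group
    | inv s _ hs =>
      rcases hs with hs | ⟨a, ha, b, hb, rfl⟩
      · exact Or.inl (G.inv_mem hs)
      · exact Or.inr ⟨b⁻¹, G.inv_mem hb, (h ^ 2)⁻¹ * a⁻¹,
          G.mul_mem (G.inv_mem h7) (G.inv_mem ha), by group⟩
  refine ⟨?_, ?_⟩
  · intro f hf
    refine ⟨fun h0 => ?_, fun hfG => hfix f hfG⟩
    rcases hP f hf with h9 | ⟨a, ha, b, hb, rfl⟩
    · exact h9
    · exfalso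
      simp only [Equiv.Perm.mul_apply, hfix b hb, h1] at h0
      obtain ⟨w, hw⟩ := hsome a ha x
      rw [hw] at h0; exact absurd h0 (by simp)
  · rw [MulAction.isMultiplyPretransitive_iff]
    obtain ⟨H, hH⟩ : ∃ H, H = Subgroup.closure ((G : Set (Equiv.Perm (Option X))) ∪ {h}) :=
      ⟨_, rfl⟩
    rw [← hH]
    have hGH : G ≤ H := by
      intro t ht
      rw [hH]; exact Subgroup.subset_closure (Or.inl ht)
    have hhH : h ∈ H := by
      rw [hH]; exact Subgroup.subset_closure (Or.inr rfl)
    have hnorm : ∀ a : Fin (k + 1) ↪ Option X, ∃ f ∈ H, ∃ a' : Fin k ↪ X,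
        f (a 0) = none ∧ ∀ i : Fin k, f (a i.succ) = some (a' i) := by
      intro a
      have h0 : ∃ f ∈ H, f (a 0) = none := by
        rcases hz : a 0 with _ | z
        · exact ⟨1, H.one_mem, rfl⟩
        · by_cases hzx : z = x
          · subst hzx; exact ⟨h, hhH, h2⟩
          · obtain ⟨t, ht, e1, -⟩ := h2t z x x y hzx hxy
            exact ⟨h * t, H.mul_mem hhH (hGH ht), by simp [Equiv.Perm.mul_apply, e1, h2]⟩
      obtain ⟨f, hf, hf0⟩ := h0
      have h1' : ∀ i : Fin k, ∃ z, f (a i.succ) = some z := by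
        intro i
        apply Option.ne_none_iff_exists'.1
        intro h9
        rw [← hf0] at h9
        have h10 := a.injective (f.injective h9)
        exact absurd h10 (Fin.succ_ne_zero i)
      choose a' ha' using h1'
      refine ⟨f, hf, ⟨a', ?_⟩, hf0, ha'⟩
      intro i j hij
      have h10 : f (a i.succ) = f (a j.succ) := by rw [ha', ha', hij]
      exact Fin.succ_injective _ (a.injective (f.injective h10))
    intro a b
    obtain ⟨fa, hfa, a', ha0, ha'⟩ := hnorm a
    obtain ⟨fb, hfb, b', hb0, hb'⟩ := hnorm b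
    obtain ⟨t, ht, htt⟩ := htrans a' b'
    refine ⟨⟨fb⁻¹ * t * fa, H.mul_mem (H.mul_mem (H.inv_mem hfb) (hGH ht)) hfa⟩, ?_⟩
    apply Function.Embedding.ext
    intro i
    rw [Function.Embedding.smul_apply, Subgroup.mk_smul, Equiv.Perm.smul_def]
    refine Fin.cases ?_ (fun j => ?_) i
    · simp only [Equiv.Perm.mul_apply, ha0, hfix t ht]
      rw [Equiv.Perm.inv_eq_iff_eq]; exact hb0.symm
    · simp only [Equiv.Perm.mul_apply, ha', htt]
      rw [Equiv.Perm.inv_eq_iff_eq]; exact (hb' j).symm

end Cfsg.Agent.S4301
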