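import Cfsg.Statements.S4303
import Cfsg.Agent.S0025
import Cfsg.Agent.Lib.Helper23.SylowCount

set_option autoImplicit false
universe u
open Cfsg

namespace Cfsg.Agent.S4303

open Subgroup

/-- products of admissible factors -/
def Good (p : ℕ) (n : ℕ) : Prop :=
  ∃ l : List ℕ, l.prod = n ∧
      ∀ m ∈ l, (IsPrimePow m ∧ m % p = 1) ∨
        ∃ (S : Type u) (_ : Group S) (_ : Finite S), IsSimpleGroup S ∧ m = Nat.card (Sylow p S)

theorem good_one (p : ℕ) : Good.{u} p 1 := ⟨[], rfl, by simp⟩

theorem good_mul {p a b : ℕ} (ha : Good.{u} p a) (hb : Good.{u} p b) : Good.{u} p (a * b) := by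
  obtain ⟨l, hl, hl2⟩ := ha
  obtain ⟨l', hl', hl2'⟩ := hb
  refine ⟨l ++ l', by rw [List.prod_append, hl, hl'], ?_⟩
  intro m hm
  rcases List.mem_append.1 hm with h | h
  · exact hl2 m h
  · exact hl2' m h

theorem good_prod {p : ℕ} {ι : Type*} (s : Finset ι) (f : ι → ℕ) (h : ∀ i ∈ s, Good.{u} p (f i)) :
    Good.{u} p (∏ i ∈ s, f i) := by
  classical
  induction s using Finset.induction_on with
  | empty => simpa using good_one p
  | insert a s ha ih =>
    rw [Finset.prod_insert ha]
    exact good_mul (h a (Finset.mem_insert_self a s))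
      (ih (fun i hi => h i (Finset.mem_insert_of_mem hi)))

theorem good_primePow {p m : ℕ} (h1 : IsPrimePow m) (h2 : m % p = 1) : Good.{u} p m :=
  ⟨[m], by simp, by simpa using Or.inl ⟨h1, h2⟩⟩

theorem card_modEq_centralizer {G : Type*} [Group G] [Finite G] {p : ℕ} [Fact p.Prime]
    {P Q : Subgroup G} (hP : IsPGroup p P) (hPQ : P ≤ normalizer (Q : Set G)) :
    Nat.card Q ≡ Nat.card (Q ⊓ centralizer (P : Set G) : Subgroup G) [MOD p] := by
  let act : MulAction P Q :=
    { smul := fun u x => ⟨u * x * u⁻¹, (mem_normalizer_iff.1 (hPQ u.2) x).1 x.2⟩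
      one_smul := fun x => Subtype.ext (by show ((1 : P) : G) * x * ((1 : P) : G)⁻¹ = x; simp)
      mul_smul := fun u v x => Subtype.ext (by
        show ((u * v : P) : G) * x * ((u * v : P) : G)⁻¹ = u * (v * x * (v : G)⁻¹) * (u : G)⁻¹
        rw [Subgroup.coe_mul]; group) }
  have h1 := hP.card_modEq_card_fixedPoints Q
  have h2 : Nat.card (MulAction.fixedPoints P Q) =
      Nat.card (Q ⊓ centralizer (P : Set G) : Subgroup G) := by
    apply Nat.card_congr
    refine ⟨fun x => ⟨x.1.1, mem_inf.2 ⟨x.1.2, ?_⟩⟩, fun y => ⟨⟨y.1, (mem_inf.1 y.2).1⟩, ?_⟩,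
      fun x => rfl, fun y => rfl⟩
    · rw [mem_centralizer_iff]
      intro u hu
      have h3 := congrArg Subtype.val (x.2 ⟨u, hu⟩)
      have h4 : u * (x.1 : G) * u⁻¹ = x.1 := h3
      calc u * (x.1 : G) = u * (x.1 : G) * u⁻¹ * u := by group
        _ = x.1 * u := by rw [h4]
    · intro u
      apply Subtype.ext
      show (u : G) * y.1 * (u : G)⁻¹ = y.1
      have h3 := (mem_centralizer_iff.1 (mem_inf.1 y.2).2) u u.2
      rw [h3]; group
  rwa [h2] at h1

theorem good_of_complement {G : Type u} [Group G] [Finite G] (p : ℕ) [Fact p.Prime]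
    (P : Sylow p G) (K : Subgroup G) [hKn : K.Normal] (hsup : (P : Subgroup G) ⊔ K = ⊤)
    (hpK : ¬ p ∣ Nat.card K) : Good.{u} p (Nat.card (Sylow p G)) := by
  have hp : p.Prime := Fact.out
  obtain ⟨C, hC⟩ : ∃ C : Subgroup G, C = K ⊓ centralizer ((P : Subgroup G) : Set G) := ⟨_, rfl⟩
  have hCK : C ≤ K := hC ▸ inf_le_left
  have hcop : (Nat.card (P : Subgroup G)).Coprime (Nat.card K) := by
    obtain ⟨k, hk⟩ := P.2.exists_card_eq
    rw [hk]
    exact Nat.Coprime.pow_left k ((Nat.Prime.coprime_iff_not_dvd hp).2 hpK)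
  have hinf : (P : Subgroup G) ⊓ K = ⊥ := (disjoint_of_coprime_natCard hcop).eq_bot
  have h1 : normalizer ((P : Subgroup G) : Set G) ⊓ K = C := by
    rw [hC]
    apply le_antisymm
    · intro x hx
      obtain ⟨hxN, hxK⟩ := mem_inf.1 hx
      refine mem_inf.2 ⟨hxK, ?_⟩
      rw [mem_centralizer_iff]
      intro u hu
      have h2 : x * u * x⁻¹ * u⁻¹ ∈ (P : Subgroup G) ⊓ K := by
        refine mem_inf.2 ⟨mul_mem ((mem_normalizer_iff.1 hxN u).1 hu) (inv_mem hu), ?_⟩
        have h3 : x * u * x⁻¹ * u⁻¹ = x * (u * x⁻¹ * u⁻¹) := by group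
        rw [h3]
        exact mul_mem hxK (hKn.conj_mem _ (inv_mem hxK) u)
      rw [hinf, mem_bot] at h2
      calc u * x = (x * u * x⁻¹ * u⁻¹)⁻¹ * (x * u) := by group
        _ = x * u := by rw [h2]; simp
    · intro x hx
      obtain ⟨hxK, hxC⟩ := mem_inf.1 hx
      exact mem_inf.2 ⟨centralizer_le_normalizer _ hxC, hxK⟩
  have h2 : Nat.card (Sylow p G) = C.relIndex K := by
    rw [Sylow.card_eq_index_normalizer P, ← relIndex_top_right]
    have h3 : normalizer ((P : Subgroup G) : Set G) ⊔ K = ⊤ := by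
      rw [eq_top_iff, ← hsup]
      exact sup_le_sup_right le_normalizer K
    rw [← h3]
    have h4 := Cfsg.Agent.Lib.Helper23.relIndex_sup_of_normal
      (normalizer ((P : Subgroup G) : Set G)) K
    rw [← inf_relIndex_right (normalizer ((P : Subgroup G) : Set G)) K, h1] at h4
    exact h4
  obtain ⟨n, hn⟩ : ∃ n, n = C.relIndex K := ⟨_, rfl⟩
  have hnK : n * Nat.card C = Nat.card K := by
    have h5 := relIndex_mul_relIndex ⊥ C K bot_le hCK
    rw [relIndex_bot_left, relIndex_bot_left] at h5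
    rw [hn, mul_comm]; exact h5
  have hn0 : n ≠ 0 := by
    rintro rfl
    rw [zero_mul] at hnK
    exact Nat.card_pos.ne hnK
  rw [h2, ← hn, ← Nat.prod_factorization_pow_eq_self hn0, Finsupp.prod]
  apply good_prod
  intro q hq
  rw [Nat.support_factorization] at hq
  have hqp : q.Prime := Nat.prime_of_mem_primeFactors hq
  have hqn : q ∣ n := Nat.dvd_of_mem_primeFactors hq
  have := Fact.mk hqp
  have hqne : q ≠ p := by
    rintro rfl
    exact hpK (hqn.trans (Dvd.intro _ hnK))
  have hv : n.factorization q ≠ 0 := by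
    rw [← Nat.pos_iff_ne_zero]
    exact hqp.factorization_pos_of_dvd hn0 hqn
  apply good_primePow (IsPrimePow.pow hqp.isPrimePow hv)
  -- the Sylow subgroups
  let S : Sylow q C := default
  obtain ⟨U, hU⟩ : ∃ U : Subgroup G, U = (S : Subgroup C).map C.subtype := ⟨_, rfl⟩
  have hUC : U ≤ C := hU ▸ map_subtype_le _
  have hUq : IsPGroup q U := hU ▸ S.2.map _
  have hUcard : Nat.card U = q ^ (Nat.card C).factorization q := by
    rw [hU, card_map_of_injective C.subtype_injective, Sylow.card_eq_multiplicity]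
  have hPK : (P : Subgroup G) ≤ normalizer (K : Set G) := by
    rw [normalizer_eq_top_iff.2 hKn]; exact le_top
  have hUA : (P : Subgroup G) ≤ normalizer (U : Set G) := by
    have h5 : U ≤ centralizer ((P : Subgroup G) : Set G) := hUC.trans (hC ▸ inf_le_right)
    have h6 : (P : Subgroup G) ≤ centralizer (U : Set G) := le_centralizer_iff.1 h5
    exact h6.trans (centralizer_le_normalizer _)
  obtain ⟨Q, hUQ, hPQ⟩ := Cfsg.Agent.S0025.result (P : Subgroup G) K hPK hcop
    (Or.inl (by have := P.2.isNilpotent; infer_instance)) q U (hUC.trans hCK) hUq hUA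
  obtain ⟨Q', hQ'⟩ : ∃ Q' : Subgroup G, Q' = (Q : Subgroup K).map K.subtype := ⟨_, rfl⟩
  rw [← hQ'] at hUQ hPQ
  have hQ'K : Q' ≤ K := hQ' ▸ map_subtype_le _
  have hQ'q : IsPGroup q Q' := hQ' ▸ Q.2.map _
  have hQ'card : Nat.card Q' = q ^ (Nat.card K).factorization q := by
    rw [hQ', card_map_of_injective K.subtype_injective, Sylow.card_eq_multiplicity]
  obtain ⟨D, hD⟩ : ∃ D : Subgroup G, D = Q' ⊓ centralizer ((P : Subgroup G) : Set G) := ⟨_, rfl⟩
  have hDC : D ≤ C := by
    rw [hD, hC]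
    exact inf_le_inf_right _ hQ'K
  have hUD : U ≤ D := by
    rw [hD]
    exact le_inf hUQ (hUC.trans (hC ▸ inf_le_right))
  have hDcard : Nat.card D = q ^ (Nat.card C).factorization q := by
    obtain ⟨j, hj⟩ := (hQ'q.to_le (hD ▸ inf_le_left : D ≤ Q')).exists_card_eq
    have h7 : j ≤ (Nat.card C).factorization q := by
      rw [← hqp.pow_dvd_iff_le_factorization Nat.card_pos.ne', ← hj]
      exact card_dvd_of_le hDC
    have h8 : (Nat.card C).factorization q ≤ j := by
      have := card_dvd_of_le hUD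
      rw [hUcard, hj] at this
      exact (Nat.pow_dvd_pow_iff_le_right hqp.one_lt).1 this
    rw [hj, le_antisymm h7 h8]
  have hmod := card_modEq_centralizer P.2 hPQ
  rw [← hD, hQ'card, hDcard, ← hnK, Nat.factorization_mul hn0 Nat.card_pos.ne', Finsupp.add_apply,
    pow_add] at hmod
  have hmod2 : q ^ n.factorization q * q ^ (Nat.card C).factorization q ≡
      1 * q ^ (Nat.card C).factorization q [MOD p] := by rwa [one_mul]
  have hcop2 : (Nat.gcd p (q ^ (Nat.card C).factorization q)) = 1 :=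
    Nat.Coprime.pow_right _ ((Nat.coprime_primes hp hqp).2 hqne.symm)
  have hmod3 := Nat.ModEq.cancel_right_of_coprime hcop2 hmod2
  have : q ^ n.factorization q % p = 1 % p := hmod3
  rwa [Nat.mod_eq_of_lt hp.one_lt] at this

theorem card_lt_of_ne_top {G : Type*} [Group G] [Finite G] (K : Subgroup G) (h : K ≠ ⊤) :
    Nat.card K < Nat.card G := by
  have h1 := K.card_mul_index
  have h2 : K.index ≠ 1 := fun h3 => h (index_eq_one.1 h3)
  have h3 : K.index ≠ 0 := K.index_ne_zero_of_finite
  have h4 : 0 < Nat.card K := Nat.card_pos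
  have h5 : 2 ≤ K.index := by omega
  nlinarith

theorem card_quotient_lt {G : Type*} [Group G] [Finite G] (K : Subgroup G) (h : K ≠ ⊥) :
    Nat.card (G ⧸ K) < Nat.card G := by
  have h1 := K.card_mul_index
  have h2 : Nat.card K ≠ 1 := fun h3 => h ((Subgroup.card_eq_one).1 h3)
  have h3 : 0 < K.index := Nat.pos_of_ne_zero K.index_ne_zero_of_finite
  have h4 : 0 < Nat.card K := Nat.card_pos
  have h5 : 2 ≤ Nat.card K := by omega
  show K.index < Nat.card G
  nlinarith

theorem main (p : ℕ) [Fact p.Prime] : ∀ n : ℕ, ∀ (G : Type u) [Group G] [Finite G],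
    Nat.card G = n → Good.{u} p (Nat.card (Sylow p G)) := by
  intro n
  induction n using Nat.strong_induction_on with
  | _ n IH =>
  intro G _ _ hG
  by_cases hsimple : IsSimpleGroup G
  · exact ⟨[Nat.card (Sylow p G)], by simp, by
      intro m hm
      rw [List.mem_singleton] at hm
      exact Or.inr ⟨G, inferInstance, inferInstance, hsimple, hm⟩⟩
  let P : Sylow p G := default
  by_cases hsub : Subsingleton G
  · have h1 : Nat.card (Sylow p G) = 1 := by
      rw [Sylow.card_eq_index_normalizer P, index_eq_one]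
      exact Subsingleton.elim _ _
    rw [h1]
    exact good_one p
  have hex : ∃ K : Subgroup G, K.Normal ∧ K ≠ ⊥ ∧ K ≠ ⊤ := by
    by_contra hcon
    push Not at hcon
    apply hsimple
    have : Nontrivial G := not_subsingleton_iff_nontrivial.1 hsub
    exact ⟨fun K hK => by
      by_cases h : K = ⊥
      · exact Or.inl h
      · exact Or.inr (hcon K hK h)⟩
  obtain ⟨K, hKn, hKbot, hKtop⟩ := hex
  have hquot : Good.{u} p (Nat.card (Sylow p (G ⧸ K))) :=
    IH _ (hG ▸ card_quotient_lt K hKbot) (G ⧸ K) rfl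
  have hK : Good.{u} p (Nat.card (Sylow p K)) := IH _ (hG ▸ card_lt_of_ne_top K hKtop) K rfl
  by_cases hL : ((P : Subgroup G) ⊔ K) ⊓
        normalizer (((P : Subgroup G) ⊓ K : Subgroup G) : Set G) = ⊤
  · have hsup : (P : Subgroup G) ⊔ K = ⊤ := by
      rw [eq_top_iff, ← hL]; exact inf_le_left
    have hDn : ((P : Subgroup G) ⊓ K).Normal := by
      rw [← normalizer_eq_top_iff, eq_top_iff, ← hL]; exact inf_le_right
    by_cases hD : (P : Subgroup G) ⊓ K = ⊥
    · apply good_of_complement p P K hsup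
      intro hpK
      obtain ⟨⟨x, hxK⟩, hx⟩ := exists_prime_orderOf_dvd_card' p hpK
      rw [Subgroup.orderOf_mk] at hx
      have hzp : IsPGroup p (zpowers x) := by
        apply IsPGroup.of_card (n := 1)
        rw [Nat.card_zpowers, hx, pow_one]
      obtain ⟨Q, hQ⟩ := hzp.exists_le_sylow
      obtain ⟨g, hg⟩ := MulAction.exists_smul_eq G P Q
      have h1 : x ∈ g • P := by rw [hg]; exact hQ (mem_zpowers x)
      rw [Cfsg.Agent.Lib.Helper23.mem_smul_sylow] at h1
      have h2 : g⁻¹ * x * g ∈ (P : Subgroup G) ⊓ K := by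
        refine mem_inf.2 ⟨h1, ?_⟩
        simpa using hKn.conj_mem x hxK g⁻¹
      rw [hD, mem_bot] at h2
      have h3 : x = 1 := by
        have : x = g * (g⁻¹ * x * g) * g⁻¹ := by group
        rw [this, h2]; group
      rw [h3, orderOf_one] at hx
      exact (Fact.out : p.Prime).one_lt.ne hx
    · rw [← Cfsg.Agent.Lib.Helper23.card_sylow_quotient_isPGroup p ((P : Subgroup G) ⊓ K)
        (P.2.to_le inf_le_left)]
      exact IH _ (hG ▸ card_quotient_lt _ hD) (G ⧸ ((P : Subgroup G) ⊓ K)) rfl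
  · rw [Cfsg.Agent.Lib.Helper23.card_sylow_eq_mul p K P,
      Cfsg.Agent.Lib.Helper23.card_sylow_sup_eq_mul p K P]
    exact good_mul hquot (good_mul hK (IH _ (hG ▸ card_lt_of_ne_top _ hL) _ rfl))

/-- For a finite group `G` and a prime `p`, the number of Sylow `p`-subgroups of `G` is a product of natural numbers each of which is either a prime power congruent to 1 modulo `p` or the number of Sylow `p`-subgroups of some finite simple group. -/
theorem result {G : Type u} [Group G] [Finite G]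
    (p : ℕ) [Fact p.Prime] :
    ∃ l : List ℕ, l.prod = Nat.card (Sylow p G) ∧
      ∀ m ∈ l, (IsPrimePow m ∧ m % p = 1) ∨
        ∃ (S : Type u) (_ : Group S) (_ : Finite S), IsSimpleGroup S ∧ m = Nat.card (Sylow p S) :=
  main p _ G rfl

end Cfsg.Agent.S4303
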