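import Mathlib
import Cfsg.Statements.S4304
import Cfsg.Agent.Lib.Helper22.SylowTwoP

set_option autoImplicit false
open Cfsg

namespace Cfsg.Agent.S4304

open Subgroup Cfsg.Agent.Lib.Helper22

theorem no_red {G : Type*} [Group G] [Finite G] [Fact (Nat.Prime 7)] (h : Red 7 G) : False := by
  obtain ⟨e, he, hG⟩ := h.card_eq
  have hodd := h.odd_card
  have he6 : e ∣ 6 := he
  have hoe : Odd e := by
    rw [hG] at hodd
    exact (Nat.odd_mul.1 (Nat.odd_mul.1 hodd).2).2
  obtain ⟨k, hk, hG3⟩ : ∃ k, (k = 1 ∨ k = 2) ∧ Nat.card G = 3 ^ k * 35 := by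
    have hle : e ≤ 6 := Nat.le_of_dvd (by norm_num) he6
    interval_cases e
    · exact absurd he6 (by decide)
    · exact ⟨1, Or.inl rfl, by rw [hG]; norm_num⟩
    · exact absurd hoe (by decide)
    · exact ⟨2, Or.inr rfl, by rw [hG]; norm_num⟩
    · exact absurd hoe (by decide)
    · exact absurd he6 (by decide)
    · exact absurd hoe (by decide)
  have := Fact.mk (show Nat.Prime 3 by norm_num)
  have := Fact.mk (show Nat.Prime 5 by norm_num)
  obtain ⟨S⟩ : Nonempty (Sylow 3 G) := inferInstance
  obtain ⟨hS, hSi⟩ := sylow_card_index hG3 (by norm_num) S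
  have h1 : Nat.card (Sylow 3 G) ∣ 35 := hSi ▸ S.card_dvd_index
  have hN : Nat.card (Sylow 3 G) * Nat.card (normalizer ((S : Subgroup G) : Set G)) =
      Nat.card G := by
    rw [S.card_eq_index_normalizer]
    exact index_mul_card _
  have h5N : 5 ∣ Nat.card (normalizer ((S : Subgroup G) : Set G)) := by
    have h2 : Nat.card (Sylow 3 G) ≡ 1 [MOD 3] := card_sylow_modEq_one 3 G
    have h3 : 5 ∣ Nat.card (Sylow 3 G) * Nat.card (normalizer ((S : Subgroup G) : Set G)) := by
      rw [hN, hG3]
      exact Dvd.dvd.mul_left (by norm_num) _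
    refine (Nat.Coprime.dvd_mul_left ?_).1 h3
    generalize Nat.card (Sylow 3 G) = n at h1 h2
    have hmem : n ∈ Nat.divisors 35 := Nat.mem_divisors.2 ⟨h1, by norm_num⟩
    have hdiv : Nat.divisors 35 = {1, 5, 7, 35} := by decide
    rw [hdiv] at hmem
    simp only [Finset.mem_insert, Finset.mem_singleton] at hmem
    rcases hmem with rfl | rfl | rfl | rfl
    · decide
    · exact absurd h2 (by decide)
    · decide
    · exact absurd h2 (by decide)
  obtain ⟨f, hf⟩ := exists_prime_orderOf_dvd_card' (G := normalizer ((S : Subgroup G) : Set G)) 5 h5N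
  set A : Subgroup G := zpowers (f : G) with hA
  have hA5 : Nat.card A = 5 := by rw [hA, Nat.card_zpowers, Subgroup.orderOf_coe, hf]
  have hApg : IsPGroup 5 A := IsPGroup.of_card (n := 1) (by rw [hA5]; rfl)
  have hAS : A ≤ normalizer ((S : Subgroup G) : Set G) := zpowers_le.2 f.2
  have hcent : (S : Subgroup G) ≤ centralizer (A : Set G) := by
    apply le_centralizer_of_card hApg hAS
    intro c hc hmod
    rw [hS] at hc hmod ⊢
    rcases hk with rfl | rfl
    · have hmem : c ∈ Nat.divisors 3 := Nat.mem_divisors.2 ⟨hc, by norm_num⟩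
      have hdiv : Nat.divisors 3 = {1, 3} := by decide
      rw [hdiv] at hmem
      simp only [Finset.mem_insert, Finset.mem_singleton] at hmem
      rcases hmem with rfl | rfl
      · exact absurd hmod (by decide)
      · rfl
    · have hmem : c ∈ Nat.divisors 9 := Nat.mem_divisors.2 ⟨hc, by norm_num⟩
      have hdiv : Nat.divisors 9 = {1, 3, 9} := by decide
      rw [hdiv] at hmem
      simp only [Finset.mem_insert, Finset.mem_singleton] at hmem
      rcases hmem with rfl | rfl | rfl
      · exact absurd hmod (by decide)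
      · exact absurd hmod (by decide)
      · rfl
  obtain ⟨F, hAF⟩ := hApg.exists_le_sylow
  have hG5 : Nat.card G = 5 ^ 1 * (3 ^ k * 7) := by
    rw [hG3]
    ring
  have h5k : ¬ 5 ∣ 3 ^ k * 7 := by
    rcases hk with rfl | rfl <;> decide
  obtain ⟨hF, hFi⟩ := sylow_card_index hG5 h5k F
  have hAFeq : A = F := eq_of_le_of_card_ge hAF (by rw [hF, hA5]; norm_num)
  have hSN : (S : Subgroup G) ≤ normalizer ((F : Subgroup G) : Set G) := by
    rw [← hAFeq]
    exact hcent.trans (centralizer_le_normalizer _)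
  have hd1 : 3 ^ k ∣ Nat.card (normalizer ((F : Subgroup G) : Set G)) := hS ▸ card_dvd_of_le hSN
  have hd2 : 5 ∣ Nat.card (normalizer ((F : Subgroup G) : Set G)) := by
    have := card_dvd_of_le (le_normalizer : (F : Subgroup G) ≤ normalizer ((F : Subgroup G) : Set G))
    rwa [hF, pow_one] at this
  have hd3 : 3 ^ k * 5 ∣ Nat.card (normalizer ((F : Subgroup G) : Set G)) :=
    Nat.Coprime.mul_dvd_of_dvd_of_dvd (Nat.Coprime.pow_left k (by decide)) hd1 hd2
  have hNF : Nat.card (Sylow 5 G) * Nat.card (normalizer ((F : Subgroup G) : Set G)) =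
      Nat.card G := by
    rw [F.card_eq_index_normalizer]
    exact index_mul_card _
  have h7 : Nat.card (Sylow 5 G) ∣ 7 := by
    obtain ⟨t, ht⟩ := hd3
    rw [ht, hG3] at hNF
    refine ⟨t, ?_⟩
    have h3k : 0 < 3 ^ k * 5 := by positivity
    apply Nat.eq_of_mul_eq_mul_left h3k
    have e1 : 3 ^ k * 5 * (Nat.card (Sylow 5 G) * t) = Nat.card (Sylow 5 G) * (3 ^ k * 5 * t) := by
      ring
    rw [e1, hNF]
    ring
  have h51 : Nat.card (Sylow 5 G) = 1 := by
    have h2 : Nat.card (Sylow 5 G) ≡ 1 [MOD 5] := card_sylow_modEq_one 5 G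
    rcases (Nat.dvd_prime (by norm_num : Nat.Prime 7)).1 h7 with h3 | h3
    · exact h3
    · rw [h3] at h2
      exact absurd h2 (by decide)
  refine h.false_of_normal F (sylow_normal_of_card_eq_one h51 F) ?_ (by rw [hF]; norm_num)
  intro hb
  rw [hb, card_bot] at hF
  norm_num at hF

/-- No finite group has exactly 15 Sylow 7-subgroups. -/
theorem result {G : Type*} [Group G] [Finite G] : Nat.card (Sylow 7 G) ≠ 15 := by
  have := Fact.mk (show Nat.Prime 7 by norm_num)
  exact card_sylow_ne_two_mul_add_one (p := 7) (by norm_num) (fun G _ _ h => no_red h) _ G rfl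

end Cfsg.Agent.S4304
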