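import Mathlib
import Cfsg.Agent.Lib.Helper1.SylowSystem

set_option autoImplicit false
open scoped Pointwise commutatorElement

namespace Cfsg.Agent.S4314

open Subgroup

variable {G : Type*} [Group G]

/-- a subgroup of prime index is maximal -/
theorem eq_or_eq_top_of_prime_index {M L : Subgroup G} (hM : M.index.Prime) (hML : M ≤ L) :
    L = M ∨ L = ⊤ := by
  have h1 := relIndex_mul_index hML
  rcases (Nat.dvd_prime hM).1 (Dvd.intro_left _ h1) with h2 | h2
  · right; exact index_eq_one.1 h2
  · left
    rw [h2] at h1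
    have h3 : M.relIndex L = 1 := by
      have := hM.pos
      nlinarith [Nat.eq_of_mul_eq_mul_right this (by rw [h1, one_mul] : M.relIndex L * M.index = 1 * M.index)]
    exact le_antisymm (relIndex_eq_one.1 h3) hML

theorem mem_cent {g y : G} : y ∈ centralizer ({g} : Set G) ↔ g * y = y * g := by
  rw [mem_centralizer_iff]
  simp

/-- case of normal centralizers -/
theorem class_two [Finite G]
    (h : ∀ x : G, (Subgroup.centralizer ({x} : Set G)).index = 1 ∨ ((Subgroup.centralizer ({x} : Set G)).index).Prime)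
    (hn : ∀ x : G, (Subgroup.centralizer ({x} : Set G)).Normal) :
    Subgroup.upperCentralSeries G 2 = ⊤ := by
  have h1 : ∀ x : G, commutator G ≤ centralizer ({x} : Set G) := by
    intro x
    have := hn x
    rw [← Subgroup.Normal.quotient_commutative_iff_commutator_le]
    rcases h x with h2 | h2
    · have h3 : Subsingleton (G ⧸ centralizer ({x} : Set G)) := by
        exact (Nat.card_eq_one_iff_unique.1 (by rw [← index_eq_card]; exact h2)).1
      exact ⟨⟨fun a b => Subsingleton.elim _ _⟩⟩
    · have : Fact ((centralizer ({x} : Set G)).index).Prime := ⟨h2⟩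
      have h3 : IsCyclic (G ⧸ centralizer ({x} : Set G)) :=
        isCyclic_of_prime_card (p := (centralizer ({x} : Set G)).index) (index_eq_card _).symm
      exact IsCyclic.isMulCommutative (α := G ⧸ centralizer ({x} : Set G))
  rw [eq_top_iff]
  intro a _
  rw [show (2 : ℕ) = 1 + 1 from rfl, Subgroup.mem_upperCentralSeries_succ_iff]
  intro b
  rw [Subgroup.upperCentralSeries_one, mem_center_iff]
  intro x
  have h2 : ⁅a, b⁆ ∈ commutator G := by
    rw [commutator_def]
    exact commutator_mem_commutator (mem_top a) (mem_top b)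
  exact mem_cent.1 (h1 x h2)

/-- the non-normal case -/
theorem pq_case [Finite G]
    (h : ∀ x : G, (Subgroup.centralizer ({x} : Set G)).index = 1 ∨ ((Subgroup.centralizer ({x} : Set G)).index).Prime)
    (x : G) (hx : ¬ (Subgroup.centralizer ({x} : Set G)).Normal) :
    ∃ p q : ℕ, p.Prime ∧ q.Prime ∧ p ≠ q ∧ Nat.card (G ⧸ Subgroup.center G) = p * q ∧ ¬ IsMulCommutative (G ⧸ Subgroup.center G) := by
  classical
  set M := centralizer ({x} : Set G) with hM
  set K := M.normalCore with hK
  have hKM : K ≤ M := normalCore_le M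
  have hKn : K.Normal := normalCore_normal M
  have hp : M.index.Prime := by
    rcases h x with h1 | h1
    · exfalso
      apply hx
      rw [hM, index_eq_one.1 h1]
      infer_instance
    · exact h1
  set p := M.index with hpdef
  -- (b) the quotient by `K` has trivial centre
  have hb0 : ∀ g : G, (∀ y, g * y * g⁻¹ * y⁻¹ ∈ K) → g ∈ M := by
    intro g hg
    by_contra hgM
    apply hx
    rw [← normalizer_eq_top_iff]
    have h1 : g ∈ normalizer (M : Set G) := by
      have h2 : ∀ (g : G), (∀ y, g * y * g⁻¹ * y⁻¹ ∈ K) → ∀ m ∈ M, g * m * g⁻¹ ∈ M := by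
        intro g hg m hm
        have := M.mul_mem (hKM (hg m)) hm
        simpa using this
      rw [mem_normalizer_iff]
      intro m
      refine ⟨h2 g hg m, fun hm => ?_⟩
      have h3 : ∀ y, g⁻¹ * y * g⁻¹⁻¹ * y⁻¹ ∈ K := by
        intro y
        have h4 := hKn.conj_mem _ (K.inv_mem (hg y)) g⁻¹
        convert h4 using 1
        group
      have := h2 g⁻¹ h3 _ hm
      simpa [mul_assoc] using this
    rcases eq_or_eq_top_of_prime_index hp (le_normalizer : M ≤ normalizer (M : Set G)) with h5 | h5
    · exact absurd (h5 ▸ h1) hgM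
    · exact h5
  have hb : ∀ g : G, (∀ y, g * y * g⁻¹ * y⁻¹ ∈ K) → g ∈ K := by
    intro g hg b
    apply hb0
    intro y
    have h4 := hKn.conj_mem _ (hg (b⁻¹ * y * b)) b
    convert h4 using 1
    group
  -- (c)
  have hc : ∀ g : G, g ∉ K → K ≤ centralizer ({g} : Set G) := by
    intro g hg
    rcases h g with h1 | h1
    · rw [index_eq_one.1 h1]; exact le_top
    · rcases eq_or_eq_top_of_prime_index h1 (le_sup_left : _ ≤ centralizer ({g} : Set G) ⊔ K)
        with h2 | h2
      · exact h2 ▸ le_sup_right
      · exfalso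
        apply hg
        apply hb
        intro y
        have hy : y ∈ centralizer ({g} : Set G) ⊔ K := by rw [h2]; trivial
        rw [← SetLike.mem_coe, mul_normal] at hy
        obtain ⟨c, hc, k, hk, rfl⟩ := Set.mem_mul.1 hy
        have hcg : g * c = c * g := mem_cent.1 hc
        have h3 : g * (c * k) * g⁻¹ * (c * k)⁻¹ = c * (g * k * g⁻¹ * k⁻¹) * c⁻¹ := by
          calc g * (c * k) * g⁻¹ * (c * k)⁻¹ = (g * c) * k * g⁻¹ * k⁻¹ * c⁻¹ := by group
            _ = c * (g * k * g⁻¹ * k⁻¹) * c⁻¹ := by rw [hcg]; group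
        rw [h3]
        exact hKn.conj_mem _ (K.mul_mem (hKn.conj_mem _ hk g) (K.inv_mem hk)) c
  have hMtop : M ≠ ⊤ := by
    intro h1
    apply hx
    rw [h1]; infer_instance
  obtain ⟨g0, hg0⟩ : ∃ g0, g0 ∉ K := by
    by_contra hcon
    push Not at hcon
    exact hMtop (eq_top_iff.2 fun y _ => hKM (hcon y))
  -- (d), (e)
  have hKZ : K = center G := by
    apply le_antisymm
    · intro k hk
      rw [mem_center_iff]
      intro y
      by_cases hy : y ∈ K
      · have h1 : y * g0 ∉ K := fun h2 => hg0 (by
          have := K.mul_mem (K.inv_mem hy) h2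
          simpa using this)
        have h2 : y * g0 * k = k * (y * g0) := mem_cent.1 (hc _ h1 hk)
        have h3 : g0 * k = k * g0 := mem_cent.1 (hc _ hg0 hk)
        have h4 : y * k * g0 = k * y * g0 := by
          calc y * k * g0 = y * (k * g0) := by group
            _ = y * g0 * k := by rw [← h3]; group
            _ = k * y * g0 := by rw [h2]; group
        exact mul_right_cancel h4
      · exact mem_cent.1 (hc _ hy hk)
    · rw [hK, normal_le_normalCore]
      intro z hz
      exact mem_cent.2 (mem_center_iff.1 hz x)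
  -- the order of `G / K`
  set q := K.relIndex M with hq
  have hidx : K.index = q * p := (relIndex_mul_index hKM).symm
  have hpq : ¬ p ∣ q := by
    have h1 : K.index ∣ p.factorial := by
      have h2 : K.index = Nat.card (MulAction.toPermHom G (G ⧸ M)).range := by
        rw [hK, normalCore_eq_ker, index_ker]
      rw [h2]
      have h3 := card_subgroup_dvd_card (MulAction.toPermHom G (G ⧸ M)).range
      have := Fintype.ofFinite (G ⧸ M)
      rwa [Nat.card_eq_fintype_card (α := Equiv.Perm (G ⧸ M)), Fintype.card_perm,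
        ← Nat.card_eq_fintype_card, ← index_eq_card] at h3
    intro h2
    have h3 : p.factorial = p * (p - 1).factorial := by
      exact (Nat.mul_factorial_pred hp.pos.ne').symm
    rw [hidx, h3, mul_comm] at h1
    have h4 : q ∣ (p - 1).factorial := Nat.dvd_of_mul_dvd_mul_left hp.pos h1
    have h5 := (hp.dvd_factorial).1 (h2.trans h4)
    have := hp.pos
    omega
  -- an element of order `p` modulo `K`
  have : Fact p.Prime := ⟨hp⟩
  obtain ⟨cb, hcb⟩ := exists_prime_orderOf_dvd_card' (G := G ⧸ K) p (by
    rw [← index_eq_card, hidx]; exact Dvd.intro_left _ rfl)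
  obtain ⟨c, rfl⟩ := QuotientGroup.mk_surjective cb
  set L := (zpowers (c : G ⧸ K)).comap (QuotientGroup.mk' K) with hL
  have hLidx : L.index = q := by
    have h1 : L.index = (zpowers (c : G ⧸ K)).index :=
      index_comap_of_surjective _ (QuotientGroup.mk'_surjective K)
    have h2 := card_mul_index (zpowers (c : G ⧸ K))
    rw [Nat.card_zpowers, hcb, ← h1, ← index_eq_card, hidx, mul_comm] at h2
    exact Nat.eq_of_mul_eq_mul_right hp.pos h2
  have hcK : c ∉ K := by
    intro h1
    rw [(QuotientGroup.eq_one_iff c).2 h1, orderOf_one] at hcb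
    exact hp.one_lt.ne hcb
  have hLc : L ≤ centralizer ({c} : Set G) := by
    intro l hl
    rw [hL, mem_comap, mem_zpowers_iff] at hl
    obtain ⟨i, hi⟩ := hl
    have h1 : (c ^ i)⁻¹ * l ∈ K := by
      rw [← QuotientGroup.eq_one_iff]
      rw [QuotientGroup.mk'_apply] at hi
      rw [QuotientGroup.mk_mul, QuotientGroup.mk_inv, QuotientGroup.mk_zpow, hi]
      simp
    rw [hKZ, mem_center_iff] at h1
    rw [mem_cent]
    have h2 : l = c ^ i * ((c ^ i)⁻¹ * l) := by group
    rw [h2]
    have hcc : c * c ^ i = c ^ i * c := ((Commute.refl c).zpow_right i).eq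
    calc c * (c ^ i * ((c ^ i)⁻¹ * l)) = c ^ i * (c * ((c ^ i)⁻¹ * l)) := by
          rw [← mul_assoc, hcc, mul_assoc]
      _ = c ^ i * ((c ^ i)⁻¹ * l) * c := by rw [h1 c]; group
  have hfac : ∀ g : G, ∃ l ∈ L, ∃ m ∈ M, g = l * m :=
    Cfsg.Agent.Lib.Helper1.exists_mul_of_coprime_index L M (by
      rw [hLidx]
      exact ((Nat.Prime.coprime_iff_not_dvd hp).2 hpq).symm)
  have hCM : centralizer ({c} : Set G) ⊓ M ≤ K := by
    rintro z ⟨hz1, hz2⟩ b
    obtain ⟨l, hl, m, hm, hb'⟩ := hfac b⁻¹
    have hb2 : b = m⁻¹ * l⁻¹ := by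
      rw [← inv_inj, hb']; group
    -- `l` commutes with `z`
    have hlz : l * z = z * l := by
      rw [hL, mem_comap, mem_zpowers_iff] at hl
      obtain ⟨i, hi⟩ := hl
      have h1 : (c ^ i)⁻¹ * l ∈ K := by
        rw [← QuotientGroup.eq_one_iff]
        rw [QuotientGroup.mk'_apply] at hi
        rw [QuotientGroup.mk_mul, QuotientGroup.mk_inv, QuotientGroup.mk_zpow, hi]
        simp
      rw [hKZ, mem_center_iff] at h1
      have hcz : Commute c z := mem_cent.1 hz1
      have hcz' : Commute (c ^ i) z := hcz.zpow_left i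
      have h2 : l = c ^ i * ((c ^ i)⁻¹ * l) := by group
      rw [h2]
      calc c ^ i * ((c ^ i)⁻¹ * l) * z = c ^ i * (z * ((c ^ i)⁻¹ * l)) := by rw [h1 z]; group
        _ = z * (c ^ i * ((c ^ i)⁻¹ * l)) := by
          rw [← mul_assoc, hcz'.eq, mul_assoc]
    have h3 : b * z * b⁻¹ = m⁻¹ * z * m := by
      rw [hb2]
      calc m⁻¹ * l⁻¹ * z * (m⁻¹ * l⁻¹)⁻¹ = m⁻¹ * (l⁻¹ * (z * l)) * m := by group
        _ = m⁻¹ * z * m := by rw [← hlz]; group
    rw [h3]
    exact M.mul_mem (M.mul_mem (M.inv_mem hm) hz2) hm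
  have hCL : centralizer ({c} : Set G) = L := by
    apply le_antisymm _ hLc
    intro y hy
    obtain ⟨l, hl, m, hm, rfl⟩ := hfac y
    have h1 : m ∈ centralizer ({c} : Set G) := by
      have := mul_mem (inv_mem (hLc hl)) hy
      simpa using this
    have h2 : m ∈ K := hCM ⟨h1, hm⟩
    have h3 : m ∈ L := by
      rw [hL, mem_comap, QuotientGroup.mk'_apply, (QuotientGroup.eq_one_iff m).2 h2]
      exact one_mem _
    exact L.mul_mem hl h3
  have hqp : q.Prime := by
    rcases h c with h1 | h1
    · exfalso
      apply hcK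
      rw [hKZ, mem_center_iff]
      intro y
      have : y ∈ centralizer ({c} : Set G) := by rw [index_eq_one.1 h1]; trivial
      exact (mem_cent.1 this).symm
    · rwa [hCL, hLidx] at h1
  refine ⟨p, q, hp, hqp, fun h1 => hpq (h1 ▸ dvd_rfl), ?_, ?_⟩
  · rw [← hKZ, ← index_eq_card, hidx, mul_comm]
  · intro hcomm
    rw [Subgroup.Normal.quotient_commutative_iff_commutator_le, ← hKZ] at hcomm
    apply hx
    constructor
    intro m hm g
    have h2 : ⁅g, m⁆ ∈ commutator G := by
      rw [commutator_def]
      exact commutator_mem_commutator (mem_top g) (mem_top m)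
    have := M.mul_mem (hKM (hcomm h2)) hm
    simpa [commutatorElement_def] using this

/-- Let `G` be a finite group every conjugacy class of which has size 1 or a prime. Then either `G` is nilpotent of class at most 2, or `G/Z(G)` is a non-abelian group of order `pq` for distinct primes `p, q` (a Frobenius group of order `pq`). -/
theorem result {G : Type*} [Group G] [Finite G]
    (h : ∀ x : G, (Subgroup.centralizer ({x} : Set G)).index = 1 ∨ ((Subgroup.centralizer ({x} : Set G)).index).Prime) :
    Subgroup.upperCentralSeries G 2 = ⊤ ∨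
      ∃ p q : ℕ, p.Prime ∧ q.Prime ∧ p ≠ q ∧ Nat.card (G ⧸ Subgroup.center G) = p * q ∧ ¬ IsMulCommutative (G ⧸ Subgroup.center G) := by
  by_cases hn : ∀ x : G, (Subgroup.centralizer ({x} : Set G)).Normal
  · exact Or.inl (class_two h hn)
  · push Not at hn
    obtain ⟨x, hx⟩ := hn
    exact Or.inr (pq_case h x hx)

end Cfsg.Agent.S4314
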