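import Cfsg.Statements.S4320
import Cfsg.Agent.Lib.Helper24.PIT3
-- import your own Cfsg.Agent.* helpers here

set_option autoImplicit false
open Cfsg

namespace Cfsg.Agent.S4320

open Cfsg.Agent.Lib.Helper24.PIT
open scoped Pointwise

/-- The Principal Ideal Theorem of class field theory in its group-theoretic form: for every finite group `G`, the transfer homomorphism from `G` into the abelianization `G'/G''` of its derived subgroup `G'` is the trivial homomorphism. -/
theorem result {G : Type*} [Group G] [Finite G] :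
    MonoidHom.transfer (Abelianization.of : ↥(commutator G) →* Abelianization ↥(commutator G)) =
      (1 : G →* Abelianization ↥(commutator G)) := by
  classical
  apply MonoidHom.ext
  intro g
  obtain ⟨T, hT⟩ : ∃ T : (commutator G).LeftTransversal, T = default := ⟨_, rfl⟩
  rw [MonoidHom.transfer_def _ T g, MonoidHom.one_apply]
  letI : Fintype (Abelianization G) := (commutator G).fintypeQuotientOfFiniteIndex
  obtain ⟨t, ht⟩ : ∃ t : Abelianization G → G,
      t = fun q => (T.2.leftQuotientEquiv q : G) := ⟨_, rfl⟩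
  have htq : ∀ q, Abelianization.of (t q) = q := by
    intro q
    rw [ht]
    exact T.2.quotientGroupMk_leftQuotientEquiv q
  have hker : ∀ x : G, Abelianization.of x = 1 ↔ x ∈ commutator G :=
    fun x => QuotientGroup.eq_one_iff x
  obtain ⟨ϕ', hϕ'⟩ : ∃ ϕ' : G → Abelianization ↥(commutator G),
      ϕ' = fun x => if hx : x ∈ commutator G then Abelianization.of ⟨x, hx⟩ else 1 := ⟨_, rfl⟩
  have hϕmem : ∀ (x : G) (hx : x ∈ commutator G), ϕ' x = Abelianization.of ⟨x, hx⟩ := by
    intro x hx
    rw [hϕ']
    exact dif_pos hx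
  have hϕmul : ∀ x y : G, x ∈ commutator G → y ∈ commutator G → ϕ' (x * y) = ϕ' x * ϕ' y := by
    intro x y hx hy
    rw [hϕmem x hx, hϕmem y hy, hϕmem _ ((commutator G).mul_mem hx hy), ← map_mul]
    rfl
  have hmem : ∀ (q : Abelianization G) (x : G),
      (t q)⁻¹ * x * t ((Abelianization.of x)⁻¹ * q) ∈ commutator G := by
    intro q x
    rw [← hker, map_mul, map_mul, map_inv, htq, htq]
    rw [mul_assoc, mul_inv_cancel_left, inv_mul_cancel]
  have key := sum_eq_zero (G := G) (M := Additive (Abelianization ↥(commutator G)))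
    (fun q x => Additive.ofMul (ϕ' ((t q)⁻¹ * x * t ((Abelianization.of x)⁻¹ * q)))) (by
      intro q x y
      show Additive.ofMul _ = Additive.ofMul _ + Additive.ofMul _
      rw [← ofMul_mul, ← hϕmul _ _ (hmem q x) (hmem _ y)]
      congr 2
      rw [map_mul, mul_inv_rev, mul_assoc (Abelianization.of y)⁻¹]
      group) g
  have key2 : ∏ q, ϕ' ((t q)⁻¹ * g * t ((Abelianization.of g)⁻¹ * q)) = 1 := by
    have h1 := congrArg Additive.toMul key
    rw [toMul_sum] at h1
    exact h1
  rw [← key2]
  unfold Subgroup.leftTransversals.diff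
  apply Finset.prod_congr rfl
  intro q _
  rw [hϕmem _ (hmem q g)]
  congr 2
  rw [Subgroup.smul_apply_eq_smul_apply_inv_smul, ht, smul_eq_mul, mul_assoc]
  rfl

end Cfsg.Agent.S4320
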