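import Cfsg.Statements.S4416
import Cfsg.Agent.Lib.Helper19.ESE

set_option autoImplicit false
open Cfsg

namespace Cfsg.Agent.S4416

open Cfsg.Agent.Lib.Helper19.ES

/-- Classification of extraspecial 2-groups in intrinsic form. An extraspecial 2-group has order 2^(2m+1) for some m ≥ 1, and the number of its elements squaring to the identity is either 2^(2m) + 2^m or 2^(2m) − 2^m; two extraspecial 2-groups of the same order with the same number of such elements are isomorphic. (The two cases are the central products of m dihedral groups of order 8, and of m − 1 dihedral groups with one quaternion group.) -/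
theorem result (E : Type*) [Group E] [Finite E] (hE : Cfsg.IsExtraspecial 2 E) :
    (∃ m : ℕ, 1 ≤ m ∧ Nat.card E = 2 ^ (2 * m + 1) ∧
      (Nat.card {x : E // x ^ 2 = 1} = 2 ^ (2 * m) + 2 ^ m ∨ Nat.card {x : E // x ^ 2 = 1} = 2 ^ (2 * m) - 2 ^ m)) ∧
    ∀ (E' : Type*) [Group E'] [Finite E'], Cfsg.IsExtraspecial 2 E' → Nat.card E' = Nat.card E →
      Nat.card {x : E' // x ^ 2 = 1} = Nat.card {x : E // x ^ 2 = 1} → Nonempty (E ≃* E') := by
  obtain ⟨m, hm, hcard⟩ := card_form hE
  refine ⟨⟨m, hm, hcard, ?_⟩, ?_⟩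
  · have h1 := SS_cases hE m hcard
    unfold SS at h1
    rw [hcard] at h1
    have e1 : ((2 ^ (2 * m + 1) : ℕ) : ℤ) = 2 * ((2 ^ (2 * m) : ℕ) : ℤ) := by push_cast; ring
    have e2 : (2 : ℤ) ^ (m + 1) = 2 * ((2 ^ m : ℕ) : ℤ) := by push_cast; ring
    rw [e1, e2] at h1
    rcases h1 with h1 | h1
    · left; omega
    · right; omega
  · intro E' _ _ hE' hc hs
    apply iso_of_SS hE hE' hc.symm
    unfold SS
    rw [hs, hc]

end Cfsg.Agent.S4416
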