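import Cfsg.Statements.S4422
import Mathlib

set_option autoImplicit false
open Cfsg

namespace Cfsg.Agent.S4422

theorem prime_case (q e r : ℕ) (hq : 2 ≤ q) (he : 1 ≤ e) (hr : r.Prime)
    (hm : r ∣ q ^ e - 1) (hcop : ∀ i : ℕ, 1 ≤ i → i < e → Nat.Coprime r (q ^ i - 1)) :
    r % e = 1 % e := by
  haveI : Fact r.Prime := ⟨hr⟩
  have hqe : 1 ≤ q ^ e := Nat.one_le_pow _ _ (by omega)
  -- q as an element of ZMod r
  have h1 : ((q : ZMod r)) ^ e = 1 := by
    have : ((q ^ e - 1 : ℕ) : ZMod r) = 0 := (ZMod.natCast_eq_zero_iff _ _).2 hm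
    rw [Nat.cast_sub hqe] at this
    push_cast at this
    exact sub_eq_zero.1 this
  have hq0 : (q : ZMod r) ≠ 0 := by
    intro h0
    rw [h0, zero_pow (by omega)] at h1
    exact zero_ne_one h1
  have hord : orderOf (q : ZMod r) = e := by
    have hdvd : orderOf (q : ZMod r) ∣ e := orderOf_dvd_of_pow_eq_one h1
    have hpos : 0 < orderOf (q : ZMod r) := Nat.pos_of_dvd_of_pos hdvd (by omega)
    by_contra hne
    have hlt : orderOf (q : ZMod r) < e := lt_of_le_of_ne (Nat.le_of_dvd (by omega) hdvd) hne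
    have hc := hcop _ hpos hlt
    have h2 : (q : ZMod r) ^ orderOf (q : ZMod r) = 1 := pow_orderOf_eq_one _
    have h3 : r ∣ q ^ orderOf (q : ZMod r) - 1 := by
      rw [← ZMod.natCast_eq_zero_iff, Nat.cast_sub (Nat.one_le_pow _ _ (by omega))]
      push_cast
      rw [h2, sub_self]
    have h4 : r ∣ 1 := by
      have := Nat.dvd_gcd (dvd_refl r) h3
      rwa [hc] at this
    exact hr.one_lt.ne' (Nat.dvd_one.1 h4)
  have h5 : e ∣ r - 1 := by
    rw [← hord]
    exact ZMod.orderOf_dvd_card_sub_one hq0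
  obtain ⟨k, hk⟩ := h5
  have : r = e * k + 1 := by have := hr.one_lt; omega
  rw [this, Nat.add_mod, Nat.mul_mod_right, zero_add, Nat.mod_mod]

/-- Primitive divisors of `q^e - 1` are congruent to 1 modulo `e`. Let `q ≥ 2` and `e ≥ 1` be natural numbers and let `m` be a divisor of `q^e - 1` that is coprime to `q^i - 1` for every `1 ≤ i < e` (so `m` divides the primitive part of `q^e - 1`, the largest such divisor). Then `m ≡ 1 (mod e)`. -/
theorem result (q e m : ℕ) (hq : 2 ≤ q) (he : 1 ≤ e)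
    (hm : m ∣ q ^ e - 1) (hcop : ∀ i : ℕ, 1 ≤ i → i < e → Nat.Coprime m (q ^ i - 1)) :
    m % e = 1 % e := by
  have hqe : 1 ≤ q ^ e := Nat.one_le_pow _ _ (by omega)
  have hqe2 : 0 < q ^ e - 1 := by
    have : 2 ^ 1 ≤ q ^ e := le_trans (Nat.pow_le_pow_left hq 1) (Nat.pow_le_pow_right (by omega) he)
    omega
  have hm0 : m ≠ 0 := by
    rintro rfl
    have := Nat.eq_zero_of_zero_dvd hm
    omega
  -- induction on m via prime factorization
  induction m using Nat.recOnMul with
  | zero => exact absurd rfl hm0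
  | one => rfl
  | prime r hr =>
    exact prime_case q e r hq he hr hm hcop
  | mul a b iha ihb =>
    have ha0 : a ≠ 0 := by rintro rfl; simp at hm0
    have hb0 : b ≠ 0 := by rintro rfl; simp at hm0
    have ha := iha (dvd_trans (dvd_mul_right a b) hm)
      (fun i h1 h2 => Nat.Coprime.coprime_dvd_left (dvd_mul_right a b) (hcop i h1 h2)) ha0
    have hb := ihb (dvd_trans (dvd_mul_left b a) hm)
      (fun i h1 h2 => Nat.Coprime.coprime_dvd_left (dvd_mul_left b a) (hcop i h1 h2)) hb0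
    rw [Nat.mul_mod, ha, hb, ← Nat.mul_mod]

end Cfsg.Agent.S4422
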