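import Mathlib
import Cfsg.Statements.S4430
import Cfsg.Agent.Lib.Helper6.IndPart

set_option autoImplicit false
open Cfsg
open Cfsg.Agent.Lib.Helper6 Cfsg.Agent.Lib.Helper2
open scoped ComplexConjugate Classical

attribute [local instance] irrFintype

namespace Cfsg.Agent.S4430

/-- Let H be a subgroup of the finite group G, b a block of H whose induced block B₀ in G is defined (relative to a maximal ideal M of the algebraic integers containing p), and ξ ∈ b. For a block B of G let n_B be the value at 1 of the B-part of the induced character ξ^G (a natural number: the sum over χ ∈ B of the multiplicity of χ in ξ^G times χ(1)). Then for B = B₀ the exact power of p dividing n_B equals the exact power of p dividing ξ^G(1), while for every other block B either n_B = 0 or n_B is divisible by a strictly higher power of p than ξ^G(1). -/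
theorem result {G : Type*} [Group G] [Fintype G] (p : ℕ) [Fact p.Prime] (M : Ideal Cfsg.AlgInt) (hM : Cfsg.IsPModular p M) (H : Subgroup G) [Fintype H] (b : Set (Cfsg.IrrCharacter H)) (B₀ : Set (Cfsg.IrrCharacter G)) (hind : Cfsg.IsInducedBlock M H b B₀) (ξ : Cfsg.IrrCharacter H) (hξ : ξ ∈ b) : (∃ n : ℕ, Cfsg.blockPart B₀ (Cfsg.indFun H (ξ : H → ℂ)) 1 = (n : ℂ) ∧ n ≠ 0 ∧ n.factorization p = (Cfsg.charDegree (Cfsg.indFun H (ξ : H → ℂ))).factorization p) ∧ ∀ B : Set (Cfsg.IrrCharacter G), Cfsg.IsPBlock M B → B ≠ B₀ → ∃ n : ℕ, Cfsg.blockPart B (Cfsg.indFun H (ξ : H → ℂ)) 1 = (n : ℂ) ∧ (n = 0 ∨ (Cfsg.charDegree (Cfsg.indFun H (ξ : H → ℂ))).factorization p < n.factorization p) := by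
  have := IsPModular.isPrime hM
  have hchar : IsCharacter G (indFun H (ξ : H → ℂ)) :=
    IsCharacter.indFun H (IsIrrCharacter.isCharacter ξ.2)
  have hξ1 := irr_one_ne_zero ξ.2
  have hNc := Cfsg.Agent.Lib.Helper24.charDegree_cast hchar
  have hN : charDegree (indFun H (ξ : H → ℂ)) ≠ 0 := by
    intro h0
    rw [h0, indFun_one] at hNc
    have hG : (Nat.card G : ℂ) ≠ 0 := by exact_mod_cast (Nat.card_pos (α := G)).ne'
    have hH : (Nat.card H : ℂ) ≠ 0 := by exact_mod_cast (Nat.card_pos (α := H)).ne'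
    have : (Nat.card G : ℂ) / (Nat.card H : ℂ) * (ξ : H → ℂ) 1 ≠ 0 :=
      mul_ne_zero (div_ne_zero hG hH) hξ1
    exact this (by simpa using hNc.symm)
  have hloc : ∀ B : Set (IrrCharacter G), IsPBlock M B →
      MemLocalRing M (om (ξ : H → ℂ) (fun h : H => coef (B.indicator 1) (h : G))) := by
    intro B hB
    have h1 := om_res_coef_sub hM H hind hξ hB
    refine (memLocalRing_congr h1).mpr ?_
    split_ifs
    · exact memLocalRing_one
    · exact memLocalRing_zero
  constructor
  · obtain ⟨n, hn⟩ := bPart_one_nat hchar B₀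
    have h1 := om_res_coef_sub hM H hind hξ hind.2.1
    rw [if_pos rfl] at h1
    have h2 := bPart_indFun_one H (ξ : H → ℂ) hξ1 B₀
    rw [hn, ← hNc] at h2
    obtain ⟨h3, h4⟩ := factorization_eq_of_unit hM hN h2 (hloc B₀ hind.2.1)
      (fun h => not_memLocalIdeal_one ((memLocalIdeal_congr h1).mp h))
    exact ⟨n, by rw [blockPart_eq_bPart, hn], h3, h4⟩
  · intro B hB hne
    obtain ⟨n, hn⟩ := bPart_one_nat hchar B
    have h1 := om_res_coef_sub hM H hind hξ hB
    rw [if_neg hne, sub_zero] at h1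
    have h2 := bPart_indFun_one H (ξ : H → ℂ) hξ1 B
    rw [hn, ← hNc] at h2
    exact ⟨n, by rw [blockPart_eq_bPart, hn], factorization_lt_of_memLocalIdeal hM hN h2 h1⟩

end Cfsg.Agent.S4430
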