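import Mathlib
import Cfsg.Statements.S4431
import Cfsg.Agent.Lib.Helper6.IndPart

set_option autoImplicit false
open Cfsg
open Cfsg.Agent.Lib.Helper6 Cfsg.Agent.Lib.Helper2
open scoped ComplexConjugate Classical

attribute [local instance] irrFintype

namespace Cfsg.Agent.S4431

/-- Let H be a subgroup of the finite group G and b a block of H whose induced block B₀ in G is defined (relative to a maximal ideal M of the algebraic integers containing p). Let χ be an irreducible character of G, ψ ∈ b, and let η be the class function on H equal to p^a · χ on the p-regular elements of H and zero elsewhere, p^a being the p-part of the order of H. Then (a) if χ ∉ B₀, the number [η, ψ]/ψ(1) lies in the local ideal at M; (b) if χ ∈ B₀ has height zero, it does not. -/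
theorem result {G : Type*} [Group G] [Fintype G] (p : ℕ) [Fact p.Prime] (M : Ideal Cfsg.AlgInt) (hM : Cfsg.IsPModular p M) (H : Subgroup G) [Fintype H] (b : Set (Cfsg.IrrCharacter H)) (B₀ : Set (Cfsg.IrrCharacter G)) (hind : Cfsg.IsInducedBlock M H b B₀) (χ : Cfsg.IrrCharacter G) (ψ : Cfsg.IrrCharacter H) (hψ : ψ ∈ b) : (χ ∉ B₀ → Cfsg.MemLocalIdeal M (Cfsg.classInner (fun h : H => if p ∣ orderOf h then (0 : ℂ) else ((p ^ (Nat.card H).factorization p : ℕ) : ℂ) * (χ : G → ℂ) h) (ψ : H → ℂ) / (ψ : H → ℂ) 1)) ∧ (χ ∈ B₀ → Cfsg.blockHeight p B₀ (χ : G → ℂ) = 0 → ¬ Cfsg.MemLocalIdeal M (Cfsg.classInner (fun h : H => if p ∣ orderOf h then (0 : ℂ) else ((p ^ (Nat.card H).factorization p : ℕ) : ℂ) * (χ : G → ℂ) h) (ψ : H → ℂ) / (ψ : H → ℂ) 1)) := by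
  have := IsPModular.isPrime hM
  have hp : p.Prime := hM.1
  obtain ⟨hb, hB₀, hcong⟩ := hind
  set a := (Nat.card H).factorization p with ha
  have hH0 : Nat.card H ≠ 0 := (Nat.card_pos (α := H)).ne'
  have hHc : (Nat.card H : ℂ) ≠ 0 := by exact_mod_cast hH0
  have hψ1 := irr_one_ne_zero ψ.2
  have hres : IsCharacter H (fun h : H => (χ : G → ℂ) h) :=
    IsCharacter.restrict H (IsIrrCharacter.isCharacter χ.2)
  -- rewrite the quantity
  have key : classInner (fun h : H => if p ∣ orderOf h then (0 : ℂ) else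
      ((p ^ a : ℕ) : ℂ) * (χ : G → ℂ) h) (ψ : H → ℂ) / (ψ : H → ℂ) 1 =
      ((p ^ a : ℕ) : ℂ) / (Nat.card H : ℂ) *
        om (ψ : H → ℂ) (fun h : H => creg p (χ : G → ℂ) (h : G)) := by
    rw [creg_res, om_creg]
    have h1 : classInner (fun h : H => if p ∣ orderOf h then (0 : ℂ) else
        ((p ^ a : ℕ) : ℂ) * (χ : G → ℂ) h) (ψ : H → ℂ) =
        ((p ^ a : ℕ) : ℂ) * classInner (regPart p (ψ : H → ℂ)) (fun h : H => (χ : G → ℂ) h) := by
      have hs : ∑ g : H, (if p ∣ orderOf g then (0 : ℂ) else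
          ((p ^ a : ℕ) : ℂ) * (χ : G → ℂ) g) * conj ((ψ : H → ℂ) g) =
          ∑ g : H, ((p ^ a : ℕ) : ℂ) * (regPart p (ψ : H → ℂ) g * conj ((χ : G → ℂ) g)) := by
        refine Fintype.sum_equiv (Equiv.inv H) _ _ fun g => ?_
        simp only [Equiv.inv_apply, regPart_apply, orderOf_inv]
        have e1 := IsCharacter.apply_inv (IsIrrCharacter.isCharacter ψ.2) g
        have e2 := IsCharacter.apply_inv hres g
        rw [e1, e2, Complex.conj_conj]
        split_ifs <;> ring
      rw [classInner, classInner, hs, ← Finset.mul_sum]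
      ring
    rw [h1]
    field_simp
  have hpa : (p ^ a).factorization p = a := by
    rw [Nat.Prime.factorization_pow hp]; simp
  have hpa0 : p ^ a ≠ 0 := pow_ne_zero _ hp.ne_zero
  have hu1 : MemLocalRing M (((p ^ a : ℕ) : ℂ) / (Nat.card H : ℂ)) :=
    memLocalRing_natCast_div hM hpa0 hH0 (by rw [hpa])
  have hu2 : ¬ MemLocalIdeal M (((p ^ a : ℕ) : ℂ) / (Nat.card H : ℂ)) :=
    not_memLocalIdeal_natCast_div hM hpa0 hH0 (by rw [hpa])
  have hcmp : ∀ χ' ∈ B₀, MemLocalIdeal M
      (om (ψ : H → ℂ) (fun h : H => creg p (χ : G → ℂ) (h : G)) -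
        om (χ' : G → ℂ) (creg p (χ : G → ℂ))) := fun χ' hχ' =>
    om_res_sub_memLocalIdeal H (irr_isClassFunction χ'.2) (hcong ψ hψ χ' hχ')
      (isClassFunction_creg (irr_isClassFunction χ.2))
      (memLocalRing_creg (IsIrrCharacter.isCharacter χ.2))
  constructor
  · intro hχ
    rw [key]
    obtain ⟨χ', hχ'⟩ := IsPBlock.nonempty hB₀
    have h1 := hcmp χ' hχ'
    rw [om_creg_eq_zero' hM hB₀ hχ' hχ, sub_zero] at h1
    exact MemLocalIdeal.mul_left hu1 h1
  · intro hχ h0
    rw [key]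
    have h1 := hcmp χ hχ
    have h2 := not_memLocalIdeal_om_creg hM hB₀ hχ h0
    have h3 : ¬ MemLocalIdeal M (om (ψ : H → ℂ) (fun h : H => creg p (χ : G → ℂ) (h : G))) :=
      fun h => h2 ((memLocalIdeal_congr h1).mp h)
    have h4 : MemLocalRing M (om (χ : G → ℂ) (creg p (χ : G → ℂ))) :=
      om_memLocalRing χ.2 (isClassFunction_creg (irr_isClassFunction χ.2))
        (memLocalRing_creg (IsIrrCharacter.isCharacter χ.2))
    exact not_memLocalIdeal_mul hu1 ((memLocalRing_congr h1).mpr h4) hu2 h3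

end Cfsg.Agent.S4431
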