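import Mathlib
import Cfsg.Statements.S4434
import Cfsg.Agent.Lib.Helper6.QuotDefect

set_option autoImplicit false
open Cfsg
open Cfsg.Agent.Lib.Helper6 Cfsg.Agent.Lib.Helper2
open scoped ComplexConjugate Classical

attribute [local instance] irrFintype

namespace Cfsg.Agent.S4434

/-- Let N be a normal p-subgroup of the finite group G and write Ḡ = G/N; fix a maximal ideal M of the algebraic integers containing p. Then every block B of G contains a block B̄ of Ḡ (the inflation of every member of B̄ lies in B) whose defect groups are exactly the images in Ḡ of the defect groups of B. -/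
theorem result {G : Type*} [Group G] [Finite G] (p : ℕ) [Fact p.Prime] (M : Ideal Cfsg.AlgInt) (hM : Cfsg.IsPModular p M) (N : Subgroup G) [N.Normal] (hN : IsPGroup p N) (B : Set (Cfsg.IrrCharacter G)) (hB : Cfsg.IsPBlock M B) : ∃ Bbar : Set (Cfsg.IrrCharacter (G ⧸ N)), Cfsg.IsPBlock M Bbar ∧ (∀ χ ∈ Bbar, ∀ ψ : Cfsg.IrrCharacter G, (ψ : G → ℂ) = (χ : G ⧸ N → ℂ) ∘ QuotientGroup.mk → ψ ∈ B) ∧ ∀ Dbar : Subgroup (G ⧸ N), Cfsg.IsDefectGroup p M Bbar Dbar ↔ ∃ P : Subgroup G, Cfsg.IsDefectGroup p M B P ∧ Dbar = P.map (QuotientGroup.mk' N) := by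
  let _ := Fintype.ofFinite G
  have := IsPModular.isPrime hM
  obtain ⟨P, hP⟩ := exists_isDefectGroup hM hB
  obtain ⟨Bbar, hBbar, hsub, hdef⟩ := exists_dominated_block N hM hN hB hP
  refine ⟨Bbar, hBbar, ?_, ?_⟩
  · intro χ hχ ψ hψ
    have h1 : ψ = inflIrr N χ := Subtype.ext hψ
    rw [h1]
    exact hsub χ hχ
  · intro Dbar
    constructor
    · intro hD
      obtain ⟨t, ht⟩ := isDefectGroup_exists_conj hM hBbar hdef hD
      obtain ⟨s, rfl⟩ := QuotientGroup.mk_surjective t
      exact ⟨cj s P, isDefectGroup_cj hP s, by rw [ht, map_mk_cj]⟩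
    · rintro ⟨P', hP', rfl⟩
      obtain ⟨s, rfl⟩ := isDefectGroup_exists_conj hM hB hP hP'
      rw [map_mk_cj]
      exact isDefectGroup_cj hdef _

end Cfsg.Agent.S4434
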