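import Mathlib
import Cfsg.Statements.S4443
import Cfsg.Agent.Lib.Helper6.RobinsonRank

set_option autoImplicit false
open Cfsg
open Cfsg.Agent.Lib.Helper6 Cfsg.Agent.Lib.Helper2
open scoped ComplexConjugate Classical

attribute [local instance] irrFintype

namespace Cfsg.Agent.S4443

/-- Let D be a normal p-subgroup of the finite group G, of order p^d, let p^a be the p-part of the order of G, and fix a Sylow p-subgroup S and a maximal ideal M of the algebraic integers containing p. Index by a finite type ι (via an injective map K) exactly the conjugacy classes of p-regular elements x of G for which D is a Sylow p-subgroup of C_G(x). For classes K_i, K_j let ω(i, j) be the number of pairs (y, z) ∈ K_i × K_j with z y⁻¹ ∈ S; this number is divisible by p^(a−d). Then the number of p-blocks of G having D as a defect group equals the rank over ℤ/pℤ of the matrix with (i, j) entry ω(i, j)/p^(a−d) reduced modulo p. -/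
theorem result {G : Type*} [Group G] [Finite G] (p : ℕ) [Fact p.Prime] (M : Ideal Cfsg.AlgInt) (hM : Cfsg.IsPModular p M) (D : Subgroup G) [D.Normal] (hD : IsPGroup p D) (S : Sylow p G) {ι : Type*} [Fintype ι] [DecidableEq ι] (K : ι → ConjClasses G) (hKinj : Function.Injective K) (hK : ∀ C : ConjClasses G, (∃ i, K i = C) ↔ ∃ x ∈ C.carrier, ¬ p ∣ orderOf x ∧ ∃ Q : Sylow p (Subgroup.centralizer ({x} : Set G)), (Q : Subgroup (Subgroup.centralizer ({x} : Set G))).map (Subgroup.centralizer ({x} : Set G)).subtype = D) : Nat.card {B : Set (Cfsg.IrrCharacter G) // Cfsg.IsPBlock M B ∧ Cfsg.IsDefectGroup p M B D} = (Matrix.of fun i j : ι => ((Nat.card {yz : G × G // yz.1 ∈ (K i).carrier ∧ yz.2 ∈ (K j).carrier ∧ yz.2 * yz.1⁻¹ ∈ (S : Subgroup G)} / p ^ ((Nat.card G).factorization p - (Nat.card D).factorization p) : ℕ) : ZMod p)).rank := by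
  let _ := Fintype.ofFinite G
  have hx : ∀ i, ∃ x : G, ConjClasses.mk x = K i ∧ IsGood p D x := by
    intro i
    obtain ⟨x, hx, hreg, Q, hQ⟩ := (hK (K i)).mp ⟨i, rfl⟩
    exact ⟨x, ConjClasses.mem_carrier_iff_mk_eq.mp hx, hreg, Q, hQ.symm⟩
  choose x hxK hgood using hx
  have hinj : ∀ i j, IsConj (x i) (x j) → i = j := by
    intro i j h
    apply hKinj
    rw [← hxK i, ← hxK j]
    exact ConjClasses.mk_eq_mk_iff_isConj.mpr h
  have hsurj : ∀ g, IsGood p D g → ∃ i, IsConj (x i) g := by
    intro g hg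
    obtain ⟨Q, hQ⟩ := hg.2
    obtain ⟨i, hi⟩ := (hK (ConjClasses.mk g)).mpr
      ⟨g, ConjClasses.mem_carrier_mk, hg.1, Q, hQ.symm⟩
    refine ⟨i, ?_⟩
    rw [← ConjClasses.mk_eq_mk_iff_isConj, hxK i, hi]
  rw [card_blocks_eq_rank hM S x hgood hinj hsurj]
  congr 1
  ext i j
  simp only [Matrix.of_apply]
  congr 2
  apply Nat.card_congr
  apply Equiv.subtypeEquivRight
  intro q
  rw [ConjClasses.mem_carrier_iff_mk_eq, ConjClasses.mem_carrier_iff_mk_eq, ← hxK i, ← hxK j,
    ConjClasses.mk_eq_mk_iff_isConj, ConjClasses.mk_eq_mk_iff_isConj, isConj_comm,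
    isConj_comm (g := x j)]

end Cfsg.Agent.S4443
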