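import Cfsg.Statements.S4445
import Cfsg.Agent.Lib.Lead.GlaubG

set_option autoImplicit false
open Cfsg

namespace Cfsg.Agent.S4445

/-- Inside a finite group Γ let the solvable subgroup S normalise G with the orders of G and S coprime. Then the number of S-invariant irreducible characters of G (χ(s g s⁻¹) = χ(g) for all s ∈ S, g ∈ G) equals the number of conjugacy classes of G mapped to themselves by conjugation by every element of S. -/
theorem result {Γ : Type*} [Group Γ] [Fintype Γ] (G S : Subgroup Γ) [Fintype G] (hnorm : ∀ s ∈ S, ∀ g ∈ G, s * g * s⁻¹ ∈ G) (hcop : (Nat.card G).Coprime (Nat.card S)) (hsolv : Group.IsSolvable S) : Nat.card {χ : Cfsg.IrrCharacter G // (∀ s ∈ S, ∀ g g' : G, (g' : Γ) = s * g * s⁻¹ → (χ : G → ℂ) g' = (χ : G → ℂ) g)} = Nat.card {K : ConjClasses G // ∀ s ∈ S, ∀ g g' : G, (g' : Γ) = s * g * s⁻¹ → ConjClasses.mk g = K → ConjClasses.mk g' = K} := by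
  have hfin : Finite Γ := Finite.of_fintype Γ
  have h := Cfsg.Agent.Lib.Lead.Glaub.card_inv_eq _ G S
    (Cfsg.Agent.Lib.Lead.Glaub.conjOn G S hnorm) rfl hsolv hcop
  have e1 : ∀ χ : Cfsg.IrrCharacter G,
      Cfsg.Agent.Lib.Lead.Glaub.Inv (Cfsg.Agent.Lib.Lead.Glaub.conjOn G S hnorm) (χ : G → ℂ) ↔
      (∀ s ∈ S, ∀ g g' : G, (g' : Γ) = s * g * s⁻¹ → (χ : G → ℂ) g' = (χ : G → ℂ) g) :=
    fun χ => Cfsg.Agent.Lib.Lead.Glaub.inv_conjOn_iff G S hnorm _
  have e2 : ∀ K : ConjClasses G,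
      Cfsg.Agent.Lib.Lead.Glaub.InvC (Cfsg.Agent.Lib.Lead.Glaub.conjOn G S hnorm) K ↔
      (∀ s ∈ S, ∀ g g' : G, (g' : Γ) = s * g * s⁻¹ → ConjClasses.mk g = K →
        ConjClasses.mk g' = K) := by
    intro K
    constructor
    · intro hK s hs g g' hg hgK
      have := hK ⟨s, hs⟩ g hgK
      rw [← this]
      congr 1
      exact Subtype.ext hg
    · intro hK s g hgK
      exact hK s s.2 g _ rfl hgK
  rw [← Nat.card_congr (Equiv.subtypeEquivRight e1), ← Nat.card_congr (Equiv.subtypeEquivRight e2)]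
  exact h

end Cfsg.Agent.S4445
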