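import Cfsg.Statements.S4454
import Cfsg.Agent.Lib.Helper13.Clifford4
import Cfsg.Agent.Lib.Helper13.CyclicExt2
import Cfsg.Agent.Lib.Helper13.LinCount

set_option autoImplicit false
open Cfsg

namespace Cfsg.Agent.S4454

open Cfsg.Agent.Lib.Helper2 Cfsg.Agent.Lib.Helper13 Cfsg.Agent.Lib.Helper6
open scoped Classical ComplexConjugate

attribute [local instance] irrFintype

variable {Γ : Type*} [Group Γ] [Fintype Γ]

theorem sum_coset_eq (G : Subgroup Γ) (z : Γ) (f : Γ → ℂ) :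
    ∑ γ : Γ, (if z⁻¹ * γ ∈ G then f γ else 0) = ∑ y : G, f (z * y) := by
  have h1 : ∑ γ : Γ, (if z⁻¹ * γ ∈ G then f γ else 0) =
      ∑ γ : Γ, (if γ ∈ G then f (z * γ) else 0) := by
    symm
    refine Fintype.sum_equiv (Equiv.mulLeft z) _ _ fun γ => ?_
    simp
  rw [h1, ← Finset.sum_filter]
  exact Finset.sum_subtype (Finset.univ.filter (· ∈ G)) (by simp) (fun γ => f (z * γ))

/-- the norm of an extension on a coset -/
theorem coset_sum (G : Subgroup Γ) [hG : G.Normal] (hab : ∀ x y : Γ, x * y * x⁻¹ * y⁻¹ ∈ G)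
    {X : Γ → ℂ} (hX : IsIrrCharacter Γ X) (hXG : IsIrrCharacter G (fun g : G => X g)) (z : Γ) :
    ∑ y : G, X (z * y) * conj (X (z * y)) = Nat.card G := by
  set F : Γ → ℂ := fun γ => if z⁻¹ * γ ∈ G then 1 else 0 with hF
  have hFcl : IsClassFunction Γ F := by
    intro γ h
    have h1 : z⁻¹ * (h * γ * h⁻¹) ∈ G ↔ z⁻¹ * γ ∈ G := by
      have h2 : z⁻¹ * (h * γ * h⁻¹) = (z⁻¹ * γ) * (γ⁻¹ * h * γ⁻¹⁻¹ * h⁻¹) := by group
      rw [h2]
      exact G.mul_mem_cancel_right (hab _ _)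
    simp only [hF, h1]
  have hFc : ∀ n ∈ G, ∀ γ, F (γ * n) = F γ := by
    intro n hn γ
    have h1 : z⁻¹ * (γ * n) ∈ G ↔ z⁻¹ * γ ∈ G := by
      rw [← mul_assoc]
      exact G.mul_mem_cancel_right hn
    simp only [hF, h1]
  have hgal := gallagher G hX hXG
  have hΓ : (Nat.card Γ : ℂ) ≠ 0 := card_ne_zero_complex
  have key : classInner (F * X) X = classInner F (fun _ => 1) := by
    conv_lhs => rw [classFunction_eq_sum hFcl, Finset.sum_mul, classInner_sum_left]
    rw [Finset.sum_eq_single (⟨fun _ => 1, isIrrCharacter_one⟩ : IrrCharacter Γ)]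
    · rw [smul_mul_assoc, classInner_smul_left]
      have h1 : ((fun _ => 1 : Γ → ℂ) * X) = X := by funext γ; simp
      simp only [h1]
      rw [classInner_irr hX hX, if_pos rfl, mul_one]
    · intro β _ hβ
      rw [smul_mul_assoc, classInner_smul_left]
      rcases ker_or_sum_eq_zero G β.2 with hk | hs
      · have h1 : IsIrrCharacter Γ ((β : Γ → ℂ) * X) := (hgal.mapsTo ⟨β.2, hk⟩).1
        rw [classInner_irr h1 hX, if_neg, mul_zero]
        intro h2
        apply hβ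
        apply Subtype.ext
        refine hgal.injOn ⟨β.2, hk⟩ ⟨isIrrCharacter_one, fun _ _ => rfl⟩ ?_
        show (β : Γ → ℂ) * X = (fun _ => 1) * X
        rw [h2]
        funext γ
        simp
      · rw [classInner_eq_zero_of_coset_const G hFc (IsIrrCharacter.isCharacter β.2) hs, zero_mul]
    · intro h
      exact absurd (Finset.mem_univ _) h
  unfold classInner at key
  have h2 := mul_left_cancel₀ (inv_ne_zero hΓ) key
  have h3 : ∑ γ : Γ, (F * X) γ * conj (X γ) = ∑ y : G, X (z * y) * conj (X (z * y)) := by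
    rw [← sum_coset_eq G z (fun γ => X γ * conj (X γ))]
    refine Finset.sum_congr rfl fun γ _ => ?_
    simp only [hF, Pi.mul_apply]
    split_ifs <;> simp
  have h4 : ∑ γ : Γ, F γ * conj (1 : ℂ) = Nat.card G := by
    have := sum_coset_eq G z (fun _ => (1 : ℂ))
    simp only [map_one, mul_one, hF]
    rw [this]
    simp [Nat.card_eq_fintype_card]
  rw [← h3, h2, h4]

theorem frob_surj (G N : Subgroup Γ) [hG : G.Normal] [hN : N.Normal]
    (hfrob : ∀ x : Γ, x ∉ G → ∀ g : Γ, g ∈ G → x * g * x⁻¹ * g⁻¹ ∈ N → g ∈ N) {z : Γ} (hz : z ∉ G)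
    (u : Γ) (hu : u ∈ G) : ∃ g ∈ G, u⁻¹ * (z⁻¹ * g * z * g⁻¹) ∈ N := by
  set π := QuotientGroup.mk' N with hπ
  haveI hGn : (G.map π).Normal := hG.map π (QuotientGroup.mk'_surjective N)
  let k : G.map π → G.map π := fun q => ⟨(π z)⁻¹ * q * π z * (q : Γ ⧸ N)⁻¹, by
    refine (G.map π).mul_mem ?_ ((G.map π).inv_mem q.2)
    have := hGn.conj_mem q q.2 (π z)⁻¹
    rwa [inv_inv] at this⟩
  have hinj : Function.Injective k := by
    intro q q' hqq
    have h1 : (π z)⁻¹ * q * π z * (q : Γ ⧸ N)⁻¹ = (π z)⁻¹ * q' * π z * (q' : Γ ⧸ N)⁻¹ :=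
      congrArg Subtype.val hqq
    obtain ⟨g, hg, hgq⟩ := q.2
    obtain ⟨g', hg', hgq'⟩ := q'.2
    rw [← hgq, ← hgq'] at h1
    have h2 : π (z * (g'⁻¹ * g) * z⁻¹ * (g'⁻¹ * g)⁻¹) = 1 := by
      simp only [map_mul, map_inv, mul_inv_rev, inv_inv]
      have h3 : π g * π z * (π g)⁻¹ = π g' * π z * (π g')⁻¹ := by
        have := congrArg (fun t => π z * t) h1
        simpa [mul_assoc] using this
      have h4 : π z * (π g)⁻¹ * π g' = (π g)⁻¹ * π g' * π z := by
        calc π z * (π g)⁻¹ * π g' = (π g)⁻¹ * (π g * π z * (π g)⁻¹) * π g' := by group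
          _ = (π g)⁻¹ * (π g' * π z * (π g')⁻¹) * π g' := by rw [h3]
          _ = (π g)⁻¹ * π g' * π z := by group
      calc π z * ((π g')⁻¹ * π g) * (π z)⁻¹ * ((π g)⁻¹ * π g')
          = π z * ((π g')⁻¹ * π g) * (π z)⁻¹ * ((π g)⁻¹ * π g' * π z) * (π z)⁻¹ := by group
        _ = π z * ((π g')⁻¹ * π g) * (π z)⁻¹ * (π z * (π g)⁻¹ * π g') * (π z)⁻¹ := by rw [h4]
        _ = 1 := by group
    have h5 : z * (g'⁻¹ * g) * z⁻¹ * (g'⁻¹ * g)⁻¹ ∈ N := (QuotientGroup.eq_one_iff _).mp h2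
    have h6 := hfrob z hz _ (G.mul_mem (G.inv_mem hg') hg) h5
    apply Subtype.ext
    rw [← hgq, ← hgq']
    symm
    exact QuotientGroup.eq.mpr h6
  obtain ⟨q, hq⟩ := (Finite.injective_iff_surjective.mp hinj) ⟨π u, Subgroup.mem_map_of_mem π hu⟩
  obtain ⟨g, hg, hgq⟩ := q.2
  refine ⟨g, hg, ?_⟩
  have h1 : (π z)⁻¹ * q * π z * (q : Γ ⧸ N)⁻¹ = π u := congrArg Subtype.val hq
  rw [← hgq] at h1
  apply QuotientGroup.eq.mp
  show π u = π (z⁻¹ * g * z * g⁻¹)
  rw [← h1]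
  simp

theorem sum_N_eq (G N : Subgroup Γ) [hG : G.Normal] [hN : N.Normal]
    (hfrob : ∀ x : Γ, x ∉ G → ∀ g : Γ, g ∈ G → x * g * x⁻¹ * g⁻¹ ∈ N → g ∈ N)
    {f : Γ → ℂ} (hf : IsClassFunction Γ f) {z : Γ} (hz : z ∉ G) (u : Γ) (hu : u ∈ G) :
    ∑ n : N, f (z * u * n) = ∑ n : N, f (z * n) := by
  obtain ⟨g, hg, hn₀⟩ := frob_surj G N hfrob hz u hu
  symm
  have hinj : Function.Injective (fun m : N =>
      (⟨u⁻¹ * (z⁻¹ * g * z * g⁻¹) * (g * m * g⁻¹), N.mul_mem hn₀ (hN.conj_mem m m.2 g)⟩ : N)) := by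
    intro m m' h
    have := congrArg Subtype.val h
    simp only at this
    apply Subtype.ext
    simpa using this
  refine Fintype.sum_bijective _ (Finite.injective_iff_bijective.mp hinj) _ _ fun m => ?_
  rw [← hf (z * m) g]
  congr 1
  simp only
  group

theorem sum_G_eq (G N : Subgroup Γ) [hG : G.Normal] [hN : N.Normal] (hNG : N ≤ G)
    (hfrob : ∀ x : Γ, x ∉ G → ∀ g : Γ, g ∈ G → x * g * x⁻¹ * g⁻¹ ∈ N → g ∈ N)
    {f : Γ → ℂ} (hf : IsClassFunction Γ f) {z : Γ} (hz : z ∉ G) :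
    (Nat.card N : ℂ) * ∑ y : G, f (z * y) = (Nat.card G : ℂ) * ∑ n : N, f (z * n) := by
  have h1 : ∑ n : N, ∑ y : G, f (z * y * n) = (Nat.card N : ℂ) * ∑ y : G, f (z * y) := by
    have : ∀ n ∈ (Finset.univ : Finset N), ∑ y : G, f (z * y * n) = ∑ y : G, f (z * y) := by
      intro n _
      refine Fintype.sum_equiv (Equiv.mulRight (⟨n, hNG n.2⟩ : G)) _ _ fun y => ?_
      simp [mul_assoc]
    rw [Finset.sum_congr rfl this, Finset.sum_const, Finset.card_univ, nsmul_eq_mul,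
      Nat.card_eq_fintype_card]
  have h2 : ∑ y : G, ∑ n : N, f (z * y * n) = (Nat.card G : ℂ) * ∑ n : N, f (z * n) := by
    have : ∀ y ∈ (Finset.univ : Finset G), ∑ n : N, f (z * y * n) = ∑ n : N, f (z * n) :=
      fun y _ => sum_N_eq G N hfrob hf hz y y.2
    rw [Finset.sum_congr rfl this, Finset.sum_const, Finset.card_univ, nsmul_eq_mul,
      Nat.card_eq_fintype_card]
  rw [← h1, ← h2, Finset.sum_comm]

theorem arith {ι : Type*} (I : Finset ι) (a : ι → ℕ) (c e : ℕ) (hc : 0 < c) (hI : I.card ≤ c)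
    (h1 : ∑ i ∈ I, a i = e) (h2 : c * ∑ i ∈ I, a i ^ 2 + 1 = e ^ 2 + c) :
    (c : ℤ) ∣ (e : ℤ) - 1 ∨ (c : ℤ) ∣ (e : ℤ) + 1 := by
  have hcz : (0 : ℤ) < c := by exact_mod_cast hc
  have h1z : ∑ i ∈ I, (a i : ℤ) = e := by exact_mod_cast h1
  have h2z : (c : ℤ) * ∑ i ∈ I, (a i : ℤ) ^ 2 + 1 = (e : ℤ) ^ 2 + c := by exact_mod_cast h2
  have hmz : ((I.card : ℕ) : ℤ) ≤ c := by exact_mod_cast hI
  set s2 : ℤ := ∑ i ∈ I, (a i : ℤ) ^ 2 with hs2
  set m : ℤ := (I.card : ℤ) with hm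
  obtain ⟨q, hq⟩ : ∃ q : ℤ, q = (e : ℤ) / c := ⟨_, rfl⟩
  obtain ⟨t, ht⟩ : ∃ t : ℤ, t = (e : ℤ) % c := ⟨_, rfl⟩
  have hdiv : (c : ℤ) * q + t = e := by rw [hq, ht]; exact Int.mul_ediv_add_emod _ _
  have ht0 : 0 ≤ t := by rw [ht]; exact Int.emod_nonneg _ hcz.ne'
  have htc : t < c := by rw [ht]; exact Int.emod_lt_of_pos _ hcz
  have hP : ∑ i ∈ I, ((a i : ℤ) - q) ^ 2 = s2 - 2 * q * e + m * q ^ 2 := by
    have : ∀ i ∈ I, ((a i : ℤ) - q) ^ 2 = (a i : ℤ) ^ 2 - 2 * q * (a i : ℤ) + q ^ 2 := by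
      intro i _; ring
    rw [Finset.sum_congr rfl this, Finset.sum_add_distrib, Finset.sum_sub_distrib,
      ← Finset.mul_sum, h1z, Finset.sum_const, nsmul_eq_mul]
  have hL : ∑ i ∈ I, ((a i : ℤ) - q) = e - m * q := by
    rw [Finset.sum_sub_distrib, h1z, Finset.sum_const, nsmul_eq_mul]
  have hLP : ∑ i ∈ I, ((a i : ℤ) - q) ≤ ∑ i ∈ I, ((a i : ℤ) - q) ^ 2 :=
    Finset.sum_le_sum fun i _ => Int.le_self_sq _
  rw [hP, hL] at hLP
  have hq2 : -q ≤ q ^ 2 := by
    have := Int.le_self_sq (-q)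
    simpa using this
  have h3 : ((c : ℤ) - m) * (-q) ≤ ((c : ℤ) - m) * q ^ 2 :=
    mul_le_mul_of_nonneg_left hq2 (by linarith)
  have h4 : t ≤ s2 - 2 * q * e + c * q ^ 2 := by nlinarith
  have h5 : (c : ℤ) * t ≤ t ^ 2 + c - 1 := by
    have h6 : (c : ℤ) * t ≤ c * (s2 - 2 * q * e + c * q ^ 2) := mul_le_mul_of_nonneg_left h4 hcz.le
    have h7 : (c : ℤ) * (s2 - 2 * q * e + c * q ^ 2) = t ^ 2 + c - 1 := by
      have : t = e - c * q := by linarith
      rw [this]
      linear_combination h2z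
    linarith
  rcases lt_trichotomy t 1 with h | h | h
  · have t0 : t = 0 := by omega
    left
    have h8 : (c : ℤ) ∣ 1 := by
      refine ⟨c * q ^ 2 + 1 - s2, ?_⟩
      have : (e : ℤ) = c * q := by linarith
      rw [this] at h2z
      linear_combination h2z
    exact h8.trans (one_dvd _)
  · left
    exact ⟨q, by linarith⟩
  · right
    have h9 : (c : ℤ) ≤ t + 1 := by
      by_contra hcon
      push Not at hcon
      nlinarith
    exact ⟨q + 1, by linarith⟩

theorem core (G N : Subgroup Γ) [hG : G.Normal] [hN : N.Normal] (hNG : N ≤ G) (hGlt : G ≠ ⊤)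
    (hcyc : IsCyclic (Γ ⧸ G))
    (hfrob : ∀ x : Γ, x ∉ G → ∀ g : Γ, g ∈ G → x * g * x⁻¹ * g⁻¹ ∈ N → g ∈ N)
    {θ : N → ℂ} (hθ : IsIrrCharacter N θ) (hinv : ∀ x : Γ, conjFun N x θ = θ)
    {X : Γ → ℂ} (hX : IsIrrCharacter Γ X) (hXG : IsIrrCharacter G (fun g : G => X g))
    (e : ℕ) (hXN : ∀ n : N, X n = e * θ n) :
    (G.index : ℤ) ∣ (e : ℤ) - 1 ∨ (G.index : ℤ) ∣ (e : ℤ) + 1 := by
  obtain ⟨xb, hxb⟩ := hcyc.exists_generator
  obtain ⟨x, rfl⟩ := QuotientGroup.mk_surjective xb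
  have hxG : x ∉ G := by
    intro hx
    apply hGlt
    rw [eq_top_iff]
    intro γ _
    obtain ⟨k, hk⟩ := Subgroup.mem_zpowers_iff.mp (hxb (γ : Γ ⧸ G))
    rw [(QuotientGroup.eq_one_iff x).mpr hx, one_zpow] at hk
    exact (QuotientGroup.eq_one_iff γ).mp hk.symm
  have hab : ∀ a b : Γ, a * b * a⁻¹ * b⁻¹ ∈ G := by
    intro a b
    rw [← QuotientGroup.eq_one_iff]
    obtain ⟨k, hk⟩ := Subgroup.mem_zpowers_iff.mp (hxb (a : Γ ⧸ G))
    obtain ⟨l, hl⟩ := Subgroup.mem_zpowers_iff.mp (hxb (b : Γ ⧸ G))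
    simp only [QuotientGroup.mk_mul, QuotientGroup.mk_inv, ← hk, ← hl]
    rw [← zpow_add, add_comm, zpow_add]
    group
  obtain ⟨H, hHdef⟩ : ∃ H : Subgroup Γ,
      H = (Subgroup.zpowers (QuotientGroup.mk x : Γ ⧸ N)).comap (QuotientGroup.mk' N) := ⟨_, rfl⟩
  have hmemH : ∀ γ : Γ, γ ∈ H ↔ ∃ k : ℤ, (x ^ k)⁻¹ * γ ∈ N := by
    intro γ
    rw [hHdef, Subgroup.mem_comap, Subgroup.mem_zpowers_iff]
    refine exists_congr fun k => ?_
    rw [QuotientGroup.mk'_apply, ← QuotientGroup.mk_zpow, QuotientGroup.eq]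
  have hNH : N ≤ H := by
    intro n hn
    rw [hmemH]
    exact ⟨0, by simpa using hn⟩
  have hxH : x ∈ H := by
    rw [hmemH]
    exact ⟨1, by simp⟩
  have hpow : ∀ k : ℤ, x ^ k ∈ G → x ^ k ∈ N := by
    intro k hk
    apply hfrob x hxG _ hk
    have : x * x ^ k * x⁻¹ * (x ^ k)⁻¹ = 1 := by group
    rw [this]
    exact N.one_mem
  have hGH : ∀ γ : Γ, γ ∈ H → γ ∈ G → γ ∈ N := by
    intro γ hγH hγG
    obtain ⟨k, hk⟩ := (hmemH γ).mp hγH
    have h1 : x ^ k ∈ G := by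
      have h2 := G.mul_mem hγG (G.inv_mem (hNG hk))
      have h3 : γ * ((x ^ k)⁻¹ * γ)⁻¹ = x ^ k := by group
      rwa [h3] at h2
    have h4 := N.mul_mem (hpow k h1) hk
    rwa [mul_inv_cancel_left] at h4
  have hsup : H ⊔ G = ⊤ := by
    rw [eq_top_iff]
    intro γ _
    obtain ⟨k, hk⟩ := Subgroup.mem_zpowers_iff.mp (hxb (γ : Γ ⧸ G))
    rw [← QuotientGroup.mk_zpow, QuotientGroup.eq] at hk
    have h1 : γ = x ^ k * ((x ^ k)⁻¹ * γ) := by group
    rw [h1]
    exact Subgroup.mul_mem_sup (H.zpow_mem hxH k) hk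
  have hidx : (N.subgroupOf H).index = G.index := by
    have h1 := Subgroup.relIndex_sup_right H G
    rw [hsup, Subgroup.relIndex_top_right] at h1
    rw [h1, ← Subgroup.inf_relIndex_right]
    have h2 : G ⊓ H = N := le_antisymm (fun γ hγ => hGH γ hγ.2 hγ.1) (le_inf hNG hNH)
    rw [h2]
    rfl
  have habH : ∀ a b : H, a * b * a⁻¹ * b⁻¹ ∈ N.subgroupOf H := by
    intro a b
    rw [Subgroup.mem_subgroupOf]
    exact hGH _ (a * b * a⁻¹ * b⁻¹).2 (hab a b)
  have hcycH : IsCyclic (H ⧸ N.subgroupOf H) := by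
    refine ⟨⟨QuotientGroup.mk (⟨x, hxH⟩ : H), fun q => ?_⟩⟩
    obtain ⟨h, rfl⟩ := QuotientGroup.mk_surjective q
    obtain ⟨k, hk⟩ := (hmemH h).mp h.2
    refine ⟨k, ?_⟩
    show (QuotientGroup.mk (⟨x, hxH⟩ : H) : H ⧸ N.subgroupOf H) ^ k = _
    rw [← QuotientGroup.mk_zpow, QuotientGroup.eq, Subgroup.mem_subgroupOf]
    simpa using hk
  have hθH : IsIrrCharacter (N.subgroupOf H) (toSubgroupOf N H θ) :=
    IsIrrCharacter.toSubgroupOf hNH hθ
  have hinvH : ∀ h : H, conjFun (N.subgroupOf H) h (toSubgroupOf N H θ) = toSubgroupOf N H θ := by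
    intro h
    rw [conjFun_toSubgroupOf, hinv]
  obtain ⟨θh, hθh, hext⟩ := exists_extension_of_cyclic_quotient (N.subgroupOf H) hcycH hθH hinvH
  have hXH : IsCharacter H (fun h : H => X h) :=
    IsCharacter.restrict H (IsIrrCharacter.isCharacter hX)
  choose a ha using fun ψ : IrrCharacter H =>
    IsCharacter.classInner_nat hXH (IsIrrCharacter.isCharacter ψ.2)
  have hdec : (fun h : H => X h) = ∑ ψ : IrrCharacter H, (a ψ : ℂ) • (ψ : H → ℂ) := by
    conv_lhs => rw [classFunction_eq_sum (IsCharacter.isClassFunction hXH)]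
    simp_rw [ha]
  have hθ1 : θ 1 ≠ 0 := irr_one_ne_zero hθ
  -- constituents are extensions
  have hres : ∀ ψ : IrrCharacter H, a ψ ≠ 0 →
      (fun n : N.subgroupOf H => (ψ : H → ℂ) n) = toSubgroupOf N H θ := by
    intro ψ hψ
    have h1 : classInner (indFun (N.subgroupOf H) (toSubgroupOf N H θ)) θh ≠ 0 := by
      rw [frobenius_reciprocity _ _ _ (IsCharacter.isClassFunction (IsIrrCharacter.isCharacter hθh))]
      have : (fun n : N.subgroupOf H => θh n) = toSubgroupOf N H θ := funext hext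
      rw [this, classInner_irr hθH hθH, if_pos rfl]
      exact one_ne_zero
    have h2 : classInner (indFun (N.subgroupOf H) (toSubgroupOf N H θ)) (ψ : H → ℂ) ≠ 0 := by
      rw [frobenius_reciprocity _ _ _ (IsCharacter.isClassFunction (IsIrrCharacter.isCharacter ψ.2))]
      intro h0
      have hR : ∀ ψ' : IrrCharacter H, IsCharacter (N.subgroupOf H)
          (fun n : N.subgroupOf H => (ψ' : H → ℂ) n) := fun ψ' =>
        IsCharacter.restrict _ (IsIrrCharacter.isCharacter ψ'.2)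
      choose b hb using fun ψ' : IrrCharacter H => IsCharacter.classInner_nat (hR ψ') (hR ψ)
      have e1 : (fun n : N.subgroupOf H => X ((n : H) : Γ)) = (e : ℂ) • toSubgroupOf N H θ := by
        funext n
        exact hXN ⟨((n : H) : Γ), Subgroup.mem_subgroupOf.mp n.2⟩
      have e2 : (fun n : N.subgroupOf H => X ((n : H) : Γ)) =
          ∑ ψ' : IrrCharacter H, (a ψ' : ℂ) • (fun n : N.subgroupOf H => (ψ' : H → ℂ) n) := by
        funext n
        have := congrFun hdec (n : H)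
        simp only [Finset.sum_apply, Pi.smul_apply] at this ⊢
        exact this
      have e3 : classInner (fun n : N.subgroupOf H => X ((n : H) : Γ))
          (fun n : N.subgroupOf H => (ψ : H → ℂ) n) = 0 := by
        rw [e1, classInner_smul_left, h0, mul_zero]
      rw [e2, classInner_sum_left] at e3
      simp_rw [classInner_smul_left, hb] at e3
      have e4 : ∑ ψ' : IrrCharacter H, a ψ' * b ψ' = 0 := by exact_mod_cast e3
      have e5 := (Finset.sum_eq_zero_iff.mp e4) ψ (Finset.mem_univ _)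
      have e6 : b ψ = 0 := (Nat.mul_eq_zero.mp e5).resolve_left hψ
      have e7 := hb ψ
      rw [e6, Nat.cast_zero] at e7
      have e8 := congrFun (eq_zero_of_classInner_self_eq_zero _ e7) 1
      exact irr_one_ne_zero ψ.2 e8
    obtain ⟨β, _, _, hβN, hβ⟩ :=
      exists_linear_of_abelian_quotient (N.subgroupOf H) hθH hinvH habH hθh ψ.2 h1 h2
    funext n
    rw [hβ, Pi.mul_apply, hβN n n.2, one_mul, hext]
  set I : Finset (IrrCharacter H) := Finset.univ.filter fun ψ => a ψ ≠ 0 with hI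
  have hIcard : I.card ≤ G.index := by
    rw [← hidx]
    refine le_trans ?_ (LinCount.card_extensions_le (N.subgroupOf H) hθH)
    rw [Nat.card_eq_fintype_card, Fintype.card_subtype]
    apply Finset.card_le_card
    intro ψ hψ
    rw [hI, Finset.mem_filter] at hψ
    rw [Finset.mem_filter]
    exact ⟨Finset.mem_univ _, hres ψ hψ.2⟩
  have hsum1 : ∑ ψ ∈ I, a ψ = e := by
    have h1 := congrFun hdec 1
    simp only [Finset.sum_apply, Pi.smul_apply, smul_eq_mul] at h1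
    have h2 : ∀ ψ ∈ (Finset.univ : Finset (IrrCharacter H)),
        (a ψ : ℂ) * (ψ : H → ℂ) 1 = (if a ψ ≠ 0 then (a ψ : ℂ) else 0) * θ 1 := by
      intro ψ _
      by_cases h : a ψ = 0
      · simp [h]
      · rw [if_pos h]
        have := congrFun (hres ψ h) 1
        congr 1
    rw [Finset.sum_congr rfl h2, ← Finset.sum_mul, ← Finset.sum_filter] at h1
    have h3 : X ((1 : H) : Γ) = e * θ 1 := hXN 1
    rw [h3] at h1
    have h4 := mul_right_cancel₀ hθ1 h1
    have h5 : ((∑ ψ ∈ I, a ψ : ℕ) : ℂ) = (e : ℂ) := by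
      rw [h4, hI]
      push_cast
      rfl
    exact_mod_cast h5
  -- the norm of the restriction
  obtain ⟨f, hfdef⟩ : ∃ f : Γ → ℂ, f = fun γ => X γ * conj (X γ) := ⟨_, rfl⟩
  have hXcl := IsCharacter.isClassFunction (IsIrrCharacter.isCharacter hX)
  have hf : IsClassFunction Γ f := by
    intro γ h
    rw [hfdef]
    simp only [hXcl γ h]
  have hN0 : (Nat.card N : ℂ) ≠ 0 := by
    have : Nat.card N ≠ 0 := Nat.card_pos.ne'
    exact_mod_cast this
  have hG0 : (Nat.card G : ℂ) ≠ 0 := by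
    have : Nat.card G ≠ 0 := Nat.card_pos.ne'
    exact_mod_cast this
  have hH0 : (Nat.card H : ℂ) ≠ 0 := by
    have : Nat.card H ≠ 0 := Nat.card_pos.ne'
    exact_mod_cast this
  have hSN : ∑ n : N, f n = (e : ℂ) ^ 2 * Nat.card N := by
    have h1 := classInner_irr hθ hθ
    rw [if_pos rfl, classInner] at h1
    have h2 : ∑ n : N, θ n * conj (θ n) = Nat.card N := by
      field_simp at h1
      exact h1
    rw [← h2, Finset.mul_sum]
    refine Finset.sum_congr rfl fun n _ => ?_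
    rw [hfdef]
    simp only [hXN n, map_mul, Complex.conj_natCast]
    ring
  have hS : ∀ h : H, ∑ n : N, f (h * n) =
      if (h : Γ) ∈ N then (e : ℂ) ^ 2 * Nat.card N else Nat.card N := by
    intro h
    split_ifs with hh
    · rw [← hSN]
      exact Fintype.sum_equiv (Equiv.mulLeft (⟨h, hh⟩ : N)) _ _ fun n => rfl
    · have hhG : (h : Γ) ∉ G := fun hg => hh (hGH h h.2 hg)
      have h1 := sum_G_eq G N hNG hfrob hf hhG
      have h2 := coset_sum G hab hX hXG (h : Γ)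
      have h3 : ∑ y : G, f (h * y) = Nat.card G := by
        rw [← h2, hfdef]
      rw [h3, mul_comm] at h1
      exact (mul_left_cancel₀ hG0 h1).symm
  have hdouble : ∑ h : H, ∑ n : N, f (h * n) = (Nat.card N : ℂ) * ∑ h : H, f h := by
    rw [Finset.sum_comm]
    have : ∀ n ∈ (Finset.univ : Finset N), ∑ h : H, f (h * n) = ∑ h : H, f h := by
      intro n _
      exact Fintype.sum_equiv (Equiv.mulRight (⟨n, hNH n.2⟩ : H)) _ _ fun h => rfl
    rw [Finset.sum_congr rfl this, Finset.sum_const, Finset.card_univ, nsmul_eq_mul,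
      Nat.card_eq_fintype_card]
  have hcardN : ((Finset.univ.filter fun h : H => (h : Γ) ∈ N).card : ℂ) = Nat.card N := by
    rw [← card_subgroupOf_of_le hNH, Nat.card_eq_fintype_card, Fintype.card_subtype]
    rfl
  have hcardH : ((Finset.univ.filter fun h : H => (h : Γ) ∈ N).card : ℂ) +
      ((Finset.univ.filter fun h : H => ¬ (h : Γ) ∈ N).card : ℂ) = Nat.card H := by
    rw [← Nat.cast_add, Finset.card_filter_add_card_filter_not, Finset.card_univ,
      Nat.card_eq_fintype_card]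
  have hHN : (Nat.card H : ℂ) = (Nat.card N : ℂ) * G.index := by
    rw [← hidx, ← Nat.cast_mul, ← card_subgroupOf_of_le hNH, Subgroup.card_mul_index]
  have hnorm1 : classInner (fun h : H => X h) (fun h : H => X h) =
      ∑ ψ ∈ I, (a ψ : ℂ) ^ 2 := by
    rw [classInner_eq_sum_irr (IsCharacter.isClassFunction hXH) (IsCharacter.isClassFunction hXH)]
    simp_rw [ha, Complex.conj_natCast]
    rw [hI, Finset.sum_filter]
    refine Finset.sum_congr rfl fun ψ _ => ?_
    by_cases h : a ψ = 0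
    · simp [h]
    · rw [if_pos h, sq]
  have hnorm2 : classInner (fun h : H => X h) (fun h : H => X h) =
      (Nat.card H : ℂ)⁻¹ * ∑ h : H, f h := by
    rw [classInner, hfdef]
  simp_rw [hS] at hdouble
  rw [Finset.sum_ite, Finset.sum_const, Finset.sum_const, nsmul_eq_mul, nsmul_eq_mul, hcardN]
    at hdouble
  have hnot : ((Finset.univ.filter fun h : H => ¬ (h : Γ) ∈ N).card : ℂ) =
      (Nat.card N : ℂ) * G.index - Nat.card N := by
    rw [← hHN, ← hcardH, hcardN]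
    ring
  rw [hnot] at hdouble
  have hfsum : ∑ h : H, f h = (Nat.card N : ℂ) * ((e : ℂ) ^ 2 + G.index - 1) := by
    apply mul_left_cancel₀ hN0
    rw [← hdouble]
    ring
  have hc0 : (G.index : ℂ) ≠ 0 := by
    intro h0
    rw [h0, mul_zero] at hHN
    exact hH0 hHN
  have hfinal : (G.index : ℂ) * ∑ ψ ∈ I, (a ψ : ℂ) ^ 2 + 1 = (e : ℂ) ^ 2 + G.index := by
    rw [← hnorm1, hnorm2, hfsum, hHN]
    field_simp
    ring
  have hsum2 : G.index * ∑ ψ ∈ I, a ψ ^ 2 + 1 = e ^ 2 + G.index := by exact_mod_cast hfinal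
  have hcpos : 0 < G.index := by
    rcases Nat.eq_zero_or_pos G.index with h | h
    · exfalso; apply hc0; rw [h]; simp
    · exact h
  exact arith I a G.index e hcpos hIcard hsum1 hsum2

/-- Let N ≤ G be normal subgroups of the finite group Γ with Γ/G cyclic and Γ/N a Frobenius group with kernel G/N: G ≠ Γ, N ≠ G, and no element of Γ outside G fixes a non-identity coset of N in G under conjugation. Let ϑ be an irreducible character of N invariant under conjugation by Γ and suppose ϑ is fully ramified in G: the character of G induced from ϑ equals e·χ for an irreducible character χ of G and a natural number e. Then the index of G in Γ divides e − 1 or e + 1. -/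
theorem result {Γ : Type*} [Group Γ] [Fintype Γ] (G N : Subgroup Γ) [hG : G.Normal] [hN : N.Normal] [Fintype G] [Fintype N] (hNG : N ≤ G) (hGlt : G ≠ ⊤) (hNlt : N ≠ G) (hcyc : IsCyclic (Γ ⧸ G)) (hfrob : ∀ x : Γ, x ∉ G → ∀ g : Γ, g ∈ G → x * g * x⁻¹ * g⁻¹ ∈ N → g ∈ N) (θ : Cfsg.IrrCharacter N) (hinv : ∀ (x : Γ) (n : N), (θ : N → ℂ) ⟨x * n * x⁻¹, hN.conj_mem n n.2 x⟩ = (θ : N → ℂ) n) (χ : Cfsg.IrrCharacter G) (e : ℕ) (hram : Cfsg.indFun (N.subgroupOf G) (fun n : N.subgroupOf G => (θ : N → ℂ) ⟨(n : G), n.2⟩) = fun g => (e : ℂ) * (χ : G → ℂ) g) : (G.index : ℤ) ∣ (e : ℤ) - 1 ∨ (G.index : ℤ) ∣ (e : ℤ) + 1 := by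
  have hinv' : ∀ x : Γ, conjFun N x (θ : N → ℂ) = θ := fun x => (stmtInv_iff N _ x).mp (hinv x)
  have hθG : IsIrrCharacter (N.subgroupOf G) (toSubgroupOf N G θ) :=
    IsIrrCharacter.toSubgroupOf hNG θ.2
  have hinvG : ∀ g : G, conjFun (N.subgroupOf G) g (toSubgroupOf N G θ) = toSubgroupOf N G θ := by
    intro g
    rw [conjFun_toSubgroupOf, hinv']
  have hram' : indFun (N.subgroupOf G) (toSubgroupOf N G θ) = fun g => (e : ℂ) * (χ : G → ℂ) g :=
    hram
  have hθ1 : (θ : N → ℂ) 1 ≠ 0 := irr_one_ne_zero θ.2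
  have he : (e : ℂ) ≠ 0 := by
    intro h0
    have h1 := congrFun hram' 1
    rw [Cfsg.Agent.Lib.Helper24.indFun_one, h0, zero_mul] at h1
    rcases mul_eq_zero.mp h1 with h2 | h2
    · have : (N.subgroupOf G).index ≠ 0 := Subgroup.index_ne_zero_of_finite
      exact this (by exact_mod_cast h2)
    · exact hθ1 h2
  have hχcl := IsCharacter.isClassFunction (IsIrrCharacter.isCharacter χ.2)
  have hin : classInner (fun n : N.subgroupOf G => (χ : G → ℂ) n) (toSubgroupOf N G θ) = e := by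
    rw [← classInner_conj_symm, ← frobenius_reciprocity _ _ _ hχcl, hram']
    have : (fun g => (e : ℂ) * (χ : G → ℂ) g) = (e : ℂ) • (χ : G → ℂ) := rfl
    rw [this, classInner_smul_left, classInner_irr χ.2 χ.2, if_pos rfl]
    simp
  have hres := restrict_eq_smul_of_invariant (N.subgroupOf G) hθG hinvG χ.2 (by rw [hin]; exact he)
  rw [hin] at hres
  have hχinv : ∀ x : Γ, conjFun G x (χ : G → ℂ) = χ := by
    intro x
    funext g
    rw [conjFun_apply]
    apply mul_left_cancel₀ he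
    have h1 := congrFun hram' g
    have h2 := congrFun hram' ⟨x⁻¹ * g * x, by simpa using hG.conj_mem g g.2 x⁻¹⟩
    rw [← h1, ← h2]
    simp only [indFun, extendByZero_toSubgroupOf]
    congr 1
    refine Fintype.sum_equiv (MulAut.conjNormal x).toEquiv _ _ fun y => ?_
    have h3 := extendByZero_conjFun N (θ : N → ℂ) x
      ((((MulAut.conjNormal x).toEquiv y : G) : Γ)⁻¹ * g * ((MulAut.conjNormal x).toEquiv y : G))
    rw [hinv'] at h3
    simp only [Subgroup.coe_mul, Subgroup.coe_inv]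
    rw [h3]
    congr 1
    simp only [MulEquiv.toEquiv_eq_coe, MulEquiv.coe_toEquiv, MulAut.conjNormal_apply]
    group
  obtain ⟨X, hX, hXext⟩ := exists_extension_of_cyclic_quotient G hcyc χ.2 hχinv
  have hXG : IsIrrCharacter G (fun g : G => X g) := by
    have : (fun g : G => X g) = χ := funext hXext
    rw [this]
    exact χ.2
  refine core G N hNG hGlt hcyc hfrob θ.2 hinv' hX hXG e fun n => ?_
  have h1 := hXext ⟨n, hNG n.2⟩
  have h2 := congrFun hres ⟨⟨n, hNG n.2⟩, Subgroup.mem_subgroupOf.mpr n.2⟩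
  simp only at h1 h2
  rw [h1, h2]
  rfl

end Cfsg.Agent.S4454
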