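import Cfsg.Statements.S4459
import Mathlib
import Cfsg.Agent.Lib.Helper25.DegP6

set_option autoImplicit false
open Cfsg

namespace Cfsg.Agent.S4459

open Cfsg.Agent.Lib.Helper25.DegP Cfsg.Agent.Lib.Helper13

/-- Let G be a non-abelian finite group and p a prime. Then the irreducible character degrees of G are exactly 1 and p if and only if either G has an abelian normal subgroup of index p or the centre of G has index p³. -/
theorem result {G : Type*} [Group G] [Finite G] (hG : ∃ a b : G, a * b ≠ b * a) (p : ℕ) (hp : p.Prime) : ((∀ χ : Cfsg.IrrCharacter G, Cfsg.charDegree (χ : G → ℂ) = 1 ∨ Cfsg.charDegree (χ : G → ℂ) = p) ∧ ∃ χ : Cfsg.IrrCharacter G, Cfsg.charDegree (χ : G → ℂ) = p) ↔ ((∃ A : Subgroup G, A.Normal ∧ (∀ a ∈ A, ∀ b ∈ A, a * b = b * a) ∧ A.index = p) ∨ (Subgroup.center G).index = p ^ 3) := by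
  cases nonempty_fintype G
  constructor
  · rintro ⟨hcd, hex⟩
    exact forward hp hcd hex
  · intro h
    have hcd : ∀ χ : Cfsg.IrrCharacter G, Cfsg.charDegree (χ : G → ℂ) = 1 ∨
        Cfsg.charDegree (χ : G → ℂ) = p := by
      rcases h with ⟨A, hAn, hab, hidx⟩ | hZ
      · intro χ
        haveI := hAn
        exact (Nat.dvd_prime hp).mp (hidx ▸ ito_degree_dvd A hab χ)
      · exact backward_b hp hZ
    exact ⟨hcd, exists_deg hG hcd⟩

end Cfsg.Agent.S4459
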