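import Cfsg.Statements.S4470
import Mathlib
import Cfsg.Agent.Lib.Helper2.JorCount
import Cfsg.Agent.Lib.Helper2.JorUnit

set_option autoImplicit false
open Cfsg

namespace Cfsg.Agent.S4470

/-- Let the finite group G have a faithful character of degree n. Then G has an abelian normal subgroup A such that every abelian subgroup H of G satisfies [H : H ⊓ A] ≤ 12^n. -/
theorem result {G : Type*} [Group G] [Finite G] (χ : G → ℂ) (hχ : Cfsg.IsCharacter G χ) (hfaith : ∀ g : G, χ g = χ 1 → g = 1) (n : ℕ) (hn : Cfsg.charDegree χ = n) : ∃ A : Subgroup G, A.Normal ∧ (∀ x ∈ A, ∀ y ∈ A, x * y = y * x) ∧ ∀ H : Subgroup G, (∀ x ∈ H, ∀ y ∈ H, x * y = y * x) → (A.subgroupOf H).index ≤ 12 ^ n := by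
  classical
  obtain ⟨n', ρ, hρ⟩ := hχ
  have hχ1 : χ 1 = (n' : ℂ) := by
    rw [← hρ, Representation.char_one]
    simp
  have hnn : n' = n := by
    rw [← hn]
    unfold Cfsg.charDegree
    rw [hχ1]
    simp
  subst hnn
  let M : G →* Matrix (Fin n') (Fin n') ℂ :=
    ((LinearMap.toMatrixAlgEquiv' (R := ℂ) (n := Fin n')).toAlgHom.toMonoidHom).comp ρ
  have hM : ∀ g, M g = LinearMap.toMatrixAlgEquiv' (ρ g) := fun g => rfl
  obtain ⟨B, hBu, hB⟩ := Cfsg.Agent.Lib.Helper2.Jor.exists_unitarizer M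
  have hdet : IsUnit B.det := (Matrix.isUnit_iff_isUnit_det B).mp hBu
  have hB1 : B * B⁻¹ = 1 := Matrix.mul_nonsing_inv B hdet
  have hB2 : B⁻¹ * B = 1 := Matrix.nonsing_inv_mul B hdet
  let Φ : G →* (EuclideanSpace ℂ (Fin n') →L[ℂ] EuclideanSpace ℂ (Fin n')) :=
    { toFun := fun g => Matrix.toEuclideanCLM (n := Fin n') (𝕜 := ℂ) (B * M g * B⁻¹)
      map_one' := by
        rw [map_one, mul_one, hB1, map_one]
      map_mul' := by
        intro g h
        rw [← map_mul]
        congr 1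
        rw [map_mul]
        calc B * (M g * M h) * B⁻¹ = B * M g * 1 * M h * B⁻¹ := by
              simp only [mul_one, mul_assoc]
          _ = B * M g * B⁻¹ * (B * M h * B⁻¹) := by
              rw [← hB2]; simp only [mul_assoc] }
  have hΦ : ∀ g, Φ g = Matrix.toEuclideanCLM (n := Fin n') (𝕜 := ℂ) (B * M g * B⁻¹) :=
    fun g => rfl
  have hu : ∀ g, star (Φ g) * Φ g = 1 := by
    intro g
    rw [hΦ, ← map_star, ← map_mul, Matrix.star_eq_conjTranspose, hB g, map_one]
  have hinj : Function.Injective Φ := by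
    rw [injective_iff_map_eq_one]
    intro g hg
    apply hfaith
    rw [hΦ, ← map_one (Matrix.toEuclideanCLM (n := Fin n') (𝕜 := ℂ))] at hg
    have h1 : B * M g * B⁻¹ = 1 := (Matrix.toEuclideanCLM (n := Fin n') (𝕜 := ℂ)).injective hg
    have h2 : M g = 1 := by
      calc M g = B⁻¹ * (B * M g * B⁻¹) * B := by
            rw [← mul_assoc, ← mul_assoc, hB2, one_mul, mul_assoc, hB2, mul_one]
        _ = 1 := by rw [h1, mul_one, hB2]
    have h3 : ρ g = 1 := by
      rw [hM, ← map_one (LinearMap.toMatrixAlgEquiv' (R := ℂ) (n := Fin n'))] at h2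
      exact (LinearMap.toMatrixAlgEquiv' (R := ℂ) (n := Fin n')).injective h2
    rw [← hρ]
    unfold Representation.character
    rw [h3, map_one ρ]
  obtain ⟨A, hA1, hA2, hA3⟩ := Cfsg.Agent.Lib.Helper2.Jor.jordan_abstract Φ hu hinj
  refine ⟨A, hA1, hA2, fun H hH => ?_⟩
  have := hA3 H hH
  rwa [finrank_euclideanSpace_fin] at this

end Cfsg.Agent.S4470
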