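import Cfsg.Statements.S4474
import Cfsg.Agent.Lib.Helper23.FS
import Cfsg.Agent.Lib.Helper2.Decomp

set_option autoImplicit false
open Cfsg

namespace Cfsg.Agent.S4474

open Cfsg.Agent.Lib.Helper23 Cfsg.Agent.Lib.Helper2
open Matrix Module Representation
open scoped ComplexConjugate ComplexOrder

/-- entrywise complex conjugation of a matrix -/
noncomputable def cj {n : ℕ} : Matrix (Fin n) (Fin n) ℂ →+* Matrix (Fin n) (Fin n) ℂ :=
  (starRingEnd ℂ).mapMatrix

variable {n : ℕ}

theorem cj_apply (X : Matrix (Fin n) (Fin n) ℂ) (i j : Fin n) : cj X i j = conj (X i j) := rfl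

theorem cj_cj (X : Matrix (Fin n) (Fin n) ℂ) : cj (cj X) = X := by
  ext i j
  simp [cj_apply]

theorem cj_smul (c : ℂ) (X : Matrix (Fin n) (Fin n) ℂ) : cj (c • X) = conj c • cj X := by
  ext i j
  simp [cj_apply]

theorem conjTranspose_eq (X : Matrix (Fin n) (Fin n) ℂ) : Xᴴ = (cj X)ᵀ := by
  ext i j
  simp [cj_apply, Matrix.conjTranspose_apply]

theorem cj_transpose (X : Matrix (Fin n) (Fin n) ℂ) : cj Xᵀ = (cj X)ᵀ := by
  ext i j
  rfl

theorem trace_cj (X : Matrix (Fin n) (Fin n) ℂ) : (cj X).trace = conj X.trace := by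
  simp [Matrix.trace, cj_apply, map_sum]

theorem zk_injective : Function.Injective
    (fun k : ℕ => ((1 : ℂ) + k * Complex.I) / (1 - k * Complex.I)) := by
  intro a b hab
  have hne : ∀ k : ℕ, (1 : ℂ) - k * Complex.I ≠ 0 := by
    intro k h
    have := congrArg Complex.re h
    simp at this
  simp only at hab
  rw [div_eq_div_iff (hne a) (hne b)] at hab
  have h2 : ((a : ℂ) - b) * (2 * Complex.I) = 0 := by linear_combination hab
  rcases mul_eq_zero.mp h2 with h | h
  · have : (a : ℂ) = b := sub_eq_zero.mp h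
    exact_mod_cast this
  · simp at h

theorem exists_real_form {G : Type*} (A : G → Matrix (Fin n) (Fin n) ℂ)
    (S : Matrix (Fin n) (Fin n) ℂ) (hS : S * cj S = 1) (hA : ∀ g, A g * S = S * cj (A g)) :
    ∃ T : Matrix (Fin n) (Fin n) ℂ, IsUnit T ∧ ∀ g, cj (T⁻¹ * A g * T) = T⁻¹ * A g * T := by
  have hfin : (spectrum ℂ (-S)).Finite := Matrix.finite_spectrum _
  obtain ⟨k, hk⟩ := (hfin.preimage (Set.injOn_of_injective zk_injective)).exists_notMem
  rw [Set.mem_preimage, spectrum.mem_iff, not_not] at hk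
  set μ : ℂ := 1 + k * Complex.I with hμ
  have hμc : conj μ = 1 - k * Complex.I := by
    rw [hμ]
    simp [sub_eq_add_neg]
  have hne : conj μ ≠ 0 := by
    rw [hμc]
    intro h
    have := congrArg Complex.re h
    simp at this
  set T : Matrix (Fin n) (Fin n) ℂ := μ • 1 + conj μ • S with hT
  have hTu : IsUnit T := by
    have h1 : T = algebraMap ℂ _ (conj μ) * (algebraMap ℂ _ (μ / conj μ) - -S) := by
      rw [hT, ← Algebra.smul_def, smul_sub, smul_neg, sub_neg_eq_add, Algebra.algebraMap_eq_smul_one,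
        smul_smul, mul_div_cancel₀ _ hne]
    rw [h1]
    refine IsUnit.mul ((isUnit_iff_ne_zero.mpr hne).map (algebraMap ℂ _)) ?_
    rw [hμc]
    exact hk
  have hST : S * cj T = T := by
    rw [hT, map_add, cj_smul, cj_smul, map_one, Complex.conj_conj, mul_add, mul_smul_comm,
      mul_smul_comm, mul_one, hS, add_comm]
  refine ⟨T, hTu, fun g => ?_⟩
  have hdet : IsUnit T.det := (Matrix.isUnit_iff_isUnit_det T).mp hTu
  have h1 : T * (T⁻¹ * A g * T) = A g * T := by
    rw [← Matrix.mul_assoc, ← Matrix.mul_assoc, Matrix.mul_nonsing_inv T hdet, Matrix.one_mul]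
  have h2 : T * cj (T⁻¹ * A g * T) = A g * T := by
    have h3 := congrArg cj h1
    rw [map_mul, map_mul (cj) (A g)] at h3
    have h4 := congrArg (fun X => S * X) h3
    rw [← Matrix.mul_assoc, hST, ← Matrix.mul_assoc, ← hA, Matrix.mul_assoc (A g) S (cj T), hST] at h4
    exact h4
  have h5 := h2.trans h1.symm
  have h6 := congrArg (fun X => T⁻¹ * X) h5
  rwa [← Matrix.mul_assoc, Matrix.nonsing_inv_mul T hdet, Matrix.one_mul, ← Matrix.mul_assoc T⁻¹ T,
    Matrix.nonsing_inv_mul T hdet, Matrix.one_mul] at h6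

theorem exists_real_rep {G : Type*} [Group G] (R : G → Matrix (Fin n) (Fin n) ℂ) (h1 : R 1 = 1)
    (hmul : ∀ g h, R (g * h) = R g * R h) (hreal : ∀ g, cj (R g) = R g) :
    ∃ ρ : Representation ℝ G (Fin n → ℝ),
      ∀ g, ((LinearMap.trace ℝ (Fin n → ℝ) (ρ g) : ℝ) : ℂ) = (R g).trace := by
  set R' : G → Matrix (Fin n) (Fin n) ℝ := fun g => (R g).map Complex.re with hR'
  have hmap : ∀ g, Complex.ofRealHom.mapMatrix (R' g) = R g := by
    intro g
    ext i j
    have := congrFun (congrFun (hreal g) i) j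
    rw [cj_apply] at this
    exact Complex.conj_eq_iff_re.mp this
  have hinj : Function.Injective (Complex.ofRealHom.mapMatrix :
      Matrix (Fin n) (Fin n) ℝ →+* Matrix (Fin n) (Fin n) ℂ) := by
    intro X Y hXY
    ext i j
    have := congrFun (congrFun hXY i) j
    exact Complex.ofReal_injective this
  refine ⟨{ toFun := fun g => Matrix.toLin' (R' g), map_one' := ?_, map_mul' := ?_ }, ?_⟩
  · have : R' 1 = 1 := hinj (by rw [hmap, h1, map_one])
    rw [this, Matrix.toLin'_one]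
    rfl
  · intro g h
    have : R' (g * h) = R' g * R' h := hinj (by rw [hmap, hmul, map_mul, hmap, hmap])
    rw [this, Matrix.toLin'_mul]
    rfl
  · intro g
    show ((LinearMap.trace ℝ (Fin n → ℝ) (Matrix.toLin' (R' g)) : ℝ) : ℂ) = _
    rw [LinearMap.trace_eq_matrix_trace ℝ (Pi.basisFun ℝ (Fin n)), LinearMap.toMatrix_eq_toMatrix',
      LinearMap.toMatrix'_toLin', ← hmap g]
    simp [Matrix.trace]

theorem inj_of_isInvForm {G : Type*} [Group G] (ρ : Representation ℂ G (Fin n → ℂ))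
    [ρ.IsIrreducible] {M : Matrix (Fin n) (Fin n) ℂ}
    (hM : IsInvForm ρ M) (hM0 : M ≠ 0) : Function.Injective (Matrix.toLin' M) := by
  have hρ : ∀ g, ρ g = Matrix.toLin' (mat ρ g) := fun g => by simp [mat]
  let f : IntertwiningMap ρ (contra ρ) := ⟨Matrix.toLin' M, fun g => by
    show Matrix.toLin' M ∘ₗ ρ g = Matrix.toLin' (mat ρ g⁻¹)ᵀ ∘ₗ Matrix.toLin' M
    rw [hρ g, ← Matrix.toLin'_mul, ← Matrix.toLin'_mul, hM.mul_mat]⟩
  rcases IsIrreducible.injective_or_eq_zero f with h | h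
  · exact h
  · exfalso
    apply hM0
    have h1 : Matrix.toLin' M = 0 := congrArg IntertwiningMap.toLinearMap h
    exact (Matrix.toLin' (R := ℂ)).injective (by rw [h1, map_zero])

theorem forward {G : Type*} [Group G] [Fintype G] (ρ : Representation ℂ G (Fin n → ℂ))
    (hρ : ρ.IsIrreducible) (h : fsInd ρ.character = 1) :
    ∃ S : Matrix (Fin n) (Fin n) ℂ, S * cj S = 1 ∧ ∀ g, mat ρ g * S = S * cj (mat ρ g) := by
  have hreal : ∀ g, (ρ.character g).im = 0 := by
    rcases fsInd_cases (χ := ρ.character) ⟨n, ρ, hρ, rfl⟩ with ⟨h0, _⟩ | ⟨_, h0⟩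
    · rw [h] at h0; exact absurd h0 one_ne_zero
    · exact h0
  obtain ⟨M, hM0, hM⟩ := exists_isInvForm_of_real ρ hρ hreal
  have hMT : Mᵀ = M := by
    have := hM.transpose_eq ρ
    change Mᵀ = fsInd ρ.character • M at this
    rw [this, h, one_smul]
  haveI : Nonempty (Fin n) := by
    rcases isEmpty_or_nonempty (Fin n) with hE | hE
    · exact absurd (Subsingleton.elim M 0) hM0
    · exact hE
  have hMu : IsUnit M := by
    rw [← Matrix.mulVec_injective_iff_isUnit]
    intro v w hvw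
    exact inj_of_isInvForm ρ hM hM0 (by simpa [Matrix.toLin'_apply] using hvw)
  have hAu : ∀ g, IsUnit (mat ρ g) := fun g =>
    ⟨⟨mat ρ g, mat ρ g⁻¹, mat_mul_inv ρ g, mat_inv_mul ρ g⟩, rfl⟩
  set H : Matrix (Fin n) (Fin n) ℂ := ∑ g : G, (mat ρ g)ᴴ * mat ρ g with hH
  have hHpd : H.PosDef := Matrix.posDef_sum Finset.univ_nonempty fun g _ =>
    Matrix.PosDef.conjTranspose_mul_self _ (Matrix.mulVec_injective_iff_isUnit.mpr (hAu g))
  have hHh : Hᴴ = H := hHpd.isHermitian
  have hHdet : IsUnit H.det := (Matrix.isUnit_iff_isUnit_det H).mp hHpd.isUnit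
  have hHinv : ∀ g, (mat ρ g)ᴴ * H * mat ρ g = H := by
    intro g
    rw [hH, Finset.mul_sum, Finset.sum_mul]
    refine Fintype.sum_equiv (Equiv.mulRight g) _ _ fun x => ?_
    simp only [Equiv.coe_mulRight, mat_mul, Matrix.conjTranspose_mul, Matrix.mul_assoc]
  have hHA : ∀ g, H * mat ρ g = (mat ρ g⁻¹)ᴴ * H := by
    intro g
    calc H * mat ρ g = ((mat ρ g⁻¹)ᴴ * (mat ρ g)ᴴ) * (H * mat ρ g) := by
          rw [← Matrix.conjTranspose_mul, mat_mul_inv, Matrix.conjTranspose_one, Matrix.one_mul]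
      _ = (mat ρ g⁻¹)ᴴ * ((mat ρ g)ᴴ * H * mat ρ g) := by simp only [Matrix.mul_assoc]
      _ = (mat ρ g⁻¹)ᴴ * H := by rw [hHinv]
  obtain ⟨S, hS⟩ : ∃ S : Matrix (Fin n) (Fin n) ℂ, S = H⁻¹ * cj M := ⟨_, rfl⟩
  have hHS : H * S = cj M := by
    rw [hS, ← Matrix.mul_assoc, Matrix.mul_nonsing_inv H hHdet, Matrix.one_mul]
  have hcancel : ∀ X Y : Matrix (Fin n) (Fin n) ℂ, H * X = H * Y → X = Y := by
    intro X Y hXY
    have := congrArg (fun Z => H⁻¹ * Z) hXY
    simpa [← Matrix.mul_assoc, Matrix.nonsing_inv_mul H hHdet] using this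
  have hAS : ∀ g, mat ρ g * S = S * cj (mat ρ g) := by
    intro g
    apply hcancel
    rw [← Matrix.mul_assoc, hHA, Matrix.mul_assoc, hHS, ← Matrix.mul_assoc, hHS, ← map_mul,
      hM.mul_mat, map_mul, cj_transpose, ← conjTranspose_eq]
  have hcomm : ∀ g, (S * cj S) * mat ρ g = mat ρ g * (S * cj S) := by
    intro g
    have h1 : cj S * mat ρ g = cj (mat ρ g) * cj S := by
      have := congrArg cj (hAS g)
      rw [map_mul, map_mul, cj_cj] at this
      exact this.symm
    rw [Matrix.mul_assoc, h1, ← Matrix.mul_assoc, ← hAS, Matrix.mul_assoc]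
  have hρm : ∀ g, ρ g = Matrix.toLin' (mat ρ g) := fun g => by simp [mat]
  obtain ⟨lam, hlam⟩ : ∃ lam : ℂ, S * cj S = lam • 1 := by
    have h1 := schur_scalar ρ (Matrix.toLin' (S * cj S)) (fun g => by
      rw [hρm g, ← Matrix.toLin'_mul, ← Matrix.toLin'_mul, hcomm])
    refine ⟨((LinearMap.trace ℂ (Fin n → ℂ)) (toLin' (S * cj S)) / (finrank ℂ (Fin n → ℂ) : ℂ)),
      (Matrix.toLin' (R := ℂ)).injective ?_⟩
    rw [map_smul, Matrix.toLin'_one]
    exact h1
  have hSH : Sᴴ * H = M := by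
    have h1 : (H * S)ᴴ = Sᴴ * H := by rw [Matrix.conjTranspose_mul, hHh]
    rw [← h1, hHS, conjTranspose_eq, cj_cj, hMT]
  have hc : Sᴴ * H * S = conj lam • cj H := by
    have h1 : M = cj H * cj S := by rw [← map_mul, hHS, cj_cj]
    have h2 : cj S * S = conj lam • 1 := by
      have := congrArg cj hlam
      rwa [map_mul, cj_cj, cj_smul, map_one] at this
    rw [hSH, h1, Matrix.mul_assoc, h2, Matrix.mul_smul, Matrix.mul_one]
  have hSu : IsUnit S := by
    rw [hS]
    exact IsUnit.mul ((Matrix.isUnit_nonsing_inv_iff).mpr hHpd.isUnit) (hMu.map cj)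
  have hP1 : (Sᴴ * H * S).PosDef :=
    hHpd.conjTranspose_mul_mul_same (Matrix.mulVec_injective_iff_isUnit.mpr hSu)
  have hP2 : (cj H).PosDef := by
    have h1 : cj H = Hᵀ := by
      have := congrArg Matrix.transpose hHh
      rw [conjTranspose_eq, Matrix.transpose_transpose] at this
      exact this
    rw [h1]
    exact hHpd.transpose
  have t1 := hP1.trace_pos
  have t2 := hP2.trace_pos
  rw [hc, Matrix.trace_smul, smul_eq_mul] at t1
  set b := (cj H).trace with hb
  rw [Complex.lt_def] at t1 t2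
  simp only [Complex.zero_re, Complex.zero_im, Complex.mul_re, Complex.mul_im, Complex.conj_re,
    Complex.conj_im] at t1 t2
  obtain ⟨t2a, t2b⟩ := t2
  obtain ⟨t1a, t1b⟩ := t1
  rw [← t2b] at t1a t1b
  simp only [mul_zero, sub_zero, zero_add] at t1a t1b
  have him : lam.im = 0 := by
    rcases mul_eq_zero.mp t1b.symm with h | h
    · simpa using h
    · exact absurd h t2a.ne'
  have hre : 0 < lam.re := by
    by_contra hcon
    push Not at hcon
    nlinarith
  have hlr : lam = (lam.re : ℂ) := Complex.ext rfl (by simp [him])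
  set s : ℝ := Real.sqrt lam.re with hs
  have hs0 : 0 < s := Real.sqrt_pos.mpr hre
  have hss : s * s = lam.re := Real.mul_self_sqrt hre.le
  have hsc : (s : ℂ) ≠ 0 := by exact_mod_cast hs0.ne'
  refine ⟨(s : ℂ)⁻¹ • S, ?_, fun g => ?_⟩
  · rw [cj_smul, Matrix.smul_mul, Matrix.mul_smul, hlam, smul_smul, smul_smul, map_inv₀,
      Complex.conj_ofReal, hlr, ← hss]
    push_cast
    rw [show (s : ℂ)⁻¹ * (s : ℂ)⁻¹ * ((s : ℂ) * (s : ℂ)) = 1 by field_simp, one_smul]
  · rw [Matrix.mul_smul, Matrix.smul_mul, hAS]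

theorem backward {G : Type*} [Group G] [Fintype G] {χ : G → ℂ} (hχ : IsIrrCharacter G χ)
    (ρR : Representation ℝ G (Fin n → ℝ))
    (h : ∀ g, ((LinearMap.trace ℝ (Fin n → ℝ) (ρR g) : ℝ) : ℂ) = χ g) : fsInd χ = 1 := by
  obtain ⟨A, hA⟩ : ∃ A : G → Matrix (Fin n) (Fin n) ℝ, A = fun g => LinearMap.toMatrix' (ρR g) :=
    ⟨_, rfl⟩
  have hA1 : A 1 = 1 := by simp [hA]
  have hAmul : ∀ g h, A (g * h) = A g * A h := by
    intro g h
    simp [hA, LinearMap.toMatrix'_mul]
  let ρC : Representation ℂ G (Fin n → ℂ) :=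
    { toFun := fun g => Matrix.toLin' (Complex.ofRealHom.mapMatrix (A g))
      map_one' := by
        rw [hA1, map_one, Matrix.toLin'_one]
        rfl
      map_mul' := by
        intro g h
        rw [hAmul, map_mul, Matrix.toLin'_mul]
        rfl }
  have hmat : ∀ g, mat ρC g = Complex.ofRealHom.mapMatrix (A g) :=
    fun g => LinearMap.toMatrix'_toLin' _
  have hchar : ρC.character = χ := by
    funext g
    rw [← trace_mat, hmat, ← h g, LinearMap.trace_eq_matrix_trace ℝ (Pi.basisFun ℝ (Fin n)),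
      LinearMap.toMatrix_eq_toMatrix', hA]
    simp [Matrix.trace]
  obtain ⟨n', ρ', hρ', hχ'⟩ := hχ
  obtain ⟨φ⟩ := equiv_of_char_eq ρ' ρC (by rw [hchar, hχ'])
  have hirr : ρC.IsIrreducible := isIrreducible_of_equiv φ hρ'
  have hne : Nonempty (Fin n) := by
    rcases isEmpty_or_nonempty (Fin n) with hE | hE
    · exfalso
      obtain ⟨x, y, hxy⟩ := hirr.toNontrivial
      apply hxy
      apply Subrepresentation.toSubmodule_injective
      exact Subsingleton.elim _ _
    · exact hE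
  have hAu : ∀ g, IsUnit (A g) := fun g =>
    ⟨⟨A g, A g⁻¹, by rw [← hAmul, mul_inv_cancel, hA1], by rw [← hAmul, inv_mul_cancel, hA1]⟩, rfl⟩
  obtain ⟨MR, hMR⟩ : ∃ MR : Matrix (Fin n) (Fin n) ℝ, MR = ∑ g : G, (A g)ᵀ * A g := ⟨_, rfl⟩
  have hpd : MR.PosDef := by
    rw [hMR]
    refine Matrix.posDef_sum Finset.univ_nonempty fun g _ => ?_
    have := Matrix.PosDef.conjTranspose_mul_self (A g)
      (Matrix.mulVec_injective_iff_isUnit.mpr (hAu g))
    rwa [Matrix.conjTranspose_eq_transpose_of_trivial] at this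
  have hMR0 : MR ≠ 0 := by
    intro h0
    have := hpd.trace_pos
    rw [h0] at this
    simp at this
  have hMRT : MRᵀ = MR := by
    rw [hMR, Matrix.transpose_sum]
    refine Finset.sum_congr rfl fun g _ => ?_
    rw [Matrix.transpose_mul, Matrix.transpose_transpose]
  have hMRinv : ∀ g, (A g)ᵀ * MR * A g = MR := by
    intro g
    rw [hMR, Finset.mul_sum, Finset.sum_mul]
    refine Fintype.sum_equiv (Equiv.mulRight g) _ _ fun x => ?_
    simp only [Equiv.coe_mulRight, hAmul, Matrix.transpose_mul, Matrix.mul_assoc]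
  have htr : ∀ X : Matrix (Fin n) (Fin n) ℝ,
      (Complex.ofRealHom.mapMatrix X)ᵀ = Complex.ofRealHom.mapMatrix Xᵀ := by
    intro X
    ext i j
    rfl
  have hMinv : IsInvForm ρC (Complex.ofRealHom.mapMatrix MR) := by
    intro g
    rw [hmat, htr, ← map_mul, ← map_mul, hMRinv]
  have hM0 : Complex.ofRealHom.mapMatrix MR ≠ 0 := by
    intro h0
    apply hMR0
    ext i j
    have := congrFun (congrFun h0 i) j
    exact Complex.ofReal_injective this
  have h1 := hMinv.transpose_eq ρC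
  change _ = fsInd ρC.character • _ at h1
  rw [htr, hMRT, hchar] at h1
  have h2 : (fsInd χ - 1) • Complex.ofRealHom.mapMatrix MR = 0 := by
    rw [sub_smul, one_smul, ← h1, sub_self]
  rcases smul_eq_zero.mp h2 with h3 | h3
  · exact sub_eq_zero.mp h3
  · exact absurd h3 hM0

/-- Let χ be an irreducible character of the finite group G. Then the Frobenius–Schur indicator of χ (the average over s ∈ G of χ(s²)) equals 1 if and only if χ is afforded by a real representation: there is a representation of G on a real coordinate space whose trace function, viewed in ℂ, is χ. -/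
theorem result {G : Type*} [Group G] [Fintype G] (χ : Cfsg.IrrCharacter G) : ((Nat.card G : ℂ)⁻¹ * ∑ s : G, (χ : G → ℂ) (s * s)) = 1 ↔ ∃ (n : ℕ) (ρ : Representation ℝ G (Fin n → ℝ)), ∀ g : G, ((LinearMap.trace ℝ (Fin n → ℝ) (ρ g) : ℝ) : ℂ) = (χ : G → ℂ) g := by
  change fsInd (χ : G → ℂ) = 1 ↔ _
  constructor
  · intro h
    obtain ⟨n, ρ, hρ, hχ⟩ := χ.2
    rw [← hχ] at h
    obtain ⟨S, hS1, hS2⟩ := forward ρ hρ h
    obtain ⟨T, hTu, hT⟩ := exists_real_form (mat ρ) S hS1 hS2
    have hdet : IsUnit T.det := (Matrix.isUnit_iff_isUnit_det T).mp hTu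
    obtain ⟨ρR, hρR⟩ := exists_real_rep (fun g => T⁻¹ * mat ρ g * T)
      (by simp only [mat_one, Matrix.mul_one, Matrix.nonsing_inv_mul T hdet])
      (by
        intro g h
        simp only [mat_mul]
        calc T⁻¹ * (mat ρ g * mat ρ h) * T = T⁻¹ * mat ρ g * 1 * mat ρ h * T := by
              simp only [Matrix.mul_one, Matrix.mul_assoc]
          _ = T⁻¹ * mat ρ g * (T * T⁻¹) * mat ρ h * T := by rw [Matrix.mul_nonsing_inv T hdet]
          _ = _ := by simp only [Matrix.mul_assoc]) hT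
    refine ⟨n, ρR, fun g => ?_⟩
    rw [hρR g, ← hχ, Matrix.trace_mul_comm, ← Matrix.mul_assoc, Matrix.mul_nonsing_inv T hdet,
      Matrix.one_mul, trace_mat]
  · rintro ⟨n, ρ, h⟩
    exact backward χ.2 ρ h

end Cfsg.Agent.S4474
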