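import Cfsg.Statements.S4476
import Mathlib
import Cfsg.Agent.Lib.Helper23.FSCount

set_option autoImplicit false
open Cfsg

namespace Cfsg.Agent.S4476

open Cfsg.Agent.Lib.Helper23 Cfsg.Agent.Lib.Helper2 Cfsg.Agent.Lib.Helper6 Cfsg.Agent.Lib.Helper24

attribute [local instance] irrFintype

/-- Let G be a finite group of even order g with exactly t involutions, and put α = (g − 1)/t (a rational number). Then (a) some non-identity element x of G has at most α² conjugates; and (b) some non-principal real-valued irreducible character of G has degree at most α. -/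
theorem result {G : Type*} [Group G] [Fintype G] (heven : Even (Nat.card G)) (t : ℕ) (ht : Nat.card {x : G // orderOf x = 2} = t) : (∃ x : G, x ≠ 1 ∧ ((Subgroup.centralizer ({x} : Set G)).index : ℚ) ≤ (((Nat.card G : ℚ) - 1) / t) ^ 2) ∧ ∃ χ : Cfsg.IrrCharacter G, (χ : G → ℂ) ≠ (fun _ => 1) ∧ (∀ g : G, ((χ : G → ℂ) g).im = 0) ∧ (Cfsg.charDegree (χ : G → ℂ) : ℚ) ≤ ((Nat.card G : ℚ) - 1) / t := by
  classical
  subst ht
  set t := Nat.card {x : G // orderOf x = 2} with ht
  set s := Finset.univ.erase (trivIrr : IrrCharacter G) with hs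
  -- basic positivity
  have htpos : 0 < t := by
    obtain ⟨x, hx⟩ := exists_prime_orderOf_dvd_card' (G := G) 2 heven.two_dvd
    exact Nat.card_pos_iff.mpr ⟨⟨⟨x, hx⟩⟩, inferInstance⟩
  have htq : (0 : ℚ) < t := by exact_mod_cast htpos
  have hg2 : 2 ≤ Nat.card G := Nat.le_of_dvd Nat.card_pos heven.two_dvd
  have hgq : (0 : ℚ) < (Nat.card G : ℚ) - 1 := by
    have : (2 : ℚ) ≤ (Nat.card G : ℚ) := by exact_mod_cast hg2
    linarith
  have F1 : (t : ℚ) = ∑ χ ∈ s, (fsIndZ (χ : G → ℂ) : ℚ) * (charDegree (χ : G → ℂ) : ℚ) := by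
    have := card_involutions_eq_sum_erase (G := G)
    have h2 := congrArg (Int.cast : ℤ → ℚ) this
    push_cast at h2
    exact h2
  have F2 : (Nat.card G : ℚ) - 1 = ∑ χ ∈ s, (charDegree (χ : G → ℂ) : ℚ) ^ 2 := by
    have := card_sub_one_eq_sum_erase (G := G)
    have h2 := congrArg (Int.cast : ℤ → ℚ) this
    push_cast at h2
    exact h2
  have hsne : s.Nonempty := by
    by_contra hne
    rw [Finset.not_nonempty_iff_eq_empty] at hne
    rw [hne, Finset.sum_empty] at F2
    linarith
  set α : ℚ := ((Nat.card G : ℚ) - 1) / t with hα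
  have hαpos : 0 < α := div_pos hgq htq
  have hαt : α * t = (Nat.card G : ℚ) - 1 := by
    rw [hα]; field_simp
  constructor
  · by_contra h
    push Not at h
    set k := Fintype.card (IrrCharacter G) with hk
    have hcard_s : (s.card : ℚ) = (k : ℚ) - 1 := by
      rw [hs, Finset.card_erase_of_mem (Finset.mem_univ _), Finset.card_univ]
      have : 1 ≤ Fintype.card (IrrCharacter G) := Fintype.card_pos_iff.mpr ⟨trivIrr⟩
      rw [Nat.cast_sub this]
      simp [hk]
    have CS : (t : ℚ) ^ 2 ≤ ((k : ℚ) - 1) * ((Nat.card G : ℚ) - 1) := by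
      rw [F1, F2, ← hcard_s]
      refine (Finset.sum_mul_sq_le_sq_mul_sq s _ _).trans ?_
      apply mul_le_mul_of_nonneg_right _ (Finset.sum_nonneg fun _ _ => sq_nonneg _)
      calc ∑ χ ∈ s, (fsIndZ (χ : G → ℂ) : ℚ) ^ 2 ≤ ∑ χ ∈ s, (1 : ℚ) :=
            Finset.sum_le_sum (fun χ _ => by
              rcases fsIndZ_cases (χ : G → ℂ) with h | h | h <;> rw [h] <;> norm_num)
        _ = s.card := by simp
    have hsum : ∑ x : G, (Nat.card (Subgroup.centralizer ({x} : Set G)) : ℚ) =
        (k : ℚ) * Nat.card G := by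
      exact_mod_cast sum_card_centralizer (G := G)
    have hsum' : ∑ x ∈ Finset.univ.erase (1 : G),
        (Nat.card (Subgroup.centralizer ({x} : Set G)) : ℚ) = ((k : ℚ) - 1) * Nat.card G := by
      have h0 := Finset.add_sum_erase Finset.univ
        (fun x : G => (Nat.card (Subgroup.centralizer ({x} : Set G)) : ℚ)) (Finset.mem_univ 1)
      have h1 : Nat.card (Subgroup.centralizer ({1} : Set G)) = Nat.card G := by
        have : Subgroup.centralizer ({1} : Set G) = ⊤ := by
          ext y
          simp [Subgroup.mem_centralizer_singleton_iff]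
        rw [this, Subgroup.card_top]
      simp only [h1] at h0
      rw [hsum] at h0
      linarith
    have hlt : ∀ x ∈ Finset.univ.erase (1 : G),
        (Nat.card (Subgroup.centralizer ({x} : Set G)) : ℚ) * α ^ 2 < (Nat.card G : ℚ) := by
      intro x hx
      have hx1 := (Finset.mem_erase.mp hx).1
      have h1 := h x hx1
      have h2 : (Nat.card (Subgroup.centralizer ({x} : Set G)) : ℚ) *
          ((Subgroup.centralizer ({x} : Set G)).index : ℚ) = Nat.card G := by
        exact_mod_cast Subgroup.card_mul_index _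
      have h3 : (0 : ℚ) < Nat.card (Subgroup.centralizer ({x} : Set G)) := by
        exact_mod_cast Nat.card_pos
      rw [← h2]
      exact mul_lt_mul_of_pos_left h1 h3
    have hcardE : ((Finset.univ.erase (1 : G)).card : ℚ) = (Nat.card G : ℚ) - 1 := by
      rw [Finset.card_erase_of_mem (Finset.mem_univ _), Finset.card_univ,
        ← Nat.card_eq_fintype_card, Nat.cast_sub (by omega)]
      simp
    have hne : (Finset.univ.erase (1 : G)).Nonempty := by
      rw [← Finset.card_pos]
      have : (0 : ℚ) < ((Finset.univ.erase (1 : G)).card : ℚ) := by rw [hcardE]; exact hgq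
      exact_mod_cast this
    have h4 := Finset.sum_lt_sum_of_nonempty hne hlt
    rw [← Finset.sum_mul, hsum', Finset.sum_const, nsmul_eq_mul, hcardE] at h4
    have hgpos : (0 : ℚ) < (Nat.card G : ℚ) := by linarith
    have h5 : ((k : ℚ) - 1) * α ^ 2 < (Nat.card G : ℚ) - 1 := by
      have : (((k : ℚ) - 1) * α ^ 2) * (Nat.card G : ℚ) < ((Nat.card G : ℚ) - 1) * Nat.card G := by
        calc (((k : ℚ) - 1) * α ^ 2) * (Nat.card G : ℚ)
            = ((k : ℚ) - 1) * (Nat.card G : ℚ) * α ^ 2 := by ring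
          _ < _ := h4
      exact lt_of_mul_lt_mul_right this hgpos.le
    have h6 : α ^ 2 * (t : ℚ) ^ 2 = ((Nat.card G : ℚ) - 1) ^ 2 := by
      rw [← hαt]; ring
    have h7 : ((k : ℚ) - 1) * ((Nat.card G : ℚ) - 1) ^ 2 < ((Nat.card G : ℚ) - 1) * (t : ℚ) ^ 2 := by
      rw [← h6]
      have := mul_lt_mul_of_pos_right h5 (pow_pos htq 2)
      calc ((k : ℚ) - 1) * (α ^ 2 * (t : ℚ) ^ 2) = ((k : ℚ) - 1) * α ^ 2 * (t : ℚ) ^ 2 := by ring
        _ < _ := this
    have h8 : ((k : ℚ) - 1) * ((Nat.card G : ℚ) - 1) < (t : ℚ) ^ 2 := by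
      have : (((k : ℚ) - 1) * ((Nat.card G : ℚ) - 1)) * ((Nat.card G : ℚ) - 1) <
          (t : ℚ) ^ 2 * ((Nat.card G : ℚ) - 1) := by
        calc (((k : ℚ) - 1) * ((Nat.card G : ℚ) - 1)) * ((Nat.card G : ℚ) - 1)
            = ((k : ℚ) - 1) * ((Nat.card G : ℚ) - 1) ^ 2 := by ring
          _ < ((Nat.card G : ℚ) - 1) * (t : ℚ) ^ 2 := h7
          _ = _ := by ring
      exact lt_of_mul_lt_mul_right this hgq.le
    exact absurd CS (not_le.mpr h8)
  · by_contra h
    push Not at h
    have key : ∀ χ ∈ s, α * ((fsIndZ (χ : G → ℂ) : ℚ) * (charDegree (χ : G → ℂ) : ℚ)) <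
        (charDegree (χ : G → ℂ) : ℚ) ^ 2 := by
      intro χ hχ
      have hd : (0 : ℚ) < (charDegree (χ : G → ℂ) : ℚ) := by
        exact_mod_cast charDegree_pos χ.2
      have hne : (χ : G → ℂ) ≠ fun _ => 1 := by
        intro hc
        exact (Finset.mem_erase.mp hχ).1 (Subtype.ext hc)
      rcases fsIndZ_cases (χ : G → ℂ) with h0 | h0 | h0
      · rw [h0]; simp only [Int.cast_zero, zero_mul, mul_zero]; positivity
      · have hreal := (fsIndZ_ne_zero_iff χ.2).mp (by rw [h0]; exact one_ne_zero)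
        have := h χ hne hreal
        rw [h0]; simp only [Int.cast_one, one_mul]
        nlinarith
      · rw [h0]; simp only [Int.cast_neg, Int.cast_one]
        nlinarith
    have := Finset.sum_lt_sum_of_nonempty hsne key
    rw [← Finset.mul_sum, ← F1, ← F2, hαt] at this
    exact lt_irrefl _ this

end Cfsg.Agent.S4476
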