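import Cfsg.Statements.S4477
import Mathlib
import Cfsg.Agent.Lib.Helper23.FSCount

set_option autoImplicit false
open Cfsg

namespace Cfsg.Agent.S4477

open Cfsg.Agent.Lib.Helper23 Cfsg.Agent.Lib.Helper2 Cfsg.Agent.Lib.Helper6 Cfsg.Agent.Lib.Helper24
open scoped ComplexConjugate

attribute [local instance] irrFintype

theorem exists_index_two {G : Type*} [Group G] [Finite G] (hG : IsPGroup 2 G) (H : Subgroup G)
    (hH : H ≠ ⊤) : ∃ M : Subgroup G, H ≤ M ∧ M.index = 2 := by
  obtain ⟨n, hn⟩ := IsPGroup.iff_card.mp hG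
  obtain ⟨j, hj⟩ := IsPGroup.iff_card.mp (hG.to_subgroup H)
  have hjn : j < n := by
    have h1 : Nat.card H < Nat.card G := by
      by_contra hc
      push Not at hc
      exact hH (Subgroup.eq_top_of_card_eq H (le_antisymm (Subgroup.card_le_card_group H) hc))
    rw [hn, hj] at h1
    exact (Nat.pow_lt_pow_iff_right (by norm_num)).mp h1
  obtain ⟨M, hM, hHM⟩ := Sylow.exists_subgroup_card_pow_prime_le 2 (n := j) (m := n - 1)
    (by rw [hn]; exact pow_dvd_pow 2 (by omega)) H hj (by omega)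
  refine ⟨M, hHM, ?_⟩
  have h1 := Subgroup.card_mul_index M
  rw [hM, hn] at h1
  have h2 : 2 ^ n = 2 ^ (n - 1) * 2 := by
    rw [← pow_succ]; congr 1; omega
  rw [h2] at h1
  exact Nat.eq_of_mul_eq_mul_left (by positivity) h1

/-- The sign character of a subgroup of index two. -/
noncomputable def signHom {G : Type*} [Group G] (M : Subgroup G) (h : M.index = 2) : G →* ℂˣ := by
  classical
  exact
  { toFun := fun g => if g ∈ M then 1 else -1
    map_one' := by simp [one_mem]
    map_mul' := fun a b => by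
      have := Subgroup.mul_mem_iff_of_index_two h (a := a) (b := b)
      by_cases ha : a ∈ M <;> by_cases hb : b ∈ M <;> simp [ha, hb, this] }

theorem signHom_apply {G : Type*} [Group G] (M : Subgroup G) (h : M.index = 2) (g : G)
    [Decidable (g ∈ M)] : signHom M h g = if g ∈ M then 1 else -1 := by
  unfold signHom
  simp only [MonoidHom.coe_mk, OneHom.coe_mk]
  congr

theorem signHom_sq {G : Type*} [Group G] (M : Subgroup G) (h : M.index = 2) :
    signHom M h ^ 2 = 1 := by
  classical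
  ext g
  rw [MonoidHom.pow_apply, signHom_apply]
  split_ifs <;> simp

theorem signHom_eq_one_iff {G : Type*} [Group G] (M : Subgroup G) (h : M.index = 2) (g : G) :
    signHom M h g = 1 ↔ g ∈ M := by
  classical
  rw [signHom_apply]
  split_ifs with hg
  · simp [hg]
  · simp only [hg, iff_false]
    intro hc
    have := congrArg Units.val hc
    norm_num at this

theorem fsInd_hom {G : Type*} [Group G] [Fintype G] (f : G →* ℂˣ) [Decidable (f ^ 2 = 1)] :
    fsInd (fun g => (f g : ℂ)) = if f ^ 2 = 1 then 1 else 0 := by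
  classical
  have h1 := classInner_irr (isIrrCharacter_of_hom (f ^ 2)) (isIrrCharacter_one (G := G))
  rw [classInner] at h1
  simp only [map_one, mul_one] at h1
  have h2 : fsInd (fun g => (f g : ℂ)) = (Nat.card G : ℂ)⁻¹ * ∑ g, (((f ^ 2) g : ℂˣ) : ℂ) := by
    unfold fsInd
    congr 1
    refine Finset.sum_congr rfl fun g _ => ?_
    show ((f (g * g) : ℂˣ) : ℂ) = _
    rw [map_mul, MonoidHom.pow_apply, sq]
  rw [h2, h1]
  have h3 : ((fun g => (((f ^ 2) g : ℂˣ) : ℂ)) = fun _ => 1) ↔ f ^ 2 = 1 := by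
    constructor
    · intro h
      ext g
      exact congrFun h g
    · intro h
      rw [h]
      rfl
  simp only [h3]

theorem fsIndZ_hom {G : Type*} [Group G] [Fintype G] (f : G →* ℂˣ) [Decidable (f ^ 2 = 1)] :
    fsIndZ (fun g => (f g : ℂ)) = if f ^ 2 = 1 then 1 else 0 := by
  classical
  unfold fsIndZ
  rw [fsInd_hom]
  split_ifs with h1 h2 h3 <;> first | rfl | (exfalso; norm_num at *)

/-- The complex conjugate irreducible character. -/
noncomputable def conjIrr {G : Type*} [Group G] [Fintype G] (χ : IrrCharacter G) : IrrCharacter G :=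
  ⟨fun g => conj ((χ : G → ℂ) g), IsIrrCharacter.conj χ.2⟩

theorem charDegree_conjIrr {G : Type*} [Group G] [Fintype G] (χ : IrrCharacter G) :
    charDegree ((conjIrr χ : IrrCharacter G) : G → ℂ) = charDegree (χ : G → ℂ) := by
  simp [charDegree, conjIrr]

theorem fsIndZ_conjIrr {G : Type*} [Group G] [Fintype G] (χ : IrrCharacter G) :
    fsIndZ ((conjIrr χ : IrrCharacter G) : G → ℂ) = fsIndZ (χ : G → ℂ) := by
  have h : fsInd ((conjIrr χ : IrrCharacter G) : G → ℂ) = fsInd (χ : G → ℂ) := by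
    rw [← conj_fsInd χ.2]
    unfold fsInd conjIrr
    simp [map_sum]
  unfold fsIndZ
  rw [h]

theorem conjIrr_conjIrr {G : Type*} [Group G] [Fintype G] (χ : IrrCharacter G) :
    conjIrr (conjIrr χ) = χ := by
  apply Subtype.ext
  funext g
  simp [conjIrr]

theorem even_sum_two {G : Type*} [Group G] [Fintype G] :
    Even (∑ χ ∈ Finset.univ.filter (fun χ : IrrCharacter G => charDegree (χ : G → ℂ) = 2),
      (1 + fsIndZ (χ : G → ℂ))) := by
  classical
  have h : ∑ χ ∈ Finset.univ.filter (fun χ : IrrCharacter G => charDegree (χ : G → ℂ) = 2),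
      ((1 + fsIndZ (χ : G → ℂ) : ℤ) : ZMod 2) = 0 := by
    refine Finset.sum_involution (fun χ _ => conjIrr χ) ?_ ?_ ?_ ?_
    · intro χ _
      rw [fsIndZ_conjIrr]
      exact CharTwo.add_self_eq_zero _
    · intro χ _ hne hc
      apply hne
      have hreal : ∀ g, ((χ : G → ℂ) g).im = 0 := by
        intro g
        have := congrFun (congrArg Subtype.val hc) g
        exact Complex.conj_eq_iff_im.mp this
      have h0 := (fsIndZ_ne_zero_iff χ.2).mpr hreal
      rcases fsIndZ_cases (χ : G → ℂ) with h1 | h1 | h1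
      · exact absurd h1 h0
      · rw [h1]; rfl
      · rw [h1]; rfl
    · intro χ hχ
      simp only [Finset.mem_filter, Finset.mem_univ, true_and] at hχ ⊢
      rw [charDegree_conjIrr, hχ]
    · intro χ _
      exact conjIrr_conjIrr χ
  rw [← Int.cast_sum, ZMod.intCast_zmod_eq_zero_iff_dvd] at h
  exact even_iff_two_dvd.mpr (by exact_mod_cast h)

theorem sum_split {ι M : Type*} [Fintype ι] [AddCommMonoid M] (d : ι → ℕ) (F : ι → M) :
    ∑ i, F i = ∑ i ∈ Finset.univ.filter (fun i => d i = 1), F i +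
      (∑ i ∈ Finset.univ.filter (fun i => d i = 2), F i +
      ∑ i ∈ Finset.univ.filter (fun i => d i ≠ 1 ∧ d i ≠ 2), F i) := by
  classical
  rw [← Finset.sum_filter_add_sum_filter_not Finset.univ (fun i => d i = 1)]
  congr 1
  rw [← Finset.sum_filter_add_sum_filter_not (Finset.univ.filter (fun i => ¬ d i = 1))
    (fun i => d i = 2), Finset.filter_filter, Finset.filter_filter]
  congr 1
  apply Finset.sum_congr _ (fun _ _ => rfl)
  ext i
  simp only [Finset.mem_filter, Finset.mem_univ, true_and]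
  constructor
  · rintro ⟨_, h⟩; exact h
  · intro h; exact ⟨by omega, h⟩

theorem sum_one_fsIndZ {G : Type*} [Group G] [Fintype G] [Fintype (G →* ℂˣ)]
    [DecidableEq (G →* ℂˣ)] :
    ∑ χ ∈ Finset.univ.filter (fun χ : IrrCharacter G => charDegree (χ : G → ℂ) = 1),
      fsIndZ (χ : G → ℂ) =
    ((Finset.univ.filter (fun f : G →* ℂˣ => f ^ 2 = 1)).card : ℤ) := by
  classical
  have hmem : ∀ χ : IrrCharacter G,
      χ ∈ Finset.univ.filter (fun χ : IrrCharacter G => charDegree (χ : G → ℂ) = 1) ↔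
        (χ : G → ℂ) 1 = 1 := by
    intro χ
    simp only [Finset.mem_filter, Finset.mem_univ, true_and]
    rw [← charDegree_cast (IsIrrCharacter.isCharacter χ.2)]
    exact ⟨fun h => by rw [h]; simp, fun h => by exact_mod_cast h⟩
  rw [Finset.sum_subtype _ hmem, ← Equiv.sum_comp (linearCharEquiv G)]
  have h2 : ∀ f : G →* ℂˣ, fsIndZ (((linearCharEquiv G f).1 : IrrCharacter G) : G → ℂ) =
      if f ^ 2 = 1 then 1 else 0 := fun f => fsIndZ_hom f
  simp_rw [h2]
  rw [Finset.sum_boole]

theorem card_filter_one {G : Type*} [Group G] [Fintype G] :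
    (Finset.univ.filter (fun χ : IrrCharacter G => charDegree (χ : G → ℂ) = 1)).card =
      (commutator G).index := by
  classical
  rw [← card_linear_characters, Nat.card_eq_fintype_card, Fintype.card_subtype]
  congr 1
  ext χ
  simp only [Finset.mem_filter, Finset.mem_univ, true_and]
  rw [← charDegree_cast (IsIrrCharacter.isCharacter χ.2)]
  exact ⟨fun h => by rw [h]; simp, fun h => by exact_mod_cast h⟩

/-- Let G be a finite 2-group whose number of involutions is congruent to 1 modulo 4. Then G is cyclic or its commutator subgroup has index 4. -/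
theorem result {G : Type*} [Group G] [Finite G] (hG : IsPGroup 2 G) (ht : Nat.card {x : G // orderOf x = 2} % 4 = 1) : IsCyclic G ∨ (commutator G).index = 4 := by
  classical
  cases nonempty_fintype G
  by_contra hcon
  push Not at hcon
  obtain ⟨hncyc, hidx⟩ := hcon
  obtain ⟨n, hn⟩ := IsPGroup.iff_card.mp hG
  -- two subgroups of index two
  obtain ⟨M₁, -, hM₁⟩ := exists_index_two hG ⊥ (by
    intro h
    apply hncyc
    haveI : Subsingleton G := Subgroup.subsingleton_iff.mp ⟨fun a b => by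
      have ha : a = ⊥ := le_antisymm (h ▸ le_top) bot_le
      have hb : b = ⊥ := le_antisymm (h ▸ le_top) bot_le
      rw [ha, hb]⟩
    infer_instance)
  obtain ⟨x, hx⟩ : ∃ x, x ∉ M₁ := by
    by_contra hc
    push Not at hc
    have : M₁ = ⊤ := (Subgroup.eq_top_iff' M₁).mpr hc
    rw [this, Subgroup.index_top] at hM₁
    omega
  obtain ⟨M₂, hxM₂, hM₂⟩ := exists_index_two hG (Subgroup.zpowers x) (by
    intro h
    exact hncyc ⟨⟨x, fun y => by
      have : y ∈ (⊤ : Subgroup G) := trivial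
      rw [← h] at this
      exact this⟩⟩)
  obtain ⟨y, hy⟩ : ∃ y, y ∉ M₂ := by
    by_contra hc
    push Not at hc
    have : M₂ = ⊤ := (Subgroup.eq_top_iff' M₂).mpr hc
    rw [this, Subgroup.index_top] at hM₂
    omega
  have hxM₂' : x ∈ M₂ := hxM₂ (Subgroup.mem_zpowers x)
  haveI : Finite (G →* ℂˣ) := Finite.of_equiv _ (linearCharEquiv G).symm
  cases nonempty_fintype (G →* ℂˣ)
  let Λ : Subgroup (G →* ℂˣ) := (powMonoidHom 2 : (G →* ℂˣ) →* (G →* ℂˣ)).ker
  have hΛ : ∀ f : G →* ℂˣ, f ∈ Λ ↔ f ^ 2 = 1 := fun f => MonoidHom.mem_ker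
  have hΛp : IsPGroup 2 Λ := by
    intro f
    refine ⟨1, ?_⟩
    apply Subtype.ext
    rw [pow_one]
    exact (hΛ f.1).mp f.2
  obtain ⟨j, hj⟩ := IsPGroup.iff_card.mp hΛp
  have h3 : 2 < Nat.card Λ := by
    rw [Nat.card_eq_fintype_card, Fintype.two_lt_card_iff]
    refine ⟨1, ⟨signHom M₁ hM₁, (hΛ _).mpr (signHom_sq _ _)⟩,
      ⟨signHom M₂ hM₂, (hΛ _).mpr (signHom_sq _ _)⟩, ?_, ?_, ?_⟩
    · intro h
      have h1 : signHom M₁ hM₁ = 1 := (congrArg Subtype.val h).symm
      exact hx ((signHom_eq_one_iff M₁ hM₁ x).mp (by rw [h1]; rfl))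
    · intro h
      have h1 : signHom M₂ hM₂ = 1 := (congrArg Subtype.val h).symm
      exact hy ((signHom_eq_one_iff M₂ hM₂ y).mp (by rw [h1]; rfl))
    · intro h
      have h1 : signHom M₁ hM₁ = signHom M₂ hM₂ := congrArg Subtype.val h
      exact hx ((signHom_eq_one_iff M₁ hM₁ x).mp (by
        rw [h1]; exact (signHom_eq_one_iff M₂ hM₂ x).mpr hxM₂'))
  have hj2 : 2 ≤ j := by
    by_contra hc
    have : j ≤ 1 := by omega
    have h4 : 2 ^ j ≤ 2 ^ 1 := Nat.pow_le_pow_right (by norm_num) this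
    rw [hj] at h3
    omega
  have h4Λ : 4 ∣ Nat.card Λ := by
    rw [hj]
    exact pow_dvd_pow 2 hj2
  have hA : Nat.card (G →* ℂˣ) = (commutator G).index := by
    rw [Nat.card_congr (linearCharEquiv G), card_linear_characters]
  have h4idx : 4 ∣ (commutator G).index := by
    rw [← hA]
    exact h4Λ.trans (Subgroup.card_subgroup_dvd_card Λ)
  have hidxdvd : (commutator G).index ∣ 2 ^ n := hn ▸ Subgroup.index_dvd_card _
  obtain ⟨a, -, ha⟩ := (Nat.dvd_prime_pow Nat.prime_two).mp hidxdvd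
  have ha3 : 3 ≤ a := by
    by_contra hc
    have : a ≤ 2 := by omega
    interval_cases a
    · rw [ha] at h4idx; omega
    · rw [ha] at h4idx; omega
    · exact hidx (by rw [ha]; norm_num)
  have h8idx : 8 ∣ (commutator G).index := by
    rw [ha]
    exact pow_dvd_pow 2 ha3
  have h8G : 8 ∣ Nat.card G := h8idx.trans (Subgroup.index_dvd_card _)
  -- degrees
  have hdeg : ∀ χ : IrrCharacter G, charDegree (χ : G → ℂ) ≠ 1 ∧ charDegree (χ : G → ℂ) ≠ 2 →
      4 ∣ charDegree (χ : G → ℂ) := by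
    intro χ hχ
    have h1 := degree_dvd_card χ.2
    rw [hn] at h1
    obtain ⟨e, -, he⟩ := (Nat.dvd_prime_pow Nat.prime_two).mp h1
    rw [he] at hχ ⊢
    have he2 : 2 ≤ e := by
      by_contra hc
      have : e ≤ 1 := by omega
      interval_cases e
      · exact hχ.1 rfl
      · exact hχ.2 rfl
    exact pow_dvd_pow 2 he2
  set D2 := Finset.univ.filter (fun χ : IrrCharacter G => charDegree (χ : G → ℂ) = 2) with hD2
  -- parity of the number of characters of degree two
  have hD2even : 2 ∣ D2.card := by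
    have h1 := sum_degree_sq_nat (G := G)
    rw [sum_split (fun χ : IrrCharacter G => charDegree (χ : G → ℂ))] at h1
    have e1 : ∑ χ ∈ Finset.univ.filter (fun χ : IrrCharacter G => charDegree (χ : G → ℂ) = 1),
        charDegree (χ : G → ℂ) ^ 2 = (commutator G).index := by
      rw [← card_filter_one, Finset.card_eq_sum_ones]
      refine Finset.sum_congr rfl fun χ hχ => ?_
      rw [(Finset.mem_filter.mp hχ).2]
      norm_num
    have e2 : ∑ χ ∈ D2, charDegree (χ : G → ℂ) ^ 2 = 4 * D2.card := by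
      rw [Finset.card_eq_sum_ones, Finset.mul_sum]
      refine Finset.sum_congr rfl fun χ hχ => ?_
      rw [(Finset.mem_filter.mp hχ).2]
      norm_num
    have e3 : 8 ∣ ∑ χ ∈ Finset.univ.filter (fun χ : IrrCharacter G =>
        charDegree (χ : G → ℂ) ≠ 1 ∧ charDegree (χ : G → ℂ) ≠ 2), charDegree (χ : G → ℂ) ^ 2 := by
      refine Finset.dvd_sum fun χ hχ => ?_
      obtain ⟨c, hc⟩ := hdeg χ (Finset.mem_filter.mp hχ).2
      rw [hc]
      exact ⟨2 * c ^ 2, by ring⟩
    rw [e1, e2] at h1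
    omega
  -- the count
  have hcount := one_add_card_involutions (G := G)
  rw [sum_split (fun χ : IrrCharacter G => charDegree (χ : G → ℂ))] at hcount
  have c1 : (4 : ℤ) ∣ ∑ χ ∈ Finset.univ.filter
      (fun χ : IrrCharacter G => charDegree (χ : G → ℂ) = 1),
      fsIndZ (χ : G → ℂ) * (charDegree (χ : G → ℂ) : ℤ) := by
    have : ∑ χ ∈ Finset.univ.filter (fun χ : IrrCharacter G => charDegree (χ : G → ℂ) = 1),
        fsIndZ (χ : G → ℂ) * (charDegree (χ : G → ℂ) : ℤ) =
        ∑ χ ∈ Finset.univ.filter (fun χ : IrrCharacter G => charDegree (χ : G → ℂ) = 1),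
        fsIndZ (χ : G → ℂ) := by
      refine Finset.sum_congr rfl fun χ hχ => ?_
      rw [(Finset.mem_filter.mp hχ).2]
      simp
    rw [this, sum_one_fsIndZ]
    have h5 : (Finset.univ.filter (fun f : G →* ℂˣ => f ^ 2 = 1)).card = Nat.card Λ := by
      rw [Nat.card_eq_fintype_card, ← Fintype.card_subtype]
      exact Fintype.card_congr (Equiv.subtypeEquivRight fun f => (hΛ f).symm)
    rw [h5]
    exact_mod_cast h4Λ
  have c2 : (4 : ℤ) ∣ ∑ χ ∈ D2, fsIndZ (χ : G → ℂ) * (charDegree (χ : G → ℂ) : ℤ) := by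
    have : ∑ χ ∈ D2, fsIndZ (χ : G → ℂ) * (charDegree (χ : G → ℂ) : ℤ) =
        2 * ∑ χ ∈ D2, fsIndZ (χ : G → ℂ) := by
      rw [Finset.mul_sum]
      refine Finset.sum_congr rfl fun χ hχ => ?_
      rw [(Finset.mem_filter.mp hχ).2]
      push_cast
      ring
    rw [this]
    have h6 := even_sum_two (G := G)
    rw [← hD2, Finset.sum_add_distrib, Finset.sum_const, nsmul_eq_mul, mul_one] at h6
    obtain ⟨u, hu⟩ := hD2even
    obtain ⟨v, hv⟩ := h6
    rw [hu] at hv
    push_cast at hv
    exact ⟨v - u, by linarith⟩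
  have c3 : (4 : ℤ) ∣ ∑ χ ∈ Finset.univ.filter (fun χ : IrrCharacter G =>
      charDegree (χ : G → ℂ) ≠ 1 ∧ charDegree (χ : G → ℂ) ≠ 2),
      fsIndZ (χ : G → ℂ) * (charDegree (χ : G → ℂ) : ℤ) := by
    refine Finset.dvd_sum fun χ hχ => ?_
    have := hdeg χ (Finset.mem_filter.mp hχ).2
    exact Dvd.dvd.mul_left (by exact_mod_cast this) _
  have hfin : (4 : ℤ) ∣ 1 + (Nat.card {x : G // orderOf x = 2} : ℤ) := by
    rw [hcount]
    exact dvd_add c1 (dvd_add c2 c3)
  omega

end Cfsg.Agent.S4477
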