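import Cfsg.Statements.S4478
import Mathlib
import Cfsg.Agent.Lib.Helper23.FSCount
import Cfsg.Agent.Lib.Helper24.DefectZero

set_option autoImplicit false
open Cfsg

namespace Cfsg.Agent.S4478

open Cfsg.Agent.Lib.Helper23 Cfsg.Agent.Lib.Helper2 Cfsg.Agent.Lib.Helper6 Cfsg.Agent.Lib.Helper24
open scoped ComplexConjugate

attribute [local instance] irrFintype

theorem vanish {G : Type*} [Group G] [Finite G] (χ : IrrCharacter G) {p : ℕ} (hp : p.Prime)
    (h : p ^ (Nat.card G).factorization p ∣ charDegree (χ : G → ℂ)) {y : G} (hy : p ∣ orderOf y) :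
    (χ : G → ℂ) y = 0 :=
  vanish_of_defect_zero hp χ (not_dvd_card_div_degree χ.2
    (Nat.pow_succ_factorization_not_dvd Nat.card_pos.ne' hp) h) hy

/-- squaring is injective on elements of odd order -/
theorem sq_inj_of_odd {G : Type*} [Group G] {h k : G} (hh : Odd (orderOf h)) (hk : Odd (orderOf k))
    (e : h * h = k * k) : h = k := by
  obtain ⟨M, hM⟩ := (hh.mul hk).add_one
  have h1 : h ^ (orderOf h * orderOf k + 1) = h := by
    rw [pow_succ, pow_mul, pow_orderOf_eq_one, one_pow, one_mul]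
  have h2 : k ^ (orderOf h * orderOf k + 1) = k := by
    rw [pow_succ, mul_comm, pow_mul, pow_orderOf_eq_one, one_pow, one_mul]
  rw [hM, ← two_mul, pow_mul, sq] at h1 h2
  rw [← h1, ← h2, e]

theorem sum_sq_odd {G : Type*} [Group G] [Fintype G] (f : G → ℂ) :
    ∑ h ∈ Finset.univ.filter (fun h : G => Odd (orderOf h)), f (h * h) =
      ∑ h ∈ Finset.univ.filter (fun h : G => Odd (orderOf h)), f h := by
  classical
  set O := Finset.univ.filter (fun h : G => Odd (orderOf h)) with hO
  have hinj : Set.InjOn (fun h : G => h * h) O := by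
    intro h hh k hk e
    simp only [hO, Finset.coe_filter, Finset.mem_univ, true_and, Set.mem_ofPred_eq] at hh hk
    exact sq_inj_of_odd hh hk e
  have himg : O.image (fun h : G => h * h) = O := by
    apply Finset.eq_of_subset_of_card_le
    · intro y hy
      obtain ⟨h, hh, rfl⟩ := Finset.mem_image.mp hy
      simp only [hO, Finset.mem_filter, Finset.mem_univ, true_and] at hh ⊢
      rw [← sq]
      exact Odd.of_dvd_nat hh (orderOf_pow_dvd 2)
    · rw [Finset.card_image_of_injOn hinj]
  conv_rhs => rw [← himg]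
  rw [Finset.sum_image hinj]

theorem vanish_sq {G : Type*} [Group G] [Finite G] (f : G → ℂ)
    (V2 : ∀ y, 2 ∣ orderOf y → f y = 0)
    (Vp : ∀ p : ℕ, p.Prime → p ≠ 2 → (∃ g : G, orderOf g = 2 * p) → ∀ y, p ∣ orderOf y → f y = 0)
    (h : G) (hev : ¬ Odd (orderOf h)) (h2 : orderOf h ≠ 2) : f (h * h) = 0 := by
  obtain ⟨m, hm⟩ := (Nat.not_odd_iff_even.mp hev).two_dvd
  have hpos : 0 < orderOf h := orderOf_pos h
  have hord : orderOf (h * h) = m := by
    rw [← sq, orderOf_pow_of_dvd two_ne_zero ⟨m, hm⟩, hm]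
    simp
  by_cases hme : 2 ∣ m
  · exact V2 _ (hord ▸ hme)
  · have hm1 : m ≠ 1 := by
      rintro rfl
      exact h2 (by simpa using hm)
    obtain ⟨p, hp, hpm⟩ := Nat.exists_prime_and_dvd hm1
    have hp2 : p ≠ 2 := by
      rintro rfl
      exact hme hpm
    obtain ⟨c, hc⟩ := hpm
    have hc0 : c ≠ 0 := by
      rintro rfl
      rw [hc] at hm
      simp at hm
      omega
    refine Vp p hp hp2 ⟨h ^ c, ?_⟩ _ (hord ▸ ⟨c, hc⟩)
    rw [orderOf_pow_of_dvd hc0 ⟨2 * p, by rw [hm, hc]; ring⟩, hm, hc]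
    rw [show 2 * (p * c) = (2 * p) * c by ring]
    exact Nat.mul_div_cancel _ (Nat.pos_of_ne_zero hc0)

theorem exists_two_mul {G : Type*} [Group G] [Finite G] (s : G) (hs : orderOf s = 2) (c : G)
    (hc : Commute s c) {p : ℕ} (hp : p.Prime) (hp2 : p ≠ 2) (hpc : p ∣ orderOf c) :
    ∃ g : G, orderOf g = 2 * p := by
  obtain ⟨e, he⟩ := hpc
  have hpos : 0 < orderOf c := orderOf_pos c
  have he0 : e ≠ 0 := by
    rintro rfl
    rw [mul_zero] at he
    omega
  have ho : orderOf (c ^ e) = p := by
    rw [orderOf_pow_of_dvd he0 ⟨p, by rw [he]; ring⟩, he]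
    exact Nat.mul_div_cancel _ (Nat.pos_of_ne_zero he0)
  refine ⟨s * c ^ e, ?_⟩
  rw [(hc.pow_right e).orderOf_mul_eq_mul_orderOf_of_coprime (by
    rw [hs, ho]
    exact (Nat.coprime_primes Nat.prime_two hp).mpr (Ne.symm hp2)), hs, ho]

theorem vanish_centralizer {G : Type*} [Group G] [Finite G] (f : G → ℂ)
    (V2 : ∀ y, 2 ∣ orderOf y → f y = 0)
    (Vp : ∀ p : ℕ, p.Prime → p ≠ 2 → (∃ g : G, orderOf g = 2 * p) → ∀ y, p ∣ orderOf y → f y = 0)
    (s : G) (hs : orderOf s = 2) (c : G) (hc : Commute s c) (hc1 : c ≠ 1) : f c = 0 := by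
  by_cases hev : 2 ∣ orderOf c
  · exact V2 c hev
  · have h1 : orderOf c ≠ 1 := by rwa [Ne, orderOf_eq_one_iff]
    obtain ⟨p, hp, hpm⟩ := Nat.exists_prime_and_dvd h1
    have hp2 : p ≠ 2 := by
      rintro rfl
      exact hev hpm
    exact Vp p hp hp2 (exists_two_mul s hs c hc hp hp2 hpm) c hpm

/-- Let G be a finite group of even order and χ an irreducible character of G whose degree x is divisible by the full power of 2 dividing the order of G and, for every odd prime p such that G has an element of order 2p, by the full power of p dividing the order of G. Then all involutions of G are conjugate, the centralizer of every involution has order exactly x with x coprime to its index, and the Frobenius–Schur indicator of χ equals 1. -/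
theorem result {G : Type*} [Group G] [Fintype G] (heven : Even (Nat.card G)) (χ : Cfsg.IrrCharacter G) (h2 : 2 ^ (Nat.card G).factorization 2 ∣ Cfsg.charDegree (χ : G → ℂ)) (hp : ∀ p : ℕ, p.Prime → p ≠ 2 → (∃ g : G, orderOf g = 2 * p) → p ^ (Nat.card G).factorization p ∣ Cfsg.charDegree (χ : G → ℂ)) : (∀ s t : G, orderOf s = 2 → orderOf t = 2 → IsConj s t) ∧ (∀ s : G, orderOf s = 2 → Nat.card (Subgroup.centralizer ({s} : Set G)) = Cfsg.charDegree (χ : G → ℂ) ∧ (Nat.card (Subgroup.centralizer ({s} : Set G))).Coprime (Subgroup.centralizer ({s} : Set G)).index) ∧ (Nat.card G : ℂ)⁻¹ * ∑ g : G, (χ : G → ℂ) (g * g) = 1 := by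
  classical
  set x := charDegree (χ : G → ℂ) with hx
  have V2 : ∀ y, 2 ∣ orderOf y → (χ : G → ℂ) y = 0 := fun y hy => vanish χ Nat.prime_two h2 hy
  have Vp : ∀ p : ℕ, p.Prime → p ≠ 2 → (∃ g : G, orderOf g = 2 * p) →
      ∀ y, p ∣ orderOf y → (χ : G → ℂ) y = 0 :=
    fun p hpp hp2 hex y hy => vanish χ hpp (hp p hpp hp2 hex) hy
  have hxpos : 0 < x := charDegree_pos χ.2
  have hxcast : (x : ℂ) = (χ : G → ℂ) 1 := charDegree_cast (IsIrrCharacter.isCharacter χ.2)
  have hx2 : 2 ∣ x := by
    refine Dvd.dvd.trans ?_ h2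
    apply dvd_pow_self
    have := (Nat.prime_two.factorization_pos_of_dvd Nat.card_pos.ne' heven.two_dvd)
    omega
  set t := Nat.card {g : G // orderOf g = 2} with ht
  have htpos : 0 < t := by
    obtain ⟨g, hg⟩ := exists_prime_orderOf_dvd_card' (G := G) 2 heven.two_dvd
    exact Nat.card_pos_iff.mpr ⟨⟨⟨g, hg⟩⟩, inferInstance⟩
  -- sum of χ is zero
  have hsum0 : ∑ g, (χ : G → ℂ) g = 0 := by
    have h1 := classInner_irr χ.2 (isIrrCharacter_one (G := G))
    rw [if_neg, classInner] at h1
    · simp only [map_one, mul_one] at h1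
      rcases mul_eq_zero.mp h1 with h | h
      · exact absurd (inv_eq_zero.mp h) card_ne_zero_complex
      · exact h
    · intro hc
      have : (x : ℂ) = 1 := by rw [hxcast, hc]
      have : x = 1 := by exact_mod_cast this
      omega
  have hsumodd : ∑ h ∈ Finset.univ.filter (fun h : G => Odd (orderOf h)), (χ : G → ℂ) h = 0 := by
    rw [← hsum0, ← Finset.sum_filter_add_sum_filter_not Finset.univ (fun h : G => Odd (orderOf h))]
    rw [Finset.sum_eq_zero (s := Finset.univ.filter (fun h : G => ¬ Odd (orderOf h))), add_zero]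
    intro h hh
    exact V2 h (Nat.not_odd_iff_even.mp (Finset.mem_filter.mp hh).2).two_dvd
  have hsumsq : ∑ h, (χ : G → ℂ) (h * h) = (t : ℂ) * (x : ℂ) := by
    rw [← Finset.sum_filter_add_sum_filter_not Finset.univ (fun h : G => Odd (orderOf h)),
      sum_sq_odd, hsumodd, zero_add]
    have h1 : ∀ h ∈ Finset.univ.filter (fun h : G => ¬ Odd (orderOf h)),
        (χ : G → ℂ) (h * h) = if orderOf h = 2 then (x : ℂ) else 0 := by
      intro h hh
      split_ifs with h2'
      · rw [hxcast, ← sq, ← h2', pow_orderOf_eq_one]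
      · exact vanish_sq _ V2 Vp h (Finset.mem_filter.mp hh).2 h2'
    rw [Finset.sum_congr rfl h1, ← Finset.sum_filter, Finset.filter_filter, Finset.sum_const,
      nsmul_eq_mul, ht, Nat.card_eq_fintype_card, Fintype.card_subtype]
    congr 3
    ext h
    simp only [Finset.mem_filter, Finset.mem_univ, true_and]
    constructor
    · rintro ⟨_, h⟩; exact h
    · intro h; exact ⟨by rw [h]; decide, h⟩
  have hG0 : (Nat.card G : ℂ) ≠ 0 := card_ne_zero_complex
  have hind : (Nat.card G : ℂ)⁻¹ * ∑ g : G, (χ : G → ℂ) (g * g) = 1 ∧ t * x = Nat.card G := by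
    have htri := fsInd_trichotomy χ.2
    unfold fsInd at htri
    rw [hsumsq] at htri ⊢
    have hpos : (0 : ℝ) < (Nat.card G : ℝ)⁻¹ * ((t : ℝ) * (x : ℝ)) := by
      have : (0 : ℝ) < (Nat.card G : ℝ) := by exact_mod_cast Nat.card_pos
      positivity
    have hcast : (Nat.card G : ℂ)⁻¹ * ((t : ℂ) * (x : ℂ)) =
        (((Nat.card G : ℝ)⁻¹ * ((t : ℝ) * (x : ℝ)) : ℝ) : ℂ) := by push_cast; ring
    rw [hcast] at htri ⊢
    have h1 : (Nat.card G : ℝ)⁻¹ * ((t : ℝ) * (x : ℝ)) = 1 := by
      rcases htri with h | h | h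
      · have : (Nat.card G : ℝ)⁻¹ * ((t : ℝ) * (x : ℝ)) = 0 := by exact_mod_cast h
        linarith
      · exact_mod_cast h
      · have : (Nat.card G : ℝ)⁻¹ * ((t : ℝ) * (x : ℝ)) = -1 := by exact_mod_cast h
        linarith
    refine ⟨by rw [h1]; simp, ?_⟩
    have hGr : (Nat.card G : ℝ) ≠ 0 := by exact_mod_cast Nat.card_pos.ne'
    have h2 : (t : ℝ) * (x : ℝ) = (Nat.card G : ℝ) := by
      field_simp at h1
      exact h1
    exact_mod_cast h2
  obtain ⟨hind1, htx⟩ := hind
  have hCdvd : ∀ s : G, orderOf s = 2 → Nat.card (Subgroup.centralizer ({s} : Set G)) ∣ x := by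
    intro s hs
    set C := Subgroup.centralizer ({s} : Set G) with hC
    have hres : IsCharacter C (fun c : C => (χ : G → ℂ) c) :=
      IsCharacter.restrict C (IsIrrCharacter.isCharacter χ.2)
    obtain ⟨n, hn⟩ := IsCharacter.classInner_nat hres
      (IsIrrCharacter.isCharacter (isIrrCharacter_one (G := C)))
    rw [classInner] at hn
    simp only [map_one, mul_one] at hn
    have hsum : ∑ c : C, (χ : G → ℂ) c = (x : ℂ) := by
      rw [Finset.sum_eq_single (1 : C)]
      · rw [hxcast]; rfl
      · intro c _ hc1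
        apply vanish_centralizer _ V2 Vp s hs c
        · exact (Subgroup.mem_centralizer_singleton_iff.mp c.2).symm
        · intro h; exact hc1 (Subtype.ext h)
      · intro h; exact absurd (Finset.mem_univ _) h
    rw [hsum] at hn
    have hC0 : (Nat.card C : ℂ) ≠ 0 := by exact_mod_cast Nat.card_pos.ne'
    have h3 : (x : ℂ) = ((n * Nat.card C : ℕ) : ℂ) := by
      push_cast
      field_simp at hn
      rw [hn, mul_comm]
    have h4 : x = n * Nat.card C := by exact_mod_cast h3
    exact ⟨n, by rw [h4, mul_comm]⟩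
  have hkey : ∀ s : G, orderOf s = 2 → Nat.card (Subgroup.centralizer ({s} : Set G)) = x ∧
      ∀ s' : G, orderOf s' = 2 → IsConj s s' := by
    intro s hs
    have h1 := card_isConj_mul_card_centralizer s
    have hord : ∀ y : G, IsConj s y → orderOf y = 2 := by
      intro y hy
      obtain ⟨c, hc⟩ := isConj_iff.mp hy
      rw [← hc, ← hs]
      exact (MulAut.conj c).orderOf_eq s
    let F : {y : G // IsConj s y} → {g : G // orderOf g = 2} := fun y => ⟨y.1, hord y.1 y.2⟩
    have hF : Function.Injective F := by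
      intro a b hab
      exact Subtype.ext (congrArg (fun z : {g : G // orderOf g = 2} => z.1) hab)
    have hle : Nat.card {y : G // IsConj s y} ≤ t := Nat.card_le_card_of_injective F hF
    have hCle : Nat.card (Subgroup.centralizer ({s} : Set G)) ≤ x :=
      Nat.le_of_dvd hxpos (hCdvd s hs)
    have hCeq : Nat.card (Subgroup.centralizer ({s} : Set G)) = x := by
      by_contra hne
      have hlt : Nat.card (Subgroup.centralizer ({s} : Set G)) < x := lt_of_le_of_ne hCle hne
      have h5 : Nat.card {y : G // IsConj s y} * Nat.card (Subgroup.centralizer ({s} : Set G)) ≤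
          t * Nat.card (Subgroup.centralizer ({s} : Set G)) := Nat.mul_le_mul_right _ hle
      have h6 : t * Nat.card (Subgroup.centralizer ({s} : Set G)) < t * x :=
        Nat.mul_lt_mul_of_pos_left hlt htpos
      omega
    refine ⟨hCeq, ?_⟩
    rw [hCeq, ← htx] at h1
    have h7 : Nat.card {y : G // IsConj s y} = t := Nat.eq_of_mul_eq_mul_right hxpos h1
    have hbij : Function.Bijective F := hF.bijective_of_nat_card_le (by rw [h7])
    intro s' hs'
    obtain ⟨y, hy⟩ := hbij.2 ⟨s', hs'⟩
    have : y.1 = s' := congrArg (fun z : {g : G // orderOf g = 2} => z.1) hy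
    rw [← this]
    exact y.2
  refine ⟨fun s s' hs hs' => (hkey s hs).2 s' hs', fun s hs => ⟨(hkey s hs).1, ?_⟩, hind1⟩
  have hCeq := (hkey s hs).1
  have hidx : (Subgroup.centralizer ({s} : Set G)).index = Nat.card G / x := by
    have := Subgroup.card_mul_index (Subgroup.centralizer ({s} : Set G))
    rw [hCeq] at this
    rw [← this, Nat.mul_div_cancel_left _ hxpos]
  by_contra hnc
  obtain ⟨p, hpp, hp1, hp2'⟩ := Nat.Prime.not_coprime_iff_dvd.mp hnc
  have hfull : p ^ (Nat.card G).factorization p ∣ x := by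
    by_cases hp2 : p = 2
    · rw [hp2]; exact h2
    · haveI : Fact p.Prime := ⟨hpp⟩
      obtain ⟨c, hc⟩ := exists_prime_orderOf_dvd_card' (G := Subgroup.centralizer ({s} : Set G)) p hp1
      apply hp p hpp hp2
      apply exists_two_mul s hs (c : G) (Subgroup.mem_centralizer_singleton_iff.mp c.2).symm hpp hp2
      rw [Subgroup.orderOf_coe, hc]
  rw [hidx] at hp2'
  exact not_dvd_card_div_degree χ.2
    (Nat.pow_succ_factorization_not_dvd Nat.card_pos.ne' hpp) hfull hp2'

end Cfsg.Agent.S4478
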