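import Cfsg.Statements.S4480
import Mathlib
import Cfsg.Agent.Lib.Helper23.KleinOrder2

set_option autoImplicit false
open Cfsg

namespace Cfsg.Agent.S4480

open Cfsg.Agent.Lib.Helper23.KleinOrder Cfsg.Agent.Lib.Helper6

/-- Same setting as the Klein-four order formula: G of order 4·g₀ (g₀ odd) with no normal 2-complement, P a Sylow 2-subgroup, J an involution of P, M over 2, principal 2-block {1, χ₁, χ₂, χ₃} with χ_i(J) = ε_i = ±1. Suppose ε₁ε₂ε₃ = −1 and ε₃ = −1, and put q = x₃ = χ₃(1). Then there is a natural number m with 4·c(J) = m·c(P)·(q + 1), and the order of G equals (m³·c(P)/4)·(q³ − q)/2, that is 8·#G = m³·c(P)·(q³ − q). -/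
theorem result {G : Type*} [Group G] [Finite G] (M : Ideal Cfsg.AlgInt) (hM : Cfsg.IsPModular 2 M) (g₀ : ℕ) (hg₀ : Odd g₀) (hG : Nat.card G = 4 * g₀) (hnc : ¬ ∃ N : Subgroup G, N.Normal ∧ Nat.card N = g₀) (P : Sylow 2 G) (J : G) (hJ : J ∈ (P : Subgroup G)) (hJ2 : orderOf J = 2) (χ₁ χ₂ χ₃ : Cfsg.IrrCharacter G) (ε₁ ε₂ ε₃ : ℤ) (hB : Cfsg.principalBlock M G = {χ : Cfsg.IrrCharacter G | (χ : G → ℂ) = (fun _ => 1) ∨ χ = χ₁ ∨ χ = χ₂ ∨ χ = χ₃}) (hdist : (χ₁ : G → ℂ) ≠ (fun _ => 1) ∧ (χ₂ : G → ℂ) ≠ (fun _ => 1) ∧ (χ₃ : G → ℂ) ≠ (fun _ => 1) ∧ χ₁ ≠ χ₂ ∧ χ₁ ≠ χ₃ ∧ χ₂ ≠ χ₃) (hε : (ε₁ = 1 ∨ ε₁ = -1) ∧ (ε₂ = 1 ∨ ε₂ = -1) ∧ (ε₃ = 1 ∨ ε₃ = -1)) (hval : (χ₁ : G → ℂ) J = ε₁ ∧ (χ₂ : G → ℂ) J = ε₂ ∧ (χ₃ : G → ℂ) J = ε₃) (hprod : ε₁ * ε₂ * ε₃ = -1) (hε₃ : ε₃ = -1) : ∃ m : ℕ, 4 * Nat.card (Subgroup.centralizer ({J} : Set G)) = m * Nat.card (Subgroup.centralizer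 ((P : Subgroup G) : Set G)) * (Cfsg.charDegree (χ₃ : G → ℂ) + 1) ∧ 8 * Nat.card G = m ^ 3 * Nat.card (Subgroup.centralizer ((P : Subgroup G) : Set G)) * (Cfsg.charDegree (χ₃ : G → ℂ) ^ 3 - Cfsg.charDegree (χ₃ : G → ℂ)) := by
  cases nonempty_fintype G
  obtain ⟨hP, hone⟩ := klein_of_no_complement hg₀ hG hnc P
  obtain ⟨E2, key⟩ := klein_main hM hg₀ hG hnc P hJ hJ2 hB hdist hε hval
  subst hε₃
  have hpos : ∀ χ : Cfsg.IrrCharacter G, (1 : ℤ) ≤ (Cfsg.charDegree (χ : G → ℂ) : ℤ) := fun χ => by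
    exact_mod_cast Cfsg.Agent.Lib.Helper24.charDegree_pos χ.2
  have h12 : ε₁ = 1 ∧ ε₂ = 1 := by
    rcases hε.1 with h1 | h1 <;> rcases hε.2.1 with h2 | h2
    · exact ⟨h1, h2⟩
    · rw [h1, h2] at hprod; norm_num at hprod
    · rw [h1, h2] at hprod; norm_num at hprod
    · exfalso
      rw [h1, h2] at E2
      linarith [hpos χ₁, hpos χ₂, hpos χ₃]
  obtain ⟨rfl, rfl⟩ := h12
  have hx := degree_eq hM P hP hone hJ hJ2 hB hdist (by simpa using hval.1)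
    (by simpa using hval.2.1) (by simpa using hval.2.2)
  rw [← hx] at E2 key
  have hq : Cfsg.charDegree (χ₃ : G → ℂ) = 2 * Cfsg.charDegree (χ₁ : G → ℂ) + 1 := by
    have : (Cfsg.charDegree (χ₃ : G → ℂ) : ℤ) = 2 * (Cfsg.charDegree (χ₁ : G → ℂ) : ℤ) + 1 := by
      linarith
    exact_mod_cast this
  rw [hq] at key ⊢
  apply arith (Cfsg.Agent.Lib.Helper24.charDegree_pos χ₁.2) Nat.card_pos Nat.card_pos
  · apply Subgroup.card_dvd_of_le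
    apply Subgroup.centralizer_le
    intro y hy
    rw [Set.mem_singleton_iff.mp hy]
    exact hJ
  · exact Subgroup.card_subgroup_dvd_card _
  · have h3 : ((2 * Cfsg.charDegree (χ₁ : G → ℂ) + 1 : ℕ) : ℤ) + -1 =
        ((2 * Cfsg.charDegree (χ₁ : G → ℂ) : ℕ) : ℤ) := by push_cast; ring
    rw [h3] at key
    exact_mod_cast key

end Cfsg.Agent.S4480
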