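import Cfsg.Statements.S4483
import Mathlib
import Cfsg.Agent.Lib.Helper23.RealBlock
import Cfsg.Agent.Lib.Helper23.PReg

set_option autoImplicit false
open Cfsg

namespace Cfsg.Agent.S4483

open Cfsg.Agent.Lib.Helper2 Cfsg.Agent.Lib.Helper6 Cfsg.Agent.Lib.Helper23.RealBlock
open Cfsg.Agent.Lib.Lead
open scoped ComplexConjugate

attribute [local instance] irrFintype

theorem conj_eq_of_real {G : Type*} [Group G] {χ : G → ℂ} (h : ∀ g : G, (χ g).im = 0) (g : G) :
    conj (χ g) = χ g := Complex.conj_eq_iff_im.2 (h g)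

theorem part1 {G : Type*} [Group G] [Fintype G] (M : Ideal Cfsg.AlgInt)
    (hM : Cfsg.IsPModular 2 M) (χ : Cfsg.IrrCharacter G)
    (hreal : ∀ g : G, ((χ : G → ℂ) g).im = 0) (hodd : Odd (Cfsg.charDegree (χ : G → ℂ))) :
    χ ∈ Cfsg.principalBlock M G := by
  haveI := IsPModular.isPrime hM
  have hB : Cfsg.IsPBlock M (Cfsg.blockOf M (χ : G → ℂ)) := ⟨χ, rfl⟩
  have hmem : χ ∈ Cfsg.blockOf M (χ : G → ℂ) := mem_blockOf_self χ
  have hχinv : ∀ g, (χ : G → ℂ) g⁻¹ = (χ : G → ℂ) g := by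
    intro g
    rw [IsCharacter.apply_inv (IsIrrCharacter.isCharacter χ.2), conj_eq_of_real hreal]
  rw [← eq_principalBlock_of_conj_stable hM hB ?_ ⟨χ, hmem, hodd⟩]
  · exact hmem
  · intro ψ hψ g
    have h1 := hψ g⁻¹
    have h2 : Cfsg.centralChar (χ : G → ℂ) g⁻¹ = Cfsg.centralChar (χ : G → ℂ) g := by
      unfold Cfsg.centralChar
      rw [centralizer_inv, hχinv]
    have h3 : Cfsg.centralChar (ψ : G → ℂ) g⁻¹ = Cfsg.centralChar (conjI ψ : G → ℂ) g := by
      unfold Cfsg.centralChar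
      rw [centralizer_inv, conjI_apply, conjI_apply, inv_one]
    rw [h2, h3] at h1
    exact h1

theorem sum_odd_ne_zero {G : Type*} [Group G] [Fintype G] (ψ : Cfsg.IrrCharacter G)
    (hreal : ∀ g : G, ((ψ : G → ℂ) g).im = 0) (hodd : Odd (Cfsg.charDegree (ψ : G → ℂ))) :
    ∑ x : G, (if 2 ∣ orderOf x then (0 : ℂ) else (ψ : G → ℂ) x) ≠ 0 := by
  classical
  intro h0
  have hψc := IsIrrCharacter.isCharacter ψ.2
  rw [← Finset.add_sum_erase _ _ (Finset.mem_univ (1 : G))] at h0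
  have h1 : ¬ 2 ∣ orderOf (1 : G) := by rw [orderOf_one]; decide
  rw [if_neg h1] at h0
  have hP : IsIntegral ℤ ((∑ x ∈ Finset.univ.erase (1 : G),
      (if 2 ∣ orderOf x then (0 : ℂ) else (ψ : G → ℂ) x)) / 2) := by
    apply sum_involution_mem (fun z => IsIntegral ℤ (z / 2)) (by simpa using isIntegral_zero)
      (fun a b ha hb => by rw [add_div]; exact ha.add hb) (fun x : G => x⁻¹)
    · intro x hx
      rw [Finset.mem_erase] at hx ⊢
      exact ⟨inv_ne_one.2 hx.1, Finset.mem_univ _⟩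
    · intro x _; exact inv_inv x
    · intro x hx hfix
      have hx1 : x ≠ 1 := (Finset.mem_erase.1 hx).1
      have h2 : 2 ∣ orderOf x := by
        by_contra hc
        have ho : Odd (orderOf x) := Nat.not_even_iff_odd.1 (fun h => hc (even_iff_two_dvd.1 h))
        exact ne_inv_of_odd ho hx1 hfix.symm
      rw [if_pos h2]
      simpa using isIntegral_zero
    · intro x _ _
      rw [orderOf_inv]
      by_cases h2 : 2 ∣ orderOf x
      · simp only [if_pos h2]
        simpa using (isIntegral_zero (R := ℤ) (B := ℂ))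
      · simp only [if_neg h2]
        rw [IsCharacter.apply_inv hψc, conj_eq_of_real hreal]
        have : ((ψ : G → ℂ) x + (ψ : G → ℂ) x) / 2 = (ψ : G → ℂ) x := by ring
        rw [this]
        exact Cfsg.Agent.Lib.Helper24.char_isIntegral hψc x
  have h3 : (∑ x ∈ Finset.univ.erase (1 : G),
      (if 2 ∣ orderOf x then (0 : ℂ) else (ψ : G → ℂ) x)) = - (ψ : G → ℂ) 1 := by
    rw [eq_neg_iff_add_eq_zero, add_comm]; exact h0
  rw [h3] at hP
  have h4 : IsIntegral ℤ (((Cfsg.charDegree (ψ : G → ℂ) : ℕ) : ℂ) / ((2 : ℕ) : ℂ)) := by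
    rw [Cfsg.Agent.Lib.Helper24.charDegree_cast hψc]
    have := hP.neg
    have e : -(-(ψ : G → ℂ) 1 / 2) = (ψ : G → ℂ) 1 / ((2 : ℕ) : ℂ) := by push_cast; ring
    rwa [e] at this
  have h5 := dvd_of_isIntegral_div (by norm_num) h4
  exact (Nat.not_even_iff_odd.2 hodd) (even_iff_two_dvd.2 h5)

/-- Let G be a finite group of order 2^n·g₀ with g₀ odd, and M a maximal ideal of the algebraic integers containing 2. Every real-valued irreducible character of G of odd degree lies in the principal 2-block; consequently G has at most 2^(2n) real-valued irreducible characters of odd degree. -/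
theorem result {G : Type*} [Group G] [Finite G] (M : Ideal Cfsg.AlgInt) (hM : Cfsg.IsPModular 2 M) : (∀ χ : Cfsg.IrrCharacter G, (∀ g : G, ((χ : G → ℂ) g).im = 0) → Odd (Cfsg.charDegree (χ : G → ℂ)) → χ ∈ Cfsg.principalBlock M G) ∧ Nat.card {χ : Cfsg.IrrCharacter G // (∀ g : G, ((χ : G → ℂ) g).im = 0) ∧ Odd (Cfsg.charDegree (χ : G → ℂ))} ≤ 2 ^ (2 * (Nat.card G).factorization 2) := by
  classical
  cases nonempty_fintype G
  haveI : Fact (Nat.Prime 2) := ⟨Nat.prime_two⟩
  refine ⟨fun χ hr ho => part1 M hM χ hr ho, ?_⟩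
  set n := (Nat.card G).factorization 2 with hn
  have hθ := Cfsg.Agent.Lib.Helper23.PReg.genChar_preg (G := G) 2 (χ := fun _ => 1)
    (IsIrrCharacter.isCharacter isIrrCharacter_one)
  rw [← hn] at hθ
  set θ : G → ℂ := fun x : G => if 2 ∣ orderOf x then 0 else ((2 ^ n : ℕ) : ℂ) * 1 with hθdef
  obtain ⟨c, hc⟩ := genChar_exists_eq_sum hθ
  have hG : (Nat.card G : ℂ) ≠ 0 := by
    have : 0 < Nat.card G := Nat.card_pos
    exact_mod_cast this.ne'
  -- the norm
  have hnorm : Cfsg.classInner θ θ = ((∑ ψ : Cfsg.IrrCharacter G, (c ψ) ^ 2 : ℤ) : ℂ) := by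
    conv_lhs => rw [hc]
    rw [classInner_sum_irr]
    push_cast
    apply Finset.sum_congr rfl
    intro ψ _
    rw [map_intCast, pow_two]
  have hnorm2 : Cfsg.classInner θ θ = (Nat.card G : ℂ)⁻¹ *
      (((Finset.univ.filter fun x : G => ¬ 2 ∣ orderOf x).card * 4 ^ n : ℕ) : ℂ) := by
    unfold Cfsg.classInner
    congr 1
    have : ∀ x : G, θ x * conj (θ x) = if ¬ 2 ∣ orderOf x then ((4 ^ n : ℕ) : ℂ) else 0 := by
      intro x
      rw [hθdef]
      by_cases h2 : 2 ∣ orderOf x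
      · simp [h2]
      · simp only [h2, if_false, not_false_eq_true, if_true, mul_one, Complex.conj_natCast]
        rw [← Nat.cast_mul, ← mul_pow]
        norm_num
    simp only [this]
    rw [← Finset.sum_filter, Finset.sum_const, nsmul_eq_mul]
    push_cast
    ring
  have hle : (∑ ψ : Cfsg.IrrCharacter G, (c ψ) ^ 2 : ℤ) ≤ 4 ^ n := by
    have h1 : ((Nat.card G : ℤ) * ∑ ψ : Cfsg.IrrCharacter G, (c ψ) ^ 2 : ℤ)
        = (((Finset.univ.filter fun x : G => ¬ 2 ∣ orderOf x).card * 4 ^ n : ℕ) : ℤ) := by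
      have h2 := hnorm.symm.trans hnorm2
      have h3 : ((Nat.card G : ℂ)) * ((∑ ψ : Cfsg.IrrCharacter G, (c ψ) ^ 2 : ℤ) : ℂ)
          = (((Finset.univ.filter fun x : G => ¬ 2 ∣ orderOf x).card * 4 ^ n : ℕ) : ℂ) := by
        rw [h2]; field_simp
      exact_mod_cast h3
    have h4 : (Finset.univ.filter fun x : G => ¬ 2 ∣ orderOf x).card ≤ Nat.card G := by
      rw [Nat.card_eq_fintype_card]; exact Finset.card_le_univ _
    have h5 : (((Finset.univ.filter fun x : G => ¬ 2 ∣ orderOf x).card * 4 ^ n : ℕ) : ℤ)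
        ≤ (Nat.card G : ℤ) * 4 ^ n := by
      have := Nat.mul_le_mul_right (4 ^ n) h4
      exact_mod_cast this
    rw [← h1] at h5
    have hpos : (0 : ℤ) < Nat.card G := by exact_mod_cast Nat.card_pos
    exact le_of_mul_le_mul_left h5 hpos
  -- non vanishing
  have hne : ∀ ψ : Cfsg.IrrCharacter G, (∀ g : G, ((ψ : G → ℂ) g).im = 0) →
      Odd (Cfsg.charDegree (ψ : G → ℂ)) → c ψ ≠ 0 := by
    intro ψ hr ho h0
    have h1 : Cfsg.classInner θ (ψ : G → ℂ) = c ψ := by
      conv_lhs => rw [hc]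
      rw [classInner_sum_irr_left]
    rw [h0] at h1
    unfold Cfsg.classInner at h1
    have h2 : ∀ x : G, θ x * conj ((ψ : G → ℂ) x) = ((2 ^ n : ℕ) : ℂ) *
        (if 2 ∣ orderOf x then (0 : ℂ) else (ψ : G → ℂ) x) := by
      intro x
      rw [hθdef, conj_eq_of_real hr]
      by_cases h2 : 2 ∣ orderOf x
      · simp [h2]
      · simp [h2]
    simp only [h2, ← Finset.mul_sum] at h1
    have h3 := sum_odd_ne_zero ψ hr ho
    have h4 : ((2 ^ n : ℕ) : ℂ) ≠ 0 := by
      have : 0 < 2 ^ n := by positivity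
      exact_mod_cast this.ne'
    simp only [Int.cast_zero, mul_eq_zero, inv_eq_zero] at h1
    rcases h1 with h | h | h
    · exact hG h
    · exact h4 h
    · exact h3 h
  rw [Nat.card_eq_fintype_card, Fintype.card_subtype]
  have h6 : (((Finset.univ.filter fun χ : Cfsg.IrrCharacter G =>
      (∀ g : G, ((χ : G → ℂ) g).im = 0) ∧ Odd (Cfsg.charDegree (χ : G → ℂ))).card : ℕ) : ℤ)
      ≤ ∑ ψ : Cfsg.IrrCharacter G, (c ψ) ^ 2 := by
    rw [Finset.card_eq_sum_ones, Finset.sum_filter]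
    push_cast
    apply Finset.sum_le_sum
    intro ψ _
    split_ifs with h
    · have := hne ψ h.1 h.2
      have h7 : 0 < (c ψ) ^ 2 := by positivity
      omega
    · positivity
  have h7 := h6.trans hle
  have h8 : (4 : ℤ) ^ n = ((2 ^ (2 * n) : ℕ) : ℤ) := by
    push_cast
    rw [pow_mul]; norm_num
  rw [h8] at h7
  exact_mod_cast h7

end Cfsg.Agent.S4483
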