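import Cfsg.Statements.S4488
import Mathlib
import Cfsg.Agent.Lib.Helper25.GaloisVal
import Cfsg.Agent.Lib.Helper6.Height
import Cfsg.Agent.Lib.Helper24.DefectZero

set_option autoImplicit false
open Cfsg

namespace Cfsg.Agent.S4488

open Cfsg Cfsg.Agent.Lib.Helper2 Cfsg.Agent.Lib.Helper6 Cfsg.Agent.Lib.Helper24 Cfsg.Agent.Lib.Helper25

open IsCyclotomicExtension in
theorem gal_aux (N : ℕ) [NeZero N] (K : Type) [Field K] [NumberField K]
    [IsCyclotomicExtension {N} ℚ K] {d : ℕ} (ε : Fin d → ℂ) (hε : ∀ i, ε i ^ N = 1)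
    (ω : ℂ) (r : ℕ) (hrN : r ∣ N) (hω : ω ^ r = 1)
    (hmem : ∑ i, ε i ∈ IntermediateField.adjoin ℚ ({ω} : Set ℂ))
    (u : (ZMod N)ˣ) (hu : (u : ZMod N).val % r = 1 % r) :
    ∑ i, ε i ^ (u : ZMod N).val = ∑ i, ε i := by
  have : IsGalois ℚ K := IsCyclotomicExtension.isGalois {N} ℚ K
  let μ : K := zeta N ℚ K
  have hμ : IsPrimitiveRoot μ N := zeta_spec N ℚ K
  let φ : K →ₐ[ℚ] ℂ := IsAlgClosed.lift
  have hφinj : Function.Injective φ := φ.toRingHom.injective
  have hζ : IsPrimitiveRoot (φ μ) N := hμ.map_of_injective hφinj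
  choose a _ ha using fun i => hζ.eq_pow_of_pow_eq_one (hε i)
  have hωN : ω ^ N = 1 := by
    obtain ⟨c, rfl⟩ := hrN
    rw [pow_mul, hω, one_pow]
  obtain ⟨s, _, hs⟩ := hζ.eq_pow_of_pow_eq_one hωN
  let x : K := ∑ i, μ ^ a i
  have hφx1 : φ x = ∑ i, ε i := by simp only [x, map_sum, map_pow, ha]
  let σ : Gal(K/ℚ) := (Rat.galEquivZMod N K).symm u
  have hσ : ∀ z : K, z ^ N = 1 → σ z = z ^ (u : ZMod N).val := by
    intro z hz
    have := Rat.galEquivZMod_apply_of_pow_eq N K σ hz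
    rwa [MulEquiv.apply_symm_apply] at this
  have hx : x ∈ IntermediateField.adjoin ℚ ({μ ^ s} : Set K) := by
    have h1 : (IntermediateField.adjoin ℚ ({μ ^ s} : Set K)).map φ =
        IntermediateField.adjoin ℚ ({ω} : Set ℂ) := by
      rw [IntermediateField.adjoin_map, Set.image_singleton, map_pow, hs]
    rw [← h1, ← hφx1] at hmem
    obtain ⟨y, hy, hyx⟩ := hmem
    have : y = x := hφinj hyx
    rwa [← this]
  have hr1 : (μ ^ s) ^ r = 1 := by
    apply hφinj
    rw [map_pow, map_pow, hs, hω, map_one]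
  have hfix : σ (μ ^ s) = μ ^ s := by
    rw [hσ _ (by rw [← pow_mul, mul_comm, pow_mul, hμ.pow_eq_one, one_pow]),
      pow_eq_pow_mod _ hr1, hu, ← pow_eq_pow_mod _ hr1, pow_one]
  have hall : ∀ y ∈ IntermediateField.adjoin ℚ ({μ ^ s} : Set K), σ y = y := by
    intro y hy
    induction hy using IntermediateField.adjoin_induction with
    | mem z hz =>
      rw [Set.mem_singleton_iff] at hz
      rw [hz, hfix]
    | algebraMap q => exact AlgEquiv.commutes σ q
    | add y z _ _ hy hz => rw [map_add, hy, hz]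
    | inv y _ hy => rw [map_inv₀, hy]
    | mul y z _ _ hy hz => rw [map_mul, hy, hz]
  have hσx : σ x = x := hall x hx
  have h2 : φ (σ x) = ∑ i, ε i ^ (u : ZMod N).val := by
    simp only [x, map_sum]
    refine Finset.sum_congr rfl fun i _ => ?_
    rw [hσ _ (by rw [← pow_mul, mul_comm, pow_mul, hμ.pow_eq_one, one_pow]), map_pow, map_pow, ha i]
  rw [← h2, hσx, hφx1]

set_option backward.isDefEq.respectTransparency false in
theorem sum_pow_eq (p : ℕ) (hp : p.Prime) (r : ℕ) (hr : 0 < r) (hpr : ¬ p ∣ r) (j : ℕ) {d : ℕ}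
    (ε : Fin d → ℂ) (hε : ∀ i, ε i ^ (p ^ j) = 1)
    (hmem : ∑ i, ε i ∈ IntermediateField.adjoin ℚ
      ({Complex.exp (2 * Real.pi * Complex.I / r)} : Set ℂ))
    (k : ℕ) (hk : ¬ p ∣ k) : ∑ i, ε i ^ k = ∑ i, ε i := by
  have hco : Nat.Coprime r (p ^ j) :=
    Nat.Coprime.pow_right j ((Nat.Prime.coprime_iff_not_dvd hp).mpr hpr).symm
  obtain ⟨t, ht1, ht2⟩ := Nat.chineseRemainder hco 1 k
  haveI : NeZero (r * p ^ j) := ⟨(Nat.mul_pos hr (pow_pos hp.pos j)).ne'⟩
  have htr : Nat.Coprime t r := by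
    have := ht1.gcd_eq
    rw [Nat.gcd_one_left] at this
    exact this
  have htp : Nat.Coprime t (p ^ j) := by
    have := ht2.gcd_eq
    have h2 : Nat.Coprime k (p ^ j) :=
      Nat.Coprime.pow_right j ((Nat.Prime.coprime_iff_not_dvd hp).mpr hk).symm
    unfold Nat.Coprime
    rw [this]
    exact h2
  have htN : Nat.Coprime t (r * p ^ j) := Nat.Coprime.mul_right htr htp
  have hεN : ∀ i, ε i ^ (r * p ^ j) = 1 := by
    intro i
    rw [mul_comm, pow_mul, hε, one_pow]
  have key := gal_aux (r * p ^ j) (CyclotomicField (r * p ^ j) ℚ) ε hεN _ r (Dvd.intro _ rfl)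
    (Complex.isPrimitiveRoot_exp r hr.ne').pow_eq_one hmem (ZMod.unitOfCoprime t htN)
    (by
      rw [ZMod.coe_unitOfCoprime, ZMod.val_natCast, Nat.mod_mod_of_dvd _ (Dvd.intro _ rfl)]
      exact ht1)
  rw [← key]
  refine Finset.sum_congr rfl fun i _ => ?_
  rw [ZMod.coe_unitOfCoprime, ZMod.val_natCast, pow_eq_pow_mod k (hε i),
    pow_eq_pow_mod (t % (r * p ^ j)) (hε i), Nat.mod_mod_of_dvd _ (Dvd.intro_left _ rfl)]
  congr 1
  exact ht2.symm

theorem geom_root {η : ℂ} {m : ℕ} (hη : η ^ m = 1) :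
    ∑ k ∈ Finset.range m, η ^ k = if η = 1 then (m : ℂ) else 0 := by
  split_ifs with h
  · simp [h]
  · have h1 := geom_sum_mul η m
    rw [hη, sub_self] at h1
    exact (mul_eq_zero.mp h1).resolve_right (sub_ne_zero.mpr h)

theorem sum_geom {d : ℕ} (ε : Fin d → ℂ) {m : ℕ} (hε : ∀ i, ε i ^ m = 1) :
    ∑ k ∈ Finset.range m, ∑ i, ε i ^ k =
      (m : ℂ) * ((Finset.univ.filter fun i => ε i = 1).card : ℂ) := by
  rw [Finset.sum_comm]
  simp_rw [geom_root (hε _)]
  rw [← Finset.sum_filter, Finset.sum_const, nsmul_eq_mul, mul_comm]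

theorem filter_dvd_range (p m : ℕ) (hp : 0 < p) :
    (Finset.range (p * m)).filter (fun k => p ∣ k) = (Finset.range m).image (fun l => p * l) := by
  ext k
  simp only [Finset.mem_filter, Finset.mem_range, Finset.mem_image]
  constructor
  · rintro ⟨hk, l, rfl⟩
    exact ⟨l, Nat.lt_of_mul_lt_mul_left hk, rfl⟩
  · rintro ⟨l, hl, rfl⟩
    exact ⟨Nat.mul_lt_mul_of_pos_left hl hp, Dvd.intro _ rfl⟩

theorem sum_split (p m : ℕ) (hp : 0 < p) (f : ℕ → ℂ) :
    ∑ k ∈ Finset.range (p * m), f k = ∑ l ∈ Finset.range m, f (p * l) +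
      ∑ k ∈ (Finset.range (p * m)).filter (fun k => ¬ p ∣ k), f k := by
  rw [← Finset.sum_filter_add_sum_filter_not (Finset.range (p * m)) (fun k => p ∣ k) f,
    filter_dvd_range p m hp, Finset.sum_image]
  intro a _ b _ hab
  exact Nat.eq_of_mul_eq_mul_left hp hab

theorem value_form (p : ℕ) (hp : p.Prime) (j : ℕ) {d : ℕ} (ε : Fin d → ℂ)
    (hε : ∀ i, ε i ^ (p ^ j) = 1)
    (hinv : ∀ k : ℕ, ¬ p ∣ k → ∑ i, ε i ^ k = ∑ i, ε i) (hne : ∑ i, ε i ≠ d) :
    ∃ s : ℕ, 1 ≤ s ∧ (p - 1) * s ≤ d ∧ ∑ i, ε i = (d : ℂ) - p * s := by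
  obtain ⟨j', rfl⟩ : ∃ j', j = j' + 1 := by
    rcases j with _ | j'
    · exfalso
      apply hne
      simp only [pow_zero, pow_one] at hε
      simp [hε]
    · exact ⟨j', rfl⟩
  have : NeZero (p ^ (j' + 1)) := ⟨(pow_pos hp.pos _).ne'⟩
  obtain ⟨q, hq⟩ := GaloisVal.rat_of_sum_pow (p ^ (j' + 1)) ε hε (fun k => hinv _ (by
    have h1 := ZMod.val_coe_unit_coprime k
    intro hdvd
    have h2 : p ∣ Nat.gcd (k : ZMod (p ^ (j' + 1))).val (p ^ (j' + 1)) :=
      Nat.dvd_gcd hdvd (dvd_pow_self p (Nat.succ_ne_zero j'))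
    rw [h1.gcd_eq_one] at h2
    exact hp.one_lt.ne' (Nat.dvd_one.mp h2)))
  have hint : IsIntegral ℤ (∑ i, ε i) := IsIntegral.sum _ (fun i _ =>
    IsIntegral.of_pow (pow_pos hp.pos (j' + 1)) (by rw [hε]; exact isIntegral_one))
  obtain ⟨z, hz⟩ : ∃ z : ℤ, ∑ i, ε i = (z : ℂ) := by
    rw [hq] at hint
    have h1 : IsIntegral ℤ q :=
      (isIntegral_algebraMap_iff (algebraMap ℚ ℂ).injective).mp hint
    obtain ⟨z, hz⟩ := IsIntegrallyClosed.isIntegral_iff.mp h1
    exact ⟨z, by rw [hq, ← hz]; simp⟩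
  -- congruence
  obtain ⟨M, hM⟩ := exists_isPModular hp
  have hMp := IsPModular.isPrime hM
  have hdiv : (p : ℤ) ∣ z - d := by
    rw [← memLocalIdeal_intCast_iff hM]
    have h1 : ((z - d : ℤ) : ℂ) = ∑ i, (ε i - 1) := by
      rw [Finset.sum_sub_distrib, hz]
      simp
    rw [h1]
    exact MemLocalIdeal.sum _ (fun i _ => sub_one_memLocalIdeal_of_pow_eq_one hM (hε i))
  -- upper bound
  have hle : z ≤ d := by
    have h1 : ‖∑ i, ε i‖ ≤ d := by
      refine (norm_sum_le _ _).trans ?_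
      have : ∀ i ∈ Finset.univ, ‖ε i‖ ≤ 1 := fun i _ =>
        (Complex.norm_eq_one_of_pow_eq_one (hε i) (pow_pos hp.pos _).ne').le
      refine (Finset.sum_le_sum this).trans ?_
      simp
    rw [hz, Complex.norm_intCast] at h1
    have h2 : (z : ℝ) ≤ d := (le_abs_self _).trans h1
    exact_mod_cast h2
  have hne' : z ≠ d := by
    intro h
    apply hne
    rw [hz, h]
    simp
  -- lower bound
  obtain ⟨a, b, hb, hab⟩ : ∃ a b : ℕ, b ≤ d ∧ (p : ℤ) * a = b + (p - 1) * z := by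
    set m := p ^ j' with hm
    have hpm : p ^ (j' + 1) = p * m := by rw [hm, pow_succ, mul_comm]
    have hm0 : (m : ℂ) ≠ 0 := by
      have : m ≠ 0 := (pow_pos hp.pos _).ne'
      exact_mod_cast this
    rw [hpm] at hε
    have hA := sum_geom ε hε
    have hB := sum_geom (fun i => ε i ^ p) (m := m) (fun i => by rw [← pow_mul]; exact hε i)
    have hS := sum_split p m hp.pos (fun k => ∑ i, ε i ^ k)
    have hC : ∑ k ∈ (Finset.range (p * m)).filter (fun k => ¬ p ∣ k), ∑ i, ε i ^ k =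
        (((Finset.range (p * m)).filter (fun k => ¬ p ∣ k)).card : ℂ) * z := by
      rw [Finset.sum_congr rfl (fun k hk => hinv k (Finset.mem_filter.mp hk).2), Finset.sum_const,
        nsmul_eq_mul, hz]
    have hcard := sum_split p m hp.pos (fun _ => 1)
    simp only [Finset.sum_const, Finset.card_range, nsmul_eq_mul, mul_one] at hcard
    refine ⟨(Finset.univ.filter fun i => ε i = 1).card,
      (Finset.univ.filter fun i => ε i ^ p = 1).card,
      (Finset.card_filter_le _ _).trans (by simp), ?_⟩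
    · have hB' : ∑ l ∈ Finset.range m, ∑ i, ε i ^ (p * l) =
          (m : ℂ) * ((Finset.univ.filter fun i => ε i ^ p = 1).card : ℂ) := by
        rw [← hB]
        refine Finset.sum_congr rfl fun l _ => Finset.sum_congr rfl fun i _ => ?_
        rw [pow_mul]
      rw [hA, hB', hC] at hS
      have h3 : ((p : ℂ) * ((Finset.univ.filter fun i => ε i = 1).card : ℂ)) =
          ((Finset.univ.filter fun i => ε i ^ p = 1).card : ℂ) + ((p : ℂ) - 1) * z := by
        have h4 : (((Finset.range (p * m)).filter (fun k => ¬ p ∣ k)).card : ℂ) =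
            (m : ℂ) * ((p : ℂ) - 1) := by
          push_cast at hcard
          linear_combination -hcard
        rw [h4] at hS
        push_cast at hS
        apply mul_left_cancel₀ hm0
        linear_combination hS
      exact_mod_cast h3
  -- conclusion
  obtain ⟨c, hc⟩ := hdiv
  have hp0 : (0 : ℤ) < p := by exact_mod_cast hp.pos
  have hcneg : c < 0 := by
    by_contra h
    push Not at h
    have : 0 ≤ (p : ℤ) * c := mul_nonneg hp0.le h
    have : z = d := le_antisymm hle (by linarith)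
    exact hne' this
  obtain ⟨s, hs⟩ : ∃ s : ℕ, (s : ℤ) = -c := ⟨(-c).toNat, Int.toNat_of_nonneg (by linarith)⟩
  refine ⟨s, ?_, ?_, ?_⟩
  · have : (0 : ℤ) < s := by rw [hs]; linarith
    exact_mod_cast this
  · have h1 : ((p - 1 : ℕ) : ℤ) = (p : ℤ) - 1 := by
      rw [Nat.cast_sub hp.one_lt.le]
      simp
    have h2 : ((p : ℤ) - 1) * s ≤ d := by
      have hb' : (b : ℤ) ≤ d := by exact_mod_cast hb
      have ha' : (0 : ℤ) ≤ a := by exact_mod_cast Nat.zero_le a
      have h3 : (p : ℤ) * (((p : ℤ) - 1) * s) ≤ p * d := by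
        have : (p : ℤ) * (((p : ℤ) - 1) * s) = ((p : ℤ) - 1) * d - (p * a - b) := by
          rw [hs, hab]
          have : z = d + p * c := by linarith
          rw [this]
          ring
        rw [this]
        nlinarith
      exact le_of_mul_le_mul_left h3 hp0
    have : (((p - 1) * s : ℕ) : ℤ) ≤ d := by
      push_cast
      rw [h1]
      exact h2
    exact_mod_cast this
  · rw [hz]
    have : z = d - p * s := by rw [hs]; linarith
    rw [this]
    push_cast
    ring

theorem isCharacter_pow {H : Type*} [Group H] {ψ : H → ℂ} (hψ : IsCharacter H ψ) (k : ℕ) :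
    IsCharacter H (ψ ^ k) := by
  induction k with
  | zero =>
    rw [pow_zero]
    exact IsIrrCharacter.isCharacter isIrrCharacter_one
  | succ k ih =>
    rw [pow_succ]
    exact IsCharacter.mul ih hψ

theorem sum_aeval {H : Type*} [Group H] [Fintype H] {ψ : H → ℂ} (hψ : IsCharacter H ψ)
    (f : Polynomial ℤ) :
    ∃ z : ℤ, ∑ h : H, Polynomial.aeval (ψ h) f = (Nat.card H : ℂ) * z := by
  induction f using Polynomial.induction_on' with
  | add f g hf hg =>
    obtain ⟨a, ha⟩ := hf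
    obtain ⟨b, hb⟩ := hg
    refine ⟨a + b, ?_⟩
    simp only [map_add, Finset.sum_add_distrib, ha, hb]
    push_cast
    ring
  | monomial k c =>
    obtain ⟨m, hm⟩ := IsCharacter.classInner_nat (isCharacter_pow hψ k)
      (IsIrrCharacter.isCharacter (isIrrCharacter_one (G := H)))
    refine ⟨c * m, ?_⟩
    have hH : (Nat.card H : ℂ) ≠ 0 := by
      have : Nat.card H ≠ 0 := Nat.card_pos.ne'
      exact_mod_cast this
    unfold classInner at hm
    simp only [map_one, mul_one, Pi.pow_apply] at hm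
    have h2 : ∑ h : H, ψ h ^ k = (Nat.card H : ℂ) * m := by
      rw [← hm, mul_inv_cancel_left₀ hH]
    simp only [Polynomial.aeval_monomial]
    rw [← Finset.mul_sum, h2]
    push_cast
    simp only [eq_intCast]
    ring

/-- Let the finite group G have a faithful p-rational character χ of degree n (all values of χ lie in the field generated over ℚ by a root of unity of order prime to p), and let p^a be the order of a Sylow p-subgroup of G. Then a ≤ Σ_{i ≥ 0} ⌊n / ((p − 1)·p^i)⌋ (a finite sum; the terms vanish once (p − 1)p^i > n). -/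
theorem result {G : Type*} [Group G] [Finite G] (p : ℕ) (hp : p.Prime) (χ : G → ℂ) (hχ : Cfsg.IsCharacter G χ) (hfaith : ∀ g : G, χ g = χ 1 → g = 1) (hrat : (∃ r : ℕ, 0 < r ∧ ¬ p ∣ r ∧ ∀ g : G, χ g ∈ IntermediateField.adjoin ℚ ({Complex.exp (2 * Real.pi * Complex.I / r)} : Set ℂ))) (n : ℕ) (hn : Cfsg.charDegree χ = n) : (Nat.card G).factorization p ≤ ∑ i ∈ Finset.range (n + 1), n / ((p - 1) * p ^ i) := by
  classical
  have hfp : Fact p.Prime := ⟨hp⟩
  obtain ⟨r, hr, hpr, hmem⟩ := hrat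
  obtain ⟨P⟩ : Nonempty (Sylow p G) := inferInstance
  cases nonempty_fintype G
  have hcard : Nat.card P = p ^ (Nat.card G).factorization p := Sylow.card_eq_multiplicity P
  have hdeg : χ 1 = n := by rw [← hn]; exact (charDegree_cast hχ).symm
  have hp1 : 0 < p - 1 := Nat.sub_pos_of_lt hp.one_lt
  have hval : ∀ x : G, x ∈ (P : Subgroup G) → x ≠ 1 →
      ∃ s : ℕ, 1 ≤ s ∧ s ≤ n / (p - 1) ∧ χ x = (n : ℂ) - p * s := by
    intro x hx hx1
    obtain ⟨d, ρ, hρ⟩ := hχ
    obtain ⟨ζ, hζ, h⟩ := char_zpow_eq_sum ρ x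
    obtain ⟨j, hj⟩ := P.2 ⟨x, hx⟩
    have hxj : x ^ (p ^ j) = 1 := by
      have := congrArg Subtype.val hj
      simpa using this
    have hζ' : ∀ i, ζ i ^ (p ^ j) = 1 := by
      intro i
      obtain ⟨c, hc⟩ := orderOf_dvd_of_pow_eq_one hxj
      rw [hc, pow_mul, hζ, one_pow]
    have h1 : χ x = ∑ i, ζ i := by
      have := h 1
      simpa [hρ] using this
    have h0 : (n : ℂ) = (Module.finrank ℂ (Fin d → ℂ) : ℕ) := by
      have := h 0
      rw [zpow_zero, hρ, hdeg] at this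
      simpa using this
    have h0' : n = Module.finrank ℂ (Fin d → ℂ) := by exact_mod_cast h0
    have hinv : ∀ k : ℕ, ¬ p ∣ k → ∑ i, ζ i ^ k = ∑ i, ζ i := by
      intro k hk
      exact sum_pow_eq p hp r hr hpr j ζ hζ' (by rw [← h1]; exact hmem x) k hk
    obtain ⟨s, hs1, hs2, hs3⟩ := value_form p hp j ζ hζ' hinv (by
      rw [← h1, ← h0, ← hdeg]
      exact fun hh => hx1 (hfaith x hh))
    refine ⟨s, hs1, ?_, ?_⟩
    · rw [Nat.le_div_iff_mul_le hp1, mul_comm, h0']
      exact hs2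
    · rw [h1, hs3, h0]
  set m := n / (p - 1) with hm
  let f : Polynomial ℤ := ∏ s ∈ Finset.Icc 1 m, (Polynomial.X - Polynomial.C ((n : ℤ) - p * s))
  have hf : ∀ w : ℂ, Polynomial.aeval w f = ∏ s ∈ Finset.Icc 1 m, (w - ((n : ℂ) - p * s)) := by
    intro w
    simp only [f, map_prod, map_sub, Polynomial.aeval_X, Polynomial.aeval_C]
    refine Finset.prod_congr rfl fun s _ => ?_
    simp
  obtain ⟨z, hz⟩ := sum_aeval (IsCharacter.restrict (P : Subgroup G) hχ) f
  have hsum : ∑ h : (P : Subgroup G), Polynomial.aeval (χ h) f = ((p ^ m * m.factorial : ℕ) : ℂ) := by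
    rw [Finset.sum_eq_single (1 : (P : Subgroup G))]
    · rw [hf, Subgroup.coe_one, hdeg]
      have : ∀ s ∈ Finset.Icc 1 m, ((n : ℂ) - ((n : ℂ) - p * s)) = (p : ℂ) * ((s : ℕ) : ℂ) := by
        intro s _
        ring
      rw [Finset.prod_congr rfl this, Finset.prod_mul_distrib, Finset.prod_const, Nat.card_Icc,
        ← Nat.cast_prod, ← Finset.Ico_add_one_right_eq_Icc, Finset.prod_Ico_id_eq_factorial]
      push_cast
      simp
    · intro x _ hx1
      obtain ⟨s, hs1, hs2, hs3⟩ := hval x x.2 (fun h => hx1 (Subtype.ext h))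
      rw [hf]
      exact Finset.prod_eq_zero (Finset.mem_Icc.mpr ⟨hs1, hs2⟩) (by rw [hs3, sub_self])
    · intro h
      exact absurd (Finset.mem_univ _) h
  rw [hsum, hcard] at hz
  have hdvd : p ^ (Nat.card G).factorization p ∣ p ^ m * m.factorial := by
    have h1 : ((p ^ m * m.factorial : ℕ) : ℤ) = ((p ^ (Nat.card G).factorization p : ℕ) : ℤ) * z := by
      exact_mod_cast hz
    exact Int.natCast_dvd_natCast.mp ⟨z, h1⟩
  have hne0 : p ^ m * m.factorial ≠ 0 :=
    Nat.mul_ne_zero (pow_pos hp.pos _).ne' (Nat.factorial_ne_zero _)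
  have hle := (Nat.Prime.pow_dvd_iff_le_factorization hp hne0).mp hdvd
  rw [Nat.factorization_mul (pow_pos hp.pos _).ne' (Nat.factorial_ne_zero _), Finsupp.add_apply,
    Nat.Prime.factorization_pow hp, Finsupp.single_eq_same,
    Nat.factorization_factorial hp (b := n + 1) (by
      have h1 : Nat.log p m ≤ m := Nat.log_le_self _ _
      have h2 : m ≤ n := Nat.div_le_self _ _
      omega)] at hle
  refine hle.trans (le_of_eq ?_)
  rw [Finset.range_eq_Ico, Finset.sum_eq_sum_Ico_succ_bot (Nat.succ_pos n)]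
  congr 1
  · simp [hm]
  · refine Finset.sum_congr rfl fun i _ => ?_
    rw [hm, Nat.div_div_eq_div_mul]

end Cfsg.Agent.S4488
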