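import Cfsg.Statements.S4490
import Mathlib
import Cfsg.Agent.Lib.Helper23.RealBlock

set_option autoImplicit false
open Cfsg

namespace Cfsg.Agent.S4490

open Cfsg.Agent.Lib.Helper2 Cfsg.Agent.Lib.Helper6 Cfsg.Agent.Lib.Helper23.RealBlock

/-- Let G be a finite group and M a maximal ideal of the algebraic integers containing 2. Every 2-block B of G whose defect groups are the Sylow 2-subgroups of G (a block of full defect) and which is not the principal block is different from its complex-conjugate block, the block formed by the complex conjugates of the members of B. -/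
theorem result {G : Type*} [Group G] [Finite G] (M : Ideal Cfsg.AlgInt) (hM : Cfsg.IsPModular 2 M) (B : Set (Cfsg.IrrCharacter G)) (hB : Cfsg.IsPBlock M B) (P : Sylow 2 G) (hfull : Cfsg.IsDefectGroup 2 M B (P : Subgroup G)) (hnp : B ≠ Cfsg.principalBlock M G) : {ψ : Cfsg.IrrCharacter G | ∃ χ ∈ B, (ψ : G → ℂ) = fun g => (starRingEnd ℂ) ((χ : G → ℂ) g)} ≠ B := by
  cases nonempty_fintype G
  haveI : Fact (Nat.Prime 2) := ⟨Nat.prime_two⟩
  haveI := IsPModular.isPrime hM
  intro hEq
  apply hnp
  apply eq_principalBlock_of_conj_stable hM hB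
  · intro χ hχ
    rw [← hEq]
    exact ⟨χ, hχ, rfl⟩
  · apply exists_odd_of_full_defect (IsPBlock.nonempty hB)
    have h1 := IsDefectGroup.card_eq hM hB hfull
    have h2 := P.card_eq_multiplicity
    rw [h2] at h1
    exact (Nat.pow_right_injective (le_refl 2) h1).symm

end Cfsg.Agent.S4490
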