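import Mathlib
import Cfsg.Statements.S4491
import Cfsg.Agent.Lib.Helper6.DimBlock

set_option autoImplicit false
open Cfsg
open Cfsg.Agent.Lib.Helper6 Cfsg.Agent.Lib.Helper2
open scoped ComplexConjugate Classical

attribute [local instance] irrFintype

namespace Cfsg.Agent.S4491

/-- Let B be a p-block of defect d of the finite group G (relative to a maximal ideal M of the algebraic integers containing p), and let p^a be the p-part of the order of G. Then the exact power of p dividing the sum of the squares of the degrees of the irreducible characters in B is p^(2a − d). -/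
theorem result {G : Type*} [Group G] [Finite G] (p : ℕ) [Fact p.Prime] (M : Ideal Cfsg.AlgInt) (hM : Cfsg.IsPModular p M) (B : Set (Cfsg.IrrCharacter G)) (hB : Cfsg.IsPBlock M B) : (∑ᶠ χ ∈ B, Cfsg.charDegree (χ : G → ℂ) ^ 2).factorization p = 2 * (Nat.card G).factorization p - Cfsg.blockDefect p B := by
  let _ := Fintype.ofFinite G
  have hp : p.Prime := hM.1
  have := IsPModular.isPrime hM
  obtain ⟨χ, hχ, h0⟩ := exists_height_zero (p := p) (IsPBlock.nonempty hB)
  have h1 : ∑ᶠ χ ∈ B, Cfsg.charDegree (χ : G → ℂ) ^ 2 =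
      ∑ χ ∈ Finset.univ.filter (· ∈ B), charDegree (χ : G → ℂ) ^ 2 := by
    rw [finsum_mem_def, finsum_eq_sum_of_fintype, Finset.sum_filter]
    refine Finset.sum_congr rfl fun ψ _ => ?_
    by_cases h : ψ ∈ B
    · rw [Set.indicator_of_mem h, if_pos h]
    · rw [Set.indicator_of_notMem h, if_neg h]
  rw [h1, factorization_sum_degree_sq hM hB hχ h0]
  unfold blockDefect
  rw [← factorization_eq_sInf_of_height_zero hχ h0]
  have h2 : (charDegree (χ : G → ℂ)).factorization p ≤ (Nat.card G).factorization p :=
    (Nat.factorization_le_iff_dvd (Cfsg.Agent.Lib.Helper24.charDegree_pos χ.2).ne'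
      (Nat.card_pos (α := G)).ne').mpr (Cfsg.Agent.Lib.Helper24.degree_dvd_card χ.2) p
  omega

end Cfsg.Agent.S4491
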