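import Cfsg.Statements.S4492
import Cfsg.Agent.Lib.Helper24.FongPSol
-- import your own Cfsg.Agent.* helpers here

set_option autoImplicit false
open Cfsg

namespace Cfsg.Agent.S4492

open Cfsg.Agent.Lib.Helper24 Cfsg.Agent.Lib.Helper6

/-- Let G be a finite p-solvable group, N = O_{p'}(G) its largest normal subgroup of order prime to p, and θ an irreducible character of N invariant under conjugation by G; fix a maximal ideal M of the algebraic integers containing p. Then the irreducible characters of G lying over θ (those whose restriction to N contains θ) form a single p-block of G, and the defect groups of that block are exactly the Sylow p-subgroups of G. -/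
theorem result {G : Type*} [Group G] [Fintype G] (p : ℕ) [Fact p.Prime] (M : Ideal Cfsg.AlgInt) (hM : Cfsg.IsPModular p M) (hsolv : Cfsg.IsPSolvable p G) (N : Subgroup G) [hN : N.Normal] [Fintype N] (hNdef : N = Cfsg.pPrimeCore p G) (θ : Cfsg.IrrCharacter N) (hinv : ∀ (g : G) (n : N), (θ : N → ℂ) ⟨g * n * g⁻¹, hN.conj_mem n n.2 g⟩ = (θ : N → ℂ) n) : ∃ B : Set (Cfsg.IrrCharacter G), Cfsg.IsPBlock M B ∧ (∀ χ : Cfsg.IrrCharacter G, χ ∈ B ↔ Cfsg.classInner (fun n : N => (χ : G → ℂ) n) (θ : N → ℂ) ≠ 0) ∧ (∀ P : Sylow p G, Cfsg.IsDefectGroup p M B (P : Subgroup G)) ∧ ∀ D : Subgroup G, Cfsg.IsDefectGroup p M B D → ∃ P : Sylow p G, D = (P : Subgroup G) := by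
  classical
  have hst : ∀ x : G, StabilizesBlock N {θ} x := by
    intro x
    have hx : x ∈ Subgroup.normalizer (N : Set G) := by
      rw [Subgroup.mem_normalizer_iff]
      intro h
      refine ⟨fun hh => hN.conj_mem _ hh _, fun hh => ?_⟩
      have h1 := hN.conj_mem _ hh x⁻¹
      have h2 : x⁻¹ * (x * h * x⁻¹) * x⁻¹⁻¹ = h := by group
      rwa [h2] at h1
    have hc := isConjSub_of_mem_normalizer hx
    refine ⟨hx, fun χ hχ => ⟨irrMap (conjIso hc) χ, ?_, (isConjCharOf_iff hc _ _).mpr rfl⟩⟩
    rw [Set.mem_singleton_iff.mp hχ, Set.mem_singleton_iff]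
    apply Subtype.ext
    ext n
    rw [irrMap_apply, ← hinv x⁻¹ n]
    apply congrArg
    apply Subtype.ext
    rw [conjIso_coe]
    simp
  obtain ⟨B, hB, hiff, h1, h2⟩ := fong_pSolvable hM hsolv hNdef θ hst
  refine ⟨B, hB, fun χ => ?_, h1, h2⟩
  have h3 := hiff χ
  convert h3
  rfl

end Cfsg.Agent.S4492
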