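import Cfsg.Statements.S4493
import Cfsg.Agent.Lib.Helper13.Ito2
import Cfsg.Agent.Lib.Helper1.Hall

set_option autoImplicit false
open Cfsg

namespace Cfsg.Agent.S4493

open Cfsg.Agent.Lib.Helper13 in
/-- Let G be a finite solvable group and p a prime. Then G has a normal abelian Sylow p-subgroup if and only if no irreducible character degree of G is divisible by p. -/
theorem result {G : Type*} [Group G] [Finite G] (hsolv : Group.IsSolvable G) (p : ℕ) (hp : p.Prime) : (∃ P : Subgroup G, P.Normal ∧ (∀ x ∈ P, ∀ y ∈ P, x * y = y * x) ∧ IsPGroup p P ∧ ¬ p ∣ P.index) ↔ ∀ χ : Cfsg.IrrCharacter G, ¬ p ∣ Cfsg.charDegree (χ : G → ℂ) := by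
  have := Fact.mk hp
  constructor
  · rintro ⟨P, hn, hc, hPp, hPi⟩ χ hd
    exact hPi (hd.trans (ito_degree_dvd P hc χ))
  · intro hdeg
    refine ito_michler_aux p (fun G _ => Group.IsSolvable G)
      (fun G _ H h => inferInstance)
      (fun G _ N _ h => inferInstance)
      (fun G _ _ _ h => ?_) _ G rfl hsolv hdeg
    obtain ⟨q, M, hq, hMn, hMbot, -, hMq⟩ := Cfsg.Agent.Lib.Helper1.exists_normal_elementary_abelian (G := G)
    refine ⟨M, hMn, hMbot, ?_⟩
    have := Fact.mk hq
    have hMp : IsPGroup q M := by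
      intro x
      refine ⟨1, ?_⟩
      apply Subtype.ext
      simpa using hMq x x.2
    obtain ⟨k, hk⟩ := IsPGroup.iff_card.mp hMp
    by_cases hqp : q = p
    · left
      exact ⟨k, by rw [hk, hqp]⟩
    · right
      rw [hk]
      exact Nat.Coprime.pow_left k ((Nat.coprime_primes hq hp).mpr hqp)


end Cfsg.Agent.S4493
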