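import Cfsg.Statements.S4494
import Mathlib
import Cfsg.Agent.Lib.Helper23.RegInner

set_option autoImplicit false
open Cfsg

namespace Cfsg.Agent.S4494

open Cfsg.Agent.Lib.Helper2 Cfsg.Agent.Lib.Helper6 Cfsg.Agent.Lib.Helper23.RegInner
open scoped ComplexConjugate
attribute [local instance] irrFintype

/-- The Brauer–Feit bound. Let B be a p-block of the finite group G (relative to a maximal ideal M of the algebraic integers containing p) and let d be its defect. Then the number k(B) of irreducible characters in B satisfies k(B) ≤ p^(2d)/4 + 1, stated here as 4·k(B) ≤ p^(2d) + 4. -/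
theorem result {G : Type*} [Group G] [Finite G] (p : ℕ) [Fact p.Prime] (M : Ideal Cfsg.AlgInt) (hM : Cfsg.IsPModular p M) (B : Set (Cfsg.IrrCharacter G)) (hB : Cfsg.IsPBlock M B) : 4 * Nat.card B ≤ p ^ (2 * Cfsg.blockDefect p B) + 4 := by
  classical
  cases nonempty_fintype G
  haveI := IsPModular.isPrime hM
  have hpr : p.Prime := Fact.out
  obtain ⟨ξ₀, hξ₀⟩ := IsPBlock.nonempty hB
  have hne : ((fun ψ : Cfsg.IrrCharacter G =>
      (Cfsg.charDegree (ψ : G → ℂ)).factorization p) '' B).Nonempty := ⟨_, ξ₀, hξ₀, rfl⟩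
  obtain ⟨χ, hχ, he⟩ := Nat.sInf_mem hne
  simp only at he
  set a := (Nat.card G).factorization p with ha
  set s := (Cfsg.charDegree (χ : G → ℂ)).factorization p with hs
  have h0 : Cfsg.blockHeight p B (χ : G → ℂ) = 0 := by
    unfold Cfsg.blockHeight
    rw [← he]
    exact Nat.sub_self _
  have hd : Cfsg.blockDefect p B = a - s := by
    unfold Cfsg.blockDefect
    rw [← he]
  have hsa : s ≤ a :=
    (Nat.factorization_le_iff_dvd (Cfsg.Agent.Lib.Helper24.charDegree_pos χ.2).ne'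
      Nat.card_pos.ne').2 (Cfsg.Agent.Lib.Helper24.degree_dvd_card χ.2) p
  choose k hk using fun ψ => pow_dvd_nn p χ ψ
  rw [← hs] at hk
  have hk0 : ∀ ξ ∈ B, k ξ ≠ 0 := by
    intro ξ hξ h
    have h1 := ((not_dvd_al_iff p χ ξ).1 (not_dvd_al_of_height_zero p hM hB hχ h0 hξ)).1
    apply h1
    rw [hk ξ, h, mul_zero]
  -- the norm
  have hnorm : Cfsg.classInner (tilde p (χ : G → ℂ)) (tilde p (χ : G → ℂ))
      = ((∑ ψ : Cfsg.IrrCharacter G, (nn p χ ψ) ^ 2 : ℤ) : ℂ) := by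
    conv_lhs => rw [tilde_eq_sum]
    rw [classInner_sum_irr]
    push_cast
    apply Finset.sum_congr rfl
    intro ψ _
    rw [map_intCast, pow_two]
  have hnorm2 : Cfsg.classInner (tilde p (χ : G → ℂ)) (tilde p (χ : G → ℂ))
      = ((p ^ a : ℕ) : ℂ) * nn p χ χ := by
    rw [← nn_spec]
    unfold Cfsg.classInner
    rw [mul_left_comm]
    congr 1
    rw [Finset.mul_sum]
    apply Finset.sum_congr rfl
    intro x _
    unfold tilde
    split_ifs
    · simp
    · rw [map_mul, map_natCast]; ring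
  have h1 : (∑ ψ : Cfsg.IrrCharacter G, (nn p χ ψ) ^ 2 : ℤ) = ((p ^ a : ℕ) : ℤ) * nn p χ χ := by
    have := hnorm.symm.trans hnorm2
    exact_mod_cast this
  have h2 : (∑ ψ : Cfsg.IrrCharacter G, (k ψ) ^ 2 : ℤ) = ((p ^ (a - s) : ℕ) : ℤ) * k χ := by
    have hps : (((p ^ s : ℕ) : ℤ)) ^ 2 ≠ 0 := by
      have : 0 < p ^ s := pow_pos hpr.pos s
      positivity
    apply mul_left_cancel₀ hps
    rw [Finset.mul_sum]
    have h3 : ∀ ψ : Cfsg.IrrCharacter G, (((p ^ s : ℕ) : ℤ)) ^ 2 * (k ψ) ^ 2 = (nn p χ ψ) ^ 2 := by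
      intro ψ; rw [hk ψ]; ring
    simp only [h3]
    rw [h1, hk χ]
    have h4 : ((p ^ a : ℕ) : ℤ) = ((p ^ s : ℕ) : ℤ) * ((p ^ (a - s) : ℕ) : ℤ) := by
      rw [← Nat.cast_mul, ← pow_add, Nat.add_sub_cancel' hsa]
    rw [h4]; ring
  have hN : Nat.card B = (Finset.univ.filter (· ∈ B)).card := by
    rw [Nat.card_eq_fintype_card, Fintype.card_subtype]
  have h5 : (k χ) ^ 2 - 1 ≤ (∑ ψ : Cfsg.IrrCharacter G, (k ψ) ^ 2 : ℤ) - Nat.card B := by
    have h6 : ((Nat.card B : ℕ) : ℤ) = ∑ ψ : Cfsg.IrrCharacter G, (if ψ ∈ B then (1 : ℤ) else 0) := by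
      rw [hN, Finset.card_eq_sum_ones, Finset.sum_filter]
      push_cast
      rfl
    rw [h6, ← Finset.sum_sub_distrib]
    have h7 : ∀ ψ ∈ (Finset.univ : Finset (Cfsg.IrrCharacter G)),
        0 ≤ (k ψ) ^ 2 - (if ψ ∈ B then (1 : ℤ) else 0) := by
      intro ψ _
      split_ifs with h
      · have := hk0 ψ h
        have h8 : 0 < (k ψ) ^ 2 := by positivity
        omega
      · have h8 : 0 ≤ (k ψ) ^ 2 := by positivity
        omega
    have h9 := Finset.single_le_sum h7 (Finset.mem_univ χ)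
    rw [if_pos hχ] at h9
    exact h9
  rw [h2] at h5
  rw [hd]
  have h10 : (4 * (Nat.card B : ℤ)) ≤ ((p ^ (a - s) : ℕ) : ℤ) ^ 2 + 4 := by
    nlinarith [sq_nonneg (((p ^ (a - s) : ℕ) : ℤ) - 2 * k χ)]
  have h11 : p ^ (2 * (a - s)) = (p ^ (a - s)) ^ 2 := by
    rw [← pow_mul, mul_comm]
  rw [h11]
  exact_mod_cast h10

end Cfsg.Agent.S4494
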