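import Cfsg.Statements.S4495
import Mathlib
import Cfsg.Agent.Lib.Helper23.SelfCentCount

set_option autoImplicit false
open Cfsg

namespace Cfsg.Agent.S4495

open Cfsg.Agent.Lib.Helper23

/-- Let the finite group G contain an element x of prime order p with C_G(x) = ⟨x⟩, and let t be the number of conjugacy classes of elements of order p. If t ≠ p − 1 then the commutator subgroup has index at most (p − 1)/t; if t = p − 1 it has index exactly p. -/
theorem result {G : Type*} [Group G] [Finite G] (p : ℕ) (hp : p.Prime) (x : G) (hx : orderOf x = p) (hC : Subgroup.centralizer ({x} : Set G) = Subgroup.zpowers x) (t : ℕ) (ht : Nat.card {C : ConjClasses G // ∃ g ∈ C.carrier, orderOf g = p} = t) : (t ≠ p - 1 → (commutator G).index * t ≤ p - 1) ∧ (t = p - 1 → (commutator G).index = p) := by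
  haveI : Fact p.Prime := ⟨hp⟩
  have hmul := sc_classes_mul hx hC
  have hiff := sc_classes_eq_iff hx hC
  rw [ht] at hmul hiff
  constructor
  · intro hne
    have hN := fun h => hne (hiff.2 h)
    have hxG := sc_mem_commutator hp hx hC hN
    have hdvd := sc_index_dvd hx hC (commutator G) hxG
    have hp1 : 0 < p - 1 := by have := hp.one_lt; omega
    have hepos : 0 < (Subgroup.zpowers x).relIndex (Subgroup.normalizer (Subgroup.zpowers x : Set G)) := by
      rcases Nat.eq_zero_or_pos ((Subgroup.zpowers x).relIndex (Subgroup.normalizer (Subgroup.zpowers x : Set G))) with h | h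
      · rw [h, mul_zero] at hmul; omega
      · exact h
    have hle := Nat.le_of_dvd hepos hdvd
    calc (commutator G).index * t ≤ (Subgroup.zpowers x).relIndex (Subgroup.normalizer (Subgroup.zpowers x : Set G)) * t :=
          Nat.mul_le_mul_right t hle
      _ = p - 1 := by rw [mul_comm, hmul]
  · intro h
    obtain ⟨K, _, hK, _, hle⟩ := sc_exists_complement hx hC (hiff.1 h)
    apply sc_index_of_not_dvd hx hC
    intro hd
    exact hK (hd.trans (Subgroup.card_dvd_of_le hle))

end Cfsg.Agent.S4495
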