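import Cfsg.Statements.S4498
import Mathlib
import Cfsg.Agent.S0907
import Cfsg.Agent.S0925
import Cfsg.Agent.Lib.Helper6.BlockOrth

set_option autoImplicit false
open Cfsg

namespace Cfsg.Agent.S4498

open Cfsg.Agent.Lib.Helper2 Cfsg.Agent.Lib.Helper6
open scoped ComplexConjugate

attribute [local instance] irrFintype

/-- Let p and q be distinct primes dividing the order of the finite group G, and suppose G has no element of order p·q. Fix maximal ideals M_p over p and M_q over q of the algebraic integers. Then the principal p-block and the principal q-block of G have a non-principal irreducible character in common. -/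
theorem result {G : Type*} [Group G] [Finite G] (p q : ℕ) [Fact p.Prime] [Fact q.Prime] (hpq : p ≠ q) (hp : p ∣ Nat.card G) (hq : q ∣ Nat.card G) (hno : ∀ g : G, orderOf g ≠ p * q) (Mp Mq : Ideal Cfsg.AlgInt) (hMp : Cfsg.IsPModular p Mp) (hMq : Cfsg.IsPModular q Mq) : ∃ χ : Cfsg.IrrCharacter G, (χ : G → ℂ) ≠ (fun _ => 1) ∧ χ ∈ Cfsg.principalBlock Mp G ∧ χ ∈ Cfsg.principalBlock Mq G := by
  classical
  letI := Fintype.ofFinite G
  by_contra hcon
  push Not at hcon
  obtain ⟨y, hy⟩ := exists_prime_orderOf_dvd_card' (G := G) p hp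
  obtain ⟨x, hx⟩ := exists_prime_orderOf_dvd_card' (G := G) q hq
  set Bp := principalBlock Mp G with hBpdef
  set Bq := principalBlock Mq G with hBqdef
  have hBp : IsPBlock Mp Bp := ⟨⟨fun _ => 1, isIrrCharacter_one⟩, rfl⟩
  have hBq : IsPBlock Mq Bq := ⟨⟨fun _ => 1, isIrrCharacter_one⟩, rfl⟩
  let a : IrrCharacter G → ℂ := fun χ => Bp.indicator 1 χ * conj ((χ : G → ℂ) y)
  let θ : G → ℂ := ∑ χ : IrrCharacter G, a χ • (χ : G → ℂ)
  have hθapp : ∀ g, θ g = ∑ χ : IrrCharacter G, Bp.indicator 1 χ *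
      ((χ : G → ℂ) g * conj ((χ : G → ℂ) y)) := by
    intro g
    simp only [θ, a, Finset.sum_apply, Pi.smul_apply, smul_eq_mul]
    refine Finset.sum_congr rfl fun χ _ => by ring
  have hθ0 : ∀ g, ¬ p ∣ orderOf g → θ g = 0 := by
    intro g hg
    have := Cfsg.Agent.S0907.result p Mp hMp Bp hBp g y hg (by rw [hy])
    rw [finsum_mem_eq_sum_indicator] at this
    rw [hθapp]
    exact this
  have hθcl : IsClassFunction G θ :=
    isClassFunction_sum _ fun χ _ => isClassFunction_smul _
      (IsCharacter.isClassFunction (IsIrrCharacter.isCharacter χ.2))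
  have hinner : ∀ ψ : IrrCharacter G, classInner θ (ψ : G → ℂ) = a ψ :=
    fun ψ => classInner_sum_irr_left a ψ
  have hvan := (Cfsg.Agent.S0925.result (G := G) q Mq hMq).1 θ hθcl x ⟨1, by rw [hx, pow_one]⟩ (by
    intro u z hu hz
    apply hθ0
    intro hpu
    obtain ⟨w, hzw, hcomm, _, _⟩ := hu
    have hzq : orderOf z = q := by
      obtain ⟨c, hc⟩ := isConj_iff.mp hz
      rw [← hc, ← hx]
      exact (MulAut.conj c).orderOf_eq x
    obtain ⟨e, he⟩ := hpu
    have hpos : 0 < orderOf u := orderOf_pos u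
    have he0 : e ≠ 0 := by
      rintro rfl
      rw [mul_zero] at he
      omega
    have ho : orderOf (u ^ e) = p := by
      rw [orderOf_pow_of_dvd he0 ⟨p, by rw [he]; ring⟩, he]
      exact Nat.mul_div_cancel _ (Nat.pos_of_ne_zero he0)
    have hzu : Commute z u := by
      rw [← hzw]
      exact (Commute.refl z).mul_right hcomm
    apply hno (u ^ e * z)
    rw [((hzu.pow_right e).symm).orderOf_mul_eq_mul_orderOf_of_coprime (by
      rw [ho, hzq]
      exact (Nat.coprime_primes (Fact.out) (Fact.out)).mpr hpq), ho, hzq])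
    Bq hBq x x ⟨1, mul_one x, Commute.one_right x, ⟨1, by rw [hx, pow_one]⟩, by
      rw [orderOf_one]
      exact (Fact.out : q.Prime).one_lt.ne' ∘ Nat.dvd_one.mp⟩ (IsConj.refl x)
  rw [blockPart, finsum_mem_eq_sum_indicator] at hvan
  simp only [hinner] at hvan
  rw [Finset.sum_eq_single (⟨fun _ => 1, isIrrCharacter_one⟩ : IrrCharacter G)] at hvan
  · have hpp := IsPModular.isPrime hMp
    have hqp := IsPModular.isPrime hMq
    have h1 : (⟨fun _ => 1, isIrrCharacter_one⟩ : IrrCharacter G) ∈ Bp :=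
      SameBlock.refl (M := Mp) (fun _ : G => (1 : ℂ))
    have h2 : (⟨fun _ => 1, isIrrCharacter_one⟩ : IrrCharacter G) ∈ Bq :=
      SameBlock.refl (M := Mq) (fun _ : G => (1 : ℂ))
    simp only [a] at hvan
    rw [Set.indicator_of_mem h1, Set.indicator_of_mem h2] at hvan
    simp at hvan
  · intro ψ _ hψ
    have hne : (ψ : G → ℂ) ≠ fun _ => 1 := fun h => hψ (Subtype.ext h)
    by_cases hp' : ψ ∈ Bp
    · rw [Set.indicator_of_notMem (hcon ψ hne hp'), zero_mul]
    · simp only [a]
      rw [Set.indicator_of_notMem hp']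
      ring
  · intro h; exact absurd (Finset.mem_univ _) h

end Cfsg.Agent.S4498
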