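import Cfsg.Statements.S4499
import Mathlib
import Cfsg.Agent.Lib.Helper23.RegInner

set_option autoImplicit false
open Cfsg

namespace Cfsg.Agent.S4499

open Cfsg.Agent.Lib.Helper2 Cfsg.Agent.Lib.Helper6 Cfsg.Agent.Lib.Helper23.RegInner

/-- Let G be a finite group whose order has p-part p^a (a ≥ 1), and fix a maximal ideal M of the algebraic integers containing p. If the degree of one irreducible character of a p-block B is divisible by p^(a−1), then the degree of every irreducible character in B is divisible by p^(a−1) (so B has defect at most 1). -/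
theorem result {G : Type*} [Group G] [Finite G] (p : ℕ) [Fact p.Prime] (M : Ideal Cfsg.AlgInt) (hM : Cfsg.IsPModular p M) (hpa : p ∣ Nat.card G) (B : Set (Cfsg.IrrCharacter G)) (hB : Cfsg.IsPBlock M B) (χ : Cfsg.IrrCharacter G) (hχ : χ ∈ B) (hdiv : p ^ ((Nat.card G).factorization p - 1) ∣ Cfsg.charDegree (χ : G → ℂ)) (ψ : Cfsg.IrrCharacter G) (hψ : ψ ∈ B) : p ^ ((Nat.card G).factorization p - 1) ∣ Cfsg.charDegree (ψ : G → ℂ) := by
  classical
  cases nonempty_fintype G
  have hpr : p.Prime := Fact.out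
  set a := (Nat.card G).factorization p with ha
  set ν := (Cfsg.charDegree (χ : G → ℂ)).factorization p with hν
  have hposχ := Cfsg.Agent.Lib.Helper24.charDegree_pos χ.2
  have hposψ := Cfsg.Agent.Lib.Helper24.charDegree_pos ψ.2
  by_contra hnd
  have hb : a - 1 ≤ ν := (Nat.Prime.pow_dvd_iff_le_factorization hpr hposχ.ne').1 hdiv
  have h1 : (p : ℤ) ∣ al p χ ψ := by
    by_contra hc
    obtain ⟨hn0, hv⟩ := (not_dvd_al_iff p χ ψ).1 hc
    have h2 := pow_dvd_nn p χ ψ
    push_cast at h2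
    rcases (padicValInt_dvd_iff _ _).1 h2 with h3 | h3
    · exact hn0 h3
    · apply hnd
      rw [Nat.Prime.pow_dvd_iff_le_factorization hpr hposψ.ne']
      omega
  have h2 : (p : ℤ) ∣ al p χ χ := by
    by_contra hc
    exact not_dvd_al_of_exists p hM hB χ hχ hc hψ h1
  have h3 : ((p ^ (ν + 1) : ℕ) : ℤ) ∣ nn p χ χ := by
    apply pow_dvd_of_dvd_compl_mul (G := G) p
    rw [← al_mul]
    have h4 : ((p ^ ν : ℕ) : ℤ) ∣ ((Cfsg.charDegree (χ : G → ℂ) : ℕ) : ℤ) := by
      exact_mod_cast Nat.ordProj_dvd _ _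
    have h5 := mul_dvd_mul h4 h2
    rw [pow_succ]
    push_cast at h5 ⊢
    exact h5
  have h4 : ((p ^ a : ℕ) : ℤ) ∣ nn p χ χ := by
    apply Dvd.dvd.trans _ h3
    have : p ^ a ∣ p ^ (ν + 1) := pow_dvd_pow p (by omega)
    exact_mod_cast this
  have h5 : nn p χ χ = ((p ^ a : ℕ) : ℤ) :=
    le_antisymm (nn_self_le p χ) (Int.le_of_dvd (nn_self_pos p χ) h4)
  have h6 := pow_dvd_degree_of_nn_self p χ h5
  have h7 : a ≤ ν := (Nat.Prime.pow_dvd_iff_le_factorization hpr hposχ.ne').1 h6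
  have h8 : ((p ^ (a + 1) : ℕ) : ℤ) ∣ ((p ^ a : ℕ) : ℤ) := by
    rw [← h5]
    apply Dvd.dvd.trans _ h3
    have : p ^ (a + 1) ∣ p ^ (ν + 1) := pow_dvd_pow p (by omega)
    exact_mod_cast this
  have h9 : p ^ (a + 1) ∣ p ^ a := by exact_mod_cast h8
  have h10 := (Nat.pow_dvd_pow_iff_le_right hpr.one_lt).1 h9
  omega

end Cfsg.Agent.S4499
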