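import Cfsg.Statements.S4500
import Mathlib
import Cfsg.Agent.S4499
import Cfsg.Agent.S0914
import Cfsg.Agent.Lib.Helper6.BlockOrth
import Cfsg.Agent.Lib.Helper24.CharInt
import Cfsg.Agent.Lib.Helper24.DefectZero

set_option autoImplicit false
open Cfsg

namespace Cfsg.Agent.S4500

open Cfsg.Agent.Lib.Helper2 Cfsg.Agent.Lib.Helper6 Cfsg.Agent.Lib.Helper24
open scoped ComplexConjugate

attribute [local instance] irrFintype

/-- The principal character as an element of `IrrCharacter G`. -/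
noncomputable def oneIrr (G : Type*) [Group G] : IrrCharacter G := ⟨fun _ => 1, isIrrCharacter_one⟩

theorem charDegree_oneIrr (G : Type*) [Group G] [Finite G] :
    charDegree ((oneIrr G : IrrCharacter G) : G → ℂ) = 1 := by
  have h1 := charDegree_cast (IsIrrCharacter.isCharacter (oneIrr G).2)
  have h2 : ((oneIrr G : IrrCharacter G) : G → ℂ) 1 = 1 := rfl
  rw [h2] at h1
  exact_mod_cast h1

/-- If a set of irreducible characters containing the principal one satisfies an orthogonality
relation with the identity column, it has a nonprincipal member of degree prime to `r`. -/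
theorem core {G : Type*} [Group G] [Fintype G] (X : Set (IrrCharacter G)) (h1 : oneIrr G ∈ X)
    (g : G) (hsum : ∑ χ : IrrCharacter G, X.indicator 1 χ *
      ((χ : G → ℂ) 1 * conj ((χ : G → ℂ) g)) = 0) {r : ℕ} (hr : r.Prime) :
    ∃ χ ∈ X, χ ≠ oneIrr G ∧ ¬ r ∣ charDegree (χ : G → ℂ) := by
  classical
  by_contra hcon
  push_neg at hcon
  have hr0 : (r : ℂ) ≠ 0 := by exact_mod_cast hr.ne_zero
  rw [← Finset.add_sum_erase _ _ (Finset.mem_univ (oneIrr G))] at hsum
  have hfirst : X.indicator (1 : IrrCharacter G → ℂ) (oneIrr G) *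
      (((oneIrr G : IrrCharacter G) : G → ℂ) 1 * conj (((oneIrr G : IrrCharacter G) : G → ℂ) g))
      = 1 := by
    rw [Set.indicator_of_mem h1]
    show (1 : ℂ) * ((1 : ℂ) * conj (1 : ℂ)) = 1
    simp
  rw [hfirst] at hsum
  have hint : IsIntegral ℤ (∑ χ ∈ Finset.univ.erase (oneIrr G), X.indicator 1 χ *
      ((χ : G → ℂ) 1 * conj ((χ : G → ℂ) g)) / (r : ℂ)) := by
    refine IsIntegral.sum _ fun χ hχ => ?_
    by_cases hX : χ ∈ X
    · obtain ⟨c, hc⟩ := hcon χ hX (Finset.ne_of_mem_erase hχ)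
      rw [Set.indicator_of_mem hX, ← charDegree_cast (IsIrrCharacter.isCharacter χ.2), hc]
      have : (1 : IrrCharacter G → ℂ) χ * (((r * c : ℕ) : ℂ) * conj ((χ : G → ℂ) g)) / (r : ℂ) =
          (c : ℂ) * conj ((χ : G → ℂ) g) := by
        rw [Pi.one_apply]
        push_cast
        field_simp
      rw [this]
      refine IsIntegral.mul (isIntegral_natCast c) ?_
      rw [← IsCharacter.apply_inv (IsIrrCharacter.isCharacter χ.2)]
      exact char_isIntegral (IsIrrCharacter.isCharacter χ.2) _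
    · rw [Set.indicator_of_notMem hX]
      simpa using isIntegral_zero
  rw [← Finset.sum_div, eq_neg_of_add_eq_zero_right hsum] at hint
  have hint2 : IsIntegral ℤ (((1 : ℕ) : ℂ) / (r : ℂ)) := by
    have := hint.neg
    rwa [neg_div, neg_neg, ← Nat.cast_one] at this
  have := nat_dvd_of_isIntegral_div hr.ne_zero hint2
  exact hr.one_lt.ne' (Nat.dvd_one.mp this)

theorem aux {G : Type*} [Group G] [Finite G] [Nontrivial G] (p q r a b c : ℕ) (hp : p.Prime)
    (hq : q.Prime) (hr : r.Prime) (hpq : p ≠ q) (hpr : p ≠ r) (hqr : q ≠ r) (ha : a ≤ 2)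
    (hG : Nat.card G = p ^ a * q ^ b * r ^ c) :
    ∃ χ : Cfsg.IrrCharacter G, (χ : G → ℂ) ≠ (fun _ => 1) ∧
      ∃ k : ℕ, Cfsg.charDegree (χ : G → ℂ) = q ^ k := by
  classical
  letI := Fintype.ofFinite G
  haveI : Fact p.Prime := ⟨hp⟩
  -- it suffices to find a nonprincipal character of degree prime to `p` and `r`
  suffices h : ∃ χ : IrrCharacter G, χ ≠ oneIrr G ∧ ¬ p ∣ charDegree (χ : G → ℂ) ∧
      ¬ r ∣ charDegree (χ : G → ℂ) by
    obtain ⟨χ, hne, hpχ, hrχ⟩ := h
    refine ⟨χ, fun h => hne (Subtype.ext h), ?_⟩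
    have hd := degree_dvd_card χ.2
    rw [hG] at hd
    have h1 : charDegree (χ : G → ℂ) ∣ p ^ a * q ^ b :=
      (Nat.Coprime.dvd_of_dvd_mul_right
        (Nat.Coprime.pow_right c ((Nat.Prime.coprime_iff_not_dvd hr).mpr hrχ).symm) hd)
    have h2 : charDegree (χ : G → ℂ) ∣ q ^ b :=
      (Nat.Coprime.dvd_of_dvd_mul_left
        (Nat.Coprime.pow_right a ((Nat.Prime.coprime_iff_not_dvd hp).mpr hpχ).symm) h1)
    obtain ⟨k, -, hk⟩ := (Nat.dvd_prime_pow hq).mp h2
    exact ⟨k, hk⟩
  rcases Nat.eq_zero_or_pos a with rfl | hapos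
  · -- `p` does not divide the order
    obtain ⟨g, hg⟩ := exists_ne (1 : G)
    have hcol := column_orthogonality (1 : G) g
    rw [if_neg (by
      intro h
      exact hg (isConj_one_right.mp h))] at hcol
    obtain ⟨χ, -, hne, hrχ⟩ := core (Set.univ : Set (IrrCharacter G)) (Set.mem_univ _) g (by
      rw [← hcol]
      refine Finset.sum_congr rfl fun χ _ => ?_
      rw [Set.indicator_of_mem (Set.mem_univ _), Pi.one_apply, one_mul]) hr
    refine ⟨χ, hne, ?_, hrχ⟩
    intro hpχ
    have hd := hpχ.trans (degree_dvd_card χ.2)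
    rw [hG, pow_zero, one_mul] at hd
    rcases (Nat.Prime.dvd_mul hp).mp hd with h | h
    · exact hpq ((Nat.prime_dvd_prime_iff_eq hp hq).mp (hp.dvd_of_dvd_pow h))
    · exact hpr ((Nat.prime_dvd_prime_iff_eq hp hr).mp (hp.dvd_of_dvd_pow h))
  · obtain ⟨M, hM⟩ := exists_isPModular hp
    haveI := IsPModular.isPrime hM
    have hpG : p ∣ Nat.card G := by
      rw [hG, mul_assoc]
      exact Dvd.dvd.mul_right (dvd_pow_self p hapos.ne') _
    obtain ⟨y, hy⟩ := exists_prime_orderOf_dvd_card' (G := G) p hpG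
    have hB : IsPBlock M (principalBlock M G) := ⟨oneIrr G, rfl⟩
    have hone : oneIrr G ∈ principalBlock M G := SameBlock.refl (M := M) (fun _ : G => (1 : ℂ))
    have hw := weak_block_orthogonality hM hB (x := (1 : G)) (y := y) (by
      rw [orderOf_one]; exact hp.one_lt.ne' ∘ Nat.dvd_one.mp) (by rw [hy])
    obtain ⟨χ, hχ, hne, hrχ⟩ := core (principalBlock M G) hone y hw hr
    refine ⟨χ, hne, ?_, hrχ⟩
    intro hpχ
    have hcop : ¬ p ∣ q ^ b * r ^ c := by
      intro h
      rcases (Nat.Prime.dvd_mul hp).mp h with h | h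
      · exact hpq ((Nat.prime_dvd_prime_iff_eq hp hq).mp (hp.dvd_of_dvd_pow h))
      · exact hpr ((Nat.prime_dvd_prime_iff_eq hp hr).mp (hp.dvd_of_dvd_pow h))
    have hnd : ¬ p ^ (a + 1) ∣ Nat.card G := by
      rw [hG, mul_assoc, pow_succ]
      intro h
      exact hcop (Nat.dvd_of_mul_dvd_mul_left (pow_pos hp.pos a) h)
    have ha12 : a = 1 ∨ a = 2 := by omega
    rcases ha12 with rfl | rfl
    · have h1 := not_dvd_card_div_degree (n := 1) χ.2 hnd (by rwa [pow_one])
      have h2 : blockOf M (χ : G → ℂ) = {χ} := (Cfsg.Agent.S0914.result p M hM χ).mp h1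
      have h3 : oneIrr G ∈ blockOf M (χ : G → ℂ) := SameBlock.symm hχ
      rw [h2] at h3
      exact hne (Set.mem_singleton_iff.mp h3).symm
    · have hfac : (Nat.card G).factorization p = 2 := by
        rw [hG, mul_assoc, Nat.factorization_mul (pow_pos hp.pos 2).ne'
          (Nat.mul_pos (pow_pos hq.pos b) (pow_pos hr.pos c)).ne']
        simp [hp.factorization_self, Nat.factorization_eq_zero_of_not_dvd hcop]
      have h1 := Cfsg.Agent.S4499.result p M hM hpG _ hB χ hχ (by rw [hfac]; simpa using hpχ)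
        (oneIrr G) hone
      rw [hfac, charDegree_oneIrr] at h1
      exact hp.one_lt.ne' (Nat.dvd_one.mp (by simpa using h1))

/-- Let G be a non-trivial finite group of order p^a · q^b · r^c with p, q, r distinct primes and a ≤ 2. Then G has a non-principal irreducible character whose degree is a power of q, and a non-principal irreducible character whose degree is a power of r; the power may be the zeroth, so a non-principal linear character serves for both. -/
theorem result {G : Type*} [Group G] [Finite G] [Nontrivial G] (p q r a b c : ℕ) (hp : p.Prime) (hq : q.Prime) (hr : r.Prime) (hpq : p ≠ q) (hpr : p ≠ r) (hqr : q ≠ r) (ha : a ≤ 2) (hG : Nat.card G = p ^ a * q ^ b * r ^ c) : (∃ χ : Cfsg.IrrCharacter G, (χ : G → ℂ) ≠ (fun _ => 1) ∧ ∃ k : ℕ, Cfsg.charDegree (χ : G → ℂ) = q ^ k) ∧ ∃ χ : Cfsg.IrrCharacter G, (χ : G → ℂ) ≠ (fun _ => 1) ∧ ∃ k : ℕ, Cfsg.charDegree (χ : G → ℂ) = r ^ k :=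
  ⟨aux p q r a b c hp hq hr hpq hpr hqr ha hG,
    aux p r q a c b hp hr hq hpr hpq hqr.symm ha (by rw [hG]; ring)⟩

end Cfsg.Agent.S4500
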