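import Cfsg.Statements.S4506
import Mathlib
import Cfsg.Agent.S4425
import Cfsg.Agent.Lib.Helper2.Eigen
import Cfsg.Agent.Lib.Helper6.CharCentral
import Cfsg.Agent.Lib.Helper24.CharInt
import Cfsg.Agent.Lib.Lead.GenChar

set_option autoImplicit false
open Cfsg

namespace Cfsg.Agent.S4506

open Cfsg.Agent.Lib.Helper2 Cfsg.Agent.Lib.Helper6 Cfsg.Agent.Lib.Helper24 Cfsg.Agent.Lib.Lead
open scoped ComplexConjugate

attribute [local instance] irrFintype

/-- A field automorphism fixing the `n`-th roots of unity fixes character values at elements of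
order dividing `n`. -/
theorem sigma_fix {G : Type*} [Group G] [Finite G] {χ : G → ℂ} (hχ : IsCharacter G χ) (n : ℕ)
    (hn : n ≠ 0) (σ : ℂ ≃+* ℂ)
    (hσ : σ (Complex.exp (2 * Real.pi * Complex.I / (n : ℕ))) =
      Complex.exp (2 * Real.pi * Complex.I / (n : ℕ)))
    (x : G) (hx : orderOf x ∣ n) : σ (χ x) = χ x := by
  obtain ⟨d, ρ, rfl⟩ := hχ
  obtain ⟨ζ, hζ, h⟩ := char_zpow_eq_sum ρ x
  have h1 := h 1
  simp only [zpow_one] at h1
  rw [h1, map_sum]
  refine Finset.sum_congr rfl fun i _ => ?_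
  have hprim := Complex.isPrimitiveRoot_exp n hn
  haveI : NeZero n := ⟨hn⟩
  obtain ⟨c, hc⟩ := hx
  have h2 : ζ i ^ n = 1 := by rw [hc, pow_mul, hζ, one_pow]
  obtain ⟨k, -, hk⟩ := hprim.eq_pow_of_pow_eq_one h2
  rw [← hk, map_pow, hσ]

/-- Let G be a finite group, p a prime, p^a the p-part of the order of G and g′ its p′-part. Call two irreducible characters p-conjugate when one is obtained from the other by applying a field automorphism of ℂ that fixes the g′-th roots of unity, and let r be the number of characters p-conjugate to the irreducible character χ (χ included). Then the exponent of p in r·χ(1) is at most a; and if p^a divides r·χ(1) then p^a already divides χ(1). -/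
theorem result {G : Type*} [Group G] [Finite G] (p : ℕ) (hp : p.Prime) (χ : Cfsg.IrrCharacter G) (r : ℕ) (hr : Nat.card {ψ : Cfsg.IrrCharacter G // ∃ σ : ℂ ≃+* ℂ, σ (Complex.exp (2 * Real.pi * Complex.I / ((Nat.card G / p ^ (Nat.card G).factorization p) : ℕ))) = Complex.exp (2 * Real.pi * Complex.I / ((Nat.card G / p ^ (Nat.card G).factorization p) : ℕ)) ∧ (ψ : G → ℂ) = fun g => σ ((χ : G → ℂ) g)} = r) : (r * Cfsg.charDegree (χ : G → ℂ)).factorization p ≤ (Nat.card G).factorization p ∧ (p ^ (Nat.card G).factorization p ∣ r * Cfsg.charDegree (χ : G → ℂ) → p ^ (Nat.card G).factorization p ∣ Cfsg.charDegree (χ : G → ℂ)) := by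
  classical
  letI := Fintype.ofFinite G
  haveI : Fact p.Prime := ⟨hp⟩
  obtain ⟨a, ha⟩ : ∃ a, a = (Nat.card G).factorization p := ⟨_, rfl⟩
  obtain ⟨d, hd⟩ : ∃ d, d = charDegree (χ : G → ℂ) := ⟨_, rfl⟩
  obtain ⟨b, hb⟩ : ∃ b, b = d.factorization p := ⟨_, rfl⟩
  obtain ⟨g', hg'⟩ : ∃ g', g' = Nat.card G / p ^ (Nat.card G).factorization p := ⟨_, rfl⟩
  rw [← hg'] at hr
  rw [← ha, ← hd]
  have hcard : p ^ a * g' = Nat.card G := by
    rw [ha, hg']; exact Nat.ordProj_mul_ordCompl_eq_self _ _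
  have hg'0 : g' ≠ 0 := by
    rintro rfl
    rw [mul_zero] at hcard
    exact Nat.card_pos.ne' hcard.symm
  have hd0 : d ≠ 0 := by rw [hd]; exact (charDegree_pos χ.2).ne'
  have hdG : d ∣ Nat.card G := by rw [hd]; exact degree_dvd_card χ.2
  have hba : b ≤ a := by
    rw [hb, ha]
    exact (Nat.factorization_le_iff_dvd hd0 Nat.card_pos.ne').mpr hdG p
  have hχc := IsIrrCharacter.isCharacter χ.2
  -- the set of `p`-conjugates
  let Q : IrrCharacter G → Prop := fun ψ => ∃ σ : ℂ ≃+* ℂ,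
    σ (Complex.exp (2 * Real.pi * Complex.I / (g' : ℕ))) =
      Complex.exp (2 * Real.pi * Complex.I / (g' : ℕ)) ∧ (ψ : G → ℂ) = fun g => σ ((χ : G → ℂ) g)
  let O : Finset (IrrCharacter G) := Finset.univ.filter Q
  have hO : O.card = r := by
    rw [← hr, Nat.card_eq_fintype_card, Fintype.card_subtype]
  have hχO : χ ∈ O := Finset.mem_filter.mpr ⟨Finset.mem_univ _, RingEquiv.refl ℂ, rfl, rfl⟩
  have hr0 : r ≠ 0 := by
    rw [← hO]; exact Finset.card_ne_zero_of_mem hχO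
  have hreg : ∀ ψ ∈ O, ∀ x : G, ¬ p ∣ orderOf x → (ψ : G → ℂ) x = (χ : G → ℂ) x := by
    intro ψ hψ x hx
    obtain ⟨σ, hσ, hψσ⟩ := (Finset.mem_filter.mp hψ).2
    rw [hψσ]
    apply sigma_fix hχc g' hg'0 σ hσ
    have h1 : orderOf x ∣ p ^ a * g' := by rw [hcard]; exact orderOf_dvd_natCard x
    exact Nat.Coprime.dvd_of_dvd_mul_left
      (Nat.Coprime.pow_right a ((Nat.Prime.coprime_iff_not_dvd hp).mpr hx).symm) h1
  -- the generalized character
  let Θ : G → ℂ := fun x => if p ∣ orderOf x then (0 : ℂ) else ((p ^ (a - b) : ℕ) : ℂ) * (χ : G → ℂ) x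
  have hΘ : IsGeneralizedCharacter G Θ := by
    have := (Cfsg.Agent.S4425.result p χ).1
    rw [← ha, ← hd, ← hb] at this
    exact this
  obtain ⟨z, hz⟩ := genChar_exists_eq_sum hΘ
  have hin : ∀ ξ : IrrCharacter G, classInner Θ (ξ : G → ℂ) = (z ξ : ℂ) := by
    intro ξ
    conv_lhs => rw [hz]
    rw [classInner_sum_irr_left]
  have hconj : ∀ ψ ∈ O, z ψ = z χ := by
    intro ψ hψ
    have h1 : classInner Θ (ψ : G → ℂ) = classInner Θ (χ : G → ℂ) := by
      unfold classInner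
      congr 1
      refine Finset.sum_congr rfl fun x _ => ?_
      by_cases hx : p ∣ orderOf x
      · simp only [Θ, if_pos hx, zero_mul]
      · rw [hreg ψ hψ x hx]
    rw [hin, hin] at h1
    exact_mod_cast h1
  have hnorm : classInner Θ Θ = ((p ^ (a - b) : ℕ) : ℂ) * (z χ : ℂ) := by
    rw [← hin]
    unfold classInner
    rw [mul_left_comm]
    congr 1
    rw [Finset.mul_sum]
    refine Finset.sum_congr rfl fun x _ => ?_
    by_cases hx : p ∣ orderOf x
    · simp only [Θ, if_pos hx, zero_mul, mul_zero]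
    · simp only [Θ, if_neg hx, map_mul, map_natCast]
      ring
  have hnorm2 : classInner Θ Θ = ∑ ξ : IrrCharacter G, ((z ξ : ℂ)) ^ 2 := by
    conv_lhs => rw [hz]
    rw [classInner_sum_irr]
    refine Finset.sum_congr rfl fun ξ _ => ?_
    simp [pow_two]
  have hkey : ((p ^ (a - b) : ℕ) : ℤ) * z χ = ∑ ξ : IrrCharacter G, (z ξ) ^ 2 := by
    have : (((p ^ (a - b) : ℕ) : ℤ) * z χ : ℂ) = ((∑ ξ : IrrCharacter G, (z ξ) ^ 2 : ℤ) : ℂ) := by
      push_cast
      rw [← hnorm2, hnorm]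
      push_cast
      rfl
    exact_mod_cast this
  have hsplit : ∑ ξ : IrrCharacter G, (z ξ) ^ 2 =
      (r : ℤ) * (z χ) ^ 2 + ∑ ξ ∈ Finset.univ.filter (fun ξ => ¬ Q ξ), (z ξ) ^ 2 := by
    rw [← Finset.sum_filter_add_sum_filter_not Finset.univ Q]
    congr 1
    rw [Finset.sum_congr rfl (fun ξ hξ => by rw [hconj ξ hξ] : ∀ ξ ∈ O, (z ξ) ^ 2 = (z χ) ^ 2),
      Finset.sum_const, hO, nsmul_eq_mul]
  have hrest : 0 ≤ ∑ ξ ∈ Finset.univ.filter (fun ξ => ¬ Q ξ), (z ξ) ^ 2 :=
    Finset.sum_nonneg fun ξ _ => sq_nonneg _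
  have hpp : (0 : ℤ) < ((p ^ (a - b) : ℕ) : ℤ) := by exact_mod_cast pow_pos hp.pos _
  have hzpos : 0 < z χ := by
    have hne : z χ ≠ 0 := by
      intro h0
      rw [h0, mul_zero] at hkey
      have hall : ∀ ξ : IrrCharacter G, z ξ = 0 := by
        intro ξ
        have := (Finset.sum_eq_zero_iff_of_nonneg (fun ξ _ => sq_nonneg (z ξ))).mp hkey.symm ξ
          (Finset.mem_univ _)
        exact pow_eq_zero_iff (two_ne_zero) |>.mp this
      have hΘ0 : Θ = 0 := by
        rw [hz]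
        apply Finset.sum_eq_zero
        intro ξ _
        rw [hall ξ]; simp
      have h1 := congrFun hΘ0 1
      simp only [Θ, orderOf_one, Nat.dvd_one, hp.ne_one, if_false, Pi.zero_apply] at h1
      rcases mul_eq_zero.mp h1 with h | h
      · exact (pow_pos hp.pos (a - b)).ne' (by exact_mod_cast h)
      · rw [← charDegree_cast hχc, ← hd] at h
        exact hd0 (by exact_mod_cast h)
    have hnn : 0 ≤ ((p ^ (a - b) : ℕ) : ℤ) * z χ := by
      rw [hkey]; exact Finset.sum_nonneg fun ξ _ => sq_nonneg _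
    rcases lt_trichotomy (z χ) 0 with h | h | h
    · nlinarith
    · exact absurd h hne
    · exact h
  have hle : (r : ℤ) * z χ ≤ ((p ^ (a - b) : ℕ) : ℤ) := by
    have h1 : (r : ℤ) * (z χ) ^ 2 ≤ ((p ^ (a - b) : ℕ) : ℤ) * z χ := by
      rw [hkey, hsplit]; linarith
    have h2 : ((r : ℤ) * z χ) * z χ ≤ ((p ^ (a - b) : ℕ) : ℤ) * z χ := by
      calc ((r : ℤ) * z χ) * z χ = (r : ℤ) * (z χ) ^ 2 := by ring
        _ ≤ _ := h1
    exact le_of_mul_le_mul_right h2 hzpos
  have hrle : r ≤ p ^ (a - b) := by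
    have h1 : (r : ℤ) ≤ (r : ℤ) * z χ := by
      have : (0 : ℤ) ≤ (r : ℤ) := Int.natCast_nonneg r
      nlinarith
    exact_mod_cast h1.trans hle
  have hνr : r.factorization p ≤ a - b := by
    have h1 : p ^ r.factorization p ≤ p ^ (a - b) :=
      (Nat.le_of_dvd (Nat.pos_of_ne_zero hr0) (Nat.ordProj_dvd r p)).trans hrle
    exact (Nat.pow_le_pow_iff_right hp.one_lt).mp h1
  have hfac : (r * d).factorization p = r.factorization p + b := by
    rw [Nat.factorization_mul hr0 hd0, hb]; rfl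
  refine ⟨by rw [hfac]; omega, ?_⟩
  intro hdiv
  have h1 : a ≤ (r * d).factorization p :=
    (Nat.Prime.pow_dvd_iff_le_factorization hp (Nat.mul_ne_zero hr0 hd0)).mp hdiv
  rw [hfac] at h1
  have hνeq : r.factorization p = a - b := by omega
  have hreq : r = p ^ (a - b) := by
    apply le_antisymm hrle
    rw [← hνeq]
    exact Nat.le_of_dvd (Nat.pos_of_ne_zero hr0) (Nat.ordProj_dvd r p)
  have hz1 : z χ = 1 := by
    rw [← hreq] at hle
    have hrpos : (0 : ℤ) < (r : ℤ) := by exact_mod_cast Nat.pos_of_ne_zero hr0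
    nlinarith
  have hrest0 : ∑ ξ ∈ Finset.univ.filter (fun ξ => ¬ Q ξ), (z ξ) ^ 2 = 0 := by
    rw [hsplit, hz1, ← hreq] at hkey
    linarith
  have hzero : ∀ ξ : IrrCharacter G, ξ ∉ O → z ξ = 0 := by
    intro ξ hξ
    have hmem : ξ ∈ Finset.univ.filter (fun ξ => ¬ Q ξ) :=
      Finset.mem_filter.mpr ⟨Finset.mem_univ _, fun hq => hξ (Finset.mem_filter.mpr ⟨Finset.mem_univ _, hq⟩)⟩
    have := (Finset.sum_eq_zero_iff_of_nonneg (fun ξ _ => sq_nonneg (z ξ))).mp hrest0 ξ hmem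
    exact pow_eq_zero_iff (two_ne_zero) |>.mp this
  have hΘsum : ∀ x, Θ x = ∑ ψ ∈ O, (ψ : G → ℂ) x := by
    intro x
    rw [hz, Finset.sum_apply, ← Finset.sum_filter_add_sum_filter_not Finset.univ Q]
    have e2 : ∑ ξ ∈ Finset.univ.filter (fun ξ => ¬ Q ξ), ((z ξ : ℂ) • (ξ : G → ℂ)) x = 0 := by
      apply Finset.sum_eq_zero
      intro ξ hξ
      rw [hzero ξ (fun h => (Finset.mem_filter.mp hξ).2 (Finset.mem_filter.mp h).2)]
      simp
    rw [e2, add_zero]
    refine Finset.sum_congr rfl fun ψ hψ => ?_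
    rw [hconj ψ hψ, hz1]
    simp
  -- restrict to a Sylow subgroup
  obtain ⟨P⟩ : Nonempty (Sylow p G) := inferInstance
  have hPcard : Nat.card (P : Subgroup G) = p ^ a := by
    rw [ha]; exact Sylow.card_eq_multiplicity P
  obtain ⟨m, hm⟩ := IsCharacter.classInner_nat (IsCharacter.restrict (P : Subgroup G) hχc)
    (IsIrrCharacter.isCharacter (isIrrCharacter_one (G := (P : Subgroup G))))
  have hsumχ : ∑ x : (P : Subgroup G), (χ : G → ℂ) x = ((p ^ a * m : ℕ) : ℂ) := by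
    unfold classInner at hm
    rw [hPcard] at hm
    have hne : ((p ^ a : ℕ) : ℂ) ≠ 0 := by exact_mod_cast (pow_pos hp.pos a).ne'
    have h2 : ∑ x : (P : Subgroup G), (χ : G → ℂ) x = ((p ^ a : ℕ) : ℂ) * m := by
      rw [← hm, mul_inv_cancel_left₀ hne]
      refine Finset.sum_congr rfl fun x _ => ?_
      simp
    rw [h2]; push_cast; ring
  have hsumψ : ∀ ψ ∈ O, ∑ x : (P : Subgroup G), (ψ : G → ℂ) x = ((p ^ a * m : ℕ) : ℂ) := by
    intro ψ hψ
    obtain ⟨σ, -, hψσ⟩ := (Finset.mem_filter.mp hψ).2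
    rw [hψσ]
    show ∑ x : (P : Subgroup G), σ ((χ : G → ℂ) x) = _
    rw [← map_sum, hsumχ, map_natCast]
  have hsumΘ : ∑ x : (P : Subgroup G), Θ x = ((p ^ (a - b) : ℕ) : ℂ) * (d : ℂ) := by
    rw [Finset.sum_eq_single (1 : (P : Subgroup G))]
    · simp only [Θ, OneMemClass.coe_one, orderOf_one, Nat.dvd_one, hp.ne_one, if_false]
      rw [hd, charDegree_cast hχc]
    · intro x _ hx
      have hx1 : (x : G) ≠ 1 := fun h => hx (Subtype.ext h)
      obtain ⟨k, hk⟩ := (IsPGroup.iff_orderOf.mp P.isPGroup') x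
      have hk' : orderOf (x : G) = p ^ k := by rw [← hk, Subgroup.orderOf_coe]
      have hk0 : k ≠ 0 := by
        rintro rfl
        rw [pow_zero, orderOf_eq_one_iff] at hk'
        exact hx1 hk'
      simp only [Θ]
      rw [if_pos (by rw [hk']; exact dvd_pow_self p hk0)]
    · intro h; exact absurd (Finset.mem_univ _) h
  have hfinal : ((p ^ (a - b) : ℕ) : ℂ) * (d : ℂ) = ((r * (p ^ a * m) : ℕ) : ℂ) := by
    rw [← hsumΘ]
    simp_rw [hΘsum]
    rw [Finset.sum_comm, Finset.sum_congr rfl hsumψ, Finset.sum_const, hO, nsmul_eq_mul]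
    push_cast
    ring
  have hfinal' : p ^ (a - b) * d = r * (p ^ a * m) := by exact_mod_cast hfinal
  rw [hreq] at hfinal'
  exact ⟨m, Nat.eq_of_mul_eq_mul_left (pow_pos hp.pos _) hfinal'⟩

end Cfsg.Agent.S4506
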