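import Cfsg.Statements.S4508
import Mathlib
import Cfsg.Agent.Lib.Helper23.SelfCentCount
import Cfsg.Agent.Lib.Helper24.CharInt
import Cfsg.Agent.Lib.Helper2.Eigen

set_option autoImplicit false
set_option linter.unusedSectionVars false
set_option linter.style.haveILetI false
open Cfsg

namespace Cfsg.Agent.S4508

open Cfsg.Agent.Lib.Helper23 Cfsg.Agent.Lib.Helper2 Cfsg.Agent.Lib.Helper6 Cfsg.Agent.Lib.Helper24
open scoped Classical ComplexConjugate



section grp

variable {G : Type*} [Group G] [Finite G] {p : ℕ} {x : G}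

theorem exists_gen (hp : p.Prime) (hx : orderOf x = p)
    (hC : Subgroup.centralizer ({x} : Set G) = Subgroup.zpowers x) :
    ∃ y ∈ Subgroup.normalizer (Subgroup.zpowers x : Set G),
      ∀ n ∈ Subgroup.normalizer (Subgroup.zpowers x : Set G),
        ∃ k : ℤ, (y ^ k)⁻¹ * n ∈ Subgroup.zpowers x := by
  haveI : Fact (Nat.card (Subgroup.zpowers x)).Prime := ⟨by rw [Nat.card_zpowers, hx]; exact hp⟩
  have e := IsCyclic.mulAutMulEquiv (Subgroup.zpowers x)
  haveI : IsCyclic (MulAut (Subgroup.zpowers x)) :=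
    isCyclic_of_surjective e.symm e.symm.surjective
  obtain ⟨⟨_, ⟨y, rfl⟩⟩, hgen⟩ :=
    IsCyclic.exists_generator (α := (Subgroup.zpowers x).normalizerMonoidHom.range)
  refine ⟨y, y.2, fun n hn => ?_⟩
  obtain ⟨k, hk⟩ := Subgroup.mem_zpowers_iff.mp
    (hgen ⟨(Subgroup.zpowers x).normalizerMonoidHom ⟨n, hn⟩, ⟨_, rfl⟩⟩)
  have hk' : ((Subgroup.zpowers x).normalizerMonoidHom y) ^ k =
      (Subgroup.zpowers x).normalizerMonoidHom ⟨n, hn⟩ := congrArg Subtype.val hk
  refine ⟨k, ?_⟩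
  have h1 : (y ^ k)⁻¹ * ⟨n, hn⟩ ∈ (Subgroup.zpowers x).normalizerMonoidHom.ker := by
    rw [MonoidHom.mem_ker, map_mul, map_inv, map_zpow, hk', inv_mul_cancel]
  rw [Subgroup.normalizerMonoidHom_ker, Subgroup.mem_subgroupOf] at h1
  apply hC.le
  rw [Subgroup.mem_centralizer_singleton_iff]
  have h2 := (Subgroup.mem_centralizer_iff.mp h1) x (Subgroup.mem_zpowers x)
  simpa using h2.symm

/-- an element of the normaliser commuting with a nontrivial element of `⟨x⟩` lies in `⟨x⟩` -/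
theorem mem_of_comm (hp : p.Prime) (hx : orderOf x = p)
    (hC : Subgroup.centralizer ({x} : Set G) = Subgroup.zpowers x) {y u : G}
    (hu : u ∈ Subgroup.zpowers x) (hu1 : u ≠ 1) (h : y * u = u * y) : y ∈ Subgroup.zpowers x := by
  rw [← sc_centralizer hp hx hC hu hu1, Subgroup.mem_centralizer_singleton_iff]
  exact h

theorem zpowers_inf (hp : p.Prime) (hx : orderOf x = p)
    (hC : Subgroup.centralizer ({x} : Set G) = Subgroup.zpowers x) {y : G}
    (hy : y ∉ Subgroup.zpowers x) {u : G} (hu : u ∈ Subgroup.zpowers y)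
    (hu' : u ∈ Subgroup.zpowers x) : u = 1 := by
  by_contra hu1
  apply hy
  apply mem_of_comm hp hx hC hu' hu1
  obtain ⟨k, rfl⟩ := Subgroup.mem_zpowers_iff.mp hu
  exact ((Commute.refl y).zpow_right k).eq

theorem orderOf_gen (hp : p.Prime) (hx : orderOf x = p)
    (hC : Subgroup.centralizer ({x} : Set G) = Subgroup.zpowers x) {y : G}
    (hyN : y ∈ Subgroup.normalizer (Subgroup.zpowers x : Set G))
    (hgen : ∀ n ∈ Subgroup.normalizer (Subgroup.zpowers x : Set G),
        ∃ k : ℤ, (y ^ k)⁻¹ * n ∈ Subgroup.zpowers x)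
    (hy : y ∉ Subgroup.zpowers x) :
    orderOf y = (Subgroup.zpowers x).relIndex (Subgroup.normalizer (Subgroup.zpowers x : Set G)) := by
  have hle : Subgroup.zpowers x ≤ Subgroup.normalizer (Subgroup.zpowers x : Set G) :=
    Subgroup.le_normalizer
  have hE : Subgroup.zpowers y ≤ Subgroup.normalizer (Subgroup.zpowers x : Set G) :=
    Subgroup.zpowers_le.mpr hyN
  have h1 : Nat.card (Subgroup.zpowers y) * Nat.card (Subgroup.zpowers x) =
      Nat.card (Subgroup.normalizer (Subgroup.zpowers x : Set G)) := by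
    rw [← Nat.card_prod]
    apply Nat.card_eq_of_bijective
      (fun q : Subgroup.zpowers y × Subgroup.zpowers x =>
        (⟨q.1 * q.2, Subgroup.mul_mem _ (hE q.1.2) (hle q.2.2)⟩ :
          Subgroup.normalizer (Subgroup.zpowers x : Set G)))
    constructor
    · rintro ⟨⟨a, ha⟩, ⟨u, hu⟩⟩ ⟨⟨b, hb⟩, ⟨v, hv⟩⟩ h
      have h' : a * u = b * v := congrArg Subtype.val h
      have h2 : b⁻¹ * a = v * u⁻¹ := by
        rw [inv_mul_eq_iff_eq_mul, ← mul_assoc, ← h', mul_assoc, mul_inv_cancel, mul_one]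
      have h3 : b⁻¹ * a = 1 := zpowers_inf hp hx hC hy
        (Subgroup.mul_mem _ (Subgroup.inv_mem _ hb) ha)
        (h2 ▸ Subgroup.mul_mem _ hv (Subgroup.inv_mem _ hu))
      have h4 : a = b := by rw [inv_mul_eq_one] at h3; exact h3.symm
      subst h4
      have h5 : u = v := mul_left_cancel h'
      subst h5
      rfl
    · rintro ⟨n, hn⟩
      obtain ⟨k, hk⟩ := hgen n hn
      refine ⟨⟨⟨y ^ k, Subgroup.zpow_mem_zpowers y k⟩, ⟨_, hk⟩⟩, ?_⟩
      apply Subtype.ext
      simp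
  have h2 := Subgroup.relIndex_mul_relIndex ⊥ _ _ bot_le hle
  rw [Subgroup.relIndex_bot_left, Subgroup.relIndex_bot_left, ← h1, Nat.card_zpowers y,
    mul_comm] at h2
  exact (Nat.eq_of_mul_eq_mul_right Nat.card_pos h2).symm

/-- for `y` in the normaliser outside `⟨x⟩`, the coset `y⟨x⟩` is one `⟨x⟩`-class -/
theorem exists_conj (hp : p.Prime) (hx : orderOf x = p)
    (hC : Subgroup.centralizer ({x} : Set G) = Subgroup.zpowers x) {y : G}
    (hyN : y ∈ Subgroup.normalizer (Subgroup.zpowers x : Set G))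
    (hy : y ∉ Subgroup.zpowers x) {u : G} (hu : u ∈ Subgroup.zpowers x) :
    ∃ v : G, v * y * v⁻¹ = y * u := by
  have hmem : ∀ v ∈ Subgroup.zpowers x, y⁻¹ * v * y ∈ Subgroup.zpowers x := by
    intro v hv
    exact (Subgroup.mem_normalizer_iff''.mp hyN v).mp hv
  have hcomm : ∀ a ∈ Subgroup.zpowers x, ∀ b ∈ Subgroup.zpowers x, a * b = b * a := by
    intro a ha b hb
    obtain ⟨i, rfl⟩ := Subgroup.mem_zpowers_iff.mp ha
    obtain ⟨j, rfl⟩ := Subgroup.mem_zpowers_iff.mp hb
    exact (((Commute.refl x).zpow_left i).zpow_right j).eq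
  let c : Subgroup.zpowers x → Subgroup.zpowers x := fun v =>
    ⟨(y⁻¹ * v * y) * (v : G)⁻¹, Subgroup.mul_mem _ (hmem v v.2) (Subgroup.inv_mem _ v.2)⟩
  have hinj : Function.Injective c := by
    rintro ⟨v, hv⟩ ⟨w, hw⟩ h
    have h' : (y⁻¹ * v * y) * v⁻¹ = (y⁻¹ * w * y) * w⁻¹ := congrArg Subtype.val h
    apply Subtype.ext
    show v = w
    by_contra hne
    apply hy
    have hd : w⁻¹ * v ∈ Subgroup.zpowers x := Subgroup.mul_mem _ (Subgroup.inv_mem _ hw) hv
    have hd1 : w⁻¹ * v ≠ 1 := by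
      intro h1
      rw [inv_mul_eq_one] at h1
      exact hne h1.symm
    apply mem_of_comm hp hx hC hd hd1
    -- y⁻¹ (w⁻¹ v) y = w⁻¹ v
    have e1 : (y⁻¹ * w * y)⁻¹ * (y⁻¹ * v * y) = w⁻¹ * v := by
      have e2 : y⁻¹ * v * y = (y⁻¹ * w * y) * w⁻¹ * v := by
        rw [← h', inv_mul_cancel_right]
      rw [e2, mul_assoc, mul_assoc, inv_mul_cancel_left]
    have e3 : (y⁻¹ * w * y)⁻¹ * (y⁻¹ * v * y) = y⁻¹ * (w⁻¹ * v) * y := by group
    rw [e3] at e1
    calc y * (w⁻¹ * v) = y * (y⁻¹ * (w⁻¹ * v) * y) := by rw [e1]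
      _ = w⁻¹ * v * y := by group
  obtain ⟨⟨v, hv⟩, hvu⟩ := (Finite.injective_iff_surjective.mp hinj) ⟨u, hu⟩
  have h' : (y⁻¹ * v * y) * v⁻¹ = u := congrArg Subtype.val hvu
  exact ⟨v, by rw [← h']; group⟩

end grp




section roots

theorem geom_root {ω : ℂ} {N : ℕ} (h : ω ^ N = 1) :
    ∑ k ∈ Finset.range N, ω ^ k = if ω = 1 then (N : ℂ) else 0 := by
  split_ifs with h1
  · simp [h1]
  · have := mul_geom_sum ω N
    rw [h, sub_self] at this
    exact (mul_eq_zero.mp this).resolve_left (sub_ne_zero.mpr h1)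

variable {ι : Type*} [Fintype ι] (ζ : ι → ℂ) {N : ℕ}

theorem sum_pow_count (hζ : ∀ i, ζ i ^ N = 1) :
    ∑ k ∈ Finset.range N, ∑ i, ζ i ^ k =
      (N : ℂ) * ((Finset.univ.filter fun i => ζ i = 1).card : ℂ) := by
  rw [Finset.sum_comm]
  simp_rw [geom_root (hζ _)]
  rw [← Finset.sum_filter, Finset.sum_const, nsmul_eq_mul, mul_comm]

theorem sum_twist_count (hN : N ≠ 0) (hζ : ∀ i, ζ i ^ N = 1) {ω : ℂ} (hω : ω ^ N = 1) :
    ∑ k ∈ Finset.range N, (ω⁻¹) ^ k * ∑ i, ζ i ^ k =
      (N : ℂ) * ((Finset.univ.filter fun i => ζ i = ω).card : ℂ) := by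
  have hω0 : ω ≠ 0 := by
    rintro rfl
    rw [zero_pow hN] at hω
    exact zero_ne_one hω
  have h := sum_pow_count (fun i => ζ i * ω⁻¹) (N := N)
    (fun i => by rw [mul_pow, hζ, inv_pow, hω]; simp)
  have h2 : ∀ i, (ζ i * ω⁻¹ = 1) = (ζ i = ω) := fun i => by
    rw [mul_inv_eq_one₀ hω0]
  simp only [h2] at h
  rw [← h]
  refine Finset.sum_congr rfl fun k _ => ?_
  rw [Finset.mul_sum]
  refine Finset.sum_congr rfl fun i _ => ?_
  rw [mul_pow, mul_comm]

theorem sum_normSq_count (hN : N ≠ 0) (hζ : ∀ i, ζ i ^ N = 1) :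
    ∑ k ∈ Finset.range N, (∑ i, ζ i ^ k) * conj (∑ i, ζ i ^ k) =
      (N : ℂ) * ((∑ i, (Finset.univ.filter fun j => ζ j = ζ i).card : ℕ) : ℂ) := by
  have h1 : ∀ k, (∑ i, ζ i ^ k) * conj (∑ i, ζ i ^ k) =
      ∑ i, ((ζ i)⁻¹) ^ k * ∑ j, ζ j ^ k := by
    intro k
    rw [map_sum, mul_comm, Finset.sum_mul]
    refine Finset.sum_congr rfl fun i _ => ?_
    rw [map_pow, ← Complex.inv_eq_conj (Complex.norm_eq_one_of_pow_eq_one (hζ i) hN)]
  simp_rw [h1]
  rw [Finset.sum_comm]
  simp_rw [sum_twist_count ζ hN hζ (hζ _)]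
  rw [← Finset.mul_sum]
  push_cast
  rfl

theorem count_lower :
    (Finset.univ.filter fun i => ζ i = 1).card ^ 2 +
      (Fintype.card ι - (Finset.univ.filter fun i => ζ i = 1).card) ≤
      ∑ i, (Finset.univ.filter fun j => ζ j = ζ i).card := by
  set a := (Finset.univ.filter fun i => ζ i = 1).card with ha
  have h1 : ∀ i ∈ (Finset.univ : Finset ι), (if ζ i = 1 then a else 1) ≤
      (Finset.univ.filter fun j => ζ j = ζ i).card := by
    intro i _
    split_ifs with h
    · rw [h]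
    · exact Finset.card_pos.mpr ⟨i, by simp⟩
  refine le_trans (le_of_eq ?_) (Finset.sum_le_sum h1)
  rw [Finset.sum_ite, Finset.sum_const, Finset.sum_const, ← ha, smul_eq_mul, smul_eq_mul, mul_one,
    sq]
  congr 1
  rw [Finset.filter_not, Finset.card_sdiff_of_subset (Finset.filter_subset _ _), Finset.card_univ]

theorem prod_nthRoots {e : ℕ} (he : Even e) (he0 : 0 < e) :
    ∏ ω ∈ Polynomial.nthRootsFinset e (1 : ℂ), ω = -1 := by
  have h := Polynomial.X_pow_sub_one_eq_prod he0 (Complex.isPrimitiveRoot_exp e he0.ne')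
  have h2 := congrArg (Polynomial.eval 0) h
  rw [Polynomial.eval_prod] at h2
  simp only [Polynomial.eval_sub, Polynomial.eval_pow, Polynomial.eval_X, Polynomial.eval_one,
    Polynomial.eval_C, zero_sub, zero_pow he0.ne'] at h2
  rw [Finset.prod_neg, (Complex.isPrimitiveRoot_exp e he0.ne').card_nthRootsFinset, he.neg_one_pow,
    one_mul] at h2
  exact h2.symm

theorem prod_of_power_sums {e t : ℕ} (he : Even e) (he0 : 0 < e) (hζ : ∀ i, ζ i ^ e = 1)
    (hz : ∀ k, 0 < k → k < e → ∑ i, ζ i ^ k = 0) (hcard : Fintype.card ι = e * t) :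
    ∏ i, ζ i = (-1) ^ t := by
  have hcount : ∀ ω ∈ Polynomial.nthRootsFinset e (1 : ℂ),
      (Finset.univ.filter fun i => ζ i = ω).card = t := by
    intro ω hω
    rw [Polynomial.mem_nthRootsFinset he0] at hω
    have h := sum_twist_count ζ he0.ne' hζ hω
    rw [Finset.sum_eq_single_of_mem 0 (Finset.mem_range.mpr he0)] at h
    · simp only [pow_zero, Finset.sum_const, Finset.card_univ, hcard, one_mul, nsmul_eq_mul,
        mul_one] at h
      have he' : (e : ℂ) ≠ 0 := by exact_mod_cast he0.ne'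
      push_cast at h
      have := mul_left_cancel₀ he' h
      exact_mod_cast this.symm
    · intro k hk hk0
      rw [hz k (Nat.pos_of_ne_zero hk0) (Finset.mem_range.mp hk), mul_zero]
  rw [← Finset.prod_fiberwise_of_maps_to (s := Finset.univ)
    (t := Polynomial.nthRootsFinset e (1 : ℂ)) (g := ζ)
    (fun i _ => (Polynomial.mem_nthRootsFinset he0 _).mpr (hζ i))]
  have h2 : ∀ ω ∈ Polynomial.nthRootsFinset e (1 : ℂ),
      ∏ i ∈ Finset.univ.filter (fun i => ζ i = ω), ζ i = ω ^ t := by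
    intro ω hω
    rw [Finset.prod_congr rfl (fun i hi => (Finset.mem_filter.mp hi).2), Finset.prod_const,
      hcount ω hω]
  rw [Finset.prod_congr rfl h2, Finset.prod_pow, prod_nthRoots he he0]

end roots




section rep

variable {G : Type*} [Group G] [Fintype G]

noncomputable def fs (H : Subgroup G) : Finset G := Finset.univ.filter (· ∈ H)

theorem mem_fs {H : Subgroup G} {g : G} : g ∈ fs H ↔ g ∈ H := by simp [fs]

theorem card_fs (H : Subgroup G) : (fs H).card = Nat.card H := by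
  rw [Nat.card_eq_fintype_card, Fintype.card_subtype]
  rfl

variable {V : Type*} [AddCommGroup V] [Module ℂ V] [FiniteDimensional ℂ V]
  (ρ : Representation ℂ G V)

noncomputable def avg (H : Subgroup G) : Module.End ℂ V :=
  (Nat.card H : ℂ)⁻¹ • ∑ h ∈ fs H, ρ h

theorem card_ne (H : Subgroup G) : (Nat.card H : ℂ) ≠ 0 := by
  have : Nat.card H ≠ 0 := Nat.card_pos.ne'
  exact_mod_cast this

theorem rho_mul_avg (H : Subgroup G) {h : G} (hh : h ∈ H) : ρ h * avg ρ H = avg ρ H := by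
  unfold avg
  rw [mul_smul_comm, Finset.mul_sum]
  congr 1
  refine Finset.sum_nbij' (fun y => h * y) (fun y => h⁻¹ * y) ?_ ?_ ?_ ?_ ?_
  · intro y hy; rw [mem_fs] at hy ⊢; exact H.mul_mem hh hy
  · intro y hy; rw [mem_fs] at hy ⊢; exact H.mul_mem (H.inv_mem hh) hy
  · intro y _; simp
  · intro y _; simp
  · intro y _; rw [map_mul]

theorem avg_mul_of (H : Subgroup G) (A : Module.End ℂ V) (hA : ∀ h ∈ H, ρ h * A = A) :
    avg ρ H * A = A := by
  unfold avg
  rw [smul_mul_assoc, Finset.sum_mul, Finset.sum_congr rfl (fun h hh => hA h (mem_fs.mp hh)),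
    Finset.sum_const, card_fs, ← Nat.cast_smul_eq_nsmul ℂ, inv_smul_smul₀ (card_ne H)]

theorem avg_idem (H : Subgroup G) : IsIdempotentElem (avg ρ H) :=
  avg_mul_of ρ H _ (fun _ hh => rho_mul_avg ρ H hh)

theorem rho_comm_avg (H : Subgroup G) {g : G} (hg : g ∈ Subgroup.normalizer (H : Set G)) :
    ρ g * avg ρ H = avg ρ H * ρ g := by
  unfold avg
  rw [mul_smul_comm, smul_mul_assoc, Finset.mul_sum, Finset.sum_mul]
  congr 1
  refine Finset.sum_nbij' (fun y => g * y * g⁻¹) (fun y => g⁻¹ * y * g) ?_ ?_ ?_ ?_ ?_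
  · intro y hy; rw [mem_fs] at hy ⊢; exact (Subgroup.mem_normalizer_iff.mp hg y).mp hy
  · intro y hy; rw [mem_fs] at hy ⊢; exact (Subgroup.mem_normalizer_iff''.mp hg y).mp hy
  · intro y _; group
  · intro y _; group
  · intro y _; rw [← map_mul, ← map_mul]; congr 1; group

theorem avg_comm (P E : Subgroup G) (hE : E ≤ Subgroup.normalizer (P : Set G)) :
    avg ρ E * avg ρ P = avg ρ P * avg ρ E := by
  conv_lhs => rw [avg, smul_mul_assoc, Finset.sum_mul]
  conv_rhs => rw [avg.eq_def ρ E, mul_smul_comm, Finset.mul_sum]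
  congr 1
  exact Finset.sum_congr rfl fun y hy => rho_comm_avg ρ P (hE (mem_fs.mp hy))

theorem trace_rho_mul_avg (H : Subgroup G) (g : G) :
    LinearMap.trace ℂ V (ρ g * avg ρ H) =
      (Nat.card H : ℂ)⁻¹ * ∑ h ∈ fs H, ρ.character (g * h) := by
  unfold avg
  rw [mul_smul_comm, map_smul, Finset.mul_sum, map_sum, smul_eq_mul]
  congr 1
  refine Finset.sum_congr rfl fun h _ => ?_
  rw [← map_mul]
  rfl

theorem trace_idem_nat (Q : Module.End ℂ V) (hQ : IsIdempotentElem Q) :
    ∃ d : ℕ, LinearMap.trace ℂ V Q = d :=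
  ⟨_, (LinearMap.IsIdempotentElem.isProj_range Q hQ).trace⟩

theorem key_dvd (P E : Subgroup G) (hE : E ≤ Subgroup.normalizer (P : Set G))
    (hconst : ∀ y ∈ E, y ≠ 1 → ∀ u ∈ P, ρ.character (y * u) = ρ.character y) :
    ∃ a d d' : ℕ, LinearMap.trace ℂ V (avg ρ P) = a ∧
      ρ.character 1 - a = (Nat.card E : ℂ) * ((d : ℂ) - d') := by
  obtain ⟨a, ha⟩ := trace_idem_nat _ (avg_idem ρ P)
  obtain ⟨d, hd⟩ := trace_idem_nat _ (avg_idem ρ E)
  obtain ⟨d', hd'⟩ := trace_idem_nat _
    ((avg_idem ρ E).mul_of_commute (avg_comm ρ P E hE) (avg_idem ρ P))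
  refine ⟨a, d, d', ha, ?_⟩
  have t1 : LinearMap.trace ℂ V (avg ρ E) =
      (Nat.card E : ℂ)⁻¹ * ∑ y ∈ fs E, ρ.character y := by
    have := trace_rho_mul_avg ρ E 1
    simpa using this
  have t2 : LinearMap.trace ℂ V (avg ρ E * avg ρ P) =
      (Nat.card E : ℂ)⁻¹ * ∑ y ∈ fs E, LinearMap.trace ℂ V (ρ y * avg ρ P) := by
    conv_lhs => rw [avg, smul_mul_assoc, Finset.sum_mul, map_smul, map_sum, smul_eq_mul]
  have t3 : ∑ y ∈ fs E, (ρ.character y - LinearMap.trace ℂ V (ρ y * avg ρ P)) =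
      ρ.character 1 - a := by
    rw [Finset.sum_eq_single_of_mem 1 (mem_fs.mpr E.one_mem)]
    · rw [map_one, one_mul, ha]
    · intro y hy hy1
      rw [trace_rho_mul_avg, Finset.sum_congr rfl
        (fun u hu => hconst y (mem_fs.mp hy) hy1 u (mem_fs.mp hu)), Finset.sum_const, card_fs,
        nsmul_eq_mul, inv_mul_cancel_left₀ (card_ne P), sub_self]
  rw [← hd, ← hd', t1, t2, ← mul_sub, ← Finset.sum_sub_distrib, t3,
    mul_inv_cancel_left₀ (card_ne E)]

end rep

section ti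

variable {G : Type*} [Group G] [Fintype G] {p : ℕ} {x : G}

theorem ti_card (hp : p.Prime) (hx : orderOf x = p) (z : G) :
    (((Finset.univ : Finset G) ×ˢ Finset.Ico 1 p).filter
      (fun d => d.1 * x ^ d.2 * d.1⁻¹ = z)).card ≤
      Nat.card (Subgroup.normalizer (Subgroup.zpowers x : Set G)) := by
  rcases (((Finset.univ : Finset G) ×ˢ Finset.Ico 1 p).filter
      (fun d => d.1 * x ^ d.2 * d.1⁻¹ = z)).eq_empty_or_nonempty with h | ⟨d₁, hd₁⟩
  · rw [h]; simp
  · rw [← card_fs]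
    rw [Finset.mem_filter, Finset.mem_product, Finset.mem_Ico] at hd₁
    apply Finset.card_le_card_of_injOn (fun d => d₁.1⁻¹ * d.1)
    · intro d hd
      have hd := Finset.mem_coe.mp hd
      rw [Finset.mem_filter, Finset.mem_product, Finset.mem_Ico] at hd
      show _ ∈ fs _
      rw [mem_fs]
      apply sc_mem_normalizer_of_conj hp hx _ (x ^ d.2) (Subgroup.npow_mem_zpowers x _)
        (pow_ne_one_of_lt_orderOf (by omega) (by rw [hx]; omega))
      have : d₁.1⁻¹ * d.1 * x ^ d.2 * (d₁.1⁻¹ * d.1)⁻¹ = x ^ d₁.2 := by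
        have e1 : d₁.1⁻¹ * d.1 * x ^ d.2 * (d₁.1⁻¹ * d.1)⁻¹ =
            d₁.1⁻¹ * (d.1 * x ^ d.2 * d.1⁻¹) * d₁.1 := by group
        rw [e1, hd.2, ← hd₁.2]
        group
      rw [this]
      exact Subgroup.npow_mem_zpowers x _
    · intro d hd d' hd' heq
      have hd := Finset.mem_coe.mp hd
      have hd' := Finset.mem_coe.mp hd'
      rw [Finset.mem_filter, Finset.mem_product, Finset.mem_Ico] at hd hd'
      have e1 : d.1 = d'.1 := mul_left_cancel heq
      have e2 : x ^ d.2 = x ^ d'.2 := by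
        have := hd.2.trans hd'.2.symm
        rw [e1] at this
        exact mul_left_cancel (mul_right_cancel this)
      have e3 : d.2 = d'.2 :=
        pow_injOn_Iio_orderOf (by rw [Set.mem_Iio, hx]; omega) (by rw [Set.mem_Iio, hx]; omega) e2
      exact Prod.ext e1 e3

theorem ti_ineq (hp : p.Prime) (hx : orderOf x = p) (F : G → ℝ) (hF0 : ∀ z, 0 ≤ F z)
    (hFc : ∀ g z, F (g * z * g⁻¹) = F z) :
    (Nat.card G : ℝ) * ∑ k ∈ Finset.Ico 1 p, F (x ^ k) ≤
      (Nat.card (Subgroup.normalizer (Subgroup.zpowers x : Set G)) : ℝ) *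
        ∑ z ∈ (Finset.univ : Finset G).erase 1, F z := by
  have hmaps : ∀ d ∈ (Finset.univ : Finset G) ×ˢ Finset.Ico 1 p,
      d.1 * x ^ d.2 * d.1⁻¹ ∈ (Finset.univ : Finset G).erase 1 := by
    intro d hd
    rw [Finset.mem_product, Finset.mem_Ico] at hd
    rw [Finset.mem_erase]
    refine ⟨?_, Finset.mem_univ _⟩
    intro h
    have h1 : x ^ d.2 = 1 := by
      have : x ^ d.2 = d.1⁻¹ * (d.1 * x ^ d.2 * d.1⁻¹) * d.1 := by group
      rw [this, h]; group
    exact pow_ne_one_of_lt_orderOf (by omega) (by rw [hx]; omega) h1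
  have h1 : ∑ d ∈ (Finset.univ : Finset G) ×ˢ Finset.Ico 1 p, F (d.1 * x ^ d.2 * d.1⁻¹) =
      (Nat.card G : ℝ) * ∑ k ∈ Finset.Ico 1 p, F (x ^ k) := by
    rw [Finset.sum_product]
    simp only [hFc]
    rw [Finset.sum_const, Finset.card_univ, nsmul_eq_mul, Nat.card_eq_fintype_card]
  rw [← h1, ← Finset.sum_fiberwise_of_maps_to hmaps, Finset.mul_sum]
  refine Finset.sum_le_sum fun z _ => ?_
  rw [Finset.sum_congr rfl (fun d hd => by rw [(Finset.mem_filter.mp hd).2]), Finset.sum_const,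
    nsmul_eq_mul]
  apply mul_le_mul_of_nonneg_right _ (hF0 z)
  exact_mod_cast ti_card hp hx z

end ti


section more

variable {G : Type*} [Group G] [Fintype G]

theorem sum_zpowers {M : Type*} [AddCommMonoid M] (x : G) (f : G → M) :
    ∑ u ∈ fs (Subgroup.zpowers x), f u = ∑ k ∈ Finset.range (orderOf x), f (x ^ k) := by
  have h : fs (Subgroup.zpowers x) = (Finset.range (orderOf x)).image (x ^ ·) := by
    ext u
    rw [mem_fs, mem_zpowers_iff_mem_range_orderOf]
  rw [h, Finset.sum_image]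
  intro i hi j hj hij
  exact pow_injOn_Iio_orderOf (by simpa using hi) (by simpa using hj) hij

theorem arith2 (p e a M n : ℕ) (hn : n + 1 = p) (hM : a ^ 2 + (n - a) ≤ M) (han : a ≤ n)
    (h : p * M < e * p + n ^ 2) (hdvd : e ∣ a) (he : 2 ≤ e) : a = 0 := by
  by_contra ha
  have hae : e ≤ a := Nat.le_of_dvd (Nat.pos_of_ne_zero ha) hdvd
  obtain ⟨c, hc⟩ : ∃ c, n = a + c := ⟨n - a, by omega⟩
  have hM' : a ^ 2 + c ≤ M := by
    have : n - a = c := by omega
    rwa [this] at hM
  subst hn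
  subst hc
  have h1 : (a + c + 1) * (a ^ 2 + c) ≤ (a + c + 1) * M := Nat.mul_le_mul_left _ hM'
  have h2 : (a + c + 1) * (a ^ 2 + c) < a * (a + c + 1) + (a + c) ^ 2 := by
    calc (a + c + 1) * (a ^ 2 + c) ≤ (a + c + 1) * M := h1
      _ < e * (a + c + 1) + (a + c) ^ 2 := h
      _ ≤ a * (a + c + 1) + (a + c) ^ 2 := by
        apply Nat.add_le_add_right
        exact Nat.mul_le_mul_right _ hae
  have ha2 : 2 ≤ a := le_trans he hae
  nlinarith [Nat.mul_le_mul ha2 (le_refl a), Nat.zero_le c, Nat.mul_le_mul ha2 (le_refl (a * a)),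
    Nat.mul_le_mul ha2 (le_refl (a * c))]

end more

/-- Let the finite group G contain an element x of prime order p with C_G(x) = ⟨x⟩, and let t be the number of conjugacy classes of elements of order p. If G has an irreducible character of degree p − 1, then t is even or the commutator subgroup has even index. -/
theorem result {G : Type*} [Group G] [Finite G] (p : ℕ) (hp : p.Prime) (x : G) (hx : orderOf x = p) (hC : Subgroup.centralizer ({x} : Set G) = Subgroup.zpowers x) (t : ℕ) (ht : Nat.card {C : ConjClasses G // ∃ g ∈ C.carrier, orderOf g = p} = t) (χ : Cfsg.IrrCharacter G) (hχ : Cfsg.charDegree (χ : G → ℂ) + 1 = p) : Even t ∨ Even (commutator G).index := by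
  classical
  haveI := Fintype.ofFinite G
  haveI : Fact p.Prime := ⟨hp⟩
  by_cases hte : Even t
  · exact Or.inl hte
  right
  have hmul := sc_classes_mul hx hC
  rw [ht] at hmul
  obtain ⟨e, he_def⟩ : ∃ e, e = (Subgroup.zpowers x).relIndex
    (Subgroup.normalizer (Subgroup.zpowers x : Set G)) := ⟨_, rfl⟩
  rw [← he_def] at hmul
  by_cases hNP : Subgroup.normalizer (Subgroup.zpowers x : Set G) ≤ Subgroup.zpowers x
  · obtain ⟨K, hKn, -, hKi, hKc⟩ := sc_exists_complement hx hC hNP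
    have he1 : e = 1 := he_def.trans (Subgroup.relIndex_eq_one.mpr hNP)
    have hp2 : p = 2 := by
      rw [he1, mul_one] at hmul
      rcases hp.eq_two_or_odd' with h | h
      · exact h
      · exfalso
        apply hte
        rw [hmul]
        obtain ⟨j, hj⟩ := h
        exact ⟨j, by omega⟩
    have hd := Subgroup.index_dvd_of_le hKc
    rw [hKi, hp2] at hd
    exact even_iff_two_dvd.mpr hd
  obtain ⟨y, hyN, hgen⟩ := exists_gen hp hx hC
  have hyP : y ∉ Subgroup.zpowers x := by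
    intro hy
    apply hNP
    intro n hn
    obtain ⟨k, hk⟩ := hgen n hn
    have := Subgroup.mul_mem _ (Subgroup.zpow_mem _ hy k) hk
    simpa using this
  have hoy : orderOf y = e := (orderOf_gen hp hx hC hyN hgen hyP).trans he_def.symm
  have heven : Even e := by
    rcases hp.eq_two_or_odd' with h | h
    · exfalso
      apply hNP
      apply Subgroup.relIndex_eq_one.mp
      rw [← he_def]
      rw [h] at hmul
      exact Nat.eq_one_of_mul_eq_one_left hmul
    · have h2 : Even (t * e) := by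
        rw [hmul]
        obtain ⟨j, hj⟩ := h
        exact ⟨j, by omega⟩
      exact (Nat.even_mul.mp h2).resolve_left hte
  have he0 : 0 < e := hoy ▸ orderOf_pos y
  have he2 : 2 ≤ e := by
    obtain ⟨j, hj⟩ := heven
    omega
  obtain ⟨χ, hχirr⟩ := χ
  simp only at hχ
  have hdeg := charDegree_cast (IsIrrCharacter.isCharacter hχirr)
  have hnorm := classInner_irr hχirr hχirr
  rw [if_pos rfl] at hnorm
  obtain ⟨n, ρ, hirr, rfl⟩ := hχirr
  have hfr : Module.finrank ℂ (Fin n → ℂ) = n := by simp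
  have hn1 : ρ.character 1 = (n : ℂ) := by rw [Representation.char_one, hfr]
  have hnp : n + 1 = p := by
    rw [hn1] at hdeg
    have : charDegree ρ.character = n := by exact_mod_cast hdeg
    rw [← this]
    exact hχ
  have hnte : n = e * t := by rw [mul_comm]; omega
  -- constancy on cosets
  have hconstN : ∀ y' ∈ Subgroup.normalizer (Subgroup.zpowers x : Set G),
      y' ∉ Subgroup.zpowers x → ∀ u ∈ Subgroup.zpowers x,
      ρ.character (y' * u) = ρ.character y' := by
    intro y' hy'N hy'P u hu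
    obtain ⟨v, hv⟩ := exists_conj hp hx hC hy'N hy'P hu
    rw [← hv, Representation.char_conj]
  have hE : Subgroup.zpowers y ≤ Subgroup.normalizer (Subgroup.zpowers x : Set G) :=
    Subgroup.zpowers_le.mpr hyN
  have hEP : ∀ y' ∈ Subgroup.zpowers y, y' ≠ 1 → y' ∉ Subgroup.zpowers x :=
    fun y' h1 h2 h3 => h2 (zpowers_inf hp hx hC hyP h1 h3)
  obtain ⟨a, d, d', hatr, hadd⟩ := key_dvd ρ (Subgroup.zpowers x) (Subgroup.zpowers y) hE
    (fun y' h1 h2 u hu => hconstN y' (hE h1) (hEP y' h1 h2) u hu)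
  rw [Nat.card_zpowers, hoy, hn1] at hadd
  have hdvd : e ∣ a := by
    have h1 : ((n : ℤ) - a : ℤ) = (e : ℤ) * ((d : ℤ) - d') := by
      have : (((n : ℤ) - a : ℤ) : ℂ) = (((e : ℤ) * ((d : ℤ) - d') : ℤ) : ℂ) := by
        push_cast
        exact hadd
      exact_mod_cast this
    have h2 : (e : ℤ) ∣ (a : ℤ) := by
      refine ⟨(t : ℤ) - ((d : ℤ) - d'), ?_⟩
      have h3 : (n : ℤ) = (e : ℤ) * t := by exact_mod_cast hnte
      rw [mul_sub, ← h1, ← h3]
      ring
    exact_mod_cast h2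
  -- eigenvalues of x
  obtain ⟨ζ, hζ, hχζ⟩ := char_zpow_eq_sum ρ x
  rw [hx] at hζ
  have hχζ' : ∀ k : ℕ, ρ.character (x ^ k) = ∑ i, ζ i ^ k := by
    intro k
    have := hχζ k
    simpa using this
  have hp0 : (p : ℂ) ≠ 0 := by exact_mod_cast hp.ne_zero
  have ha_count : a = (Finset.univ.filter fun i => ζ i = 1).card := by
    have h1 := trace_rho_mul_avg ρ (Subgroup.zpowers x) 1
    rw [map_one, one_mul, hatr, Nat.card_zpowers, hx] at h1
    simp only [one_mul] at h1
    rw [sum_zpowers, hx] at h1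
    simp only [hχζ'] at h1
    rw [sum_pow_count ζ hζ, inv_mul_cancel_left₀ hp0] at h1
    exact_mod_cast h1
  have hcardι : Fintype.card (Fin (Module.finrank ℂ (Fin n → ℂ))) = n := by
    rw [Fintype.card_fin, hfr]
  obtain ⟨M, hMdef⟩ : ∃ M, M = ∑ i, (Finset.univ.filter fun j => ζ j = ζ i).card := ⟨_, rfl⟩
  have hMlow : a ^ 2 + (n - a) ≤ M := by
    have := count_lower ζ
    rw [← ha_count, hcardι, ← hMdef] at this
    exact this
  have han : a ≤ n := by
    rw [ha_count]
    exact (Finset.card_le_univ _).trans hcardι.le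
  -- the TI inequality
  have hti := ti_ineq hp hx (fun z => Complex.normSq (ρ.character z))
    (fun z => Complex.normSq_nonneg _) (fun g z => by rw [Representation.char_conj])
  have hGpos : (0 : ℝ) < (Nat.card G : ℝ) := by exact_mod_cast Nat.card_pos
  have hsumG : ∑ z : G, Complex.normSq (ρ.character z) = (Nat.card G : ℝ) := by
    unfold classInner at hnorm
    have hG0 : (Nat.card G : ℂ) ≠ 0 := by exact_mod_cast hGpos.ne'
    rw [inv_mul_eq_one₀ hG0] at hnorm
    have : ((∑ z : G, Complex.normSq (ρ.character z) : ℝ) : ℂ) = ((Nat.card G : ℝ) : ℂ) := by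
      push_cast
      rw [hnorm]
      exact Finset.sum_congr rfl fun z _ => (Complex.mul_conj _).symm
    exact_mod_cast this
  have hsum1 : ∑ z ∈ (Finset.univ : Finset G).erase 1, Complex.normSq (ρ.character z) =
      (Nat.card G : ℝ) - (n : ℝ) ^ 2 := by
    rw [← hsumG, ← Finset.add_sum_erase _ _ (Finset.mem_univ (1 : G)), hn1]
    simp [Complex.normSq_natCast, sq]
  have hsumP : ∑ k ∈ Finset.range p, Complex.normSq (ρ.character (x ^ k)) =
      (p : ℝ) * (M : ℝ) := by
    have h1 := sum_normSq_count ζ hp.ne_zero hζ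
    rw [← hMdef] at h1
    have : ((∑ k ∈ Finset.range p, Complex.normSq (ρ.character (x ^ k)) : ℝ) : ℂ) =
        (((p : ℝ) * (M : ℝ) : ℝ) : ℂ) := by
      push_cast
      rw [← h1]
      exact Finset.sum_congr rfl fun k _ => by rw [hχζ', Complex.mul_conj]
    exact_mod_cast this
  have hsumP1 : ∑ k ∈ Finset.Ico 1 p, Complex.normSq (ρ.character (x ^ k)) =
      (p : ℝ) * (M : ℝ) - (n : ℝ) ^ 2 := by
    rw [← hsumP, Finset.range_eq_Ico, Finset.sum_eq_sum_Ico_succ_bot hp.pos, pow_zero, hn1]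
    simp [Complex.normSq_natCast, sq]
  have hcardN : (Nat.card (Subgroup.normalizer (Subgroup.zpowers x : Set G)) : ℝ) =
      (e : ℝ) * p := by
    have h2 := Subgroup.relIndex_mul_relIndex ⊥ _ _ bot_le
      (Subgroup.le_normalizer (H := Subgroup.zpowers x))
    rw [Subgroup.relIndex_bot_left, Subgroup.relIndex_bot_left, ← he_def, Nat.card_zpowers,
      hx] at h2
    rw [← h2]
    push_cast
    ring
  rw [hsum1, hsumP1, hcardN] at hti
  have hnpos : 0 < n := by
    have := hp.two_le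
    rcases Nat.eq_zero_or_pos n with h | h
    · exfalso
      rw [h] at hnte
      rcases Nat.mul_eq_zero.mp hnte.symm with h' | h'
      · omega
      · apply hte; rw [h']; exact Even.zero
    · exact h
  have hlt : p * M < e * p + n ^ 2 := by
    have h1 : (p : ℝ) * M - (n : ℝ) ^ 2 < (e : ℝ) * p := by
      by_contra hcon
      push Not at hcon
      have h2 : (Nat.card G : ℝ) * ((e : ℝ) * p) ≤
          (Nat.card G : ℝ) * ((p : ℝ) * M - (n : ℝ) ^ 2) :=
        mul_le_mul_of_nonneg_left hcon hGpos.le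
      have h3 : (0 : ℝ) < (e : ℝ) * p * (n : ℝ) ^ 2 := by
        have e1 : (0 : ℝ) < e := by exact_mod_cast he0
        have e2 : (0 : ℝ) < p := by exact_mod_cast hp.pos
        have e3 : (0 : ℝ) < n := by exact_mod_cast hnpos
        positivity
      nlinarith
    have h2 : ((p * M : ℕ) : ℝ) < ((e * p + n ^ 2 : ℕ) : ℝ) := by
      push_cast
      linarith
    exact_mod_cast h2
  have ha0 : a = 0 := arith2 p e a M n hnp hMlow han hlt hdvd he2
  -- vanishing off ⟨x⟩
  have havg : avg ρ (Subgroup.zpowers x) = 0 := by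
    apply (LinearMap.IsIdempotentElem.trace_eq_zero_iff (avg_idem ρ _)).mp
    rw [hatr, ha0, Nat.cast_zero]
  have hvan : ∀ y' ∈ Subgroup.normalizer (Subgroup.zpowers x : Set G),
      y' ∉ Subgroup.zpowers x → ρ.character y' = 0 := by
    intro y' h1 h2
    have h3 := trace_rho_mul_avg ρ (Subgroup.zpowers x) y'
    rw [havg, mul_zero, map_zero, Finset.sum_congr rfl
      (fun u hu => hconstN y' h1 h2 u (mem_fs.mp hu)), Finset.sum_const, card_fs, nsmul_eq_mul,
      inv_mul_cancel_left₀ (card_ne _)] at h3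
    exact h3.symm
  -- eigenvalues of y
  obtain ⟨b, η, hη, hb⟩ := exists_eigenbasis (ρ y) e he0
    (by rw [← map_pow, ← hoy, pow_orderOf_eq_one, map_one])
  have hdiag : LinearMap.toMatrix b b (ρ y) = Matrix.diagonal η := by
    ext i j
    rw [LinearMap.toMatrix_apply, hb, map_smul, Finsupp.smul_apply, Module.Basis.repr_self,
      Matrix.diagonal_apply, Finsupp.single_apply, smul_eq_mul]
    by_cases hij : i = j
    · subst hij; simp
    · rw [if_neg (Ne.symm hij), if_neg hij, mul_zero]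
  have hpows : ∀ k : ℕ, ρ.character (y ^ k) = ∑ i, η i ^ k := by
    intro k
    show LinearMap.trace ℂ _ (ρ (y ^ k)) = _
    rw [map_pow, LinearMap.trace_eq_matrix_trace ℂ b, ← LinearMap.toMatrix_pow, hdiag,
      Matrix.diagonal_pow, Matrix.trace_diagonal]
    rfl
  have hz : ∀ k, 0 < k → k < e → ∑ i, η i ^ k = 0 := by
    intro k hk0 hke
    rw [← hpows]
    have h1 : y ^ k ∈ Subgroup.zpowers y := Subgroup.npow_mem_zpowers y k
    exact hvan _ (hE h1) (hEP _ h1 (pow_ne_one_of_lt_orderOf hk0.ne' (hoy ▸ hke)))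
  have hprod := prod_of_power_sums η heven he0 hη hz (hcardι.trans hnte)
  have hdet : LinearMap.det (ρ y) = -1 := by
    rw [← LinearMap.det_toMatrix b, hdiag, Matrix.det_diagonal, hprod,
      (Nat.not_even_iff_odd.mp hte).neg_one_pow]
  -- conclusion
  let δ : G →* ℂ := (LinearMap.det : ((Fin n → ℂ) →ₗ[ℂ] (Fin n → ℂ)) →* ℂ).comp ρ
  have hker : ∀ g ∈ commutator G, δ g = 1 := by
    intro g hg
    have h1 := commutator_le_ker_of_comm δ.toHomUnits (fun a b => mul_comm a b) hg
    rw [MonoidHom.mem_ker] at h1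
    have h2 := congrArg Units.val h1
    simpa using h2
  by_contra hodd
  have h1 := hker _ ((commutator G).pow_index_mem y)
  rw [map_pow] at h1
  have h2 : δ y = -1 := hdet
  rw [h2, (Nat.not_even_iff_odd.mp hodd).neg_one_pow] at h1
  norm_num at h1

end Cfsg.Agent.S4508
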