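import Cfsg.Statements.S4509
import Mathlib
import Cfsg.Agent.Lib.Helper23.SelfCentStruct

set_option autoImplicit false
open Cfsg

namespace Cfsg.Agent.S4509

open Cfsg.Agent.Lib.Helper23
open scoped commutatorElement

variable {G : Type*} [Group G] [Finite G] {p : ℕ} {x : G}

/-- complement count: a normal `p'`-subgroup `D` with `N ⊔ D = ⊤` has order `[G : N]`. -/
theorem index_eq_card (hp : p.Prime) (hx : orderOf x = p)
    (hC : Subgroup.centralizer ({x} : Set G) = Subgroup.zpowers x) (D : Subgroup G) [D.Normal]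
    (hD : ¬ p ∣ Nat.card D) :
    (Subgroup.normalizer (Subgroup.zpowers x : Set G)).relIndex
      (Subgroup.normalizer (Subgroup.zpowers x : Set G) ⊔ D) = Nat.card D := by
  rw [relIndex_sup_of_normal, ← Subgroup.inf_relIndex_right, sc_inf_normalizer hp hx hC D hD,
    Subgroup.relIndex_bot_left]

/-- if `D` is a normal `p'`-subgroup and `A ∋ x` is a subgroup with `[A, x] ≤ D`
then `[A : D ∩ A] = p`. -/
theorem relIndex_eq [Fact p.Prime] (hx : orderOf x = p)
    (hC : Subgroup.centralizer ({x} : Set G) = Subgroup.zpowers x) (D : Subgroup G) [D.Normal]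
    (hD : ¬ p ∣ Nat.card D) (A : Subgroup G) (hxA : x ∈ A) (hA : ∀ a ∈ A, ⁅a, x⁆ ∈ D) :
    A.map (QuotientGroup.mk' D) = Subgroup.zpowers (QuotientGroup.mk x : G ⧸ D) := by
  apply le_antisymm
  · rintro _ ⟨a, ha, rfl⟩
    rw [← sc_quot_centralizer hx hC D hD, Subgroup.mem_centralizer_singleton_iff]
    have h1 := (QuotientGroup.eq_one_iff _).2 (hA a ha)
    rw [commutatorElement_def] at h1
    simp only [QuotientGroup.mk_mul, QuotientGroup.mk_inv] at h1
    have h2 : (a : G ⧸ D) * (x : G ⧸ D) * (a : G ⧸ D)⁻¹ * (x : G ⧸ D)⁻¹ * (x : G ⧸ D) * (a : G ⧸ D)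
        = 1 * (x : G ⧸ D) * (a : G ⧸ D) := by rw [h1]
    simpa [mul_assoc] using h2
  · rw [Subgroup.zpowers_le]
    exact ⟨x, hxA, rfl⟩

theorem card_eq_mul [Fact p.Prime] (hx : orderOf x = p)
    (hC : Subgroup.centralizer ({x} : Set G) = Subgroup.zpowers x) (D : Subgroup G) [D.Normal]
    (hD : ¬ p ∣ Nat.card D) (A : Subgroup G) (hxA : x ∈ A) (hDA : D ≤ A) (hA : ∀ a ∈ A, ⁅a, x⁆ ∈ D) :
    Nat.card A = p * Nat.card D := by
  have hp : p.Prime := Fact.out
  have h1 := Subgroup.relIndex_ker (K := A) (QuotientGroup.mk' D)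
  rw [QuotientGroup.ker_mk', relIndex_eq hx hC D hD A hxA hA, Nat.card_zpowers,
    sc_quot_orderOf hp hx D hD] at h1
  have h2 := Subgroup.relIndex_mul_relIndex ⊥ D A bot_le hDA
  simp only [Subgroup.relIndex_bot_left] at h2
  rw [← h2, h1, mul_comm]

theorem le_sup_zpowers [Fact p.Prime] (hx : orderOf x = p)
    (hC : Subgroup.centralizer ({x} : Set G) = Subgroup.zpowers x) (D : Subgroup G) [D.Normal]
    (hD : ¬ p ∣ Nat.card D) (A : Subgroup G) (hxA : x ∈ A) (hA : ∀ a ∈ A, ⁅a, x⁆ ∈ D) :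
    A ≤ Subgroup.zpowers x ⊔ D := by
  intro a ha
  have h1 : (QuotientGroup.mk' D) a ∈ A.map (QuotientGroup.mk' D) := ⟨a, ha, rfl⟩
  rw [relIndex_eq hx hC D hD A hxA hA] at h1
  obtain ⟨k, hk⟩ := Subgroup.mem_zpowers_iff.1 h1
  have h2 : (x ^ k)⁻¹ * a ∈ D := by
    rw [← QuotientGroup.eq, QuotientGroup.mk_zpow]
    exact hk
  have h3 : a = x ^ k * ((x ^ k)⁻¹ * a) := by group
  rw [h3]
  exact Subgroup.mul_mem _ ((le_sup_left : Subgroup.zpowers x ≤ _) (Subgroup.zpow_mem _ (Subgroup.mem_zpowers x) k))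
    ((le_sup_right : D ≤ _) h2)

/-- the case `N(⟨x⟩) ≠ ⟨x⟩`, `G'' ≠ G'`. -/
theorem caseC [Fact p.Prime] (hx : orderOf x = p)
    (hC : Subgroup.centralizer ({x} : Set G) = Subgroup.zpowers x)
    (hN : ¬ Subgroup.normalizer (Subgroup.zpowers x : Set G) ≤ Subgroup.zpowers x)
    (hne : derivedSeries G 2 ≠ derivedSeries G 1) :
    Nat.card (derivedSeries G 2) = (Subgroup.normalizer (Subgroup.zpowers x : Set G)).index ∧
      Nat.card (commutator G) = p * Nat.card (derivedSeries G 2) := by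
  have hp : p.Prime := Fact.out
  haveI := derivedSeries_normal G 2
  have hxG := sc_mem_commutator hp hx hC hN
  have hle : derivedSeries G 2 ≤ commutator G := derivedSeries_antitone G (by norm_num : 1 ≤ 2)
  have hD : ¬ p ∣ Nat.card (derivedSeries G 2) := by
    intro hd
    apply hne
    exact le_antisymm hle (sc_commutator_le hx hC _ (sc_mem_of_dvd hx hC _ hd))
  have hA : ∀ a ∈ commutator G, ⁅a, x⁆ ∈ derivedSeries G 2 := by
    intro a ha
    exact Subgroup.commutator_mem_commutator ha hxG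
  refine ⟨?_, card_eq_mul hx hC _ hD _ hxG hle hA⟩
  have h1 := index_eq_card hp hx hC (derivedSeries G 2) hD
  have h2 : Subgroup.normalizer (Subgroup.zpowers x : Set G) ⊔ derivedSeries G 2 = ⊤ := by
    rw [eq_top_iff, ← sc_normalizer_sup hx hC (commutator G) hxG]
    apply sup_le le_sup_left
    refine (le_sup_zpowers hx hC _ hD _ hxG hA).trans ?_
    exact sup_le (Subgroup.le_normalizer.trans le_sup_left) le_sup_right
  rw [h2, Subgroup.relIndex_top_right] at h1
  exact h1.symm

/-- existence of a normal subgroup of order `[G : N]` forces `G'' ≠ G'` when `N ≠ ⟨x⟩`. -/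
theorem caseA [Fact p.Prime] (hx : orderOf x = p)
    (hC : Subgroup.centralizer ({x} : Set G) = Subgroup.zpowers x)
    (hN : ¬ Subgroup.normalizer (Subgroup.zpowers x : Set G) ≤ Subgroup.zpowers x)
    (S : Subgroup G) [hSn : S.Normal] (hS : ¬ p ∣ Nat.card S)
    (hcard : Nat.card S = (Subgroup.normalizer (Subgroup.zpowers x : Set G)).index) :
    derivedSeries G 2 ≠ derivedSeries G 1 := by
  have hp : p.Prime := Fact.out
  have hxG := sc_mem_commutator hp hx hC hN
  set N := Subgroup.normalizer (Subgroup.zpowers x : Set G) with hNdef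
  have h1 := index_eq_card hp hx hC S hS
  have h2 := Subgroup.relIndex_mul_index (le_sup_left : N ≤ N ⊔ S)
  rw [h1, hcard] at h2
  have hpos : 0 < N.index := Nat.pos_of_ne_zero Subgroup.index_ne_zero_of_finite
  have h3 : (N ⊔ S).index = 1 := Nat.eq_of_mul_eq_mul_left hpos (by rw [h2, mul_one])
  have htop : N ⊔ S = ⊤ := Subgroup.index_eq_one.1 h3
  -- G' ≤ ⟨x⟩ S
  have hG' : ∀ a ∈ commutator G, (a : G ⧸ S) ∈ Subgroup.zpowers (x : G ⧸ S) := by
    have : commutator G ≤ (Subgroup.zpowers (x : G ⧸ S)).comap (QuotientGroup.mk' S) := by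
      rw [commutator_def, Subgroup.commutator_le]
      intro g₁ _ g₂ _
      have hg₁ : g₁ ∈ N ⊔ S := htop ▸ Subgroup.mem_top g₁
      have hg₂ : g₂ ∈ N ⊔ S := htop ▸ Subgroup.mem_top g₂
      obtain ⟨n₁, hn₁, s₁, hs₁, rfl⟩ := Subgroup.mem_sup_of_normal_right.1 hg₁
      obtain ⟨n₂, hn₂, s₂, hs₂, rfl⟩ := Subgroup.mem_sup_of_normal_right.1 hg₂
      rw [Subgroup.mem_comap, commutatorElement_def]
      have e1 : (QuotientGroup.mk' S) (n₁ * s₁) = (QuotientGroup.mk' S) n₁ := by
        rw [map_mul, show (QuotientGroup.mk' S) s₁ = 1 from (QuotientGroup.eq_one_iff s₁).2 hs₁, mul_one]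
      have e2 : (QuotientGroup.mk' S) (n₂ * s₂) = (QuotientGroup.mk' S) n₂ := by
        rw [map_mul, show (QuotientGroup.mk' S) s₂ = 1 from (QuotientGroup.eq_one_iff s₂).2 hs₂, mul_one]
      rw [map_mul, map_mul, map_mul, map_inv, map_inv, e1, e2, ← map_inv, ← map_inv, ← map_mul,
        ← map_mul, ← map_mul]
      obtain ⟨k, hk⟩ := Subgroup.mem_zpowers_iff.1 (sc_normalizer_comm hp hx hC n₁ n₂ hn₁ hn₂)
      rw [← hk, map_zpow]
      exact Subgroup.zpow_mem _ (Subgroup.mem_zpowers _) k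
    intro a ha
    exact this ha
  have hG'' : derivedSeries G 2 ≤ S := by
    rw [derivedSeries_succ, derivedSeries_one, Subgroup.commutator_le]
    intro a ha b hb
    obtain ⟨i, hi⟩ := Subgroup.mem_zpowers_iff.1 (hG' a ha)
    obtain ⟨j, hj⟩ := Subgroup.mem_zpowers_iff.1 (hG' b hb)
    rw [← QuotientGroup.eq_one_iff, commutatorElement_def]
    simp only [QuotientGroup.mk_mul, QuotientGroup.mk_inv]
    rw [← hi, ← hj]
    group
  intro heq
  apply sc_not_mem_of_not_dvd hx S hS
  apply hG''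
  rw [heq]
  exact hxG

/-- Let the finite group G contain an element x of prime order p with C_G(x) = ⟨x⟩; let t be the number of conjugacy classes of elements of order p and 1 + n·p the number of subgroups of order p. Then G has a normal subgroup of order 1 + n·p if and only if either t = p − 1, or t < p − 1 and G″ ≠ G′. Moreover, if t = p − 1 then G′ has order 1 + n·p and G/G′ is cyclic of order p; and if t < p − 1 and G″ ≠ G′ then G″ has order 1 + n·p and G′ has order p·(1 + n·p). -/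
theorem result {G : Type*} [Group G] [Finite G] (p : ℕ) (hp : p.Prime) (x : G) (hx : orderOf x = p) (hC : Subgroup.centralizer ({x} : Set G) = Subgroup.zpowers x) (t : ℕ) (ht : Nat.card {C : ConjClasses G // ∃ g ∈ C.carrier, orderOf g = p} = t) (n : ℕ) (hn : Nat.card {H : Subgroup G // Nat.card H = p} = 1 + n * p) : ((∃ S : Subgroup G, S.Normal ∧ Nat.card S = 1 + n * p) ↔ (t = p - 1 ∨ (t < p - 1 ∧ derivedSeries G 2 ≠ derivedSeries G 1))) ∧ (t = p - 1 → Nat.card (commutator G) = 1 + n * p ∧ IsCyclic (G ⧸ commutator G) ∧ (commutator G).index = p) ∧ (t < p - 1 → derivedSeries G 2 ≠ derivedSeries G 1 → Nat.card (derivedSeries G 2) = 1 + n * p ∧ Nat.card (commutator G) = p * (1 + n * p)) := by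
  haveI : Fact p.Prime := ⟨hp⟩
  have hmul := sc_classes_mul hx hC
  have hiff := sc_classes_eq_iff hx hC
  rw [ht] at hmul hiff
  have hν : (Subgroup.normalizer (Subgroup.zpowers x : Set G)).index = 1 + n * p := by
    rw [← hn, sc_card_subgroups hx hC, sc_card_sylow_eq_index hx hC]
  have hp1 : 0 < p - 1 := by have := hp.one_lt; omega
  have htle : t ≤ p - 1 := by
    rw [← hmul]
    apply Nat.le_mul_of_pos_right
    rcases Nat.eq_zero_or_pos ((Subgroup.zpowers x).relIndex (Subgroup.normalizer (Subgroup.zpowers x : Set G))) with h | h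
    · rw [h, mul_zero] at hmul; omega
    · exact h
  have hB : t = p - 1 → Nat.card (commutator G) = 1 + n * p ∧ IsCyclic (G ⧸ commutator G) ∧ (commutator G).index = p := by
    intro h
    obtain ⟨K, _, hK, _, hle⟩ := sc_exists_complement hx hC (hiff.1 h)
    have hidx : (commutator G).index = p := by
      apply sc_index_of_not_dvd hx hC
      intro hd
      exact hK (hd.trans (Subgroup.card_dvd_of_le hle))
    refine ⟨?_, ?_, hidx⟩
    · have hNeq : Subgroup.normalizer (Subgroup.zpowers x : Set G) = Subgroup.zpowers x :=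
        le_antisymm (hiff.1 h) Subgroup.le_normalizer
      rw [hNeq] at hν
      have h1 := Subgroup.card_mul_index (commutator G)
      have h2 := Subgroup.card_mul_index (Subgroup.zpowers x)
      rw [hidx] at h1
      rw [Nat.card_zpowers, hx, hν] at h2
      have h3 : Nat.card (commutator G) * p = (1 + n * p) * p := by rw [h1, ← h2, mul_comm]
      exact Nat.eq_of_mul_eq_mul_right hp.pos h3
    · apply isCyclic_of_prime_card (p := p)
      rw [← Subgroup.index_eq_card, hidx]
  have hCc : t < p - 1 → derivedSeries G 2 ≠ derivedSeries G 1 → Nat.card (derivedSeries G 2) = 1 + n * p ∧ Nat.card (commutator G) = p * (1 + n * p) := by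
    intro h hne
    obtain ⟨h1, h2⟩ := caseC hx hC (fun h' => h.ne (hiff.2 h')) hne
    rw [hν] at h1
    rw [h1] at h2
    exact ⟨h1, h2⟩
  refine ⟨⟨?_, ?_⟩, hB, hCc⟩
  · rintro ⟨S, hSn, hS⟩
    by_cases h : t = p - 1
    · exact Or.inl h
    · right
      refine ⟨lt_of_le_of_ne htle h, ?_⟩
      haveI := hSn
      apply caseA hx hC (fun h' => h (hiff.2 h')) S
      · rw [hS]
        intro hd
        have : p ∣ 1 := (Nat.dvd_add_left (Dvd.intro_left n rfl)).1 hd
        exact hp.one_lt.ne' (Nat.dvd_one.1 this)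
      · rw [hS, hν]
  · rintro (h | ⟨h, hne⟩)
    · exact ⟨commutator G, inferInstance, (hB h).1⟩
    · exact ⟨derivedSeries G 2, derivedSeries_normal G 2, (hCc h hne).1⟩

end Cfsg.Agent.S4509
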