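import Mathlib
import Cfsg.Statements.S4510
import Cfsg.Agent.Lib.Helper6.MinMax

set_option autoImplicit false
open Cfsg
open Cfsg.Agent.Lib.Helper6 Cfsg.Agent.Lib.Helper2
open scoped ComplexConjugate Classical

attribute [local instance] irrFintype

namespace Cfsg.Agent.S4510

/-- Let G be a finite group, p a prime, M a maximal ideal of the algebraic integers containing p, and call the defect of a conjugacy class the exponent of p in the order of the centralizer of its elements. Two irreducible characters lying in p-blocks of defect exactly d lie in the same block if and only if their central characters (class size times χ(x)/χ(1)) agree modulo the local ideal at M at every p-regular element x whose class has defect exactly d. -/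
theorem result {G : Type*} [Group G] [Finite G] (p : ℕ) [Fact p.Prime] (M : Ideal Cfsg.AlgInt) (hM : Cfsg.IsPModular p M) (d : ℕ) (χ ψ : Cfsg.IrrCharacter G) (hχ : Cfsg.blockDefect p (Cfsg.blockOf M (χ : G → ℂ)) = d) (hψ : Cfsg.blockDefect p (Cfsg.blockOf M (ψ : G → ℂ)) = d) : Cfsg.SameBlock M (χ : G → ℂ) (ψ : G → ℂ) ↔ ∀ x : G, ¬ p ∣ orderOf x → (Nat.card (Subgroup.centralizer ({x} : Set G))).factorization p = d → Cfsg.MemLocalIdeal M (Cfsg.centralChar (χ : G → ℂ) x - Cfsg.centralChar (ψ : G → ℂ) x) := by
  let _ := Fintype.ofFinite G
  have := IsPModular.isPrime hM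
  constructor
  · intro h x _ _
    exact h x
  · intro h
    set B := blockOf M (χ : G → ℂ) with hBdef
    have hB : IsPBlock M B := ⟨χ, rfl⟩
    have hB' : IsPBlock M (blockOf M (ψ : G → ℂ)) := ⟨ψ, rfl⟩
    have hχB : χ ∈ B := mem_blockOf_self χ
    have hS := IsPBlock.indicator_mem_ZS hB
    have h1 := om_coef (B.indicator 1) χ
    have h2 := om_coef (B.indicator 1) ψ
    rw [om_eq_sum_classes (irr_isClassFunction χ.2) (isClassFunction_coef _),
      Set.indicator_of_mem hχB, Pi.one_apply] at h1
    rw [om_eq_sum_classes (irr_isClassFunction ψ.2) (isClassFunction_coef _)] at h2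
    have h3 : MemLocalIdeal M ((1 : ℂ) - B.indicator 1 ψ) := by
      rw [← h1, ← h2, ← Finset.sum_sub_distrib]
      refine MemLocalIdeal.sum _ fun C _ => ?_
      rw [← mul_sub]
      set g := Quotient.out C with hg
      by_cases hreg : p ∣ orderOf g
      · rw [coef_indicator_eq_zero hM hB hreg, zero_mul]
        exact memLocalIdeal_zero
      · rcases lt_trichotomy ((Nat.card (cen g)).factorization p) d with hlt | heq | hgt
        · refine MemLocalIdeal.mul_left (hS g) (MemLocalIdeal.sub ?_ ?_)
          · by_contra hc
            have := blockDefect_le_of_centralChar_unit hM hB hχB hc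
            omega
          · by_contra hc
            have := blockDefect_le_of_centralChar_unit hM hB' (mem_blockOf_self ψ) hc
            omega
        · exact MemLocalIdeal.mul_left (hS g) (h g hreg heq)
        · refine MemLocalIdeal.mul_right ?_ (MemLocalRing.sub (centralChar_memLocalRing χ.2 g)
            (centralChar_memLocalRing ψ.2 g))
          by_contra hc
          have := factorization_cen_le_of_coef_unit hM hB hc
          omega
    by_contra hne
    have hψB : ψ ∉ B := hne
    rw [Set.indicator_of_notMem hψB, sub_zero] at h3
    exact not_memLocalIdeal_one h3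

end Cfsg.Agent.S4510
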