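import Mathlib
import Cfsg.Statements.S4511
import Cfsg.Agent.Lib.Helper6.Subsection3

set_option autoImplicit false
open Cfsg
open Cfsg.Agent.Lib.Helper6 Cfsg.Agent.Lib.Helper2
open scoped ComplexConjugate Classical

attribute [local instance] irrFintype

namespace Cfsg.Agent.S4511

/-- Brauer's count of the irreducible characters in a block by subsections. Let M be a maximal ideal of the algebraic integers containing the prime p, B a p-block of the finite group G, and X a set of representatives of the conjugacy classes of p-elements of G (elements of p-power order, the identity included: every p-element is conjugate to exactly one member of X). Then the number of irreducible characters in B is the sum, over x ∈ X and over the blocks b of C_G(x) that induce B, of the p-regular rank of b (the number of irreducible Brauer characters of b, here the dimension of the span of the restrictions of the members of b to the p-regular elements of C_G(x)). -/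
theorem result {G : Type*} [Group G] [Finite G] (p : ℕ) (M : Ideal Cfsg.AlgInt) (hM : Cfsg.IsPModular p M)
    (B : Set (Cfsg.IrrCharacter G)) (hB : Cfsg.IsPBlock M B) (X : Finset G)
    (hX : ∀ x ∈ X, ∃ k : ℕ, orderOf x = p ^ k)
    (hXrep : ∀ g : G, (∃ k : ℕ, orderOf g = p ^ k) → ∃! x, x ∈ X ∧ IsConj g x) :
    Nat.card B = ∑ x ∈ X, ∑ᶠ b ∈ {b : Set (Cfsg.IrrCharacter ↥(Subgroup.centralizer ({x} : Set G))) | Cfsg.IsInducedBlock M (Subgroup.centralizer ({x} : Set G)) b B},
      Cfsg.blockRank p b := by
  let _ := Fintype.ofFinite G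
  have : Fact p.Prime := ⟨hM.1⟩
  have := IsPModular.isPrime hM
  have hp : p.Prime := hM.1
  have h1 : ∀ χ : IrrCharacter G, (1 : ℂ) = ∑ x ∈ X,
      classInner (regPart p (tw (cenElt x) (χ : G → ℂ))) (tw (cenElt x) (χ : G → ℂ)) := by
    intro χ
    have hsum : (χ : G → ℂ) = ∑ x ∈ X, lift (cenElt x) (regPart p (tw (cenElt x) (χ : G → ℂ))) := by
      ext g
      rw [Finset.sum_apply]
      obtain ⟨z, hz⟩ := exists_isPPart hp g
      have hzk : ∃ k : ℕ, orderOf z = p ^ k := by
        obtain ⟨y, _, _, hzk, _⟩ := hz
        exact hzk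
      obtain ⟨x₀, ⟨hx₀X, hx₀c⟩, huniq⟩ := hXrep z hzk
      rw [Finset.sum_eq_single x₀]
      · exact (lift_regPart_tw hp (isCenOf_cenElt (hX x₀ hx₀X)) (irr_isClassFunction χ.2) hz
          hx₀c).symm
      · intro x hxX hne
        exact lift_eq_zero hp (isCenOf_cenElt (hX x hxX)) (fun c hc => regPart_of_dvd _ hc) hz
          (fun hc => hne (huniq x ⟨hxX, hc⟩))
      · intro h
        exact absurd hx₀X h
    have h2 : classInner (χ : G → ℂ) (χ : G → ℂ) = 1 := by
      rw [classInner_irr χ.2 χ.2, if_pos rfl]
    have h3 := congrArg (fun F => classInner F (χ : G → ℂ)) hsum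
    rw [h2, classInner_sum_left] at h3
    rw [h3]
    exact Finset.sum_congr rfl fun x _ => classInner_lift _ _ (irr_isClassFunction χ.2)
  apply Nat.cast_injective (R := ℂ)
  have hcard : (Nat.card B : ℂ) = ∑ χ : IrrCharacter G, B.indicator 1 χ := by
    rw [Nat.card_eq_fintype_card, Fintype.card_subtype, Finset.card_filter]
    push_cast
    refine Finset.sum_congr rfl fun χ _ => ?_
    by_cases h : χ ∈ B
    · rw [if_pos h, Set.indicator_of_mem h, Pi.one_apply]
    · rw [if_neg h, Set.indicator_of_notMem h]
  rw [hcard, Nat.cast_sum]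
  calc ∑ χ : IrrCharacter G, B.indicator (1 : IrrCharacter G → ℂ) χ
      = ∑ χ : IrrCharacter G, ∑ x ∈ X, B.indicator 1 χ *
          classInner (regPart p (tw (cenElt x) (χ : G → ℂ))) (tw (cenElt x) (χ : G → ℂ)) := by
        refine Finset.sum_congr rfl fun χ _ => ?_
        rw [← Finset.mul_sum, ← h1 χ, mul_one]
    _ = ∑ x ∈ X, ∑ χ : IrrCharacter G, B.indicator 1 χ *
          classInner (regPart p (tw (cenElt x) (χ : G → ℂ))) (tw (cenElt x) (χ : G → ℂ)) :=
        Finset.sum_comm
    _ = _ := by
        refine Finset.sum_congr rfl fun x hx => ?_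
        rw [sum_block_section hM (isCenOf_cenElt (hX x hx))
          (fun b hb => inducedBlockDefined_cen hM (hX x hx) hb) hB]
        have hset : {b : Set (IrrCharacter ↥(Subgroup.centralizer ({x} : Set G))) |
            IsInducedBlock M (Subgroup.centralizer ({x} : Set G)) b B} =
            ↑((blocksFinset M (cen x)).filter (fun b => IsInducedBlock M (cen x) b B)) := by
          ext b
          simp only [Set.mem_ofPred_eq, Finset.coe_filter, mem_blocksFinset]
          exact ⟨fun h => ⟨h.1, h⟩, fun h => h.2⟩
        rw [hset, finsum_mem_coe_finset, Nat.cast_sum]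

end Cfsg.Agent.S4511
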