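import Mathlib
import Cfsg.Statements.S4512
import Cfsg.Agent.S0948
import Cfsg.Agent.Lib.Helper6.KleinBlock2
import Cfsg.Agent.Lib.Helper24.BlockRank

set_option autoImplicit false
open Cfsg
open Cfsg.Agent.Lib.Helper6 Cfsg.Agent.Lib.Helper2
open scoped ComplexConjugate Classical

attribute [local instance] irrFintype

namespace Cfsg.Agent.S4512

/-- If G is a finite group with a Sylow 2-subgroup that is a Klein four-group and a single conjugacy class of involutions, then its principal 2-block (relative to a maximal ideal M of the algebraic integers containing 2) has 2-regular rank 3: the restrictions of its irreducible characters to the elements of odd order span a space of dimension 3 (it has three irreducible Brauer characters). -/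
theorem result {G : Type*} [Group G] [Finite G] (M : Ideal Cfsg.AlgInt) (hM : Cfsg.IsPModular 2 M) (P : Sylow 2 G)
    (hP : Nat.card P = 4) (hexp : ∀ x : P, x * x = 1)
    (hone : ∀ s t : G, orderOf s = 2 → orderOf t = 2 → IsConj s t) :
    Cfsg.blockRank 2 (Cfsg.principalBlock M G) = 3 := by
  let _ := Fintype.ofFinite G
  have hp : (2 : ℕ).Prime := Nat.prime_two
  have := IsPModular.isPrime hM
  have hK : IsKleinFour (P : Subgroup G) := by
    refine ⟨hP, ?_⟩
    have h1 : Monoid.exponent (P : Subgroup G) ∣ 2 := by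
      apply Monoid.exponent_dvd_of_forall_pow_eq_one
      intro x
      rw [pow_two]; exact hexp x
    rcases (Nat.dvd_prime hp).mp h1 with h | h
    · exfalso
      have h2 : Subsingleton (P : Subgroup G) := Monoid.exp_eq_one_iff.mp h
      have h3 : Nat.card (P : Subgroup G) = 1 := Nat.card_eq_one_iff_unique.mpr ⟨h2, ⟨1⟩⟩
      have h4 : Nat.card (P : Subgroup G) = 4 := hP
      omega
    · exact h
  obtain ⟨ζ₂, ζ₃, ζ₄, ε, hε, h2, h3, h23, h24, h34, hB0, hval, -, -, -, hrel⟩ :=
    Cfsg.Agent.S0948.result M hM P hK hone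
  let triv : IrrCharacter G := ⟨fun _ => 1, isIrrCharacter_one⟩
  have hB : IsPBlock M (principalBlock M G) := isPBlock_principalBlock
  have ht2 : triv ≠ ζ₂ := fun h => h2 (by rw [← h])
  have ht3 : triv ≠ ζ₃ := fun h => h3 (by rw [← h])
  obtain ⟨z, w, hz, hw, hz1, hw1, hzw⟩ := klein_exists P hK
  have hzo : orderOf z = 2 := klein_orderOf P hK hz hz1
  have ht4 : triv ≠ ζ₄ := by
    intro h
    have h5 := (hval z hzo).2.2
    rw [← h] at h5
    simp only [triv] at h5
    norm_num at h5
  have hS : Finset.univ.filter (· ∈ principalBlock M G) = {triv, ζ₂, ζ₃, ζ₄} := by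
    ext χ
    simp only [Finset.mem_filter, Finset.mem_univ, true_and, Finset.mem_insert,
      Finset.mem_singleton, hB0, Set.mem_ofPred_eq]
    constructor
    · rintro (h | h | h | h)
      · left; exact Subtype.ext h
      · right; left; exact h
      · right; right; left; exact h
      · right; right; right; exact h
    · rintro (h | h | h | h)
      · left; rw [h]
      · right; left; exact h
      · right; right; left; exact h
      · right; right; right; exact h
  have hmem : ∀ χ ∈ ({triv, ζ₂, ζ₃, ζ₄} : Finset (IrrCharacter G)), χ ∈ principalBlock M G := by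
    intro χ hχ
    rw [← hS] at hχ
    simpa using hχ
  have hεsq : (ε : ℂ) * (ε : ℂ) = 1 := by
    rcases hε with h | h <;> rw [h] <;> norm_num
  -- values at singular elements
  have hv2 : ∀ x : G, 2 ∣ orderOf x → (ζ₂ : G → ℂ) x = 1 := by
    intro x hx
    obtain ⟨u, hu, he⟩ := klein_value_singular hM P hK (hmem ζ₂ (by simp)) hx
    rw [he, (hval u hu).1]
  have hv3 : ∀ x : G, 2 ∣ orderOf x → (ζ₃ : G → ℂ) x = ε := by
    intro x hx
    obtain ⟨u, hu, he⟩ := klein_value_singular hM P hK (hmem ζ₃ (by simp)) hx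
    rw [he, (hval u hu).2.1]
  have hv4 : ∀ x : G, 2 ∣ orderOf x → (ζ₄ : G → ℂ) x = -1 := by
    intro x hx
    obtain ⟨u, hu, he⟩ := klein_value_singular hM P hK (hmem ζ₄ (by simp)) hx
    rw [he, (hval u hu).2.2]
  set sing : ℂ := ∑ x : G, (if 2 ∣ orderOf x then (1 : ℂ) else 0) with hsing
  have hG0 : (Nat.card G : ℂ) ≠ 0 := by exact_mod_cast (Nat.card_pos (α := G)).ne'
  have hsum0 : ∀ χ : IrrCharacter G, triv ≠ χ → ∑ x : G, (χ : G → ℂ) x = 0 := by
    intro χ hχ
    have h5 := classInner_irr χ.2 triv.2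
    rw [if_neg (fun h => hχ (Subtype.ext h.symm)), classInner] at h5
    have h6 := (mul_eq_zero.mp h5).resolve_left (inv_ne_zero hG0)
    simpa [triv] using h6
  have h4sing : 4 * sing = (Nat.card G : ℂ) := by
    have h5 : ∑ x : G, (1 + (ζ₂ : G → ℂ) x + (ε : ℂ) * (ζ₃ : G → ℂ) x - (ζ₄ : G → ℂ) x) =
        (Nat.card G : ℂ) := by
      rw [Finset.sum_sub_distrib, Finset.sum_add_distrib, Finset.sum_add_distrib,
        ← Finset.mul_sum, hsum0 ζ₂ ht2, hsum0 ζ₃ ht3, hsum0 ζ₄ ht4]
      simp [Nat.card_eq_fintype_card]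
    rw [← h5, hsing, Finset.mul_sum]
    refine Finset.sum_congr rfl fun x _ => ?_
    by_cases hx : 2 ∣ orderOf x
    · rw [if_pos hx, hv2 x hx, hv3 x hx, hv4 x hx, hεsq]; norm_num
    · rw [if_neg hx, hrel x (Nat.odd_iff.mpr (by omega)), mul_zero]
  have hinner : ∀ χ ∈ ({triv, ζ₂, ζ₃, ζ₄} : Finset (IrrCharacter G)),
      classInner (pRegularPart 2 (χ : G → ℂ)) (χ : G → ℂ) = 3 / 4 := by
    intro χ hχ
    have hone' : ∀ x : G, 2 ∣ orderOf x → (χ : G → ℂ) x * conj ((χ : G → ℂ) x) = 1 := by
      intro x hx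
      simp only [Finset.mem_insert, Finset.mem_singleton] at hχ
      rcases hχ with rfl | rfl | rfl | rfl
      · simp [triv]
      · rw [hv2 x hx]; simp
      · rw [hv3 x hx, map_intCast, hεsq]
      · rw [hv4 x hx]; simp
    have h5 := Cfsg.Agent.Lib.Helper24.sum_mul_conj_self χ.2
    have h6 : ∑ x : G, pRegularPart 2 (χ : G → ℂ) x * conj ((χ : G → ℂ) x) =
        (Nat.card G : ℂ) - sing := by
      rw [← h5, hsing, ← Finset.sum_sub_distrib]
      refine Finset.sum_congr rfl fun x _ => ?_
      by_cases hx : 2 ∣ orderOf x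
      · rw [Cfsg.Agent.Lib.Helper24.pRegularPart_of_sing _ hx, if_pos hx, hone' x hx]; ring
      · rw [Cfsg.Agent.Lib.Helper24.pRegularPart_of_reg _ hx, if_neg hx, sub_zero]
    rw [classInner, h6, ← h4sing]
    have hs0 : sing ≠ 0 := by
      intro h
      rw [h, mul_zero] at h4sing
      exact hG0 h4sing.symm
    field_simp
    ring
  have hrank := Cfsg.Agent.Lib.Helper24.blockRank_eq_sum hM hB
  rw [hS, Finset.sum_congr rfl hinner, Finset.sum_const] at hrank
  have hcard : ({triv, ζ₂, ζ₃, ζ₄} : Finset (IrrCharacter G)).card = 4 := by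
    rw [Finset.card_insert_of_notMem, Finset.card_insert_of_notMem, Finset.card_insert_of_notMem,
      Finset.card_singleton]
    · simpa using h34
    · simp only [Finset.mem_insert, Finset.mem_singleton]
      rintro (h | h)
      · exact h23 h
      · exact h24 h
    · simp only [Finset.mem_insert, Finset.mem_singleton]
      rintro (h | h | h)
      · exact ht2 h
      · exact ht3 h
      · exact ht4 h
  rw [hcard] at hrank
  have : ((blockRank 2 (principalBlock M G) : ℕ) : ℂ) = ((3 : ℕ) : ℂ) := by
    rw [hrank]; norm_num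
  exact_mod_cast this

end Cfsg.Agent.S4512
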