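import Cfsg.Statements.S4513
import Mathlib
import Cfsg.Agent.Lib.Helper23.DefectOne
import Cfsg.Agent.Lib.Helper6.Subsection3
import Cfsg.Agent.Lib.Helper6.FirstMain2
import Cfsg.Agent.Lib.Helper6.DefectOrder
import Cfsg.Agent.S0912

set_option autoImplicit false
open Cfsg

namespace Cfsg.Agent.S4513

open Cfsg.Agent.Lib.Helper2 Cfsg.Agent.Lib.Helper6 Cfsg.Agent.Lib.Helper23.DefectOne
open scoped ComplexConjugate Classical
attribute [local instance] irrFintype

theorem mem_zpowers_two {G : Type*} [Group G] {x y : G} (hx : orderOf x = 2)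
    (hy : y ∈ Subgroup.zpowers x) : y = 1 ∨ y = x := by
  obtain ⟨k, rfl⟩ := Subgroup.mem_zpowers_iff.mp hy
  rw [← zpow_mod_orderOf, hx]
  rcases Int.emod_two_eq_zero_or_one k with h | h
  · left; simp [h]
  · right; simp [h]

theorem comm_of_mem_nor {G : Type*} [Group G] {x h : G} (hx : orderOf x = 2)
    (hh : h ∈ Subgroup.normalizer ((Subgroup.zpowers x : Subgroup G) : Set G)) : h * x = x * h := by
  have h1 : h * x * h⁻¹ ∈ Subgroup.zpowers x :=
    (Subgroup.mem_normalizer_iff.mp hh x).mp (Subgroup.mem_zpowers x)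
  rcases mem_zpowers_two hx h1 with h2 | h2
  · exfalso
    have h3 : x = 1 := by
      have : x = h⁻¹ * (h * x * h⁻¹) * h := by group
      rw [this, h2]; group
    rw [h3, orderOf_one] at hx
    norm_num at hx
  · calc h * x = (h * x * h⁻¹) * h := by group
      _ = x * h := by rw [h2]

theorem cen_eq_nor {G : Type*} [Group G] {x : G} (hx : orderOf x = 2) :
    Subgroup.centralizer ({x} : Set G) =
      Subgroup.normalizer ((Subgroup.zpowers x : Subgroup G) : Set G) := by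
  apply le_antisymm
  · intro c hc
    have hcx : Commute c x := Subgroup.mem_centralizer_singleton_iff.mp hc
    rw [Subgroup.mem_normalizer_iff]
    intro u
    constructor
    · intro hu
      obtain ⟨n, rfl⟩ := Subgroup.mem_zpowers_iff.mp hu
      have : c * x ^ n * c⁻¹ = x ^ n := by
        rw [(hcx.zpow_right n).eq]; group
      rw [this]; exact hu
    · intro hu
      obtain ⟨n, hn⟩ := Subgroup.mem_zpowers_iff.mp hu
      have : u = x ^ n := by
        have h1 : u = c⁻¹ * (c * u * c⁻¹) * c := by group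
        rw [h1, ← hn, mul_assoc, ← (hcx.zpow_right n).eq]; group
      rw [this]; exact Subgroup.zpow_mem_zpowers x n
  · intro h hh
    exact Subgroup.mem_centralizer_singleton_iff.mpr (comm_of_mem_nor hx hh)

theorem sum_indicator_pair {ι : Type*} [Fintype ι] {a b : ι} (hab : a ≠ b) (F : ι → ℂ) :
    ∑ ξ : ι, ({a, b} : Set ι).indicator 1 ξ * F ξ = F a + F b := by
  rw [← Finset.sum_subset (Finset.subset_univ {a, b}), Finset.sum_pair hab]
  · rw [Set.indicator_of_mem (by simp), Set.indicator_of_mem (by simp)]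
    simp
  · intro ξ _ hξ
    rw [Set.indicator_of_notMem, zero_mul]
    simpa using hξ

theorem aux {G : Type*} [Group G] [Fintype G] (M : Ideal Cfsg.AlgInt) (hM : Cfsg.IsPModular 2 M)
    (x : G) (hx : orderOf x = 2)
    (B : Set (Cfsg.IrrCharacter G)) (hB : Cfsg.IsPBlock M B)
    (D : Subgroup G) (hDdef : D = Subgroup.zpowers x)
    (hBD : Cfsg.IsDefectGroup 2 M B D)
    (C : Subgroup G) (hC : C = nor D)
    (b : Set (Cfsg.IrrCharacter C)) (hb : Cfsg.IsInducedBlock M C b B)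
    (θ : Cfsg.IrrCharacter C) (hθ : θ ∈ b)
    (hθx : ∀ z : C, (z : G) = x → (θ : C → ℂ) z = (θ : C → ℂ) 1) :
    Nat.card B = 2 ∧ (∀ χ ∈ B, ∀ ψ ∈ B, ∀ g : G, ¬ 2 ∣ orderOf g → (χ : G → ℂ) g = (ψ : G → ℂ) g) ∧
      ∃ χ₁ ∈ B, ∃ χ₂ ∈ B, χ₁ ≠ χ₂ ∧ ∃ ε₁ ε₂ : ℤ, (ε₁ = 1 ∨ ε₁ = -1) ∧ (ε₂ = 1 ∨ ε₂ = -1) ∧
        ε₁ * ε₂ = -1 ∧ ∀ y : C, ¬ 2 ∣ orderOf y →
          (χ₁ : G → ℂ) (x * y) = (ε₁ : ℂ) * (θ : C → ℂ) y ∧
          (χ₂ : G → ℂ) (x * y) = (ε₂ : ℂ) * (θ : C → ℂ) y := by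
  subst hC
  haveI : Fact (Nat.Prime 2) := ⟨Nat.prime_two⟩
  have := IsPModular.isPrime hM
  letI : Fintype (nor D) := Fintype.ofFinite _
  have hcardD : Nat.card D = 2 := by rw [hDdef, Nat.card_zpowers, hx]
  have hDp : IsPGroup 2 D := IsPGroup.of_card (n := 1) (by rw [hcardD]; norm_num)
  have hd : Cfsg.blockDefect 2 B = 1 := by
    have h1 := IsDefectGroup.card_eq hM hB hBD
    rw [hcardD] at h1
    exact (Nat.pow_right_injective (le_refl 2) (by simpa using h1.symm))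
  obtain ⟨χ₁, χ₂, hne, hBeq, hreg, hsing⟩ := two_block_defect_one hM hB hd
  have hχ₁ : χ₁ ∈ B := by rw [hBeq]; simp
  have hχ₂ : χ₂ ∈ B := by rw [hBeq]; simp
  have hxD : x ∈ D := by rw [hDdef]; exact Subgroup.mem_zpowers x
  have hnorD : nor D = Subgroup.normalizer ((Subgroup.zpowers x : Subgroup G) : Set G) := by
    rw [hDdef]
  let xh : nor D := ⟨x, le_nor D hxD⟩
  have hcen : IsCenOf 2 xh :=
    { pow := ⟨1, by show orderOf x = 2 ^ 1; rw [hx]; norm_num⟩
      comm := fun h => Subtype.ext (comm_of_mem_nor hx (hnorD ▸ h.2))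
      le := by
        show Subgroup.centralizer ({x} : Set G) ≤ nor D
        rw [hnorD]
        exact (cen_eq_nor hx).le }
  -- the defect group of `b`
  obtain ⟨Db, hDb⟩ := exists_isDefectGroup hM hb.1
  obtain ⟨E, hE, hle⟩ := exists_isDefectGroup_ge_of_induced hM (nor D) hb hDb
  have hcardE : Nat.card E = 2 := by rw [IsDefectGroup.card_eq hM hB hE, hd]; norm_num
  have hn : (D.subgroupOf (nor D)).Normal :=
    (Subgroup.normal_subgroupOf_iff_le_normalizer (le_nor D)).mpr le_rfl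
  have hp' : IsPGroup 2 (D.subgroupOf (nor D)) :=
    hDp.of_equiv (Subgroup.subgroupOfEquivOfLe (le_nor D)).symm
  have h1 : D.subgroupOf (nor D) ≤ Db :=
    (le_sSup (show D.subgroupOf (nor D) ∈ {N : Subgroup (nor D) | N.Normal ∧ IsPGroup 2 N} from
      ⟨hn, hp'⟩)).trans (Cfsg.Agent.S0912.result 2 M hM b hb.1 Db hDb)
  have h2 : Nat.card Db ≤ 2 := by
    rw [← hcardE, ← Subgroup.card_map_of_injective (nor D).subtype_injective]
    exact Subgroup.card_le_of_le hle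
  have h3 : Nat.card (D.subgroupOf (nor D)) = 2 := by
    rw [Nat.card_congr (Subgroup.subgroupOfEquivOfLe (le_nor D)).toEquiv, hcardD]
  have h4 : D.subgroupOf (nor D) = Db := Subgroup.eq_of_le_of_card_ge h1 (by rw [h3]; exact h2)
  rw [← h4] at hDb
  have hdb : Cfsg.blockDefect 2 b = 1 := by
    have h5 := IsDefectGroup.card_eq hM hb.1 hDb
    rw [h3] at h5
    exact (Nat.pow_right_injective (le_refl 2) (by simpa using h5.symm))
  have huniq : ∀ b' : Set (Cfsg.IrrCharacter (nor D)), Cfsg.IsInducedBlock M (nor D) b' B → b' = b :=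
    fun b' hb' => brauer_correspondent_unique hM hDp hDb hb hb'
  have hind : indSet M (nor D) B = b := by
    ext ξ
    constructor
    · intro hξ
      have h6 : Cfsg.blockOf M (ξ : nor D → ℂ) = b := huniq _ hξ
      rw [← h6]
      exact mem_blockOf_self ξ
    · intro hξ
      have h6 := IsPBlock.eq_blockOf hb.1 hξ
      show Cfsg.IsInducedBlock M (nor D) (Cfsg.blockOf M (ξ : nor D → ℂ)) B
      rw [← h6]
      exact hb
  have hdef : ∀ b' : Set (Cfsg.IrrCharacter (nor D)), Cfsg.IsPBlock M b' →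
      Cfsg.InducedBlockDefined M (nor D) b' := fun b' hb' =>
    inducedBlockDefined_of_le hM hDp (le_nor D) (centralizer_le_nor D) le_rfl hb'
  have hpart : ∀ χ ∈ B, ∀ s : nor D, ¬ 2 ∣ orderOf s →
      bPart b (tw xh (χ : G → ℂ)) s = tw xh (χ : G → ℂ) s := by
    intro χ hχ s hs
    have := bPart_indSet_eq hM hcen hdef hB hχ hs
    rwa [hind] at this
  -- the structure of `b`
  obtain ⟨θ', hθne, hbeq, hθreg⟩ : ∃ θ' : Cfsg.IrrCharacter (nor D), θ ≠ θ' ∧ b = {θ, θ'} ∧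
      ∀ g : nor D, ¬ 2 ∣ orderOf g → (θ' : nor D → ℂ) g = (θ : nor D → ℂ) g := by
    obtain ⟨θ₁, θ₂, hne', hbeq, hreg', -⟩ := two_block_defect_one hM hb.1 hdb
    rw [hbeq] at hθ
    rcases hθ with rfl | hθ
    · exact ⟨θ₂, hne', hbeq, hreg'⟩
    · rw [Set.mem_singleton_iff] at hθ
      subst hθ
      exact ⟨θ₁, hne'.symm, by rw [hbeq, Set.pair_comm], fun g hg => (hreg' g hg).symm⟩
  have hform : ∀ χ ∈ B, ∀ s : nor D, ¬ 2 ∣ orderOf s → (χ : G → ℂ) (x * s) =
      (Cfsg.classInner (tw xh (χ : G → ℂ)) (θ : nor D → ℂ) +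
        Cfsg.classInner (tw xh (χ : G → ℂ)) (θ' : nor D → ℂ)) * (θ : nor D → ℂ) s := by
    intro χ hχ s hs
    have h7 := hpart χ hχ s hs
    rw [bPart_apply', hbeq, sum_indicator_pair hθne, hθreg s hs] at h7
    have h8 : tw xh (χ : G → ℂ) s = (χ : G → ℂ) (x * s) := rfl
    rw [← h8, ← h7]
    ring
  have hone : ¬ 2 ∣ orderOf (1 : nor D) := by rw [orderOf_one]; norm_num
  -- the norm
  have hnorm := sum_bPart_tw Nat.prime_two hcen (weakOrth_block hM hb.1) hone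
  have hL : ∑ χ : Cfsg.IrrCharacter G, bPart b (tw xh (χ : G → ℂ)) 1 *
      conj (bPart b (tw xh (χ : G → ℂ)) 1) =
      ∑ χ : Cfsg.IrrCharacter G, ({χ₁, χ₂} : Set (Cfsg.IrrCharacter G)).indicator 1 χ *
        ((χ : G → ℂ) x * conj ((χ : G → ℂ) x)) := by
    refine Finset.sum_congr rfl fun χ _ => ?_
    by_cases hχ : χ ∈ B
    · rw [hpart χ hχ 1 hone, Set.indicator_of_mem (by rw [← hBeq]; exact hχ)]
      have h8 : tw xh (χ : G → ℂ) 1 = (χ : G → ℂ) x := by
        rw [tw_apply]; simp [xh]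
      rw [h8]; simp
    · rw [bPart_tw_eq_zero hM hcen hb hχ hone, Set.indicator_of_notMem (by rw [← hBeq]; exact hχ)]
      simp
  rw [hL, sum_indicator_pair hne, hbeq, sum_indicator_pair hθne, hθreg 1 hone] at hnorm
  have hxs : 2 ∣ orderOf x := by rw [hx]
  have hxinv : x⁻¹ = x := by
    have : x ^ 2 = 1 := by rw [← hx]; exact pow_orderOf_eq_one x
    rw [inv_eq_iff_mul_eq_one, ← pow_two, this]
  have hreal : conj ((χ₁ : G → ℂ) x) = (χ₁ : G → ℂ) x := by
    rw [← IsCharacter.apply_inv (IsIrrCharacter.isCharacter χ₁.2), hxinv]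
  have hθreal : conj ((θ : nor D → ℂ) 1) = (θ : nor D → ℂ) 1 := by
    rw [← IsCharacter.apply_inv (IsIrrCharacter.isCharacter θ.2), inv_one]
  rw [hsing x hxs, map_neg, hreal, hθreal] at hnorm
  have hsq : ((χ₁ : G → ℂ) x) ^ 2 = ((θ : nor D → ℂ) 1) ^ 2 := by linear_combination hnorm / 2
  have hθ1 : (θ : nor D → ℂ) 1 ≠ 0 := irr_one_ne_zero θ.2
  set c := Cfsg.classInner (tw xh (χ₁ : G → ℂ)) (θ : nor D → ℂ) +
        Cfsg.classInner (tw xh (χ₁ : G → ℂ)) (θ' : nor D → ℂ) with hc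
  have hcx : (χ₁ : G → ℂ) x = c * (θ : nor D → ℂ) 1 := by
    have := hform χ₁ hχ₁ 1 hone
    simpa using this
  have hc2 : c = 1 ∨ c = -1 := by
    rw [hcx, mul_pow] at hsq
    have h9 : c ^ 2 = 1 := by
      have h10 : ((θ : nor D → ℂ) 1) ^ 2 ≠ 0 := pow_ne_zero _ hθ1
      apply mul_right_cancel₀ h10
      rw [hsq, one_mul]
    exact sq_eq_one_iff.1 h9
  have hsingxy : ∀ y : nor D, ¬ 2 ∣ orderOf y → 2 ∣ orderOf (x * (y : G)) := by
    intro y hy
    have hcomm : Commute x (y : G) := (congrArg Subtype.val (hcen.comm y)).symm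
    have hco : (orderOf x).Coprime (orderOf (y : G)) := by
      rw [hx, Subgroup.orderOf_coe]
      exact (Nat.Prime.coprime_iff_not_dvd Nat.prime_two).2 hy
    rw [hcomm.orderOf_mul_eq_mul_orderOf_of_coprime hco, hx]
    exact Dvd.intro _ rfl
  refine ⟨?_, ?_, χ₁, hχ₁, χ₂, hχ₂, hne, ?_⟩
  · rw [hBeq, Nat.card_coe_set_eq, Set.ncard_pair hne]
  · intro χ hχ ψ hψ g hg
    rw [hBeq] at hχ hψ
    rcases hχ with rfl | hχ <;> rcases hψ with rfl | hψ
    · rfl
    · rw [Set.mem_singleton_iff] at hψ; subst hψ; exact (hreg g hg).symm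
    · rw [Set.mem_singleton_iff] at hχ; subst hχ; exact hreg g hg
    · rw [Set.mem_singleton_iff] at hχ hψ; subst hχ; subst hψ; rfl
  · rcases hc2 with h | h
    · refine ⟨1, -1, Or.inl rfl, Or.inr rfl, by norm_num, fun y hy => ⟨?_, ?_⟩⟩
      · rw [hform χ₁ hχ₁ y hy, ← hc, h]; simp
      · rw [hsing _ (hsingxy y hy), hform χ₁ hχ₁ y hy, ← hc, h]; simp
    · refine ⟨-1, 1, Or.inr rfl, Or.inl rfl, by norm_num, fun y hy => ⟨?_, ?_⟩⟩
      · rw [hform χ₁ hχ₁ y hy, ← hc, h]; simp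
      · rw [hsing _ (hsingxy y hy), hform χ₁ hχ₁ y hy, ← hc, h]; simp

/-- Blocks of defect one for p = 2. Let M be a maximal ideal of the algebraic integers containing 2, B a 2-block of the finite group G whose defect group is the subgroup generated by an involution x, C = C_G(x), b a block of C inducing B and θ a member of b taking the same value at x as at 1 (there is exactly one). Then B consists of exactly two irreducible characters, which agree on every element of odd order, and they can be labelled χ₁, χ₂ with signs ε₁, ε₂ = ±1, ε₁ε₂ = −1, such that χᵢ(x y) = εᵢ θ(y) for every element y of C of odd order. -/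
theorem result {G : Type*} [Group G] [Finite G] (M : Ideal Cfsg.AlgInt) (hM : Cfsg.IsPModular 2 M) (x : G) (hx : orderOf x = 2)
    (B : Set (Cfsg.IrrCharacter G)) (hB : Cfsg.IsPBlock M B) (hBD : Cfsg.IsDefectGroup 2 M B (Subgroup.zpowers x))
    (b : Set (Cfsg.IrrCharacter ↥(Subgroup.centralizer ({x} : Set G)))) (hb : Cfsg.IsInducedBlock M (Subgroup.centralizer ({x} : Set G)) b B)
    (θ : Cfsg.IrrCharacter ↥(Subgroup.centralizer ({x} : Set G))) (hθ : θ ∈ b)
    (hθx : ∀ z : ↥(Subgroup.centralizer ({x} : Set G)), (z : G) = x → (θ : ↥(Subgroup.centralizer ({x} : Set G)) → ℂ) z = (θ : ↥(Subgroup.centralizer ({x} : Set G)) → ℂ) 1) :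
    Nat.card B = 2 ∧ (∀ χ ∈ B, ∀ ψ ∈ B, ∀ g : G, ¬ 2 ∣ orderOf g → (χ : G → ℂ) g = (ψ : G → ℂ) g) ∧
      ∃ χ₁ ∈ B, ∃ χ₂ ∈ B, χ₁ ≠ χ₂ ∧ ∃ ε₁ ε₂ : ℤ, (ε₁ = 1 ∨ ε₁ = -1) ∧ (ε₂ = 1 ∨ ε₂ = -1) ∧ ε₁ * ε₂ = -1 ∧
        ∀ y : ↥(Subgroup.centralizer ({x} : Set G)), ¬ 2 ∣ orderOf y →
          (χ₁ : G → ℂ) (x * y) = (ε₁ : ℂ) * (θ : ↥(Subgroup.centralizer ({x} : Set G)) → ℂ) y ∧ (χ₂ : G → ℂ) (x * y) = (ε₂ : ℂ) * (θ : ↥(Subgroup.centralizer ({x} : Set G)) → ℂ) y := by
  cases nonempty_fintype G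
  exact aux M hM x hx B hB _ rfl hBD _ (cen_eq_nor hx) b hb θ hθ hθx

end Cfsg.Agent.S4513
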