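import Mathlib
import Cfsg.Statements.S4633
import Cfsg.Agent.Lib.Helper24.Cyc3

set_option autoImplicit false
open Cfsg
open Cfsg.Agent.Lib.Helper6 Cfsg.Agent.Lib.Helper2 Cfsg.Agent.Lib.Helper24
open scoped ComplexConjugate Classical

attribute [local instance] irrFintype

namespace Cfsg.Agent.S4633

/-- Let B be a block of the finite group G relative to a maximal ideal M of the algebraic integers containing the prime p, with a nontrivial cyclic defect group P. Let c be a block of C_G(P) inducing B and T the stabilizer of c in N_G(P) (the elements of N_G(P) conjugating c to itself); T contains C_G(P). Then T/C_G(P) is cyclic of order dividing p − 1, and it acts freely on the non-identity elements of P: an element of T fixing some non-identity element of P under conjugation lies in C_G(P). -/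
theorem result {G : Type*} [Group G] [Finite G] (p : ℕ) [Fact p.Prime] (M : Ideal Cfsg.AlgInt) (hM : Cfsg.IsPModular p M) (B : Set (Cfsg.IrrCharacter G)) (hB : Cfsg.IsPBlock M B) (P : Subgroup G) (hPD : Cfsg.IsDefectGroup p M B P) (hP1 : P ≠ ⊥) (hcyc : IsCyclic P) (c : Set (Cfsg.IrrCharacter (Subgroup.centralizer (P : Set G)))) (hc : Cfsg.IsInducedBlock M (Subgroup.centralizer (P : Set G)) c B) (T : Subgroup G) (hT : ∀ g : G, g ∈ T ↔ (g ∈ Subgroup.normalizer (P : Set G) ∧ Cfsg.StabilizesBlock (Subgroup.centralizer (P : Set G)) c g)) [hn : ((Subgroup.centralizer (P : Set G)).subgroupOf T).Normal] : IsCyclic (T ⧸ (Subgroup.centralizer (P : Set G)).subgroupOf T) ∧ (Subgroup.centralizer (P : Set G)).relIndex T ∣ p - 1 ∧ ∀ g ∈ T, ∀ x ∈ P, x ≠ 1 → g * x * g⁻¹ = x → g ∈ Subgroup.centralizer (P : Set G) := by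
  classical
  cases nonempty_fintype G
  have := IsPModular.isPrime hM
  have hp : p.Prime := hM.1
  have hab := le_cz_of_cyclic hcyc
  have hPp : IsPGroup p P := IsDefectGroup.isPGroup hPD
  have hpair : IsBrauerPairOf p M B P c := isBrauerPairOf_of_induced_cz hM hPp hab hc
  have hmax := isMaximalBrauerPair_of_isDefectGroup hM hpair hPD
  have hfree : ∀ g ∈ T, ∀ x ∈ P, x ≠ 1 → g * x * g⁻¹ = x → g ∈ Subgroup.centralizer (P : Set G) := by
    intro g hg x hx hx1 hgx
    refine mem_cz_of_stab_cyclic hM hmax hcyc ((hT g).mp hg).1 ((hT g).mp hg).2 hx hx1 ?_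
    calc g * x = (g * x * g⁻¹) * g := by group
      _ = x * g := by rw [hgx]
  -- an element of order `p`
  have hdvd : p ∣ Nat.card P := by
    obtain ⟨n, hn⟩ := IsPGroup.iff_card.mp hPp
    rcases Nat.eq_zero_or_pos n with h0 | h0
    · exfalso
      apply hP1
      rw [h0, pow_zero] at hn
      exact Subgroup.card_eq_one.mp hn
    · rw [hn]
      exact dvd_pow_self p h0.ne'
  obtain ⟨x0, hx0⟩ := exists_prime_orderOf_dvd_card' p hdvd
  obtain ⟨x, hxP, hxo⟩ : ∃ x ∈ P, orderOf x = p := ⟨x0, x0.2, by rw [Subgroup.orderOf_coe, hx0]⟩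
  have hx1 : x ≠ 1 := by
    intro h
    rw [h, orderOf_one] at hxo
    exact hp.one_lt.ne hxo
  have hQP : Subgroup.zpowers x ≤ P := Subgroup.zpowers_le.mpr hxP
  have hTN : T ≤ Subgroup.normalizer ((Subgroup.zpowers x : Subgroup G) : Set G) := fun t ht =>
    mem_normalizer_of_le_cyclic hcyc hQP ((hT t).mp ht).1
  let ψ : T →* MulAut (Subgroup.zpowers x) :=
    (Subgroup.zpowers x).normalizerMonoidHom.comp (Subgroup.inclusion hTN)
  have hker : ∀ t : T, ψ t = 1 ↔ t ∈ (Subgroup.centralizer (P : Set G)).subgroupOf T := by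
    intro t
    have h1 : ψ t = 1 ↔ Subgroup.inclusion hTN t ∈ (Subgroup.zpowers x).normalizerMonoidHom.ker :=
      Iff.rfl
    rw [h1, Subgroup.normalizerMonoidHom_ker, Subgroup.mem_subgroupOf, Subgroup.mem_subgroupOf]
    show (t : G) ∈ _ ↔ _
    constructor
    · intro h
      apply hfree t t.2 x hxP hx1
      have := Subgroup.mem_centralizer_iff.mp h x (Subgroup.mem_zpowers x)
      rw [← this]
      group
    · intro h
      exact Subgroup.centralizer_le (by exact_mod_cast hQP) h
  let φ : T ⧸ (Subgroup.centralizer (P : Set G)).subgroupOf T →* MulAut (Subgroup.zpowers x) :=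
    QuotientGroup.lift _ ψ (fun t ht => (hker t).mpr ht)
  have hinj : Function.Injective φ := by
    rw [injective_iff_map_eq_one]
    intro q hq
    obtain ⟨t, rfl⟩ := QuotientGroup.mk_surjective q
    have : ψ t = 1 := hq
    exact (QuotientGroup.eq_one_iff t).mpr ((hker t).mp this)
  have hcard : Nat.card (Subgroup.zpowers x) = p := by rw [Nat.card_zpowers, hxo]
  have hcycA : IsCyclic (MulAut (Subgroup.zpowers x)) := by
    have e := IsCyclic.mulAutMulEquiv (Subgroup.zpowers x)
    rw [hcard] at e
    exact e.isCyclic.mpr inferInstance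
  refine ⟨isCyclic_of_injective φ hinj, ?_, hfree⟩
  have h2 := Subgroup.card_dvd_of_injective φ hinj
  rw [IsCyclic.card_mulAut, hcard, Nat.totient_prime hp] at h2
  exact h2

end Cfsg.Agent.S4633
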