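import Cfsg.Statements.S4636

set_option autoImplicit false
open Cfsg

namespace Cfsg.Agent.S4636

open scoped Pointwise

theorem ncard_le {G : Type*} [Group G] [Finite G] (P : Subgroup G) (hc : IsCyclic P) (n : ℕ) (hn : 0 < n) :
    ({a : G | a ∈ P ∧ a ^ n = 1} : Set G).ncard ≤ n := by
  classical
  have := Fintype.ofFinite P
  have h1 := IsCyclic.card_pow_eq_one_le (α := P) hn
  have h2 : ({a : G | a ∈ P ∧ a ^ n = 1} : Set G) =
      Subtype.val '' ((Finset.univ.filter (fun a : P => a ^ n = 1) : Finset P) : Set P) := by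
    ext a
    simp only [Set.mem_ofPred_eq, Finset.coe_filter, Finset.mem_univ, true_and, Set.mem_image,
      Subtype.exists, exists_and_right, exists_eq_right]
    constructor
    · rintro ⟨h, h'⟩
      exact ⟨h, by ext; simpa using h'⟩
    · rintro ⟨h, h'⟩
      exact ⟨h, by simpa using congrArg Subtype.val h'⟩
  rw [h2, Set.ncard_image_of_injective _ Subtype.val_injective, Set.ncard_coe_finset]
  exact h1

theorem eq_set {G : Type*} [Group G] [Finite G] (P : Subgroup G) (hc : IsCyclic P) (n : ℕ) (hn : 0 < n)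
    (Z : Subgroup G) (hZ : Z ≤ P) (h : Nat.card Z = n) :
    (Z : Set G) = {a : G | a ∈ P ∧ a ^ n = 1} := by
  apply Set.eq_of_subset_of_ncard_le
  · intro a ha
    refine ⟨hZ ha, ?_⟩
    have : (⟨a, ha⟩ : Z) ^ Nat.card Z = 1 := pow_card_eq_one'
    rw [h] at this
    simpa using congrArg Subtype.val this
  · have : (Z : Set G).ncard = n := by
      rw [← h]; rfl
    rw [this]
    exact ncard_le P hc n hn
  · exact Set.toFinite _

theorem uniq {G : Type*} [Group G] [Finite G] (P : Subgroup G) (hc : IsCyclic P) (n : ℕ) (hn : 0 < n)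
    (Z Z' : Subgroup G) (hZ : Z ≤ P) (hZ' : Z' ≤ P) (h : Nat.card Z = n) (h' : Nat.card Z' = n) :
    Z = Z' := by
  apply SetLike.coe_injective
  rw [eq_set P hc n hn Z hZ h, eq_set P hc n hn Z' hZ' h']

theorem le_of_ne_bot {G : Type*} [Group G] [Finite G] (p : ℕ) [Fact p.Prime] (P : Subgroup G)
    (hP : IsPGroup p P) (hcyc : IsCyclic P) (Z : Subgroup G) (hZ : Z ≤ P) (hZcard : Nat.card Z = p)
    (Q : Subgroup G) (hQ : Q ≤ P) (hQ1 : Q ≠ ⊥) : Z ≤ Q := by
  have hp : p.Prime := Fact.out
  have hQp : IsPGroup p Q := hP.to_le hQ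
  have hnt : Nontrivial Q := (Subgroup.nontrivial_iff_ne_bot Q).mpr hQ1
  obtain ⟨n, hn0, hn⟩ := hQp.exists_card_eq.imp (fun n hn => (⟨by
    rcases Nat.eq_zero_or_pos n with h0 | h0
    · subst h0
      rw [pow_zero] at hn
      have := Finite.one_lt_card (α := Q)
      omega
    · exact h0, hn⟩ : 0 < n ∧ Nat.card Q = p ^ n))
  have hdvd : p ∣ Nat.card Q := by rw [hn]; exact dvd_pow_self p hn0.ne'
  obtain ⟨y, hy⟩ := exists_prime_orderOf_dvd_card' (G := Q) p hdvd
  have hy' : orderOf (y : G) = p := by rw [Subgroup.orderOf_coe]; exact hy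
  have h1 : Subgroup.zpowers (y : G) ≤ Q := by
    rw [Subgroup.zpowers_le]; exact y.2
  have h2 : Nat.card (Subgroup.zpowers (y : G)) = p := by rw [Nat.card_zpowers, hy']
  have := uniq P hcyc p hp.pos Z (Subgroup.zpowers (y : G)) hZ (h1.trans hQ) hZcard h2
  rw [this]; exact h1

theorem card_conj {G : Type*} [Group G] (Z : Subgroup G) (g : MulAut G) :
    Nat.card (g • Z : Subgroup G) = Nat.card Z :=
  (Nat.card_congr (Subgroup.equivSMul g Z).toEquiv).symm

theorem mem_normalizer_of_smul_eq {G : Type*} [Group G] (Z : Subgroup G) (g : G)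
    (h : MulAut.conj g • Z = Z) : g ∈ Subgroup.normalizer (Z : Set G) := by
  rw [Subgroup.mem_normalizer_iff]
  intro x
  constructor
  · intro hx
    rw [← h]
    exact Subgroup.smul_mem_pointwise_smul x (MulAut.conj g) Z hx
  · intro hx
    rw [← h, Subgroup.mem_pointwise_smul_iff_inv_smul_mem] at hx
    simpa [MulAut.smul_def, mul_assoc] using hx

/-- Let P be a nontrivial cyclic p-subgroup of the finite group G and Z its subgroup of order p. For every x outside N_G(Z), P meets its conjugate xPx⁻¹ trivially; consequently N_G(Q) ≤ N_G(Z) for every nontrivial subgroup Q of P. -/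
theorem result {G : Type*} [Group G] [Finite G] (p : ℕ) [Fact p.Prime] (P : Subgroup G) (hP : IsPGroup p P) (hP1 : P ≠ ⊥) (hcyc : IsCyclic P) (Z : Subgroup G) (hZ : Z ≤ P) (hZcard : Nat.card Z = p) : (∀ x : G, x ∉ Subgroup.normalizer (Z : Set G) → P ⊓ MulAut.conj x • P = ⊥) ∧ ∀ Q : Subgroup G, Q ≤ P → Q ≠ ⊥ → Subgroup.normalizer (Q : Set G) ≤ Subgroup.normalizer (Z : Set G) := by
  have hp : p.Prime := Fact.out
  constructor
  · intro x hx
    by_contra hne
    apply hx
    have h1 : Z ≤ P ⊓ MulAut.conj x • P :=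
      le_of_ne_bot p P hP hcyc Z hZ hZcard _ inf_le_left hne
    have h2 : Z ≤ MulAut.conj x • P := h1.trans inf_le_right
    have h3 : (MulAut.conj x)⁻¹ • Z ≤ P := by
      rw [Subgroup.pointwise_smul_subset_iff] 
      simpa using h2
    have h4 : (MulAut.conj x)⁻¹ • Z = Z := by
      apply uniq P hcyc p hp.pos _ _ h3 hZ _ hZcard
      rw [card_conj, hZcard]
    apply mem_normalizer_of_smul_eq
    conv_lhs => rw [← h4]
    simp
  · intro Q hQ hQ1 g hg
    have h1 : Z ≤ Q := le_of_ne_bot p P hP hcyc Z hZ hZcard Q hQ hQ1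
    have h2 : MulAut.conj g • Z ≤ Q := by
      intro y hy
      rw [Subgroup.mem_pointwise_smul_iff_inv_smul_mem] at hy
      have h3 := (Subgroup.mem_normalizer_iff.mp hg (g⁻¹ * y * g)).mp
        (h1 (by simpa [MulAut.smul_def, mul_assoc] using hy))
      simpa [mul_assoc] using h3
    apply mem_normalizer_of_smul_eq
    apply uniq P hcyc p hp.pos _ _ (h2.trans hQ) hZ _ hZcard
    rw [card_conj, hZcard]

end Cfsg.Agent.S4636
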