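import Mathlib
import Cfsg.Statements.S4637
import Cfsg.Agent.Lib.Helper6.Klein5

set_option autoImplicit false
open Cfsg
open Cfsg.Agent.Lib.Helper6 Cfsg.Agent.Lib.Helper2 Cfsg.Agent.Lib.Helper24
open scoped ComplexConjugate Classical

attribute [local instance] irrFintype

namespace Cfsg.Agent.S4637

/-- Let B be a block of the finite group G relative to a maximal ideal M of the algebraic integers containing 2, with a Klein four defect group P. Let c be a block of C_G(P) inducing B, T the stabilizer of c in N_G(P) and e the index of C_G(P) in T (the inertial index). Then e is 1 or 3, B contains exactly four irreducible characters, and the 2-regular rank of B (its number of irreducible Brauer characters) equals e. -/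
theorem result {G : Type*} [Group G] [Finite G] (M : Ideal Cfsg.AlgInt) (hM : Cfsg.IsPModular 2 M) (B : Set (Cfsg.IrrCharacter G)) (hB : Cfsg.IsPBlock M B) (P : Subgroup G) (hPD : Cfsg.IsDefectGroup 2 M B P) (hV : IsKleinFour P) (c : Set (Cfsg.IrrCharacter (Subgroup.centralizer (P : Set G)))) (hc : Cfsg.IsInducedBlock M (Subgroup.centralizer (P : Set G)) c B) (T : Subgroup G) (hT : ∀ g : G, g ∈ T ↔ (g ∈ Subgroup.normalizer (P : Set G) ∧ Cfsg.StabilizesBlock (Subgroup.centralizer (P : Set G)) c g)) (e : ℕ) (he : (Subgroup.centralizer (P : Set G)).relIndex T = e) : (e = 1 ∨ e = 3) ∧ Nat.card B = 4 ∧ Cfsg.blockRank 2 B = e := by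
  let _ := Fintype.ofFinite G
  have := IsPModular.isPrime hM
  have : Fact (Nat.Prime 2) := ⟨Nat.prime_two⟩
  have hP4 : Nat.card P = 4 := hV.card_four
  have hP : IsPGroup 2 P := IsPGroup.of_card (n := 2) (by rw [hP4]; norm_num)
  have hexp : ∀ x ∈ P, x * x = 1 := by
    intro x hx
    have h1 := Monoid.pow_exponent_eq_one (⟨x, hx⟩ : P)
    rw [hV.exponent_two, sq] at h1
    exact congrArg Subtype.val h1
  have hab : P ≤ cz P := by
    intro x hx
    rw [Subgroup.mem_centralizer_iff]
    intro y hy
    exact congrArg Subtype.val (mul_comm_of_exponent_two hV.exponent_two (⟨y, hy⟩ : P) ⟨x, hx⟩)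
  have hpair := isBrauerPairOf_of_induced_cz hM hP hab hc
  have hmax := isMaximalBrauerPair_of_isDefectGroup hM hpair hPD
  have hTN : T ≤ Subgroup.normalizer (P : Set G) := fun t ht => ((hT t).mp ht).1
  have hodd : ¬ 2 ∣ (cz P).relIndex T :=
    (isDefectGroup_iff_not_dvd_relIndex hM hP (sup_eq_right.mpr hab).symm hc.1
      (isDefectGroup_centralizer_of_le hM hmax Relation.ReflTransGen.refl hab) hc hT).mp hPD
  have h13 := klein_relIndex hTN hP4 hodd
  obtain ⟨h1, h2⟩ := klein_main hM hmax hP4 hexp hab T hT h13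
  rw [← he]
  exact ⟨h13, h1, h2⟩

end Cfsg.Agent.S4637
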