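import Cfsg.Statements.S4642
import Cfsg.Agent.Lib.Helper24.PConstr4
-- import your own Cfsg.Agent.* helpers here

set_option autoImplicit false
open Cfsg

namespace Cfsg.Agent.S4642

open Cfsg.Agent.Lib.Helper24 Cfsg.Agent.Lib.Helper6 Cfsg.Agent.Lib.Helper2

/-- Let G be a finite group, p a prime, M a maximal ideal of the algebraic integers containing p, K the largest normal subgroup of G of order prime to p, and L the preimage in G of the largest normal p-subgroup of G/K. Let Q be a Sylow p-subgroup of L and suppose C_G(Q) ≤ L. Let θ be an irreducible character of K invariant under conjugation by every element of G, and let B be the set of irreducible characters of G whose restriction to K contains θ. Then B is a block of G, every Sylow p-subgroup of G is a defect group of B, and B is of principal type: for every p-subgroup R of G exactly one block of C_G(R) induces B. -/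
theorem result {G : Type*} [Group G] [Fintype G] (p : ℕ) [Fact p.Prime] (M : Ideal Cfsg.AlgInt) (hM : Cfsg.IsPModular p M) (K : Subgroup G) (hK : K = Cfsg.pPrimeCore p G) [Fintype K] (L : Subgroup G) (hL : L = Cfsg.pPrimePCore p G) (Q : Subgroup G) (hQL : Q ≤ L) (hQp : IsPGroup p Q) (hQS : ¬ p ∣ Q.relIndex L) (hCQ : Subgroup.centralizer (Q : Set G) ≤ L) (θ : Cfsg.IrrCharacter K) (hθ : ∀ g : G, Cfsg.IsConjCharOf K g (θ : K → ℂ) (θ : K → ℂ)) (B : Set (Cfsg.IrrCharacter G)) (hBdef : ∀ χ : Cfsg.IrrCharacter G, χ ∈ B ↔ Cfsg.classInner (fun k : K => (χ : G → ℂ) k) (θ : K → ℂ) ≠ 0) : Cfsg.IsPBlock M B ∧ (∀ S : Sylow p G, Cfsg.IsDefectGroup p M B S) ∧ ∀ R : Subgroup G, IsPGroup p R → ∃! f : Set (Cfsg.IrrCharacter (Subgroup.centralizer (R : Set G))), Cfsg.IsInducedBlock M (Subgroup.centralizer (R : Set G)) f B := by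
  classical
  have e1 : (‹Fintype ↥K› : Fintype ↥K) = Subgroup.instFintypeSubtypeMemOfDecidablePred _ :=
    Subsingleton.elim _ _
  subst e1
  have hp : p.Prime := hM.1
  have hKn : K.Normal := by
    rw [hK]
    infer_instance
  have hcop : ¬ p ∣ Nat.card K := by
    intro hd
    have h1 := Cfsg.Agent.Lib.Helper8.coprime_card_pPrimeCore (G := G) p
    rw [← hK] at h1
    exact hp.one_lt.ne' (Nat.Coprime.eq_one_of_dvd h1.symm hd)
  have hKL : K ≤ L := by
    rw [hK, hL]
    exact Cfsg.Agent.Lib.Helper9.pPrimeCore_le_pPrimePCore p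
  have hsyl : IsSylIn p L Q := by
    rw [isSylIn_iff]
    refine ⟨hQL, ?_⟩
    obtain ⟨n, hn⟩ := IsPGroup.iff_card.mp hQp
    have h1 := card_inf_mul_relIndex Q L
    rw [inf_eq_right.mpr hQL] at h1
    have h0 : Q.relIndex L ≠ 0 := by
      intro h
      rw [h, mul_zero] at h1
      exact Nat.card_pos.ne' h1.symm
    rw [← h1, Nat.factorization_mul Nat.card_pos.ne' h0, Finsupp.add_apply,
      Nat.factorization_eq_zero_of_not_dvd hQS, add_zero, hn, hp.factorization_pow,
      Finsupp.single_eq_same]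
  obtain ⟨P₀, hQdef⟩ := hsyl
  have hsup : K ⊔ Q = L := by
    rw [sup_comm, hQdef]
    apply Cfsg.Agent.Lib.Helper9.sylow_map_sup_eq p _ K hKL
    intro q
    obtain ⟨x, rfl⟩ := QuotientGroup.mk_surjective q
    have hx : (x : G) ∈ Cfsg.pPrimePCore p G := by rw [← hL]; exact x.2
    obtain ⟨k, hk⟩ := Cfsg.Agent.Lib.Helper9.exists_pow_mem_of_mem_pPrimePCore p hx
    refine ⟨k, ?_⟩
    rw [← QuotientGroup.mk_pow]
    apply (QuotientGroup.eq_one_iff _).mpr
    rw [Subgroup.mem_subgroupOf, Subgroup.coe_pow, hK]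
    exact hk
  have hLn : (K ⊔ Q).Normal := by
    rw [hsup, hL]
    exact Cfsg.Agent.Lib.Helper9.pPrimePCore_normal p
  have hst : ∀ x : G, Cfsg.StabilizesBlock K {θ} x := by
    intro x
    refine ⟨by rw [Subgroup.normalizer_eq_top]; exact Subgroup.mem_top x, fun χ hχ => ⟨θ, rfl, ?_⟩⟩
    rw [Set.mem_singleton_iff.mp hχ]
    exact hθ x
  obtain ⟨B', hB', hiff, hdef, hpt⟩ := principal_type_of_constrained hM hcop hQp hLn
    (by rw [hsup]; exact hCQ) θ hst
  have hBB : B = B' := by
    ext χ
    rw [hBdef, hiff]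
    rfl
  subst hBB
  exact ⟨hB', hdef, hpt⟩

end Cfsg.Agent.S4642
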