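import Cfsg.Statements.S4645
import Cfsg.Agent.Lib.Helper24.Cyc3
-- import your own Cfsg.Agent.* helpers here

set_option autoImplicit false
open Cfsg

namespace Cfsg.Agent.S4645

open Cfsg.Agent.Lib.Helper24 Cfsg.Agent.Lib.Helper6 Cfsg.Agent.Lib.Helper2

/-- Let B be a block of the finite group G relative to a maximal ideal M of the algebraic integers containing the prime p, with a nontrivial cyclic defect group P; let c be a block of C_G(P) inducing B and T the stabilizer of c in N_G(P). Let Q be a nontrivial subgroup of P (so C_G(P) ≤ C_G(Q)), f the block of C_G(Q) induced by c inside C_G(Q), and T' the stabilizer of f in N_G(Q). Then T' = T·C_G(Q), the index of C_G(Q) in T' equals the index of C_G(P) in T, f has p-regular rank 1, and f is a nilpotent block of C_G(Q). -/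
theorem result {G : Type*} [Group G] [Finite G] (p : ℕ) [Fact p.Prime] (M : Ideal Cfsg.AlgInt) (hM : Cfsg.IsPModular p M) (B : Set (Cfsg.IrrCharacter G)) (hB : Cfsg.IsPBlock M B) (P : Subgroup G) (hPD : Cfsg.IsDefectGroup p M B P) (hP1 : P ≠ ⊥) (hcyc : IsCyclic P) (c : Set (Cfsg.IrrCharacter (Subgroup.centralizer (P : Set G)))) (hc : Cfsg.IsInducedBlock M (Subgroup.centralizer (P : Set G)) c B) (T : Subgroup G) (hT : ∀ g : G, g ∈ T ↔ (g ∈ Subgroup.normalizer (P : Set G) ∧ Cfsg.StabilizesBlock (Subgroup.centralizer (P : Set G)) c g)) (Q : Subgroup G) (hQP : Q ≤ P) (hQ1 : Q ≠ ⊥) (f : Set (Cfsg.IrrCharacter (Subgroup.centralizer (Q : Set G)))) (hf : Cfsg.IsInducedBlockIn M (Subgroup.centralizer (Q : Set G)) (Subgroup.centralizer (P : Set G)) c f) (T' : Subgroup G) (hT' : ∀ g : G, g ∈ T' ↔ (g ∈ Subgroup.normalizer (Q : Set G) ∧ Cfsg.StabilizesBlock (Subgroup.centralizer (Q : Set G)) f g)) : T' = T ⊔ Subgroup.centralizer (Q : Set G) ∧ (Subgroup.centralizer (Q : Set G)).relIndex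 T' = (Subgroup.centralizer (P : Set G)).relIndex T ∧ Cfsg.blockRank p f = 1 ∧ Cfsg.IsNilpotentBlock p M f := by
  classical
  cases nonempty_fintype G
  have := IsPModular.isPrime hM
  have hab := le_cz_of_cyclic hcyc
  have hPp : IsPGroup p P := IsDefectGroup.isPGroup hPD
  have hpair : IsBrauerPairOf p M B P c := isBrauerPairOf_of_induced_cz hM hPp hab hc
  have hmax := isMaximalBrauerPair_of_isDefectGroup hM hpair hPD
  have hCC : cz P ≤ cz Q := cz_anti hQP
  have hPQ : P ≤ cz Q := hab.trans hCC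
  have hle : SubpairLE p M Q f P c := PLE_of_inducedIn hM hpair.1 hQP hab hf
  have hfD : IsDefectGroup p M f (P.subgroupOf (cz Q)) :=
    isDefectGroup_centralizer_of_le hM hmax hle hPQ
  obtain ⟨q, hq, hq1⟩ : ∃ q ∈ Q, q ≠ 1 := by
    by_contra hcon
    push Not at hcon
    exact hQ1 ((Subgroup.eq_bot_iff_forall Q).mpr hcon)
  -- `T ≤ N_G(Q)`
  have hTQ : ∀ t ∈ T, t ∈ Subgroup.normalizer (Q : Set G) := fun t ht =>
    mem_normalizer_of_le_cyclic hcyc hQP ((hT t).mp ht).1
  have hTT' : T ≤ T' := by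
    intro t ht
    exact (hT' t).mpr ⟨hTQ t ht, stabilizes_of_PLE hM hle ((hT t).mp ht).1 ((hT t).mp ht).2
      (hTQ t ht)⟩
  have hCT' : cz Q ≤ T' := by
    intro t ht
    exact (hT' t).mpr ⟨Subgroup.centralizer_le_normalizer _ ht, le_stabSub _ _ ht⟩
  have hT'eq : T' = T ⊔ cz Q := by
    apply le_antisymm
    · intro x hx
      obtain ⟨y, z, hy1, hy2, hz, rfl⟩ := exists_factorization_of_le hM hmax hle hPQ
        ((hT' x).mp hx).1 ((hT' x).mp hx).2
      exact Subgroup.mul_mem _ (Subgroup.mem_sup_left ((hT y).mpr ⟨hy1, hy2⟩))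
        (Subgroup.mem_sup_right hz)
    · exact sup_le hTT' hCT'
  have hCPT : cz P ≤ T := by
    intro t ht
    exact (hT t).mpr ⟨Subgroup.centralizer_le_normalizer _ ht, le_stabSub _ _ ht⟩
  have hinf : cz Q ⊓ T = cz P := by
    apply le_antisymm
    · intro x hx
      obtain ⟨hx1, hx2⟩ := Subgroup.mem_inf.mp hx
      exact mem_cz_of_stab_cyclic hM hmax hcyc ((hT x).mp hx2).1 ((hT x).mp hx2).2 (hQP hq) hq1
        (Subgroup.mem_centralizer_iff.mp hx1 q hq).symm
    · exact le_inf hCC hCPT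
  refine ⟨hT'eq, ?_, ?_⟩
  · rw [hT'eq, relIndex_sup_of_le_normalizer (fun t ht =>
      (isConjSub_of_mem_normalizer (hTQ t ht)).centralizer.mem_normalizer),
      ← Subgroup.inf_relIndex_right, hinf]
  · have hqC : q ∈ cz Q := hPQ (hQP hq)
    apply cyclic_central_block hM hf.2.1 hfD
      ((Subgroup.subgroupOfEquivOfLe hPQ).isCyclic.mpr hcyc) (q := ⟨q, hqC⟩)
    · rw [Subgroup.mem_center_iff]
      intro w
      apply Subtype.ext
      exact (Subgroup.mem_centralizer_iff.mp w.2 q hq).symm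
    · intro h
      exact hq1 (congrArg Subtype.val h)
    · rw [Subgroup.orderOf_mk]
      exact exists_orderOf_eq_pow hPp (hQP hq)

end Cfsg.Agent.S4645
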