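import Cfsg.Statements.S4650
import Cfsg.Agent.Lib.Helper24.AbelLocal
-- import your own Cfsg.Agent.* helpers here

set_option autoImplicit false
open Cfsg

namespace Cfsg.Agent.S4650

open Cfsg.Agent.Lib.Helper24 Cfsg.Agent.Lib.Helper6 Cfsg.Agent.Lib.Helper2

/-- Let B be a block of the finite group G relative to a maximal ideal M of the algebraic integers containing the prime p, with a nontrivial commutative defect group P; let c be a block of C_G(P) inducing B and T the stabilizer of c in N_G(P). Then T/C_G(P) acts freely on the non-identity elements of P (an element of T fixing a non-identity element of P under conjugation lies in C_G(P)) if and only if, for every nontrivial subgroup Q of P, the block of C_G(Q) induced by c inside C_G(Q) is a nilpotent block of C_G(Q). -/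
theorem result {G : Type*} [Group G] [Finite G] (p : ℕ) [Fact p.Prime] (M : Ideal Cfsg.AlgInt) (hM : Cfsg.IsPModular p M) (B : Set (Cfsg.IrrCharacter G)) (hB : Cfsg.IsPBlock M B) (P : Subgroup G) (hPD : Cfsg.IsDefectGroup p M B P) (hPab : ∀ x ∈ P, ∀ y ∈ P, x * y = y * x) (hP1 : P ≠ ⊥) (c : Set (Cfsg.IrrCharacter (Subgroup.centralizer (P : Set G)))) (hc : Cfsg.IsInducedBlock M (Subgroup.centralizer (P : Set G)) c B) (T : Subgroup G) (hT : ∀ g : G, g ∈ T ↔ (g ∈ Subgroup.normalizer (P : Set G) ∧ Cfsg.StabilizesBlock (Subgroup.centralizer (P : Set G)) c g)) : (∀ g ∈ T, ∀ x ∈ P, x ≠ 1 → g * x * g⁻¹ = x → g ∈ Subgroup.centralizer (P : Set G)) ↔ ∀ Q : Subgroup G, Q ≤ P → Q ≠ ⊥ → ∀ f : Set (Cfsg.IrrCharacter (Subgroup.centralizer (Q : Set G))), Cfsg.IsInducedBlockIn M (Subgroup.centralizer (Q : Set G)) (Subgroup.centralizer (P : Set G)) c f → Cfsg.IsNilpotentBlock p M f := by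
  classical
  cases nonempty_fintype G
  have := IsPModular.isPrime hM
  have hab : P ≤ cz P := by
    intro x hx
    rw [Subgroup.mem_centralizer_iff]
    intro h hh
    exact hPab h hh x hx
  have hPp : IsPGroup p P := IsDefectGroup.isPGroup hPD
  have hpair : IsBrauerPairOf p M B P c := isBrauerPairOf_of_induced_cz hM hPp hab hc
  have hmax := isMaximalBrauerPair_of_isDefectGroup hM hpair hPD
  constructor
  · intro hfree Q hQP hQ1 f hf
    have hle : SubpairLE p M Q f P c := PLE_of_inducedIn hM hpair.1 hQP hab hf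
    rw [isNilpotentBlock_local_iff hM hmax hab hle]
    intro x hx hxP hxc
    obtain ⟨q, hq, hq1⟩ : ∃ q ∈ Q, q ≠ 1 := by
      by_contra hcon
      push Not at hcon
      exact hQ1 ((Subgroup.eq_bot_iff_forall Q).mpr hcon)
    apply hfree x ((hT x).mpr ⟨hxP, hxc⟩) q (hQP hq) hq1
    rw [← Subgroup.mem_centralizer_iff.mp hx q hq]
    group
  · intro hnil g hg x hx hx1 hgx
    have hQP : Subgroup.zpowers x ≤ P := Subgroup.zpowers_le.mpr hx
    obtain ⟨f, hf⟩ := exists_PLE hM ⟨P, c⟩ hpair.1 _ (Subgroup.zpowers x) hQP rfl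
    have h1 := hnil _ hQP (by
      intro h
      apply hx1
      have := Subgroup.mem_zpowers x
      rw [h] at this
      exact Subgroup.mem_bot.mp this) f (inducedIn_of_PLE hM hpair.1 hab hf)
    rw [isNilpotentBlock_local_iff hM hmax hab hf] at h1
    apply h1 g _ ((hT g).mp hg).1 ((hT g).mp hg).2
    apply cen_le_centralizer_zpowers
    rw [Subgroup.mem_centralizer_singleton_iff]
    calc g * x = g * x * g⁻¹ * g := by group
      _ = x * g := by rw [hgx]

end Cfsg.Agent.S4650
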