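import Cfsg.Statements.S4654
import Cfsg.Agent.Lib.Helper24.BlockCentric
import Cfsg.Agent.Lib.Helper24.FongReynolds2
-- import your own Cfsg.Agent.* helpers here

set_option autoImplicit false
open Cfsg

namespace Cfsg.Agent.S4654

open Cfsg.Agent.Lib.Helper24 Cfsg.Agent.Lib.Helper6 Cfsg.Agent.Lib.Helper2

/-- Fix a prime p and a maximal ideal M of the algebraic integers containing p. Let P be a normal p-subgroup of the finite group G, B a p-block of G and e a p-block of C_G(P) such that (P, e) is a Brauer pair of B (as P is normal, this says that e occurs in the idempotent of B, which is supported on C_G(P)). Let T be the stabilizer of e in G under conjugation. Then the idempotent of e is a block idempotent of T: some block E of T has, at every element of T, the same idempotent coefficient as e (zero off C_G(P)); and the idempotent of B is the sum of the distinct G-conjugates of the idempotent of e: its coefficient at g is the sum over all x in G of the coefficient of e at x⁻¹ g x, divided by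 the order of T. -/
theorem result {G : Type*} [Group G] [Fintype G] (p : ℕ) [Fact p.Prime] (M : Ideal Cfsg.AlgInt) (hM : Cfsg.IsPModular p M) (P : Subgroup G) [P.Normal] (hP : IsPGroup p P) (B : Set (Cfsg.IrrCharacter G)) (e : Set (Cfsg.IrrCharacter (Subgroup.centralizer (P : Set G)))) (hBe : Cfsg.IsBrauerPairOf p M B P e) (T : Subgroup G) (hT : ∀ x : G, x ∈ T ↔ Cfsg.StabilizesBlock (Subgroup.centralizer (P : Set G)) e x) : (∃ E : Set (Cfsg.IrrCharacter T), Cfsg.IsPBlock M E ∧ ∀ t : T, Cfsg.blockCoeff E t = Cfsg.subgroupBlockCoeff (Subgroup.centralizer (P : Set G)) e (t : G)) ∧ ∀ g : G, Cfsg.blockCoeff B g = (Nat.card T : ℂ)⁻¹ * ∑ x : G, Cfsg.subgroupBlockCoeff (Subgroup.centralizer (P : Set G)) e (x⁻¹ * g * x) := by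
  classical
  have := IsPModular.isPrime hM
  have hPn : ∀ x : G, x ∈ Subgroup.normalizer (P : Set G) := by
    intro x
    rw [Subgroup.normalizer_eq_top]
    exact Subgroup.mem_top x
  have hTs : IsPairStab P e T := fun y => ⟨fun h => ⟨hPn y, (hT y).mp h⟩, fun h => (hT y).mpr h.2⟩
  obtain ⟨E, hE, hEe⟩ := hTs.exists_block hM hBe.1
  refine ⟨⟨E, hE, (hTs.sbc_eq_iff E).mp hEe⟩, ?_⟩
  have he := hBe.1.2
  have hB := hBe.2.1
  obtain ⟨ε, hε⟩ : ∃ ε, ε = subgroupBlockCoeff (cz P) e := ⟨_, rfl⟩
  have hst : StabIdem T ε := hε ▸ stabIdem_sbc he hT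
  have hS : ∀ g, MemLocalRing M (ε g) := hε ▸ sbc_memLocalRing _ he
  obtain ⟨s, hs⟩ : ∃ s, s = zEl T ε delta := ⟨_, rfl⟩
  have hscl : IsClassFunction G s := hs ▸ isClassFunction_zEl T ε _
  have hsS : ∀ g, MemLocalRing M (s g) := by
    intro g
    rw [hs]
    exact memLocalRing_zEl hst hS isClassFunction_delta memLocalRing_delta g
  have hsform : ∀ g, s g = (Nat.card T : ℂ)⁻¹ * ∑ x : G, ε (x⁻¹ * g * x) := by
    intro g
    rw [hs, zEl, delta_conv, indFun, ← hst.eq_ext]
  obtain ⟨a, ha⟩ : ∃ a : IrrCharacter G → ℂ, a = fun χ : IrrCharacter G => om (χ : G → ℂ) s := ⟨_, rfl⟩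
  have haZ : a ∈ ZS M G := ha ▸ om_mem_ZS hscl hsS
  have hsa : s = coef a := ha ▸ eq_coef_om hscl
  have hai : a * a = a := by
    ext χ
    rw [Pi.mul_apply, ha]
    simp only
    by_cases ho : Over T ε (χ : G → ℂ)
    · rw [hs, om_zEl_delta_of_over hst χ.2 ho, mul_one]
    · rw [hs, om_zEl_delta_of_not_over hst χ.2 ho, mul_zero]
  -- the idempotent of `B`
  obtain ⟨β, hβ⟩ : ∃ β, β = blockCoeff B := ⟨_, rfl⟩
  have hβc : β = coef (B.indicator 1) := by rw [hβ, blockCoeff_fun]
  have hβcl : IsClassFunction G β := hβc ▸ isClassFunction_coef _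
  have hβI : IsCentralIdem M (cz P) β := by
    refine ⟨fun g hg => ?_, fun h _ g => hβcl g h, ?_, ?_⟩
    · rw [hβc]
      exact coef_indicator_eq_zero_of_not_mem_centralizer hM inferInstance hP hB hg
    · rw [hβc]
      exact IsPBlock.indicator_mem_ZS hB
    · rw [hβc, ← coef_mul]
      congr 1
      ext χ
      by_cases hχ : χ ∈ B
      · rw [Pi.mul_apply, Set.indicator_of_mem hχ]; simp
      · rw [Pi.mul_apply, Set.indicator_of_notMem hχ]; simp
  obtain ⟨a', ha'Z, ha'i, hβa'⟩ := hβI.exists_coef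
  have hεβ : conv ε β = ε := by
    rw [hε, sbc_eq_ext, hβa', ← ext_conv, ← coef_mul]
    congr 2
    ext ξ
    rw [Pi.mul_apply]
    by_cases hξ : ξ ∈ e
    · rw [Set.indicator_of_mem hξ, Pi.one_apply, one_mul]
      have h1 := hBe.2.2 ξ hξ
      have h2 : brauerOmega P (blockCoeff B) (ξ : cz P → ℂ) = a' ξ := by
        rw [brauerOmega_eq_om, ← om_coef a' ξ]
        congr 1
        ext c
        rw [resC_apply, ← hβ, hβa', extendByZero_coe]
      rw [h2] at h1
      have h3 := congrFun ha'i ξ
      rw [Pi.mul_apply] at h3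
      have h4 : a' ξ * (a' ξ - 1) = 0 := by rw [mul_sub, h3]; ring
      rcases mul_eq_zero.mp h4 with h5 | h5
      · exfalso
        rw [h5, zero_sub] at h1
        have := MemLocalIdeal.neg h1
        rw [neg_neg] at this
        exact not_memLocalIdeal_one this
      · exact sub_eq_zero.mp h5
    · rw [Set.indicator_of_notMem hξ, zero_mul]
  have hsorb : s = (Nat.card T : ℂ)⁻¹ • orbSum ε := by
    ext g
    rw [hsform, Pi.smul_apply, orbSum_apply, smul_eq_mul]
  have hsβ : conv s β = s := by
    have h1 : conv (orbSum ε) β = orbSum ε := by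
      rw [orbSum, sum_conv']
      refine Finset.sum_congr rfl fun x _ => ?_
      conv_lhs => rw [← cjF_of_class hβcl x]
      rw [← cjF_conv, hεβ]
    rw [hsorb]
    ext g
    have h2 := congrFun h1 g
    rw [conv_apply] at h2 ⊢
    rw [Pi.smul_apply, ← h2, smul_eq_mul, Finset.mul_sum]
    refine Finset.sum_congr rfl fun y _ => ?_
    rw [Pi.smul_apply, smul_eq_mul, mul_assoc]
  have hab : a * B.indicator 1 = a := by
    apply coef_injective
    rw [coef_mul, ← hsa, ← hβc, hsβ]
  have ha0 : a ≠ 0 := by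
    obtain ⟨ψ, hψ⟩ := IsPBlock.nonempty hE
    have h1 : om (ψ : T → ℂ) (resT T ε) = 1 := by
      have h2 : resT T ε = coef (E.indicator 1) := by
        ext t
        rw [resT_apply, hε, ← hEe, sbc_coe, blockCoeff_eq_coef]
      rw [h2, om_coef, Set.indicator_of_mem hψ]
      rfl
    intro h0
    have h3 := congrFun h0 ⟨_, (fr_irr hst h1).1⟩
    rw [ha] at h3
    simp only at h3
    rw [hs, om_zEl_delta_of_over hst (fr_irr hst h1).1 (over_indFun hst h1)] at h3
    exact one_ne_zero h3
  have hfin := idem_eq_indicator haZ hai hB hab ha0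
  intro g
  rw [blockCoeff_eq_coef, ← hfin, ← hsa, hsform, hε]

end Cfsg.Agent.S4654
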