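import Cfsg.Statements.S4664
import Cfsg.Agent.Lib.Helper24.FieldOfValues
import Cfsg.Agent.Lib.Helper6.BlockOrth
-- import your own Cfsg.Agent.* helpers here

set_option autoImplicit false
open Cfsg

namespace Cfsg.Agent.S4664

open Cfsg.Agent.Lib.Helper24 Cfsg.Agent.Lib.Helper2 Cfsg.Agent.Lib.Helper6
open scoped Classical

attribute [local instance] irrFintype

/-- Fix a prime p and a maximal ideal M of the algebraic integers containing p, and let B be a p-block of the finite group G. Let m be the p'-part of the order of G and η = exp(2πi/m). Then every coefficient of the idempotent of B lies in the cyclotomic field ℚ(η). -/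
theorem result {G : Type*} [Group G] [Fintype G] (p : ℕ) [Fact p.Prime] (M : Ideal Cfsg.AlgInt) (hM : Cfsg.IsPModular p M) (B : Set (Cfsg.IrrCharacter G)) (hB : Cfsg.IsPBlock M B) (g : G) : Cfsg.blockCoeff B g ∈ IntermediateField.adjoin ℚ ({Complex.exp (2 * Real.pi * Complex.I / ((Nat.card G / p ^ (Nat.card G).factorization p : ℕ) : ℂ))} : Set ℂ) := by
  have hp : p.Prime := Fact.out
  rw [blockCoeff_eq_coef]
  by_cases hg : p ∣ orderOf g
  · rw [coef_indicator_eq_zero hM hB hg]
    exact zero_mem _
  · set m := Nat.card G / p ^ (Nat.card G).factorization p with hm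
    have hcard : Nat.card G = p ^ (Nat.card G).factorization p * m :=
      (Nat.mul_div_cancel' (Nat.ordProj_dvd _ _)).symm
    have hm0 : m ≠ 0 := by
      intro h0
      rw [h0, mul_zero] at hcard
      exact Nat.card_pos.ne' hcard
    have hgm : g ^ m = 1 := by
      apply orderOf_dvd_iff_pow_eq_one.mp
      have h1 : orderOf g ∣ p ^ (Nat.card G).factorization p * m := by
        rw [← hcard]; exact orderOf_dvd_natCard g
      have hcop : Nat.Coprime (orderOf g) (p ^ (Nat.card G).factorization p) :=
        Nat.Coprime.pow_right _ ((Nat.Prime.coprime_iff_not_dvd hp).mpr hg).symm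
      exact hcop.dvd_of_dvd_mul_left h1
    rw [coef_apply]
    refine mul_mem (inv_mem (natCast_mem _ _)) (sum_mem fun χ _ => ?_)
    have hc := IsIrrCharacter.isCharacter χ.2
    refine mul_mem ?_ (mul_mem ?_ (conj_char_mem_adjoin hc hm0 hgm))
    · by_cases h : χ ∈ B
      · rw [Set.indicator_of_mem h]; exact one_mem _
      · rw [Set.indicator_of_notMem h]; exact zero_mem _
    · rw [← charDegree_cast hc]
      exact natCast_mem _ _

end Cfsg.Agent.S4664
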