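import Cfsg.Statements.S4665
import Cfsg.Agent.Lib.Helper24.CharInt
import Cfsg.Agent.Lib.Helper6.BlockOrth
-- import your own Cfsg.Agent.* helpers here

set_option autoImplicit false
open Cfsg

namespace Cfsg.Agent.S4665

open Cfsg.Agent.Lib.Helper24 Cfsg.Agent.Lib.Helper2 Cfsg.Agent.Lib.Helper6
open scoped Classical ComplexConjugate

attribute [local instance] irrFintype

/-- Fix a prime p, a maximal ideal M of the algebraic integers containing p, and a p-block B of the finite group G, and let p^a be the p-part of the order of G. Let χ be an integer combination of the irreducible characters in B. If the function that agrees with χ on p-regular elements and vanishes on p-singular elements is again an integer combination of the irreducible characters in B, then p^a divides χ(1). -/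
theorem result {G : Type*} [Group G] [Fintype G] (p : ℕ) [Fact p.Prime] (M : Ideal Cfsg.AlgInt) (hM : Cfsg.IsPModular p M) (B : Set (Cfsg.IrrCharacter G)) (hB : Cfsg.IsPBlock M B) (χ : G → ℂ) (hχ : (∃ n : Cfsg.IrrCharacter G → ℤ, ∀ g : G, χ g = ∑ᶠ ψ ∈ B, (n ψ : ℂ) * (ψ : G → ℂ) g)) (h0 : (∃ n : Cfsg.IrrCharacter G → ℤ, ∀ g : G, Cfsg.pRegularPart p χ g = ∑ᶠ ψ ∈ B, (n ψ : ℂ) * (ψ : G → ℂ) g)) : ∃ k : ℤ, χ 1 = (p ^ (Nat.card G).factorization p : ℂ) * k := by
  have hp : p.Prime := Fact.out
  obtain ⟨n, hn⟩ := h0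
  obtain ⟨P⟩ : Nonempty (Sylow p G) := inferInstance
  have hm : ∀ ψ : IrrCharacter G, ∃ m : ℕ,
      classInner (fun x : (P : Subgroup G) => (ψ : G → ℂ) x) (fun _ => 1) = m := fun ψ =>
    IsCharacter.classInner_nat (IsCharacter.restrict _ (IsIrrCharacter.isCharacter ψ.2))
      (IsIrrCharacter.isCharacter isIrrCharacter_one)
  choose m hm using hm
  have hreg1 : pRegularPart p χ 1 = χ 1 := by
    unfold pRegularPart
    rw [if_pos]
    unfold IsPRegular
    rw [orderOf_one]
    exact hp.one_lt.ne' ∘ Nat.dvd_one.mp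
  have hsing : ∀ x : (P : Subgroup G), x ≠ 1 → pRegularPart p χ (x : G) = 0 := by
    intro x hx
    unfold pRegularPart
    rw [if_neg]
    unfold IsPRegular
    rw [not_not]
    obtain ⟨k, hk⟩ := (IsPGroup.iff_orderOf.mp P.2) x
    rw [Subgroup.orderOf_coe, hk]
    apply dvd_pow_self
    rintro rfl
    rw [pow_zero, orderOf_eq_one_iff] at hk
    exact hx hk
  have h1 : classInner (fun x : (P : Subgroup G) => pRegularPart p χ (x : G)) (fun _ => 1) =
      (Nat.card (P : Subgroup G) : ℂ)⁻¹ * χ 1 := by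
    unfold classInner
    congr 1
    rw [Finset.sum_eq_single 1]
    · simp [hreg1]
    · intro x _ hx
      show pRegularPart p χ (x : G) * _ = 0
      rw [hsing x hx, zero_mul]
    · intro h; exact absurd (Finset.mem_univ _) h
  have h2 : (fun x : (P : Subgroup G) => pRegularPart p χ (x : G)) =
      ∑ ψ : IrrCharacter G, (B.indicator 1 ψ * (n ψ : ℂ)) •
        (fun x : (P : Subgroup G) => (ψ : G → ℂ) x) := by
    funext x
    rw [hn, finsum_mem_eq_sum_indicator, Finset.sum_apply]
    refine Finset.sum_congr rfl fun ψ _ => ?_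
    simp [mul_assoc]
  rw [h2, classInner_sum_left] at h1
  simp only [classInner_smul_left, hm] at h1
  have h3 : ∀ ψ : IrrCharacter G, (B.indicator 1 ψ : ℂ) * (n ψ : ℂ) * (m ψ : ℂ) =
      (((if ψ ∈ B then n ψ * m ψ else 0 : ℤ)) : ℂ) := by
    intro ψ
    by_cases h : ψ ∈ B
    · rw [Set.indicator_of_mem h, if_pos h]; simp
    · rw [Set.indicator_of_notMem h, if_neg h]; simp
  simp only [h3] at h1
  refine ⟨∑ ψ : IrrCharacter G, (if ψ ∈ B then n ψ * m ψ else 0 : ℤ), ?_⟩
  have hcard : (Nat.card (P : Subgroup G) : ℂ) = (p : ℂ) ^ (Nat.card G).factorization p := by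
    rw [Sylow.card_eq_multiplicity]; push_cast; rfl
  have hP0 : (Nat.card (P : Subgroup G) : ℂ) ≠ 0 := card_subgroup_ne_zero _
  rw [← hcard]
  push_cast
  push_cast at h1
  rw [h1]
  field_simp

end Cfsg.Agent.S4665
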