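import Mathlib
import Cfsg.Statements.S4666
import Cfsg.Agent.Lib.Helper6.RegInt

set_option autoImplicit false
open Cfsg
open Cfsg.Agent.Lib.Helper6 Cfsg.Agent.Lib.Helper2
open scoped ComplexConjugate Classical

attribute [local instance] irrFintype

namespace Cfsg.Agent.S4666

/-- Fix a prime p and a maximal ideal M of the algebraic integers containing p, and a p-block B of the finite group G of defect d. For every integer combination χ of the irreducible characters in B, p^d times the function that agrees with χ on p-regular elements and vanishes elsewhere is again an integer combination of the irreducible characters in B. -/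
theorem result {G : Type*} [Group G] [Fintype G] (p : ℕ) [Fact p.Prime] (M : Ideal Cfsg.AlgInt) (hM : Cfsg.IsPModular p M) (B : Set (Cfsg.IrrCharacter G)) (hB : Cfsg.IsPBlock M B) (χ : G → ℂ) (hχ : (∃ n : Cfsg.IrrCharacter G → ℤ, ∀ g : G, χ g = ∑ᶠ ψ ∈ B, (n ψ : ℂ) * (ψ : G → ℂ) g)) : (∃ n : Cfsg.IrrCharacter G → ℤ, ∀ g : G, (p ^ Cfsg.blockDefect p B : ℂ) * Cfsg.pRegularPart p χ g = ∑ᶠ ψ ∈ B, (n ψ : ℂ) * (ψ : G → ℂ) g) := by
  have := IsPModular.isPrime hM
  obtain ⟨n, hn⟩ := hχ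
  have hm : ∀ ψ ξ : IrrCharacter G, ∃ m : ℤ, ψ ∈ B →
      ((p : ℂ) ^ blockDefect p B) * classInner (regPart p (ψ : G → ℂ)) (ξ : G → ℂ) = (m : ℂ) := by
    intro ψ ξ
    by_cases hψ : ψ ∈ B
    · obtain ⟨m, hm⟩ := exists_int_pow_defect_mul (p := p) hψ ξ
      exact ⟨m, fun _ => hm⟩
    · exact ⟨0, fun h => absurd h hψ⟩
  choose m hm using hm
  refine ⟨fun ξ => ∑ ψ : IrrCharacter G, if ψ ∈ B then n ψ * m ψ ξ else 0, fun g => ?_⟩
  rw [finsum_mem_eq_sum_indicator, pRegularPart_eq_regPart]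
  have h1 : regPart p χ g = ∑ ψ : IrrCharacter G, B.indicator 1 ψ *
      ((n ψ : ℂ) * regPart p (ψ : G → ℂ) g) := by
    rw [regPart_apply]
    split_ifs with hg
    · symm
      apply Finset.sum_eq_zero
      intro ψ _
      rw [regPart_of_dvd _ hg]; simp
    · rw [hn g, finsum_mem_eq_sum_indicator]
      refine Finset.sum_congr rfl fun ψ _ => ?_
      rw [regPart_of_not_dvd _ hg]
  have h2 : ∀ ψ : IrrCharacter G, ψ ∈ B → regPart p (ψ : G → ℂ) g =
      ∑ ξ : IrrCharacter G, B.indicator 1 ξ *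
        (classInner (regPart p (ψ : G → ℂ)) (ξ : G → ℂ) * (ξ : G → ℂ) g) := by
    intro ψ hψ
    conv_lhs => rw [← bPart_regPart_irr hM hB hψ]
    simp only [bPart, Finset.sum_apply, Pi.smul_apply, smul_eq_mul]
    exact Finset.sum_congr rfl fun ξ _ => by ring
  rw [h1, Finset.mul_sum]
  have h3 : ∀ ψ : IrrCharacter G, ((p : ℂ) ^ blockDefect p B) * (B.indicator 1 ψ *
      ((n ψ : ℂ) * regPart p (ψ : G → ℂ) g)) =
      ∑ ξ : IrrCharacter G, B.indicator 1 ξ *
        (((if ψ ∈ B then n ψ * m ψ ξ else 0 : ℤ) : ℂ) * (ξ : G → ℂ) g) := by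
    intro ψ
    by_cases hψ : ψ ∈ B
    · rw [Set.indicator_of_mem hψ, Pi.one_apply, one_mul, h2 ψ hψ, Finset.mul_sum, Finset.mul_sum]
      refine Finset.sum_congr rfl fun ξ _ => ?_
      rw [if_pos hψ]
      push_cast
      rw [← hm ψ ξ hψ]
      ring
    · rw [Set.indicator_of_notMem hψ]
      simp [hψ]
  rw [Finset.sum_congr rfl (fun ψ _ => h3 ψ), Finset.sum_comm]
  refine Finset.sum_congr rfl fun ξ _ => ?_
  rw [← Finset.mul_sum, ← Finset.sum_mul]
  push_cast
  rfl

end Cfsg.Agent.S4666
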