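import Cfsg.Statements.S4668
import Cfsg.Agent.Lib.Helper24.BlockIdem
import Cfsg.Agent.Lib.Helper6.BlockOrth
import Cfsg.Agent.Lib.Helper8.Coprime
-- import your own Cfsg.Agent.* helpers here

set_option autoImplicit false
open Cfsg

namespace Cfsg.Agent.S4668

open Cfsg.Agent.Lib.Helper24 Cfsg.Agent.Lib.Helper6

/-- Fix a prime p and a maximal ideal M of the algebraic integers containing p. Let Q₀ < Q₁ < ⋯ < Q_m be a strictly increasing chain of p-subgroups of the finite group G and N the intersection of their normalizers. Then every block idempotent of N is supported on C_G(Q_m): for every p-block E of N, the idempotent coefficient of E vanishes at every element of N outside C_G(Q_m). -/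
theorem result {G : Type*} [Group G] [Fintype G] (p : ℕ) [Fact p.Prime] (M : Ideal Cfsg.AlgInt) (hM : Cfsg.IsPModular p M) (m : ℕ) (Q : Fin (m + 1) → Subgroup G) (hQ : StrictMono Q) (hQp : ∀ i, IsPGroup p (Q i)) (N : Subgroup G) (hN : ∀ g : G, g ∈ N ↔ ∀ i, g ∈ Subgroup.normalizer (Q i : Set G)) (E : Set (Cfsg.IrrCharacter N)) (hE : Cfsg.IsPBlock M E) (n : N) (hn : (n : G) ∉ Subgroup.centralizer (Q (Fin.last m) : Set G)) : Cfsg.blockCoeff E n = 0 := by
  classical
  by_contra hne
  have hmono : Monotone Q := hQ.monotone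
  -- `n` is `p`-regular
  have hreg : ¬ p ∣ orderOf n := by
    intro h
    apply hne
    rw [blockCoeff_eq_coef]
    exact coef_indicator_eq_zero hM hE h
  have hreg' : (orderOf (n : G)).Coprime p := by
    rw [Subgroup.orderOf_coe, Nat.coprime_comm]
    exact (Nat.Prime.coprime_iff_not_dvd (Fact.out)).mpr hreg
  -- `n` centralizes `Q_m ∩ N`
  have hR : (n : G) ∈ cz (Q (Fin.last m) ⊓ N) := by
    by_contra h
    apply hne
    have h1 := sbc_eq_zero_of_not_mem_cz hM (Q := Q (Fin.last m) ⊓ N) (T := N)
      ((hQp _).to_le inf_le_left) inf_le_right ?_ hE h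
    · rwa [sbc_mem _ _ n.2] at h1
    · intro x hx
      rw [Subgroup.mem_normalizer_iff]
      intro y
      have h2 := Subgroup.mem_normalizer_iff.mp ((hN x).mp hx (Fin.last m)) y
      constructor
      · intro hy
        exact Subgroup.mem_inf.mpr ⟨h2.mp (Subgroup.mem_inf.mp hy).1,
          N.mul_mem (N.mul_mem hx (Subgroup.mem_inf.mp hy).2) (N.inv_mem hx)⟩
      · intro hy
        refine Subgroup.mem_inf.mpr ⟨h2.mpr (Subgroup.mem_inf.mp hy).1, ?_⟩
        have h3 := N.mul_mem (N.mul_mem (N.inv_mem hx) (Subgroup.mem_inf.mp hy).2) hx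
        simpa [mul_assoc] using h3
  have hR' : ∀ x ∈ Q (Fin.last m), x ∈ N → x * (n : G) = (n : G) * x := by
    intro x hx hxN
    exact Subgroup.mem_centralizer_iff.mp hR x (Subgroup.mem_inf.mpr ⟨hx, hxN⟩)
  have key : ∀ i : ℕ, ∀ hi : i < m + 1, ∀ x ∈ Q ⟨i, hi⟩, x * (n : G) = (n : G) * x := by
    intro i
    induction i with
    | zero =>
      intro hi x hx
      apply hR' x (hmono (Fin.le_last _) hx)
      rw [hN]
      intro j
      exact Subgroup.le_normalizer (hmono (Fin.zero_le j) hx)
    | succ i ih =>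
      intro hi
      have hi' : i < m + 1 := by omega
      have hle : Q ⟨i, hi'⟩ ≤ Q ⟨i + 1, hi⟩ := hmono (by
        rw [Fin.le_def]; simp)
      apply Cfsg.Agent.Lib.Helper8.thompson_AxB (hQp _) (hQp ⟨i, hi'⟩)
        (hle.trans Subgroup.le_normalizer) ((hN n).mp n.2 _) hreg'
      · intro b hb
        exact (ih hi' b hb).symm
      · intro x hx hxb
        apply hR' x (hmono (Fin.le_last _) hx)
        rw [hN]
        intro j
        by_cases hj : j.1 ≤ i
        · apply Subgroup.centralizer_le_normalizer
          rw [Subgroup.mem_centralizer_iff]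
          intro y hy
          exact (hxb y (hmono (by rw [Fin.le_def]; exact hj) hy)).symm
        · exact Subgroup.le_normalizer (hmono (by rw [Fin.le_def]; simp; omega) hx)
  apply hn
  rw [Subgroup.mem_centralizer_iff]
  intro x hx
  exact key m (by omega) x hx

end Cfsg.Agent.S4668
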