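import Cfsg.Statements.S4674
import Cfsg.Agent.Lib.Helper24.HK4
-- import your own Cfsg.Agent.* helpers here

set_option autoImplicit false
open Cfsg

namespace Cfsg.Agent.S4674

open Cfsg.Agent.Lib.Helper24 Cfsg.Agent.Lib.Helper6

/-- Fix a prime p and a maximal ideal M of the algebraic integers containing p. Let N be a normal subgroup of the finite group G, Q a p-subgroup of N, H = N_G(Q) and L = H ∩ N = N_N(Q). Let d be a p-block of N with defect group Q and e the p-block of L with defect group Q that induces d inside N (its Brauer correspondent). Then block induction from H to G is a bijection from the p-blocks of H covering e onto the p-blocks of G covering d: every block of H covering e induces exactly one block of G, and that block covers d; and every block of G covering d is induced by exactly one block of H covering e. -/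
theorem result {G : Type*} [Group G] [Fintype G] (p : ℕ) [Fact p.Prime] (M : Ideal Cfsg.AlgInt) (hM : Cfsg.IsPModular p M) (N : Subgroup G) [N.Normal] [Fintype N] (Q : Subgroup G) (hQ : IsPGroup p Q) (hQN : Q ≤ N) [Fintype ↥(Subgroup.normalizer (Q : Set G) ⊓ N)] (d : Set (Cfsg.IrrCharacter N)) (hd : Cfsg.IsPBlock M d) (hdQ : Cfsg.IsDefectGroup p M d (Q.subgroupOf N)) (e : Set (Cfsg.IrrCharacter ↥(Subgroup.normalizer (Q : Set G) ⊓ N))) (he : Cfsg.IsPBlock M e) (heQ : Cfsg.IsDefectGroup p M e (Q.subgroupOf (Subgroup.normalizer (Q : Set G) ⊓ N))) (hed : Cfsg.IsInducedBlockIn M N (Subgroup.normalizer (Q : Set G) ⊓ N) e d) : (∀ c : Set (Cfsg.IrrCharacter ↥(Subgroup.normalizer (Q : Set G))), Cfsg.IsPBlock M c → (∃ ψ ∈ c, ∃ ξ ∈ e, Cfsg.classInner (fun l : ↥(Subgroup.normalizer (Q : Set G) ⊓ N) => (ψ : ↥(Subgroup.normalizer (Q : Set G)) → ℂ) (Subgroup.inclusion inf_le_left l)) (ξ : ↥(Subgroup.normalizer (Q : Set G) ⊓ N) → ℂ)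 ≠ 0) → ∃! B : Set (Cfsg.IrrCharacter G), Cfsg.IsInducedBlock M (Subgroup.normalizer (Q : Set G)) c B ∧ (∃ χ ∈ B, ∃ θ ∈ d, Cfsg.classInner (fun n : N => (χ : G → ℂ) n) (θ : N → ℂ) ≠ 0)) ∧ (∀ B : Set (Cfsg.IrrCharacter G), Cfsg.IsPBlock M B → (∃ χ ∈ B, ∃ θ ∈ d, Cfsg.classInner (fun n : N => (χ : G → ℂ) n) (θ : N → ℂ) ≠ 0) → ∃! c : Set (Cfsg.IrrCharacter ↥(Subgroup.normalizer (Q : Set G))), (Cfsg.IsPBlock M c ∧ ∃ ψ ∈ c, ∃ ξ ∈ e, Cfsg.classInner (fun l : ↥(Subgroup.normalizer (Q : Set G) ⊓ N) => (ψ : ↥(Subgroup.normalizer (Q : Set G)) → ℂ) (Subgroup.inclusion inf_le_left l)) (ξ : ↥(Subgroup.normalizer (Q : Set G) ⊓ N) → ℂ) ≠ 0) ∧ Cfsg.IsInducedBlock M (Subgroup.normalizer (Q : Set G)) c B) := by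
  classical
  have := IsPModular.isPrime hM
  have e1 : (‹Fintype ↥(Subgroup.normalizer (Q : Set G) ⊓ N)› :
      Fintype ↥(Subgroup.normalizer (Q : Set G) ⊓ N)) =
      Subgroup.instFintypeSubtypeMemOfDecidablePred _ := Subsingleton.elim _ _
  subst e1
  have e2 : (‹Fintype ↥N› : Fintype ↥N) =
      Subgroup.instFintypeSubtypeMemOfDecidablePred _ := Subsingleton.elim _ _
  subst e2
  have hconv : ∀ c : Set (Cfsg.IrrCharacter ↥(Subgroup.normalizer (Q : Set G))),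
      (∃ ψ ∈ c, ∃ ξ ∈ e, Cfsg.classInner (fun l : ↥(Subgroup.normalizer (Q : Set G) ⊓ N) => (ψ : ↥(Subgroup.normalizer (Q : Set G)) → ℂ) (Subgroup.inclusion inf_le_left l)) (ξ : ↥(Subgroup.normalizer (Q : Set G) ⊓ N) → ℂ) ≠ 0) ↔
      (∃ ψ ∈ c, ∃ ξ ∈ e, classInner ((ψ : nor Q → ℂ) ∘ Subgroup.inclusion inf_le_left)
        (ξ : ↥(nor Q ⊓ N) → ℂ) ≠ 0) := by
    intro c
    rfl
  have hconv2 : ∀ B : Set (Cfsg.IrrCharacter G),
      (∃ χ ∈ B, ∃ θ ∈ d, Cfsg.classInner (fun n : N => (χ : G → ℂ) n) (θ : N → ℂ) ≠ 0) ↔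
      Cov N B d := by
    intro B
    rfl
  simp only [hconv, hconv2]
  constructor
  · intro c hc hcov
    obtain ⟨B, hind⟩ := inducedBlockDefined_of_le hM hQ (le_nor Q) (centralizer_le_nor Q) le_rfl hc
    refine ⟨B, ⟨hind, cov_of_induced hed hind hcov⟩, ?_⟩
    rintro B' ⟨hind', -⟩
    exact isInducedBlock_unique hind' hind
  · intro B hB hcov
    obtain ⟨c, hind, hc⟩ := exists_induced_cov hM hQ hQN hd hdQ he heQ hed hB hcov
    refine ⟨c, ⟨⟨hind.1, hc⟩, hind⟩, ?_⟩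
    rintro c' ⟨⟨-, hc'⟩, hind'⟩
    exact induced_cov_unique hM hQN he heQ hind' hind hc' hc

end Cfsg.Agent.S4674
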