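import Mathlib
import Cfsg.Statements.S4675
import Cfsg.Agent.Lib.Helper6.RegInt
import Cfsg.Agent.Lib.Helper6.IndPart

set_option autoImplicit false
open Cfsg
open Cfsg.Agent.Lib.Helper6 Cfsg.Agent.Lib.Helper2
open scoped ComplexConjugate Classical

attribute [local instance] irrFintype

namespace Cfsg.Agent.S4675

/-- Fix a prime p and a maximal ideal M of the algebraic integers containing p. Let B be a p-block of the finite group G with defect group P and p-regular rank one (a single irreducible Brauer character). Then there are a function φ on G that is, on the p-regular elements, an integer combination of the members of B, and natural numbers d_χ (χ ∈ B), such that every χ ∈ B agrees with d_χ·φ on the p-regular elements and Σ_{χ ∈ B} d_χ² equals the order of P (the single Cartan invariant of B is the order of P). -/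
theorem result {G : Type*} [Group G] [Fintype G] (p : ℕ) [Fact p.Prime] (M : Ideal Cfsg.AlgInt) (hM : Cfsg.IsPModular p M) (B : Set (Cfsg.IrrCharacter G)) (hB : Cfsg.IsPBlock M B) (P : Subgroup G) (hP : Cfsg.IsDefectGroup p M B P) (hl : Cfsg.blockRank p B = 1) : ∃ φ : G → ℂ, ∃ d : Cfsg.IrrCharacter G → ℕ, (∃ n : Cfsg.IrrCharacter G → ℤ, ∀ x : G, Cfsg.IsPRegular p x → φ x = ∑ᶠ ψ ∈ B, (n ψ : ℂ) * (ψ : G → ℂ) x) ∧ (∀ χ ∈ B, ∀ x : G, Cfsg.IsPRegular p x → (χ : G → ℂ) x = (d χ : ℂ) * φ x) ∧ ∑ᶠ χ ∈ B, d χ ^ 2 = Nat.card P := by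
  have := IsPModular.isPrime hM
  have hp : p.Prime := hM.1
  -- proportionality
  have hcross : ∀ χ ∈ B, ∀ χ' ∈ B, ∀ x : G, ¬ p ∣ orderOf x →
      (χ : G → ℂ) 1 * (χ' : G → ℂ) x = (χ' : G → ℂ) 1 * (χ : G → ℂ) x := by
    rw [blockRank] at hl
    obtain ⟨v, hv0, hv⟩ := finrank_eq_one_iff'.mp hl
    have h1 : ∀ χ ∈ B, ∃ c : ℂ, ∀ x : G, ¬ p ∣ orderOf x → (χ : G → ℂ) x = c * (v : G → ℂ) x := by
      intro χ hχ
      obtain ⟨c, hc⟩ := hv ⟨pRegularPart p (χ : G → ℂ), Submodule.subset_span ⟨χ, hχ, rfl⟩⟩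
      refine ⟨c, fun x hx => ?_⟩
      have h2 := congrFun (congrArg Subtype.val hc) x
      simp only [Submodule.coe_smul, Pi.smul_apply, smul_eq_mul] at h2
      rw [h2, pRegularPart_eq_regPart, regPart_of_not_dvd _ hx]
    intro χ hχ χ' hχ' x hx
    obtain ⟨c, hc⟩ := h1 χ hχ
    obtain ⟨c', hc'⟩ := h1 χ' hχ'
    have h11 : ¬ p ∣ orderOf (1 : G) := by rw [orderOf_one]; exact hp.one_lt.ne' ∘ Nat.dvd_one.mp
    rw [hc 1 h11, hc' 1 h11, hc x hx, hc' x hx]
    ring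
  -- the gcd of the degrees
  set s : Finset (IrrCharacter G) := Finset.univ.filter (· ∈ B) with hs
  set f : IrrCharacter G → ℤ := fun χ => (charDegree (χ : G → ℂ) : ℤ) with hf
  obtain ⟨n, hn⟩ := Finset.gcd_eq_sum_mul s f
  set gz : ℤ := s.gcd f with hgz
  obtain ⟨χ₀, hχ₀, hh0⟩ := exists_height_zero (p := p) (IsPBlock.nonempty hB)
  have hmem : ∀ χ, χ ∈ s ↔ χ ∈ B := fun χ => by simp [hs]
  have hgz0 : gz ≠ 0 := by
    intro h0
    have := (Finset.gcd_eq_zero_iff.mp h0) χ₀ ((hmem χ₀).mpr hχ₀)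
    simp only [hf] at this
    exact (Cfsg.Agent.Lib.Helper24.charDegree_pos χ₀.2).ne' (by exact_mod_cast this)
  have hgzc : (gz : ℂ) ≠ 0 := by exact_mod_cast hgz0
  have hgnn : 0 ≤ gz := by
    have h1 : normalize gz = gz := Finset.normalize_gcd
    exact Int.nonneg_of_normalize_eq_self h1
  have hdex : ∀ χ : IrrCharacter G, ∃ k : ℕ, χ ∈ B → f χ = gz * (k : ℤ) := by
    intro χ
    by_cases hχ : χ ∈ B
    · obtain ⟨k, hk⟩ := Finset.gcd_dvd (f := f) ((hmem χ).mpr hχ)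
      have hk0 : 0 ≤ k := by
        have h1 : 0 ≤ gz * k := by
          have h2 := hk
          rw [← hgz] at h2
          rw [← h2]; simp [hf]
        by_contra hneg
        push Not at hneg
        have : gz * k < 0 := mul_neg_of_pos_of_neg (lt_of_le_of_ne hgnn hgz0.symm) hneg
        omega
      refine ⟨k.toNat, fun _ => ?_⟩
      rw [Int.toNat_of_nonneg hk0]
      exact hk
    · exact ⟨0, fun h => absurd h hχ⟩
  choose d hd using hdex
  have hdc : ∀ χ ∈ B, (χ : G → ℂ) 1 = (gz : ℂ) * (d χ : ℂ) := by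
    intro χ hχ
    rw [← Cfsg.Agent.Lib.Helper24.charDegree_cast (IsIrrCharacter.isCharacter χ.2)]
    have := hd χ hχ
    simp only [hf] at this
    exact_mod_cast this
  -- Bezout
  have hbez : ∑ χ : IrrCharacter G, B.indicator 1 χ * ((n χ : ℂ) * (d χ : ℂ)) = 1 := by
    have h1 : (gz : ℂ) = ∑ χ : IrrCharacter G, B.indicator 1 χ *
        ((gz : ℂ) * ((n χ : ℂ) * (d χ : ℂ))) := by
      have h2 : (gz : ℂ) = ((∑ a ∈ s, f a * n a : ℤ) : ℂ) := by rw [← hn]
      conv_lhs => rw [h2, hs, Finset.sum_filter]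
      push_cast
      refine Finset.sum_congr rfl fun χ _ => ?_
      split_ifs with hχ
      · rw [Set.indicator_of_mem hχ, Pi.one_apply, one_mul]
        have := hd χ hχ
        have h3 : (f χ : ℂ) = (gz : ℂ) * (d χ : ℂ) := by exact_mod_cast this
        rw [h3]; ring
      · rw [Set.indicator_of_notMem hχ, zero_mul]
    have h3 : (gz : ℂ) * 1 = (gz : ℂ) * ∑ χ : IrrCharacter G, B.indicator 1 χ *
        ((n χ : ℂ) * (d χ : ℂ)) := by
      rw [mul_one, Finset.mul_sum]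
      conv_lhs => rw [h1]
      exact Finset.sum_congr rfl fun χ _ => by ring
    exact (mul_left_cancel₀ hgzc h3).symm
  set φ : G → ℂ := fun x => ∑ ψ : IrrCharacter G, B.indicator 1 ψ * ((n ψ : ℂ) * (ψ : G → ℂ) x)
    with hφ
  have hprop : ∀ χ ∈ B, ∀ x : G, ¬ p ∣ orderOf x → (χ : G → ℂ) x = (d χ : ℂ) * φ x := by
    intro χ hχ x hx
    have h1 : (d χ : ℂ) * φ x = ∑ ψ : IrrCharacter G, B.indicator 1 ψ *
        ((n ψ : ℂ) * (d ψ : ℂ)) * (χ : G → ℂ) x := by
      rw [hφ, Finset.mul_sum]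
      refine Finset.sum_congr rfl fun ψ _ => ?_
      by_cases hψ : ψ ∈ B
      · rw [Set.indicator_of_mem hψ, Pi.one_apply, one_mul, one_mul]
        have h2 := hcross χ hχ ψ hψ x hx
        rw [hdc χ hχ, hdc ψ hψ] at h2
        have h3 : (d χ : ℂ) * (ψ : G → ℂ) x = (d ψ : ℂ) * (χ : G → ℂ) x := by
          apply mul_left_cancel₀ hgzc
          rw [← mul_assoc, h2, mul_assoc]
        calc (d χ : ℂ) * ((n ψ : ℂ) * (ψ : G → ℂ) x) = (n ψ : ℂ) * ((d χ : ℂ) * (ψ : G → ℂ) x) := by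
              ring
          _ = _ := by rw [h3]; ring
      · rw [Set.indicator_of_notMem hψ]; simp
    rw [h1, ← Finset.sum_mul, hbez, one_mul]
  -- the Cartan invariant
  set c : ℕ := ∑ χ : IrrCharacter G, if χ ∈ B then d χ ^ 2 else 0 with hc
  have hcc : (c : ℂ) = ∑ χ : IrrCharacter G, B.indicator 1 χ * ((d χ : ℂ) * (d χ : ℂ)) := by
    rw [hc]
    push_cast
    refine Finset.sum_congr rfl fun χ _ => ?_
    split_ifs with hχ
    · rw [Set.indicator_of_mem hχ, Pi.one_apply, one_mul, pow_two]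
    · rw [Set.indicator_of_notMem hχ, zero_mul]
  have h11 : ¬ p ∣ orderOf (1 : G) := by rw [orderOf_one]; exact hp.one_lt.ne' ∘ Nat.dvd_one.mp
  have hΦ : ∀ χ' ∈ B, (c : ℂ) • regPart p (χ' : G → ℂ) =
      ∑ ψ : IrrCharacter G, (B.indicator 1 ψ * ((d χ' : ℂ) * (d ψ : ℂ))) • (ψ : G → ℂ) := by
    intro χ' hχ'
    ext y
    simp only [Pi.smul_apply, smul_eq_mul, Finset.sum_apply]
    by_cases hy : p ∣ orderOf y
    · rw [regPart_of_dvd _ hy, mul_zero]
      have h1 := weak_block_orthogonality' hM hB h11 hy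
      have h2 : (gz : ℂ) * ∑ ψ : IrrCharacter G, B.indicator 1 ψ * ((d χ' : ℂ) * (d ψ : ℂ)) *
          (ψ : G → ℂ) y = (d χ' : ℂ) * ∑ χ : IrrCharacter G, B.indicator 1 χ *
            ((χ : G → ℂ) y * conj ((χ : G → ℂ) 1)) := by
        rw [Finset.mul_sum, Finset.mul_sum]
        refine Finset.sum_congr rfl fun ψ _ => ?_
        by_cases hψ : ψ ∈ B
        · rw [hdc ψ hψ]
          simp only [map_mul, map_intCast, map_natCast]
          ring
        · rw [Set.indicator_of_notMem hψ]; simp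
      rw [h1, mul_zero] at h2
      exact ((mul_eq_zero.mp h2).resolve_left hgzc).symm
    · rw [regPart_of_not_dvd _ hy, hprop χ' hχ' y hy, hcc, Finset.sum_mul]
      refine Finset.sum_congr rfl fun ψ _ => ?_
      by_cases hψ : ψ ∈ B
      · rw [hprop ψ hψ y hy]; ring
      · rw [Set.indicator_of_notMem hψ]; simp
  have hinner : ∀ χ' ∈ B, ∀ χ ∈ B, (c : ℂ) * classInner (regPart p (χ' : G → ℂ)) (χ : G → ℂ) =
      (d χ' : ℂ) * (d χ : ℂ) := by
    intro χ' hχ' χ hχ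
    rw [← classInner_smul_left, hΦ χ' hχ', classInner_sum_irr_left, Set.indicator_of_mem hχ,
      Pi.one_apply, one_mul]
  set D := blockDefect p B with hD
  -- `c ∣ p ^ D`
  have hm : ∀ ψ ξ : IrrCharacter G, ∃ m : ℤ, ψ ∈ B →
      ((p : ℂ) ^ D) * classInner (regPart p (ψ : G → ℂ)) (ξ : G → ℂ) = (m : ℂ) := by
    intro ψ ξ
    by_cases hψ : ψ ∈ B
    · obtain ⟨m, hm⟩ := exists_int_pow_defect_mul (p := p) hψ ξ
      exact ⟨m, fun _ => hm⟩
    · exact ⟨0, fun h => absurd h hψ⟩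
  choose m hm using hm
  have hdvd : c ∣ p ^ D := by
    have h1 : ((p ^ D : ℕ) : ℂ) = (c : ℂ) * ((∑ ψ : IrrCharacter G, ∑ ξ : IrrCharacter G,
        if ψ ∈ B ∧ ξ ∈ B then n ψ * n ξ * m ψ ξ else 0 : ℤ) : ℂ) := by
      have h2 : ((p ^ D : ℕ) : ℂ) = (p : ℂ) ^ D *
          ((∑ ψ : IrrCharacter G, B.indicator 1 ψ * ((n ψ : ℂ) * (d ψ : ℂ))) *
            (∑ ξ : IrrCharacter G, B.indicator 1 ξ * ((n ξ : ℂ) * (d ξ : ℂ)))) := by
        rw [hbez]; push_cast; ring
      rw [h2, Finset.sum_mul_sum, Finset.mul_sum]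
      push_cast
      rw [Finset.mul_sum]
      refine Finset.sum_congr rfl fun ψ _ => ?_
      rw [Finset.mul_sum, Finset.mul_sum]
      refine Finset.sum_congr rfl fun ξ _ => ?_
      by_cases hψ : ψ ∈ B
      · by_cases hξ : ξ ∈ B
        · rw [if_pos ⟨hψ, hξ⟩, Set.indicator_of_mem hψ, Set.indicator_of_mem hξ, ← hm ψ ξ hψ]
          simp only [Pi.one_apply, one_mul]
          have h3 := hinner ψ hψ ξ hξ
          calc (p : ℂ) ^ D * ((n ψ : ℂ) * (d ψ : ℂ) * ((n ξ : ℂ) * (d ξ : ℂ)))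
              = (p : ℂ) ^ D * ((n ψ : ℂ) * (n ξ : ℂ)) * ((d ψ : ℂ) * (d ξ : ℂ)) := by ring
            _ = _ := by rw [← h3]; ring
        · rw [if_neg (fun h => hξ h.2), Set.indicator_of_notMem hξ]; simp
      · rw [if_neg (fun h => hψ h.1), Set.indicator_of_notMem hψ]; simp
    have h2 : ((p ^ D : ℕ) : ℤ) = (c : ℤ) * (∑ ψ : IrrCharacter G, ∑ ξ : IrrCharacter G,
        if ψ ∈ B ∧ ξ ∈ B then n ψ * n ξ * m ψ ξ else 0) := by exact_mod_cast h1
    exact Int.natCast_dvd_natCast.mp ⟨_, h2⟩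
  obtain ⟨e, he, hce⟩ := (Nat.dvd_prime_pow hp).mp hdvd
  -- the valuation of `c`
  have hc0 : c ≠ 0 := by rw [hce]; exact pow_ne_zero _ hp.ne_zero
  have hu := not_memLocalIdeal_om_creg hM hB hχ₀ hh0
  have hu' : MemLocalRing M (om (χ₀ : G → ℂ) (creg p (χ₀ : G → ℂ))) :=
    om_memLocalRing χ₀.2 (isClassFunction_creg (irr_isClassFunction χ₀.2))
      (memLocalRing_creg (IsIrrCharacter.isCharacter χ₀.2))
  have hdeg0 := (Cfsg.Agent.Lib.Helper24.charDegree_pos χ₀.2).ne'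
  have hG0 : Nat.card G ≠ 0 := (Nat.card_pos (α := G)).ne'
  have heq : ((Nat.card G * d χ₀ ^ 2 : ℕ) : ℂ) = ((c * charDegree (χ₀ : G → ℂ) : ℕ) : ℂ) *
      om (χ₀ : G → ℂ) (creg p (χ₀ : G → ℂ)) := by
    rw [om_creg]
    push_cast
    rw [Cfsg.Agent.Lib.Helper24.charDegree_cast (IsIrrCharacter.isCharacter χ₀.2)]
    have h1 := hinner χ₀ hχ₀ χ₀ hχ₀
    have h2 := irr_one_ne_zero χ₀.2
    field_simp
    rw [pow_two, ← h1]
  obtain ⟨h3, h4⟩ := factorization_eq_of_unit hM (Nat.mul_ne_zero hc0 hdeg0) heq hu' hu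
  have hd0 : d χ₀ ≠ 0 := by
    intro h0
    rw [h0] at h3
    simp at h3
  rw [Nat.factorization_mul hG0 (pow_ne_zero _ hd0), Nat.factorization_mul hc0 hdeg0,
    Nat.factorization_pow] at h4
  simp only [Finsupp.add_apply, Finsupp.smul_apply, smul_eq_mul] at h4
  have hce' : c.factorization p = e := by
    rw [hce, Nat.Prime.factorization_pow hp]; simp
  have hm₀ : (charDegree (χ₀ : G → ℂ)).factorization p =
      sInf ((fun χ : IrrCharacter G => (charDegree (χ : G → ℂ)).factorization p) '' B) := by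
    have h1 : sInf ((fun χ : IrrCharacter G => (charDegree (χ : G → ℂ)).factorization p) '' B) ≤
      (charDegree (χ₀ : G → ℂ)).factorization p := Nat.sInf_le ⟨χ₀, hχ₀, rfl⟩
    rw [blockHeight] at hh0
    omega
  have hle : (charDegree (χ₀ : G → ℂ)).factorization p ≤ (Nat.card G).factorization p :=
    (Nat.factorization_le_iff_dvd hdeg0 hG0).mpr (Cfsg.Agent.Lib.Helper24.degree_dvd_card χ₀.2) p
  have hDeq : D = (Nat.card G).factorization p - (charDegree (χ₀ : G → ℂ)).factorization p := by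
    rw [hD, blockDefect, hm₀]
  have heD : e = D := by omega
  refine ⟨φ, d, ⟨n, fun x _ => ?_⟩, fun χ hχ x hx => hprop χ hχ x hx, ?_⟩
  · rw [finsum_mem_eq_sum_indicator]
  · rw [IsDefectGroup.card_eq hM hB hP, ← hD, ← heD, ← hce, hc, finsum_mem_def,
      finsum_eq_sum_of_fintype]
    refine Finset.sum_congr rfl fun χ _ => ?_
    by_cases hχ : χ ∈ B
    · rw [Set.indicator_of_mem hχ, if_pos hχ]
    · rw [Set.indicator_of_notMem hχ, if_neg hχ]

end Cfsg.Agent.S4675
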