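import Cfsg.Statements.S4676
import Mathlib
import Cfsg.Agent.Lib.Helper23.BrauerFeit
import Cfsg.Agent.Lib.Helper6.DefectOrder

set_option autoImplicit false
open Cfsg

namespace Cfsg.Agent.S4676

open Cfsg.Agent.Lib.Helper2 Cfsg.Agent.Lib.Helper6 Cfsg.Agent.Lib.Helper23.RegInner
open Cfsg.Agent.Lib.Helper23.BrauerFeit
attribute [local instance] irrFintype

/-- Fix a prime p and a maximal ideal M of the algebraic integers containing p. Let B be a p-block of the finite group G with defect group P. For χ in B, let the height of χ be the exponent of p in the degree of χ minus the least such exponent over the members of B. Then the sum over χ in B of p raised to twice the height of χ is at most the integer part of (order of P)²/4, plus 1; in particular B has at most that many irreducible characters. -/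
theorem result {G : Type*} [Group G] [Fintype G] (p : ℕ) [Fact p.Prime] (M : Ideal Cfsg.AlgInt) (hM : Cfsg.IsPModular p M) (B : Set (Cfsg.IrrCharacter G)) (hB : Cfsg.IsPBlock M B) (P : Subgroup G) (hP : Cfsg.IsDefectGroup p M B P) : ∑ᶠ χ ∈ B, p ^ (2 * Cfsg.blockHeight p B (χ : G → ℂ)) ≤ Nat.card P ^ 2 / 4 + 1 := by
  classical
  haveI := IsPModular.isPrime hM
  have hpr : p.Prime := Fact.out
  obtain ⟨χ, hχ, h0⟩ := exists_height_zero p (IsPBlock.nonempty hB)
  rw [IsDefectGroup.card_eq hM hB hP]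
  set d := Cfsg.blockDefect p B with hd
  have hsum := sum_ll_sq p hχ
  rw [h0, Nat.sub_zero, ← hd] at hsum
  rw [finsum_mem_eq_finite_toFinset_sum _ (Set.toFinite B)]
  set S := (Set.toFinite B).toFinset with hSdef
  have hS : ∀ ξ, ξ ∈ S ↔ ξ ∈ B := by intro ξ; simp [hSdef]
  have hχS : χ ∈ S := (hS χ).2 hχ
  rw [← Finset.add_sum_erase _ _ hχS, h0, mul_zero, pow_zero, add_comm]
  apply Nat.add_le_add_right
  rw [Nat.le_div_iff_mul_le (by norm_num)]
  have h1 : ((∑ ξ ∈ S.erase χ, p ^ (2 * Cfsg.blockHeight p B (ξ : G → ℂ)) : ℕ) : ℤ)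
      ≤ ∑ ξ ∈ S.erase χ, (ll p χ ξ) ^ 2 := by
    push_cast
    apply Finset.sum_le_sum
    intro ξ hξ
    have hξB : ξ ∈ B := (hS ξ).1 (Finset.mem_of_mem_erase hξ)
    obtain ⟨h2, c, hc⟩ := ll_ne_zero_of_height_zero_left p hM hB hχ h0 hξB
    have hc0 : c ≠ 0 := by
      rintro rfl
      exact h2 (by rw [hc, mul_zero])
    rw [hc, mul_pow, mul_comm 2, pow_mul]
    push_cast
    have h3 : (1 : ℤ) ≤ c ^ 2 := by
      have : 0 < c ^ 2 := by positivity
      omega
    have h4 : (0 : ℤ) ≤ ((p : ℤ) ^ Cfsg.blockHeight p B (ξ : G → ℂ)) ^ 2 := by positivity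
    nlinarith
  have h2 : ∑ ξ ∈ S.erase χ, (ll p χ ξ) ^ 2 ≤ ∑ ξ ∈ Finset.univ.erase χ, (ll p χ ξ) ^ 2 := by
    apply Finset.sum_le_sum_of_subset_of_nonneg
    · exact Finset.erase_subset_erase _ (Finset.subset_univ _)
    · intro i _ _; positivity
  rw [← Finset.add_sum_erase _ _ (Finset.mem_univ χ)] at hsum
  have h5 : (((∑ ξ ∈ S.erase χ, p ^ (2 * Cfsg.blockHeight p B (ξ : G → ℂ)) : ℕ) : ℤ)) * 4
      ≤ ((p ^ d : ℕ) : ℤ) ^ 2 := by
    nlinarith [sq_nonneg (((p ^ d : ℕ) : ℤ) - 2 * ll p χ χ)]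
  exact_mod_cast h5

end Cfsg.Agent.S4676
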