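import Cfsg.Statements.S4679
import Cfsg.Agent.Lib.Helper24.BlockFusion
-- import your own Cfsg.Agent.* helpers here

set_option autoImplicit false
open Cfsg

namespace Cfsg.Agent.S4679

/-- Fix a prime p and a maximal ideal M of the algebraic integers containing p, a p-block B of the finite group G with maximal Brauer pair (P, e), its fusion system F on P, a Brauer pair (Q, f) ≤ (P, e), and let T be the stabilizer of f in N_G(Q). Then Q is fully normalized in F if and only if N_P(Q) is a defect group of the block of T whose idempotent is that of f. -/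
theorem result {G : Type*} [Group G] [Fintype G] (p : ℕ) [Fact p.Prime] (M : Ideal Cfsg.AlgInt) (hM : Cfsg.IsPModular p M) (B : Set (Cfsg.IrrCharacter G)) (P : Subgroup G) (e : Set (Cfsg.IrrCharacter (Subgroup.centralizer (P : Set G)))) (hmax : Cfsg.IsMaximalBrauerPair p M B P e) (F : Cfsg.FusionSystem P) (hF : Cfsg.IsBlockFusionSystemOn p M B P e F) (Q : Subgroup G) (f : Set (Cfsg.IrrCharacter (Subgroup.centralizer (Q : Set G)))) (hQP : Q ≤ P) (hf : Cfsg.IsPBlock M f) (hle : Cfsg.SubpairLE p M Q f P e) (T : Subgroup G) (hT : ∀ y : G, y ∈ T ↔ y ∈ Subgroup.normalizer (Q : Set G) ∧ Cfsg.StabilizesBlock (Subgroup.centralizer (Q : Set G)) f y) : F.IsFullyNormalized Q ↔ ∃ F' : Set (Cfsg.IrrCharacter T), Cfsg.IsPBlock M F' ∧ (∀ t : T, Cfsg.blockCoeff F' t = Cfsg.subgroupBlockCoeff (Subgroup.centralizer (Q : Set G)) f (t : G)) ∧ Cfsg.IsDefectGroup p M F' ((P ⊓ Subgroup.normalizer (Q : Set G)).subgroupOf T) := by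
  have hT' : Cfsg.Agent.Lib.Helper24.IsPairStab Q f T := hT
  have hQf := Cfsg.Agent.Lib.Helper24.PLE.isBrauerPair_left hle hmax.1.1
  constructor
  · intro h
    obtain ⟨F₁, hF₁, hFf⟩ := hT'.exists_block hM hQf
    exact ⟨F₁, hF₁, (hT'.sbc_eq_iff F₁).mp hFf,
      (Cfsg.Agent.Lib.Helper24.fullyNormalized_iff hM hF hle hT' hF₁ hFf).mp h⟩
  · rintro ⟨F₁, hF₁, hFf, hD⟩
    exact (Cfsg.Agent.Lib.Helper24.fullyNormalized_iff hM hF hle hT' hF₁
      ((hT'.sbc_eq_iff F₁).mpr hFf)).mpr hD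

end Cfsg.Agent.S4679
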