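import Cfsg.Statements.S4682
import Cfsg.Agent.Lib.Helper24.PairStab
-- import your own Cfsg.Agent.* helpers here

set_option autoImplicit false
open Cfsg

namespace Cfsg.Agent.S4682

/-- Fix a prime p and a maximal ideal M of the algebraic integers containing p, a p-block B of the finite group G with maximal Brauer pair (P, e), P abelian, and a Brauer pair (Q, f) ≤ (P, e). Let T_Q be the stabilizer of f in N_G(Q) and T_P the stabilizer of e in N_G(P). Then every element of T_Q is a product of an element of T_P and an element of C_G(Q); and the index of C_G(Q) in T_Q equals the index of T_P ∩ C_G(Q) in T_P ∩ N_G(Q). -/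
theorem result {G : Type*} [Group G] [Fintype G] (p : ℕ) [Fact p.Prime] (M : Ideal Cfsg.AlgInt) (hM : Cfsg.IsPModular p M) (B : Set (Cfsg.IrrCharacter G)) (P : Subgroup G) (e : Set (Cfsg.IrrCharacter (Subgroup.centralizer (P : Set G)))) (hmax : Cfsg.IsMaximalBrauerPair p M B P e) (hab : ∀ x ∈ P, ∀ y ∈ P, x * y = y * x) (Q : Subgroup G) (f : Set (Cfsg.IrrCharacter (Subgroup.centralizer (Q : Set G)))) (hQP : Q ≤ P) (hf : Cfsg.IsPBlock M f) (hle : Cfsg.SubpairLE p M Q f P e) (TQ : Subgroup G) (hTQ : ∀ y : G, y ∈ TQ ↔ y ∈ Subgroup.normalizer (Q : Set G) ∧ Cfsg.StabilizesBlock (Subgroup.centralizer (Q : Set G)) f y) (TP : Subgroup G) (hTP : ∀ y : G, y ∈ TP ↔ y ∈ Subgroup.normalizer (P : Set G) ∧ Cfsg.StabilizesBlock (Subgroup.centralizer (P : Set G)) e y) : (∀ x ∈ TQ, ∃ y ∈ TP, ∃ c ∈ Subgroup.centralizer (Q : Set G), x = y * c) ∧ ((Subgroup.centralizer (Q : Set G)).subgroupOf TQ).index = ((TP ⊓ Subgroup.centralizer (Q : Set G)).subgroupOf (TP ⊓ Subgroup.normalizer (Q :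 Set G))).index := by
  have hPQ : P ≤ Subgroup.centralizer (Q : Set G) := by
    intro x hx
    rw [Subgroup.mem_centralizer_iff]
    intro h hh
    exact hab h (hQP hh) x hx
  have hA : ∀ x ∈ TQ, ∃ y ∈ TP, ∃ c ∈ Subgroup.centralizer (Q : Set G), x = y * c := by
    intro x hx
    obtain ⟨hx1, hx2⟩ := (hTQ x).mp hx
    obtain ⟨y, c, hy1, hy2, hc, hxy⟩ :=
      Cfsg.Agent.Lib.Helper24.exists_factorization_of_le hM hmax hle hPQ hx1 hx2
    exact ⟨y, (hTP y).mpr ⟨hy1, hy2⟩, c, hc, hxy⟩
  refine ⟨hA, ?_⟩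
  have hTQ' : Cfsg.Agent.Lib.Helper24.IsPairStab Q f TQ := hTQ
  have hAle : TP ⊓ Subgroup.normalizer (Q : Set G) ≤ TQ := by
    intro y hy
    obtain ⟨hy1, hy2⟩ := (hTP y).mp hy.1
    exact (hTQ y).mpr ⟨hy.2, Cfsg.Agent.Lib.Helper24.stabilizes_of_PLE hM hle hy1 hy2 hy.2⟩
  have hsup : TQ = (TP ⊓ Subgroup.normalizer (Q : Set G)) ⊔ Subgroup.centralizer (Q : Set G) := by
    apply le_antisymm
    · intro x hx
      obtain ⟨y, hy, c, hc, rfl⟩ := hA x hx
      refine Subgroup.mul_mem_sup ⟨hy, ?_⟩ hc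
      have h1 := Subgroup.mul_mem _ (hTQ'.le_normalizer hx)
        (Subgroup.inv_mem _ (Subgroup.centralizer_le_normalizer _ hc))
      rwa [mul_inv_cancel_right] at h1
    · exact sup_le hAle hTQ'.cz_le
  have hnorm : TP ⊓ Subgroup.normalizer (Q : Set G) ≤
      Subgroup.normalizer ((Subgroup.centralizer (Q : Set G) : Subgroup G) : Set G) := by
    intro y hy
    exact (Cfsg.Agent.Lib.Helper24.isConjSub_of_mem_normalizer hy.2).centralizer.mem_normalizer
  have h1 : (Subgroup.centralizer (Q : Set G)).relIndex (TP ⊓ Subgroup.normalizer (Q : Set G)) =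
      (Subgroup.centralizer (Q : Set G)).relIndex
        ((TP ⊓ Subgroup.normalizer (Q : Set G)) ⊔ Subgroup.centralizer (Q : Set G)) := by
    letI := Subgroup.normal_subgroupOf_of_le_normalizer hnorm
    letI := Subgroup.normal_subgroupOf_sup_of_le_normalizer hnorm
    exact Nat.card_congr (QuotientGroup.quotientInfEquivProdNormalizerQuotient _ _ hnorm).toEquiv
  have h2 : TP ⊓ Subgroup.centralizer (Q : Set G) =
      Subgroup.centralizer (Q : Set G) ⊓ (TP ⊓ Subgroup.normalizer (Q : Set G)) := by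
    apply le_antisymm
    · exact le_inf inf_le_right (le_inf inf_le_left
        (inf_le_right.trans (Subgroup.centralizer_le_normalizer _)))
    · exact le_inf (inf_le_right.trans inf_le_left) inf_le_left
  change (Subgroup.centralizer (Q : Set G)).relIndex TQ =
    (TP ⊓ Subgroup.centralizer (Q : Set G)).relIndex (TP ⊓ Subgroup.normalizer (Q : Set G))
  rw [h2, Subgroup.inf_relIndex_right, h1, ← hsup]

end Cfsg.Agent.S4682
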