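import Mathlib
import Cfsg.Statements.S4683
import Cfsg.Agent.Lib.Helper6.Subsection2

set_option autoImplicit false
open Cfsg
open Cfsg.Agent.Lib.Helper6 Cfsg.Agent.Lib.Helper2
open scoped ComplexConjugate Classical

attribute [local instance] irrFintype

namespace Cfsg.Agent.S4683

/-- Fix a prime p and a maximal ideal M of the algebraic integers containing p, a p-block B of the finite group G, a p-element u and a p-block e of C = C_G(u) such that (⟨u⟩, e) is a Brauer pair of B (a Brauer element of B). For χ ∈ B let χ_u be the e-part of the class function c ↦ χ(u c) on C and χ_u' the e-part of c ↦ χ(u⁻¹ c). Then the sum over χ ∈ B and over the p-regular elements s of C of χ_u(s)·χ_u'(s⁻¹) equals the order of C times the p-regular rank of e (the number of irreducible Brauer characters of e). -/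
theorem result {G : Type*} [Group G] [Fintype G] (p : ℕ) [Fact p.Prime] (M : Ideal Cfsg.AlgInt) (hM : Cfsg.IsPModular p M) (B : Set (Cfsg.IrrCharacter G)) (u : G) (hu : ∃ k : ℕ, orderOf u = p ^ k) (e : Set (Cfsg.IrrCharacter (Subgroup.centralizer (Subgroup.zpowers u : Set G)))) (hBe : Cfsg.IsBrauerPairOf p M B (Subgroup.zpowers u) e) : ∑ᶠ χ ∈ B, ∑ᶠ s : Subgroup.centralizer (Subgroup.zpowers u : Set G), Cfsg.pRegularPart p (Cfsg.blockPart e (fun c : Subgroup.centralizer (Subgroup.zpowers u : Set G) => (χ : G → ℂ) (u * c))) s * Cfsg.blockPart e (fun c : Subgroup.centralizer (Subgroup.zpowers u : Set G) => (χ : G → ℂ) (u⁻¹ * c)) s⁻¹ = (Nat.card (Subgroup.centralizer (Subgroup.zpowers u : Set G)) : ℂ) * (Cfsg.blockRank p e : ℂ) := by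
  have hp : p.Prime := Fact.out
  have hx := isCenOf_cenElt' (p := p) hu
  have hQ : Subgroup.zpowers u ≤ Subgroup.centralizer (Subgroup.zpowers u : Set G) := by
    rw [Subgroup.zpowers_le]
    exact (cenElt' u).2
  have hind := isInducedBlock_of_isBrauerPairOf hM hQ hBe
  have key := sum_subsection hp hx (weakOrth_block hM hind.1) (B := B)
    (fun χ hχ s hs => bPart_tw_eq_zero hM hx hind hχ hs)
  rw [blockRank_eq_sum' hM hind.1, ← key, finsum_mem_eq_sum_indicator]
  refine Finset.sum_congr rfl fun χ _ => ?_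
  congr 1
  rw [finsum_eq_sum_of_fintype]
  refine Finset.sum_congr rfl fun s _ => ?_
  rw [blockPart_eq_bPart, blockPart_eq_bPart, pRegularPart_eq_regPart, regPart_apply]
  have h1 : (fun c : Subgroup.centralizer (Subgroup.zpowers u : Set G) => (χ : G → ℂ) (u * c)) =
      tw (cenElt' u) (χ : G → ℂ) := rfl
  have h2 : (fun c : Subgroup.centralizer (Subgroup.zpowers u : Set G) => (χ : G → ℂ) (u⁻¹ * c)) =
      tw (cenElt' u)⁻¹ (χ : G → ℂ) := rfl
  rw [h1, h2, bPart_tw_inv hx (IsIrrCharacter.isCharacter χ.2)]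
  split_ifs <;> simp

end Cfsg.Agent.S4683
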