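import Cfsg.Statements.S4694
import Cfsg.Agent.Lib.Helper24.Weight
-- import your own Cfsg.Agent.* helpers here

set_option autoImplicit false
open Cfsg

namespace Cfsg.Agent.S4694

open Cfsg.Agent.Lib.Helper24 Cfsg.Agent.Lib.Helper6 Cfsg.Agent.Lib.Helper2

/-- Fix a prime p and a maximal ideal M of the algebraic integers containing p, a p-block B of the finite group G and a Brauer pair (Q, e) of B. Let T be the stabilizer of e in N_G(Q) and suppose that (Q, e) carries a weight: the block of T whose idempotent is that of e contains an irreducible character χ that is constant on the cosets of Q and whose degree has p-part equal to the p-part of the index of Q in T. Then Z(Q) is a defect group of e as a block of C_G(Q), and Q is the largest normal p-subgroup of T: every p-subgroup of T normalized by T lies in Q. -/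
theorem result {G : Type*} [Group G] [Fintype G] (p : ℕ) [Fact p.Prime] (M : Ideal Cfsg.AlgInt) (hM : Cfsg.IsPModular p M) (B : Set (Cfsg.IrrCharacter G)) (Q : Subgroup G) (e : Set (Cfsg.IrrCharacter (Subgroup.centralizer (Q : Set G)))) (hQe : Cfsg.IsBrauerPairOf p M B Q e) (T : Subgroup G) (hT : ∀ y : G, y ∈ T ↔ y ∈ Subgroup.normalizer (Q : Set G) ∧ Cfsg.StabilizesBlock (Subgroup.centralizer (Q : Set G)) e y) (F' : Set (Cfsg.IrrCharacter T)) (hF' : Cfsg.IsPBlock M F') (hF'e : ∀ t : T, Cfsg.blockCoeff F' t = Cfsg.subgroupBlockCoeff (Subgroup.centralizer (Q : Set G)) e (t : G)) (χ : Cfsg.IrrCharacter T) (hχ : χ ∈ F') (hχQ : ∀ q : G, q ∈ Q → ∀ t : T, ∀ t' : T, (t' : G) = q * (t : G) → (χ : T → ℂ) t' = (χ : T → ℂ) t) (hdeg : (Cfsg.charDegree (χ : T → ℂ)).factorization p + (Nat.card Q).factorization p = (Nat.card T).factorization p) : Cfsg.IsDefectGroup p M e ((Q ⊓ Subgroup.centralizer (Q : Set G)).subgroupOf (Subgroup.centralizer (Q : Set G))) ∧ ∀ R : Subgroup G, R ≤ T → IsPGroup p R → (∀ t ∈ T, t ∈ Subgroup.normalizer (R : Set G))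 → R ≤ Q := by
  classical
  have := IsPModular.isPrime hM
  have hTs : IsPairStab Q e T := hT
  have hQT : Q ≤ T := hTs.le
  have hCT : cz Q ≤ T := hTs.cz_le
  have hQn : (Q.subgroupOf T).Normal :=
    (Subgroup.normal_subgroupOf_iff_le_normalizer hQT).mpr hTs.le_normalizer
  have hker : ∀ q ∈ Q.subgroupOf T, (χ : T → ℂ) q = (χ : T → ℂ) 1 := by
    intro q hq
    exact hχQ (q : G) (Subgroup.mem_subgroupOf.mp hq) 1 q (by simp)
  have hcardQ : Nat.card (Q.subgroupOf T) = Nat.card Q :=
    Nat.card_congr (Subgroup.subgroupOfEquivOfLe hQT).toEquiv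
  have hdeg' : (charDegree (χ : T → ℂ)).factorization p +
      (Nat.card (Q.subgroupOf T)).factorization p = (Nat.card T).factorization p := by
    rw [hcardQ]
    exact hdeg
  constructor
  · have hrn : (Subgroup.inclusion hCT).range.Normal := by
      rw [Subgroup.inclusion_range]
      apply Subgroup.normal_subgroupOf_of_le_normalizer
      intro t ht
      exact (isConjSub_of_mem_normalizer (hTs.le_normalizer ht)).centralizer.mem_normalizer
    obtain ⟨θ, hθ1, hθ2, hθ3⟩ := exists_constituent_relDefectZero hM χ hker hdeg'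
      (Subgroup.inclusion hCT) hrn
    have hcomap : (Q.subgroupOf T).comap (Subgroup.inclusion hCT) = zIn Q := by
      ext c
      rw [mem_zIn, Subgroup.mem_comap, Subgroup.mem_subgroupOf]
      rfl
    rw [hcomap] at hθ3
    -- `θ ∈ e`
    have hθe : θ ∈ e := by
      have h1 := om_eq_of_constituent (Subgroup.inclusion hCT) (Subgroup.inclusion_injective hCT)
        χ.2 θ hθ1 (isClassFunction_coef (F'.indicator 1)) (by
          intro t ht
          rw [← blockCoeff_eq_coef, hF'e]
          apply sbc_not_mem
          intro hc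
          exact ht ⟨⟨t, hc⟩, rfl⟩)
      rw [om_coef, Set.indicator_of_mem hχ] at h1
      have h2 : coef (F'.indicator 1) ∘ Subgroup.inclusion hCT = coef (e.indicator 1) := by
        ext c
        rw [Function.comp_apply, ← blockCoeff_eq_coef, hF'e, ← blockCoeff_eq_coef]
        exact sbc_coe _ _ c
      rw [h2, om_coef] at h1
      by_contra hcon
      rw [Set.indicator_of_notMem hcon] at h1
      exact one_ne_zero h1
    have hZn := zIn_normal Q
    have hdvd : charDegree (θ : cz Q → ℂ) ∣ (zIn Q).index := by
      apply degree_dvd_index (zIn Q) θ.2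
      intro n hn
      apply hθ2
      rw [Subgroup.mem_subgroupOf]
      exact (mem_zIn n).mp hn
    have hidx : (zIn Q).index ≠ 0 := Subgroup.index_ne_zero_of_finite
    have h3 : (charDegree (θ : cz Q → ℂ)).factorization p ≤ (zIn Q).index.factorization p :=
      (Nat.factorization_le_iff_dvd (charDegree_pos θ.2).ne' hidx).mpr hdvd p
    have h4 : (Nat.card (cz Q)).factorization p =
        (Nat.card (zIn Q)).factorization p + (zIn Q).index.factorization p := by
      rw [← Subgroup.card_mul_index (zIn Q), Nat.factorization_mul Nat.card_pos.ne' hidx]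
      rfl
    have h5 := (Cfsg.Agent.S0969.result p M hM (zIn Q) (isPGroup_zIn hQe.1.1) (zIn_le_center Q) θ
      (by omega)).1
    rw [← IsPBlock.eq_blockOf hQe.1.2 hθe] at h5
    exact h5
  · intro R hRT hR hRn
    have hRn' : (R.subgroupOf T).Normal :=
      (Subgroup.normal_subgroupOf_iff_le_normalizer hRT).mpr hRn
    have hR' : IsPGroup p (R.subgroupOf T) :=
      hR.of_equiv (Subgroup.subgroupOfEquivOfLe hRT).symm
    have h1 := normal_pSubgroup_le_of_relDefectZero hM χ hker hdeg' hRn' hR'
    intro r hr
    have h2 : (⟨r, hRT hr⟩ : T) ∈ Q.subgroupOf T := h1 (Subgroup.mem_subgroupOf.mpr hr)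
    exact Subgroup.mem_subgroupOf.mp h2

end Cfsg.Agent.S4694
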