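import Mathlib
import Cfsg.Statements.S4715
import Cfsg.Agent.Lib.Helper6.MajorSub5

set_option autoImplicit false
open Cfsg
open Cfsg.Agent.Lib.Helper6 Cfsg.Agent.Lib.Helper2 Cfsg.Agent.Lib.Helper24
open scoped ComplexConjugate Classical

attribute [local instance] irrFintype

namespace Cfsg.Agent.S4715

/-- Let p be a prime, M a maximal ideal of the algebraic integers containing p, B a p-block of the finite group G with defect group D of order p^d, H = D·C_G(D), b a block of H inducing B, T the stabilizer of b in N_G(D) and e = [T : H] the inertial index of B; let n be the integer with p^n ≤ e < p^(n+1) and p^c the order of the centre of D. Then every irreducible character in B has height h with h + c ≤ n + d. -/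
theorem result {G : Type*} [Group G] [Finite G] (p : ℕ) [Fact p.Prime] (M : Ideal Cfsg.AlgInt) (hM : Cfsg.IsPModular p M) (B : Set (Cfsg.IrrCharacter G)) (hB : Cfsg.IsPBlock M B) (D : Subgroup G) (hBD : Cfsg.IsDefectGroup p M B D) (d : ℕ) (hDd : Nat.card D = p ^ d) (H : Subgroup G) (hH : H = D ⊔ Subgroup.centralizer (D : Set G)) (b : Set (Cfsg.IrrCharacter H)) (hind : Cfsg.IsInducedBlock M H b B) (T : Subgroup G) (hT : ∀ g : G, g ∈ T ↔ (g ∈ Subgroup.normalizer (D : Set G) ∧ ∀ θ ∈ b, ∀ θ' : Cfsg.IrrCharacter H, (∀ h h' : H, (h' : G) = g * h * g⁻¹ → (θ' : H → ℂ) h' = (θ : H → ℂ) h) → θ' ∈ b)) (e : ℕ) (he : H.relIndex T = e) (n : ℕ) (hn : p ^ n ≤ e ∧ e < p ^ (n + 1)) (c : ℕ) (hc : Nat.card (Subgroup.center D) = p ^ c) : ∀ χ ∈ B, Cfsg.blockHeight p B (χ : G → ℂ) + c ≤ n + d := by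
  let _ := Fintype.ofFinite G
  have := IsPModular.isPrime hM
  intro χ hχ
  have hP : IsPGroup p D := IsPGroup.of_card hDd
  have hb : IsPBlock M b := hind.1
  have hPH : D ≤ H := hH ▸ le_sup_left
  have hCH : cz D ≤ H := hH ▸ le_sup_right
  have hHN : H ≤ nor D := hH ▸ sup_le (le_nor D) (centralizer_le_nor D)
  obtain ⟨ξ, hξ⟩ := IsPBlock.nonempty hb
  obtain ⟨ζ, hζ⟩ := exists_constituent_incl hCH ξ
  obtain ⟨e', he'⟩ : ∃ e, e = blockOf M (ζ : cz D → ℂ) := ⟨_, rfl⟩
  have hpair : IsBrauerPairOf p M B D e' :=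
    he' ▸ isBrauerPairOf_of_induced hM hP hPH hCH hHN hind hξ hζ
  have hsbc : subgroupBlockCoeff H b = subgroupBlockCoeff (cz D) e' :=
    he' ▸ sbc_eq_of_constituent hM hP hH hb hξ hCH hζ
  have hNH : nor D ≤ Subgroup.normalizer (H : Set G) := by
    intro g hg
    have h1 := isConjSub_of_mem_normalizer hg
    have h2 := h1.centralizer
    have e3 : H.map (MulAut.conj g).toMonoidHom = H := by
      rw [hH, Subgroup.map_sup, ← h1.eq_map, ← h2.eq_map]
    have h3 := isConjSub_map g H
    rw [e3] at h3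
    exact h3.mem_normalizer
  have hmax := isMaximalBrauerPair_of_isDefectGroup hM hpair hBD
  have hT' : ∀ g : G, g ∈ T ↔
      (g ∈ Subgroup.normalizer (D : Set G) ∧ StabilizesBlock (cz D) e' g) := by
    intro g
    rw [hT]
    constructor
    · rintro ⟨h1, h2⟩
      have h3 : StabilizesBlock H b g := (stabilizesBlock_iff_forall b (hNH h1)).mpr h2
      rw [stabilizesBlock_iff, hsbc] at h3
      exact ⟨h1, (stabilizesBlock_iff _ _ _).mpr
        ⟨(isConjSub_of_mem_normalizer h1).centralizer.mem_normalizer, h3.2⟩⟩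
    · rintro ⟨h1, h2⟩
      refine ⟨h1, (stabilizesBlock_iff_forall b (hNH h1)).mp ?_⟩
      rw [stabilizesBlock_iff, hsbc]
      exact ⟨hNH h1, ((stabilizesBlock_iff _ _ _).mp h2).2⟩
  exact height_add_le hM hmax hDd T hT' (by rw [← hH, he]; exact hn.2) hc hχ

end Cfsg.Agent.S4715
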