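import Mathlib
import Cfsg.Statements.S4717
import Cfsg.Agent.Lib.Helper6.InducedUnit
import Cfsg.Agent.Lib.Helper6.PrincipalSection
import Cfsg.Agent.Lib.Helper6.DefectOrder
import Cfsg.Agent.Lib.Helper6.Vanish
import Cfsg.Agent.Lib.Helper6.IndDefect

set_option autoImplicit false
open Cfsg
open Cfsg.Agent.Lib.Helper6 Cfsg.Agent.Lib.Helper2
open scoped ComplexConjugate Classical

attribute [local instance] irrFintype

namespace Cfsg.Agent.S4717

/-- Let p be a prime, M a maximal ideal of the algebraic integers containing p, and r a natural number; say that a finite group X has deficiency class r when X has no non-principal p-block of defect ≥ r. If G has deficiency class r then so does the centralizer of every p-element of G; conversely, if r > 0 and the centralizer of every element of order p has deficiency class r, then G has deficiency class r. -/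
theorem result {G : Type*} [Group G] [Finite G] (p : ℕ) [Fact p.Prime] (M : Ideal Cfsg.AlgInt) (hM : Cfsg.IsPModular p M) (r : ℕ) : ((∀ B' : Set (Cfsg.IrrCharacter G), Cfsg.IsPBlock M B' → B' ≠ Cfsg.principalBlock M G → Cfsg.blockDefect p B' < r) → ∀ y : G, (∃ k : ℕ, orderOf y = p ^ k) → (∀ B' : Set (Cfsg.IrrCharacter ↥(Subgroup.centralizer ({y} : Set G))), Cfsg.IsPBlock M B' → B' ≠ Cfsg.principalBlock M ↥(Subgroup.centralizer ({y} : Set G)) → Cfsg.blockDefect p B' < r)) ∧ (0 < r → (∀ y : G, orderOf y = p → (∀ B' : Set (Cfsg.IrrCharacter ↥(Subgroup.centralizer ({y} : Set G))), Cfsg.IsPBlock M B' → B' ≠ Cfsg.principalBlock M ↥(Subgroup.centralizer ({y} : Set G)) → Cfsg.blockDefect p B' < r)) → (∀ B' : Set (Cfsg.IrrCharacter G), Cfsg.IsPBlock M B' → B' ≠ Cfsg.principalBlock M G → Cfsg.blockDefect p B' < r)) := by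
  let _ := Fintype.ofFinite G
  have := IsPModular.isPrime hM
  have hp : p.Prime := Fact.out
  constructor
  · intro hG y hy b hb hbne
    by_contra hlt
    push Not at hlt
    obtain ⟨B, hind⟩ := inducedBlockDefined_cen hM hy hb
    have hBne : B ≠ principalBlock M G := by
      intro h
      apply hbne
      rw [h] at hind
      exact (Cfsg.Agent.S0936.result p M hM _ b ⟨_, hind⟩).mp hind
    have h1 := hG B hind.2.1 hBne
    obtain ⟨Db, hDb⟩ := exists_isDefectGroup hM hb
    obtain ⟨E, hE, hle⟩ := exists_isDefectGroup_ge_of_induced hM _ hind hDb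
    have hc1 : Nat.card Db ≤ Nat.card E := by
      rw [← Subgroup.card_map_of_injective (cen y).subtype_injective]
      exact Subgroup.card_le_of_le hle
    rw [IsDefectGroup.card_eq hM hb hDb, IsDefectGroup.card_eq hM hind.2.1 hE] at hc1
    have := (Nat.pow_le_pow_iff_right hp.one_lt).mp hc1
    omega
  · intro hr hC B hB hBne
    by_contra hlt
    push Not at hlt
    obtain ⟨D, hD⟩ := exists_isDefectGroup hM hB
    have hcard := IsDefectGroup.card_eq hM hB hD
    obtain ⟨g₀, hg₀, hDg₀⟩ := isDefectGroup_iff.mp hD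
    have hDp : IsPGroup p D := hDg₀.isPGroup
    have hnt : Nontrivial D := by
      rw [← Finite.one_lt_card_iff_nontrivial, hcard]
      exact Nat.one_lt_pow (by omega) hp.one_lt
    have hcn : Nontrivial (Subgroup.center D) := hDp.center_nontrivial
    have hdvd : p ∣ Nat.card (Subgroup.center D) := by
      obtain ⟨n, hn⟩ := IsPGroup.iff_card.mp (hDp.to_subgroup (Subgroup.center D))
      rw [hn]
      apply dvd_pow_self
      rintro rfl
      rw [pow_zero] at hn
      have := Finite.one_lt_card_iff_nontrivial.mpr hcn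
      omega
    obtain ⟨x', hx'⟩ := exists_prime_orderOf_dvd_card' p hdvd
    set x : G := ((x' : D) : G) with hx
    have hxo : orderOf x = p := by
      rw [hx, Subgroup.orderOf_coe, Subgroup.orderOf_coe, hx']
    have hxD : x ∈ D := (x' : D).2
    have hDx : D ≤ cen x := by
      intro d hd
      rw [Subgroup.mem_centralizer_singleton_iff]
      have h1 := Subgroup.mem_center_iff.mp x'.2 ⟨d, hd⟩
      exact congrArg Subtype.val h1
    have hP : IsPGroup p (Subgroup.zpowers x) := by
      apply IsPGroup.of_card (n := 1)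
      rw [Nat.card_zpowers, hxo, pow_one]
    have hPH : Subgroup.zpowers x ≤ cen x := by
      rw [Subgroup.zpowers_le]
      exact Subgroup.mem_centralizer_singleton_iff.mpr rfl
    have hCH : Subgroup.centralizer (Subgroup.zpowers x : Set G) ≤ cen x := by
      apply Subgroup.centralizer_le
      intro u hu
      rw [Set.mem_singleton_iff.mp hu]
      exact Subgroup.mem_zpowers x
    have hHN : cen x ≤ Subgroup.normalizer (Subgroup.zpowers x : Set G) :=
      (cen_le_centralizer_zpowers x).trans (Subgroup.centralizer_le_normalizer _)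
    have hgD : g₀ ∈ Subgroup.centralizer (D : Set G) := le_cen_iff.mp hDg₀.le
    have hgP : g₀ ∈ Subgroup.centralizer (Subgroup.zpowers x : Set G) := by
      refine Subgroup.centralizer_le ?_ hgD
      intro u hu
      exact (Subgroup.zpowers_le.mpr hxD) hu
    obtain ⟨b, hind, hbu⟩ := exists_induced_coef_unit hM hP hPH hCH hHN hB hgP
      (isDefectClass_iff.mp hg₀).2.1
    have hbne : b ≠ principalBlock M (cen x) := by
      intro h
      apply hBne
      have hind0 := (Cfsg.Agent.S0936.result p M hM (cen x) b ⟨_, hind⟩).mpr h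
      obtain ⟨ξ, hξ⟩ := IsPBlock.nonempty hind.1
      obtain ⟨χ, hχ⟩ := IsPBlock.nonempty hB
      obtain ⟨χ₀, hχ₀⟩ := IsPBlock.nonempty hind0.2.1
      have hs : SameBlock M (χ₀ : G → ℂ) (χ : G → ℂ) := by
        intro g
        have h1 := hind.2.2 ξ hξ χ hχ g
        have h2 := hind0.2.2 ξ hξ χ₀ hχ₀ g
        have := MemLocalIdeal.sub h1 h2
        rwa [sub_sub_sub_cancel_left] at this
      rw [IsPBlock.eq_blockOf hind0.2.1 hχ₀]
      rw [IsPBlock.eq_blockOf hB hχ]
      exact blockOf_eq_of_mem hs
    have h1 := hC x hxo b hind.1 hbne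
    obtain ⟨Db, hDb⟩ := exists_isDefectGroup hM hind.1
    obtain ⟨h₀, hh₀, hDbh₀⟩ := isDefectGroup_iff.mp hDb
    have hQ : IsPGroup p (D.subgroupOf (cen x)) :=
      hDp.of_equiv (Subgroup.subgroupOfEquivOfLe hDx).symm
    have hQh : D.subgroupOf (cen x) ≤ cen (⟨g₀, hCH hgP⟩ : cen x) := by
      intro d hd
      rw [Subgroup.mem_centralizer_singleton_iff]
      apply Subtype.ext
      have h2 := Subgroup.mem_centralizer_iff.mp hgD (d : G) (Subgroup.mem_subgroupOf.mp hd)
      exact h2
    obtain ⟨t, ht⟩ := exists_le_cj_of_unit hM hind.1 (isDefectClass_iff.mp hh₀).2.2 hbu hQ hQh hDbh₀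
    have hc1 : Nat.card D ≤ Nat.card Db := by
      rw [← card_cj t Db, ← Nat.card_congr (Subgroup.subgroupOfEquivOfLe hDx).toEquiv]
      exact Subgroup.card_le_of_le ht
    rw [hcard, IsDefectGroup.card_eq hM hind.1 hDb] at hc1
    have := (Nat.pow_le_pow_iff_right hp.one_lt).mp hc1
    omega

end Cfsg.Agent.S4717
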