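import Mathlib
import Cfsg.Statements.S4718
import Cfsg.Agent.Lib.Helper6.BrauerFeit
import Cfsg.Agent.Lib.Helper6.Landau
import Cfsg.Agent.Lib.Helper2.Ortho

set_option autoImplicit false
universe u
open Cfsg
open Cfsg.Agent.Lib.Helper6 Cfsg.Agent.Lib.Helper2
open scoped ComplexConjugate Classical

attribute [local instance] irrFintype

namespace Cfsg.Agent.S4718

/-- Let p be a prime and a a natural number. There is a bound N such that every finite group whose Sylow p-subgroups have order p^a and whose only p-block (relative to a maximal ideal of the algebraic integers containing p) is the principal block has order at most N. -/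
theorem result (p : ℕ) [Fact p.Prime] (a : ℕ) : ∃ N : ℕ, ∀ (G : Type u) [Group G] [Finite G] (M : Ideal Cfsg.AlgInt), Cfsg.IsPModular p M → (Nat.card G).factorization p = a → (∀ B : Set (Cfsg.IrrCharacter G), Cfsg.IsPBlock M B → B = Cfsg.principalBlock M G) → Nat.card G ≤ N := by
  obtain ⟨N, hN⟩ := landau.{u} (p ^ (2 * a))
  refine ⟨N, fun G _ _ M hM ha hall => hN G ?_⟩
  let _ := Fintype.ofFinite G
  have := IsPModular.isPrime hM
  rw [← card_irr_eq_card_conjClasses]
  have hB0 : IsPBlock M (principalBlock M G) := ⟨⟨fun _ => 1, isIrrCharacter_one⟩, rfl⟩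
  have huniv : principalBlock M G = Set.univ := by
    ext χ
    simp only [Set.mem_univ, iff_true]
    rw [← hall (blockOf M (χ : G → ℂ)) ⟨χ, rfl⟩]
    exact mem_blockOf_self χ
  have h1 := card_block_le hM hB0
  rw [huniv, Nat.card_congr (Equiv.Set.univ _), ha] at h1
  exact h1

end Cfsg.Agent.S4718
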