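import Mathlib
import Cfsg.Statements.S4720
import Cfsg.Agent.Lib.Helper6.PrincipalCol
import Cfsg.Agent.Lib.Helper24.ClassCount

set_option autoImplicit false
open Cfsg
open Cfsg.Agent.Lib.Helper6 Cfsg.Agent.Lib.Helper2
open scoped ComplexConjugate Classical

attribute [local instance] irrFintype

namespace Cfsg.Agent.S4720

theorem count_fiber {G : Type*} [Group G] [Fintype G] (N : Subgroup G) (u v : G) {n₀ : G}
    (hn₀ : n₀ ∈ N) (h : n₀ * u * n₀⁻¹ = v) :
    ∑ x : N, (if (x : G) * u * (x : G)⁻¹ = v then (1 : ℂ) else 0) =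
      (Nat.card ↥(N ⊓ Subgroup.centralizer ({u} : Set G)) : ℂ) := by
  have h1 : ∑ x : N, (if (x : G) * u * (x : G)⁻¹ = v then (1 : ℂ) else 0) =
      ∑ x : N, (if (x : G) ∈ Subgroup.centralizer ({u} : Set G) then (1 : ℂ) else 0) := by
    symm
    refine Fintype.sum_equiv (Equiv.mulLeft (⟨n₀, hn₀⟩ : N)) _ _ fun x => ?_
    have h2 : (((Equiv.mulLeft (⟨n₀, hn₀⟩ : N)) x : N) : G) = n₀ * (x : G) := rfl
    rw [h2]
    have h3 : n₀ * (x : G) * u * (n₀ * (x : G))⁻¹ = v ↔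
        (x : G) ∈ Subgroup.centralizer ({u} : Set G) := by
      rw [Subgroup.mem_centralizer_singleton_iff, ← h]
      constructor
      · intro h4
        have h5 : (x : G) * u * (x : G)⁻¹ = u := by
          have : n₀ * ((x : G) * u * (x : G)⁻¹) * n₀⁻¹ = n₀ * u * n₀⁻¹ := by
            rw [← h4]; group
          exact mul_left_cancel (mul_right_cancel this)
        exact mul_inv_eq_iff_eq_mul.mp h5
      · intro h4
        have h5 : (x : G) * u * (x : G)⁻¹ = u := mul_inv_eq_iff_eq_mul.mpr h4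
        calc n₀ * (x : G) * u * (n₀ * (x : G))⁻¹ = n₀ * ((x : G) * u * (x : G)⁻¹) * n₀⁻¹ := by group
          _ = n₀ * u * n₀⁻¹ := by rw [h5]
    simp only [h3]
  rw [h1, ← Cfsg.Agent.Lib.Helper24.sum_ite_mem_eq_sum_subtype N
    (fun g => if g ∈ Subgroup.centralizer ({u} : Set G) then (1 : ℂ) else 0)]
  have h6 := sum_ite_mem_subgroup (N ⊓ Subgroup.centralizer ({u} : Set G)) (1 : ℂ)
  rw [mul_one] at h6
  rw [← h6]
  refine Finset.sum_congr rfl fun g _ => ?_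
  by_cases hg : g ∈ N <;> by_cases hg' : g ∈ Subgroup.centralizer ({u} : Set G) <;>
    simp [Subgroup.mem_inf, hg, hg']

theorem sum_conj_eq {G : Type*} [Group G] [Fintype G] (P N : Subgroup G)
    (hNN : N ≤ Subgroup.normalizer (P : Set G)) (u : P)
    (hfus : ∀ g : G, g * (u : G) * g⁻¹ ∈ (P : Set G) → ∃ n ∈ N, n * (u : G) * n⁻¹ = g * u * g⁻¹)
    (f : P → ℂ) :
    ∑ x : N, extendByZero P f ((x : G) * (u : G) * (x : G)⁻¹) =
      (Nat.card ↥(N ⊓ Subgroup.centralizer ({(u : G)} : Set G)) : ℂ) *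
        ∑ v : P, (if IsConj (u : G) (v : G) then f v else 0) := by
  have h1 : ∀ x : N, extendByZero P f ((x : G) * (u : G) * (x : G)⁻¹) =
      ∑ v : P, f v * (if (x : G) * (u : G) * (x : G)⁻¹ = (v : G) then (1 : ℂ) else 0) := by
    intro x
    have hmem : (x : G) * (u : G) * (x : G)⁻¹ ∈ P :=
      (Subgroup.mem_normalizer_iff.mp (hNN x.2) u).mp u.2
    rw [extendByZero_mem P f hmem, Finset.sum_eq_single (⟨_, hmem⟩ : P)]
    · simp
    · intro v _ hv
      rw [if_neg, mul_zero]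
      intro h
      exact hv (Subtype.ext h.symm)
    · intro h; exact absurd (Finset.mem_univ _) h
  simp_rw [h1]
  rw [Finset.sum_comm, Finset.mul_sum]
  refine Finset.sum_congr rfl fun v _ => ?_
  rw [← Finset.mul_sum]
  by_cases hc : IsConj (u : G) (v : G)
  · rw [if_pos hc]
    obtain ⟨g, hg⟩ := isConj_iff.mp hc
    obtain ⟨n₀, hn₀, hn⟩ := hfus g (by rw [hg]; exact v.2)
    rw [count_fiber N (u : G) (v : G) hn₀ (hn.trans hg)]
    ring
  · rw [if_neg hc, mul_zero, Finset.sum_eq_zero, mul_zero]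
    intro x _
    rw [if_neg]
    intro h
    exact hc (isConj_iff.mpr ⟨x, h⟩)


/-- Let p be a prime, M a maximal ideal of the algebraic integers containing p, P a p-subgroup of the finite group G, N a subgroup with P ≤ N ≤ N_G(P), and U a nonempty subset of P normalized by N such that an element of U and an element of P that are conjugate in G are already conjugate in N, and such that λ(C_G(y)) = w·#C_N(y) for every y ∈ U with one rational number w, where λ(X) denotes the sum of the squares of the degrees of the irreducible characters in the principal p-block of X. For a complex function θ on P and χ in the principal block of G put a_χ(θ) = #P⁻¹ Σ_{y ∈ P} χ(y) θ(y⁻¹). Then for generalized characters θ, η of P with θ vanishing outside U, Σ_χ a_χ(θ)·conj(a_χ(η)) = (w/#P²)·Σ_{y ∈ P} θ(y)·conj(Σ_{x ∈ N} η(x y x⁻¹)) (η extended by zero off P; the conjugates lie in P), the first sum over the principal p-block of G. -/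
theorem result {G : Type*} [Group G] [Finite G] (p : ℕ) [Fact p.Prime] (M : Ideal Cfsg.AlgInt) (hM : Cfsg.IsPModular p M) (P : Subgroup G) (hP : IsPGroup p P) (N : Subgroup G) (hPN : P ≤ N) (hNN : N ≤ Subgroup.normalizer (P : Set G)) (U : Set G) (hUne : U.Nonempty) (hUP : U ⊆ (P : Set G)) (hUN : ∀ n ∈ N, ∀ u ∈ U, n * u * n⁻¹ ∈ U) (hfus : ∀ u ∈ U, ∀ g : G, g * u * g⁻¹ ∈ (P : Set G) → ∃ n ∈ N, n * u * n⁻¹ = g * u * g⁻¹) (w : ℚ) (hw : ∀ y ∈ U, ((∑ᶠ ψ ∈ Cfsg.principalBlock M ↥(Subgroup.centralizer ({y} : Set G)), Cfsg.charDegree (ψ : ↥(Subgroup.centralizer ({y} : Set G)) → ℂ) ^ 2) : ℚ) = w * Nat.card ↥(N ⊓ Subgroup.centralizer ({y} : Set G))) (θ η : ↥P → ℂ) (hθ : Cfsg.IsGeneralizedCharacter ↥P θ) (hη : Cfsg.IsGeneralizedCharacter ↥P η) (hθU : ∀ y : ↥P, (y : G) ∉ U → θ y = 0) : ∑ᶠ χ ∈ Cfsg.principalBlock M G, ((Nat.card ↥P : ℂ)⁻¹ * ∑ᶠ y : ↥P, (χ : G → ℂ) (y : G) * θ y⁻¹) * (starRingEnd ℂ) ((Nat.card ↥P : ℂ)⁻¹ * ∑ᶠ y :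 ↥P, (χ : G → ℂ) (y : G) * η y⁻¹) = ((w : ℂ) / ((Nat.card ↥P : ℂ) ^ 2)) * ∑ᶠ y : ↥P, θ y * (starRingEnd ℂ) (∑ᶠ x : ↥N, Cfsg.extendByZero P η ((x : G) * (y : G) * (x : G)⁻¹)) := by
  let _ := Fintype.ofFinite G
  have hp : p.Prime := hM.1
  have := IsPModular.isPrime hM
  set B0 := principalBlock M G with hB0def
  have hP0 : (Nat.card P : ℂ) ≠ 0 := by exact_mod_cast (Nat.card_pos (α := P)).ne'
  have hpow : ∀ y : ↥P, ∃ k : ℕ, orderOf (y : G) = p ^ k := by
    intro y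
    obtain ⟨k, hk⟩ := IsPGroup.iff_orderOf.mp hP y
    exact ⟨k, by rw [Subgroup.orderOf_coe]; exact hk⟩
  have hginv : ∀ {ϑ : ↥P → ℂ}, IsGeneralizedCharacter ↥P ϑ → ∀ y : ↥P, ϑ y⁻¹ = conj (ϑ y) := by
    rintro ϑ ⟨θ₁, θ₂, h1, h2, rfl⟩ y
    rw [Pi.sub_apply, Pi.sub_apply, IsCharacter.apply_inv h1, IsCharacter.apply_inv h2, map_sub]
  -- rewrite the coefficients
  have hAθ : ∀ χ : IrrCharacter G, (Nat.card ↥P : ℂ)⁻¹ * ∑ᶠ y : ↥P, (χ : G → ℂ) (y : G) * θ y⁻¹ =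
      (Nat.card ↥P : ℂ)⁻¹ * ∑ u : ↥P, conj ((χ : G → ℂ) (u : G)) * θ u := by
    intro χ
    rw [finsum_eq_sum_of_fintype]
    congr 1
    refine Fintype.sum_equiv (Equiv.inv ↥P) _ _ fun y => ?_
    rw [Equiv.inv_apply, Subgroup.coe_inv, IsCharacter.apply_inv (IsIrrCharacter.isCharacter χ.2),
      Complex.conj_conj]
  have hAη : ∀ χ : IrrCharacter G,
      conj ((Nat.card ↥P : ℂ)⁻¹ * ∑ᶠ y : ↥P, (χ : G → ℂ) (y : G) * η y⁻¹) =
      (Nat.card ↥P : ℂ)⁻¹ * ∑ v : ↥P, (χ : G → ℂ) (v : G) * conj (η v) := by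
    intro χ
    rw [finsum_eq_sum_of_fintype, map_mul, map_inv₀, Complex.conj_natCast, map_sum]
    congr 1
    refine Fintype.sum_equiv (Equiv.inv ↥P) _ _ fun y => ?_
    rw [Equiv.inv_apply, Subgroup.coe_inv, IsCharacter.apply_inv (IsIrrCharacter.isCharacter χ.2),
      map_mul]
  rw [finsum_mem_eq_sum_indicator]
  simp only [hAθ, hAη]
  have h1 : ∀ χ : IrrCharacter G, B0.indicator 1 χ *
      (((Nat.card ↥P : ℂ)⁻¹ * ∑ u : ↥P, conj ((χ : G → ℂ) (u : G)) * θ u) *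
        ((Nat.card ↥P : ℂ)⁻¹ * ∑ v : ↥P, (χ : G → ℂ) (v : G) * conj (η v))) =
      ∑ u : ↥P, ∑ v : ↥P, ((Nat.card ↥P : ℂ)⁻¹ ^ 2 * θ u * conj (η v)) *
        (B0.indicator 1 χ * ((χ : G → ℂ) (v : G) * conj ((χ : G → ℂ) (u : G)))) := by
    intro χ
    have : ((Nat.card ↥P : ℂ)⁻¹ * ∑ u : ↥P, conj ((χ : G → ℂ) (u : G)) * θ u) *
        ((Nat.card ↥P : ℂ)⁻¹ * ∑ v : ↥P, (χ : G → ℂ) (v : G) * conj (η v)) =
        (Nat.card ↥P : ℂ)⁻¹ ^ 2 * ((∑ u : ↥P, conj ((χ : G → ℂ) (u : G)) * θ u) *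
          (∑ v : ↥P, (χ : G → ℂ) (v : G) * conj (η v))) := by ring
    rw [this, Finset.sum_mul_sum, Finset.mul_sum, Finset.mul_sum]
    refine Finset.sum_congr rfl fun u _ => ?_
    rw [Finset.mul_sum, Finset.mul_sum]
    refine Finset.sum_congr rfl fun v _ => by ring
  simp_rw [h1]
  rw [Finset.sum_comm, finsum_eq_sum_of_fintype, Finset.mul_sum]
  refine Finset.sum_congr rfl fun u _ => ?_
  rw [Finset.sum_comm]
  have h3 : ∀ v : ↥P, ∑ χ : IrrCharacter G, ((Nat.card ↥P : ℂ)⁻¹ ^ 2 * θ u * conj (η v)) *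
        (B0.indicator 1 χ * ((χ : G → ℂ) (v : G) * conj ((χ : G → ℂ) (u : G)))) =
      ((Nat.card ↥P : ℂ)⁻¹ ^ 2 * θ u * conj (η v)) *
        (if IsConj (u : G) (v : G) then ∑ ψ : IrrCharacter (cen (u : G)),
          (principalBlock M (cen (u : G))).indicator 1 ψ *
            ((ψ : cen (u : G) → ℂ) 1 * conj ((ψ : cen (u : G) → ℂ) 1)) else 0) := by
    intro v
    rw [← Finset.mul_sum, sum_principal_pElements hM (hpow u) (hpow v)]
  rw [Finset.sum_congr rfl (fun v _ => h3 v)]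
  by_cases hu : (u : G) ∈ U
  · have hw' := hw (u : G) hu
    have hlam : ∑ ψ : IrrCharacter (cen (u : G)), (principalBlock M (cen (u : G))).indicator 1 ψ *
        ((ψ : cen (u : G) → ℂ) 1 * conj ((ψ : cen (u : G) → ℂ) 1)) =
        (w : ℂ) * (Nat.card ↥(N ⊓ Subgroup.centralizer ({(u : G)} : Set G)) : ℂ) := by
      have h2 := congrArg (fun q : ℚ => (q : ℂ)) hw'
      simp only [Rat.cast_mul, Rat.cast_natCast] at h2
      rw [← h2, finsum_mem_def, finsum_eq_sum_of_fintype, Rat.cast_sum]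
      refine Finset.sum_congr rfl fun ψ _ => ?_
      by_cases hψ : ψ ∈ principalBlock M (cen (u : G))
      · rw [Set.indicator_of_mem hψ, Set.indicator_of_mem hψ, Pi.one_apply, one_mul,
          ← Cfsg.Agent.Lib.Helper24.charDegree_cast (IsIrrCharacter.isCharacter ψ.2),
          Complex.conj_natCast]
        push_cast
        ring
      · rw [Set.indicator_of_notMem hψ, Set.indicator_of_notMem hψ]; simp
    rw [hlam, finsum_eq_sum_of_fintype,
      sum_conj_eq P N hNN u (fun g hg => hfus (u : G) hu g hg) η, map_mul, Complex.conj_natCast,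
      map_sum, Finset.mul_sum, Finset.mul_sum, Finset.mul_sum]
    refine Finset.sum_congr rfl fun v _ => ?_
    by_cases hc : IsConj (u : G) (v : G)
    · rw [if_pos hc, if_pos hc]
      field_simp
    · rw [if_neg hc, if_neg hc]; simp
  · rw [hθU u hu]
    simp

end Cfsg.Agent.S4720
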