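import Mathlib
import Cfsg.Statements.S4722
import Cfsg.Agent.S0925
import Cfsg.Agent.Lib.Helper6.InvCols
import Cfsg.Agent.Lib.Helper6.NormalIdem

set_option autoImplicit false
open Cfsg
open Cfsg.Agent.Lib.Helper6 Cfsg.Agent.Lib.Helper2
open scoped ComplexConjugate Classical

attribute [local instance] irrFintype

namespace Cfsg.Agent.S4722

/-- Let M be a maximal ideal of the algebraic integers containing 2, P a 2-subgroup of the finite group G, U a subset of P, and t an involution of G such that no element of U is inverted by any conjugate of t. Let θ be a generalized character of P vanishing outside U, and for χ in the principal 2-block B₀ put a_χ = #P⁻¹ Σ_{y ∈ P} χ(y) θ(y⁻¹). Then Σ_{χ ∈ B₀} a_χ χ(t)^2/χ(1) = 0, Σ_{χ ∈ B₀} a_χ χ(1) = 0 and Σ_{χ ∈ B₀} a_χ χ(t) = 0. If moreover #P⁻¹ Σ_{y ∈ P} θ(y) ≠ 0, then either at least two of the a_χ have positive real part and at least two have negative real part, or G has a proper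 normal subgroup containing O_2'(G) and t. -/
theorem result {G : Type*} [Group G] [Finite G] (M : Ideal Cfsg.AlgInt) (hM : Cfsg.IsPModular 2 M) (P : Subgroup G) (hP : IsPGroup 2 P) (U : Set G) (hUP : U ⊆ (P : Set G)) (t : G) (ht : orderOf t = 2) (hinv : ∀ u ∈ U, ∀ g : G, (g * t * g⁻¹) * u * (g * t * g⁻¹)⁻¹ ≠ u⁻¹) (θ : ↥P → ℂ) (hθ : Cfsg.IsGeneralizedCharacter ↥P θ) (hθU : ∀ y : ↥P, (y : G) ∉ U → θ y = 0) : (∑ᶠ χ ∈ Cfsg.principalBlock M G, ((Nat.card ↥P : ℂ)⁻¹ * ∑ᶠ y : ↥P, (χ : G → ℂ) (y : G) * θ y⁻¹) * (χ : G → ℂ) t ^ 2 / (χ : G → ℂ) 1 = 0) ∧ (∑ᶠ χ ∈ Cfsg.principalBlock M G, ((Nat.card ↥P : ℂ)⁻¹ * ∑ᶠ y : ↥P, (χ : G → ℂ) (y : G) * θ y⁻¹) * (χ : G → ℂ) 1 = 0) ∧ (∑ᶠ χ ∈ Cfsg.principalBlock M G, ((Nat.card ↥P : ℂ)⁻¹ * ∑ᶠ y : ↥P, (χ : G → ℂ) (y : G) * θ y⁻¹) * (χ : G → ℂ) t = 0) ∧ ((Nat.card ↥P : ℂ)⁻¹ * ∑ᶠ y : ↥P, θ y ≠ 0 → (2 ≤ Nat.card {χ : Cfsg.IrrCharacter G // χ ∈ Cfsg.principalBlock M G ∧ 0 < (((Nat.card ↥P : ℂ)⁻¹ * ∑ᶠ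 y : ↥P, (χ : G → ℂ) (y : G) * θ y⁻¹)).re} ∧ 2 ≤ Nat.card {χ : Cfsg.IrrCharacter G // χ ∈ Cfsg.principalBlock M G ∧ (((Nat.card ↥P : ℂ)⁻¹ * ∑ᶠ y : ↥P, (χ : G → ℂ) (y : G) * θ y⁻¹)).re < 0}) ∨ ∃ K : Subgroup G, K.Normal ∧ K ≠ ⊤ ∧ Cfsg.pPrimeCore 2 G ≤ K ∧ t ∈ K) := by
  let _ := Fintype.ofFinite G
  have hp : (2 : ℕ).Prime := Nat.prime_two
  have := IsPModular.isPrime hM
  set B0 := principalBlock M G with hB0def
  have hB : IsPBlock M B0 := isPBlock_principalBlock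
  have hP0 : (Nat.card P : ℂ) ≠ 0 := by exact_mod_cast (Nat.card_pos (α := P)).ne'
  have hG0 : (Nat.card G : ℂ) ≠ 0 := by exact_mod_cast (Nat.card_pos (α := G)).ne'
  have htt : t * t = 1 := by
    have := pow_orderOf_eq_one t
    rwa [ht, pow_two] at this
  have htinv : t⁻¹ = t := inv_eq_of_mul_eq_one_left htt
  -- the coefficients
  set A : IrrCharacter G → ℂ := fun χ =>
    (Nat.card ↥P : ℂ)⁻¹ * ∑ y : ↥P, (χ : G → ℂ) (y : G) * θ y⁻¹ with hA
  have hAfin : ∀ χ : IrrCharacter G,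
      (Nat.card ↥P : ℂ)⁻¹ * ∑ᶠ y : ↥P, (χ : G → ℂ) (y : G) * θ y⁻¹ = A χ := by
    intro χ
    rw [finsum_eq_sum_of_fintype]
  simp only [hAfin]
  -- 2-elements
  have hpow : ∀ y : ↥P, ∃ k : ℕ, orderOf (y : G) = 2 ^ k := by
    intro y
    obtain ⟨k, hk⟩ := IsPGroup.iff_orderOf.mp hP y
    exact ⟨k, by rw [Subgroup.orderOf_coe]; exact hk⟩
  -- general summation principle
  have hgen : ∀ c : IrrCharacter G → ℂ,
      (∀ y : ↥P, ((y⁻¹ : ↥P) : G) ∈ U →
        ∑ χ : IrrCharacter G, B0.indicator 1 χ * ((χ : G → ℂ) (y : G) * c χ) = 0) →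
      ∑ χ : IrrCharacter G, B0.indicator 1 χ * (A χ * c χ) = 0 := by
    intro c hc
    have h1 : ∀ χ : IrrCharacter G, B0.indicator 1 χ * (A χ * c χ) =
        ∑ y : ↥P, ((Nat.card ↥P : ℂ)⁻¹ * θ y⁻¹) *
          (B0.indicator 1 χ * ((χ : G → ℂ) (y : G) * c χ)) := by
      intro χ
      simp only [hA]
      rw [Finset.mul_sum, Finset.sum_mul, Finset.mul_sum]
      refine Finset.sum_congr rfl fun y _ => by ring
    simp_rw [h1]
    rw [Finset.sum_comm]
    refine Finset.sum_eq_zero fun y _ => ?_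
    rw [← Finset.mul_sum]
    by_cases hy : ((y⁻¹ : ↥P) : G) ∈ U
    · rw [hc y hy, mul_zero]
    · rw [hθU y⁻¹ hy, mul_zero, zero_mul]
  have hinv' : ∀ y : ↥P, ((y⁻¹ : ↥P) : G) ∈ U →
      ∀ g : G, (g * t * g⁻¹) * (y : G) * (g * t * g⁻¹)⁻¹ ≠ (y : G)⁻¹ := by
    intro y hy g h
    apply hinv _ hy g
    rw [Subgroup.coe_inv]
    have h2 : (g * t * g⁻¹) * (y : G)⁻¹ * (g * t * g⁻¹)⁻¹ =
        ((g * t * g⁻¹) * (y : G) * (g * t * g⁻¹)⁻¹)⁻¹ := by group
    rw [h2, h]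
  have hne1 : ∀ y : ↥P, ((y⁻¹ : ↥P) : G) ∈ U → (y : G) ≠ 1 := by
    intro y hy h1
    apply hinv' y hy 1
    rw [h1]; group
  have R1 : ∑ χ : IrrCharacter G, B0.indicator 1 χ *
      (A χ * ((χ : G → ℂ) t ^ 2 / (χ : G → ℂ) 1)) = 0 := by
    apply hgen
    intro y hy
    have h1 := (Cfsg.Agent.S0925.result 2 M hM).1 (conv (classInd t) (classInd t))
      (isClassFunction_conv (isClassFunction_classInd t) (isClassFunction_classInd t)) (y : G)
      (hpow y) (by
        intro u z hu hz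
        apply conv_classInd_invol_eq_zero hp ht hu
        intro c hc
        obtain ⟨e, rfl⟩ := isConj_iff.mp hz
        apply hinv' y hy (e⁻¹ * c)
        have h3 : (y : G)⁻¹ = e⁻¹ * (e * (y : G) * e⁻¹)⁻¹ * e := by group
        rw [h3, ← hc]
        group) B0 hB (y : G) (y : G) (isPPart_self hp (hpow y)) (IsConj.refl _)
    have h2 : blockPart B0 (conv (classInd t) (classInd t)) (y : G) =
        ∑ᶠ χ ∈ B0, classInner (conv (classInd t) (classInd t)) (χ : G → ℂ) * (χ : G → ℂ) (y : G) := by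
      unfold blockPart
      congr
    rw [h2, finsum_mem_eq_sum_indicator] at h1
    simp_rw [classInner_conv_classInd_invol ht] at h1
    have hk0 : ((Nat.card G : ℂ)⁻¹ * ((Subgroup.centralizer ({t} : Set G)).index : ℂ) ^ 2) ≠ 0 :=
      mul_ne_zero (inv_ne_zero hG0) (pow_ne_zero 2 (index_centralizer_ne_zero t))
    apply mul_left_cancel₀ hk0
    rw [mul_zero, ← h1, Finset.mul_sum]
    refine Finset.sum_congr rfl fun χ _ => by ring
  have R2 : ∑ χ : IrrCharacter G, B0.indicator 1 χ * (A χ * (χ : G → ℂ) 1) = 0 := by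
    apply hgen
    intro y hy
    have hy2 : 2 ∣ orderOf ((y : G)⁻¹) := by
      rw [orderOf_inv]
      obtain ⟨k, hk⟩ := hpow y
      rcases Nat.eq_zero_or_pos k with rfl | hk0
      · rw [pow_zero, orderOf_eq_one_iff] at hk
        exact absurd hk (hne1 y hy)
      · rw [hk]; exact dvd_pow_self 2 hk0.ne'
    have h1 := weak_block_orthogonality hM hB (x := (1 : G)) (y := (y : G)⁻¹)
      (by rw [orderOf_one]; norm_num) hy2
    rw [← h1]
    refine Finset.sum_congr rfl fun χ _ => ?_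
    rw [IsCharacter.apply_inv (IsIrrCharacter.isCharacter χ.2), Complex.conj_conj]
    ring
  have R3 : ∑ χ : IrrCharacter G, B0.indicator 1 χ * (A χ * (χ : G → ℂ) t) = 0 := by
    apply hgen
    intro y hy
    have h1 := (Cfsg.Agent.S0925.result 2 M hM).2 (y : G) t (y : G) t (isPPart_self hp (hpow y))
      (isPPart_self hp ⟨1, by rw [ht, pow_one]⟩) (by
        intro hc
        obtain ⟨e, he⟩ := isConj_iff.mp hc.symm
        apply hinv' y hy e
        rw [he]
        have hyy : (y : G) * (y : G) = 1 := mul_self_of_isConj_invol ht hc.symm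
        rw [mul_inv_cancel_right]
        exact (inv_eq_of_mul_eq_one_left hyy).symm) B0 hB
    rw [finsum_mem_eq_sum_indicator, htinv] at h1
    exact h1
  refine ⟨?_, ?_, ?_, ?_⟩
  · rw [finsum_mem_eq_sum_indicator, ← R1]
    refine Finset.sum_congr rfl fun χ _ => by rw [mul_div_assoc]
  · rw [finsum_mem_eq_sum_indicator, ← R2]
  · rw [finsum_mem_eq_sum_indicator, ← R3]
  intro hθ0
  -- integrality of the coefficients
  have hAint : ∀ χ : IrrCharacter G, ∃ n : ℤ, A χ = n := by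
    intro χ
    obtain ⟨θ₁, θ₂, h1, h2, rfl⟩ := hθ
    obtain ⟨n₁, hn₁⟩ := IsCharacter.classInner_nat
      (IsCharacter.restrict P (IsIrrCharacter.isCharacter χ.2)) h1
    obtain ⟨n₂, hn₂⟩ := IsCharacter.classInner_nat
      (IsCharacter.restrict P (IsIrrCharacter.isCharacter χ.2)) h2
    refine ⟨(n₁ : ℤ) - n₂, ?_⟩
    push_cast
    rw [← hn₁, ← hn₂, ← classInner_sub_right]
    simp only [hA, classInner]
    congr 1
    refine Finset.sum_congr rfl fun y _ => ?_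
    rw [Pi.sub_apply, Pi.sub_apply, IsCharacter.apply_inv h1, IsCharacter.apply_inv h2, map_sub]
  choose a ha using hAint
  have hτint : ∀ χ : IrrCharacter G, ∃ n : ℤ, (χ : G → ℂ) t = n := fun χ =>
    exists_int_of_orderOf_two (IsIrrCharacter.isCharacter χ.2) ht
  choose τ hτ using hτint
  let triv : IrrCharacter G := ⟨fun _ => 1, isIrrCharacter_one⟩
  set S : Finset (IrrCharacter G) := Finset.univ.filter (· ∈ B0) with hS
  have hmemS : ∀ ζ, ζ ∈ S ↔ ζ ∈ B0 := fun ζ => by simp [hS]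
  have htrivS : triv ∈ S := (hmemS triv).mpr (mem_blockOf_self triv)
  have hsumS : ∀ F : IrrCharacter G → ℂ, ∑ ζ : IrrCharacter G, B0.indicator 1 ζ * F ζ =
      ∑ ζ ∈ S, F ζ := by
    intro F
    rw [hS, Finset.sum_filter]
    refine Finset.sum_congr rfl fun ζ _ => ?_
    by_cases h : ζ ∈ B0
    · rw [Set.indicator_of_mem h, if_pos h, Pi.one_apply, one_mul]
    · rw [Set.indicator_of_notMem h, if_neg h, zero_mul]
  rw [hsumS] at R1 R2 R3
  have hdc : ∀ χ : IrrCharacter G, (χ : G → ℂ) 1 = ((charDegree (χ : G → ℂ) : ℝ) : ℂ) := fun χ => by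
    rw [← Cfsg.Agent.Lib.Helper24.charDegree_cast (IsIrrCharacter.isCharacter χ.2)]; simp
  have R1' : ∑ χ ∈ S, (a χ : ℝ) * ((τ χ : ℝ) ^ 2 / (charDegree (χ : G → ℂ) : ℝ)) = 0 := by
    apply Complex.ofReal_injective
    rw [Complex.ofReal_zero, ← R1, Complex.ofReal_sum]
    refine Finset.sum_congr rfl fun χ _ => ?_
    rw [ha χ, hτ χ, hdc χ]; push_cast; ring
  have R2' : ∑ χ ∈ S, (a χ : ℝ) * (charDegree (χ : G → ℂ) : ℝ) = 0 := by
    apply Complex.ofReal_injective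
    rw [Complex.ofReal_zero, ← R2, Complex.ofReal_sum]
    refine Finset.sum_congr rfl fun χ _ => ?_
    rw [ha χ, hdc χ]; push_cast; ring
  have R3' : ∑ χ ∈ S, (a χ : ℝ) * (τ χ : ℝ) = 0 := by
    apply Complex.ofReal_injective
    rw [Complex.ofReal_zero, ← R3, Complex.ofReal_sum]
    refine Finset.sum_congr rfl fun χ _ => ?_
    rw [ha χ, hτ χ]; push_cast; ring
  have hdpos : ∀ χ ∈ S, (0 : ℝ) < (charDegree (χ : G → ℂ) : ℝ) := fun χ _ => by
    exact_mod_cast Cfsg.Agent.Lib.Helper24.charDegree_pos χ.2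
  have hatriv : (a triv : ℝ) ≠ 0 := by
    intro h0
    apply hθ0
    have h1 : (a triv : ℂ) = 0 := by exact_mod_cast h0
    rw [← ha triv] at h1
    simp only [hA, triv, one_mul] at h1
    rw [finsum_eq_sum_of_fintype, ← h1]
    congr 1
    exact (Equiv.sum_comp (Equiv.inv ↥P) θ).symm
  have hτtriv : (τ triv : ℝ) = (charDegree (triv : G → ℂ) : ℝ) := by
    apply Complex.ofReal_injective
    rw [← hdc triv]
    push_cast
    rw [← hτ triv]
  have hre : ∀ χ : IrrCharacter G, (A χ).re = (a χ : ℝ) := fun χ => by rw [ha χ]; simp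
  simp only [hre]
  -- conclusion from a non-principal character with t in its kernel
  have hfinal : (∃ χ ∈ S, χ ≠ triv ∧ (τ χ : ℝ) = (charDegree (χ : G → ℂ) : ℝ)) →
      ∃ K : Subgroup G, K.Normal ∧ K ≠ ⊤ ∧ Cfsg.pPrimeCore 2 G ≤ K ∧ t ∈ K := by
    rintro ⟨χ, hχS, hne, hval⟩
    have hc := IsIrrCharacter.isCharacter χ.2
    refine ⟨Cfsg.Agent.Lib.Helper24.kerOf hc, Cfsg.Agent.Lib.Helper24.kerOf_normal hc, ?_, ?_, ?_⟩
    · intro htop
      apply hne
      have hconst : ∀ g : G, (χ : G → ℂ) g = (χ : G → ℂ) 1 := by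
        intro g
        apply (Cfsg.Agent.Lib.Helper24.mem_kerOf hc g).mp
        rw [htop]; exact Subgroup.mem_top g
      by_contra hne'
      have h5 := classInner_irr χ.2 triv.2
      rw [if_neg (fun h => hne' (Subtype.ext h)), classInner] at h5
      have h6 := (mul_eq_zero.mp h5).resolve_left (inv_ne_zero hG0)
      simp only [hconst, triv, map_one, mul_one, Finset.sum_const, Finset.card_univ,
        nsmul_eq_mul] at h6
      rcases mul_eq_zero.mp h6 with h7 | h7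
      · rw [← Nat.card_eq_fintype_card] at h7; exact hG0 h7
      · exact irr_one_ne_zero χ.2 h7
    · intro n hn
      have hnorm := Cfsg.Agent.Lib.Helper23.pPrimeCore_normal 2 G
      exact (Cfsg.Agent.Lib.Helper24.mem_kerOf hc n).mpr
        (principalBlock_ker hM _ (Cfsg.Agent.Lib.Helper23.pPrimeCore_not_dvd 2 hp G)
          ((hmemS χ).mp hχS) n hn)
    · apply (Cfsg.Agent.Lib.Helper24.mem_kerOf hc t).mpr
      rw [hτ χ, hdc χ, ← hval]; simp
  by_cases hcase : 2 ≤ Nat.card {χ : IrrCharacter G // χ ∈ B0 ∧ 0 < (a χ : ℝ)} ∧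
      2 ≤ Nat.card {χ : IrrCharacter G // χ ∈ B0 ∧ (a χ : ℝ) < 0}
  · exact Or.inl hcase
  · right
    apply hfinal
    rw [not_and_or] at hcase
    rcases hcase with h | h
    · have hss : Subsingleton {χ : IrrCharacter G // χ ∈ B0 ∧ 0 < (a χ : ℝ)} :=
        Finite.card_le_one_iff_subsingleton.mp (by omega)
      apply exists_ne_of_at_most_one_pos S (fun χ => (a χ : ℝ))
        (fun χ => (charDegree (χ : G → ℂ) : ℝ)) (fun χ => (τ χ : ℝ)) hdpos R1' R2' R3' _ htrivS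
        hatriv hτtriv
      intro i hi j hj hai haj
      have := hss.elim ⟨i, (hmemS i).mp hi, hai⟩ ⟨j, (hmemS j).mp hj, haj⟩
      exact congrArg Subtype.val this
    · have hss : Subsingleton {χ : IrrCharacter G // χ ∈ B0 ∧ (a χ : ℝ) < 0} :=
        Finite.card_le_one_iff_subsingleton.mp (by omega)
      apply exists_ne_of_at_most_one_pos S (fun χ => -(a χ : ℝ))
        (fun χ => (charDegree (χ : G → ℂ) : ℝ)) (fun χ => (τ χ : ℝ)) hdpos
        (by simp only [neg_mul, Finset.sum_neg_distrib, R1', neg_zero])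
        (by simp only [neg_mul, Finset.sum_neg_distrib, R2', neg_zero])
        (by simp only [neg_mul, Finset.sum_neg_distrib, R3', neg_zero]) _ htrivS
        (neg_ne_zero.mpr hatriv) hτtriv
      intro i hi j hj hai haj
      have := hss.elim ⟨i, (hmemS i).mp hi, by linarith⟩ ⟨j, (hmemS j).mp hj, by linarith⟩
      exact congrArg Subtype.val this

end Cfsg.Agent.S4722
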