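import Mathlib
import Cfsg.Statements.S4723
import Cfsg.Agent.Lib.Helper6.PIndexInv

set_option autoImplicit false
open Cfsg
open Cfsg.Agent.Lib.Helper6 Cfsg.Agent.Lib.Helper2
open scoped ComplexConjugate Classical

attribute [local instance] irrFintype

namespace Cfsg.Agent.S4723

/-- Let p be a prime, M a maximal ideal of the algebraic integers containing p, H a normal subgroup of the finite group G and b a p-block of H. Let T be the stabilizer of b in G. Then b contains a character θ of height zero whose own stabilizer in G (the elements g with θ(g h g⁻¹) = θ(h) for all h ∈ H) has index prime to p in T, i.e. contains a Sylow p-subgroup of T. -/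
theorem result {G : Type*} [Group G] [Finite G] (p : ℕ) [Fact p.Prime] (M : Ideal Cfsg.AlgInt) (hM : Cfsg.IsPModular p M) (H : Subgroup G) [H.Normal] (b : Set (Cfsg.IrrCharacter ↥H)) (hb : Cfsg.IsPBlock M b) (T : Subgroup G) (hT : (∀ g : G, g ∈ T ↔ ∀ θ ∈ b, ∀ θ' : Cfsg.IrrCharacter ↥H, (∀ h h' : ↥H, (h' : G) = g * h * g⁻¹ → (θ' : ↥H → ℂ) h' = (θ : ↥H → ℂ) h) → θ' ∈ b)) : ∃ θ ∈ b, Cfsg.blockHeight p b (θ : ↥H → ℂ) = 0 ∧ ∃ S : Subgroup G, S ≤ T ∧ (∀ g : G, g ∈ S ↔ (g ∈ T ∧ ∀ h h' : ↥H, (h' : G) = g * h * g⁻¹ → (θ : ↥H → ℂ) h' = (θ : ↥H → ℂ) h)) ∧ ¬ p ∣ S.relIndex T := by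
  classical
  cases nonempty_fintype G
  obtain ⟨θ, hθ, h0, hidx⟩ := exists_height_zero_sylow_stable H hM hb hT
  refine ⟨θ, hθ, h0, T ⊓ Cfsg.Agent.Lib.Helper13.inertia H (θ : H → ℂ), inf_le_left, ?_, hidx⟩
  intro g
  rw [Subgroup.mem_inf, Cfsg.Agent.Lib.Helper13.mem_inertia,
    ← Cfsg.Agent.Lib.Helper13.stmtInv_iff]
  constructor
  · rintro ⟨h1, h2⟩
    refine ⟨h1, fun h h' hh => ?_⟩
    rw [← h2 h]
    exact congrArg _ (Subtype.ext hh)
  · rintro ⟨h1, h2⟩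
    exact ⟨h1, fun h => h2 h _ rfl⟩

end Cfsg.Agent.S4723
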