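import Mathlib
import Cfsg.Statements.S4725
import Cfsg.Agent.Lib.Helper6.IndPart

set_option autoImplicit false
open Cfsg
open Cfsg.Agent.Lib.Helper6 Cfsg.Agent.Lib.Helper2
open scoped ComplexConjugate Classical

attribute [local instance] irrFintype

namespace Cfsg.Agent.S4725

/-- Let p be a prime, M a maximal ideal of the algebraic integers containing p, H a subgroup of the finite group G, and b a p-block of H inducing the p-block B of G, with b and B of the same defect. Then for every height-zero ζ ∈ b there is a height-zero χ ∈ B whose multiplicity in the character induced from ζ is not divisible by p. -/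
theorem result {G : Type*} [Group G] [Fintype G] (p : ℕ) [Fact p.Prime] (M : Ideal Cfsg.AlgInt) (hM : Cfsg.IsPModular p M) (H : Subgroup G) (b : Set (Cfsg.IrrCharacter ↥H)) (B : Set (Cfsg.IrrCharacter G)) (hind : Cfsg.IsInducedBlock M H b B) (hdef : Cfsg.blockDefect p b = Cfsg.blockDefect p B) (ζ : Cfsg.IrrCharacter ↥H) (hζ : ζ ∈ b) (hζ0 : Cfsg.blockHeight p b (ζ : ↥H → ℂ) = 0) : ∃ χ ∈ B, Cfsg.blockHeight p B (χ : G → ℂ) = 0 ∧ ∃ a : ℕ, Cfsg.classInner (Cfsg.indFun H (ζ : ↥H → ℂ)) (χ : G → ℂ) = (a : ℂ) ∧ ¬ p ∣ a := by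
  have := IsPModular.isPrime hM
  have hp : p.Prime := hM.1
  let _ := Fintype.ofFinite H
  have hchar : IsCharacter G (indFun H (ζ : H → ℂ)) :=
    IsCharacter.indFun H (IsIrrCharacter.isCharacter ζ.2)
  have hζ1 := irr_one_ne_zero ζ.2
  have hNc := Cfsg.Agent.Lib.Helper24.charDegree_cast hchar
  have hG0 : Nat.card G ≠ 0 := (Nat.card_pos (α := G)).ne'
  have hH0 : Nat.card H ≠ 0 := (Nat.card_pos (α := H)).ne'
  have hdζ := (Cfsg.Agent.Lib.Helper24.charDegree_pos ζ.2).ne'
  -- the degree of the induced character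
  have hNeq : charDegree (indFun H (ζ : H → ℂ)) * Nat.card H =
      Nat.card G * charDegree (ζ : H → ℂ) := by
    have h1 : ((charDegree (indFun H (ζ : H → ℂ)) * Nat.card H : ℕ) : ℂ) =
        ((Nat.card G * charDegree (ζ : H → ℂ) : ℕ) : ℂ) := by
      push_cast
      rw [hNc, indFun_one, Cfsg.Agent.Lib.Helper24.charDegree_cast (IsIrrCharacter.isCharacter ζ.2)]
      have hH : (Nat.card H : ℂ) ≠ 0 := by exact_mod_cast hH0
      field_simp
    exact_mod_cast h1
  have hN : charDegree (indFun H (ζ : H → ℂ)) ≠ 0 := by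
    intro h0
    rw [h0, zero_mul] at hNeq
    exact (Nat.mul_ne_zero hG0 hdζ) hNeq.symm
  have hfac := congrArg (fun n : ℕ => n.factorization p) hNeq
  simp only [Nat.factorization_mul hN hH0, Nat.factorization_mul hG0 hdζ, Finsupp.add_apply] at hfac
  -- minimal exponents
  set m₀ := sInf ((fun χ : IrrCharacter G => (charDegree (χ : G → ℂ)).factorization p) '' B) with hm₀
  set m₁ := sInf ((fun χ : IrrCharacter H => (charDegree (χ : H → ℂ)).factorization p) '' b) with hm₁
  have hm₁ζ : (charDegree (ζ : H → ℂ)).factorization p = m₁ := by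
    have h1 : m₁ ≤ (charDegree (ζ : H → ℂ)).factorization p := Nat.sInf_le ⟨ζ, hζ, rfl⟩
    rw [blockHeight] at hζ0
    omega
  have hm₁le : m₁ ≤ (Nat.card H).factorization p := by
    rw [← hm₁ζ]
    exact (Nat.factorization_le_iff_dvd hdζ hH0).mpr
      (Cfsg.Agent.Lib.Helper24.degree_dvd_card ζ.2) p
  obtain ⟨χ₀, hχ₀⟩ := IsPBlock.nonempty hind.2.1
  have hm₀le : m₀ ≤ (Nat.card G).factorization p := by
    have h1 : m₀ ≤ (charDegree (χ₀ : G → ℂ)).factorization p := Nat.sInf_le ⟨χ₀, hχ₀, rfl⟩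
    exact h1.trans ((Nat.factorization_le_iff_dvd
      (Cfsg.Agent.Lib.Helper24.charDegree_pos χ₀.2).ne' hG0).mpr
      (Cfsg.Agent.Lib.Helper24.degree_dvd_card χ₀.2) p)
  rw [blockDefect, blockDefect, ← hm₀, ← hm₁] at hdef
  have hNfac : (charDegree (indFun H (ζ : H → ℂ))).factorization p = m₀ := by omega
  -- the multiplicities
  have hmul : ∀ ψ : IrrCharacter G, ∃ n : ℕ,
      classInner (indFun H (ζ : H → ℂ)) (ψ : G → ℂ) = (n : ℂ) := fun ψ =>
    IsCharacter.classInner_nat hchar (IsIrrCharacter.isCharacter ψ.2)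
  choose a ha using hmul
  by_contra hcon
  push Not at hcon
  have hdvd : ∀ ψ : IrrCharacter G, p ^ (m₀ + 1) ∣
      (if ψ ∈ B then a ψ * charDegree (ψ : G → ℂ) else 0) := by
    intro ψ
    split_ifs with hψ
    · have hdψ := (Cfsg.Agent.Lib.Helper24.charDegree_pos ψ.2).ne'
      have h1 : m₀ ≤ (charDegree (ψ : G → ℂ)).factorization p := Nat.sInf_le ⟨ψ, hψ, rfl⟩
      by_cases h0 : blockHeight p B (ψ : G → ℂ) = 0
      · have h2 := hcon ψ hψ h0 (a ψ) (ha ψ)
        rw [pow_succ, mul_comm]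
        exact Nat.mul_dvd_mul h2 ((hp.pow_dvd_iff_le_factorization hdψ).mpr h1)
      · rw [blockHeight, ← hm₀] at h0
        exact Dvd.dvd.mul_left ((hp.pow_dvd_iff_le_factorization hdψ).mpr (by omega)) _
    · exact dvd_zero _
  have hsum : bPart B (indFun H (ζ : H → ℂ)) 1 =
      ((∑ ψ : IrrCharacter G, (if ψ ∈ B then a ψ * charDegree (ψ : G → ℂ) else 0) : ℕ) : ℂ) := by
    simp only [bPart, Finset.sum_apply, Pi.smul_apply, smul_eq_mul]
    push_cast
    refine Finset.sum_congr rfl fun ψ _ => ?_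
    split_ifs with hψ
    · rw [Set.indicator_of_mem hψ, Pi.one_apply, one_mul, ha,
        Cfsg.Agent.Lib.Helper24.charDegree_cast (IsIrrCharacter.isCharacter ψ.2)]
    · rw [Set.indicator_of_notMem hψ]; simp
  have h1 := om_res_coef_sub hM H hind hζ hind.2.1
  rw [if_pos rfl] at h1
  have h2 := bPart_indFun_one H (ζ : H → ℂ) hζ1 B
  rw [hsum, ← hNc] at h2
  obtain ⟨h3, h4⟩ := factorization_eq_of_unit hM hN h2
    ((memLocalRing_congr h1).mpr memLocalRing_one)
    (fun h => not_memLocalIdeal_one ((memLocalIdeal_congr h1).mp h))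
  have h5 := (hp.pow_dvd_iff_le_factorization h3).mp (Finset.dvd_sum fun ψ _ => hdvd ψ)
  omega

end Cfsg.Agent.S4725
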