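import Cfsg.Statements.S4726
import Cfsg.Agent.Lib.Helper24.IndCent
-- import your own Cfsg.Agent.* helpers here

set_option autoImplicit false
open Cfsg

namespace Cfsg.Agent.S4726

open Cfsg.Agent.Lib.Helper24 Cfsg.Agent.Lib.Helper6 Cfsg.Agent.Lib.Helper2

/-- Let p be a prime, M a maximal ideal of the algebraic integers containing p, H a subgroup of the finite group G and b a p-block of H with defect group D₀ such that C_G(D₀) ≤ H. Then b induces a block of G, and for every block B of G induced by b there is a defect group D of B with Z(D) ≤ Z(D₀) ≤ D₀ ≤ D (as subgroups of G). In particular, if the defect groups of B are abelian then D₀ is a defect group of B. -/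
theorem result {G : Type*} [Group G] [Finite G] (p : ℕ) [Fact p.Prime] (M : Ideal Cfsg.AlgInt) (hM : Cfsg.IsPModular p M) (H : Subgroup G) (b : Set (Cfsg.IrrCharacter ↥H)) (hb : Cfsg.IsPBlock M b) (D₀ : Subgroup ↥H) (hD₀ : Cfsg.IsDefectGroup p M b D₀) (hC : Subgroup.centralizer ((D₀.map H.subtype : Subgroup G) : Set G) ≤ H) : Cfsg.InducedBlockDefined M H b ∧ ∀ B : Set (Cfsg.IrrCharacter G), Cfsg.IsInducedBlock M H b B → (∃ D : Subgroup G, Cfsg.IsDefectGroup p M B D ∧ (Subgroup.center ↥D).map D.subtype ≤ ((Subgroup.center ↥D₀).map D₀.subtype).map H.subtype ∧ ((Subgroup.center ↥D₀).map D₀.subtype).map H.subtype ≤ D₀.map H.subtype ∧ D₀.map H.subtype ≤ D) ∧ (∀ D : Subgroup G, Cfsg.IsDefectGroup p M B D → IsMulCommutative ↥D → Cfsg.IsDefectGroup p M B (D₀.map H.subtype)) := by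
  classical
  cases nonempty_fintype G
  have := IsPModular.isPrime hM
  obtain ⟨B₀, D, hind, hD, hPD, hcen⟩ := induced_of_centralizer_le hM hb hD₀ hC
  refine ⟨⟨B₀, hind⟩, fun B hB => ?_⟩
  have hBB : B = B₀ := isInducedBlock_unique hB hind
  subst hBB
  constructor
  · refine ⟨D, hD, ?_, Subgroup.map_mono (Subgroup.map_subtype_le _), hPD⟩
    rintro _ ⟨z, hz, rfl⟩
    have hzc : ∀ y ∈ D, y * (z : G) = (z : G) * y := by
      intro y hy
      exact congrArg Subtype.val (Subgroup.mem_center_iff.mp hz ⟨y, hy⟩)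
    have h1 : (z : G) ∈ D₀.map H.subtype := by
      apply hcen
      refine Subgroup.mem_inf.mpr ⟨z.2, ?_⟩
      rw [Subgroup.mem_centralizer_iff]
      intro y hy
      exact hzc y (hPD hy)
    obtain ⟨d, hd, hdz⟩ := h1
    refine ⟨d, ⟨⟨d, hd⟩, ?_, rfl⟩, hdz⟩
    show (⟨d, hd⟩ : D₀) ∈ Subgroup.center D₀
    rw [Subgroup.mem_center_iff]
    intro y
    apply Subtype.ext
    apply Subtype.ext
    have h2 := hzc ((y : H) : G) (hPD ⟨y, y.2, rfl⟩)
    rw [← hdz] at h2
    exact h2
  · intro D' hD' hab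
    obtain ⟨x, hx⟩ := isDefectGroup_exists_conj hM hB.2.1 hD' hD
    have hDab : ∀ a ∈ D, ∀ c ∈ D, a * c = c * a := by
      intro a ha c hc
      rw [hx, mem_cj] at ha hc
      have h1 := congrArg Subtype.val (hab.is_comm.comm (⟨_, ha⟩ : D') ⟨_, hc⟩)
      have h2 : x⁻¹ * a * x * (x⁻¹ * c * x) = x⁻¹ * c * x * (x⁻¹ * a * x) := h1
      have h3 : x⁻¹ * (a * c) * x = x⁻¹ * (c * a) * x := by
        calc x⁻¹ * (a * c) * x = x⁻¹ * a * x * (x⁻¹ * c * x) := by group
          _ = x⁻¹ * c * x * (x⁻¹ * a * x) := h2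
          _ = x⁻¹ * (c * a) * x := by group
      exact mul_left_cancel (mul_right_cancel h3)
    have h4 : D ≤ D₀.map H.subtype := by
      intro a ha
      apply hcen
      refine Subgroup.mem_inf.mpr ⟨ha, ?_⟩
      rw [Subgroup.mem_centralizer_iff]
      intro y hy
      exact hDab y (hPD hy) a ha
    rw [le_antisymm hPD h4]
    exact hD

end Cfsg.Agent.S4726
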