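import Cfsg.Statements.S4728
import Mathlib
import Cfsg.Agent.Lib.Helper23.PiKer5

set_option autoImplicit false
open Cfsg

namespace Cfsg.Agent.S4728

open Cfsg.Agent.Lib.Helper23.PiKer Cfsg.Agent.Lib.Helper24 Cfsg.Agent.Lib.Helper6

/-- Let p be a prime, π a set of primes containing p, M a maximal ideal of the algebraic integers containing p, B a p-block of the finite group G with defect group D, and B₁ the block of N_G(D) with defect group D inducing B. Let D₀ be a p-subgroup, H₀ = D₀·C_G(D₀), and b a block of H₀ inducing B. Write O_π'(X) for the largest normal subgroup of X whose order has no prime divisor in π. Suppose that O_π'(C_G(D₀)) is a normal Hall π'-subgroup of C_G(D₀) (it contains every element of C_G(D₀) whose order has no prime divisor in π) and that every element of it lies in the kernel of every member of b. Then every element of O_π'(N_G(D)) lies in the kernel of every member of B₁. -/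
theorem result {G : Type*} [Group G] [Finite G] (p : ℕ) [Fact p.Prime] (M : Ideal Cfsg.AlgInt) (hM : Cfsg.IsPModular p M) (π : Set ℕ) (hpπ : p ∈ π) (B : Set (Cfsg.IrrCharacter G)) (hB : Cfsg.IsPBlock M B) (D : Subgroup G) (hBD : Cfsg.IsDefectGroup p M B D) (B₁ : Set (Cfsg.IrrCharacter ↥(Subgroup.normalizer (D : Set G)))) (hB₁ : Cfsg.IsInducedBlock M (Subgroup.normalizer (D : Set G)) B₁ B) (hB₁D : Cfsg.IsDefectGroup p M B₁ (D.subgroupOf (Subgroup.normalizer (D : Set G)))) (D₀ : Subgroup G) (hD₀ : IsPGroup p D₀) (H₀ : Subgroup G) (hH₀ : H₀ = D₀ ⊔ Subgroup.centralizer (D₀ : Set G)) (b : Set (Cfsg.IrrCharacter ↥H₀)) (hb : Cfsg.IsInducedBlock M H₀ b B) (hcompl : ∀ x : ↥(Subgroup.centralizer (D₀ : Set G)), (∀ q : ℕ, q.Prime → q ∣ orderOf x → q ∉ π) → x ∈ Cfsg.piCore {q | q ∉ π} ↥(Subgroup.centralizer (D₀ : Set G))) (hkerb : ∀ x : ↥(Subgroup.centralizer (D₀ : Set G)), x ∈ Cfsg.piCore {q | q ∉ π} ↥(Subgroup.centralizer (D₀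 : Set G)) → ∀ θ ∈ b, ∀ h : ↥H₀, (h : G) = (x : G) → (θ : ↥H₀ → ℂ) h = (θ : ↥H₀ → ℂ) 1) : ∀ n : ↥(Subgroup.normalizer (D : Set G)), n ∈ Cfsg.piCore {q | q ∉ π} ↥(Subgroup.normalizer (D : Set G)) → n ∈ Cfsg.blockKer B₁ := by
  cases nonempty_fintype G
  have := IsPModular.isPrime hM
  have hπ' : p ∉ {q | q ∉ π} := fun h => h hpπ
  subst hH₀
  have hPH : D₀ ≤ D₀ ⊔ cz D₀ := le_sup_left
  have hCH : cz D₀ ≤ D₀ ⊔ cz D₀ := le_sup_right
  have hHN : D₀ ⊔ cz D₀ ≤ nor D₀ := sup_le Subgroup.le_normalizer (centralizer_le_nor D₀)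
  obtain ⟨θ, hθ⟩ := IsPBlock.nonempty hb.1
  obtain ⟨ζ, hc⟩ := exists_constituent_incl hCH θ
  have hpair := isBrauerPairOf_of_induced hM hD₀ hPH hCH hHN hb hθ hc
  have hL := not_dvd_card_piCoreOf (G := G) hM.1 hπ' (cz D₀)
  have hN : D₀ ⊔ cz D₀ ≤ Subgroup.normalizer ((Cfsg.piCoreOf {q | q ∉ π} (cz D₀) : Subgroup G) : Set G) :=
    hHN.trans ((nor_le_normalizer_cz D₀).trans (normalizer_le_normalizer_piCoreOf _ (cz D₀)))
  apply ascent hM hπ' hBD hB₁ (a := ⟨D₀, Cfsg.blockOf M (ζ : cz D₀ → ℂ)⟩) hpair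
  · apply kerIn_blockOf hM hL (le_normalizer_piCoreOf _ _)
    apply (ker_iff_of_constituent hM hCH hHN (piCoreOf_le _ _) hL hN hc).mp
    intro h hh
    have hmem : (h : G) ∈ cz D₀ := piCoreOf_le _ _ hh
    exact hkerb ⟨(h : G), hmem⟩ ((coe_mem_piCoreOf _ (cz D₀) ⟨(h : G), hmem⟩).mp hh) θ hθ h rfl
  · intro x hx hq
    exact (coe_mem_piCoreOf _ _ ⟨x, hx⟩).mpr (hcompl ⟨x, hx⟩ (by
      rw [← Subgroup.orderOf_coe]; exact hq))

end Cfsg.Agent.S4728
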