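import Cfsg.Statements.S4729
import Cfsg.Agent.Lib.Helper24.PrinSmall
-- import your own Cfsg.Agent.* helpers here

set_option autoImplicit false
open Cfsg

namespace Cfsg.Agent.S4729

open Cfsg.Agent.Lib.Helper24 Cfsg.Agent.Lib.Helper6 Cfsg.Agent.Lib.Helper2

/-- Let p be a prime, M a maximal ideal of the algebraic integers containing p, G a finite perfect group and P a Sylow p-subgroup. If the principal p-block of G contains a faithful irreducible character of degree less than 2p, then the centralizer of P is a p-group. -/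
theorem result {G : Type*} [Group G] [Finite G] (p : ℕ) [Fact p.Prime] (M : Ideal Cfsg.AlgInt) (hM : Cfsg.IsPModular p M) (hperf : commutator G = ⊤) (P : Sylow p G) (χ : Cfsg.IrrCharacter G) (hχ : χ ∈ Cfsg.principalBlock M G) (hfaith : ∀ g : G, (χ : G → ℂ) g = (χ : G → ℂ) 1 → g = 1) (hdeg : Cfsg.charDegree (χ : G → ℂ) < 2 * p) : IsPGroup p ↥(Subgroup.centralizer ((P : Subgroup G) : Set G)) := by
  classical
  cases nonempty_fintype G
  have hp : p.Prime := hM.1
  intro g
  obtain ⟨k, m, hm, hkm⟩ := Nat.exists_eq_pow_mul_and_not_dvd (orderOf_pos g).ne' p hp.ne_one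
  refine ⟨k, ?_⟩
  have hord : orderOf (((g ^ p ^ k : ↥(Subgroup.centralizer ((P : Subgroup G) : Set G))) : G)) = m := by
    rw [Subgroup.orderOf_coe, orderOf_pow_of_dvd (pow_ne_zero _ hp.ne_zero) (Dvd.intro _ hkm.symm),
      hkm, Nat.mul_div_cancel_left _ (pow_pos hp.pos _)]
  have h1 : ((g ^ p ^ k : ↥(Subgroup.centralizer ((P : Subgroup G) : Set G))) : G) = 1 :=
    eq_one_of_mem_centralizer_sylow hM hperf P hχ hfaith hdeg (g ^ p ^ k).2 (by rw [hord]; exact hm)
  exact Subtype.ext h1

end Cfsg.Agent.S4729
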