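import Cfsg.Statements.S4730
import Cfsg.Agent.Lib.Helper24.BurnsideCoprime
import Cfsg.Agent.Lib.Helper24.BlockUtil
import Cfsg.Agent.Lib.Helper24.Zeros
-- import your own Cfsg.Agent.* helpers here

set_option autoImplicit false
open Cfsg

namespace Cfsg.Agent.S4730

open Cfsg.Agent.Lib.Helper24 Cfsg.Agent.Lib.Helper2 Cfsg.Agent.Lib.Helper6
open scoped Classical ComplexConjugate

/-- If `ψ(z)/ψ(1)` lies in the local ideal for all nontrivial `z` of a subgroup of order `p^b`,
then `p^b` divides `ψ(1)`. -/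
theorem pow_dvd_degree {G : Type*} [Group G] [Fintype G] {p : ℕ} [Fact p.Prime]
    {M : Ideal Cfsg.AlgInt} (hM : Cfsg.IsPModular p M) {ψ : G → ℂ} (hψ : IsIrrCharacter G ψ)
    (Z : Subgroup G) {b : ℕ} (hb : Nat.card Z = p ^ b)
    (hz : ∀ z ∈ Z, z ≠ 1 → MemLocalIdeal M (ψ z / ψ 1)) : p ^ b ∣ charDegree ψ := by
  haveI := IsPModular.isPrime hM
  have hp : p.Prime := Fact.out
  have hc := IsIrrCharacter.isCharacter hψ
  have h10 := irr_one_ne_zero hψ
  obtain ⟨m, hm⟩ := IsCharacter.classInner_nat (IsCharacter.restrict Z hc)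
      (IsIrrCharacter.isCharacter (isIrrCharacter_one (G := Z)))
  have hZ0 : (Nat.card Z : ℂ) ≠ 0 := card_subgroup_ne_zero _
  have h1 : (Nat.card Z : ℂ) * m = ∑ z : Z, ψ (z : G) := by
    rw [← hm]
    unfold classInner
    rw [← mul_assoc, mul_inv_cancel₀ hZ0, one_mul]
    simp
  have h2 : ∑ z : Z, ψ (z : G) = ψ 1 * (1 + ∑ z ∈ Finset.univ.erase (1 : Z), ψ (z : G) / ψ 1) := by
    rw [← Finset.add_sum_erase _ _ (Finset.mem_univ (1 : Z)), mul_add, mul_one, Finset.mul_sum]
    congr 1
    refine Finset.sum_congr rfl fun z _ => ?_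
    field_simp
  have hμ : MemLocalIdeal M (∑ z ∈ Finset.univ.erase (1 : Z), ψ (z : G) / ψ 1) := by
    apply MemLocalIdeal.sum
    intro z hz'
    apply hz _ z.2
    intro h
    exact (Finset.mem_erase.mp hz').1 (Subtype.ext h)
  obtain ⟨μ, hμe⟩ : ∃ μ, μ = ∑ z ∈ Finset.univ.erase (1 : Z), ψ (z : G) / ψ 1 := ⟨_, rfl⟩
  rw [← hμe] at h2 hμ
  rw [h2, hb, ← charDegree_cast hc] at h1
  have hpos := charDegree_pos hψ
  obtain ⟨d, hd⟩ : ∃ d, d = charDegree ψ := ⟨_, rfl⟩
  rw [← hd] at h1 hpos ⊢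
  by_contra hnd
  obtain ⟨c, t, ht, hdt⟩ := Nat.exists_eq_pow_mul_and_not_dvd hpos.ne' p hp.ne_one
  have hcb : c < b := by
    by_contra hcb
    push Not at hcb
    exact hnd (hdt ▸ (pow_dvd_pow p hcb).trans (dvd_mul_right _ _))
  obtain ⟨k, rfl⟩ : ∃ k, b = c + (k + 1) := ⟨b - c - 1, by omega⟩
  have hp0 : (p : ℂ) ≠ 0 := by exact_mod_cast hp.ne_zero
  have h3 : (p : ℂ) * ((p : ℂ) ^ k * m) = t * (1 + μ) := by
    rw [hdt] at h1
    push_cast at h1
    have h4 : (p : ℂ) ^ c * ((p : ℂ) * ((p : ℂ) ^ k * m)) = (p : ℂ) ^ c * (t * (1 + μ)) := by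
      rw [← mul_assoc ((p : ℂ) ^ c) (t : ℂ), ← h1]
      ring
    exact mul_left_cancel₀ (pow_ne_zero _ hp0) h4
  have h5 : MemLocalIdeal M ((t : ℂ) * (1 + μ)) := by
    rw [← h3]
    exact MemLocalIdeal.mul_right (memLocalIdeal_p hM)
      (MemLocalRing.mul (MemLocalRing.pow (memLocalRing_natCast p) k) (memLocalRing_natCast m))
  have h6 : MemLocalIdeal M (t : ℂ) := by
    have : (t : ℂ) = (t : ℂ) * (1 + μ) - (t : ℂ) * μ := by ring
    rw [this]
    exact MemLocalIdeal.sub h5 (MemLocalIdeal.mul_left (memLocalRing_natCast t) hμ)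
  exact ht ((memLocalIdeal_natCast_iff hM t).mp h6)

/-- Let p be a prime, M a maximal ideal of the algebraic integers containing p, and G a finite group with trivial centre, Sylow p-subgroup P of order p^a and centre Z(P) of order p^b. If χ is a faithful irreducible character of G whose degree is a power of p, then the p-block of χ has defect at most a − b; in particular, if P is abelian then χ lies in a block of defect zero. -/
theorem result {G : Type*} [Group G] [Finite G] (p : ℕ) [Fact p.Prime] (M : Ideal Cfsg.AlgInt) (hM : Cfsg.IsPModular p M) (hZ : Subgroup.center G = ⊥) (P : Sylow p G) (a b : ℕ) (ha : Nat.card P = p ^ a) (hb : Nat.card (Subgroup.center ↥(P : Subgroup G)) = p ^ b) (χ : Cfsg.IrrCharacter G) (hfaith : ∀ g : G, (χ : G → ℂ) g = (χ : G → ℂ) 1 → g = 1) (n : ℕ) (hdeg : Cfsg.charDegree (χ : G → ℂ) = p ^ n) : Cfsg.blockDefect p (Cfsg.blockOf M (χ : G → ℂ)) ≤ a - b ∧ (IsMulCommutative ↥(P : Subgroup G) → Cfsg.blockDefect p (Cfsg.blockOf M (χ : G → ℂ)) = 0)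 := by
  cases nonempty_fintype G
  haveI := IsPModular.isPrime hM
  have hp : p.Prime := Fact.out
  -- the centre of `P` as a subgroup of `G`
  obtain ⟨Z, hZdef⟩ : ∃ Z : Subgroup G, Z = (Subgroup.center ↥(P : Subgroup G)).map
      (P : Subgroup G).subtype := ⟨_, rfl⟩
  have hZcard : Nat.card Z = p ^ b := by
    rw [hZdef, Subgroup.card_map_of_injective (Subgroup.subtype_injective _), hb]
  -- class sizes of elements of `Z` are prime to `p`
  have hidx : ∀ z ∈ Z, ¬ p ∣ (Subgroup.centralizer ({z} : Set G)).index := by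
    intro z hz
    rw [hZdef] at hz
    obtain ⟨w, hw, rfl⟩ := hz
    have hle : (P : Subgroup G) ≤ Subgroup.centralizer ({(P : Subgroup G).subtype w} : Set G) := by
      intro x hx
      rw [Subgroup.mem_centralizer_singleton_iff]
      have := Subgroup.mem_center_iff.mp hw ⟨x, hx⟩
      exact congrArg Subtype.val this
    intro hdvd
    exact P.not_dvd_index (hdvd.trans (Subgroup.index_dvd_of_le hle))
  -- `χ` vanishes on `Z ∖ 1`
  have hvan : ∀ z ∈ Z, z ≠ 1 → (χ : G → ℂ) z = 0 := by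
    intro z hz hz1
    have hcop : Nat.Coprime (charDegree (χ : G → ℂ)) (Subgroup.centralizer ({z} : Set G)).index := by
      rw [hdeg]
      exact Nat.Coprime.pow_left _ ((Nat.Prime.coprime_iff_not_dvd hp).mpr (hidx z hz))
    rcases zero_or_norm_of_coprime χ.2 z hcop with h | h
    · exact h
    · exfalso
      have := mem_center_of_norm_eq (IsIrrCharacter.isCharacter χ.2) hfaith h
      rw [hZ, Subgroup.mem_bot] at this
      exact hz1 this
  -- every character of the block has degree divisible by `p^b`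
  have hdvd : ∀ ψ ∈ Cfsg.blockOf M (χ : G → ℂ), p ^ b ∣ charDegree (ψ : G → ℂ) := by
    intro ψ hψ
    apply pow_dvd_degree hM ψ.2 Z hZcard
    intro z hz hz1
    have h1 : MemLocalIdeal M (centralChar (χ : G → ℂ) z - centralChar (ψ : G → ℂ) z) := hψ z
    have h2 : centralChar (χ : G → ℂ) z = 0 := by
      unfold centralChar
      rw [hvan z hz hz1]
      simp
    rw [h2, zero_sub] at h1
    have h3 : MemLocalIdeal M (centralChar (ψ : G → ℂ) z) := by simpa using MemLocalIdeal.neg h1
    have hi0 : ((Subgroup.centralizer ({z} : Set G)).index : ℂ) ≠ 0 := by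
      intro h0
      have : (Subgroup.centralizer ({z} : Set G)).index = 0 := by exact_mod_cast h0
      exact hidx z hz (this ▸ dvd_zero p)
    have h4 : (ψ : G → ℂ) z / (ψ : G → ℂ) 1 =
        ((Subgroup.centralizer ({z} : Set G)).index : ℂ)⁻¹ * centralChar (ψ : G → ℂ) z := by
      unfold centralChar
      field_simp
    rw [h4]
    exact MemLocalIdeal.mul_left (memLocalRing_inv_natCast hM (hidx z hz)) h3
  have hfa : (Nat.card G).factorization p = a := by
    have h1 := Sylow.card_eq_multiplicity P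
    rw [ha] at h1
    exact (Nat.pow_right_injective hp.two_le h1).symm
  have hmain : Cfsg.blockDefect p (Cfsg.blockOf M (χ : G → ℂ)) ≤ a - b := by
    unfold blockDefect
    rw [hfa]
    apply Nat.sub_le_sub_left
    have hne : ((fun χ : IrrCharacter G => (charDegree (χ : G → ℂ)).factorization p) ''
        (Cfsg.blockOf M (χ : G → ℂ))).Nonempty := ⟨_, χ, mem_blockOf_self χ, rfl⟩
    apply le_csInf hne
    rintro _ ⟨ψ, hψ, rfl⟩
    exact (hp.pow_dvd_iff_le_factorization (charDegree_pos ψ.2).ne').mp (hdvd ψ hψ)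
  refine ⟨hmain, fun hcomm => ?_⟩
  have hab : a = b := by
    have h1 : Subgroup.center ↥(P : Subgroup G) = ⊤ := by
      rw [eq_top_iff]
      intro x _
      rw [Subgroup.mem_center_iff]
      intro y
      exact hcomm.is_comm.comm y x
    rw [h1, Subgroup.card_top, ha] at hb
    exact Nat.pow_right_injective hp.two_le hb
  rw [hab, Nat.sub_self] at hmain
  exact Nat.le_zero.mp hmain

end Cfsg.Agent.S4730
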