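import Cfsg.Statements.S4731
import Mathlib
import Cfsg.Agent.S0907
import Cfsg.Agent.S0925
import Cfsg.Agent.Lib.Helper6.BlockOrth
import Cfsg.Agent.Lib.Helper24.CharInt

set_option autoImplicit false
open Cfsg

namespace Cfsg.Agent.S4731

open Cfsg.Agent.Lib.Helper2 Cfsg.Agent.Lib.Helper6 Cfsg.Agent.Lib.Helper24
open scoped ComplexConjugate

attribute [local instance] irrFintype

/-- Let p ≠ q be primes, M_p and M_q maximal ideals of the algebraic integers containing p and q respectively, and G a finite group with no element of order pq; let q^b be the q-part of the order of G. For a p-block B_p (relative to M_p), a q-block B_q (relative to M_q) and a p-singular element y, the sum of χ(1)χ(y) over the irreducible characters χ lying in both B_p and B_q is q^b times an algebraic integer. -/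
theorem result {G : Type*} [Group G] [Finite G] (p q : ℕ) [Fact p.Prime] [Fact q.Prime] (hpq : p ≠ q) (Mp Mq : Ideal Cfsg.AlgInt) (hMp : Cfsg.IsPModular p Mp) (hMq : Cfsg.IsPModular q Mq) (hno : ∀ g : G, orderOf g ≠ p * q) (b : ℕ) (hb : (Nat.card G).factorization q = b) (Bp : Set (Cfsg.IrrCharacter G)) (hBp : Cfsg.IsPBlock Mp Bp) (Bq : Set (Cfsg.IrrCharacter G)) (hBq : Cfsg.IsPBlock Mq Bq) (y : G) (hy : p ∣ orderOf y) : ∃ ω : Cfsg.AlgInt, ∑ᶠ χ ∈ Bp ∩ Bq, (Cfsg.charDegree (χ : G → ℂ) : ℂ) * (χ : G → ℂ) y = (q : ℂ) ^ b * (ω : ℂ) := by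
  classical
  letI := Fintype.ofFinite G
  have hpp : p.Prime := Fact.out
  have hqp : q.Prime := Fact.out
  let a : IrrCharacter G → ℂ := fun χ => Bp.indicator 1 χ * conj ((χ : G → ℂ) y⁻¹)
  let θ : G → ℂ := ∑ χ : IrrCharacter G, a χ • (χ : G → ℂ)
  have hθapp : ∀ g, θ g = ∑ χ : IrrCharacter G, Bp.indicator 1 χ *
      ((χ : G → ℂ) g * conj ((χ : G → ℂ) y⁻¹)) := by
    intro g
    simp only [θ, a, Finset.sum_apply, Pi.smul_apply, smul_eq_mul]
    refine Finset.sum_congr rfl fun χ _ => by ring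
  have hθ0 : ∀ g, ¬ p ∣ orderOf g → θ g = 0 := by
    intro g hg
    have := Cfsg.Agent.S0907.result p Mp hMp Bp hBp g y⁻¹ hg (by rw [orderOf_inv]; exact hy)
    rw [finsum_mem_eq_sum_indicator] at this
    rw [hθapp]
    exact this
  have hθcl : IsClassFunction G θ :=
    isClassFunction_sum _ fun χ _ => isClassFunction_smul _
      (IsCharacter.isClassFunction (IsIrrCharacter.isCharacter χ.2))
  have hinner : ∀ ψ : IrrCharacter G, classInner θ (ψ : G → ℂ) = a ψ :=
    fun ψ => classInner_sum_irr_left a ψ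
  -- the `Bq`-part of θ vanishes at nontrivial `q`-elements
  have hvan : ∀ x : G, x ≠ 1 → (∃ k : ℕ, orderOf x = q ^ k) → blockPart Bq θ x = 0 := by
    intro x hx1 hxq
    refine (Cfsg.Agent.S0925.result (G := G) q Mq hMq).1 θ hθcl x hxq ?_ Bq hBq x x
      ⟨1, mul_one x, Commute.one_right x, hxq, by
        rw [orderOf_one]
        exact hqp.one_lt.ne' ∘ Nat.dvd_one.mp⟩ (IsConj.refl x)
    intro u z hu hz
    apply hθ0
    intro hpu
    obtain ⟨w, hzw, hcomm, _, _⟩ := hu
    have hzo : orderOf z = orderOf x := by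
      obtain ⟨c, hc⟩ := isConj_iff.mp hz
      rw [← hc]
      exact (MulAut.conj c).orderOf_eq x
    obtain ⟨k, hk⟩ := hxq
    have hk0 : k ≠ 0 := by
      rintro rfl
      rw [pow_zero, orderOf_eq_one_iff] at hk
      exact hx1 hk
    obtain ⟨k', rfl⟩ := Nat.exists_eq_succ_of_ne_zero hk0
    have hz' : orderOf (z ^ (q ^ k')) = q := by
      rw [orderOf_pow_of_dvd (pow_ne_zero _ hqp.ne_zero) (by rw [hzo, hk]; exact pow_dvd_pow _ (Nat.le_succ _)),
        hzo, hk, pow_succ]
      exact Nat.mul_div_cancel_left _ (pow_pos hqp.pos _)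
    obtain ⟨e, he⟩ := hpu
    have hpos : 0 < orderOf u := orderOf_pos u
    have he0 : e ≠ 0 := by
      rintro rfl
      rw [mul_zero] at he
      omega
    have ho : orderOf (u ^ e) = p := by
      rw [orderOf_pow_of_dvd he0 ⟨p, by rw [he]; ring⟩, he]
      exact Nat.mul_div_cancel _ (Nat.pos_of_ne_zero he0)
    have hzu : Commute z u := by
      rw [← hzw]
      exact (Commute.refl z).mul_right hcomm
    apply hno (u ^ e * z ^ (q ^ k'))
    rw [(((hzu.pow_right e).pow_left _).symm).orderOf_mul_eq_mul_orderOf_of_coprime (by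
      rw [ho, hz']
      exact (Nat.coprime_primes hpp hqp).mpr hpq), ho, hz']
  have hbp : ∀ x : G, blockPart Bq θ x = ∑ χ : IrrCharacter G,
      (Bp ∩ Bq).indicator 1 χ * ((χ : G → ℂ) y * (χ : G → ℂ) x) := by
    intro x
    rw [blockPart, finsum_mem_eq_sum_indicator]
    refine Finset.sum_congr rfl fun χ _ => ?_
    rw [hinner]
    simp only [a]
    rw [IsCharacter.apply_inv (IsIrrCharacter.isCharacter χ.2), Complex.conj_conj]
    by_cases h1 : χ ∈ Bp <;> by_cases h2 : χ ∈ Bq <;> simp [h1, h2]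
  obtain ⟨Q⟩ : Nonempty (Sylow q G) := inferInstance
  have hQcard : Nat.card Q = q ^ b := by
    rw [← hb]; exact Q.card_eq_multiplicity
  -- multiplicities of the trivial character of `Q`
  have hm : ∀ χ : IrrCharacter G, ∃ n : ℕ, ∑ u : Q, (χ : G → ℂ) u = (q : ℂ) ^ b * n := by
    intro χ
    obtain ⟨n, hn⟩ := IsCharacter.classInner_nat
      (IsCharacter.restrict (Q : Subgroup G) (IsIrrCharacter.isCharacter χ.2))
      (IsIrrCharacter.isCharacter (isIrrCharacter_one (G := Q)))
    refine ⟨n, ?_⟩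
    rw [← hn, classInner]
    have hc : (Nat.card Q : ℂ) = (q : ℂ) ^ b := by rw [hQcard]; push_cast; rfl
    have hne : (q : ℂ) ^ b ≠ 0 := pow_ne_zero _ (Nat.cast_ne_zero.mpr hqp.ne_zero)
    rw [hc]
    simp only [map_one, mul_one]
    field_simp
  choose m hm using hm
  have hsum : ∑ u : Q, blockPart Bq θ u = blockPart Bq θ 1 := by
    refine (Finset.sum_eq_single (1 : Q) ?_ ?_).trans rfl
    · intro u _ hu
      apply hvan
      · intro h; exact hu (Subtype.ext h)
      · obtain ⟨k, hk⟩ := (IsPGroup.iff_orderOf.mp Q.2) u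
        exact ⟨k, by rw [← hk]; exact (Subgroup.orderOf_coe u)⟩
    · intro h; exact absurd (Finset.mem_univ _) h
  refine ⟨⟨∑ χ : IrrCharacter G, (Bp ∩ Bq).indicator 1 χ * ((χ : G → ℂ) y * m χ), ?_⟩, ?_⟩
  · refine IsIntegral.sum _ fun χ _ => ?_
    refine IsIntegral.mul ?_ (IsIntegral.mul (irr_isIntegral χ.2 y) (isIntegral_algebraMap (R := ℤ) (x := (m χ : ℤ)) |> fun h => by simpa using h))
    by_cases h : χ ∈ Bp ∩ Bq
    · rw [Set.indicator_of_mem h]; exact isIntegral_one
    · rw [Set.indicator_of_notMem h]; exact isIntegral_zero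
  · rw [finsum_mem_eq_sum_indicator]
    have h1 := hbp 1
    rw [← hsum] at h1
    simp_rw [hbp] at h1
    rw [Finset.sum_comm] at h1
    show _ = (q : ℂ) ^ b * ∑ χ : IrrCharacter G, (Bp ∩ Bq).indicator 1 χ * ((χ : G → ℂ) y * m χ)
    rw [Finset.mul_sum]
    have h2 : ∀ χ : IrrCharacter G, ∑ u : Q, (Bp ∩ Bq).indicator 1 χ * ((χ : G → ℂ) y * (χ : G → ℂ) u)
        = (q : ℂ) ^ b * ((Bp ∩ Bq).indicator 1 χ * ((χ : G → ℂ) y * m χ)) := by
      intro χ
      rw [← Finset.mul_sum, ← Finset.mul_sum, hm]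
      ring
    simp_rw [h2] at h1
    rw [h1]
    refine Finset.sum_congr rfl fun χ _ => ?_
    rw [charDegree_cast (IsIrrCharacter.isCharacter χ.2)]
    ring

end Cfsg.Agent.S4731
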