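import Cfsg.Statements.S4733
import Cfsg.Agent.Lib.Helper24.BlockRank
import Cfsg.Agent.Lib.Helper24.DefectZero
import Cfsg.Agent.Lib.Helper24.Zeros
-- import your own Cfsg.Agent.* helpers here

set_option autoImplicit false
open Cfsg

namespace Cfsg.Agent.S4733

open Cfsg.Agent.Lib.Helper24 Cfsg.Agent.Lib.Helper2 Cfsg.Agent.Lib.Helper6
open scoped Classical ComplexConjugate

attribute [local instance] irrFintype

section

variable {G : Type*} [Group G] [Fintype G]

/-- `|G| ⟨χ°, χ⟩ = |G| - ∑_{x singular} |χ(x)|²`. -/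
theorem card_mul_inner_reg (p : ℕ) {χ : G → ℂ} (hχ : IsIrrCharacter G χ) :
    (Nat.card G : ℂ) * classInner (pRegularPart p χ) χ =
      (((Nat.card G : ℝ) - ∑ x : G, (if p ∣ orderOf x then ‖χ x‖ ^ 2 else 0) : ℝ) : ℂ) := by
  have hG : (Nat.card G : ℂ) ≠ 0 := card_ne_zero_complex
  unfold classInner
  rw [← mul_assoc, mul_inv_cancel₀ hG, one_mul, ← sum_norm_sq hχ, ← Finset.sum_sub_distrib]
  push_cast
  refine Finset.sum_congr rfl fun x _ => ?_
  by_cases hx : p ∣ orderOf x
  · rw [pRegularPart_of_sing _ hx, if_pos hx]; simp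
  · rw [pRegularPart_of_reg _ hx, if_neg hx, Complex.mul_conj, Complex.normSq_eq_norm_sq]
    push_cast
    simp

/-- A character vanishing on the `p`-singular elements has degree divisible by the full power
of `p`. -/
theorem pow_dvd_degree_of_vanish {p : ℕ} [Fact p.Prime] {χ : G → ℂ} (hχ : IsCharacter G χ)
    (hv : ∀ x : G, p ∣ orderOf x → χ x = 0) :
    p ^ (Nat.card G).factorization p ∣ charDegree χ := by
  obtain ⟨P⟩ : Nonempty (Sylow p G) := inferInstance
  obtain ⟨m, hm⟩ := IsCharacter.classInner_nat (IsCharacter.restrict (P : Subgroup G) hχ)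
      (IsIrrCharacter.isCharacter (isIrrCharacter_one (G := (P : Subgroup G))))
  have h1 : classInner (fun x : (P : Subgroup G) => χ (x : G)) (fun _ => 1) =
      (Nat.card (P : Subgroup G) : ℂ)⁻¹ * χ 1 := by
    unfold classInner
    congr 1
    rw [Finset.sum_eq_single 1]
    · simp
    · intro x _ hx
      show χ (x : G) * _ = 0
      rw [hv, zero_mul]
      obtain ⟨k, hk⟩ := (IsPGroup.iff_orderOf.mp P.2) x
      rw [Subgroup.orderOf_coe, hk]
      apply dvd_pow_self
      rintro rfl
      rw [pow_zero, orderOf_eq_one_iff] at hk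
      exact hx hk
    · intro h; exact absurd (Finset.mem_univ _) h
  rw [hm] at h1
  have hP0 : (Nat.card (P : Subgroup G) : ℂ) ≠ 0 := card_subgroup_ne_zero _
  rw [← Sylow.card_eq_multiplicity P]
  refine ⟨m, ?_⟩
  have h2 : (charDegree χ : ℂ) = ((Nat.card (P : Subgroup G) * m : ℕ) : ℂ) := by
    rw [charDegree_cast hχ]
    push_cast
    rw [h1]
    field_simp
  exact_mod_cast h2

end

/-- Let p be a prime, M a maximal ideal of the algebraic integers containing p, and B a p-block of the finite group G with k irreducible characters and p-regular rank l (the number of irreducible Brauer characters). Then l ≤ k, and the following are equivalent: B has defect 0; k = l = 1; k = l. -/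
theorem result {G : Type*} [Group G] [Finite G] (p : ℕ) [Fact p.Prime] (M : Ideal Cfsg.AlgInt) (hM : Cfsg.IsPModular p M) (B : Set (Cfsg.IrrCharacter G)) (hB : Cfsg.IsPBlock M B) : Cfsg.blockRank p B ≤ Nat.card B ∧ (Cfsg.blockDefect p B = 0 ↔ (Nat.card B = 1 ∧ Cfsg.blockRank p B = 1)) ∧ (Cfsg.blockDefect p B = 0 ↔ Nat.card B = Cfsg.blockRank p B) := by
  cases nonempty_fintype G
  have hprime := IsPModular.isPrime hM
  have hp : p.Prime := Fact.out
  set a := (Nat.card G).factorization p with ha
  have hcardB : Nat.card B = (Finset.univ.filter (· ∈ B)).card := by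
    rw [Nat.card_eq_fintype_card, Fintype.card_subtype]
  -- rank at most cardinality
  have hle : Cfsg.blockRank p B ≤ Nat.card B := by
    unfold blockRank
    rw [Set.image_eq_range, Nat.card_eq_fintype_card]
    exact finrank_range_le_card _
  -- defect zero in terms of degrees
  have hdef : Cfsg.blockDefect p B = 0 ↔ ∀ χ ∈ B, p ^ a ∣ charDegree (χ : G → ℂ) := by
    unfold blockDefect
    rw [Nat.sub_eq_zero_iff_le]
    obtain ⟨χ₀, hχ₀⟩ := IsPBlock.nonempty hB
    have hne : ((fun χ : IrrCharacter G => (charDegree (χ : G → ℂ)).factorization p) '' B).Nonempty :=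
      ⟨_, χ₀, hχ₀, rfl⟩
    constructor
    · intro h χ hχ
      have h1 : sInf ((fun χ : IrrCharacter G => (charDegree (χ : G → ℂ)).factorization p) '' B) ≤
          (charDegree (χ : G → ℂ)).factorization p := Nat.sInf_le ⟨χ, hχ, rfl⟩
      exact (pow_dvd_pow p (h.trans h1)).trans (Nat.ordProj_dvd _ _)
    · intro h
      apply le_csInf hne
      rintro _ ⟨χ, hχ, rfl⟩
      exact (hp.pow_dvd_iff_le_factorization (charDegree_pos χ.2).ne').mp (h χ hχ)
  have hnot : ¬ p ^ (a + 1) ∣ Nat.card G := Nat.pow_succ_factorization_not_dvd Nat.card_pos.ne' hp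
  -- defect zero implies a singleton block of rank one
  have h1 : Cfsg.blockDefect p B = 0 → Nat.card B = 1 ∧ Cfsg.blockRank p B = 1 := by
    intro h0
    obtain ⟨χ, hχ⟩ := IsPBlock.nonempty hB
    have h2 := not_dvd_card_div_degree χ.2 hnot ((hdef.mp h0) χ hχ)
    have h3 : B = {χ} := by
      rw [IsPBlock.eq_blockOf hB hχ]
      exact (Cfsg.Agent.S0914.result p M hM χ).mp h2
    subst h3
    refine ⟨by simp, ?_⟩
    unfold blockRank
    rw [Set.image_singleton]
    apply finrank_span_singleton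
    intro h4
    have h5 := congrFun h4 1
    rw [pRegularPart_one hp] at h5
    exact irr_one_ne_zero χ.2 h5
  -- equality of rank and cardinality implies defect zero
  have h2 : Nat.card B = Cfsg.blockRank p B → Cfsg.blockDefect p B = 0 := by
    intro heq
    rw [hdef]
    have hr := blockRank_eq_sum hM hB
    have hG : (Nat.card G : ℂ) ≠ 0 := card_ne_zero_complex
    have h3 : (Nat.card G : ℂ) * (blockRank p B : ℂ) =
        ∑ χ ∈ Finset.univ.filter (· ∈ B), (((Nat.card G : ℝ) -
          ∑ x : G, (if p ∣ orderOf x then ‖(χ : G → ℂ) x‖ ^ 2 else 0) : ℝ) : ℂ) := by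
      rw [hr, Finset.mul_sum]
      exact Finset.sum_congr rfl fun χ _ => card_mul_inner_reg p χ.2
    rw [← heq, hcardB] at h3
    have h4 : (Nat.card G : ℝ) * ((Finset.univ.filter (· ∈ B)).card : ℝ) =
        ∑ χ ∈ Finset.univ.filter (· ∈ B), ((Nat.card G : ℝ) -
          ∑ x : G, (if p ∣ orderOf x then ‖(χ : G → ℂ) x‖ ^ 2 else 0)) := by
      exact_mod_cast h3
    rw [Finset.sum_sub_distrib, Finset.sum_const, nsmul_eq_mul] at h4
    have h5 : ∑ χ ∈ Finset.univ.filter (· ∈ B),
        ∑ x : G, (if p ∣ orderOf x then ‖(χ : G → ℂ) x‖ ^ 2 else 0) = 0 := by linarith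
    intro χ hχ
    apply pow_dvd_degree_of_vanish (IsIrrCharacter.isCharacter χ.2)
    intro x hx
    have h6 := (Finset.sum_eq_zero_iff_of_nonneg (fun χ _ => Finset.sum_nonneg fun x _ => by
      split_ifs <;> positivity)).mp h5 χ (Finset.mem_filter.mpr ⟨Finset.mem_univ _, hχ⟩)
    have h7 := (Finset.sum_eq_zero_iff_of_nonneg (fun x _ => by
      split_ifs <;> positivity)).mp h6 x (Finset.mem_univ _)
    rw [if_pos hx] at h7
    exact norm_eq_zero.mp (pow_eq_zero_iff two_ne_zero |>.mp h7)
  refine ⟨hle, ⟨h1, fun h => h2 (by rw [h.1, h.2])⟩, ⟨fun h => ?_, h2⟩⟩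
  obtain ⟨h3, h4⟩ := h1 h
  rw [h3, h4]

end Cfsg.Agent.S4733
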