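import Cfsg.Statements.S4735
import Mathlib
import Cfsg.Agent.Lib.Helper25.PrincipalReg
import Cfsg.Agent.Lib.Helper1.Cores
import Cfsg.Agent.Lib.Helper6.Inflate
import Cfsg.Agent.Lib.Helper24.CharInt
import Cfsg.Agent.Lib.Helper24.Codegree

set_option autoImplicit false
open Cfsg

namespace Cfsg.Agent.S4735

open Cfsg.Agent.Lib.Helper2 Cfsg.Agent.Lib.Helper6 Cfsg.Agent.Lib.Helper24
open Cfsg.Agent.Lib.Helper25
open scoped ComplexConjugate

attribute [local instance] irrFintype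

/-- The inflation map on irreducible characters. -/
noncomputable def inflIrr {G : Type*} [Group G] [Fintype G] (N : Subgroup G) [N.Normal]
    [Fintype (G ⧸ N)] (ψ : IrrCharacter (G ⧸ N)) : IrrCharacter G :=
  ⟨infl N ψ, isIrrCharacter_infl N ψ.2⟩

theorem bijOn_inflIrr {G : Type*} [Group G] [Fintype G] (N : Subgroup G) [N.Normal]
    [Fintype (G ⧸ N)] {p : ℕ} [Fact p.Prime] {M : Ideal AlgInt} (hM : IsPModular p M)
    (hN : ¬ p ∣ Nat.card N) :
    Set.BijOn (inflIrr N) (principalBlock M (G ⧸ N)) (principalBlock M G) := by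
  haveI := IsPModular.isPrime hM
  refine ⟨?_, ?_, ?_⟩
  · intro ψ hψ
    exact sameBlock_infl N isIrrCharacter_one ψ.2 hψ
  · intro ψ _ ψ' _ h
    apply Subtype.ext
    funext q
    obtain ⟨g, rfl⟩ := QuotientGroup.mk_surjective q
    exact congrFun (congrArg Subtype.val h) g
  · intro χ hχ
    obtain ⟨ψ', h1, h2⟩ := exists_infl_of_sameBlock N hM hN
      ⟨fun _ => 1, isIrrCharacter_one⟩ χ hχ
    exact ⟨ψ', h2, Subtype.ext h1.symm⟩

theorem finsum_normSq_le {G : Type*} [Group G] [Fintype G] (B : Set (IrrCharacter G)) (x : G) :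
    ∑ᶠ χ ∈ B, Complex.normSq ((χ : G → ℂ) x) ≤
      (Nat.card ↥(Subgroup.centralizer ({x} : Set G)) : ℝ) := by
  classical
  have h := column_orthogonality x x
  rw [if_pos (IsConj.refl x)] at h
  have h2 : ∑ χ : IrrCharacter G, Complex.normSq ((χ : G → ℂ) x) =
      (Nat.card ↥(Subgroup.centralizer ({x} : Set G)) : ℝ) := by
    apply Complex.ofReal_injective
    rw [Complex.ofReal_sum, Complex.ofReal_natCast, ← h]
    refine Finset.sum_congr rfl fun χ _ => ?_
    rw [Complex.mul_conj]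
  rw [← h2, finsum_mem_def, finsum_eq_sum_of_fintype]
  refine Finset.sum_le_sum fun χ _ => ?_
  exact Set.indicator_le_self' (fun _ _ => Complex.normSq_nonneg _) χ

/-- Let p be a prime, M a maximal ideal of the algebraic integers containing p, G a finite group, H = O_p'(G) and Ḡ = G/H. For x ∈ G write λ(G, x) for the sum of |χ(x)|^2 over the irreducible characters χ in the principal p-block of G. Then λ(G, x) is a positive integer, λ(G, x) = λ(Ḡ, x̄) where x̄ is the image of x, and λ(G, x) ≤ #C_Ḡ(x̄). Moreover λ(G, 1) = [G : H] if and only if the principal block is the only p-block of Ḡ. -/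
theorem result {G : Type*} [Group G] [Finite G] (p : ℕ) [Fact p.Prime] (M : Ideal Cfsg.AlgInt) (hM : Cfsg.IsPModular p M) (x : G) : (∃ n : ℕ, 0 < n ∧ ∑ᶠ χ ∈ Cfsg.principalBlock M G, Complex.normSq ((χ : G → ℂ) x) = n) ∧ ∑ᶠ χ ∈ Cfsg.principalBlock M G, Complex.normSq ((χ : G → ℂ) x) = ∑ᶠ ψ ∈ Cfsg.principalBlock M (G ⧸ Cfsg.pPrimeCore p G), Complex.normSq ((ψ : G ⧸ Cfsg.pPrimeCore p G → ℂ) (QuotientGroup.mk x)) ∧ ∑ᶠ χ ∈ Cfsg.principalBlock M G, Complex.normSq ((χ : G → ℂ) x) ≤ (Nat.card ↥(Subgroup.centralizer ({(QuotientGroup.mk x : G ⧸ Cfsg.pPrimeCore p G)} : Set (G ⧸ Cfsg.pPrimeCore p G))) : ℝ) ∧ ((∑ᶠ χ ∈ Cfsg.principalBlock M G, Cfsg.charDegree (χ : G → ℂ) ^ 2) = (Cfsg.pPrimeCore p G).index ↔ ∀ B : Set (Cfsg.IrrCharacter (G ⧸ Cfsg.pPrimeCore p G)), Cfsg.IsPBlock M B → B = Cfsg.principalBlock M (G ⧸ Cfsg.pPrimeCore p G)) := by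
  classical
  letI := Fintype.ofFinite G
  letI : Fintype (G ⧸ pPrimeCore p G) := Fintype.ofFinite _
  haveI := IsPModular.isPrime hM
  have hpp : p.Prime := Fact.out
  have hsp := Cfsg.Agent.Lib.Helper1.pPrimeCore_spec (G := G) p
  have hN : ¬ p ∣ Nat.card (pPrimeCore p G) := by
    intro h
    have := Nat.Coprime.eq_one_of_dvd hsp.2.symm h
    exact hpp.one_lt.ne' this
  have hbij := bijOn_inflIrr (pPrimeCore p G) hM hN
  have heq : ∑ᶠ χ ∈ Cfsg.principalBlock M G, Complex.normSq ((χ : G → ℂ) x) =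
      ∑ᶠ ψ ∈ Cfsg.principalBlock M (G ⧸ Cfsg.pPrimeCore p G),
        Complex.normSq ((ψ : G ⧸ Cfsg.pPrimeCore p G → ℂ) (QuotientGroup.mk x)) :=
    (finsum_mem_eq_of_bijOn _ hbij (fun ψ _ => rfl)).symm
  refine ⟨?_, heq, ?_, ?_⟩
  · obtain ⟨n, hn, h⟩ := PrincipalReg.exists_nat_sum_principal hM x
    refine ⟨n, hn, ?_⟩
    apply Complex.ofReal_injective
    rw [Complex.ofReal_natCast, ← h, finsum_mem_def, finsum_eq_sum_of_fintype,
      Complex.ofReal_sum]
    refine Finset.sum_congr rfl fun χ _ => ?_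
    by_cases hχ : χ ∈ principalBlock M G
    · rw [Set.indicator_of_mem hχ, if_pos hχ, Complex.mul_conj]
    · rw [Set.indicator_of_notMem hχ, if_neg hχ, Complex.ofReal_zero]
  · rw [heq]
    exact finsum_normSq_le _ _
  · have heq2 : ∑ᶠ χ ∈ Cfsg.principalBlock M G, Cfsg.charDegree (χ : G → ℂ) ^ 2 =
        ∑ᶠ ψ ∈ Cfsg.principalBlock M (G ⧸ Cfsg.pPrimeCore p G),
          Cfsg.charDegree (ψ : G ⧸ Cfsg.pPrimeCore p G → ℂ) ^ 2 := by
      refine (finsum_mem_eq_of_bijOn _ hbij (fun ψ _ => ?_)).symm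
      rfl
    have hall := sum_degree_sq_nat (G := G ⧸ pPrimeCore p G)
    rw [heq2, Subgroup.index_eq_card, ← hall, finsum_mem_def, finsum_eq_sum_of_fintype]
    constructor
    · intro h
      have hmem : ∀ ψ : IrrCharacter (G ⧸ pPrimeCore p G),
          ψ ∈ principalBlock M (G ⧸ pPrimeCore p G) := by
        by_contra hcon
        push_neg at hcon
        obtain ⟨ψ, hψ⟩ := hcon
        have hlt : ∑ ψ : IrrCharacter (G ⧸ pPrimeCore p G),
            Set.indicator (principalBlock M (G ⧸ pPrimeCore p G))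
              (fun ψ => charDegree (ψ : G ⧸ pPrimeCore p G → ℂ) ^ 2) ψ <
            ∑ ψ : IrrCharacter (G ⧸ pPrimeCore p G),
              charDegree (ψ : G ⧸ pPrimeCore p G → ℂ) ^ 2 := by
          refine Finset.sum_lt_sum (fun χ _ => Set.indicator_le_self' (fun _ _ => Nat.zero_le _) χ)
            ⟨ψ, Finset.mem_univ _, ?_⟩
          rw [Set.indicator_of_notMem hψ]
          exact pow_pos (charDegree_pos ψ.2) 2
        exact hlt.ne h
      rintro B ⟨χ, rfl⟩
      ext ψ
      constructor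
      · intro _
        exact hmem ψ
      · intro hψ
        exact SameBlock.trans (SameBlock.symm (hmem χ)) hψ
    · intro h
      refine Finset.sum_congr rfl fun ψ _ => ?_
      have hψ : ψ ∈ principalBlock M (G ⧸ pPrimeCore p G) := by
        rw [← h _ ⟨ψ, rfl⟩]
        exact SameBlock.refl (M := M) _
      rw [Set.indicator_of_mem hψ]

end Cfsg.Agent.S4735
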