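import Cfsg.Statements.S4955
import Cfsg.Agent.Lib.Helper25.NonVanish
import Cfsg.Agent.S0169

set_option autoImplicit false
open Cfsg
open Cfsg.Agent.Lib.Helper2 Cfsg.Agent.Lib.Helper6 Cfsg.Agent.Lib.Helper24 Cfsg.Agent.Lib.Helper25
open scoped ComplexConjugate

namespace Cfsg.Agent.S4955

attribute [local instance] irrFintype

theorem card_centralizer {X : Type*} [Group X] [Finite X] (V : Subgroup X)
    (hab : ∀ a ∈ V, ∀ b ∈ V, a * b = b * a) (G : Subgroup X) (hGV : Subgroup.IsComplement' V G)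
    (v : X) (hv : v ∈ V) :
    Nat.card (Subgroup.centralizer ({v} : Set X))
      = Nat.card ↥(G ⊓ Subgroup.centralizer ({v} : Set X)) * Nat.card V := by
  rw [mul_comm, ← Nat.card_prod]
  symm
  apply Nat.card_congr
  have hVC : ∀ a ∈ V, a ∈ Subgroup.centralizer ({v} : Set X) := by
    intro a ha
    rw [Subgroup.mem_centralizer_singleton_iff]
    exact hab a ha v hv
  refine Equiv.ofBijective (fun q => ⟨(q.1 : X) * (q.2 : X),
    Subgroup.mul_mem _ (hVC _ q.1.2) q.2.2.2⟩) ⟨?_, ?_⟩
  · intro q q' h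
    have h1 : (q.1 : X) * (q.2 : X) = (q'.1 : X) * (q'.2 : X) := congrArg Subtype.val h
    have h2 := hGV.1 (a₁ := (q.1, ⟨q.2, q.2.2.1⟩)) (a₂ := (q'.1, ⟨q'.2, q'.2.2.1⟩)) h1
    have h3 := congrArg Prod.fst h2
    have h4 := congrArg (fun z : ↥V × ↥G => (z.2 : X)) h2
    exact Prod.ext h3 (Subtype.ext h4)
  · intro x
    obtain ⟨⟨a, g⟩, h⟩ := hGV.2 x.1
    have h' : (a : X) * g = x.1 := h
    have hg : (g : X) ∈ Subgroup.centralizer ({v} : Set X) := by
      have : (g : X) = (a : X)⁻¹ * x.1 := by rw [← h']; group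
      rw [this]
      exact Subgroup.mul_mem _ (Subgroup.inv_mem _ (hVC _ a.2)) x.2
    exact ⟨(a, ⟨g, g.2, hg⟩), Subtype.ext h'⟩

/-- Let X be a finite group with an abelian normal Sylow p-subgroup V (a normal p-subgroup of index prime to p in which any two elements commute), and let G be a complement to V in X. Then for every v in V, writing C for the centralizer of v in G, the number k(X) of conjugacy classes of X satisfies k(X) ≤ (order of C)·(order of V) − ((order of G) − k(G)); the statement is written with the subtracted term moved to the left. In particular, if some v in V is centralized by no nonidentity element of G, then k(X) is at most the order of V. -/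
theorem result {X : Type*} [Group X] [Finite X] (p : ℕ) [Fact p.Prime] (V : Subgroup X) [V.Normal] (hVp : IsPGroup p V) (hidx : ¬ p ∣ V.index) (hab : ∀ a ∈ V, ∀ b ∈ V, a * b = b * a) (G : Subgroup X) (hGV : Subgroup.IsComplement' V G) (v : X) (hv : v ∈ V) : Nat.card (ConjClasses X) + Nat.card G ≤ Nat.card ↥(G ⊓ Subgroup.centralizer ({v} : Set X)) * Nat.card V + Nat.card (ConjClasses G) := by
  classical
  haveI := Fintype.ofFinite X
  have hp : p.Prime := Fact.out
  set n := Nat.card X with hn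
  haveI : NeZero n := ⟨Nat.card_pos.ne'⟩
  have hvn : v ^ n = 1 := pow_card_eq_one'
  obtain ⟨k, hk⟩ := hVp ⟨v, hv⟩
  have hvk : v ^ (p ^ k) = 1 := by simpa using congrArg Subtype.val hk
  have hdeg : ∀ χ : IrrCharacter X, ¬ p ∣ charDegree (χ : X → ℂ) := by
    intro χ hd
    obtain ⟨d, ρ, hρ, hχ⟩ := χ.2
    haveI := hρ
    have h1 := Cfsg.Agent.S0169.result ρ V hab
    have h2 : charDegree (χ : X → ℂ) = Module.finrank ℂ (Fin d → ℂ) := by
      have h3 := charDegree_cast (IsIrrCharacter.isCharacter χ.2)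
      rw [← hχ, Representation.char_one] at h3
      rw [← hχ]
      exact_mod_cast h3
    rw [h2] at hd
    exact hidx (hd.trans h1)
  have hne : ∀ χ : IrrCharacter X, (χ : X → ℂ) v ≠ 0 := fun χ =>
    NonVanish.ne_zero_of_pElement hp (IsIrrCharacter.isCharacter χ.2) (hdeg χ) hvk
  set T' := (Finset.univ : Finset (IrrCharacter X)).filter
    (fun χ : IrrCharacter X => ∀ u ∈ V, (χ : X → ℂ) u = (χ : X → ℂ) 1) with hT'
  set T := (Finset.univ : Finset (IrrCharacter X)).filter
    (fun χ : IrrCharacter X => ¬ ∀ u ∈ V, (χ : X → ℂ) u = (χ : X → ℂ) 1) with hT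
  have hcardT : T'.card + T.card = Nat.card (ConjClasses X) := by
    rw [hT', hT, Finset.card_filter_add_card_filter_not, Finset.card_univ,
      ← Nat.card_eq_fintype_card, card_irr_eq_card_conjClasses]
  have hcardT' : T'.card = Nat.card (ConjClasses G) := by
    rw [← NonVanish.card_conjClasses_congr hGV.symm.QuotientMulEquiv, ← NonVanish.card_irr_ker V,
      Nat.card_eq_fintype_card, Fintype.card_subtype]
  have hquot : Nat.card (X ⧸ V) = Nat.card G :=
    Nat.card_congr hGV.symm.QuotientMulEquiv.toEquiv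
  -- sum over T'
  have hsumT' : ∀ y ∈ V, ∑ χ ∈ T', ‖(χ : X → ℂ) y‖ ^ 2 = (Nat.card G : ℝ) := by
    intro y hy
    have h1 : ∑ χ ∈ T', ‖(χ : X → ℂ) y‖ ^ 2 = ∑ χ ∈ T', ‖(χ : X → ℂ) 1‖ ^ 2 := by
      apply Finset.sum_congr rfl
      intro χ hχ
      rw [(Finset.mem_filter.1 hχ).2 y hy]
    rw [h1, Finset.sum_subtype T' (p := fun χ : IrrCharacter X =>
      ∀ u ∈ V, (χ : X → ℂ) u = (χ : X → ℂ) 1) (by intro χ; simp [hT']),
      ← Equiv.sum_comp (NonVanish.inflEquiv V)]
    have h2 := NonVanish.sum_norm_sq (1 : X ⧸ V)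
    have h3 : Subgroup.centralizer ({(1 : X ⧸ V)} : Set (X ⧸ V)) = ⊤ := by
      ext z; simp [Subgroup.mem_centralizer_singleton_iff]
    rw [h3, Subgroup.card_top, hquot] at h2
    rw [← h2]
    apply Finset.sum_congr rfl
    intro ψ _
    rw [NonVanish.inflEquiv_apply]
    rfl
  have hcen : ∀ j : (ZMod n)ˣ, Subgroup.centralizer ({v ^ (j : ZMod n).val} : Set X)
      = Subgroup.centralizer ({v} : Set X) := by
    intro j
    have hcop : ((j : ZMod n).val).Coprime (orderOf v) :=
      (ZMod.val_coe_unit_coprime j).coprime_dvd_right (orderOf_dvd_natCard v)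
    obtain ⟨m, hm⟩ := exists_pow_eq_self_of_coprime hcop
    ext z
    rw [Subgroup.mem_centralizer_singleton_iff, Subgroup.mem_centralizer_singleton_iff]
    constructor
    · intro h
      have : Commute z (v ^ (j : ZMod n).val) := h
      have h2 := this.pow_right m
      rw [hm] at h2
      exact h2
    · intro h
      have : Commute z v := h
      exact this.pow_right _
  have hsumT : ∀ j : (ZMod n)ˣ, ∑ χ ∈ T, ‖(χ : X → ℂ) (v ^ (j : ZMod n).val)‖ ^ 2
      = (Nat.card (Subgroup.centralizer ({v} : Set X)) : ℝ) - (Nat.card G : ℝ) := by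
    intro j
    have h1 := NonVanish.sum_norm_sq (v ^ (j : ZMod n).val)
    rw [hcen j, ← Finset.sum_filter_add_sum_filter_not Finset.univ
      (fun χ : IrrCharacter X => ∀ u ∈ V, (χ : X → ℂ) u = (χ : X → ℂ) 1),
      hsumT' _ (V.pow_mem hv _)] at h1
    linarith
  have hamgm : (Fintype.card (ZMod n)ˣ : ℝ) * T.card
      ≤ ∑ χ ∈ T, ∑ j : (ZMod n)ˣ, ‖(χ : X → ℂ) (v ^ (j : ZMod n).val)‖ ^ 2 := by
    have : ∑ χ ∈ T, (Fintype.card (ZMod n)ˣ : ℝ)
        ≤ ∑ χ ∈ T, ∑ j : (ZMod n)ˣ, ‖(χ : X → ℂ) (v ^ (j : ZMod n).val)‖ ^ 2 :=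
      Finset.sum_le_sum (fun χ _ =>
        card_units_le_sum_norm_sq (IsIrrCharacter.isCharacter χ.2) v n hvn (hne χ))
    rw [Finset.sum_const, nsmul_eq_mul, mul_comm] at this
    exact this
  rw [Finset.sum_comm, Finset.sum_congr rfl (fun j _ => hsumT j), Finset.sum_const,
    Finset.card_univ, nsmul_eq_mul] at hamgm
  have hφ : (0 : ℝ) < (Fintype.card (ZMod n)ˣ : ℝ) := by
    exact_mod_cast Fintype.card_pos
  have h5 : (T.card : ℝ) ≤ (Nat.card (Subgroup.centralizer ({v} : Set X)) : ℝ) - (Nat.card G : ℝ) :=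
    le_of_mul_le_mul_left hamgm hφ
  have h6 : T.card + Nat.card G ≤ Nat.card (Subgroup.centralizer ({v} : Set X)) := by
    have : ((T.card + Nat.card G : ℕ) : ℝ) ≤ (Nat.card (Subgroup.centralizer ({v} : Set X)) : ℝ) := by
      push_cast; linarith
    exact_mod_cast this
  rw [card_centralizer V hab G hGV v hv] at h6
  omega

end Cfsg.Agent.S4955
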