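import Cfsg.Statements.S4956
import Cfsg.Agent.Lib.Helper25.CoprimeCount2

set_option autoImplicit false
open Cfsg
open Cfsg.Agent.Lib.Helper25

namespace Cfsg.Agent.S4956

section aux
variable {X : Type*} [Group X] [Fintype X]

open scoped Classical in
/-- number of commuting pairs of `G` centralizing `v`. -/
noncomputable def F (G : Subgroup X) (v : X) : ℕ :=
  ∑ g : ↥G, ∑ h : ↥G, if (g : X) * h = h * g ∧ (g : X) * v * (g : X)⁻¹ = v ∧ (h : X) * v * (h : X)⁻¹ = v
    then 1 else 0

theorem F_conj (G : Subgroup X) (v : X) (u : ↥G) : F G ((u : X) * v * (u : X)⁻¹) = F G v := by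
  classical
  unfold F
  rw [← Equiv.sum_comp (MulAut.conj u).toEquiv]
  apply Finset.sum_congr rfl
  intro g _
  rw [← Equiv.sum_comp (MulAut.conj u).toEquiv]
  apply Finset.sum_congr rfl
  intro h _
  apply if_congr _ rfl rfl
  simp only [MulEquiv.toEquiv_eq_coe, MulEquiv.coe_toEquiv, MulAut.conj_apply, Subgroup.coe_mul,
    Subgroup.coe_inv]
  constructor
  · rintro ⟨h1, h2, h3⟩
    refine ⟨?_, ?_, ?_⟩
    · have : (u : X) * ((g : X) * h) * (u : X)⁻¹ = u * ((h : X) * g) * (u : X)⁻¹ := by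
        calc (u : X) * ((g : X) * h) * (u : X)⁻¹ = ↑u * ↑g * (↑u)⁻¹ * (↑u * ↑h * (↑u)⁻¹) := by group
          _ = ↑u * ↑h * (↑u)⁻¹ * (↑u * ↑g * (↑u)⁻¹) := h1
          _ = _ := by group
      exact mul_left_cancel (mul_right_cancel this)
    · have : (u : X) * ((g : X) * v * (g : X)⁻¹) * (u : X)⁻¹ = u * v * (u : X)⁻¹ := by
        rw [← h2]; group
      exact mul_left_cancel (mul_right_cancel this)
    · have : (u : X) * ((h : X) * v * (h : X)⁻¹) * (u : X)⁻¹ = u * v * (u : X)⁻¹ := by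
        rw [← h3]; group
      exact mul_left_cancel (mul_right_cancel this)
  · rintro ⟨h1, h2, h3⟩
    refine ⟨?_, ?_, ?_⟩
    · calc (↑u * ↑g * (↑u)⁻¹ * (↑u * ↑h * (↑u)⁻¹) : X) = (u : X) * ((g : X) * h) * (u : X)⁻¹ := by group
        _ = (u : X) * ((h : X) * g) * (u : X)⁻¹ := by rw [h1]
        _ = _ := by group
    · calc (↑u * ↑g * (↑u)⁻¹ * (↑u * v * (↑u)⁻¹) * (↑u * ↑g * (↑u)⁻¹)⁻¹ : X)
          = (u : X) * ((g : X) * v * (g : X)⁻¹) * (u : X)⁻¹ := by group
        _ = _ := by rw [h2]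
    · calc (↑u * ↑h * (↑u)⁻¹ * (↑u * v * (↑u)⁻¹) * (↑u * ↑h * (↑u)⁻¹)⁻¹ : X)
          = (u : X) * ((h : X) * v * (h : X)⁻¹) * (u : X)⁻¹ := by group
        _ = _ := by rw [h3]

theorem F_eq (G : Subgroup X) (v : X) :
    F G v = Nat.card (ConjClasses ↥(G ⊓ Subgroup.centralizer ({v} : Set X)))
      * Nat.card ↥(G ⊓ Subgroup.centralizer ({v} : Set X)) := by
  classical
  rw [← card_comm_eq_card_conjClasses_mul_card]
  unfold F
  rw [← Fintype.sum_prod_type' (f := fun (g h : ↥G) =>
    if (g : X) * h = h * g ∧ (g : X) * v * (g : X)⁻¹ = v ∧ (h : X) * v * (h : X)⁻¹ = v then 1 else 0),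
    ← Finset.card_filter, ← Fintype.card_subtype, ← Nat.card_eq_fintype_card]
  apply Nat.card_congr
  have hmem : ∀ g : X, g ∈ Subgroup.centralizer ({v} : Set X) ↔ g * v * g⁻¹ = v := by
    intro g
    rw [Subgroup.mem_centralizer_singleton_iff, mul_inv_eq_iff_eq_mul]
  exact
    { toFun := fun q => ⟨(⟨q.1.1, q.1.1.2, (hmem _).2 q.2.2.1⟩, ⟨q.1.2, q.1.2.2, (hmem _).2 q.2.2.2⟩),
        Subtype.ext q.2.1⟩
      invFun := fun p => ⟨(⟨p.1.1, p.1.1.2.1⟩, ⟨p.1.2, p.1.2.2.1⟩),
        congrArg Subtype.val p.2, (hmem _).1 p.1.1.2.2, (hmem _).1 p.1.2.2.2⟩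
      left_inv := fun q => rfl
      right_inv := fun p => rfl }

theorem card_fiber (G V : Subgroup X) [V.Normal] (s : X) (hs : s ∈ V) :
    Nat.card {v : ↥V // ∃ g ∈ G, g * (v : X) * g⁻¹ = s}
      * Nat.card ↥(G ⊓ Subgroup.centralizer ({s} : Set X)) = Nat.card G := by
  classical
  letI : MulAction ↥G X := MulAction.compHom X (MulAut.conj.comp G.subtype)
  have hsmul : ∀ (g : ↥G) (x : X), g • x = (g : X) * x * (g : X)⁻¹ := fun g x => rfl
  rw [Subgroup.card_eq_card_quotient_mul_card_subgroup (MulAction.stabilizer ↥G s),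
    ← Nat.card_congr (MulAction.orbitEquivQuotientStabilizer ↥G s)]
  congr 1
  · apply Nat.card_congr
    exact
      { toFun := fun v => ⟨v.1.1, by
          obtain ⟨g, hg, h⟩ := v.2
          refine ⟨⟨g, hg⟩⁻¹, ?_⟩
          show (g⁻¹ : X) * s * (g⁻¹ : X)⁻¹ = _
          calc (g⁻¹ : X) * s * (g⁻¹ : X)⁻¹ = g⁻¹ * (g * (v.1 : X) * g⁻¹) * (g⁻¹ : X)⁻¹ := by rw [h]
            _ = _ := by group⟩
        invFun := fun x => ⟨⟨x.1, by
          obtain ⟨g, hg⟩ := x.2
          rw [← hg]
          exact ‹V.Normal›.conj_mem s hs g⟩, by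
          obtain ⟨g, hg⟩ := x.2
          refine ⟨(g⁻¹ : ↥G), (g⁻¹ : ↥G).2, ?_⟩
          show ((g⁻¹ : ↥G) : X) * x.1 * ((g⁻¹ : ↥G) : X)⁻¹ = s
          rw [← hg]
          show ((g⁻¹ : ↥G) : X) * ((g : X) * s * (g : X)⁻¹) * ((g⁻¹ : ↥G) : X)⁻¹ = s
          simp only [Subgroup.coe_inv]; group⟩
        left_inv := fun v => rfl
        right_inv := fun x => rfl }
  · apply Nat.card_congr
    have hmem : ∀ g : X, g ∈ Subgroup.centralizer ({s} : Set X) ↔ g * s * g⁻¹ = s := by
      intro g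
      rw [Subgroup.mem_centralizer_singleton_iff, mul_inv_eq_iff_eq_mul]
    exact
      { toFun := fun c => ⟨⟨c.1, c.2.1⟩, (hmem _).1 c.2.2⟩
        invFun := fun g => ⟨g.1.1, g.1.2, (hmem _).2 g.2⟩
        left_inv := fun v => rfl
        right_inv := fun x => rfl }

open scoped Classical in
theorem sum_F (V G : Subgroup X) [V.Normal] (S : Finset X) (hSV : ∀ s ∈ S, s ∈ V)
    (hrep : ∀ v ∈ V, ∃! s, s ∈ S ∧ ∃ g ∈ G, g * v * g⁻¹ = s) :
    ∑ v : ↥V, F G (v : X)
      = Nat.card G * ∑ s ∈ S, Nat.card (ConjClasses ↥(G ⊓ Subgroup.centralizer ({s} : Set X))) := by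
  classical
  have hrep' : ∀ v ∈ V, ∃ s, (s ∈ S ∧ ∃ g ∈ G, g * v * g⁻¹ = s) ∧
      ∀ y, (y ∈ S ∧ ∃ g ∈ G, g * v * g⁻¹ = y) → y = s := hrep
  choose! rep hrep1 hrep2 using hrep'
  have hmaps : ∀ v ∈ (Finset.univ : Finset ↥V), rep (v : X) ∈ S := fun v _ => (hrep1 v v.2).1
  rw [← Finset.sum_fiberwise_of_maps_to hmaps, Finset.mul_sum]
  apply Finset.sum_congr rfl
  intro s hs
  have h1 : ∀ v ∈ Finset.univ.filter (fun v : ↥V => rep (v : X) = s), F G (v : X) = F G s := by
    intro v hv
    obtain ⟨g, hg, h⟩ := (hrep1 v v.2).2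
    rw [← (Finset.mem_filter.1 hv).2, ← h]
    exact (F_conj G v ⟨g, hg⟩).symm
  rw [Finset.sum_congr rfl h1, Finset.sum_const, smul_eq_mul, F_eq, ← card_fiber G V s (hSV s hs)]
  have h2 : (Finset.univ.filter (fun v : ↥V => rep (v : X) = s)).card
      = Nat.card {v : ↥V // ∃ g ∈ G, g * (v : X) * g⁻¹ = s} := by
    rw [← Fintype.card_subtype, ← Nat.card_eq_fintype_card]
    apply Nat.card_congr
    apply Equiv.subtypeEquivRight
    intro v
    constructor
    · intro h; rw [← h]; exact (hrep1 v v.2).2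
    · intro h; exact (hrep2 v v.2 s ⟨hs, h⟩).symm
  rw [h2]; ring

theorem commute_iff (V G : Subgroup X) [V.Normal] (hGV : Subgroup.IsComplement' V G)
    (v w : ↥V) (g h : ↥G) :
    Commute ((v : X) * g) ((w : X) * h) ↔
      ((g : X) * h = h * g ∧ (v : X) * (g * w * (g : X)⁻¹) = w * (h * v * (h : X)⁻¹)) := by
  have e1 : ((v : X) * g) * ((w : X) * h) = ((v : X) * (g * w * (g : X)⁻¹)) * ((g : X) * h) := by group
  have e2 : ((w : X) * h) * ((v : X) * g) = ((w : X) * (h * v * (h : X)⁻¹)) * ((h : X) * g) := by group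
  constructor
  · intro hc
    have hc' : ((v : X) * g) * ((w : X) * h) = ((w : X) * h) * ((v : X) * g) := hc
    rw [e1, e2] at hc'
    have := hGV.1 (a₁ := (⟨(v : X) * (g * w * (g : X)⁻¹),
        V.mul_mem v.2 (‹V.Normal›.conj_mem w w.2 g)⟩, g * h))
      (a₂ := (⟨(w : X) * (h * v * (h : X)⁻¹),
        V.mul_mem w.2 (‹V.Normal›.conj_mem v v.2 h)⟩, h * g)) hc'
    have h1 := congrArg (fun q : ↥V × ↥G => (q.1 : X)) this
    have h2 := congrArg (fun q : ↥V × ↥G => (q.2 : X)) this
    exact ⟨h2, h1⟩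
  · rintro ⟨h1, h2⟩
    show ((v : X) * g) * ((w : X) * h) = ((w : X) * h) * ((v : X) * g)
    rw [e1, e2, h1, h2]

open scoped Classical in
theorem card_comm (V G : Subgroup X) [V.Normal] (hab : ∀ a ∈ V, ∀ b ∈ V, a * b = b * a)
    (hGV : Subgroup.IsComplement' V G) (hcop : (Nat.card V).Coprime (Nat.card G)) :
    Nat.card {p : X × X // Commute p.1 p.2} = Nat.card V * ∑ v : ↥V, F G (v : X) := by
  classical
  let e : ↥V × ↥G ≃ X := Equiv.ofBijective _ hGV
  have he : ∀ a, e a = (a.1 : X) * a.2 := fun a => rfl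
  have inner : ∀ g h : ↥G, (∑ v : ↥V, ∑ w : ↥V, if Commute ((v : X) * g) ((w : X) * h) then 1 else 0)
      = Nat.card V * ∑ v : ↥V, if (g : X) * h = h * g ∧ (g : X) * v * (g : X)⁻¹ = v ∧
          (h : X) * v * (h : X)⁻¹ = v then 1 else 0 := by
    intro g h
    by_cases hgh : (g : X) * h = h * g
    · have hc : (Nat.card V).Coprime (orderOf (g : X) * orderOf (h : X)) := by
        apply Nat.Coprime.mul_right
        · rw [Subgroup.orderOf_coe]
          exact hcop.coprime_dvd_right (orderOf_dvd_natCard g)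
        · rw [Subgroup.orderOf_coe]
          exact hcop.coprime_dvd_right (orderOf_dvd_natCard h)
      have key := CoprimeCount.card_solutions_conj V hab (g : X) (h : X) hgh hc
      rw [Nat.card_eq_fintype_card, Fintype.card_subtype, Finset.card_filter,
        Fintype.sum_prod_type] at key
      rw [Nat.card_eq_fintype_card (α := {v : ↥V // _}), Fintype.card_subtype,
        Finset.card_filter] at key
      simp only [commute_iff V G hGV, hgh, true_and]
      exact key
    · simp only [commute_iff V G hGV, hgh, false_and, if_false, Finset.sum_const_zero, mul_zero]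
  rw [Nat.card_eq_fintype_card, Fintype.card_subtype, Finset.card_filter, Fintype.sum_prod_type]
  calc (∑ x : X, ∑ y : X, if Commute x y then 1 else 0)
      = ∑ a : ↥V × ↥G, ∑ b : ↥V × ↥G, if Commute (e a) (e b) then 1 else 0 := by
        rw [← Equiv.sum_comp e]
        apply Finset.sum_congr rfl
        intro a _
        rw [← Equiv.sum_comp e]
    _ = ∑ v : ↥V, ∑ g : ↥G, ∑ w : ↥V, ∑ h : ↥G,
          if Commute ((v : X) * g) ((w : X) * h) then 1 else 0 := by
        rw [Fintype.sum_prod_type]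
        apply Finset.sum_congr rfl
        intro v _
        apply Finset.sum_congr rfl
        intro g _
        rw [Fintype.sum_prod_type]
        rfl
    _ = ∑ g : ↥G, ∑ h : ↥G, ∑ v : ↥V, ∑ w : ↥V,
          if Commute ((v : X) * g) ((w : X) * h) then 1 else 0 := by
        rw [Finset.sum_comm]
        apply Finset.sum_congr rfl
        intro g _
        calc _ = ∑ v : ↥V, ∑ h : ↥G, ∑ w : ↥V,
              (if Commute ((v : X) * g) ((w : X) * h) then 1 else 0) := by
              apply Finset.sum_congr rfl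
              intro v _
              exact Finset.sum_comm
          _ = _ := Finset.sum_comm
    _ = ∑ g : ↥G, ∑ h : ↥G, Nat.card V * ∑ v : ↥V, if (g : X) * h = h * g ∧
          (g : X) * v * (g : X)⁻¹ = v ∧ (h : X) * v * (h : X)⁻¹ = v then 1 else 0 := by
        apply Finset.sum_congr rfl
        intro g _
        apply Finset.sum_congr rfl
        intro h _
        exact inner g h
    _ = Nat.card V * ∑ v : ↥V, F G (v : X) := by
        unfold F
        simp_rw [← Finset.mul_sum]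
        congr 1
        calc _ = ∑ g : ↥G, ∑ v : ↥V, ∑ h : ↥G, (if (g : X) * h = h * g ∧
              (g : X) * v * (g : X)⁻¹ = v ∧ (h : X) * v * (h : X)⁻¹ = v then 1 else 0) := by
              apply Finset.sum_congr rfl
              intro g _
              exact Finset.sum_comm
          _ = _ := Finset.sum_comm

end aux

/-- Let X be a finite group, V an abelian normal subgroup of X (any two elements of V commute) and G a complement to V in X whose order is coprime to that of V. Let S be a set of representatives of the orbits of G on V under conjugation: S lies in V and every element of V is conjugate under G to exactly one member of S. Then the number of conjugacy classes of X equals the sum, over s in S, of the number of conjugacy classes of the centralizer of s in G. -/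
theorem result {X : Type*} [Group X] [Finite X] (V : Subgroup X) [V.Normal] (hab : ∀ a ∈ V, ∀ b ∈ V, a * b = b * a) (G : Subgroup X) (hGV : Subgroup.IsComplement' V G) (hcop : (Nat.card V).Coprime (Nat.card G)) (S : Finset X) (hSV : ∀ s ∈ S, s ∈ V) (hrep : ∀ v ∈ V, ∃! s, s ∈ S ∧ ∃ g ∈ G, g * v * g⁻¹ = s) : Nat.card (ConjClasses X) = ∑ s ∈ S, Nat.card (ConjClasses ↥(G ⊓ Subgroup.centralizer ({s} : Set X))) := by
  classical
  haveI := Fintype.ofFinite X
  have h1 := card_comm V G hab hGV hcop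
  rw [sum_F V G S hSV hrep, card_comm_eq_card_conjClasses_mul_card, ← hGV.card_mul_card] at h1
  refine Nat.eq_of_mul_eq_mul_left (Nat.mul_pos (Nat.card_pos (α := ↥V)) (Nat.card_pos (α := ↥G))) ?_
  calc Nat.card ↥V * Nat.card ↥G * Nat.card (ConjClasses X)
      = Nat.card (ConjClasses X) * (Nat.card ↥V * Nat.card ↥G) := by ring
    _ = _ := h1
    _ = _ := by ring

end Cfsg.Agent.S4956
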