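import Mathlib
import Cfsg.Statements.S4964
import Cfsg.Agent.Lib.Helper6.CoprimeCent

set_option autoImplicit false
open Cfsg
open Cfsg.Agent.Lib.Helper6 Cfsg.Agent.Lib.Helper2
open scoped ComplexConjugate Classical

attribute [local instance] irrFintype

namespace Cfsg.Agent.S4964

/-- Let D be a normal p-subgroup of the finite group G, let D′ be its commutator subgroup (normal in G), and fix a maximal ideal M of the algebraic integers containing p. Then (i) two irreducible characters of G ⧸ D′ lie in the same p-block if and only if their inflations to G do, and (ii) every p-block of G contains the inflation of some irreducible character of G ⧸ D′; so inflation induces a bijection between the p-blocks of G ⧸ D′ and the p-blocks of G. -/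
theorem result {G : Type*} [Group G] [Finite G] (p : ℕ) [Fact p.Prime] (M : Ideal Cfsg.AlgInt) (hM : Cfsg.IsPModular p M) (D : Subgroup G) [D.Normal] (hD : IsPGroup p D) : (∀ χ ψ : Cfsg.IrrCharacter (G ⧸ ⁅D, D⁆), Cfsg.SameBlock M (χ : G ⧸ ⁅D, D⁆ → ℂ) (ψ : G ⧸ ⁅D, D⁆ → ℂ) ↔ Cfsg.SameBlock M ((χ : G ⧸ ⁅D, D⁆ → ℂ) ∘ QuotientGroup.mk) ((ψ : G ⧸ ⁅D, D⁆ → ℂ) ∘ QuotientGroup.mk)) ∧ ∀ B : Set (Cfsg.IrrCharacter G), Cfsg.IsPBlock M B → ∃ χ : Cfsg.IrrCharacter (G ⧸ ⁅D, D⁆), ∃ θ ∈ B, (θ : G → ℂ) = (χ : G ⧸ ⁅D, D⁆ → ℂ) ∘ QuotientGroup.mk := by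
  let _ := Fintype.ofFinite G
  have := IsPModular.isPrime hM
  have hN : IsPGroup p (⁅D, D⁆ : Subgroup G) := hD.to_le (Subgroup.commutator_le_self D)
  constructor
  · intro χ ψ
    constructor
    · intro h
      exact sameBlock_infl ⁅D, D⁆ χ.2 ψ.2 h
    · intro h
      exact sameBlock_of_infl_commutator hM D hD χ ψ h
  · intro B hB
    obtain ⟨P, hP⟩ := exists_isDefectGroup hM hB
    obtain ⟨Bbar, hBbar, hsub, -⟩ := exists_dominated_block ⁅D, D⁆ hM hN hB hP
    obtain ⟨χ, hχ⟩ := IsPBlock.nonempty hBbar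
    exact ⟨χ, inflIrr ⁅D, D⁆ χ, hsub χ hχ, rfl⟩

end Cfsg.Agent.S4964
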