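import Cfsg.Statements.S4965
import Mathlib

set_option autoImplicit false
open Cfsg

namespace Cfsg.Agent.S4965

/-- Let X be a finite group with an abelian normal subgroup V (any two elements of V commute), and let φ be the action of X ⧸ V on V induced by conjugation (well defined because V is abelian; the hypothesis hφ says that the class of x acts as conjugation by x). Then X has at most as many conjugacy classes as the semidirect product of V by X ⧸ V formed with this action: the split extension has the largest class number among extensions with the given action. -/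
theorem result {X : Type*} [Group X] [Finite X] (V : Subgroup X) [V.Normal] (hab : ∀ a ∈ V, ∀ b ∈ V, a * b = b * a) (φ : X ⧸ V →* MulAut ↥V) (hφ : ∀ (x : X) (v : ↥V), ((φ (QuotientGroup.mk x) v : ↥V) : X) = x * v * x⁻¹) : Nat.card (ConjClasses X) ≤ Nat.card (ConjClasses (SemidirectProduct ↥V (X ⧸ V) φ)) := by
  classical
  haveI : Finite (SemidirectProduct ↥V (X ⧸ V) φ) :=
    Finite.of_equiv _ SemidirectProduct.equivProd.symm
  have hcardS : Nat.card (SemidirectProduct ↥V (X ⧸ V) φ) = Nat.card X := by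
    rw [Nat.card_congr SemidirectProduct.equivProd, Nat.card_prod, mul_comm,
      ← Subgroup.card_eq_card_quotient_mul_card_subgroup]
  have hφ' : ∀ (q : X ⧸ V) (x : X), (x : X ⧸ V) = q → ∀ v : ↥V,
      ((φ q v : ↥V) : X) = x * v * x⁻¹ := by
    intro q x hx v
    subst hx
    exact hφ x v
  let P : (X ⧸ V) × (X ⧸ V) → Prop := fun q =>
    ∃ c : X × X, (c.1 : X ⧸ V) = q.1 ∧ (c.2 : X ⧸ V) = q.2 ∧ c.1 * c.2 = c.2 * c.1
  let base : (X ⧸ V) × (X ⧸ V) → X × X := fun q => if h : P q then h.choose else (1, 1)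
  have hbase : ∀ q, P q → ((base q).1 : X ⧸ V) = q.1 ∧ ((base q).2 : X ⧸ V) = q.2 ∧
      (base q).1 * (base q).2 = (base q).2 * (base q).1 := by
    intro q hq
    have : base q = hq.choose := dif_pos hq
    rw [this]
    exact hq.choose_spec
  have hP : ∀ p : {p : X × X // Commute p.1 p.2}, P ((p.1.1 : X ⧸ V), (p.1.2 : X ⧸ V)) :=
    fun p => ⟨p.1, rfl, rfl, p.2⟩
  have hmem1 : ∀ p : {p : X × X // Commute p.1 p.2},
      p.1.1 * (base ((p.1.1 : X ⧸ V), (p.1.2 : X ⧸ V))).1⁻¹ ∈ V := by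
    intro p
    have h := (hbase _ (hP p)).1
    have h2 : ((p.1.1 * (base ((p.1.1 : X ⧸ V), (p.1.2 : X ⧸ V))).1⁻¹ : X) : X ⧸ V) = 1 := by
      rw [QuotientGroup.mk_mul, QuotientGroup.mk_inv, h, mul_inv_cancel]
    exact (QuotientGroup.eq_one_iff _).1 h2
  have hmem2 : ∀ p : {p : X × X // Commute p.1 p.2},
      p.1.2 * (base ((p.1.1 : X ⧸ V), (p.1.2 : X ⧸ V))).2⁻¹ ∈ V := by
    intro p
    have h := (hbase _ (hP p)).2.1
    have h2 : ((p.1.2 * (base ((p.1.1 : X ⧸ V), (p.1.2 : X ⧸ V))).2⁻¹ : X) : X ⧸ V) = 1 := by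
      rw [QuotientGroup.mk_mul, QuotientGroup.mk_inv, h, mul_inv_cancel]
    exact (QuotientGroup.eq_one_iff _).1 h2
  let f : {p : X × X // Commute p.1 p.2} →
      {p : SemidirectProduct ↥V (X ⧸ V) φ × SemidirectProduct ↥V (X ⧸ V) φ // Commute p.1 p.2} :=
    fun p => ⟨(⟨⟨_, hmem1 p⟩, (p.1.1 : X ⧸ V)⟩, ⟨⟨_, hmem2 p⟩, (p.1.2 : X ⧸ V)⟩), by
      obtain ⟨h1, h2, h3⟩ := hbase _ (hP p)
      have hc : p.1.1 * p.1.2 = p.1.2 * p.1.1 := p.2
      show _ * _ = _ * _
      apply SemidirectProduct.ext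
      · rw [SemidirectProduct.mul_left, SemidirectProduct.mul_left]
        apply Subtype.ext
        simp only [Subgroup.coe_mul]
        set a₀ := (base ((p.1.1 : X ⧸ V), (p.1.2 : X ⧸ V))).1 with ha₀
        set b₀ := (base ((p.1.1 : X ⧸ V), (p.1.2 : X ⧸ V))).2 with hb₀
        rw [hφ' _ a₀ h1, hφ' _ b₀ h2]
        have h4 : b₀⁻¹ * a₀⁻¹ = a₀⁻¹ * b₀⁻¹ := by
          rw [← mul_inv_rev, ← mul_inv_rev, h3]
        calc p.1.1 * a₀⁻¹ * (a₀ * (p.1.2 * b₀⁻¹) * a₀⁻¹)
            = (p.1.1 * p.1.2) * (b₀⁻¹ * a₀⁻¹) := by group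
          _ = (p.1.2 * p.1.1) * (a₀⁻¹ * b₀⁻¹) := by rw [hc, h4]
          _ = p.1.2 * b₀⁻¹ * (b₀ * (p.1.1 * a₀⁻¹) * b₀⁻¹) := by group
      · rw [SemidirectProduct.mul_right, SemidirectProduct.mul_right]
        show (p.1.1 : X ⧸ V) * (p.1.2 : X ⧸ V) = (p.1.2 : X ⧸ V) * (p.1.1 : X ⧸ V)
        rw [← QuotientGroup.mk_mul, ← QuotientGroup.mk_mul, hc]⟩
  have hf : Function.Injective f := by
    intro p p' h
    have h' := congrArg Subtype.val h
    have h1 : (f p).1.1 = (f p').1.1 := congrArg Prod.fst h'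
    have h2 : (f p).1.2 = (f p').1.2 := congrArg Prod.snd h'
    have r1 : (p.1.1 : X ⧸ V) = (p'.1.1 : X ⧸ V) := congrArg SemidirectProduct.right h1
    have r2 : (p.1.2 : X ⧸ V) = (p'.1.2 : X ⧸ V) := congrArg SemidirectProduct.right h2
    have l1 : p.1.1 * (base ((p.1.1 : X ⧸ V), (p.1.2 : X ⧸ V))).1⁻¹
        = p'.1.1 * (base ((p'.1.1 : X ⧸ V), (p'.1.2 : X ⧸ V))).1⁻¹ :=
      congrArg (fun s => ((SemidirectProduct.left s : ↥V) : X)) h1
    have l2 : p.1.2 * (base ((p.1.1 : X ⧸ V), (p.1.2 : X ⧸ V))).2⁻¹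
        = p'.1.2 * (base ((p'.1.1 : X ⧸ V), (p'.1.2 : X ⧸ V))).2⁻¹ :=
      congrArg (fun s => ((SemidirectProduct.left s : ↥V) : X)) h2
    rw [r1, r2] at l1 l2
    apply Subtype.ext
    exact Prod.ext (mul_right_cancel l1) (mul_right_cancel l2)
  have hle := Nat.card_le_card_of_injective f hf
  rw [card_comm_eq_card_conjClasses_mul_card, card_comm_eq_card_conjClasses_mul_card, hcardS] at hle
  exact Nat.le_of_mul_le_mul_right hle Nat.card_pos

end Cfsg.Agent.S4965
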