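import Cfsg.Statements.S5015
import Cfsg.Agent.Lib.Helper25.RankOne

set_option autoImplicit false
open Cfsg

namespace Cfsg.Agent.S5015

open Cfsg.Agent.Lib.Helper25

section
variable {Y Ω : Type*} [Group Y] [MulAction Y Ω]

/-- the hypotheses on `(α, A)`. -/
structure Data (α : Ω) (A : Subgroup Y) : Prop where
  hA : A ≤ MulAction.stabilizer Y α
  hAn : ∀ y ∈ MulAction.stabilizer Y α, Cfsg.conjBy A y = A
  hreg : ∀ β γ : Ω, β ≠ α → γ ≠ α → ∃! a : Y, a ∈ A ∧ a • β = γ

theorem Data.conj_eq {α : Ω} {A : Subgroup Y} (d : Data α A) {g g' : Y} (h : g • α = g' • α) :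
    conjBy A g = conjBy A g' := by
  have hs : g⁻¹ * g' ∈ MulAction.stabilizer Y α := by
    rw [MulAction.mem_stabilizer_iff, mul_smul, ← h, inv_smul_smul]
  have : g' = g * (g⁻¹ * g') := by group
  rw [this, ← conjBy_conjBy, d.hAn _ hs]

theorem Data.transport {α : Ω} {A : Subgroup Y} (d : Data α A) (y : Y) : Data (y • α) (conjBy A y) where
  hA := by
    intro b hb
    rw [mem_conjBy] at hb
    have := d.hA hb
    rw [MulAction.mem_stabilizer_iff] at this ⊢
    rw [mul_smul, mul_smul, inv_smul_eq_iff] at this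
    exact this
  hAn := by
    intro z hz
    rw [conjBy_conjBy]
    apply d.conj_eq
    rw [mul_smul]
    exact hz
  hreg := by
    intro β γ hβ hγ
    have hβ' : y⁻¹ • β ≠ α := fun h => hβ (by rw [← h, smul_inv_smul])
    have hγ' : y⁻¹ • γ ≠ α := fun h => hγ (by rw [← h, smul_inv_smul])
    obtain ⟨a, ⟨ha, ha2⟩, huniq⟩ := d.hreg _ _ hβ' hγ'
    refine ⟨y * a * y⁻¹, ⟨conj_mem_conjBy ha y, ?_⟩, ?_⟩
    · rw [mul_smul, mul_smul, ha2, smul_inv_smul]
    · rintro b ⟨hb, hb2⟩
      have := huniq (y⁻¹ * b * y) ⟨mem_conjBy.mp hb, by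
        rw [mul_smul, mul_smul, smul_inv_smul, hb2]⟩
      rw [← this]; group

theorem Data.cond {α : Ω} {A : Subgroup Y} (d : Data α A) {y : Y} (hy : y • α ≠ α) :
    RankOneCondition A (conjBy A y) := by
  intro a ha ha1
  have hfix : a⁻¹ • α = α := d.hA (A.inv_mem ha)
  have h1 : a⁻¹ • (y • α) ≠ y • α := by
    intro h
    obtain ⟨c, _, huniq⟩ := d.hreg _ _ hy hy
    have e1 := huniq a⁻¹ ⟨A.inv_mem ha, h⟩
    have e2 := huniq 1 ⟨A.one_mem, one_smul _ _⟩
    apply ha1
    rw [← inv_inj, e1, ← e2, inv_one]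
  have h2 : a⁻¹ • (y • α) ≠ α := by
    intro h
    apply hy
    have h' : a⁻¹ • (y • α) = a⁻¹ • α := h.trans hfix.symm
    exact smul_left_cancel _ h'
  obtain ⟨b', ⟨hb', hb'2⟩, _⟩ := (d.transport y).hreg α (a⁻¹ • (y • α)) hy.symm h1
  refine ⟨b'⁻¹, Subgroup.inv_mem _ hb', ?_, ?_⟩
  · intro h
    rw [inv_eq_one] at h
    rw [h, one_smul] at hb'2
    exact h2 hb'2.symm
  · rw [inv_inv, conjBy_conjBy]
    apply d.conj_eq
    rw [hb'2, mul_smul]

end

/-- Let a group Y act doubly transitively on a set Ω with at least three points, and suppose that the stabilizer of a point α contains a nilpotent subgroup A, normalized by that stabilizer, which acts regularly on the points other than α. Then for any y in Y moving α, the subgroups A and y A y⁻¹ are the unipotent subgroups of a rank one group, and the normal closure of A in Y (the subgroup generated by all conjugates of A) is generated by A and y A y⁻¹ alone. -/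
theorem result {Y Ω : Type*} [Group Y] [MulAction Y Ω]
    (h2 : MulAction.IsMultiplyPretransitive Y Ω 2) (hΩ : 3 ≤ ENat.card Ω) (α : Ω) (A : Subgroup Y)
    (hA : A ≤ MulAction.stabilizer Y α) (hAn : ∀ y ∈ MulAction.stabilizer Y α, Cfsg.conjBy A y = A)
    (hnil : Group.IsNilpotent A) (hreg : ∀ β γ : Ω, β ≠ α → γ ≠ α → ∃! a : Y, a ∈ A ∧ a • β = γ)
    (y : Y) (hy : y ∉ MulAction.stabilizer Y α) :
    Cfsg.IsRankOnePair A (Cfsg.conjBy A y) ∧ Subgroup.normalClosure (A : Set Y) = A ⊔ Cfsg.conjBy A y := by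
  have d : Data α A := ⟨hA, hAn, hreg⟩
  have hy' : y • α ≠ α := hy
  -- a third point
  obtain ⟨γ, hγα, hγβ⟩ : ∃ γ : Ω, γ ≠ α ∧ γ ≠ y • α := by
    by_contra hcon
    push Not at hcon
    have hsub : (Set.univ : Set Ω) ⊆ {α, y • α} := by
      intro δ _
      by_cases h : δ = α
      · left; exact h
      · right; exact hcon δ h
    have h1 : ENat.card Ω ≤ 2 := by
      rw [← Set.encard_univ]
      exact (Set.encard_le_encard hsub).trans (Set.encard_pair hy'.symm).le
    have h3 : (3 : ℕ∞) ≤ 2 := hΩ.trans h1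
    exact absurd h3 (by decide)
  have hne : A ≠ conjBy A y := by
    intro he
    obtain ⟨a, ⟨ha, ha2⟩, _⟩ := hreg (y • α) γ hy' hγα
    have : a ∈ conjBy A y := he ▸ ha
    have h3 := (d.transport y).hA this
    rw [MulAction.mem_stabilizer_iff, ha2] at h3
    exact hγβ h3
  have hcr : RankOneCondition (conjBy A y) A := by
    have := (d.transport y).cond (y := y⁻¹) (by rw [inv_smul_smul]; exact hy'.symm)
    rwa [conjBy_inv_conjBy] at this
  refine ⟨⟨hne, hnil, conjBy_isNilpotent hnil y, d.cond hy', hcr⟩, ?_⟩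
  -- transitivity of A ⊔ B
  have htrans : ∀ δ : Ω, ∃ x ∈ A ⊔ conjBy A y, x • α = δ := by
    intro δ
    by_cases hδ : δ = α
    · exact ⟨1, Subgroup.one_mem _, by rw [one_smul, hδ]⟩
    · obtain ⟨b, ⟨hb, hb2⟩, _⟩ := (d.transport y).hreg α γ hy'.symm hγβ
      obtain ⟨a, ⟨ha, ha2⟩, _⟩ := hreg γ δ hγα hδ
      exact ⟨a * b, Subgroup.mul_mem_sup ha hb, by rw [mul_smul, hb2, ha2]⟩
  have hconj : ∀ g : Y, conjBy A g ≤ A ⊔ conjBy A y := by
    intro g
    obtain ⟨x, hx, hx2⟩ := htrans (g • α)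
    rw [← d.conj_eq hx2]
    exact conjBy_le_of_mem le_sup_left hx
  apply le_antisymm
  · have hnormal : (A ⊔ conjBy A y).Normal := by
      constructor
      intro n hn g
      have h1 : g * n * g⁻¹ ∈ conjBy (A ⊔ conjBy A y) g := conj_mem_conjBy hn g
      rw [conjBy_sup, conjBy_conjBy] at h1
      exact (sup_le (hconj g) (hconj (g * y))) h1
    exact Subgroup.normalClosure_le_normal (fun a ha => Subgroup.mem_sup_left ha)
  · rw [sup_le_iff]
    refine ⟨Subgroup.le_normalClosure, ?_⟩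
    rintro _ ⟨a, ha, rfl⟩
    exact Subgroup.normalClosure_normal.conj_mem a (Subgroup.le_normalClosure ha) y

end Cfsg.Agent.S5015
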