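import Cfsg.Statements.S5016

set_option autoImplicit false
open Cfsg

namespace Cfsg.Agent.S5016

open Matrix

variable {k : Type*} [Field k]

local notation "SL2" => Matrix.SpecialLinearGroup (Fin 2) k

def Lm (c : k) : SL2 := ⟨!![1, 0; c, 1], by simp [det_fin_two]⟩
def Um (c : k) : SL2 := ⟨!![1, c; 0, 1], by simp [det_fin_two]⟩

theorem sl_ext {g h : SL2} (h00 : g 0 0 = h 0 0) (h01 : g 0 1 = h 0 1) (h10 : g 1 0 = h 1 0)
    (h11 : g 1 1 = h 1 1) : g = h := by
  apply Subtype.ext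
  ext i j
  fin_cases i <;> fin_cases j <;> assumption

@[simp] theorem Lm00 (c : k) : (Lm c) 0 0 = 1 := rfl
@[simp] theorem Lm01 (c : k) : (Lm c) 0 1 = 0 := rfl
@[simp] theorem Lm10 (c : k) : (Lm c) 1 0 = c := rfl
@[simp] theorem Lm11 (c : k) : (Lm c) 1 1 = 1 := rfl
@[simp] theorem Um00 (c : k) : (Um c) 0 0 = 1 := rfl
@[simp] theorem Um01 (c : k) : (Um c) 0 1 = c := rfl
@[simp] theorem Um10 (c : k) : (Um c) 1 0 = 0 := rfl
@[simp] theorem Um11 (c : k) : (Um c) 1 1 = 1 := rfl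

theorem mul_apply' (g h : SL2) (i j : Fin 2) : (g * h) i j = g i 0 * h 0 j + g i 1 * h 1 j := by
  have h1 : ((g * h : SL2) : Matrix (Fin 2) (Fin 2) k) = (g : Matrix (Fin 2) (Fin 2) k) * (h : Matrix (Fin 2) (Fin 2) k) :=
    Matrix.SpecialLinearGroup.coe_mul g h
  change ((g * h : SL2) : Matrix (Fin 2) (Fin 2) k) i j = _
  rw [h1, Matrix.mul_apply, Fin.sum_univ_two]

theorem Lm_mul (c d : k) : Lm c * Lm d = Lm (c + d) := by
  apply sl_ext <;> simp [mul_apply']

theorem Um_mul (c d : k) : Um c * Um d = Um (c + d) := by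
  apply sl_ext <;> simp [mul_apply', add_comm]

theorem Lm_zero : Lm (0 : k) = 1 := by
  apply sl_ext <;> simp

theorem Um_zero : Um (0 : k) = 1 := by
  apply sl_ext <;> simp

theorem Lm_inv (c : k) : (Lm c)⁻¹ = Lm (-c) := by
  rw [inv_eq_iff_mul_eq_one, Lm_mul, add_neg_cancel, Lm_zero]

theorem Um_inv (c : k) : (Um c)⁻¹ = Um (-c) := by
  rw [inv_eq_iff_mul_eq_one, Um_mul, add_neg_cancel, Um_zero]

theorem mem_lower (g : SL2) : g ∈ lowerUnipotentSL2 k ↔ ∃ c, g = Lm c := by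
  constructor
  · intro h
    unfold lowerUnipotentSL2 at h
    induction h using Subgroup.closure_induction with
    | mem x hx => exact ⟨x 1 0, sl_ext (by simpa using hx.2.1) (by simpa using hx.1) (by simp) (by simpa using hx.2.2)⟩
    | one => exact ⟨0, Lm_zero.symm⟩
    | mul x y _ _ hx hy =>
      obtain ⟨c, rfl⟩ := hx
      obtain ⟨d, rfl⟩ := hy
      exact ⟨_, Lm_mul c d⟩
    | inv x _ hx =>
      obtain ⟨c, rfl⟩ := hx
      exact ⟨_, Lm_inv c⟩
  · rintro ⟨c, rfl⟩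
    exact Subgroup.subset_closure ⟨rfl, rfl, rfl⟩

theorem mem_upper (g : SL2) : g ∈ upperUnipotentSL2 k ↔ ∃ c, g = Um c := by
  constructor
  · intro h
    unfold upperUnipotentSL2 at h
    induction h using Subgroup.closure_induction with
    | mem x hx => exact ⟨x 0 1, sl_ext (by simpa using hx.2.1) (by simp) (by simpa using hx.1) (by simpa using hx.2.2)⟩
    | one => exact ⟨0, Um_zero.symm⟩
    | mul x y _ _ hx hy =>
      obtain ⟨c, rfl⟩ := hx
      obtain ⟨d, rfl⟩ := hy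
      exact ⟨_, Um_mul c d⟩
    | inv x _ hx =>
      obtain ⟨c, rfl⟩ := hx
      exact ⟨_, Um_inv c⟩
  · rintro ⟨c, rfl⟩
    exact Subgroup.subset_closure ⟨rfl, rfl, rfl⟩

theorem Lm_ne_one {c : k} : Lm c ≠ 1 ↔ c ≠ 0 := by
  constructor
  · rintro h rfl; exact h Lm_zero
  · intro h h1
    apply h
    have := congrArg (fun g : SL2 => g 1 0) h1
    simpa using this

theorem Um_ne_one {c : k} : Um c ≠ 1 ↔ c ≠ 0 := by
  constructor
  · rintro h rfl; exact h Um_zero
  · intro h h1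
    apply h
    have := congrArg (fun g : SL2 => g 0 1) h1
    simpa using this

/-- the basic conjugation identity -/
theorem conj_id (c e s : k) (hce : e * c = 1) :
    Um (-e) * Lm s * Um e = Lm (-c) * Um (-(e ^ 2 * s)) * Lm c := by
  apply sl_ext
  · simp only [mul_apply', Lm00, Lm01, Lm10, Lm11, Um00, Um01, Um10, Um11]
    linear_combination (e * s) * hce
  · simp only [mul_apply', Lm00, Lm01, Lm10, Lm11, Um00, Um01, Um10, Um11]
    ring
  · simp only [mul_apply', Lm00, Lm01, Lm10, Lm11, Um00, Um01, Um10, Um11]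
    linear_combination (-s * (e * c + 1)) * hce
  · simp only [mul_apply', Lm00, Lm01, Lm10, Lm11, Um00, Um01, Um10, Um11]
    linear_combination (-e * s) * hce

theorem conj_eq (c e : k) (hce : e * c = 1) :
    conjBy (lowerUnipotentSL2 k) (Um e)⁻¹ = conjBy (upperUnipotentSL2 k) (Lm c)⁻¹ := by
  ext x
  simp only [Subgroup.mem_map, MulEquiv.coe_toMonoidHom, MulAut.conj_apply, inv_inv]
  constructor
  · rintro ⟨y, hy, rfl⟩
    obtain ⟨s, rfl⟩ := (mem_lower y).mp hy
    refine ⟨Um (-(e ^ 2 * s)), (mem_upper _).mpr ⟨_, rfl⟩, ?_⟩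
    rw [Um_inv, Lm_inv, conj_id c e s hce]
  · rintro ⟨y, hy, rfl⟩
    obtain ⟨t, rfl⟩ := (mem_upper y).mp hy
    refine ⟨Lm (-(c ^ 2 * t)), (mem_lower _).mpr ⟨_, rfl⟩, ?_⟩
    rw [Um_inv, Lm_inv, conj_id c e _ hce]
    congr 3
    linear_combination (t * (e * c + 1)) * hce

theorem comm_lower : IsMulCommutative (lowerUnipotentSL2 k) := by
  refine ⟨⟨fun a b => ?_⟩⟩
  obtain ⟨c, hc⟩ := (mem_lower _).mp a.2
  obtain ⟨d, hd⟩ := (mem_lower _).mp b.2
  apply Subtype.ext
  show (a : SL2) * b = b * a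
  rw [hc, hd, Lm_mul, Lm_mul, add_comm]

theorem comm_upper : IsMulCommutative (upperUnipotentSL2 k) := by
  refine ⟨⟨fun a b => ?_⟩⟩
  obtain ⟨c, hc⟩ := (mem_upper _).mp a.2
  obtain ⟨d, hd⟩ := (mem_upper _).mp b.2
  apply Subtype.ext
  show (a : SL2) * b = b * a
  rw [hc, hd, Um_mul, Um_mul, add_comm]

theorem nilp_of_comm {H : Type*} [Group H] (h : IsMulCommutative H) : Group.IsNilpotent H := by
  refine ⟨⟨1, ?_⟩⟩
  rw [Subgroup.upperCentralSeries_one, eq_top_iff]
  intro x _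
  rw [Subgroup.mem_center_iff]
  intro y
  exact h.is_comm.comm y x

theorem gen : lowerUnipotentSL2 k ⊔ upperUnipotentSL2 k = ⊤ := by
  rw [eq_top_iff]
  have hL : ∀ c : k, Lm c ∈ lowerUnipotentSL2 k ⊔ upperUnipotentSL2 k := fun c =>
    Subgroup.mem_sup_left ((mem_lower _).mpr ⟨c, rfl⟩)
  have hU : ∀ c : k, Um c ∈ lowerUnipotentSL2 k ⊔ upperUnipotentSL2 k := fun c =>
    Subgroup.mem_sup_right ((mem_upper _).mpr ⟨c, rfl⟩)
  have key : ∀ g : SL2, g 1 0 ≠ 0 → g ∈ lowerUnipotentSL2 k ⊔ upperUnipotentSL2 k := by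
    intro g hg
    have hdet : g 0 0 * g 1 1 - g 0 1 * g 1 0 = 1 := by
      have := g.2
      rwa [det_fin_two] at this
    have e : g = Um ((g 0 0 - 1) / g 1 0) * Lm (g 1 0) * Um ((g 1 1 - 1) / g 1 0) := by
      apply sl_ext
      · simp [mul_apply']
        field_simp
        ring
      · simp [mul_apply']
        field_simp
        linear_combination -hdet
      · simp [mul_apply']
      · simp [mul_apply']
        field_simp
        ring
    rw [e]
    exact Subgroup.mul_mem _ (Subgroup.mul_mem _ (hU _) (hL _)) (hU _)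
  intro g _
  by_cases hg : g 1 0 = 0
  · have hdet : g 0 0 * g 1 1 - g 0 1 * g 1 0 = 1 := by
      have := g.2
      rwa [det_fin_two] at this
    have h00 : g 0 0 ≠ 0 := by
      intro h
      rw [h, hg] at hdet
      simp at hdet
    have h1 : Lm 1 * g ∈ lowerUnipotentSL2 k ⊔ upperUnipotentSL2 k := by
      apply key
      simp [mul_apply', hg, h00]
    have h2 := Subgroup.mul_mem _ (Subgroup.inv_mem _ (hL 1)) h1
    rwa [inv_mul_cancel_left] at h2
  · exact key g hg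

theorem pair : IsRankOnePair (lowerUnipotentSL2 k) (upperUnipotentSL2 k) where
  ne := by
    intro h
    have h1 : Lm (1 : k) ∈ upperUnipotentSL2 k := h ▸ (mem_lower _).mpr ⟨1, rfl⟩
    obtain ⟨c, hc⟩ := (mem_upper _).mp h1
    have := congrArg (fun g : SL2 => g 1 0) hc
    simp at this
  nilpotent_left := nilp_of_comm comm_lower
  nilpotent_right := nilp_of_comm comm_upper
  cond_left := by
    intro a ha ha1
    obtain ⟨c, rfl⟩ := (mem_lower _).mp ha
    have hc : c ≠ 0 := Lm_ne_one.mp ha1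
    exact ⟨Um c⁻¹, (mem_upper _).mpr ⟨_, rfl⟩, Um_ne_one.mpr (inv_ne_zero hc),
      conj_eq c c⁻¹ (inv_mul_cancel₀ hc)⟩
  cond_right := by
    intro b hb hb1
    obtain ⟨e, rfl⟩ := (mem_upper _).mp hb
    have he : e ≠ 0 := Um_ne_one.mp hb1
    exact ⟨Lm e⁻¹, (mem_lower _).mpr ⟨_, rfl⟩, Lm_ne_one.mpr (inv_ne_zero he),
      (conj_eq e⁻¹ e (mul_inv_cancel₀ he)).symm⟩

/-- For any field k, the special linear group SL₂(k) is a special rank one group with abelian unipotent subgroups, the unipotent subgroups being the group of lower unitriangular matrices and the group of upper unitriangular matrices. -/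
theorem result (k : Type*) [Field k] :
    Cfsg.IsRankOneGroup (Matrix.SpecialLinearGroup (Fin 2) k) (Cfsg.lowerUnipotentSL2 k) (Cfsg.upperUnipotentSL2 k) ∧
    Cfsg.IsSpecialRankOnePair (Cfsg.lowerUnipotentSL2 k) (Cfsg.upperUnipotentSL2 k) ∧
    Cfsg.HasAbelianUnipotents (Cfsg.lowerUnipotentSL2 k) (Cfsg.upperUnipotentSL2 k) := by
  refine ⟨⟨gen, pair⟩, ⟨pair, ?_⟩, comm_lower, comm_upper⟩
  intro a ha ha1 b hb hb1 hconj
  obtain ⟨c, rfl⟩ := (mem_lower _).mp ha
  obtain ⟨e, rfl⟩ := (mem_upper _).mp hb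
  have hc : c ≠ 0 := Lm_ne_one.mp ha1
  have he : e ≠ 0 := Um_ne_one.mp hb1
  have h1 : (Um e)⁻¹ * Lm 1 * Um e ∈ conjBy (lowerUnipotentSL2 k) (Um e)⁻¹ := by
    refine ⟨Lm 1, (mem_lower _).mpr ⟨_, rfl⟩, ?_⟩
    simp
  rw [hconj] at h1
  obtain ⟨y, hy, hy'⟩ := h1
  obtain ⟨t, rfl⟩ := (mem_upper _).mp hy
  simp only [MulEquiv.coe_toMonoidHom, MulAut.conj_apply, Um_inv, Lm_inv] at hy'
  have e00 := congrArg (fun g : Matrix.SpecialLinearGroup (Fin 2) k => g 0 0) hy'
  have e01 := congrArg (fun g : Matrix.SpecialLinearGroup (Fin 2) k => g 0 1) hy'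
  simp only [mul_apply', Lm00, Lm01, Lm10, Lm11, Um00, Um01, Um10, Um11] at e00 e01
  have hce : e * c = 1 := by
    have h2 : e * (e * c - 1) = 0 := by
      linear_combination -e00 + c * e01
    rcases mul_eq_zero.mp h2 with h | h
    · exact absurd h he
    · linear_combination h
  rw [Um_inv, Lm_inv]
  apply sl_ext
  · simp only [mul_apply', Lm00, Lm01, Lm10, Lm11, Um00, Um01, Um10, Um11]
    ring
  · simp only [mul_apply', Lm00, Lm01, Lm10, Lm11, Um00, Um01, Um10, Um11]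
    linear_combination (-e) * hce
  · simp only [mul_apply', Lm00, Lm01, Lm10, Lm11, Um00, Um01, Um10, Um11]
    linear_combination (-c) * hce
  · simp only [mul_apply', Lm00, Lm01, Lm10, Lm11, Um00, Um01, Um10, Um11]
    ring

end Cfsg.Agent.S5016
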