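import Cfsg.Statements.S5017
import Cfsg.Agent.Lib.Helper25.RankOne

set_option autoImplicit false
open Cfsg

namespace Cfsg.Agent.S5017

open Cfsg.Agent.Lib.Helper25

theorem dichotomy {X : Type*} [Group X] {A B : Subgroup X} (h : Cfsg.IsRankOneGroup X A B) :
    ∀ N : Subgroup X, N.Normal → N ⊔ A = ⊤ ∨ N ≤ Subgroup.center X := by
  intro N hN
  rcases RankOne.normal_dichotomy h.2 N (by rw [h.1]; exact le_top) (fun x _ => conjBy_of_normal hN x) with h1 | h1
  · left
    rw [h.1] at h1
    exact top_le_iff.mp h1
  · right
    intro n hn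
    rw [Subgroup.mem_center_iff]
    intro g
    exact (h1 n hn g (by rw [h.1]; trivial)).symm

/-- Let X be a rank one group with unipotent subgroups A and B and N a normal subgroup of X. Then either X = N A or N lies in the centre of X. Consequently a perfect rank one group is quasisimple. -/
theorem result {X : Type*} [Group X] {A B : Subgroup X} (h : Cfsg.IsRankOneGroup X A B) :
    (∀ N : Subgroup X, N.Normal → N ⊔ A = ⊤ ∨ N ≤ Subgroup.center X) ∧
    (Group.IsPerfect X → Cfsg.IsQuasisimple X) := by
  refine ⟨dichotomy h, fun hperf => ⟨hperf, ?_⟩⟩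
  have hne : Subgroup.center X ≠ ⊤ := by
    intro htop
    obtain ⟨a, ha, ha1⟩ := RankOne.exists_ne_one_left h.2
    obtain ⟨b, hb, hb1⟩ := RankOne.exists_ne_one_right h.2
    apply RankOne.not_commute h.2 ha ha1 hb hb1
    have : a ∈ Subgroup.center X := by rw [htop]; trivial
    exact (Subgroup.mem_center_iff.mp this b).symm
  haveI : Nontrivial (X ⧸ Subgroup.center X) := by
    rw [QuotientGroup.nontrivial_iff]
    exact hne
  refine ⟨fun H hH => ?_⟩
  have hsurj : Function.Surjective (QuotientGroup.mk' (Subgroup.center X)) := QuotientGroup.mk'_surjective _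
  have hNn : (H.comap (QuotientGroup.mk' (Subgroup.center X))).Normal := hH.comap _
  rcases dichotomy h _ hNn with h1 | h1
  · right
    set N := H.comap (QuotientGroup.mk' (Subgroup.center X)) with hNdef
    -- X ⧸ N is nilpotent and perfect
    have hs : Function.Surjective ((QuotientGroup.mk' N).comp A.subtype) := by
      intro y
      obtain ⟨x, rfl⟩ := QuotientGroup.mk'_surjective N y
      have hx : x ∈ A ⊔ N := by rw [sup_comm, h1]; trivial
      obtain ⟨a, ha, n, hn, rfl⟩ := Subgroup.mem_sup_of_normal_right.mp hx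
      refine ⟨⟨a, ha⟩, ?_⟩
      simp only [MonoidHom.comp_apply, Subgroup.subtype_apply, QuotientGroup.mk'_apply]
      rw [QuotientGroup.eq]
      simpa using hn
    haveI := h.2.nilpotent_left
    have hnil : Group.IsNilpotent (X ⧸ N) := Group.nilpotent_of_surjective _ hs
    have hsub : Subsingleton (X ⧸ N) := by
      by_contra hcon
      rw [not_subsingleton_iff_nontrivial] at hcon
      exact Group.IsPerfect.not_isNilpotent (X ⧸ N) hnil
    have hNtop : N = ⊤ := by
      rwa [QuotientGroup.subsingleton_iff] at hsub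
    rw [← Subgroup.map_comap_eq_self_of_surjective hsurj H, ← hNdef, hNtop]
    exact Subgroup.map_top_of_surjective _ hsurj
  · left
    rw [← Subgroup.map_comap_eq_self_of_surjective hsurj H]
    rw [eq_bot_iff]
    rintro _ ⟨x, hx, rfl⟩
    rw [Subgroup.mem_bot]
    exact (QuotientGroup.eq_one_iff x).mpr (h1 hx)

end Cfsg.Agent.S5017
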