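import Cfsg.Statements.S5018
import Cfsg.Agent.Lib.Helper25.RankOne

set_option autoImplicit false
open Cfsg
open scoped commutatorElement

namespace Cfsg.Agent.S5018

open Cfsg.Agent.Lib.Helper25

/-- A rank one group is not nilpotent, and its second centre equals its centre. -/
theorem result {X : Type*} [Group X] {A B : Subgroup X} (h : Cfsg.IsRankOneGroup X A B) :
    Subgroup.upperCentralSeries X 2 = Subgroup.center X ∧ ¬ Group.IsNilpotent X := by
  have htop : ∀ x : X, x ∈ A ⊔ B := fun x => by rw [h.1]; trivial
  have h2 : Subgroup.upperCentralSeries X 2 = Subgroup.center X := by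
    apply le_antisymm
    · intro z hz
      rw [Subgroup.mem_upperCentralSeries_succ_iff] at hz
      rw [Subgroup.mem_center_iff]
      intro g
      refine (RankOne.second_center h.2 (htop z) ?_ g (htop g)).symm
      intro x _ y _
      have := hz x
      rw [Subgroup.upperCentralSeries_one, Subgroup.mem_center_iff] at this
      exact (this y).symm
    · rw [← Subgroup.upperCentralSeries_one]
      exact Subgroup.upperCentralSeries_mono X (by norm_num)
  refine ⟨h2, ?_⟩
  intro hnil
  obtain ⟨n, hn⟩ := hnil.nilpotent'
  have hstab : ∀ n : ℕ, Subgroup.upperCentralSeries X n ≤ Subgroup.center X := by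
    intro n
    induction n with
    | zero => simp
    | succ k ih =>
      intro z hz
      rw [← h2]
      rw [Subgroup.mem_upperCentralSeries_succ_iff] at hz ⊢
      intro y
      rw [Subgroup.upperCentralSeries_one]
      exact ih (hz y)
  have hc : Subgroup.center X = ⊤ := top_le_iff.mp (hn ▸ hstab n)
  obtain ⟨a, ha, ha1⟩ := RankOne.exists_ne_one_left h.2
  obtain ⟨b, hb, hb1⟩ := RankOne.exists_ne_one_right h.2
  apply RankOne.not_commute h.2 ha ha1 hb hb1
  have : a ∈ Subgroup.center X := by rw [hc]; trivial
  exact (Subgroup.mem_center_iff.mp this b).symm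

end Cfsg.Agent.S5018
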