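import Cfsg.Statements.S5021
import Cfsg.Agent.Lib.Helper25.Special

set_option autoImplicit false
open Cfsg
open Cfsg.Agent.Lib.Helper25
open Cfsg.Agent.Lib.Helper25.Special

namespace Cfsg.Agent.S5021

variable {G : Type*} [Group G]

theorem conj_rel {a b : G} (h : b⁻¹ * a * b = a⁻¹ * b⁻¹ * a) : a * b * a⁻¹ = b * a⁻¹ * b⁻¹ := by
  have e : a * b * a⁻¹ = b * (b⁻¹ * a * b) * a⁻¹ := by group
  rw [e, h]; group

/-- `b(a ^ m) ^ m = b(a)`. -/
theorem pow_formula (m : ℕ) (hm : 1 ≤ m) : ∀ {A B : Subgroup G}, IsSpecialRankOnePair A B → ∀ {a b y : G},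
    Rel A B a b → Rel A B (a ^ m) y → y ^ m = b := by
  induction m, hm using Nat.le_induction with
  | base =>
    intro A B hs a b y h1 h2
    rw [pow_one] at h2 ⊢
    exact h2.unique_right hs.1 h1
  | succ m hm ih =>
    intro A B hs a b y h1 h2
    by_cases ham : a ^ m = 1
    · rw [pow_succ, ham, one_mul] at h2
      have hy : y = b := h2.unique_right hs.1 h1
      rw [hy, pow_succ, (h1.pow_eq_one_iff hs m).mpr ham, one_mul]
    · have hbm : b ^ m ≠ 1 := fun h => ham ((h1.pow_eq_one_iff hs m).mp h)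
      obtain ⟨c, hc⟩ := exists_left hs.1 (B.pow_mem h1.2.2.1 m) hbm
      have hcm : c ^ m = a := ih (special_symm hs) h1.symm hc.symm
      have hpow : (c ^ (m + 1)) ^ m = a ^ (m + 1) := by
        rw [← pow_mul, mul_comm, pow_mul, hcm]
      have hc1 : c ^ (m + 1) ≠ 1 := by
        intro h
        rw [h, one_pow] at hpow
        exact h2.2.1 hpow.symm
      have heq : conjBy A (b * y⁻¹) = conjBy B (c ^ (m + 1)) := by
        have e1 : c ^ (m + 1) = a * c := by rw [pow_succ, hcm]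
        have e2 : a * b ^ m = b * (a ^ m)⁻¹ * b⁻¹ * a := by
          have h3 := conj_rel (h1.eq hs)
          have h4 : a * b ^ m * a⁻¹ = b * (a ^ m)⁻¹ * b⁻¹ := by
            rw [← conj_pow, h3, conj_pow, inv_pow]
          have : a * b ^ m = (a * b ^ m * a⁻¹) * a := by group
          rw [this, h4]
        rw [e1, ← conjBy_conjBy B c a, ← hc.conj_eq hs, conjBy_conjBy, e2, ← conjBy_conjBy A a,
          conjBy_of_mem h1.1, ← conjBy_conjBy A b⁻¹, h1.2.2.2.2, conjBy_conjBy, ← conjBy_conjBy A y⁻¹ b,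
          h2.2.2.2.2, conjBy_conjBy]
        congr 1
        rw [pow_succ, mul_inv_rev]; group
      have hyb : y * b⁻¹ ≠ 1 := by
        intro h
        have h5 : b * y⁻¹ = 1 := by
          have : b * y⁻¹ = (y * b⁻¹)⁻¹ := by group
          rw [this, h, inv_one]
        rw [h5, conjBy_one] at heq
        exact RankOne.conj_right_ne_left hs.1 (A.pow_mem hc.1 (m + 1)) heq.symm
      have hrel : Rel A B (c ^ (m + 1))⁻¹ (y * b⁻¹) := by
        refine ⟨A.inv_mem (A.pow_mem hc.1 _), by simpa using hc1, B.mul_mem h2.2.2.1 (B.inv_mem h1.2.2.1), hyb, ?_⟩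
        rw [inv_inv, ← heq]
        congr 1
        group
      have hrel2 := hrel.inv hs
      rw [inv_inv] at hrel2
      have h6 := ih hs hrel2 (by rw [hpow]; exact h2)
      rw [pow_succ, h6]; group

/-- In a special rank one group with abelian unipotent subgroups A and B, either A is an elementary abelian p-group for some prime p, or A is torsion-free and divisible (every element of A has an n-th root in A for every positive n). -/
theorem result {X : Type*} [Group X] {A B : Subgroup X} (h : Cfsg.IsRankOneGroup X A B)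
    (hs : Cfsg.IsSpecialRankOnePair A B) (hab : Cfsg.HasAbelianUnipotents A B) :
    (∃ p : ℕ, p.Prime ∧ Cfsg.IsElementaryAbelian p A) ∨
    ((∀ a ∈ A, a ≠ 1 → ¬ IsOfFinOrder a) ∧ ∀ a ∈ A, ∀ n : ℕ, 0 < n → ∃ c ∈ A, c ^ n = a) := by
  -- roots
  have hroot : ∀ n : ℕ, 1 ≤ n → ∀ x ∈ A, x ^ n ≠ 1 → ∃ w ∈ A, w ^ n = x := by
    intro n hn x hx hxn
    have hx1 : x ≠ 1 := by
      rintro rfl
      exact hxn (one_pow n)
    obtain ⟨b, hb⟩ := exists_right hs.1 hx hx1
    have hbn : b ^ n ≠ 1 := fun h => hxn ((hb.pow_eq_one_iff hs n).mp h)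
    obtain ⟨w, hw⟩ := exists_left hs.1 (B.pow_mem hb.2.2.1 n) hbn
    exact ⟨w, hw.1, pow_formula n hn (special_symm hs) hb.symm hw.symm⟩
  -- dichotomy
  have hdich : ∀ n : ℕ, 1 ≤ n → (∃ x ∈ A, x ^ n ≠ 1) → ∀ a ∈ A, a ^ n = 1 → a = 1 := by
    rintro n hn ⟨x, hx, hxn⟩ a ha han
    have hx1 : x ≠ 1 := by
      rintro rfl
      exact hxn (one_pow n)
    obtain ⟨w, hw, hwn⟩ := hroot n hn x hx hxn
    have hw1 : w ≠ 1 := by
      rintro rfl
      rw [one_pow] at hwn
      exact hx1 hwn.symm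
    have hwa : (w * a) ^ n = x := by
      rw [(show Commute w a from comm_of_isMulCommutative hab.1 hw ha).mul_pow, han, mul_one, hwn]
    have hwa1 : w * a ≠ 1 := by
      intro h
      rw [h, one_pow] at hwa
      exact hx1 hwa.symm
    obtain ⟨bx, hbx⟩ := exists_right hs.1 hx hx1
    obtain ⟨b1, hb1⟩ := exists_right hs.1 hw hw1
    obtain ⟨b2, hb2⟩ := exists_right hs.1 (A.mul_mem hw ha) hwa1
    have e1 : bx ^ n = b1 := pow_formula n hn hs hb1 (by rw [hwn]; exact hbx)
    have e2 : bx ^ n = b2 := pow_formula n hn hs hb2 (by rw [hwa]; exact hbx)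
    have h3 : w = w * a := hb1.unique_left hs.1 (by rw [← e1, e2]; exact hb2)
    simpa using h3.symm
  by_cases htf : ∀ a ∈ A, a ≠ 1 → ¬ IsOfFinOrder a
  · right
    refine ⟨htf, ?_⟩
    intro a ha n hn
    by_cases ha1 : a = 1
    · exact ⟨1, A.one_mem, by rw [one_pow, ha1]⟩
    · apply hroot n hn a ha
      intro h
      exact htf a ha ha1 (isOfFinOrder_iff_pow_eq_one.mpr ⟨n, hn, h⟩)
  · left
    push Not at htf
    obtain ⟨a, ha, ha1, hfin⟩ := htf
    have hord : orderOf a ≠ 1 := fun h => ha1 (orderOf_eq_one_iff.mp h)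
    obtain ⟨p, hp, hdvd⟩ := Nat.exists_prime_and_dvd hord
    obtain ⟨k, hk⟩ := hdvd
    refine ⟨p, hp, hab.1, ?_⟩
    by_contra hcon
    push Not at hcon
    have h4 := hdich p hp.one_lt.le hcon (a ^ k) (A.pow_mem ha k) (by
      rw [← pow_mul, mul_comm, ← hk, pow_orderOf_eq_one])
    have h5 : orderOf a ∣ k := orderOf_dvd_of_pow_eq_one h4
    have hpos : 0 < orderOf a := hfin.orderOf_pos
    have hkpos : 0 < k := by
      rcases Nat.eq_zero_or_pos k with h0 | h0
      · rw [h0, mul_zero] at hk; omega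
      · exact h0
    have h6 := Nat.le_of_dvd hkpos h5
    rw [hk] at h6
    have := hp.two_le
    nlinarith

end Cfsg.Agent.S5021
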