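import Cfsg.Statements.S5023
import Cfsg.Agent.Lib.Helper25.Quadratic

set_option autoImplicit false
open Cfsg

namespace Cfsg.Agent.S5023

open Cfsg.Agent.Lib.Helper25

/-- Let X be a rank one group with unipotent subgroups A and B that acts faithfully on an abelian group V (written additively) with A acting quadratically: a' • (a • v − v) = a • v − v for all a, a' in A and v in V. Then A is either torsion-free or an elementary abelian p-group for some prime p. -/
theorem result {X : Type*} [Group X] {A B : Subgroup X} (h : Cfsg.IsRankOneGroup X A B)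
    {V : Type*} [AddCommGroup V] [DistribMulAction X V] (hf : ∀ x : X, (∀ v : V, x • v = v) → x = 1)
    (hq : ∀ a ∈ A, ∀ a' ∈ A, ∀ v : V, a' • (a • v - v) = a • v - v) :
    (∀ a ∈ A, a ≠ 1 → ¬ IsOfFinOrder a) ∨ ∃ p : ℕ, p.Prime ∧ Cfsg.IsElementaryAbelian p A := by
  have hqA : Quad.QuadOn V A := hq
  obtain ⟨g, hg, hBg⟩ := RankOne.right_mem_unipotent h.2
  have hqB : Quad.QuadOn V B := by rw [hBg]; exact hqA.conj g
  have htop : ∀ x : X, x ∈ A ⊔ B := fun x => by rw [h.1]; trivial
  have hfaith : ∀ x y : X, (∀ v : V, x • v = y • v) → x = y := by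
    intro x y hxy
    have : y⁻¹ * x = 1 := hf _ (fun v => by rw [mul_smul, hxy, inv_smul_smul])
    exact (inv_mul_eq_one.mp this).symm
  -- commuting criterion
  have hcomm : ∀ x y : X, (∀ v : V, x • (y • v - v) = y • v - v) → (∀ v : V, y • (x • v - v) = x • v - v) →
      x * y = y * x := by
    intro x y h1 h2
    apply hfaith
    intro v
    have e1 : (x * y) • v = x • (y • v - v) + x • v := by rw [mul_smul, smul_sub]; abel
    have e2 : (y * x) • v = y • (x • v - v) + y • v := by rw [mul_smul, smul_sub]; abel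
    rw [e1, e2, h1, h2]; abel
  have hnofix : ∀ a₀ ∈ A, a₀ ≠ 1 → ¬ (∀ n : V, ∀ x ∈ A ⊔ B, x • (a₀ • n - n) = a₀ • n - n) := by
    intro a₀ ha₀ h1 hfix
    have hQ := Quad.fact2 h.2 hqA ha₀ h1 hfix
    obtain ⟨a, ha, ha1⟩ := RankOne.exists_ne_one_left h.2
    obtain ⟨b, hb, hb1⟩ := RankOne.exists_ne_one_right h.2
    exact RankOne.not_commute h.2 ha ha1 hb hb1
      (hcomm a b (fun v => hQ b (htop b) v a (htop a)) (fun v => hQ a (htop a) v b (htop b)))
  have hpow : ∀ a ∈ A, ∀ (k : ℕ) (v : V), (a ^ k) • v - v = k • (a • v - v) := by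
    intro a ha k v
    induction k with
    | zero => simp
    | succ k ih =>
      have e : (a ^ (k + 1)) • v - v = (a ^ k) • (a • v - v) + ((a ^ k) • v - v) := by
        rw [pow_succ, mul_smul, smul_sub]; abel
      rw [e, hq a ha _ (A.pow_mem ha k), ih, succ_nsmul]; abel
  by_cases htf : ∀ a ∈ A, a ≠ 1 → ¬ IsOfFinOrder a
  · left; exact htf
  · right
    push Not at htf
    obtain ⟨a, ha, ha1, hfin⟩ := htf
    have hn0 : orderOf a ≠ 0 := (orderOf_pos_iff.mpr hfin).ne'
    have hn1 : orderOf a ≠ 1 := fun h => ha1 (orderOf_eq_one_iff.mp h)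
    set p := (orderOf a).minFac with hp
    have hpp : p.Prime := Nat.minFac_prime hn1
    have hord : orderOf (a ^ (orderOf a / p)) = p := orderOf_pow_orderOf_div hn0 (Nat.minFac_dvd _)
    set a₀ := a ^ (orderOf a / p) with ha₀def
    have ha₀ : a₀ ∈ A := A.pow_mem ha _
    have ha₀1 : a₀ ≠ 1 := by
      intro h1
      rw [h1, orderOf_one] at hord
      exact hpp.one_lt.ne hord
    have ha₀p : a₀ ^ p = 1 := by rw [← hord]; exact pow_orderOf_eq_one a₀
    have hp0 : ∀ v : V, p • (a₀ • v - v) = 0 := by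
      intro v
      rw [← hpow a₀ ha₀ p v, ha₀p, one_smul, sub_self]
    obtain ⟨b₀, hb₀, _, hab⟩ := h.2.cond_left a₀ ha₀ ha₀1
    refine ⟨p, hpp, ?_, ?_⟩
    · constructor
      constructor
      rintro ⟨x, hx⟩ ⟨y, hy⟩
      apply Subtype.ext
      exact hcomm x y (fun v => hq y hy x hx v) (fun v => hq x hx y hy v)
    · intro a₁ ha₁
      by_contra hne
      apply hnofix (a₁ ^ p) (A.pow_mem ha₁ p) hne
      intro n x hx
      rw [hpow a₁ ha₁ p n]
      have h2 := Quad.fact1 hqA hqB ha₀ hb₀ hab ha₁ n x hx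
      have hz := hp0 (b₀ • (a₁ • n - n) - (a₁ • n - n))
      calc x • (p • (a₁ • n - n))
          = x • (p • ((a₁ • n - n) - (a₀ • (b₀ • (a₁ • n - n) - (a₁ • n - n)) - (b₀ • (a₁ • n - n) - (a₁ • n - n))))) := by
            rw [smul_sub p (a₁ • n - n), hz, sub_zero]
        _ = p • (x • ((a₁ • n - n) - (a₀ • (b₀ • (a₁ • n - n) - (a₁ • n - n)) - (b₀ • (a₁ • n - n) - (a₁ • n - n))))) :=
            smul_comm _ _ _
        _ = p • ((a₁ • n - n) - (a₀ • (b₀ • (a₁ • n - n) - (a₁ • n - n)) - (b₀ • (a₁ • n - n) - (a₁ • n - n)))) := by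
            rw [h2]
        _ = p • (a₁ • n - n) := by rw [smul_sub p (a₁ • n - n), hz, sub_zero]

end Cfsg.Agent.S5023
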