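import Cfsg.Statements.S5026
import Cfsg.Agent.Lib.Helper25.RootSub

set_option autoImplicit false
open Cfsg

namespace Cfsg.Agent.S5026

open Cfsg.Agent.Lib.Helper25

/-- Let S be a degenerate set of abstract root subgroups of G (a set of abstract transvection groups) and let a, b be commuting non-identity elements of members of S with a b ≠ 1. Then the members of S centralizing a b are exactly those centralizing both a and b. -/
theorem result {G : Type*} [Group G] {S : Set (Subgroup G)} (hS : Cfsg.IsRootSubgroupSet S) (hdeg : Cfsg.IsDegenerateRootSet S)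
    {a b : G} (ha : a ∈ Cfsg.rootElements S) (hb : b ∈ Cfsg.rootElements S) (hab : a * b = b * a) (hab1 : a * b ≠ 1) :
    Cfsg.centralizingMembers S (Subgroup.zpowers (a * b)) =
      Cfsg.centralizingMembers S (Subgroup.zpowers a) ∩ Cfsg.centralizingMembers S (Subgroup.zpowers b) := by
  obtain ⟨ha1, A, hA, haA⟩ := ha
  obtain ⟨hb1, B, hB, hbB⟩ := hb
  -- a member not commuting with an element of another member forms a rank one pair with it
  have hpair : ∀ P ∈ S, ∀ Q ∈ S, (∃ p ∈ P, ∃ q ∈ Q, p * q ≠ q * p) → IsRankOnePair P Q := by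
    intro P hP Q hQ ⟨p, hp, q, hq, hpq⟩
    rcases hS.pair P hP Q hQ with h1 | h1 | h1
    · exact absurd (RootSub.commute_of_commutator_eq_bot h1 hp hq) hpq
    · exact h1
    · exact absurd h1 (hdeg P hP Q hQ)
  ext C
  simp only [centralizingMembers, Set.mem_inter_iff, Set.mem_ofPred_eq, RootSub.le_centralizer_zpowers_iff]
  constructor
  · rintro ⟨hC, hCab⟩
    have key : ∀ c ∈ C, c * a = a * c := by
      by_contra hcon
      push Not at hcon
      obtain ⟨c, hc, hca⟩ := hcon
      have hAC : IsRankOnePair A C := hpair A hA C hC ⟨a, haA, c, hc, fun h => hca h.symm⟩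
      have hcb : c * b ≠ b * c := by
        intro h
        apply hca
        have h1 := hCab c hc
        -- c a b = a b c = a c b
        have h2 : c * a * b = a * c * b := by
          rw [mul_assoc, h1, mul_assoc, mul_assoc, h]
        exact mul_right_cancel h2
      have hBC : IsRankOnePair B C := hpair B hB C hC ⟨b, hbB, c, hc, fun h => hcb h.symm⟩
      have hconj : conjBy C a = conjBy C b⁻¹ := by
        have h1 : conjBy C (b * a) = C := by
          rw [← hab]
          exact conjBy_of_centralizes (fun c hc => (hCab c hc).symm)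
        rw [← conjBy_conjBy, conjBy_eq_iff] at h1
        exact h1
      obtain ⟨c₁, hc₁, _, h1⟩ := RankOne.cond_left' hAC haA ha1
      obtain ⟨c₂, hc₂, _, h2⟩ := RankOne.cond_left' hBC (B.inv_mem hbB) (by simpa using hb1)
      have hBeq : B = conjBy A (c₂⁻¹ * c₁) := by
        rw [← conjBy_conjBy, h1, hconj, ← h2, conjBy_inv_conjBy]
      rcases RankOne.conj_left_by_right hAC (C.mul_mem (C.inv_mem hc₂) hc₁) with h3 | ⟨a₁, ha₁, h3⟩
      · rw [h3] at hBeq
        have hc1 : c ≠ 1 := by rintro rfl; simp at hca
        exact RankOne.not_commute hAC (A.mul_mem haA (hBeq ▸ hbB)) hab1 hc hc1 (hCab c hc).symm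
      · rw [h3] at hBeq
        have hp : IsRankOnePair A B := by
          rw [hBeq]
          exact RankOne.pair_of_mem hAC (RankOne.left_mem_unipotent A C)
            (RankOne.conj_mem_unipotent (RankOne.right_mem_unipotent hAC) (Subgroup.mem_sup_left ha₁))
            (RankOne.conj_right_ne_left hAC ha₁).symm
        exact RankOne.not_commute hp haA ha1 hbB hb1 hab
    refine ⟨⟨hC, key⟩, hC, ?_⟩
    intro c hc
    have h1 := hCab c hc
    have h2 := key c hc
    have h3 : a * (c * b) = a * (b * c) := by
      rw [← mul_assoc, ← h2, mul_assoc, h1, mul_assoc]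
    exact mul_left_cancel h3
  · rintro ⟨⟨hC, h1⟩, _, h2⟩
    refine ⟨hC, fun c hc => ?_⟩
    rw [← mul_assoc, h1 c hc, mul_assoc, h2 c hc, mul_assoc]

end Cfsg.Agent.S5026
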