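import Cfsg.Statements.S5027
import Cfsg.Agent.Lib.Helper25.RootSub
import Cfsg.Agent.S5025

set_option autoImplicit false
open Cfsg
open scoped commutatorElement

namespace Cfsg.Agent.S5027

open Cfsg.Agent.Lib.Helper25

/-- Let S be a set of abstract root subgroups of G such that every member of S has a rank one partner in S (the graph of rank one pairs on S has no isolated vertex). Then the second centre of G equals its centre. -/
theorem result {G : Type*} [Group G] {S : Set (Subgroup G)} (hS : Cfsg.IsRootSubgroupSet S)
    (hF : ∀ A ∈ S, ¬ Cfsg.IsIsolatedIn (Cfsg.FAdj S) S A) : Subgroup.upperCentralSeries G 2 = Subgroup.center G := by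
  apply le_antisymm
  · intro z hz
    rw [Subgroup.mem_upperCentralSeries_succ_iff] at hz
    have hcent : (⨆ A ∈ S, A) ≤ Subgroup.centralizer {z} := by
      refine iSup₂_le fun A hA => ?_
      intro a ha
      rw [Subgroup.mem_centralizer_iff]
      intro y hy
      rw [Set.mem_singleton_iff.mp hy]
      by_cases ha1 : a = 1
      · rw [ha1]; simp
      obtain ⟨B, hB, hAB⟩ := RootSub.exists_partner (hF A hA) hA
      have hζ := hz a
      rw [Subgroup.upperCentralSeries_one] at hζ
      by_contra hne
      have hζ1 : ⁅z, a⁆ ≠ 1 := by
        intro h1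
        apply hne
        rw [commutatorElement_def] at h1
        have : z * a = (z * a * z⁻¹ * a⁻¹) * (a * z) := by group
        rw [this, h1, one_mul]
      have hζc : ⁅z, a⁆ ∈ Subgroup.centralizer ((A ⊔ B : Subgroup G) : Set G) := by
        rw [Subgroup.mem_centralizer_iff]
        intro x _
        exact Subgroup.mem_center_iff.mp hζ x
      apply Cfsg.Agent.S5025.result hS hA ⟨hB, hAB⟩ hζc hζ1 a ha ha1
      have e : ⁅z, a⁆ * a = z * a * z⁻¹ := by rw [commutatorElement_def]; group
      rw [e]
      refine ⟨?_, conjBy A z, hS.conj_mem A hA z, conj_mem_conjBy ha z⟩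
      intro h1
      apply ha1
      have : a = z⁻¹ * (z * a * z⁻¹) * z := by group
      rw [this, h1]; group
    rw [hS.generates] at hcent
    rw [Subgroup.mem_center_iff]
    intro g
    exact (Subgroup.mem_centralizer_iff.mp (hcent (Subgroup.mem_top g)) z rfl).symm
  · rw [← Subgroup.upperCentralSeries_one]
    exact Subgroup.upperCentralSeries_mono G (by norm_num)

end Cfsg.Agent.S5027
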