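import Cfsg.Statements.S5031
import Cfsg.Agent.Lib.Helper25.RootSub3
import Cfsg.Agent.S5025

set_option autoImplicit false
open Cfsg
open Cfsg.Agent.Lib.Helper25

namespace Cfsg.Agent.S5031

/-- Let S be a set of abstract root subgroups of G and let A, B ∈ S lie in different connected components of the graph of rank one pairs on S, each component having more than one member. Then B is not a line partner of A. -/
theorem result {G : Type*} [Group G] {S : Set (Subgroup G)} (hS : Cfsg.IsRootSubgroupSet S)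
    {A B : Subgroup G} (hA : A ∈ S) (hB : B ∈ S)
    (hne : Cfsg.componentOf (Cfsg.FAdj S) S A ≠ Cfsg.componentOf (Cfsg.FAdj S) S B)
    (hA2 : ∃ A' ∈ Cfsg.componentOf (Cfsg.FAdj S) S A, A' ≠ A) (hB2 : ∃ B' ∈ Cfsg.componentOf (Cfsg.FAdj S) S B, B' ≠ B) :
    B ∉ Cfsg.linePartners S A := by
  rintro ⟨⟨_, hBA, hcomm⟩, hpart⟩
  obtain ⟨C, hC, hAC⟩ := RootSub.exists_partner_of_component hA2
  obtain ⟨D, hD, hBD⟩ := RootSub.exists_partner_of_component hB2
  have hAB : ∀ a ∈ A, ∀ b ∈ B, a * b = b * a := fun a ha b hb => RootSub.commute_of_commutator_eq_bot hcomm ha hb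
  have hinf : A ⊓ B = ⊥ := (RootSub.ti hS hC hAC hB).resolve_right hBA.symm
  obtain ⟨a, ha, ha1⟩ := exists_ne_one_of_ne_bot (hS.ne_bot A hA)
  obtain ⟨b, hb, hb1⟩ := exists_ne_one_of_ne_bot (hS.ne_bot B hB)
  have hab1 : a * b ≠ 1 := by
    intro h
    have h2 : a = b⁻¹ := eq_inv_of_mul_eq_one_left h
    have h3 : a ∈ A ⊓ B := ⟨ha, by rw [h2]; exact B.inv_mem hb⟩
    rw [hinf, Subgroup.mem_bot] at h3
    exact ha1 h3
  obtain ⟨E, ⟨hE, _⟩, habE⟩ := hpart.2.1 (a * b)
    (Subgroup.mul_mem _ (Subgroup.mem_sup_left ha) (Subgroup.mem_sup_right hb)) hab1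
  have hEC : IsRankOnePair E C := by
    rcases hS.pair C hC B hB with h1 | h1 | h1
    · exfalso
      have hz : b ∈ Subgroup.centralizer ((A ⊔ C : Subgroup G) : Set G) :=
        RootSub.mem_centralizer_sup (fun a' ha' => (hAB a' ha' b hb).symm)
          (fun c hc => (RootSub.commute_of_commutator_eq_bot h1 hc hb).symm)
      apply Cfsg.Agent.S5025.result hS hA ⟨hC, hAC⟩ hz hb1 a ha ha1
      refine ⟨?_, E, hE, ?_⟩
      · rw [← hAB a ha b hb]; exact hab1
      · rw [← hAB a ha b hb]; exact habE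
    · exfalso
      apply hne
      apply RootSub.component_eq_of_reach
      exact (Relation.ReflTransGen.single ⟨hA, hC, hAC⟩).tail ⟨hC, hB, h1⟩
    · exact RootSub.rankOne_of_line hS hC hE hAC hAB h1 ha ha1 hb habE
  have hED : IsRankOnePair E D := by
    rcases hS.pair D hD A hA with h1 | h1 | h1
    · exfalso
      have hz : a ∈ Subgroup.centralizer ((B ⊔ D : Subgroup G) : Set G) :=
        RootSub.mem_centralizer_sup (fun b' hb' => (hAB a ha b' hb'))
          (fun c hc => (RootSub.commute_of_commutator_eq_bot h1 hc ha).symm)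
      apply Cfsg.Agent.S5025.result hS hB ⟨hD, hBD⟩ hz ha1 b hb hb1
      exact ⟨hab1, E, hE, habE⟩
    · exfalso
      apply hne
      apply RootSub.component_eq_of_reach
      exact (Relation.ReflTransGen.single ⟨hA, hD, RankOne.symm h1⟩).tail ⟨hD, hB, RankOne.symm hBD⟩
    · exact RootSub.rankOne_of_line hS hD hE hBD (fun b' hb' a' ha' => (hAB a' ha' b' hb').symm) h1 hb hb1 ha
        (by rw [← hAB a ha b hb]; exact habE)
  apply hne
  apply RootSub.component_eq_of_reach
  exact (((Relation.ReflTransGen.single ⟨hA, hC, hAC⟩).tail ⟨hC, hE, RankOne.symm hEC⟩).tail ⟨hE, hD, hED⟩).tail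
    ⟨hD, hB, RankOne.symm hBD⟩

end Cfsg.Agent.S5031
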