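import Cfsg.Statements.S5032
import Cfsg.Agent.Lib.Helper25.RootSub4
import Cfsg.Agent.S5031

set_option autoImplicit false
open Cfsg
open Cfsg.Agent.Lib.Helper25

namespace Cfsg.Agent.S5032

theorem conj_of_reach {G : Type*} [Group G] {S : Set (Subgroup G)} {A B : Subgroup G}
    (h : Relation.ReflTransGen (FAdj S) A B) : ∃ g : G, B = conjBy A g := by
  induction h with
  | refl => exact ⟨1, (conjBy_one A).symm⟩
  | tail _ hbc ih =>
    obtain ⟨g, rfl⟩ := ih
    obtain ⟨x, _, hx⟩ := RankOne.right_mem_unipotent hbc.2.2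
    exact ⟨x * g, by rw [hx, conjBy_conjBy]⟩

/-- if every member has a rank one partner, then the components of the graph of rank one pairs are stable under
conjugation. -/
theorem reach_conj {G : Type*} [Group G] {S : Set (Subgroup G)} (hS : Cfsg.IsRootSubgroupSet S)
    (hpart : ∀ C ∈ S, ∃ D ∈ S, IsRankOnePair C D) {A : Subgroup G} (hA : A ∈ S) (g : G) :
    Relation.ReflTransGen (FAdj S) A (conjBy A g) := by
  have key := RootSub.conj_induction_generates hS.generates
    (fun C => C ∈ S ∧ Relation.ReflTransGen (FAdj S) A C) ?_ A ⟨hA, .refl⟩ g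
  · exact key.2
  · rintro C ⟨hC, hAC⟩ E hE e he
    refine ⟨hS.conj_mem C hC e, hAC.trans ?_⟩
    by_cases hne : conjBy C e = C
    · rw [hne]
    obtain ⟨D, hD, hCD⟩ := hpart C hC
    rcases hS.pair C hC E hE with h1 | h1 | h1
    · exfalso
      apply hne
      exact conjBy_of_centralizes (fun c hc => (RootSub.commute_of_commutator_eq_bot h1 hc he).symm)
    · apply Relation.ReflTransGen.single
      refine ⟨hC, hS.conj_mem C hC e, ?_⟩
      exact RankOne.pair_of_mem h1 (RankOne.left_mem_unipotent C E)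
        (RankOne.conj_mem_unipotent (RankOne.left_mem_unipotent C E) (Subgroup.mem_sup_right he)) (Ne.symm hne)
    · have hl := RootSub.conj_mem_linePartners hS hC hD hCD h1 he hne
      by_contra hcon
      have hC' := hS.conj_mem C hC e
      obtain ⟨D', hD', hCD'⟩ := hpart _ hC'
      refine Cfsg.Agent.S5031.result hS hC hC' ?_ ⟨D, ⟨hD, .single ⟨hC, hD, hCD⟩⟩, hCD.ne.symm⟩
        ⟨D', ⟨hD', .single ⟨hC', hD', hCD'⟩⟩, hCD'.ne.symm⟩ hl
      intro heq
      apply hcon
      have : conjBy C e ∈ componentOf (FAdj S) S C := by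
        rw [heq]; exact ⟨hC', .refl⟩
      exact this.2

/-- Let S be a set of abstract root subgroups of G with more than one member. Then the graph of rank one pairs on S is connected if and only if S is a single conjugacy class of G and some member of S has a rank one partner in S. -/
theorem result {G : Type*} [Group G] {S : Set (Subgroup G)} (hS : Cfsg.IsRootSubgroupSet S) (h2 : ∃ A ∈ S, ∃ B ∈ S, A ≠ B) :
    Cfsg.IsConnectedFamily (Cfsg.FAdj S) S ↔
      (Cfsg.IsConjClassOfSubgroups S ∧ ∃ A ∈ S, ¬ Cfsg.IsIsolatedIn (Cfsg.FAdj S) S A) := by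
  obtain ⟨A₀, hA₀, B₀, hB₀, hne₀⟩ := h2
  constructor
  · intro hc
    refine ⟨⟨⟨A₀, hA₀⟩, fun A hA B hB => conj_of_reach (hc A hA B hB)⟩, A₀, hA₀, ?_⟩
    rintro ⟨_, hiso⟩
    rcases Relation.ReflTransGen.cases_head (hc A₀ hA₀ B₀ hB₀) with h | ⟨C, hC, _⟩
    · exact hne₀ h
    · exact (hiso C).1 hC
  · rintro ⟨⟨_, hconj⟩, A₁, hA₁, hiso⟩
    obtain ⟨C₁, hC₁, hAC₁⟩ := RootSub.exists_partner hiso hA₁
    have hpart : ∀ C ∈ S, ∃ D ∈ S, IsRankOnePair C D := by
      intro C hC
      obtain ⟨g, rfl⟩ := hconj A₁ hA₁ C hC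
      exact ⟨conjBy C₁ g, hS.conj_mem C₁ hC₁ g, RankOne.conj hAC₁ g⟩
    intro A hA B hB
    obtain ⟨g, rfl⟩ := hconj A hA B hB
    exact reach_conj hS hpart hA g

end Cfsg.Agent.S5032
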