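import Cfsg.Statements.S5036
import Cfsg.Agent.Lib.Helper25.RootSub2
import Cfsg.Agent.S5029

set_option autoImplicit false
open Cfsg
open scoped commutatorElement

namespace Cfsg.Agent.S5036

open Cfsg.Agent.Lib.Helper25

variable {G : Type*} [Group G] {S : Set (Subgroup G)}

theorem inf_commutator_eq_bot (hS : IsRootSubgroupSet S) {A B : Subgroup G} (h : RootCommutatorCase S A B) :
    A ⊓ ⁅A, B⁆ = ⊥ := by
  by_contra hne
  obtain ⟨x, hx, hx1⟩ := exists_ne_one_of_ne_bot hne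
  obtain ⟨hxA, hxC⟩ := Subgroup.mem_inf.mp hx
  apply hS.ne_bot _ h.1
  rw [← h.2.2.1 x hxA hx1, Subgroup.closure_eq_bot_iff]
  rintro _ ⟨b, hb, rfl⟩
  have := h.2.1 x hxC b (Subgroup.mem_sup_right hb)
  simp only [Set.mem_singleton_iff]
  rw [this]; group

/-- `⁅A ⊔ ⁅A,B⁆, B⁆ = ⁅A,B⁆` in the commutator case -/
theorem commutator_sup_left {A B : Subgroup G} (h : RootCommutatorCase S A B) : ⁅A ⊔ ⁅A, B⁆, B⁆ = ⁅A, B⁆ := by
  apply le_antisymm
  · rw [Subgroup.commutator_le]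
    intro n hn b hb
    obtain ⟨a, ha, c, hc, rfl⟩ := (mem_sup_of_commute (S5029.comm_left h)).mp hn
    have h1 := h.2.1 c hc b (Subgroup.mem_sup_right hb)
    have e : ⁅a * c, b⁆ = ⁅a, b⁆ := by
      rw [commutatorElement_def, commutatorElement_def]
      calc a * c * b * (a * c)⁻¹ * b⁻¹ = a * (c * b) * c⁻¹ * a⁻¹ * b⁻¹ := by group
        _ = a * (b * c) * c⁻¹ * a⁻¹ * b⁻¹ := by rw [h1]
        _ = a * b * a⁻¹ * b⁻¹ := by group
    rw [e]
    exact Subgroup.commutator_mem_commutator ha hb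
  · exact Subgroup.commutator_mono le_sup_left le_rfl

/-- Let S be a set of abstract root subgroups of G, A, B ∈ S with C = ⁅A, B⁆ ∈ S, and D ∈ S with ⁅D, C⁆ = A. Put X = ⟨B, D⟩ and N = AC. Then B, D form a rank one pair; the conjugates of A under X are the conjugates of C under X, namely the conjugates of A by elements of B together with C, equally the conjugates of C by elements of D together with A, and they partition N; and the centralizer of N in X is central in X. -/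
theorem result {G : Type*} [Group G] {S : Set (Subgroup G)} (hS : Cfsg.IsRootSubgroupSet S)
    {A B D : Subgroup G} (hA : A ∈ S) (hB : B ∈ S) (hC : ⁅A, B⁆ ∈ S) (hD : D ∈ S) (hDC : ⁅D, ⁅A, B⁆⁆ = A) :
    Cfsg.IsRankOnePair B D ∧
    {E | ∃ x ∈ B ⊔ D, E = Cfsg.conjBy A x} = {E | ∃ x ∈ B ⊔ D, E = Cfsg.conjBy ⁅A, B⁆ x} ∧
    {E | ∃ x ∈ B ⊔ D, E = Cfsg.conjBy A x} = (fun b : G => Cfsg.conjBy A b) '' (B : Set G) ∪ {⁅A, B⁆} ∧
    {E | ∃ x ∈ B ⊔ D, E = Cfsg.conjBy A x} = (fun d : G => Cfsg.conjBy ⁅A, B⁆ d) '' (D : Set G) ∪ {A} ∧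
    Cfsg.IsSubgroupPartition (A ⊔ ⁅A, B⁆) {E | ∃ x ∈ B ⊔ D, E = Cfsg.conjBy A x} ∧
    ∀ x ∈ (B ⊔ D) ⊓ Subgroup.centralizer ((A ⊔ ⁅A, B⁆ : Subgroup G) : Set G), ∀ y ∈ B ⊔ D, x * y = y * x := by
  have h1 : RootCommutatorCase S A B := RootSub.commCase_of_mem hS hA hB hC
  have h2 : RootCommutatorCase S D ⁅A, B⁆ := RootSub.commCase_of_mem hS hD hC (by rw [hDC]; exact hA)
  have h2' : RootCommutatorCase S ⁅A, B⁆ D := RootSub.commCase_symm h2
  have hCD : ⁅⁅A, B⁆, D⁆ = A := by rw [Subgroup.commutator_comm]; exact hDC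
  set C := ⁅A, B⁆ with hCdef
  have hCB : ∀ c ∈ C, ∀ b ∈ B, c * b = b * c := fun c hc b hb => h1.2.1 c hc b (Subgroup.mem_sup_right hb)
  have hCA : ∀ c ∈ C, ∀ a ∈ A, c * a = a * c := fun c hc a ha => h1.2.1 c hc a (Subgroup.mem_sup_left ha)
  have hAD : ∀ a ∈ A, ∀ d ∈ D, a * d = d * a := fun a ha d hd =>
    h2.2.1 a (by rw [hDC]; exact ha) d (Subgroup.mem_sup_left hd)
  have hAC : A ⊓ C = ⊥ := inf_commutator_eq_bot hS h1
  -- N is normalized by B ⊔ D
  have hNB : ∀ b ∈ B, conjBy (A ⊔ C) b ≤ A ⊔ C := by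
    intro b hb
    rw [conjBy_sup, conjBy_of_centralizes (fun c hc => (hCB c hc b hb).symm)]
    exact sup_le (S5029.conj_le hb) le_sup_right
  have hND : ∀ d ∈ D, conjBy (A ⊔ C) d ≤ A ⊔ C := by
    intro d hd
    rw [conjBy_sup, conjBy_of_centralizes (fun a ha => (hAD a ha d hd).symm)]
    refine sup_le le_sup_left ?_
    have := S5029.conj_le (A := C) (B := D) hd
    rw [hCD, sup_comm] at this
    exact this
  have hNeq : ∀ {H : Subgroup G}, (∀ g ∈ H, conjBy (A ⊔ C) g ≤ A ⊔ C) → ∀ g ∈ H, conjBy (A ⊔ C) g = A ⊔ C := by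
    intro H hH g hg
    apply le_antisymm (hH g hg)
    have := conjBy_mono (hH g⁻¹ (H.inv_mem hg)) g
    rwa [conjBy_conjBy_inv] at this
  have hN : ∀ x ∈ B ⊔ D, conjBy (A ⊔ C) x = A ⊔ C := by
    intro x hx
    exact conj_induction_sup (A := B) (B := D) (fun E => E = A ⊔ C)
      (fun b hb E hE => by rw [hE]; exact hNeq hNB b hb) (fun d hd E hE => by rw [hE]; exact hNeq hND d hd)
      x hx _ rfl
  have hPB : ⁅A ⊔ C, B⁆ = C := commutator_sup_left h1
  have hPD : ⁅A ⊔ C, D⁆ = A := by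
    have := commutator_sup_left h2'
    rw [hCD, sup_comm] at this
    exact this
  have hconjC : ∀ x ∈ B ⊔ D, conjBy C x = ⁅A ⊔ C, conjBy B x⁆ := by
    intro x hx
    conv_lhs => rw [← hPB]
    rw [conjBy_commutator, hN x hx]
  have hconjA : ∀ x ∈ B ⊔ D, conjBy A x = ⁅A ⊔ C, conjBy D x⁆ := by
    intro x hx
    conv_lhs => rw [← hPD]
    rw [conjBy_commutator, hN x hx]
  -- rank one
  have hBD : IsRankOnePair B D := by
    rcases hS.pair B hB D hD with h3 | h3 | h3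
    · exfalso
      apply hS.ne_bot A hA
      rw [← hDC]
      apply RootSub.commutator_eq_bot_of_commute
      intro d hd c hc
      have hle : A ⊔ B ≤ Subgroup.centralizer {d} := by
        rw [sup_le_iff]
        constructor
        · intro a ha
          rw [Subgroup.mem_centralizer_iff]
          intro y hy
          rw [Set.mem_singleton_iff.mp hy]
          exact (hAD a ha d hd).symm
        · intro b hb
          rw [Subgroup.mem_centralizer_iff]
          intro y hy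
          rw [Set.mem_singleton_iff.mp hy]
          exact (RootSub.commute_of_commutator_eq_bot h3 hb hd).symm
      exact Subgroup.mem_centralizer_iff.mp (hle (Subgroup.commutator_le_sup A B hc)) d rfl
    · exact h3
    · exfalso
      obtain ⟨b, hb, hb1⟩ := exists_ne_one_of_ne_bot (hS.ne_bot B hB)
      obtain ⟨d, hd, hd1⟩ := exists_ne_one_of_ne_bot (hS.ne_bot D hD)
      have hbb' : (d * b * d⁻¹) * b = b * (d * b * d⁻¹) := by
        have h4 := h3.2.1 ⁅b, d⁆ (Subgroup.commutator_mem_commutator hb hd) b (Subgroup.mem_sup_left hb)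
        rw [commutatorElement_def] at h4
        have h5 : (d * b⁻¹ * d⁻¹) * b = b * (d * b⁻¹ * d⁻¹) := by
          have e1 : b * d * b⁻¹ * d⁻¹ * b = b * ((d * b⁻¹ * d⁻¹) * b) := by group
          have e2 : b * (b * d * b⁻¹ * d⁻¹) = b * (b * (d * b⁻¹ * d⁻¹)) := by group
          rw [e1, e2] at h4
          exact mul_left_cancel h4
        have h6 : Commute (d * b⁻¹ * d⁻¹) b := h5
        have h7 := h6.inv_left
        have e3 : (d * b⁻¹ * d⁻¹)⁻¹ = d * b * d⁻¹ := by group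
        rw [e3] at h7
        exact h7
      have hb'X : d * b * d⁻¹ ∈ B ⊔ D :=
        Subgroup.mul_mem _ (Subgroup.mul_mem _ (Subgroup.mem_sup_right hd) (Subgroup.mem_sup_left hb))
          (Subgroup.inv_mem _ (Subgroup.mem_sup_right hd))
      -- Step A
      have stepA : ∀ c₀ ∈ C, (d * b * d⁻¹) * c₀ * (d * b * d⁻¹)⁻¹ ∈ C := by
        intro c₀ hc₀
        obtain ⟨a₃, ha₃, rfl⟩ := RootSub.surj_left h1 hb hb1 c₀ hc₀
        have hn : (d * b * d⁻¹) * a₃ * (d * b * d⁻¹)⁻¹ ∈ A ⊔ C := by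
          have := conj_mem_conjBy (Subgroup.mem_sup_left (T := C) ha₃) (d * b * d⁻¹)
          rwa [hN _ hb'X] at this
        have hmem : ⁅(d * b * d⁻¹) * a₃ * (d * b * d⁻¹)⁻¹, b⁆ ∈ C := by
          rw [← hPB]; exact Subgroup.commutator_mem_commutator hn hb
        have e : (d * b * d⁻¹) * (a₃ * b * a₃⁻¹ * b⁻¹) * (d * b * d⁻¹)⁻¹
            = ⁅(d * b * d⁻¹) * a₃ * (d * b * d⁻¹)⁻¹, (d * b * d⁻¹) * b * (d * b * d⁻¹)⁻¹⁆ := by
          rw [commutatorElement_def]; group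
        have e2 : (d * b * d⁻¹) * b * (d * b * d⁻¹)⁻¹ = b := by rw [hbb']; group
        rw [e, e2]; exact hmem
      -- Step B
      have stepB : ∀ a ∈ A, ⁅d * b * d⁻¹, a⁆ ∈ C := by
        intro a ha
        obtain ⟨c₀, hc₀, hac⟩ := RootSub.surj_right h2 hd hd1 a (by rw [hDC]; exact ha)
        have h4 : d * c₀ * d⁻¹ = a * c₀ := by rw [← hac]; group
        have h5 : (d * b * d⁻¹) * (d * c₀ * d⁻¹) * (d * b * d⁻¹)⁻¹ = d * c₀ * d⁻¹ := by
          calc (d * b * d⁻¹) * (d * c₀ * d⁻¹) * (d * b * d⁻¹)⁻¹ = d * (b * c₀) * b⁻¹ * d⁻¹ := by group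
            _ = d * (c₀ * b) * b⁻¹ * d⁻¹ := by rw [hCB c₀ hc₀ b hb]
            _ = d * c₀ * d⁻¹ := by group
        rw [h4] at h5
        have h6 := stepA c₀ hc₀
        have h7 : ⁅d * b * d⁻¹, a⁆ = a * (c₀ * ((d * b * d⁻¹) * c₀ * (d * b * d⁻¹)⁻¹)⁻¹) * a⁻¹ := by
          rw [commutatorElement_def]
          calc (d * b * d⁻¹) * a * (d * b * d⁻¹)⁻¹ * a⁻¹
              = ((d * b * d⁻¹) * (a * c₀) * (d * b * d⁻¹)⁻¹) * ((d * b * d⁻¹) * c₀ * (d * b * d⁻¹)⁻¹)⁻¹ * a⁻¹ := by group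
            _ = (a * c₀) * ((d * b * d⁻¹) * c₀ * (d * b * d⁻¹)⁻¹)⁻¹ * a⁻¹ := by rw [h5]
            _ = a * (c₀ * ((d * b * d⁻¹) * c₀ * (d * b * d⁻¹)⁻¹)⁻¹) * a⁻¹ := by group
        have h8 : c₀ * ((d * b * d⁻¹) * c₀ * (d * b * d⁻¹)⁻¹)⁻¹ ∈ C := C.mul_mem hc₀ (C.inv_mem h6)
        rw [h7, ← hCA _ h8 a ha]
        simpa using h8
      -- Step C
      have stepC : ∀ c ∈ C, d * c * d⁻¹ ∈ C := by
        intro c hc
        obtain ⟨a, ha, rfl⟩ := RootSub.surj_right (RootSub.commCase_symm h1) hb hb1 c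
          (by rw [Subgroup.commutator_comm]; exact hc)
        have e : d * (b * a * b⁻¹ * a⁻¹) * d⁻¹ = ⁅d * b * d⁻¹, d * a * d⁻¹⁆ := by
          rw [commutatorElement_def]; group
        have e2 : d * a * d⁻¹ = a := by rw [← hAD a ha d hd]; group
        rw [e, e2]
        exact stepB a ha
      -- Step D
      apply hS.ne_bot A hA
      rw [← hAC]
      symm
      rw [inf_eq_left]
      intro a ha
      obtain ⟨c₀, hc₀, hac⟩ := RootSub.surj_right h2 hd hd1 a (by rw [hDC]; exact ha)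
      rw [← hac]
      exact C.mul_mem (stepC c₀ hc₀) (C.inv_mem hc₀)
  have hΩ := RankOne.unipotent_symm hBD  -- Ω(D,B) = Ω(B,D)
  have hsup : D ⊔ B = B ⊔ D := sup_comm D B
  have hO3 : {E | ∃ x ∈ B ⊔ D, E = conjBy A x} = (fun b : G => conjBy A b) '' (B : Set G) ∪ {C} := by
    ext E
    constructor
    · rintro ⟨x, hx, rfl⟩
      have hU : conjBy D x ∈ unipotentSubgroups B D := by
        rw [← hΩ]; exact ⟨x, by rw [hsup]; exact hx, rfl⟩
      rw [hconjA x hx]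
      rcases (RankOne.mem_unipotent_iff hBD).mp hU with h3 | ⟨b, hb, h3⟩
      · right; rw [h3, hPB]; rfl
      · left; exact ⟨b, hb, by rw [h3]; exact hconjA b (Subgroup.mem_sup_left hb)⟩
    · rintro (⟨b, hb, rfl⟩ | rfl)
      · exact ⟨b, Subgroup.mem_sup_left hb, rfl⟩
      · obtain ⟨x, hx, hBx⟩ := RankOne.right_mem_unipotent (RankOne.symm hBD)
        rw [hsup] at hx
        exact ⟨x, hx, by rw [hconjA x hx, ← hBx, hPB]⟩
  have hO4 : {E | ∃ x ∈ B ⊔ D, E = conjBy A x} = (fun d : G => conjBy C d) '' (D : Set G) ∪ {A} := by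
    ext E
    constructor
    · rintro ⟨x, hx, rfl⟩
      have hU : conjBy D x ∈ unipotentSubgroups D B := ⟨x, by rw [hsup]; exact hx, rfl⟩
      rw [hconjA x hx]
      rcases (RankOne.mem_unipotent_iff (RankOne.symm hBD)).mp hU with h3 | ⟨d, hd, h3⟩
      · right; rw [h3, hPD]; rfl
      · left; exact ⟨d, hd, by rw [h3]; exact hconjC d (Subgroup.mem_sup_right hd)⟩
    · rintro (⟨d, hd, rfl⟩ | rfl)
      · have hU : conjBy B d ∈ unipotentSubgroups D B := by
          rw [hΩ]; exact ⟨d, Subgroup.mem_sup_right hd, rfl⟩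
        obtain ⟨x, hx, hBx⟩ := hU
        rw [hsup] at hx
        exact ⟨x, hx, by
          change conjBy C d = conjBy A x
          rw [hconjA x hx, ← hBx, hconjC d (Subgroup.mem_sup_right hd)]⟩
      · exact ⟨1, Subgroup.one_mem _, by simp⟩
  have hO2 : {E | ∃ x ∈ B ⊔ D, E = conjBy A x} = {E | ∃ x ∈ B ⊔ D, E = conjBy C x} := by
    ext E
    constructor
    · rintro ⟨x, hx, rfl⟩
      have hU : conjBy D x ∈ unipotentSubgroups B D := by
        rw [← hΩ]; exact ⟨x, by rw [hsup]; exact hx, rfl⟩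
      obtain ⟨y, hy, hy2⟩ := hU
      exact ⟨y, hy, by rw [hconjA x hx, hy2, hconjC y hy]⟩
    · rintro ⟨x, hx, rfl⟩
      have hU : conjBy B x ∈ unipotentSubgroups D B := by
        rw [hΩ]; exact ⟨x, hx, rfl⟩
      obtain ⟨y, hy, hy2⟩ := hU
      rw [hsup] at hy
      exact ⟨y, hy, by rw [hconjC x hx, hy2, hconjA y hy]⟩
  -- disjointness
  have hdisj : ∀ x ∈ B ⊔ D, ∀ y ∈ B ⊔ D, conjBy D x ≠ conjBy D y → conjBy A x ⊓ conjBy A y = ⊥ := by
    intro x hx y hy hne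
    have hUx : conjBy D x ∈ unipotentSubgroups B D := by
      rw [← hΩ]; exact ⟨x, by rw [hsup]; exact hx, rfl⟩
    have hUy : conjBy D y ∈ unipotentSubgroups B D := by
      rw [← hΩ]; exact ⟨y, by rw [hsup]; exact hy, rfl⟩
    obtain ⟨z, hz, hz1, hz2⟩ := RankOne.exists_conj_pair hBD hUx hUy hne
    rw [hconjA x hx, hconjA y hy, hz1, hz2, ← hconjC z hz, ← hconjA z hz, ← conjBy_inf, inf_comm, hAC, conjBy_bot]
  refine ⟨hBD, hO2, hO3, hO4, ⟨?_, ?_, ?_⟩, ?_⟩
  · rintro E ⟨x, hx, rfl⟩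
    rw [← hN x hx]
    exact conjBy_mono le_sup_left x
  · intro x hx _
    rw [hO3]
    rcases S5029.cover h1 hx with h3 | ⟨b, hb, h3⟩
    · exact ⟨_, Or.inr rfl, h3⟩
    · exact ⟨_, Or.inl ⟨b, hb, rfl⟩, h3⟩
  · rintro E ⟨x, hx, rfl⟩ F ⟨y, hy, rfl⟩ hne
    apply hdisj x hx y hy
    intro he
    apply hne
    rw [hconjA x hx, hconjA y hy, he]
  · rintro x hx y hy
    obtain ⟨hxX, hxc⟩ := Subgroup.mem_inf.mp hx
    have hcen : ∀ n ∈ A ⊔ C, x * n = n * x := fun n hn => (Subgroup.mem_centralizer_iff.mp hxc n hn).symm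
    apply RankOne.central_of_normalizes_all hBD _ y hy
    intro U hU
    by_contra hne
    rw [← hΩ] at hU
    obtain ⟨z, hz, rfl⟩ := hU
    rw [hsup] at hz
    rw [conjBy_conjBy] at hne
    have h3 := hdisj (x * z) (Subgroup.mul_mem _ hxX hz) z hz hne
    have h4 : conjBy A (x * z) = conjBy A z := by
      rw [← conjBy_conjBy]
      apply conjBy_of_centralizes
      intro c hc
      apply hcen
      rw [← hN z hz]
      exact conjBy_mono le_sup_left z hc
    rw [h4, inf_idem, conjBy_eq_bot_iff] at h3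
    exact hS.ne_bot A hA h3

end Cfsg.Agent.S5036
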