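import Cfsg.Statements.S5041
import Cfsg.Agent.Lib.Helper25.RootSub5
import Cfsg.Agent.S5032

set_option autoImplicit false
open Cfsg
open Cfsg.Agent.Lib.Helper25

namespace Cfsg.Agent.S5041

theorem fconnected {G : Type*} [Group G] {S : Set (Subgroup G)} (hS : Cfsg.IsRootSubgroupClass S)
    (hnd : Cfsg.IsNondegenerateRootSet S) : IsConnectedFamily (FAdj S) S := by
  obtain ⟨A, hA, B, hB, hne, _⟩ := hnd.1
  obtain ⟨P, hP, Q, hQ, hPQ⟩ := hnd.2.1
  exact (Cfsg.Agent.S5032.result hS.1 ⟨A, hA, B, hB, hne⟩).mpr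
    ⟨hS.2, P, hP, RootSub.not_isolated_of_partner hP hQ hPQ⟩

theorem epath_of_edge {G : Type*} [Group G] {S : Set (Subgroup G)} (hS : Cfsg.IsRootSubgroupClass S)
    (hnd : Cfsg.IsNondegenerateRootSet S) {A B : Subgroup G} (hA : A ∈ S) (hB : B ∈ S) (hAB : IsRankOnePair A B) :
    Relation.ReflTransGen (EAdj S S) A B := by
  obtain ⟨C, hC⟩ := RootSub.exists_linePartner hS hnd hA
  obtain ⟨E, hE, hγ, hγ', heq, hsup⟩ := RootSub.line_structure hS.1 hA hB hAB hC
  have hEM : E ∈ membersIn S (A ⊔ C) := ⟨hE, hsup ▸ le_sup_right⟩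
  have hEA : E ≠ A := by
    rintro rfl
    exact RootSub.not_commCase_of_rankOne hAB (RootSub.commCase_symm hγ)
  have h1 : E ∈ linePartners S A := (RootSub.linePartner_of_mem hS.1 hA hB hAB hC hEM hEA).1
  obtain ⟨D, hD, hED⟩ := RootSub.partner_of_class hS hnd.2.1 E hE
  have h2 : ⁅B, E⁆ ∈ linePartners S E := by
    rw [Subgroup.commutator_comm]
    exact RootSub.commutator_mem_linePartners hS.1 hE hD hED (RootSub.commCase_symm hγ)
  have h3 : B ∈ linePartners S ⁅B, E⁆ :=
    RootSub.linePartners_symm hB (RootSub.commutator_mem_linePartners hS.1 hB hA (RankOne.symm hAB) hγ)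
  exact ((Relation.ReflTransGen.single ⟨hA, hE, h1⟩).tail ⟨hE, hγ.1, h2⟩).tail ⟨hγ.1, hB, h3⟩

/-- Let S be a non-degenerate class of abstract root subgroups of G. Then the graph on S joining A to its line partners, and the commuting graph on S, are both connected. -/
theorem result {G : Type*} [Group G] {S : Set (Subgroup G)} (hS : Cfsg.IsRootSubgroupClass S) (hnd : Cfsg.IsNondegenerateRootSet S) :
    Cfsg.IsConnectedFamily (Cfsg.EAdj S S) S ∧ Cfsg.IsConnectedFamily (Cfsg.DAdj S) S := by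
  have hE : Cfsg.IsConnectedFamily (Cfsg.EAdj S S) S := by
    intro A hA B hB
    have h := fconnected hS hnd A hA B hB
    induction h with
    | refl => exact .refl
    | tail _ hbc ih => exact (ih hbc.1).trans (epath_of_edge hS hnd hbc.1 hbc.2.1 hbc.2.2)
  refine ⟨hE, ?_⟩
  intro A hA B hB
  have hmono : ∀ X Y : Subgroup G, EAdj S S X Y → DAdj S X Y :=
    fun X Y h => ⟨h.1, h.2.1, h.2.2.1.2.1.symm, h.2.2.1.2.2⟩
  exact Relation.ReflTransGen.mono hmono _ _ (hE A hA B hB)

end Cfsg.Agent.S5041
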