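import Cfsg.Statements.S5042
import Cfsg.Agent.Lib.Helper25.RootSub6
import Cfsg.Agent.S5041

set_option autoImplicit false
open Cfsg
open Cfsg.Agent.Lib.Helper25
open scoped commutatorElement

namespace Cfsg.Agent.S5042

theorem conj_ne_of_commCase {G : Type*} [Group G] {S : Set (Subgroup G)} (hS : IsRootSubgroupSet S)
    {A F D : Subgroup G} (hA : A ∈ S) (hD : D ∈ S) (hAD : IsRankOnePair A D) (hγ : RootCommutatorCase S A F)
    {f : G} (hf : f ∈ F) (hf1 : f ≠ 1) : conjBy A f ≠ A := by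
  intro h
  apply hf1
  obtain ⟨a, ha, ha1⟩ := RankOne.exists_ne_one_left hAD
  apply RootSub.centralizer_trivial hS hA hD hAD hγ ha ha1 hf
  have hinf : A ⊓ ⁅A, F⁆ = ⊥ := (RootSub.ti hS hD hAD hγ.1).resolve_right (RootSub.ne_commutator hS hγ)
  have h1 : a * f * a⁻¹ * f⁻¹ ∈ A ⊓ ⁅A, F⁆ := by
    refine ⟨?_, Subgroup.commutator_mem_commutator ha hf⟩
    have h2 : f * a⁻¹ * f⁻¹ ∈ A := h ▸ conj_mem_conjBy (A.inv_mem ha) f
    have := A.mul_mem ha h2
    have e : a * (f * a⁻¹ * f⁻¹) = a * f * a⁻¹ * f⁻¹ := by group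
    rwa [e] at this
  rw [hinf, Subgroup.mem_bot] at h1
  have : a * f = (a * f * a⁻¹ * f⁻¹) * (f * a) := by group
  rw [this, h1, one_mul]

/-- Let S be a non-degenerate class of abstract root subgroups of G, A ∈ S and B a rank one partner of A. Then G is generated by the line partners of A together with B. -/
theorem result {G : Type*} [Group G] {S : Set (Subgroup G)} (hS : Cfsg.IsRootSubgroupClass S) (hnd : Cfsg.IsNondegenerateRootSet S)
    {A B : Subgroup G} (hA : A ∈ S) (hB : B ∈ Cfsg.rankOnePartners S A) :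
    (⨆ C ∈ Cfsg.linePartners S A, C) ⊔ B = ⊤ := by
  obtain ⟨hB, hAB⟩ := hB
  have hpart := RootSub.partner_of_class hS hnd.2.1
  have hS' := hS.1
  set G₀ : Subgroup G := (⨆ C ∈ Cfsg.linePartners S A, C) ⊔ B with hG₀
  have hΛ : ∀ C ∈ linePartners S A, C ≤ G₀ := fun C hC =>
    le_sup_of_le_left (le_iSup₂ (f := fun (E : Subgroup G) (_ : E ∈ linePartners S A) => E) C hC)
  have hBG : B ≤ G₀ := le_sup_right
  have hAG : A ≤ G₀ := by
    obtain ⟨C, hC⟩ := RootSub.exists_linePartner hS hnd hA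
    intro a ha
    by_cases ha1 : a = 1
    · rw [ha1]; exact Subgroup.one_mem _
    obtain ⟨c, hc, hc1⟩ := exists_ne_one_of_ne_bot (hS'.ne_bot C hC.1.1)
    have hAM : A ∈ membersIn S (A ⊔ C) := ⟨hA, le_sup_left⟩
    have hCM : C ∈ membersIn S (A ⊔ C) := ⟨hC.1.1, le_sup_right⟩
    have hinf : A ⊓ C = ⊥ := hC.2.2.2 A hAM C hCM hC.1.2.1.symm
    have h1 : c * a ≠ 1 := RootSub.mul_ne_one_of_inf_eq_bot hinf ha hc ha1
    obtain ⟨E, hE, hcaE⟩ := hC.2.2.1 (c * a)
      (Subgroup.mul_mem _ (Subgroup.mem_sup_right hc) (Subgroup.mem_sup_left ha)) h1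
    have hEA : E ≠ A := by
      rintro rfl
      have h2 : c ∈ E ⊓ C := ⟨by
        have := E.mul_mem hcaE (E.inv_mem ha)
        rwa [mul_inv_cancel_right] at this, hc⟩
      rw [hinf, Subgroup.mem_bot] at h2
      exact hc1 h2
    have hEl := (RootSub.linePartner_of_mem hS' hA hB hAB hC hE hEA).1
    have := G₀.mul_mem (G₀.inv_mem (hΛ C hC hc)) (hΛ E hEl hcaE)
    rwa [inv_mul_cancel_left] at this
  have hconj : ∀ C ∈ linePartners S A, ∃ g ∈ G₀, C = conjBy A g := by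
    intro C hC
    have hCS := hC.1.1
    have hM := hC.2
    have hMc := RootSub.sup_comm_of_commute hS' hA hCS hC.1.2.2
    have hAM : A ∈ membersIn S (A ⊔ C) := ⟨hA, le_sup_left⟩
    have hCM : C ∈ membersIn S (A ⊔ C) := ⟨hCS, le_sup_right⟩
    rcases hS'.pair C hCS B hB with h1 | h1 | h1
    · exact absurd h1 (RootSub.not_commute_of_line hS' hM hMc hAM hB hAB hCM hC.1.2.1)
    · obtain ⟨x, hx, hCx⟩ := RankOne.right_mem_unipotent (RankOne.symm h1)
      obtain ⟨y, hy, hBy⟩ := RankOne.right_mem_unipotent hAB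
      refine ⟨x * y, G₀.mul_mem (sup_le hBG (hΛ C hC) hx) (sup_le hAG hBG hy), ?_⟩
      rw [hCx, hBy, conjBy_conjBy]
    · have hγ := RootSub.commCase_symm h1
      obtain ⟨hγ', heq⟩ := RootSub.comm_of_line hS' hM hMc hAM hB hAB hCM hγ
      have hFG : ⁅B, C⁆ ≤ G₀ := (Subgroup.commutator_le_sup B C).trans (sup_le hBG (hΛ C hC))
      obtain ⟨Q, hQ, F', hF', hγQ, hcQ, hsupQ⟩ := RootSub.exists_transitive hS' hpart hA hC hAM
      obtain ⟨D', hD', hFD'⟩ := hpart F' hF'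
      obtain ⟨D'', hD'', hQD''⟩ := hpart Q hQ
      have hF'l : F' ∈ linePartners S A := by
        have h2 := RootSub.commutator_mem_linePartners hS' hF' hD' hFD' (RootSub.commCase_symm hγQ)
        have h3 := RootSub.linePartners_symm hF' h2
        rwa [Subgroup.commutator_comm, hcQ] at h3
      obtain ⟨f, hf, hf1⟩ := exists_ne_one_of_ne_bot (hS'.ne_bot _ hγ.1)
      have hP1 : conjBy A f ≠ A := conj_ne_of_commCase hS' hA hB hAB hγ' hf hf1
      have hPM : conjBy A f ∈ membersIn S (A ⊔ C) := by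
        refine ⟨hS'.conj_mem A hA f, ?_⟩
        have := Cfsg.Agent.S5029.conj_le (A := A) (B := ⁅B, C⁆) hf
        rwa [heq] at this
      have hs : Q ⊔ ⁅Q, F'⁆ = A ⊔ C := by rw [hcQ, hsupQ]
      obtain ⟨f', hf', hff'⟩ := RootSub.trans_of_commCase hS' hQ hD'' hQD'' hγQ (X := C) (Y := conjBy A f)
        (hs ▸ hCM) (by rw [hcQ]; exact hC.1.2.1) (hs ▸ hPM) (by rw [hcQ]; exact hP1)
      refine ⟨f'⁻¹ * f, G₀.mul_mem (G₀.inv_mem (hΛ F' hF'l hf')) (hFG hf), ?_⟩
      rw [← conjBy_conjBy, ← hff', conjBy_inv_conjBy]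
  have hall : ∀ T ∈ S, ∃ g ∈ G₀, T = conjBy A g := by
    intro T hT
    have h := (Cfsg.Agent.S5041.result hS hnd).1 A hA T hT
    induction h with
    | refl => exact ⟨1, G₀.one_mem, (conjBy_one A).symm⟩
    | @tail X Y _ hbc ih =>
      obtain ⟨g, hg, hX⟩ := ih hbc.1
      have h2 := RootSub.linePartners_conj hS' hbc.2.2 g⁻¹
      rw [hX, conjBy_inv_conjBy] at h2
      obtain ⟨g', hg', hY⟩ := hconj _ h2
      refine ⟨g * g', G₀.mul_mem hg hg', ?_⟩
      rw [← conjBy_conjBy, ← hY, conjBy_conjBy_inv]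
  rw [eq_top_iff, ← hS'.generates]
  apply iSup₂_le
  intro T hT
  obtain ⟨g, hg, rfl⟩ := hall T hT
  exact conjBy_le_of_mem hAG hg

end Cfsg.Agent.S5042
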