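import Cfsg.Statements.S5040
import Cfsg.Agent.Lib.Helper25.RootSub6
import Cfsg.Agent.S5042
import Cfsg.Agent.S5036

set_option autoImplicit false
open Cfsg
open Cfsg.Agent.Lib.Helper25
open scoped commutatorElement

namespace Cfsg.Agent.S5040

variable {G : Type*} [Group G] {S : Set (Subgroup G)}

theorem stab_of_fix {Δ : Set (Subgroup G)} (hΔ : IsWeakTISubset S Δ) {T E : Subgroup G} (hT : T ∈ Δ) (hE : E ∈ S)
    {e : G} (he : e ∈ E) (hTe : conjBy T e ∈ Δ) : ∀ X ∈ Δ, conjBy X e ∈ Δ := by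
  intro X hX
  by_cases he1 : e = 1
  · rw [he1, conjBy_one]; exact hX
  rcases hΔ.2.2.2 e ⟨he1, E, hE, he⟩ with h | h
  · rw [← h]; exact ⟨X, hX, rfl⟩
  · exact absurd hTe (Set.disjoint_left.mp h ⟨T, hT, rfl⟩)

/-- in the commutator case there is `F ∈ S` with `⁅⁅A, B⁆, F⁆ = A`. -/
theorem exists_back (hS : IsRootSubgroupSet S) (hpart : ∀ C ∈ S, ∃ D ∈ S, IsRankOnePair C D) {A B : Subgroup G}
    (hA : A ∈ S) (hγ : RootCommutatorCase S A B) :
    ∃ F ∈ S, RootCommutatorCase S ⁅A, B⁆ F ∧ ⁅⁅A, B⁆, F⁆ = A := by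
  obtain ⟨D, hD, hAD⟩ := hpart A hA
  have hC := hγ.1
  have hl : A ∈ linePartners S ⁅A, B⁆ :=
    RootSub.linePartners_symm hA (RootSub.commutator_mem_linePartners hS hA hD hAD hγ)
  obtain ⟨F₀, hF₀, hγ₀, hsup₀⟩ := RootSub.exists_transitive_aux hS hpart hC hl
  have hE : ⁅⁅A, B⁆, F₀⁆ ∈ membersIn S (A ⊔ ⁅A, B⁆) :=
    ⟨hγ₀.1, by rw [sup_comm, ← hsup₀]; exact le_sup_right⟩
  rw [Cfsg.Agent.S5029.members hS hA hD hAD hγ] at hE
  rcases hE with ⟨b, hb, hbE⟩ | h
  · have hfix : conjBy ⁅A, B⁆ b⁻¹ = ⁅A, B⁆ :=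
      conjBy_commutator_of_mem_sup A B (Subgroup.mem_sup_right (B.inv_mem hb))
    have h1 := RootSub.commCase_conj hS hC hF₀ hγ₀ b⁻¹
    rw [hfix] at h1
    refine ⟨conjBy F₀ b⁻¹, hS.conj_mem F₀ hF₀ _, h1, ?_⟩
    have h2 : conjBy ⁅⁅A, B⁆, F₀⁆ b⁻¹ = A := by
      rw [← hbE]; exact conjBy_inv_conjBy A b
    rw [conjBy_commutator, hfix] at h2
    exact h2
  · exact absurd (Set.mem_singleton_iff.mp h).symm (RootSub.ne_commutator hS hγ₀)

/-- Let S be a non-degenerate class of abstract root subgroups of G and Δ a weak TI-subset of S. Then the members of Δ commute with one another elementwise. -/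
theorem result {G : Type*} [Group G] {S : Set (Subgroup G)} (hS : Cfsg.IsRootSubgroupClass S) (hnd : Cfsg.IsNondegenerateRootSet S)
    {Δ : Set (Subgroup G)} (hΔ : Cfsg.IsWeakTISubset S Δ) : Cfsg.IsAbelianFamily Δ := by
  have hpart := RootSub.partner_of_class hS hnd.2.1
  have hS' := hS.1
  -- a rank one pair inside `Δ` is impossible
  have hno : ∀ A ∈ Δ, ∀ B ∈ Δ, ¬ IsRankOnePair A B := by
    intro A hA B hB hAB
    have hAS := hΔ.1 hA
    have hBS := hΔ.1 hB
    have hgen : (⨆ C ∈ (linePartners S A ∪ {B}), C) = ⊤ := by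
      rw [iSup_union, iSup_singleton]
      exact Cfsg.Agent.S5042.result hS hnd hAS ⟨hBS, hAB⟩
    have key := RootSub.conj_induction_generates hgen (fun T => T ∈ Δ) (by
      intro T hT E hE e he
      rcases hE with hE | hE
      · refine stab_of_fix hΔ hA hE.1.1 he ?_ T hT
        rw [conjBy_of_centralizes (fun a ha => (RootSub.commute_of_commutator_eq_bot hE.1.2.2 ha he).symm)]
        exact hA
      · rw [Set.mem_singleton_iff] at hE
        subst hE
        refine stab_of_fix hΔ hB hBS he ?_ T hT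
        rw [conjBy_of_mem he]
        exact hB)
    apply hΔ.2.2.1
    apply Set.Subset.antisymm hΔ.1
    intro T hT
    obtain ⟨g, rfl⟩ := hS.2.2 A hAS T hT
    exact key A hA g
  intro A hA B hB a ha b hb
  have hAS := hΔ.1 hA
  have hBS := hΔ.1 hB
  rcases hS'.pair A hAS B hBS with h1 | h1 | h1
  · exact RootSub.commute_of_commutator_eq_bot h1 ha hb
  · exact absurd h1 (hno A hA B hB)
  · exfalso
    obtain ⟨F, hF, hγF, hcF⟩ := exists_back hS' hpart hAS h1
    have hBF : IsRankOnePair B F :=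
      (Cfsg.Agent.S5036.result hS' hAS hBS h1.1 hF (by rw [Subgroup.commutator_comm]; exact hcF)).1
    obtain ⟨f, hf, hf1⟩ := RankOne.exists_ne_one_right hBF
    have hAf : conjBy A f = A := by
      apply conjBy_of_centralizes
      intro a' ha'
      rw [← hcF] at ha'
      exact (hγF.2.1 a' ha' f (Subgroup.mem_sup_right hf)).symm
    have hBf : conjBy B f ∈ Δ := stab_of_fix hΔ hA hF hf (by rw [hAf]; exact hA) B hB
    apply hno B hB _ hBf
    apply RankOne.pair_of_mem hBF (RankOne.left_mem_unipotent B F)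
      (RankOne.conj_mem_unipotent (RankOne.left_mem_unipotent B F) (Subgroup.mem_sup_right hf))
    intro h
    exact hf1 (RankOne.eq_one_of_normalizes (RankOne.symm hBF) hf h.symm)

end Cfsg.Agent.S5040
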