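import Cfsg.Statements.S5037
import Cfsg.Agent.Lib.Helper25.RootSub6
import Cfsg.Agent.S5040

set_option autoImplicit false
open Cfsg
open Cfsg.Agent.Lib.Helper25
open scoped commutatorElement

namespace Cfsg.Agent.S5037

variable {G : Type*} [Group G] {S : Set (Subgroup G)}

/-- symmetry principle for conjugation invariant transitive relations which never hold on rank one pairs. -/
theorem symm_principle (R : Subgroup G → Subgroup G → Prop)
    (R1 : ∀ X Y, R X Y → ∀ g : G, R (conjBy X g) (conjBy Y g))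
    (R2 : ∀ X Y Z, R X Y → R Y Z → R X Z)
    (R3 : ∀ X Y, IsRankOnePair X Y → ¬ R X Y)
    {A B C : Subgroup G} (hAC : ∀ a ∈ A, ∀ c ∈ C, a * c = c * a) (hAB : IsRankOnePair A B) (hCB : IsRankOnePair C B)
    (h : R A C) : R C A := by
  have step : ∀ c ∈ C, c ≠ 1 → ∃ b ∈ B, ∃ a ∈ A, conjBy C b = conjBy B c ∧ conjBy B a = conjBy A b ∧
      R B (conjBy B (a⁻¹ * c)) := by
    intro c hc hc1
    obtain ⟨b, hb, hb1, hcb⟩ := RankOne.cond_left' hCB hc hc1
    obtain ⟨a, ha, _, hab⟩ := RankOne.cond_right' hAB hb hb1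
    refine ⟨b, hb, a, ha, hcb, hab, ?_⟩
    have h1 := R1 _ _ h b
    rw [← hab, hcb] at h1
    have h2 := R1 _ _ h1 a⁻¹
    rwa [conjBy_inv_conjBy, conjBy_conjBy] at h2
  obtain ⟨c, hc, hc1⟩ := RankOne.exists_ne_one_left hCB
  obtain ⟨b₁, hb₁, a₁, ha₁, hcb₁, hab₁, hR₁⟩ := step c hc hc1
  obtain ⟨b₂, hb₂, a₂, ha₂, hcb₂, hab₂, hR₂⟩ := step c⁻¹ (C.inv_mem hc) (by simpa using hc1)
  have h3 := R1 _ _ hR₂ (a₁⁻¹ * c)
  rw [conjBy_conjBy] at h3
  have e : a₁⁻¹ * c * (a₂⁻¹ * c⁻¹) = a₁⁻¹ * a₂⁻¹ := by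
    have := hAC a₂⁻¹ (A.inv_mem ha₂) c hc
    rw [mul_assoc, ← mul_assoc c, ← this]; group
  rw [e] at h3
  have h4 := R2 _ _ _ hR₁ h3
  have h5 : a₁⁻¹ * a₂⁻¹ = 1 := by
    by_contra hne
    have hmem : a₁⁻¹ * a₂⁻¹ ∈ A := A.mul_mem (A.inv_mem ha₁) (A.inv_mem ha₂)
    apply R3 _ _ _ h4
    apply RankOne.pair_of_mem hAB (RankOne.right_mem_unipotent hAB)
      (RankOne.conj_mem_unipotent (RankOne.right_mem_unipotent hAB) (Subgroup.mem_sup_left hmem))
    intro h6
    exact hne (RankOne.eq_one_of_normalizes hAB hmem h6.symm)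
  rw [h5, conjBy_one] at h3
  have h6 := R1 _ _ h3 a₁
  rw [conjBy_conjBy, mul_inv_cancel_left, ← hcb₁, hab₁] at h6
  have h7 := R1 _ _ h6 b₁⁻¹
  rwa [conjBy_inv_conjBy, conjBy_inv_conjBy] at h7

theorem mem_centralizingMembers_iff {A E : Subgroup G} :
    E ∈ centralizingMembers S A ↔ E ∈ S ∧ ∀ e ∈ E, ∀ a ∈ A, e * a = a * e := by
  constructor
  · rintro ⟨h1, h2⟩
    exact ⟨h1, fun e he a ha => (Subgroup.mem_centralizer_iff.mp (h2 he) a ha).symm⟩
  · rintro ⟨h1, h2⟩
    exact ⟨h1, fun e he => Subgroup.mem_centralizer_iff.mpr (fun a ha => (h2 e he a ha).symm)⟩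

theorem centralizingMembers_conj (hS : IsRootSubgroupSet S) {A E : Subgroup G} (g : G)
    (h : E ∈ centralizingMembers S (conjBy A g)) : conjBy E g⁻¹ ∈ centralizingMembers S A := by
  rw [mem_centralizingMembers_iff] at h ⊢
  refine ⟨hS.conj_mem E h.1 _, ?_⟩
  intro e he a ha
  rw [mem_conjBy, inv_inv] at he
  have := h.2 _ he _ (conj_mem_conjBy ha g)
  have e1 : e * a = g⁻¹ * ((g * e * g⁻¹) * (g * a * g⁻¹)) * g := by group
  have e2 : a * e = g⁻¹ * ((g * a * g⁻¹) * (g * e * g⁻¹)) * g := by group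
  rw [e1, e2, this]

theorem rankOnePartners_conj (hS : IsRootSubgroupSet S) {A E : Subgroup G} (g : G)
    (h : E ∈ rankOnePartners S (conjBy A g)) : conjBy E g⁻¹ ∈ rankOnePartners S A := by
  refine ⟨hS.conj_mem E h.1 _, ?_⟩
  have := RankOne.conj h.2 g⁻¹
  rwa [conjBy_inv_conjBy] at this

theorem exists_partner_all (hS : IsRootSubgroupClass S) (hdn : IsDegenerateRootSet S ∨ IsNondegenerateRootSet S)
    {A C : Subgroup G} (hA : A ∈ S) (hC : C ∈ S) (hAC : A ≠ C) : ∀ T ∈ S, ∃ D ∈ S, IsRankOnePair T D := by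
  apply RootSub.partner_of_class hS
  rcases hdn with hd | hn
  · by_contra hcon
    push Not at hcon
    apply hAC
    obtain ⟨g, rfl⟩ := hS.2.2 A hA C hC
    have key := RootSub.conj_induction_generates hS.1.generates (fun X => X = A) (by
      rintro X rfl E hE e he
      rcases hS.1.pair X hA E hE with h1 | h1 | h1
      · exact conjBy_of_centralizes (fun c hc => (RootSub.commute_of_commutator_eq_bot h1 hc he).symm)
      · exact absurd h1 (hcon X hA E hE)
      · exact absurd h1 (hd X hA E hE)) A rfl g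
    exact key.symm
  · exact hn.2.1

/-- Let S be a class of abstract root subgroups of G that is either degenerate or non-degenerate (so either the commutator case never occurs, or all three cases occur), and A ≠ C members of S. If every member of S commuting with A commutes with C, then A and C have the same commuting members of S; and if every rank one partner of A is a rank one partner of C, then A and C commute and have the same rank one partners. -/
theorem result {G : Type*} [Group G] {S : Set (Subgroup G)} (hS : Cfsg.IsRootSubgroupClass S)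
    (hdn : Cfsg.IsDegenerateRootSet S ∨ Cfsg.IsNondegenerateRootSet S)
    {A C : Subgroup G} (hA : A ∈ S) (hC : C ∈ S) (hAC : A ≠ C) :
    (Cfsg.centralizingMembers S A ⊆ Cfsg.centralizingMembers S C →
      Cfsg.centralizingMembers S A = Cfsg.centralizingMembers S C) ∧
    (Cfsg.rankOnePartners S A ⊆ Cfsg.rankOnePartners S C →
      ⁅A, C⁆ = ⊥ ∧ Cfsg.rankOnePartners S A = Cfsg.rankOnePartners S C) := by
  have hpart := exists_partner_all hS hdn hA hC hAC
  have hS' := hS.1
  constructor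
  · intro hsub
    have hAA : A ∈ centralizingMembers S A :=
      mem_centralizingMembers_iff.mpr ⟨hA, fun e he a ha => comm_of_isMulCommutative (hS'.commutative A hA) he ha⟩
    have hcomm : ∀ a ∈ A, ∀ c ∈ C, a * c = c * a := (mem_centralizingMembers_iff.mp (hsub hAA)).2
    obtain ⟨D, hD, hCD⟩ := hpart C hC
    have hAD : IsRankOnePair A D := by
      rcases hS'.pair A hA D hD with h1 | h1 | h1
      · exfalso
        have hDA : D ∈ centralizingMembers S A := mem_centralizingMembers_iff.mpr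
          ⟨hD, fun d hd a ha => (RootSub.commute_of_commutator_eq_bot h1 ha hd).symm⟩
        obtain ⟨c, hc, hc1⟩ := RankOne.exists_ne_one_left hCD
        obtain ⟨d, hd, hd1⟩ := RankOne.exists_ne_one_right hCD
        exact RankOne.not_commute hCD hc hc1 hd hd1 ((mem_centralizingMembers_iff.mp (hsub hDA)).2 d hd c hc).symm
      · exact h1
      · exfalso
        have hFA : ⁅A, D⁆ ∈ centralizingMembers S A := mem_centralizingMembers_iff.mpr
          ⟨h1.1, fun f hf a ha => h1.2.1 f hf a (Subgroup.mem_sup_left ha)⟩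
        have hFC := (mem_centralizingMembers_iff.mp (hsub hFA)).2
        obtain ⟨c, hc, hc1⟩ := RankOne.exists_ne_one_left hCD
        obtain ⟨d, hd, hd1, hcd⟩ := RankOne.cond_left' hCD hc hc1
        obtain ⟨a, ha, ha1⟩ := exists_ne_one_of_ne_bot (hS'.ne_bot A hA)
        apply hd1
        obtain ⟨D', hD', hAD'⟩ := hpart A hA
        apply RootSub.centralizer_trivial hS' hA hD' hAD' h1 ha ha1 hd
        -- `d a d⁻¹` centralizes `C ⊔ conjBy C d = C ⊔ D`
        have hx : d * a * d⁻¹ ∈ A ⊔ ⁅A, D⁆ := Cfsg.Agent.S5029.conj_le hd (conj_mem_conjBy ha d)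
        obtain ⟨a', ha', f, hf, hx'⟩ := (mem_sup_of_commute (Cfsg.Agent.S5029.comm_left h1)).mp hx
        have hc1' : ∀ c' ∈ C, (d * a * d⁻¹) * c' = c' * (d * a * d⁻¹) := by
          intro c' hc'
          rw [← hx', mul_assoc, hFC f hf c' hc', ← mul_assoc, hcomm a' ha' c' hc', mul_assoc]
        have hc2 : ∀ c' ∈ conjBy C d, (d * a * d⁻¹) * c' = c' * (d * a * d⁻¹) := by
          intro c' hc'
          rw [mem_conjBy] at hc'
          have := hcomm a ha _ hc'
          have e1 : d * a * d⁻¹ * c' = d * (a * (d⁻¹ * c' * d)) * d⁻¹ := by group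
          have e2 : c' * (d * a * d⁻¹) = d * ((d⁻¹ * c' * d) * a) * d⁻¹ := by group
          rw [e1, e2, this]
        have hz := RootSub.mem_centralizer_sup hc1' hc2
        have hsup : C ⊔ conjBy C d = C ⊔ D :=
          RankOne.sup_of_mem hCD (RankOne.left_mem_unipotent C D)
            (RankOne.conj_mem_unipotent (RankOne.left_mem_unipotent C D) (Subgroup.mem_sup_right hd))
            (fun h => hd1 (RankOne.eq_one_of_normalizes (RankOne.symm hCD) hd h.symm))
        rw [hsup] at hz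
        have h2 := Subgroup.mem_centralizer_iff.mp hz d (Subgroup.mem_sup_right hd)
        have e3 : a * d = d⁻¹ * (d * a * d⁻¹ * d) * d := by group
        rw [e3, ← h2]; group
    apply Set.Subset.antisymm hsub
    refine (symm_principle (fun X Y => X ∈ S ∧ Y ∈ S ∧ centralizingMembers S X ⊆ centralizingMembers S Y)
      ?_ ?_ ?_ hcomm hAD hCD ⟨hA, hC, hsub⟩).2.2
    · rintro X Y ⟨hX, hY, hXY⟩ g
      refine ⟨hS'.conj_mem X hX g, hS'.conj_mem Y hY g, ?_⟩
      intro E hE
      have h1 := hXY (centralizingMembers_conj hS' g hE)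
      have h2 := centralizingMembers_conj hS' (A := conjBy Y g) (E := conjBy E g⁻¹) g⁻¹
        (by rw [conjBy_inv_conjBy]; exact h1)
      rwa [inv_inv, conjBy_conjBy_inv] at h2
    · rintro X Y Z ⟨hX, _, h1⟩ ⟨_, hZ, h2⟩
      exact ⟨hX, hZ, h1.trans h2⟩
    · rintro X Y hXY ⟨hX, hY, hsub'⟩
      have hXX : X ∈ centralizingMembers S X :=
        mem_centralizingMembers_iff.mpr ⟨hX, fun e he a ha => comm_of_isMulCommutative (hS'.commutative X hX) he ha⟩
      obtain ⟨x, hx, hx1⟩ := RankOne.exists_ne_one_left hXY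
      obtain ⟨y, hy, hy1⟩ := RankOne.exists_ne_one_right hXY
      exact RankOne.not_commute hXY hx hx1 hy hy1 ((mem_centralizingMembers_iff.mp (hsub' hXX)).2 x hx y hy)
  · intro hsub
    have hcomm0 : ⁅A, C⁆ = ⊥ := by
      rcases hS'.pair A hA C hC with h1 | h1 | h1
      · exact h1
      · exact absurd rfl (hsub ⟨hC, h1⟩).2.ne
      · exfalso
        have h2 := RootSub.commCase_symm h1
        obtain ⟨F, hF, hγF, hcF⟩ := Cfsg.Agent.S5040.exists_back hS' hpart hC h2
        have hAF : IsRankOnePair A F :=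
          (Cfsg.Agent.S5036.result hS' hC hA h2.1 hF (by rw [Subgroup.commutator_comm]; exact hcF)).1
        have hCF := (hsub ⟨hF, hAF⟩).2
        obtain ⟨c, hc, hc1⟩ := RankOne.exists_ne_one_left hCF
        obtain ⟨f, hf, hf1⟩ := RankOne.exists_ne_one_right hCF
        apply RankOne.not_commute hCF hc hc1 hf hf1
        have hc' : c ∈ ⁅⁅C, A⁆, F⁆ := by rw [hcF]; exact hc
        exact hγF.2.1 c hc' f (Subgroup.mem_sup_right hf)
    refine ⟨hcomm0, ?_⟩
    have hcomm : ∀ a ∈ A, ∀ c ∈ C, a * c = c * a := fun a ha c hc => RootSub.commute_of_commutator_eq_bot hcomm0 ha hc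
    obtain ⟨B, hB, hAB⟩ := hpart A hA
    have hCB := (hsub ⟨hB, hAB⟩).2
    apply Set.Subset.antisymm hsub
    refine (symm_principle (fun X Y => X ∈ S ∧ Y ∈ S ∧ rankOnePartners S X ⊆ rankOnePartners S Y)
      ?_ ?_ ?_ hcomm hAB hCB ⟨hA, hC, hsub⟩).2.2
    · rintro X Y ⟨hX, hY, hXY⟩ g
      refine ⟨hS'.conj_mem X hX g, hS'.conj_mem Y hY g, ?_⟩
      intro E hE
      have h1 := hXY (rankOnePartners_conj hS' g hE)
      have h2 := rankOnePartners_conj hS' (A := conjBy Y g) (E := conjBy E g⁻¹) g⁻¹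
        (by rw [conjBy_inv_conjBy]; exact h1)
      rwa [inv_inv, conjBy_conjBy_inv] at h2
    · rintro X Y Z ⟨hX, _, h1⟩ ⟨_, hZ, h2⟩
      exact ⟨hX, hZ, h1.trans h2⟩
    · rintro X Y hXY ⟨hX, hY, hsub'⟩
      exact absurd rfl (hsub' ⟨hY, hXY⟩).2.ne

end Cfsg.Agent.S5037
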