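import Cfsg.Statements.S5033
import Cfsg.Agent.Lib.Helper25.RootSub6
import Cfsg.Agent.Lib.Helper25.Special2
import Cfsg.Agent.S5032
import Cfsg.Agent.S5037

set_option autoImplicit false
open Cfsg
open Cfsg.Agent.Lib.Helper25
open scoped commutatorElement

namespace Cfsg.Agent.S5033

variable {G : Type*} [Group G] {S : Set (Subgroup G)}

theorem le_of_map_eq_bot {N K : Subgroup G} [N.Normal] (h : K.map (QuotientGroup.mk' N) = ⊥) : K ≤ N := by
  intro x hx
  have : QuotientGroup.mk' N x ∈ K.map (QuotientGroup.mk' N) := Subgroup.mem_map_of_mem _ hx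
  rw [h, Subgroup.mem_bot] at this
  exact (QuotientGroup.eq_one_iff x).mp this

theorem map_eq_bot_of_le {N K : Subgroup G} [N.Normal] (h : K ≤ N) : K.map (QuotientGroup.mk' N) = ⊥ := by
  rw [eq_bot_iff]
  rintro _ ⟨x, hx, rfl⟩
  exact Subgroup.mem_bot.mpr ((QuotientGroup.eq_one_iff x).mpr (h hx))

theorem commutator_sup_le {T C N : Subgroup G} (hN : N.Normal) (hT : IsMulCommutative T) (hC : IsMulCommutative C)
    (hTC : ⁅T, C⁆ ≤ N) : ⁅T ⊔ C, T ⊔ C⁆ ≤ N := by
  apply le_of_map_eq_bot
  rw [Subgroup.map_commutator, Subgroup.map_sup]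
  set T' := T.map (QuotientGroup.mk' N)
  set C' := C.map (QuotientGroup.mk' N)
  have h1 : ⁅T', C'⁆ = ⊥ := by
    rw [← Subgroup.map_commutator]; exact map_eq_bot_of_le hTC
  have hT' : ∀ x ∈ T', ∀ y ∈ T', x * y = y * x := by
    rintro _ ⟨x, hx, rfl⟩ _ ⟨y, hy, rfl⟩
    rw [← map_mul, ← map_mul, comm_of_isMulCommutative hT hx hy]
  have hC' : ∀ x ∈ C', ∀ y ∈ C', x * y = y * x := by
    rintro _ ⟨x, hx, rfl⟩ _ ⟨y, hy, rfl⟩
    rw [← map_mul, ← map_mul, comm_of_isMulCommutative hC hx hy]
  have hTC' : ∀ x ∈ T', ∀ y ∈ C', x * y = y * x := fun x hx y hy => RootSub.commute_of_commutator_eq_bot h1 hx hy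
  rw [Subgroup.commutator_eq_bot_iff_le_centralizer, sup_le_iff]
  exact ⟨fun x hx => RootSub.mem_centralizer_sup (hT' x hx) (hTC' x hx),
    fun x hx => RootSub.mem_centralizer_sup (fun y hy => (hTC' y hy x hx).symm) (hC' x hx)⟩

theorem nondeg_of_not_deg (hS : IsRootSubgroupSet S) (hd : ¬ IsDegenerateRootSet S) {A B : Subgroup G} (hA : A ∈ S)
    (hB : B ∈ S) (hAB : IsRankOnePair A B) : IsNondegenerateRootSet S := by
  unfold IsDegenerateRootSet at hd
  push Not at hd
  obtain ⟨P, hP, Q, hQ, hγ⟩ := hd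
  refine ⟨⟨P, hP, ⁅P, Q⁆, hγ.1, RootSub.ne_commutator hS hγ, ?_⟩, ⟨A, hA, B, hB, hAB⟩, ⟨P, hP, Q, hQ, hγ⟩⟩
  exact RootSub.commutator_eq_bot_of_commute (Cfsg.Agent.S5029.comm_left hγ)

/-- K5 -/
theorem exists_inf_ne_bot (hS : IsRootSubgroupClass S) (h3 : IsDegenerateRootSet S → ∀ A ∈ S, 3 < ENat.card A)
    (h4 : ∀ A ∈ S, ∀ B ∈ rankOnePartners S A, IsSpecialRankOnePair A B) {A B N : Subgroup G} (hA : A ∈ S) (hB : B ∈ S)
    (hAB : IsRankOnePair A B) (hN : N.Normal) (hle : ⁅A ⊔ B, A ⊔ B⁆ ≤ N) : ∃ E ∈ S, E ⊓ N ≠ ⊥ := by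
  by_cases hdeg : IsDegenerateRootSet S
  · refine ⟨A, hA, ?_⟩
    have h1 : A ≤ N := (Special.le_commutator_of_card (h4 A hA B ⟨hB, hAB⟩)
      ⟨hS.1.commutative A hA, hS.1.commutative B hB⟩ (h3 hdeg A hA)).trans hle
    rw [inf_eq_left.mpr h1]
    exact hS.1.ne_bot A hA
  · have hnd := nondeg_of_not_deg hS.1 hdeg hA hB hAB
    obtain ⟨C, hC⟩ := RootSub.exists_linePartner hS hnd hA
    obtain ⟨E, hE, hγ, hγ', heq, hsup⟩ := RootSub.line_structure hS.1 hA hB hAB hC
    refine ⟨E, hE, ?_⟩
    have hEM : E ∈ membersIn S (A ⊔ C) := ⟨hE, hsup ▸ le_sup_right⟩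
    have hEA : E ≠ A := by
      rintro rfl
      exact RootSub.not_commCase_of_rankOne hAB (RootSub.commCase_symm hγ)
    have hEl := (RootSub.linePartner_of_mem hS.1 hA hB hAB hC hEM hEA).1
    have hAE : ⁅A, E⁆ = ⊥ := hEl.1.2.2
    have hABN : ⁅A, B⁆ ≤ N := (Subgroup.commutator_mono le_sup_left le_sup_right).trans hle
    have h1 : ⁅⁅B, E⁆, A⁆ ≤ N := by
      apply le_of_map_eq_bot
      rw [Subgroup.map_commutator, Subgroup.map_commutator]
      apply Subgroup.commutator_commutator_eq_bot_of_rotate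
      · rw [← Subgroup.map_commutator, Subgroup.commutator_comm E A, hAE, Subgroup.map_bot,
          Subgroup.commutator_bot_left]
      · rw [← Subgroup.map_commutator, map_eq_bot_of_le hABN, Subgroup.commutator_bot_left]
    rw [Subgroup.commutator_comm, heq] at h1
    rw [inf_eq_left.mpr h1]
    exact hS.1.ne_bot E hE

/-- normal subgroups are central or cover `G` together with any member. -/
theorem claimN (hS : IsRootSubgroupClass S) (h1 : IsConnectedFamily (FAdj S) S)
    (h2' : ∀ A ∈ S, ∀ C ∈ S, A ≠ C → centralizingMembers S A ≠ centralizingMembers S C)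
    (h3 : IsDegenerateRootSet S → ∀ A ∈ S, 3 < ENat.card A)
    (h4 : ∀ A ∈ S, ∀ B ∈ rankOnePartners S A, IsSpecialRankOnePair A B) {N : Subgroup G} (hN : N.Normal) :
    N ≤ Subgroup.center G ∨ ∀ A ∈ S, N ⊔ A = ⊤ := by
  have hS' := hS.1
  by_cases hcase : ∃ E ∈ S, E ⊓ N ≠ ⊥
  · right
    obtain ⟨E, hE, hEN⟩ := hcase
    have hall : ∀ A ∈ S, A ⊓ N ≠ ⊥ := by
      intro A hA
      obtain ⟨g, rfl⟩ := hS.2.2 E hE A hA
      have : conjBy E g ⊓ N = conjBy (E ⊓ N) g := by rw [conjBy_inf, conjBy_of_normal hN]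
      rw [this]
      exact fun h => hEN (conjBy_eq_bot_iff.mp h)
    have hstep : ∀ A ∈ S, ∀ B ∈ S, IsRankOnePair A B → A ≤ N ⊔ B := by
      intro A hA B hB hAB
      obtain ⟨a, ha, ha1⟩ := exists_ne_one_of_ne_bot (hall A hA)
      obtain ⟨b, hb, _, hab⟩ := hAB.cond_left a ha.1 ha1
      have : A = conjBy B (b * a⁻¹) := by
        rw [← conjBy_conjBy, ← hab, conjBy_conjBy_inv]
      rw [this]
      exact conjBy_le_of_mem le_sup_right
        (Subgroup.mul_mem _ (Subgroup.mem_sup_right hb) (Subgroup.mem_sup_left (N.inv_mem ha.2)))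
    have hreach : ∀ A B : Subgroup G, Relation.ReflTransGen (FAdj S) A B → N ⊔ A = N ⊔ B := by
      intro A B h
      induction h with
      | refl => rfl
      | tail _ hbc ih =>
        rw [ih]
        apply le_antisymm
        · exact sup_le le_sup_left (hstep _ hbc.1 _ hbc.2.1 hbc.2.2)
        · exact sup_le le_sup_left (hstep _ hbc.2.1 _ hbc.1 (RankOne.symm hbc.2.2))
    intro A hA
    rw [eq_top_iff, ← hS'.generates]
    apply iSup₂_le
    intro B hB
    rw [hreach A B (h1 A hA B hB)]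
    exact le_sup_right
  · left
    push Not at hcase
    -- F2
    have F2 : ∀ A ∈ S, ∀ n ∈ N, ∀ T ∈ S, (∀ t ∈ T, ∀ a ∈ A, t * a = a * t) →
        ∀ t ∈ T, ∀ c ∈ conjBy A n, t * c = c * t := by
      intro A hA n hn T hT hTA
      have hC : conjBy A n ∈ S := hS'.conj_mem A hA n
      have hTC : ⁅T, conjBy A n⁆ ≤ N := by
        rw [Subgroup.commutator_le]
        intro t ht c hc
        rw [mem_conjBy] at hc
        set a := n⁻¹ * c * n with ha
        have hm : c * a⁻¹ ∈ N := by
          have e : c * a⁻¹ = (c * n⁻¹ * c⁻¹) * n := by rw [ha]; group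
          rw [e]
          exact N.mul_mem (hN.conj_mem _ (N.inv_mem hn) c) hn
        have e : ⁅t, c⁆ = (t * (c * a⁻¹) * t⁻¹) * (c * a⁻¹)⁻¹ := by
          have h5 : t * a = a * t := hTA t ht a hc
          have h6 : a * t⁻¹ * a⁻¹ = t⁻¹ := by
            have : a * t⁻¹ = t⁻¹ * a := by
              have := congrArg (fun x => t⁻¹ * x * t⁻¹) h5
              simp only [mul_assoc, inv_mul_cancel_left, mul_inv_cancel, mul_one] at this
              exact this
            rw [this]; group
          have e2 : ⁅t, c⁆ = t * (c * a⁻¹) * (a * t⁻¹ * a⁻¹) * (c * a⁻¹)⁻¹ := by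
            rw [commutatorElement_def]; group
          rw [e2, h6]
        rw [e]
        exact N.mul_mem (hN.conj_mem _ hm t) (N.inv_mem hm)
      rcases hS'.pair T hT _ hC with h5 | h5 | h5
      · exact fun t ht c hc => RootSub.commute_of_commutator_eq_bot h5 ht hc
      · exfalso
        obtain ⟨E, hE, hEN⟩ := exists_inf_ne_bot hS h3 h4 hT hC h5 hN
          (commutator_sup_le hN (hS'.commutative T hT) (hS'.commutative _ hC) hTC)
        exact hEN (hcase E hE)
      · exfalso
        have := hcase _ h5.1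
        rw [inf_eq_left.mpr hTC] at this
        exact hS'.ne_bot _ h5.1 this
    have hnorm : ∀ A ∈ S, ∀ n ∈ N, conjBy A n = A := by
      intro A hA n hn
      by_contra hne
      apply h2' A hA _ (hS'.conj_mem A hA n) (Ne.symm hne)
      ext T
      rw [Cfsg.Agent.S5037.mem_centralizingMembers_iff, Cfsg.Agent.S5037.mem_centralizingMembers_iff]
      constructor
      · rintro ⟨hT, h⟩
        exact ⟨hT, F2 A hA n hn T hT h⟩
      · rintro ⟨hT, h⟩
        refine ⟨hT, ?_⟩
        have := F2 _ (hS'.conj_mem A hA n) n⁻¹ (N.inv_mem hn) T hT h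
        rwa [conjBy_inv_conjBy] at this
    intro n hn
    have hcen : ∀ A ∈ S, A ≤ Subgroup.centralizer {n} := by
      intro A hA a ha
      rw [Subgroup.mem_centralizer_iff]
      intro y hy
      rw [Set.mem_singleton_iff.mp hy]
      have h5 : n * a * n⁻¹ * a⁻¹ ∈ A ⊓ N := by
        constructor
        · have := conj_mem_conjBy ha n
          rw [hnorm A hA n hn] at this
          exact A.mul_mem this (A.inv_mem ha)
        · have e : n * a * n⁻¹ * a⁻¹ = n * (a * n⁻¹ * a⁻¹) := by group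
          rw [e]
          exact N.mul_mem hn (hN.conj_mem _ (N.inv_mem hn) a)
      rw [hcase A hA, Subgroup.mem_bot] at h5
      have e : n * a = (n * a * n⁻¹ * a⁻¹) * (a * n) := by group
      rw [e, h5, one_mul]
    have htop : (⊤ : Subgroup G) ≤ Subgroup.centralizer {n} := by
      rw [← hS'.generates]
      exact iSup₂_le hcen
    rw [Subgroup.mem_center_iff]
    intro g
    exact (Subgroup.mem_centralizer_iff.mp (htop (Subgroup.mem_top g)) n rfl).symm

theorem eq_top_of_sup_eq_top {N A : Subgroup G} (hN : N.Normal) (hperf : Group.IsPerfect G)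
    (hA : Group.IsNilpotent A) (h : N ⊔ A = ⊤) : N = ⊤ := by
  have hs : Function.Surjective ((QuotientGroup.mk' N).comp A.subtype) := by
    intro y
    obtain ⟨x, rfl⟩ := QuotientGroup.mk'_surjective N y
    have hx : x ∈ A ⊔ N := by rw [sup_comm, h]; trivial
    obtain ⟨a, ha, n, hn, rfl⟩ := Subgroup.mem_sup_of_normal_right.mp hx
    refine ⟨⟨a, ha⟩, ?_⟩
    simp only [MonoidHom.comp_apply, Subgroup.subtype_apply, QuotientGroup.mk'_apply]
    rw [QuotientGroup.eq]
    simpa using hn
  have hnil : Group.IsNilpotent (G ⧸ N) := Group.nilpotent_of_surjective _ hs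
  have hsub : Subsingleton (G ⧸ N) := by
    by_contra hcon
    rw [not_subsingleton_iff_nontrivial] at hcon
    exact Group.IsPerfect.not_isNilpotent (G ⧸ N) hnil
  rwa [QuotientGroup.subsingleton_iff] at hsub

theorem quasisimple_of_dichotomy {H : Type*} [Group H] (hperf : Group.IsPerfect H) (hne : Subgroup.center H ≠ ⊤)
    (hd : ∀ M : Subgroup H, M.Normal → M ≤ Subgroup.center H ∨ M = ⊤) : IsQuasisimple H := by
  refine ⟨hperf, ?_⟩
  haveI : Nontrivial (H ⧸ Subgroup.center H) := by
    rw [QuotientGroup.nontrivial_iff]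
    exact hne
  refine ⟨fun K hK => ?_⟩
  have hsurj : Function.Surjective (QuotientGroup.mk' (Subgroup.center H)) := QuotientGroup.mk'_surjective _
  have hNn : (K.comap (QuotientGroup.mk' (Subgroup.center H))).Normal := hK.comap _
  rcases hd _ hNn with h1 | h1
  · left
    rw [← Subgroup.map_comap_eq_self_of_surjective hsurj K]
    rw [eq_bot_iff]
    rintro _ ⟨x, hx, rfl⟩
    rw [Subgroup.mem_bot]
    exact (QuotientGroup.eq_one_iff x).mpr (h1 hx)
  · right
    rw [← Subgroup.map_comap_eq_self_of_surjective hsurj K, h1]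
    exact Subgroup.map_top_of_surjective _ hsurj

/-- Quasisimplicity criterion for groups generated by abstract root subgroups. Let S be a set of abstract root subgroups of G with more than one member such that: the graph of rank one pairs on S is connected; no two different members of S have the same set of commuting members of S; if S is degenerate then every member of S has more than three elements; and every rank one pair in S is special. Then for every A ∈ S one has G = G' A with A ∩ G' ≠ 1, and the commutator subgroup G' is quasisimple. Moreover G is perfect if S is non-degenerate, or if some rank one pair A, B in S generates a perfect group. -/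
theorem result {G : Type*} [Group G] {S : Set (Subgroup G)} (hS : Cfsg.IsRootSubgroupSet S) (h2 : ∃ A ∈ S, ∃ B ∈ S, A ≠ B)
    (h1 : Cfsg.IsConnectedFamily (Cfsg.FAdj S) S)
    (h2' : ∀ A ∈ S, ∀ C ∈ S, A ≠ C → Cfsg.centralizingMembers S A ≠ Cfsg.centralizingMembers S C)
    (h3 : Cfsg.IsDegenerateRootSet S → ∀ A ∈ S, 3 < ENat.card A)
    (h4 : ∀ A ∈ S, ∀ B ∈ Cfsg.rankOnePartners S A, Cfsg.IsSpecialRankOnePair A B) :
    (∀ A ∈ S, commutator G ⊔ A = ⊤ ∧ A ⊓ commutator G ≠ ⊥) ∧ Cfsg.IsQuasisimple ↥(commutator G) ∧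
    (Cfsg.IsNondegenerateRootSet S → commutator G = ⊤) ∧
    ((∃ A ∈ S, ∃ B ∈ Cfsg.rankOnePartners S A, Group.IsPerfect ↥(A ⊔ B)) → commutator G = ⊤) := by
  obtain ⟨hconj, A₀, hA₀, hiso⟩ := (Cfsg.Agent.S5032.result hS h2).mp h1
  have hcl : IsRootSubgroupClass S := ⟨hS, hconj⟩
  obtain ⟨B₀, hB₀, hAB₀⟩ := RootSub.exists_partner hiso hA₀
  have hpart := RootSub.partner_of_class hcl ⟨A₀, hA₀, B₀, hB₀, hAB₀⟩
  have hperf : commutator G = ⊤ := by
    rw [eq_top_iff, ← hS.generates]
    apply iSup₂_le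
    intro A hA
    by_cases hdeg : IsDegenerateRootSet S
    · obtain ⟨B, hB, hAB⟩ := hpart A hA
      refine (Special.le_commutator_of_card (h4 A hA B ⟨hB, hAB⟩)
        ⟨hS.commutative A hA, hS.commutative B hB⟩ (h3 hdeg A hA)).trans ?_
      rw [commutator_def]
      exact Subgroup.commutator_mono le_top le_top
    · unfold IsDegenerateRootSet at hdeg
      push Not at hdeg
      obtain ⟨P, hP, Q, hQ, hγ⟩ := hdeg
      obtain ⟨g, rfl⟩ := hconj.2 _ hγ.1 A hA
      have h5 : ⁅P, Q⁆ ≤ commutator G := by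
        rw [commutator_def]
        exact Subgroup.commutator_mono le_top le_top
      have h6 := conjBy_mono h5 g
      rwa [conjBy_of_normal (inferInstance : (commutator G).Normal)] at h6
  have hperf' : Group.IsPerfect G := ⟨hperf⟩
  refine ⟨?_, ?_, fun _ => hperf, fun _ => hperf⟩
  · intro A hA
    rw [hperf]
    exact ⟨top_sup_eq A, by rw [inf_top_eq]; exact hS.ne_bot A hA⟩
  · rw [hperf]
    apply quasisimple_of_dichotomy inferInstance
    · intro htop
      obtain ⟨a, ha, ha1⟩ := RankOne.exists_ne_one_left hAB₀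
      obtain ⟨b, hb, hb1⟩ := RankOne.exists_ne_one_right hAB₀
      apply RankOne.not_commute hAB₀ ha ha1 hb hb1
      have h5 : (⟨a, trivial⟩ : (⊤ : Subgroup G)) ∈ Subgroup.center (⊤ : Subgroup G) := by rw [htop]; trivial
      have h6 := Subgroup.mem_center_iff.mp h5 ⟨b, trivial⟩
      exact (congrArg Subtype.val h6).symm
    · intro M hM
      have hsurj : Function.Surjective (Subgroup.subtype (⊤ : Subgroup G)) := fun g => ⟨⟨g, trivial⟩, rfl⟩
      have hM' : (M.map (Subgroup.subtype (⊤ : Subgroup G))).Normal := hM.map _ hsurj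
      rcases claimN hcl h1 h2' h3 h4 hM' with h5 | h5
      · left
        intro m hm
        rw [Subgroup.mem_center_iff]
        intro x
        apply Subtype.ext
        have h6 : (m : G) ∈ Subgroup.center G := h5 ⟨m, hm, rfl⟩
        exact Subgroup.mem_center_iff.mp h6 x
      · right
        have h6 := eq_top_of_sup_eq_top hM' hperf' hAB₀.nilpotent_left (h5 A₀ hA₀)
        rw [eq_top_iff]
        intro x _
        have h7 : (x : G) ∈ M.map (Subgroup.subtype (⊤ : Subgroup G)) := by rw [h6]; trivial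
        obtain ⟨m, hm, hmx⟩ := h7
        have : m = x := Subtype.ext hmx
        rw [← this]; exact hm

end Cfsg.Agent.S5033
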