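import Cfsg.Statements.S5034
import Cfsg.Agent.Lib.Helper25.RootSub5
import Cfsg.Agent.Lib.Helper25.Transfer

set_option autoImplicit false
open Cfsg
open Cfsg.Agent.Lib.Helper25
open scoped commutatorElement

namespace Cfsg.Agent.S5034

/-- a rank one pair `(A, B)` in a set of abstract root subgroups for which `A` has a line partner is special. -/
theorem special_of_linePartner {G : Type*} [Group G] {S : Set (Subgroup G)} (hS : IsRootSubgroupSet S)
    {A B C : Subgroup G} (hA : A ∈ S) (hB : B ∈ S) (hAB : IsRankOnePair A B) (hC : C ∈ linePartners S A) :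
    IsSpecialRankOnePair A B := by
  obtain ⟨E, hE, hγ, hγ', heq, hsup⟩ := RootSub.line_structure hS hA hB hAB hC
  have hF : ⁅B, E⁆ ∈ S := hγ.1
  have hEM : E ∈ membersIn S (A ⊔ C) := ⟨hE, hsup ▸ le_sup_right⟩
  have hEA : E ≠ A := by
    rintro rfl
    exact RootSub.not_commCase_of_rankOne hAB (RootSub.commCase_symm hγ)
  have hEl := (RootSub.linePartner_of_mem hS hA hB hAB hC hEM hEA).1
  have hAE : ∀ a ∈ A, ∀ e ∈ E, a * e = e * a := fun a ha e he => RootSub.commute_of_commutator_eq_bot hEl.1.2.2 ha he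
  have hFE : ∀ f ∈ ⁅B, E⁆, ∀ e ∈ E, f * e = e * f := fun f hf e he => hγ.2.1 f hf e (Subgroup.mem_sup_right he)
  have hEF : ⁅E, ⁅B, E⁆⁆ = ⊥ := RootSub.commutator_eq_bot_of_commute (fun e he f hf => (hFE f hf e he).symm)
  have hMc := RootSub.sup_comm_of_commute hS hE hF hEF
  have hnA : ∀ a ∈ A, conjBy (E ⊔ ⁅B, E⁆) a ≤ E ⊔ ⁅B, E⁆ := by
    intro a ha
    rw [conjBy_sup, conjBy_of_centralizes (fun e he => hAE a ha e he)]
    apply sup_le le_sup_left
    have := Cfsg.Agent.S5029.conj_le (A := ⁅B, E⁆) (B := A) ha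
    rw [Subgroup.commutator_comm ⁅B, E⁆ A, heq, sup_comm] at this
    exact this
  have hnB : ∀ b ∈ B, conjBy (E ⊔ ⁅B, E⁆) b ≤ E ⊔ ⁅B, E⁆ := by
    intro b hb
    rw [conjBy_sup, conjBy_of_centralizes (C := ⁅B, E⁆)
      (fun f hf => (hγ.2.1 f hf b (Subgroup.mem_sup_left hb)).symm)]
    apply sup_le _ le_sup_right
    have := Cfsg.Agent.S5029.conj_le (A := E) (B := B) hb
    rw [Subgroup.commutator_comm E B] at this
    exact this
  have hn : ∀ x ∈ A ⊔ B, conjBy (E ⊔ ⁅B, E⁆) x ≤ E ⊔ ⁅B, E⁆ := by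
    intro x hx
    exact conj_induction_sup (fun K => K ≤ E ⊔ ⁅B, E⁆)
      (fun a ha K hK => (conjBy_mono hK a).trans (hnA a ha))
      (fun b hb K hK => (conjBy_mono hK b).trans (hnB b hb)) x hx _ le_rfl
  apply Transfer.special_of_quadratic_action (M := E ⊔ ⁅B, E⁆) hAB ⟨hS.commutative A hA, hS.commutative B hB⟩ hMc
  · intro x hx m hm
    exact hn x hx (conj_mem_conjBy hm x)
  · intro a ha a' ha' m hm
    obtain ⟨e, he, f, hf, rfl⟩ := (mem_sup_of_commute (fun e he f hf => (hFE f hf e he).symm)).mp hm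
    have h1 : ⁅a, f⁆ ∈ E := heq ▸ Subgroup.commutator_mem_commutator ha hf
    have e1 : a * (e * f) * a⁻¹ * (e * f)⁻¹ = ⁅a, f⁆ := by
      have c1 : a * e = e * a := hAE a ha e he
      have c2 : e * ⁅a, f⁆ = ⁅a, f⁆ * e := comm_of_isMulCommutative (hS.commutative E hE) he h1
      have e2 : a * (e * f) * a⁻¹ * (e * f)⁻¹ = (a * e) * f * a⁻¹ * f⁻¹ * e⁻¹ := by group
      have e3 : e * a * f * a⁻¹ * f⁻¹ * e⁻¹ = e * ⁅a, f⁆ * e⁻¹ := by rw [commutatorElement_def]; group
      rw [e2, c1, e3, c2]; group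
    rw [e1, hAE a' ha' _ h1]; group
  · obtain ⟨e, he, he1⟩ := exists_ne_one_of_ne_bot (hS.ne_bot E hE)
    obtain ⟨b, hb, hb1⟩ := RankOne.exists_ne_one_right hAB
    obtain ⟨a, ha, ha1⟩ := RankOne.exists_ne_one_left hAB
    refine ⟨b, Subgroup.mem_sup_right hb, a, Subgroup.mem_sup_left ha, e, Subgroup.mem_sup_left he, ?_⟩
    intro h
    have hf : b * e * b⁻¹ * e⁻¹ ∈ ⁅B, E⁆ := Subgroup.commutator_mem_commutator hb he
    have h2 : a * (b * e * b⁻¹ * e⁻¹) = (b * e * b⁻¹ * e⁻¹) * a := by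
      conv_rhs => rw [← h]
      group
    have h3 := RootSub.centralizer_trivial hS hA hB hAB hγ' ha ha1 hf h2
    apply he1
    apply RootSub.centralizer_trivial hS hB hA (RankOne.symm hAB) hγ hb hb1 he
    have : b * e = (b * e * b⁻¹ * e⁻¹) * (e * b) := by group
    rw [this, h3, one_mul]

/-- Let S be a non-degenerate class of abstract root subgroups of G, A ∈ S and B a rank one partner of A. Then some line partner C of A has ⁅B, C⁆ ∈ S, and the rank one pair A, B is special. -/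
theorem result {G : Type*} [Group G] {S : Set (Subgroup G)} (hS : Cfsg.IsRootSubgroupClass S) (hnd : Cfsg.IsNondegenerateRootSet S)
    {A B : Subgroup G} (hA : A ∈ S) (hB : B ∈ Cfsg.rankOnePartners S A) :
    (∃ C ∈ Cfsg.linePartners S A, C ∈ Cfsg.commutatorPartners S B) ∧ Cfsg.IsSpecialRankOnePair A B := by
  obtain ⟨C, hC⟩ := RootSub.exists_linePartner hS hnd hA
  refine ⟨?_, special_of_linePartner hS.1 hA hB.1 hB.2 hC⟩
  obtain ⟨E, hE, hγ, hγ', heq, hsup⟩ := RootSub.line_structure hS.1 hA hB.1 hB.2 hC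
  have hEM : E ∈ membersIn S (A ⊔ C) := ⟨hE, hsup ▸ le_sup_right⟩
  have hEA : E ≠ A := by
    rintro rfl
    exact RootSub.not_commCase_of_rankOne hB.2 (RootSub.commCase_symm hγ)
  exact ⟨E, (RootSub.linePartner_of_mem hS.1 hA hB.1 hB.2 hC hEM hEA).1, hE, hγ.1⟩

end Cfsg.Agent.S5034
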