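import Cfsg.Statements.S5035
import Cfsg.Agent.Lib.Helper25.RootSub4
import Cfsg.Agent.S5032

set_option autoImplicit false
open Cfsg
open Cfsg.Agent.Lib.Helper25

namespace Cfsg.Agent.S5035

variable {G H : Type*} [Group G] [Group H]

theorem map_conjBy (f : G →* H) (A : Subgroup G) (g : G) : (conjBy A g).map f = conjBy (A.map f) (f g) := by
  ext x
  simp only [Subgroup.mem_map, MulEquiv.coe_toMonoidHom, MulAut.conj_apply, exists_exists_and_eq_and, map_mul, map_inv]

theorem map_rankOneCondition (f : G →* H) {A B : Subgroup G} (h : RankOneCondition A B) (hne : A.map f ≠ B.map f) :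
    RankOneCondition (A.map f) (B.map f) := by
  rintro _ ⟨a, ha, rfl⟩ ha1
  have ha1' : a ≠ 1 := by
    rintro rfl
    exact ha1 (map_one f)
  obtain ⟨b, hb, _, hab⟩ := h a ha ha1'
  have hab' : conjBy (A.map f) (f b)⁻¹ = conjBy (B.map f) (f a)⁻¹ := by
    rw [← map_inv, ← map_inv, ← map_conjBy, ← map_conjBy, hab]
  refine ⟨f b, Subgroup.mem_map_of_mem f hb, ?_, hab'⟩
  intro hfb
  apply hne
  rw [hfb, inv_one, conjBy_one] at hab'
  have h2 : conjBy (A.map f) (f a) = B.map f := by
    rw [hab', conjBy_conjBy]; simp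
  rw [← h2]
  exact (conjBy_of_mem (Subgroup.mem_map_of_mem f ha)).symm

theorem map_isNilpotent (f : G →* H) {A : Subgroup G} (h : Group.IsNilpotent A) : Group.IsNilpotent (A.map f) := by
  have hs : Function.Surjective (f.subgroupMap A) := f.subgroupMap_surjective A
  exact Group.nilpotent_of_surjective _ hs

theorem map_rankOne (f : G →* H) {A B : Subgroup G} (h : IsRankOnePair A B) (hne : A.map f ≠ B.map f) :
    IsRankOnePair (A.map f) (B.map f) :=
  ⟨hne, map_isNilpotent f h.nilpotent_left, map_isNilpotent f h.nilpotent_right,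
    map_rankOneCondition f h.cond_left hne, map_rankOneCondition f h.cond_right hne.symm⟩

theorem map_commCase (f : G →* H) {S : Set (Subgroup G)} {A B : Subgroup G} (h : RootCommutatorCase S A B) :
    RootCommutatorCase ((fun A : Subgroup G => A.map f) '' S) (A.map f) (B.map f) := by
  have hc : ⁅A.map f, B.map f⁆ = (⁅A, B⁆).map f := (Subgroup.map_commutator A B f).symm
  refine ⟨?_, ?_, ?_, ?_⟩
  · rw [hc]; exact ⟨_, h.1, rfl⟩
  · rw [hc, ← Subgroup.map_sup]
    rintro _ ⟨c, hc', rfl⟩ _ ⟨x, hx, rfl⟩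
    rw [← map_mul, ← map_mul, h.2.1 c hc' x hx]
  · rintro _ ⟨a, ha, rfl⟩ ha1
    have ha1' : a ≠ 1 := by
      rintro rfl
      exact ha1 (map_one f)
    rw [hc, ← h.2.2.1 a ha ha1', MonoidHom.map_closure]
    congr 1
    ext x
    simp only [Set.mem_image, SetLike.mem_coe, Subgroup.mem_map, exists_exists_and_eq_and, map_mul, map_inv]
  · rintro _ ⟨b, hb, rfl⟩ hb1
    have hb1' : b ≠ 1 := by
      rintro rfl
      exact hb1 (map_one f)
    rw [hc, ← h.2.2.2 b hb hb1', MonoidHom.map_closure]
    congr 1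
    ext x
    simp only [Set.mem_image, SetLike.mem_coe, Subgroup.mem_map, exists_exists_and_eq_and, map_mul, map_inv]

theorem map_isMulCommutative (f : G →* H) {A : Subgroup G} (h : IsMulCommutative A) : IsMulCommutative (A.map f) := by
  refine ⟨⟨?_⟩⟩
  rintro ⟨_, a, ha, rfl⟩ ⟨_, b, hb, rfl⟩
  apply Subtype.ext
  change f a * f b = f b * f a
  rw [← map_mul, ← map_mul, comm_of_isMulCommutative h ha hb]

theorem map_generates (f : G →* H) (hf : Function.Surjective f) {S : Set (Subgroup G)} (h : (⨆ A ∈ S, A) = ⊤) :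
    (⨆ A ∈ ((fun A : Subgroup G => A.map f) '' S), A) = ⊤ := by
  rw [iSup_image]
  have : (⨆ A ∈ S, A).map f = ⨆ A ∈ S, A.map f := by
    rw [Subgroup.map_iSup]
    congr 1
    ext A
    rw [Subgroup.map_iSup]
  rw [← this, h, ← MonoidHom.range_eq_map, MonoidHom.range_eq_top]
  exact hf

theorem map_rootSet (f : G →* H) (hf : Function.Surjective f) {S : Set (Subgroup G)} (hS : IsRootSubgroupSet S)
    (hbot : ∀ A ∈ S, A.map f ≠ ⊥) : IsRootSubgroupSet ((fun A : Subgroup G => A.map f) '' S) := by
  refine ⟨?_, ?_, map_generates f hf hS.generates, ?_, ?_⟩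
  · rintro _ ⟨A, hA, rfl⟩
    exact map_isMulCommutative f (hS.commutative A hA)
  · rintro _ ⟨A, hA, rfl⟩
    exact hbot A hA
  · rintro _ ⟨A, hA, rfl⟩ h
    obtain ⟨g, rfl⟩ := hf h
    exact ⟨conjBy A g, hS.conj_mem A hA g, map_conjBy f A g⟩
  · rintro _ ⟨A, hA, rfl⟩ _ ⟨B, hB, rfl⟩
    rcases hS.pair A hA B hB with h1 | h1 | h1
    · left
      change ⁅A.map f, B.map f⁆ = ⊥
      rw [← Subgroup.map_commutator, h1, Subgroup.map_bot]
    · by_cases hne : A.map f = B.map f
      · left
        change ⁅A.map f, B.map f⁆ = ⊥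
        rw [← hne]
        apply RootSub.commutator_eq_bot_of_commute
        intro a ha b hb
        exact comm_of_isMulCommutative (map_isMulCommutative f (hS.commutative A hA)) ha hb
      · right; left; exact map_rankOne f h1 hne
    · right; right; exact map_commCase f h1

theorem map_reach (f : G →* H) {S : Set (Subgroup G)} {A B : Subgroup G}
    (h : Relation.ReflTransGen (FAdj S) A B) :
    Relation.ReflTransGen (FAdj ((fun A : Subgroup G => A.map f) '' S)) (A.map f) (B.map f) := by
  induction h with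
  | refl => exact .refl
  | @tail X Y _ hbc ih =>
    by_cases hne : X.map f = Y.map f
    · rw [← hne]; exact ih
    · exact ih.tail ⟨⟨X, hbc.1, rfl⟩, ⟨Y, hbc.2.1, rfl⟩, map_rankOne f hbc.2.2 hne⟩

/-- Let S be a set of abstract root subgroups of G whose graph of rank one pairs is connected, and f a homomorphism from G onto a group H. Then either the images of the members of S form a set of abstract root subgroups of H whose graph of rank one pairs is again connected, or H equals the image of a member of S. -/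
theorem result {G H : Type*} [Group G] [Group H] {S : Set (Subgroup G)} (hS : Cfsg.IsRootSubgroupSet S)
    (hc : Cfsg.IsConnectedFamily (Cfsg.FAdj S) S) (f : G →* H) (hf : Function.Surjective f) :
    (Cfsg.IsRootSubgroupSet ((fun A : Subgroup G => A.map f) '' S) ∧
      Cfsg.IsConnectedFamily (Cfsg.FAdj ((fun A : Subgroup G => A.map f) '' S)) ((fun A : Subgroup G => A.map f) '' S)) ∨
    ∃ A ∈ S, A.map f = ⊤ := by
  by_cases hbot : ∀ A ∈ S, A.map f ≠ ⊥
  · left
    refine ⟨map_rootSet f hf hS hbot, ?_⟩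
    rintro _ ⟨A, hA, rfl⟩ _ ⟨B, hB, rfl⟩
    exact map_reach f (hc A hA B hB)
  · right
    push Not at hbot
    obtain ⟨A, hA, hAbot⟩ := hbot
    refine ⟨A, hA, ?_⟩
    rw [hAbot, ← map_generates f hf hS.generates, iSup_image]
    symm
    rw [iSup₂_eq_bot]
    intro B hB
    obtain ⟨g, rfl⟩ := Cfsg.Agent.S5032.conj_of_reach (hc A hA B hB)
    change (conjBy A g).map f = ⊥
    rw [map_conjBy, hAbot]
    exact conjBy_bot _

end Cfsg.Agent.S5035
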