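import Cfsg.Statements.S5038
import Cfsg.Agent.Lib.Helper25.RootSub6

set_option autoImplicit false
open Cfsg
open Cfsg.Agent.Lib.Helper25

namespace Cfsg.Agent.S5038

theorem point_stab_trans {G : Type*} [Group G] {S : Set (Subgroup G)} (hS : Cfsg.IsRootSubgroupSet S)
    (hpart : ∀ C ∈ S, ∃ D ∈ S, IsRankOnePair C D) {A B P X Y : Subgroup G} (hA : A ∈ S) (hB : B ∈ linePartners S A)
    (hP : P ∈ membersIn S (A ⊔ B)) (hX : X ∈ membersIn S (A ⊔ B)) (hXP : X ≠ P)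
    (hY : Y ∈ membersIn S (A ⊔ B)) (hYP : Y ≠ P) :
    ∃ x ∈ ⨆ E ∈ Cfsg.normalizingMembers S (A ⊔ B), E, conjBy X x = Y ∧ conjBy P x = P ∧
      conjBy (A ⊔ B) x = A ⊔ B := by
  obtain ⟨Q, hQ, F, hF, hγ, hc, hsup⟩ := RootSub.exists_transitive hS hpart hA hB hP
  obtain ⟨D, hD, hQD⟩ := hpart Q hQ
  subst hc
  rw [← hsup] at hX hY ⊢
  obtain ⟨f, hf, hfX⟩ := RootSub.trans_of_commCase hS hQ hD hQD hγ hX hXP hY hYP
  refine ⟨f, ?_, hfX, conjBy_commutator_of_mem_sup Q F (Subgroup.mem_sup_right hf), RootSub.normalizes_line hf⟩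
  have hFn : F ∈ normalizingMembers S (Q ⊔ ⁅Q, F⁆) :=
    ⟨hF, fun f' hf' => mem_normalizer_iff_conjBy.mpr (RootSub.normalizes_line hf')⟩
  exact (le_iSup₂ (f := fun (E : Subgroup G) (_ : E ∈ normalizingMembers S (Q ⊔ ⁅Q, F⁆)) => E) F hFn) hf

/-- Let S be a set of abstract root subgroups of G in which every member has a rank one partner, A ∈ S and B a line partner of A. Then the subgroup generated by the members of S normalizing AB permutes the members of S inside AB doubly transitively by conjugation. -/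
theorem result {G : Type*} [Group G] {S : Set (Subgroup G)} (hS : Cfsg.IsRootSubgroupSet S)
    (hF : ∀ A ∈ S, ¬ Cfsg.IsIsolatedIn (Cfsg.FAdj S) S A) {A B : Subgroup G} (hA : A ∈ S) (hB : B ∈ Cfsg.linePartners S A) :
    ∀ C₁ ∈ Cfsg.membersIn S (A ⊔ B), ∀ C₂ ∈ Cfsg.membersIn S (A ⊔ B), ∀ D₁ ∈ Cfsg.membersIn S (A ⊔ B),
      ∀ D₂ ∈ Cfsg.membersIn S (A ⊔ B), C₁ ≠ C₂ → D₁ ≠ D₂ →
        ∃ x ∈ ⨆ E ∈ Cfsg.normalizingMembers S (A ⊔ B), E, Cfsg.conjBy C₁ x = D₁ ∧ Cfsg.conjBy C₂ x = D₂ := by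
  have hpart : ∀ C ∈ S, ∃ D ∈ S, IsRankOnePair C D := fun C hC => RootSub.exists_partner (hF C hC) hC
  intro C₁ hC₁ C₂ hC₂ D₁ hD₁ D₂ hD₂ hC hD
  have step1 : ∃ x ∈ ⨆ E ∈ Cfsg.normalizingMembers S (A ⊔ B), E, conjBy C₁ x = D₁ ∧ conjBy (A ⊔ B) x = A ⊔ B := by
    by_cases h : C₁ = D₁
    · exact ⟨1, Subgroup.one_mem _, by rw [conjBy_one, h], conjBy_one _⟩
    · obtain ⟨h1, h2⟩ := RootSub.line_of_two_points hS hpart hA hB hD₁ hC₁ (Ne.symm h)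
      obtain ⟨T, hT, hT1, hT2⟩ := RootSub.exists_third_point hS hC₁.1 h1
      rw [h2] at hT
      obtain ⟨x, hx, h3, _, h4⟩ := point_stab_trans hS hpart hA hB hT hC₁ hT2.symm hD₁ hT1.symm
      exact ⟨x, hx, h3, h4⟩
  obtain ⟨x₁, hx₁, h1, h2⟩ := step1
  have hC₂' : conjBy C₂ x₁ ∈ membersIn S (A ⊔ B) :=
    ⟨hS.conj_mem C₂ hC₂.1 x₁, by
      have := conjBy_mono hC₂.2 x₁
      rwa [h2] at this⟩
  have hne : conjBy C₂ x₁ ≠ D₁ := by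
    rw [← h1]
    exact fun h => hC (conjBy_inj.mp h).symm
  obtain ⟨x₂, hx₂, h3, h4, _⟩ := point_stab_trans hS hpart hA hB hD₁ hC₂' hne hD₂ hD.symm
  refine ⟨x₂ * x₁, Subgroup.mul_mem _ hx₂ hx₁, ?_, ?_⟩
  · rw [← conjBy_conjBy, h1, h4]
  · rw [← conjBy_conjBy, h3]

end Cfsg.Agent.S5038
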