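import Cfsg.Statements.S5045
import Cfsg.Agent.Lib.Helper25.RootInv

set_option autoImplicit false
open Cfsg
open Cfsg.Agent.Lib.Helper25

namespace Cfsg.Agent.S5045

variable {G : Type*} [Group G] {D : Set G}

theorem exists_neighbour {a : G} (h : ∃ a' ∈ elemComponentOf (OddAdj D) D a, a' ≠ a) : ∃ c, OddAdj D a c := by
  obtain ⟨a', ⟨_, h1⟩, hne⟩ := h
  rcases Relation.ReflTransGen.cases_head h1 with h2 | ⟨c, hc, _⟩
  · exact absurd h2.symm hne
  · exact ⟨c, hc⟩

/-- one half of the path: from `a` with neighbour `c` to `a e`, or directly to `e`. -/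
theorem half (hD : IsRootInvolutionSet D) {a e c : G} (ha : a ∈ D) (he : e ∈ D) (hae : a * e = e * a) (hne : e ≠ a)
    (hf : a * e ∈ D) (hc : OddAdj D a c) :
    Relation.ReflTransGen (OddAdj D) a e ∨ OddAdj D c (a * e) := by
  have hcD := hc.2.1
  rcases hD.pair e he c hcD with h | h | h
  · exfalso
    have hcomm : Commute e (a * c) := by
      change e * (a * c) = a * c * e
      rw [← mul_assoc, ← hae, mul_assoc, h, mul_assoc]
    have ht1 : a * c ≠ 1 := by
      intro h1
      apply hc.2.2.1
      have : c = a⁻¹ := eq_inv_of_mul_eq_one_right h1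
      rw [this, RootInv.inv hD ha]
    apply RootInv.bad_order (hD.orderOf_eq e he) hc.2.2.2 ht1 hcomm
    have := RootInv.order_cases hD hf hcD
    rwa [hae, mul_assoc] at this
  · left
    have hce : c ≠ e := by
      rintro rfl
      have h1 := hc.2.2.2
      have h2 : (a * c) * (a * c) = 1 := by
        calc a * c * (a * c) = a * (c * a) * c := by group
          _ = a * (a * c) * c := by rw [hae]
          _ = (a * a) * (c * c) := by group
          _ = 1 := by rw [RootInv.sq hD ha, RootInv.sq hD he, one_mul]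
      have h3 := RootInv.eq_one_of_odd_of_sq h1 h2
      apply hne
      have : c = a⁻¹ := eq_inv_of_mul_eq_one_right h3
      rw [this, RootInv.inv hD ha]
    exact (Relation.ReflTransGen.single hc).tail ⟨hcD, he, hce, by rw [RootInv.orderOf_mul_comm']; exact h⟩
  · right
    obtain ⟨h1, h2⟩ := RootInv.odd_of_four hD ha he hae hf hcD hc.2.2.2 hc.2.2.1 h.1
    exact ⟨hcD, hf, h2.symm, by rw [RootInv.orderOf_mul_comm']; exact h1⟩

theorem part6 (hD : IsRootInvolutionSet D) {a : G} (ha : a ∈ D)
    (ha2 : ∃ a' ∈ elemComponentOf (OddAdj D) D a, a' ≠ a) :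
    productPartners D a ⊆ elemComponentOf (OddAdj D) D a ∪ {w | IsIsolatedElem (OddAdj D) D w} := by
  rintro e ⟨⟨he, hea, hne⟩, hf⟩
  by_cases hW : IsIsolatedElem (OddAdj D) D e
  · right; exact hW
  left
  refine ⟨he, ?_⟩
  obtain ⟨c, hc⟩ := exists_neighbour ha2
  have hd : ∃ d, OddAdj D e d := by
    unfold IsIsolatedElem at hW
    push Not at hW
    obtain ⟨d, hd⟩ := hW he
    by_cases h : OddAdj D e d
    · exact ⟨d, h⟩
    · exact ⟨d, RootInv.oddAdj_symm (hd h)⟩
  obtain ⟨d, hd⟩ := hd
  have hf' : a * e ∈ D := by rw [← hea]; exact hf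
  rcases half hD ha he hea.symm hne hf' hc with h1 | h1
  · exact h1
  rcases half hD he ha hea hne.symm hf hd with h2 | h2
  · exact RootInv.reach_symm h2
  rw [hea] at h2
  exact (((Relation.ReflTransGen.single hc).tail h1).tail (RootInv.oddAdj_symm h2)).tail (RootInv.oddAdj_symm hd)

theorem isolated_conj (hD : IsRootInvolutionSet D) {w : G} (hw : IsIsolatedElem (OddAdj D) D w) (g : G) :
    IsIsolatedElem (OddAdj D) D (g * w * g⁻¹) := by
  rw [RootInv.isolated_iff] at hw ⊢
  refine ⟨hD.conj_mem w hw.1 g, ?_⟩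
  intro b hb hne ho
  have hb' : g⁻¹ * b * g ∈ D := by
    have := hD.conj_mem b hb g⁻¹
    rwa [inv_inv] at this
  apply hw.2 _ hb'
  · intro h
    apply hne
    rw [← h]; group
  · have e : w * (g⁻¹ * b * g) = g⁻¹ * (g * w * g⁻¹ * b) * g⁻¹⁻¹ := by group
    rw [e, RootInv.orderOf_conj]
    exact ho

/-- Let G be a finite group generated by a set D of root involutions, and W the set of members of D whose product with every other member of D has even order or is trivial (the isolated vertices of the odd-order-product graph on D). Then W is conjugation-invariant and generates a normal 2-subgroup of G meeting D in exactly W; the commutator of two members of D lying in different connected components of that graph, each with more than one member, lies in the subgroup generated by W; and for a in such a component, every member of D commuting with a, different from a and with product with a in D, lies in that component or in W. -/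
theorem result {G : Type*} [Group G] [Finite G] {D : Set G} (hD : Cfsg.IsRootInvolutionSet D) :
    (∀ w ∈ {w | Cfsg.IsIsolatedElem (Cfsg.OddAdj D) D w}, ∀ g : G, g * w * g⁻¹ ∈ {w | Cfsg.IsIsolatedElem (Cfsg.OddAdj D) D w}) ∧
    (Subgroup.closure {w | Cfsg.IsIsolatedElem (Cfsg.OddAdj D) D w}).Normal ∧
    IsPGroup 2 ↥(Subgroup.closure {w | Cfsg.IsIsolatedElem (Cfsg.OddAdj D) D w}) ∧
    (Subgroup.closure {w | Cfsg.IsIsolatedElem (Cfsg.OddAdj D) D w} : Set G) ∩ D = {w | Cfsg.IsIsolatedElem (Cfsg.OddAdj D) D w} ∧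
    (∀ a ∈ D, ∀ b ∈ D, (∃ a' ∈ Cfsg.elemComponentOf (Cfsg.OddAdj D) D a, a' ≠ a) →
      (∃ b' ∈ Cfsg.elemComponentOf (Cfsg.OddAdj D) D b, b' ≠ b) →
      Cfsg.elemComponentOf (Cfsg.OddAdj D) D a ≠ Cfsg.elemComponentOf (Cfsg.OddAdj D) D b →
        a * b * a⁻¹ * b⁻¹ ∈ Subgroup.closure {w | Cfsg.IsIsolatedElem (Cfsg.OddAdj D) D w}) ∧
    (∀ a ∈ D, (∃ a' ∈ Cfsg.elemComponentOf (Cfsg.OddAdj D) D a, a' ≠ a) →
      Cfsg.productPartners D a ⊆ Cfsg.elemComponentOf (Cfsg.OddAdj D) D a ∪ {w | Cfsg.IsIsolatedElem (Cfsg.OddAdj D) D w}) := by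
  have hle : Subgroup.closure {w | IsIsolatedElem (OddAdj D) D w} ≤ pCore 2 G := by
    rw [Subgroup.closure_le]
    intro w hw
    exact RootInv.isolated_mem_pCore hD hw
  refine ⟨fun w hw g => isolated_conj hD hw g, ?_, (RootInv.pCore_isPGroup 2).to_le hle, ?_, ?_,
    fun a ha ha2 => part6 hD ha ha2⟩
  · constructor
    intro n hn g
    have h1 : (Subgroup.closure {w | IsIsolatedElem (OddAdj D) D w}).map (MulAut.conj g).toMonoidHom ≤
        Subgroup.closure {w | IsIsolatedElem (OddAdj D) D w} := by
      rw [MonoidHom.map_closure, Subgroup.closure_le]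
      rintro _ ⟨w, hw, rfl⟩
      exact Subgroup.subset_closure (isolated_conj hD hw g)
    exact h1 ⟨n, hn, rfl⟩
  · ext d
    constructor
    · rintro ⟨h1, h2⟩
      exact RootInv.isolated_of_mem_pCore hD h2 (hle h1)
    · intro h
      exact ⟨Subgroup.subset_closure h, h.1⟩
  · intro a ha b hb ha2 hb2 hne
    have ha' := RootInv.inv hD ha
    have hb' := RootInv.inv hD hb
    have haa := RootInv.sq hD ha
    have hbb := RootInv.sq hD hb
    rcases hD.pair a ha b hb with h | h | h
    · have : a * b * a⁻¹ * b⁻¹ = 1 := by rw [h]; group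
      rw [this]; exact Subgroup.one_mem _
    · exfalso
      apply hne
      by_cases hab : a = b
      · rw [hab]
      · exact RootInv.component_eq_of_reach (Relation.ReflTransGen.single ⟨ha, hb, hab, h⟩)
    · have hcD := h.2
      have e0 : a * b * a⁻¹ * b⁻¹ = (a * b) ^ 2 := by rw [ha', hb', pow_two]; group
      rw [e0]
      set c := (a * b) ^ 2 with hc
      have hcc := RootInv.sq hD hcD
      have hcdef : c = a * b * a * b := by rw [hc, pow_two]; group
      have hca : c * a = a * b * a * (a * b)⁻¹ := by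
        rw [hcdef, mul_inv_rev, ha', hb']; group
      have hcaD : c * a ∈ D := by
        rw [hca]
        exact hD.conj_mem a ha (a * b)
      have hcb : c * b = a * b * a⁻¹ := by
        rw [hcdef, ha', mul_assoc, hbb, mul_one]
      have hcbD : c * b ∈ D := by
        rw [hcb]; exact hD.conj_mem b hb a
      -- products of involutions which are involutions commute
      have comm_of : ∀ x ∈ D, c * x ∈ D → c * x = x * c := by
        intro x hx hcx
        have h1 := RootInv.sq hD hcx
        have hxx := RootInv.sq hD hx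
        calc c * x = c * x * ((c * x) * (c * x))⁻¹ * 1 := by rw [h1]; group
          _ = (x * x)⁻¹ * x * ((c * c)⁻¹ * c) := by group
          _ = x * c := by rw [hxx, hcc]; group
      have ne_of : ∀ x ∈ D, c * x ∈ D → c ≠ x := by
        rintro x hx hcx rfl
        rw [hcc] at hcx
        exact RootInv.ne_one hD hcx rfl
      have h1 := part6 hD ha ha2 ⟨⟨hcD, comm_of a ha hcaD, ne_of a ha hcaD⟩, hcaD⟩
      have h2 := part6 hD hb hb2 ⟨⟨hcD, comm_of b hb hcbD, ne_of b hb hcbD⟩, hcbD⟩
      rcases h1 with h1 | h1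
      · rcases h2 with h2 | h2
        · exfalso
          apply hne
          rw [RootInv.component_eq_of_reach h1.2, RootInv.component_eq_of_reach h2.2]
        · exact Subgroup.subset_closure h2
      · exact Subgroup.subset_closure h1

end Cfsg.Agent.S5045
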