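import Cfsg.Statements.S5048
import Cfsg.Agent.Lib.Helper25.RootInv2

set_option autoImplicit false
open Cfsg
open Cfsg.Agent.Lib.Helper25

namespace Cfsg.Agent.S5048

theorem twoZCore_isSolvable (G : Type*) [Group G] [Finite G] : Group.IsSolvable ↥(twoZCore G) := by
  have : Fact (Nat.Prime 2) := ⟨Nat.prime_two⟩
  have hQ : pCore 2 G ≤ twoZCore G := by
    intro x hx
    change (QuotientGroup.mk' (pCore 2 G)) x ∈ Subgroup.center _
    have : (QuotientGroup.mk' (pCore 2 G)) x = 1 := (QuotientGroup.eq_one_iff x).mpr hx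
    rw [this]; exact Subgroup.one_mem _
  haveI : Group.IsNilpotent ↥(pCore 2 G) := (RootInv.pCore_isPGroup (G := G) 2).isNilpotent
  let g : ↥(twoZCore G) →* ↥(Subgroup.center (G ⧸ pCore 2 G)) :=
    ((QuotientGroup.mk' (pCore 2 G)).comp (twoZCore G).subtype).codRestrict _ (fun x => x.2)
  haveI : Group.IsSolvable ↥(Subgroup.center (G ⧸ pCore 2 G)) :=
    Group.isSolvable_of_comm (fun a b => Subtype.ext ((Subgroup.mem_center_iff.mp b.2 a.1)))
  apply Group.isSolvable_of_ker_le_range (Subgroup.inclusion hQ) g
  intro x hx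
  have h1 : g x = 1 := hx
  have h2 : (QuotientGroup.mk' (pCore 2 G)) (x : G) = 1 := congrArg Subtype.val h1
  have h3 : (x : G) ∈ pCore 2 G := (QuotientGroup.eq_one_iff _).mp h2
  exact ⟨⟨x, h3⟩, Subtype.ext rfl⟩

/-- Let G be a finite group generated by a set D of root involutions whose odd-order-product graph is connected, with some product of two different commuting members of D again in D. Then the largest solvable normal subgroup of G is the preimage of the centre of G/O₂(G), and the quotient of G by it is a simple group. -/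
theorem result {G : Type*} [Group G] [Finite G] {D : Set G} (hD : Cfsg.IsRootInvolutionSet D)
    (hc : Cfsg.IsConnectedSet (Cfsg.OddAdj D) D) (hDD : (D ∩ Cfsg.commutingProducts D).Nonempty) :
    Cfsg.solvableRadical G = Cfsg.twoZCore G ∧ IsSimpleGroup (G ⧸ Cfsg.twoZCore G) := by
  haveI hperf : Group.IsPerfect G := ⟨RootInv.commutator_eq_top hD hc hDD⟩
  haveI hnt : Nontrivial G := by
    obtain ⟨x, hx, _⟩ := hDD
    exact ⟨⟨x, 1, RootInv.ne_one hD hx⟩⟩
  have hns : ¬ Group.IsSolvable G := Group.IsPerfect.not_isSolvable G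
  have hns' : ∀ N : Subgroup G, Group.IsSolvable N → N ≠ ⊤ := by
    rintro N hN rfl
    apply hns
    exact Group.isSolvable_of_surjective (f := (⊤ : Subgroup G).subtype) (fun x => ⟨⟨x, trivial⟩, rfl⟩)
  have hZ := twoZCore_isSolvable G
  have hd := fun (N : Subgroup G) (hN : N.Normal) => RootInv.dichotomy hD hc hDD hN
  constructor
  · apply le_antisymm
    · apply sSup_le
      rintro N ⟨hN, hNs⟩
      exact (hd N hN).resolve_right (hns' N hNs)
    · exact le_sSup ⟨inferInstance, hZ⟩
  · haveI : Nontrivial (G ⧸ twoZCore G) := by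
      rw [QuotientGroup.nontrivial_iff]
      exact hns' _ hZ
    refine ⟨fun K hK => ?_⟩
    have hsurj : Function.Surjective (QuotientGroup.mk' (twoZCore G)) := QuotientGroup.mk'_surjective _
    have hNn : (K.comap (QuotientGroup.mk' (twoZCore G))).Normal := hK.comap _
    rcases hd _ hNn with h1 | h1
    · left
      rw [← Subgroup.map_comap_eq_self_of_surjective hsurj K]
      rw [eq_bot_iff]
      rintro _ ⟨x, hx, rfl⟩
      rw [Subgroup.mem_bot]
      exact (QuotientGroup.eq_one_iff x).mpr (h1 hx)
    · right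
      rw [← Subgroup.map_comap_eq_self_of_surjective hsurj K, h1]
      exact Subgroup.map_top_of_surjective _ hsurj

end Cfsg.Agent.S5048
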