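import Cfsg.Statements.S5049
import Cfsg.Agent.Lib.Helper25.RootInv

set_option autoImplicit false
open Cfsg
open Cfsg.Agent.Lib.Helper25
open scoped commutatorElement

namespace Cfsg.Agent.S5049

variable {G : Type*} [Group G] {D : Set G}

/-- two odd transpositions whose product has a square in `O₂(G)` commute. -/
theorem commute_of_sq_mem (hD : IsOddTranspositionSet D) {x y : G} (hx : x ∈ D) (hy : y ∈ D)
    (h : (x * y) ^ 2 ∈ pCore 2 G) : x * y = y * x := by
  rcases hD.1.pair x hx y hy with h1 | h1 | h1
  · exact h1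
  · obtain ⟨k, hk⟩ := (RootInv.pCore_isPGroup (G := G) 2) ⟨_, h⟩
    have hk' : ((x * y) ^ 2) ^ (2 ^ k) = 1 := congrArg Subtype.val hk
    rw [← pow_mul, ← pow_succ'] at hk'
    have h2 : orderOf (x * y) ∣ 2 ^ (k + 1) := orderOf_dvd_of_pow_eq_one hk'
    have h3 : Nat.Coprime (orderOf (x * y)) (2 ^ (k + 1)) := Nat.Coprime.pow_right _ ((Nat.coprime_two_right).mpr h1)
    have h4 : orderOf (x * y) = 1 := Nat.Coprime.eq_one_of_dvd h3 h2
    have h5 : x * y = 1 := orderOf_eq_one_iff.mp h4
    have : y = x⁻¹ := eq_inv_of_mul_eq_one_right h5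
    rw [this]; group
  · exact absurd h1.1 (hD.2 x hx y hy)

/-- Let G be a finite group generated by a set D of odd transpositions (root involutions with no product of order 4), Q = O₂(G), and for a ∈ D let Q_a be the commutator subgroup of Q with a. Then every member of D commuting with a centralizes Q_a; and for b ∈ D with ab of odd order greater than 1, the centralizer of ab in Q is the intersection of the centralizers of a and b in Q. -/
theorem result {G : Type*} [Group G] [Finite G] {D : Set G} (hD : Cfsg.IsOddTranspositionSet D) {a : G} (ha : a ∈ D) :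
    (∀ e ∈ Cfsg.commutingMembers D a, ∀ q ∈ ⁅Cfsg.pCore 2 G, Subgroup.zpowers a⁆, e * q = q * e) ∧
    (∀ b ∈ Cfsg.oddPartners D a,
      Cfsg.pCore 2 G ⊓ Subgroup.centralizer {a * b} = Cfsg.pCore 2 G ⊓ Subgroup.centralizer {a} ⊓ Subgroup.centralizer {b}) := by
  have hN := RootInv.pCore_normal (G := G) 2
  have haa := RootInv.sq hD.1 ha
  have ha' := RootInv.inv hD.1 ha
  constructor
  · rintro e ⟨he, hea⟩
    have hee := RootInv.sq hD.1 he
    have he' := RootInv.inv hD.1 he
    have hle : ⁅pCore 2 G, Subgroup.zpowers a⁆ ≤ Subgroup.centralizer {e} := by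
      rw [Subgroup.commutator_le]
      intro q hq x hx
      -- it is enough to treat `x = a`
      have key : ∀ q ∈ pCore 2 G, e * (q * a * q⁻¹) = (q * a * q⁻¹) * e := by
        intro q hq
        apply commute_of_sq_mem hD he (hD.1.conj_mem a ha q)
        have hm : q * a * q⁻¹ * a ∈ pCore 2 G := by
          have : q * a * q⁻¹ * a = q * (a * q⁻¹ * a⁻¹) := by rw [ha']; group
          rw [this]
          exact Subgroup.mul_mem _ hq (hN.conj_mem _ (Subgroup.inv_mem _ hq) a)
        set m := q * a * q⁻¹ * a with hmdef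
        have e1 : q * a * q⁻¹ = m * a := by rw [hmdef, mul_assoc (q * a * q⁻¹) a a, haa, mul_one]
        rw [e1, pow_two]
        have e2 : e * (m * a) * (e * (m * a)) = (e * m * e⁻¹) * (a * m * a⁻¹) := by
          rw [he', ha']
          calc e * (m * a) * (e * (m * a)) = e * m * (a * e) * m * a := by group
            _ = e * m * (e * a) * m * a := by rw [hea]
            _ = e * m * e * (a * m * a) := by group
        rw [e2]
        exact Subgroup.mul_mem _ (hN.conj_mem _ hm e) (hN.conj_mem _ hm a)
      have hcomm : ∀ x ∈ Subgroup.zpowers a, e * x = x * e := by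
        intro x hx
        obtain ⟨n, rfl⟩ := Subgroup.mem_zpowers_iff.mp hx
        exact ((show Commute e a from hea).zpow_right n).eq
      have hconj : ∀ x ∈ Subgroup.zpowers a, e * (q * x * q⁻¹) = (q * x * q⁻¹) * e := by
        intro x hx
        obtain ⟨n, rfl⟩ := Subgroup.mem_zpowers_iff.mp hx
        have h1 : q * a ^ n * q⁻¹ = (q * a * q⁻¹) ^ n := (conj_zpow).symm
        rw [h1]
        exact ((show Commute e (q * a * q⁻¹) from key q hq).zpow_right n).eq
      rw [Subgroup.mem_centralizer_iff]
      intro y hy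
      rw [Set.mem_singleton_iff.mp hy, commutatorElement_def]
      have c1 : Commute e (q * x * q⁻¹) := hconj x hx
      have c2 : Commute e x⁻¹ := (show Commute e x from hcomm x hx).inv_right
      exact (c1.mul_right c2).eq
    intro q hq
    exact Subgroup.mem_centralizer_iff.mp (hle hq) e rfl
  · rintro b ⟨hb, hba, hodd⟩
    have hbb := RootInv.sq hD.1 hb
    ext q
    simp only [Subgroup.mem_inf, Subgroup.mem_centralizer_iff, Set.mem_singleton_iff, forall_eq]
    constructor
    · rintro ⟨hq, hqab⟩
      -- `a' = q a q⁻¹`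
      have ha'D : q * a * q⁻¹ ∈ D := hD.1.conj_mem a ha q
      have hz : a * (q * a * q⁻¹) ∈ pCore 2 G := by
        have : a * (q * a * q⁻¹) = (a * q * a⁻¹) * q⁻¹ := by rw [ha']; group
        rw [this]
        exact Subgroup.mul_mem _ (hN.conj_mem _ hq a) (Subgroup.inv_mem _ hq)
      have hcomm : a * (q * a * q⁻¹) = (q * a * q⁻¹) * a :=
        commute_of_sq_mem hD ha ha'D (Subgroup.pow_mem _ hz 2)
      have ha'a' := RootInv.sq hD.1 ha'D
      set a₁ := q * a * q⁻¹ with ha₁
      have hzz : (a * a₁) * (a * a₁) = 1 := by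
        calc a * a₁ * (a * a₁) = a * (a₁ * a) * a₁ := by group
          _ = a * (a * a₁) * a₁ := by rw [hcomm]
          _ = (a * a) * (a₁ * a₁) := by group
          _ = 1 := by rw [haa, ha'a', one_mul]
      have hqa : a * q = q * a := by
        by_contra hne
        have hz1 : a * a₁ ≠ 1 := by
          intro h
          apply hne
          have h2 : a₁ = a := by
            have : a₁ = a⁻¹ := eq_inv_of_mul_eq_one_right h
            rw [this, ha']
          have : q * a = a₁ * q := by rw [ha₁]; group
          rw [this, h2]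
        have hzo : orderOf (a * a₁) = 2 := orderOf_eq_prime (by rw [pow_two]; exact hzz) hz1
        have i1 : a * (a * b) * a⁻¹ = (a * b)⁻¹ := RootInv.inverts_mul_left haa hbb
        have i2 : a₁ * (a * b) * a₁⁻¹ = (a * b)⁻¹ := by
          have : a₁ * (a * b) * a₁⁻¹ = q * (a * (q⁻¹ * (a * b) * q) * a⁻¹) * q⁻¹ := by rw [ha₁]; group
          have h3 : q⁻¹ * (a * b) * q = a * b := by
            rw [mul_assoc, hqab]; group
          rw [this, h3, i1]
          have h4 : q * (a * b)⁻¹ * q⁻¹ = (q * (a * b) * q⁻¹)⁻¹ := by group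
          rw [h4, ← hqab]; group
        have hc : Commute (a * a₁) (a * b) := by
          have : (a * a₁) * (a * b) * (a * a₁)⁻¹ = a * b := by
            calc (a * a₁) * (a * b) * (a * a₁)⁻¹ = a * (a₁ * (a * b) * a₁⁻¹) * a⁻¹ := by group
              _ = (a * (a * b) * a⁻¹)⁻¹ := by rw [i2]; group
              _ = a * b := by rw [i1, inv_inv]
          change (a * a₁) * (a * b) = (a * b) * (a * a₁)
          calc (a * a₁) * (a * b) = ((a * a₁) * (a * b) * (a * a₁)⁻¹) * (a * a₁) := by group
            _ = (a * b) * (a * a₁) := by rw [this]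
        have ht1 : a * b ≠ 1 := by
          intro h
          apply hba
          have : b = a⁻¹ := eq_inv_of_mul_eq_one_right h
          rw [this, ha']
        apply RootInv.bad_order hzo hodd ht1 hc
        have h5 : a * a₁ * (a * b) = a₁ * b := by
          rw [hcomm]
          calc a₁ * a * (a * b) = a₁ * (a * a) * b := by group
            _ = a₁ * b := by rw [haa, mul_one]
        rw [h5]
        exact RootInv.order_cases hD.1 ha'D hb
      refine ⟨⟨hq, hqa⟩, ?_⟩
      have : b = a * (a * b) := by rw [← mul_assoc, haa, one_mul]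
      rw [this, mul_assoc, hqab, ← mul_assoc, hqa, mul_assoc]
    · rintro ⟨⟨hq, hqa⟩, hqb⟩
      exact ⟨hq, by rw [mul_assoc, hqb, ← mul_assoc, hqa, mul_assoc]⟩

end Cfsg.Agent.S5049
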