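import Cfsg.Statements.S5057
import Cfsg.Agent.Lib.Helper14.A6Root
open Cfsg.Agent.Lib.Helper14

set_option autoImplicit false
open Cfsg

namespace Cfsg.Agent.S5057

/-- The involutions of the alternating group of degree 6 form a class of root involutions (a single conjugacy class of involutions generating the group, any two of which commute, have product of odd order, or have product of order 4 whose square is again an involution of the class), and the product of any two of them has order at most 5. -/
theorem result :
    Cfsg.IsRootInvolutionClass {g : ↥(alternatingGroup (Fin 6)) | orderOf g = 2} ∧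
    ∀ d ∈ {g : ↥(alternatingGroup (Fin 6)) | orderOf g = 2}, ∀ e ∈ {g : ↥(alternatingGroup (Fin 6)) | orderOf g = 2},
      orderOf (d * e) ≤ 5 := by
  have hconj : ∀ (d g : ↥(alternatingGroup (Fin 6))), orderOf (g * d * g⁻¹) = orderOf d := fun d g =>
    orderOf_injective (MulAut.conj g).toMonoidHom (MulAut.conj g).injective d
  refine ⟨⟨⟨fun d hd => hd, A6Root.closure_eq_top, fun d hd g => ?_, fun a ha b hb => ?_⟩,
    ⟨A6Root.a0, A6Root.orderOf_a0⟩, fun a ha b hb => ?_⟩, fun d _ e _ => ?_⟩
  · exact (hconj d g).trans hd
  · have haa := A6Root.mul_self_of_order ha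
    have hbb := A6Root.mul_self_of_order hb
    rcases A6Root.orderOf_cases (a * b) with h | h | h | h | h
    · right; left; rw [h]; decide
    · left
      have hab := A6Root.mul_self_of_order h
      have ha' : a⁻¹ = a := inv_eq_of_mul_eq_one_left haa
      have hb' : b⁻¹ = b := inv_eq_of_mul_eq_one_left hbb
      have h3 : (a * b)⁻¹ = a * b := inv_eq_of_mul_eq_one_left hab
      rw [← h3, mul_inv_rev, ha', hb']
    · right; left; rw [h]; decide
    · right; right
      refine ⟨h, ?_⟩
      change orderOf ((a * b) ^ 2) = 2
      rw [orderOf_pow' _ (by norm_num), h]; rfl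
    · right; left; rw [h]; decide
  · obtain ⟨g, hg⟩ := A6Root.exists_conj a ha
    obtain ⟨k, hk⟩ := A6Root.exists_conj b hb
    refine ⟨k * g⁻¹, ?_⟩
    rw [hg, hk]; group
  · rcases A6Root.orderOf_cases (d * e) with h | h | h | h | h <;> omega

end Cfsg.Agent.S5057
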