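import Cfsg.Statements.S5059
import Mathlib

set_option autoImplicit false
universe u
open Cfsg

namespace Cfsg.Agent.S5059

section
variable {k : Type*} [Field k] {M : Type*} [AddCommGroup M] [Module k M]

local notation "GLM" => LinearMap.GeneralLinearGroup k M

def A (τ : GLM) : M →ₗ[k] M := (τ : M →ₗ[k] M) - 1

theorem val_eq (τ : GLM) : (τ : M →ₗ[k] M) = 1 + A τ := by
  unfold A; abel

theorem A_one : A (1 : GLM) = 0 := by
  unfold A; simp

theorem A_mul (x y : GLM) : A (x * y) = A x + A y + A x * A y := by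
  unfold A
  rw [Units.val_mul]
  noncomm_ring

theorem ext_A {x y : GLM} (h : A x = A y) : x = y := by
  apply Units.ext
  rw [val_eq x, val_eq y, h]

structure InS (G : Subgroup GLM) (I C : Submodule k M) (τ : GLM) : Prop where
  mem : τ ∈ G
  rg : LinearMap.range (A τ) ≤ I
  kr : C ≤ LinearMap.ker (A τ)
  fam : Cfsg.scalarFamily τ ⊆ (G : Set GLM)

variable {G : Subgroup (LinearMap.GeneralLinearGroup k M)} {I C : Submodule k M}

theorem AA_zero (hIC : I ≤ C) {x y : GLM} (hx : InS G I C x) (hy : InS G I C y) : A x * A y = 0 := by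
  apply LinearMap.ext
  intro m
  show A x (A y m) = 0
  exact LinearMap.mem_ker.1 (hx.kr (hIC (hy.rg (LinearMap.mem_range_self _ m))))

def mkU (a : M →ₗ[k] M) (h : a * a = 0) : GLM :=
  ⟨1 + a, 1 - a, by
    have : (1 + a) * (1 - a) = 1 - a * a := by noncomm_ring
    rw [this, h, sub_zero], by
    have : (1 - a) * (1 + a) = 1 - a * a := by noncomm_ring
    rw [this, h, sub_zero]⟩

theorem A_mkU (a : M →ₗ[k] M) (h : a * a = 0) : A (mkU a h) = a := by
  unfold A mkU
  simp

theorem smul_sq (c : k) {a : M →ₗ[k] M} (h : a * a = 0) : (c • a) * (c • a) = 0 := by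
  rw [smul_mul_smul_comm, h, smul_zero]

theorem mem_fam (τ ρ : GLM) : ρ ∈ Cfsg.scalarFamily τ ↔ ∃ c : k, A ρ = c • A τ := by
  constructor
  · rintro ⟨c, hc⟩
    refine ⟨c, ?_⟩
    unfold A
    rw [hc]; abel
  · rintro ⟨c, hc⟩
    refine ⟨c, ?_⟩
    rw [val_eq ρ, hc]; rfl

theorem A_inv (hIC : I ≤ C) {x : GLM} (hx : InS G I C x) : A x⁻¹ = - A x := by
  have h0 := AA_zero hIC hx hx
  have h1 : x⁻¹ = mkU (- A x) (by rw [neg_mul_neg, h0]) := by
    rw [inv_eq_iff_mul_eq_one]
    apply ext_A
    rw [A_mul, A_mkU, A_one, mul_neg, h0]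
    simp
  rw [h1, A_mkU]

def SS (G : Subgroup GLM) (I C : Submodule k M) (hIC : I ≤ C) : Subgroup GLM where
  carrier := {τ | InS G I C τ}
  one_mem' := by
    refine ⟨one_mem G, ?_, ?_, ?_⟩
    · rw [A_one]; simp
    · rw [A_one]; simp
    · intro ρ hρ
      obtain ⟨c, hc⟩ := (mem_fam _ _).1 hρ
      rw [A_one, smul_zero, ← A_one] at hc
      rw [ext_A hc]; exact one_mem G
  mul_mem' := by
    intro x y hx hy
    have h0 := AA_zero hIC hx hy
    have hA : A (x * y) = A x + A y := by rw [A_mul, h0, add_zero]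
    refine ⟨mul_mem hx.mem hy.mem, ?_, ?_, ?_⟩
    · rw [hA]
      rintro _ ⟨m, rfl⟩
      exact I.add_mem (hx.rg (LinearMap.mem_range_self _ m)) (hy.rg (LinearMap.mem_range_self _ m))
    · rw [hA]
      intro m hm
      rw [LinearMap.mem_ker, LinearMap.add_apply, LinearMap.mem_ker.1 (hx.kr hm), LinearMap.mem_ker.1 (hy.kr hm),
        add_zero]
    · intro ρ hρ
      obtain ⟨c, hc⟩ := (mem_fam _ _).1 hρ
      have hxx := AA_zero hIC hx hx
      have hyy := AA_zero hIC hy hy
      have e : ρ = mkU (c • A x) (smul_sq c hxx) * mkU (c • A y) (smul_sq c hyy) := by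
        apply ext_A
        rw [hc, hA, A_mul, A_mkU, A_mkU, smul_mul_smul_comm, h0, smul_zero, add_zero, smul_add]
      rw [e]
      apply mul_mem
      · exact hx.fam ((mem_fam _ _).2 ⟨c, A_mkU _ _⟩)
      · exact hy.fam ((mem_fam _ _).2 ⟨c, A_mkU _ _⟩)
  inv_mem' := by
    intro x hx
    have hA := A_inv hIC hx
    refine ⟨inv_mem hx.mem, ?_, ?_, ?_⟩
    · rw [hA]
      rintro _ ⟨m, rfl⟩
      rw [LinearMap.neg_apply]
      exact I.neg_mem (hx.rg (LinearMap.mem_range_self _ m))
    · rw [hA]
      intro m hm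
      rw [LinearMap.mem_ker, LinearMap.neg_apply, LinearMap.mem_ker.1 (hx.kr hm), neg_zero]
    · intro ρ hρ
      obtain ⟨c, hc⟩ := (mem_fam _ _).1 hρ
      apply hx.fam
      refine (mem_fam _ _).2 ⟨-c, ?_⟩
      rw [hc, hA, smul_neg, neg_smul]

theorem mem_SS (hIC : I ≤ C) (τ : GLM) : τ ∈ SS G I C hIC ↔ InS G I C τ := Iff.rfl

theorem A_pow (hIC : I ≤ C) {x : GLM} (hx : InS G I C x) (n : ℕ) : A (x ^ n) = n • A x := by
  induction n with
  | zero => simp [A_one]
  | succ n ih =>
    have h0 := AA_zero hIC hx hx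
    rw [pow_succ, A_mul, ih, smul_mul_assoc, h0, smul_zero, add_zero, succ_nsmul]

end


/-- Let k be a field of characteristic not 2 with k not of order 3, M a finite-dimensional k-vector space and G ≤ GL(M) such that (G, M) is a quadratic pair (M irreducible for G, and G generated by its quadratically acting elements σ whose scalar family 1 + c(σ − 1), c ∈ k, lies in G). Write 𝒬_d for the quadratic elements of G of minimal commutator rank, E(σ) for the subgroup generated by the members of 𝒬_d with the same fixed space and commutator space as σ, and Σ for the set of these subgroups. Then for σ ∈ 𝒬_d the subgroup E(σ) consists exactly of those members together with the identity, it is abelian, and if k has prime characteristic p every element of E(σ) has order dividing p. -/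
theorem result {k : Type u} [Field k] (hk2 : ringChar k ≠ 2) (hk3 : Nat.card k ≠ 3)
    {M : Type u} [AddCommGroup M] [Module k M] [FiniteDimensional k M]
    {G : Subgroup (LinearMap.GeneralLinearGroup k M)} (hG : Cfsg.IsQuadraticPair G)
    {σ : LinearMap.GeneralLinearGroup k M} (hσ : σ ∈ Cfsg.minimalQuadraticElements G) :
    (Cfsg.sameActionSubgroup G σ : Set (LinearMap.GeneralLinearGroup k M)) = Cfsg.sameActionClass G σ ∪ {1} ∧
    IsMulCommutative ↥(Cfsg.sameActionSubgroup G σ) ∧
    (∀ p : ℕ, p.Prime → ringChar k = p → ∀ x ∈ Cfsg.sameActionSubgroup G σ, x ^ p = 1) := by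
  set I := LinearMap.range (A σ) with hI
  set C := LinearMap.ker (A σ) with hC
  have hσq : Cfsg.IsQuadraticOn σ := hσ.1.2.1
  have hIC : I ≤ C := by
    rintro _ ⟨m, rfl⟩
    rw [hC, LinearMap.mem_ker]
    exact LinearMap.congr_fun hσq.1 m
  -- the class is contained in SS
  have h1 : Cfsg.sameActionClass G σ ⊆ (SS G I C hIC : Set _) := by
    intro τ hτ
    exact ⟨hτ.1.1.1, le_of_eq hτ.2.2, le_of_eq hτ.2.1.symm, hτ.1.1.2.2⟩
  -- SS is contained in the class together with 1
  have h2 : (SS G I C hIC : Set _) ⊆ Cfsg.sameActionClass G σ ∪ {1} := by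
    intro τ hτ
    have hτ' : InS G I C τ := hτ
    by_cases h : τ = 1
    · right; exact h
    · left
      have hne : A τ ≠ 0 := by
        intro h0
        apply h
        apply ext_A
        rw [h0, A_one]
      have hq : τ ∈ Cfsg.quadraticElements G := ⟨hτ'.mem, ⟨AA_zero hIC hτ' hτ', hne⟩, hτ'.fam⟩
      have hr1 : Cfsg.commutatorRank σ ≤ Cfsg.commutatorRank τ := hσ.2 τ hq
      have hrg : LinearMap.range (A τ) = I :=
        Submodule.eq_of_le_of_finrank_le hτ'.rg hr1
      have hrk : Cfsg.commutatorRank τ = Cfsg.commutatorRank σ := by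
        show Module.finrank k (LinearMap.range (A τ)) = Module.finrank k (LinearMap.range (A σ))
        rw [hrg]
      have hker : LinearMap.ker (A τ) = C := by
        symm
        apply Submodule.eq_of_le_of_finrank_le hτ'.kr
        have e1 : Module.finrank k (LinearMap.range (A τ)) + Module.finrank k (LinearMap.ker (A τ)) = Module.finrank k M := LinearMap.finrank_range_add_finrank_ker (A τ)
        have e2 : Module.finrank k I + Module.finrank k C = Module.finrank k M := LinearMap.finrank_range_add_finrank_ker (A σ)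
        rw [hrg] at e1
        show Module.finrank k (LinearMap.ker (A τ)) ≤ Module.finrank k C
        omega
      refine ⟨⟨hq, fun ρ hρ => ?_⟩, hker, hrg⟩
      rw [hrk]; exact hσ.2 ρ hρ
  have h3 : Cfsg.sameActionSubgroup G σ = SS G I C hIC := by
    apply le_antisymm
    · exact (Subgroup.closure_le _).2 h1
    · intro τ hτ
      rcases h2 hτ with h | h
      · exact Subgroup.subset_closure h
      · rw [Set.mem_singleton_iff.1 h]; exact one_mem _
  refine ⟨?_, ?_, ?_⟩
  · rw [h3]
    apply Set.Subset.antisymm h2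
    rintro τ (h | h)
    · exact h1 h
    · rw [Set.mem_singleton_iff.1 h]; exact one_mem _
  · rw [h3]
    refine ⟨⟨fun x y => Subtype.ext ?_⟩⟩
    show x.1 * y.1 = y.1 * x.1
    apply ext_A
    rw [A_mul, A_mul, AA_zero hIC x.2 y.2, AA_zero hIC y.2 x.2, add_comm (A x.1)]
  · intro p _ hchar x hx
    rw [h3] at hx
    apply ext_A
    rw [A_pow hIC hx, A_one, ← Nat.cast_smul_eq_nsmul k]
    haveI : CharP k p := hchar ▸ ringChar.charP k
    rw [CharP.cast_eq_zero k p, zero_smul]

end Cfsg.Agent.S5059
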