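import Cfsg.Statements.S5067

set_option autoImplicit false
open Cfsg

namespace Cfsg.Agent.S5067

open scoped commutatorElement

theorem key {P : Type*} [Group P] [Group.IsNilpotent P] (hna : ¬ IsMulCommutative P) {E : Subgroup P}
    (hE : IsMulCommutative ↥E) :
    Group.nilpotencyClass ↥(Subgroup.normalClosure (E : Set P)) < Group.nilpotencyClass P := by
  have hHn : (E ⊔ commutator P).Normal := by
    constructor
    intro x hx g
    have h1 : g * x * g⁻¹ = ⁅g, x⁆ * x := by simp [commutatorElement_def]
    rw [h1]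
    exact Subgroup.mul_mem _ ((le_sup_right : commutator P ≤ E ⊔ commutator P)
      (Subgroup.commutator_mem_commutator (Subgroup.mem_top g) (Subgroup.mem_top x))) hx
  have hNH : Subgroup.normalClosure (E : Set P) ≤ E ⊔ commutator P :=
    Subgroup.normalClosure_le_normal (le_sup_left : E ≤ E ⊔ commutator P)
  haveI hTn : ((⊤ : Subgroup P).lowerCentralSeries 2).Normal := inferInstance
  have hcen : ∀ c ∈ commutator P, ∀ g : P,
      Commute (QuotientGroup.mk' ((⊤ : Subgroup P).lowerCentralSeries 2) c)
        (QuotientGroup.mk' ((⊤ : Subgroup P).lowerCentralSeries 2) g) := by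
    intro c hc g
    have h1 : ⁅c, g⁆ ∈ (⊤ : Subgroup P).lowerCentralSeries 2 :=
      Subgroup.commutator_mem_commutator (by rw [Subgroup.top_lowerCentralSeries_one]; exact hc) (Subgroup.mem_top g)
    have h2 : QuotientGroup.mk' ((⊤ : Subgroup P).lowerCentralSeries 2) ⁅c, g⁆ = 1 :=
      (QuotientGroup.eq_one_iff _).mpr h1
    rw [map_commutatorElement, commutatorElement_eq_one_iff_mul_comm] at h2
    exact h2
  have hcomm : ∀ x ∈ E ⊔ commutator P, ∀ y ∈ E ⊔ commutator P,
      ⁅x, y⁆ ∈ (⊤ : Subgroup P).lowerCentralSeries 2 := by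
    intro x hx y hy
    have hx' : x ∈ ((E ⊔ commutator P : Subgroup P) : Set P) := hx
    have hy' : y ∈ ((E ⊔ commutator P : Subgroup P) : Set P) := hy
    rw [Subgroup.mul_normal] at hx' hy'
    obtain ⟨e1, he1, c1, hc1, rfl⟩ := Set.mem_mul.mp hx'
    obtain ⟨e2, he2, c2, hc2, rfl⟩ := Set.mem_mul.mp hy'
    rw [← QuotientGroup.eq_one_iff]
    change QuotientGroup.mk' ((⊤ : Subgroup P).lowerCentralSeries 2) _ = 1
    rw [map_commutatorElement, commutatorElement_eq_one_iff_mul_comm, map_mul, map_mul]
    have hee : Commute (QuotientGroup.mk' ((⊤ : Subgroup P).lowerCentralSeries 2) e1)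
        (QuotientGroup.mk' ((⊤ : Subgroup P).lowerCentralSeries 2) e2) := by
      have h3 : e1 * e2 = e2 * e1 := by
        have := hE.is_comm.comm (⟨e1, he1⟩ : ↥E) ⟨e2, he2⟩
        exact congrArg Subtype.val this
      have h4 : Commute e1 e2 := h3
      exact h4.map _
    exact Commute.mul_left (Commute.mul_right hee (hcen c2 hc2 e1).symm)
      (Commute.mul_right (hcen c1 hc1 e2) (hcen c1 hc1 c2))
  have hstep : ∀ i : ℕ, (Subgroup.normalClosure (E : Set P)).lowerCentralSeries (i + 1)
      ≤ (⊤ : Subgroup P).lowerCentralSeries (i + 2) := by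
    intro i
    induction i with
    | zero =>
      rw [Subgroup.lowerCentralSeries_succ, Subgroup.lowerCentralSeries_zero, Subgroup.commutator_le]
      intro x hx y hy
      exact hcomm x (hNH hx) y (hNH hy)
    | succ i ih =>
      rw [Subgroup.lowerCentralSeries_succ, Subgroup.lowerCentralSeries_succ _ (i + 2)]
      exact Subgroup.commutator_mono ih le_top
  have hc2 : 2 ≤ Group.nilpotencyClass P := by
    by_contra h
    exact hna (Group.IsNilpotent.nilpotencyClass_le_one_iff.mp (by omega))
  obtain ⟨i, hi⟩ : ∃ i, Group.nilpotencyClass P = i + 2 := ⟨Group.nilpotencyClass P - 2, by omega⟩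
  have h5 : (Subgroup.normalClosure (E : Set P)).lowerCentralSeries (i + 1) = ⊥ := by
    rw [eq_bot_iff]
    refine (hstep i).trans ?_
    rw [← hi, Subgroup.lowerCentralSeries_nilpotencyClass]
  have h6 : (⊤ : Subgroup ↥(Subgroup.normalClosure (E : Set P))).lowerCentralSeries (i + 1) = ⊥ := by
    rw [← Subgroup.top_subtype_lowerCentralSeries] at h5
    exact (Subgroup.map_eq_bot_iff_of_injective _ (Subgroup.subtype_injective _)).mp h5
  have h7 := Subgroup.lowerCentralSeries_eq_bot_iff_nilpotencyClass_le.mp h6
  omega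

/-- Let P be a non-abelian nilpotent p-group (every element of p-power order; P possibly infinite) generated by two abelian subgroups E and F. Then the normal closure of E in P, and likewise that of F, has nilpotency class strictly smaller than that of P. -/
theorem result {P : Type*} [Group P] {p : ℕ} [Fact p.Prime] (hP : IsPGroup p P) [Group.IsNilpotent P]
    (hna : ¬ IsMulCommutative P) {E F : Subgroup P} (hE : IsMulCommutative ↥E) (hF : IsMulCommutative ↥F) (hgen : E ⊔ F = ⊤) :
    Group.nilpotencyClass ↥(Subgroup.normalClosure (E : Set P)) < Group.nilpotencyClass P ∧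
    Group.nilpotencyClass ↥(Subgroup.normalClosure (F : Set P)) < Group.nilpotencyClass P := by
  exact ⟨key hna hE, key hna hF⟩

end Cfsg.Agent.S5067
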