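import Cfsg.Statements.S5087
import Cfsg.Agent.Lib.Helper26.FusNormal2

set_option autoImplicit false
open Cfsg

namespace Cfsg.Agent.S5087

open Cfsg.Agent.Lib.Helper26 Cfsg.FusionSystem

/-- In a saturated fusion system over a finite p-group S, a subgroup Q is normal in the system if and only if every subgroup P that equals S or is essential contains Q and every element of Aut_F(P) maps Q onto itself. -/
theorem result {Ω : Type*} [Group Ω] {S : Subgroup Ω} [Finite S] (p : ℕ) [Fact p.Prime] (hS : IsPGroup p S) (F : Cfsg.FusionSystem S) (hF : F.IsSaturated p) (Q : Subgroup Ω) : F.IsNormal Q ↔ ∀ P : Subgroup Ω, (P = S ∨ F.IsEssential p P) → (Q ≤ P ∧ ∀ α ∈ F.autGroup P, (Q.subgroupOf P).map α.toMonoidHom = Q.subgroupOf P) := by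
  rw [isNormal_iff_ess hS hF]
  refine forall_congr' (fun P => forall_congr' (fun _ => ?_))
  constructor
  · rintro ⟨hQP, h⟩
    refine ⟨hQP, fun α hα => ?_⟩
    apply le_antisymm
    · rintro _ ⟨x, hx, rfl⟩
      have hx' : (x : Ω) ∈ Q := Subgroup.mem_subgroupOf.1 hx
      have := h α hα x hx'
      rw [aev_coe] at this
      exact Subgroup.mem_subgroupOf.2 this
    · intro y hy
      rw [Subgroup.mem_subgroupOf] at hy
      refine ⟨α⁻¹ y, ?_, MulAut.apply_inv_self _ α y⟩
      have := h α⁻¹ (Subgroup.inv_mem _ hα) y hy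
      rw [aev_coe] at this
      exact Subgroup.mem_subgroupOf.2 this
  · rintro ⟨hQP, h⟩
    refine ⟨hQP, fun α hα x hx => ?_⟩
    have h1 : α ⟨x, hQP hx⟩ ∈ (Q.subgroupOf P).map α.toMonoidHom := ⟨⟨x, hQP hx⟩, Subgroup.mem_subgroupOf.2 hx, rfl⟩
    rw [h α hα] at h1
    rw [aev_mem α (hQP hx)]
    exact Subgroup.mem_subgroupOf.1 h1

end Cfsg.Agent.S5087
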