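import Cfsg.Statements.S5088
import Cfsg.Agent.Lib.Helper26.FusNormal3

set_option autoImplicit false
open Cfsg

namespace Cfsg.Agent.S5088

open Cfsg.Agent.Lib.Helper26 Cfsg.FusionSystem

/-- In a saturated fusion system over a finite p-group, a subgroup Q is normal in the system if and only if there is a chain of subgroups 1 = Q₀ ≤ Q₁ ≤ ⋯ ≤ Qₙ = Q such that each Qᵢ with i ≥ 1 is strongly closed in the system and [Q, Qᵢ] ≤ Qᵢ₋₁. -/
theorem result {Ω : Type*} [Group Ω] {S : Subgroup Ω} [Finite S] (p : ℕ) [Fact p.Prime] (hS : IsPGroup p S) (F : Cfsg.FusionSystem S) (hF : F.IsSaturated p) (Q : Subgroup Ω) : F.IsNormal Q ↔ ∃ (n : ℕ) (Qs : Fin (n + 1) → Subgroup Ω), Qs 0 = ⊥ ∧ Qs (Fin.last n) = Q ∧ Monotone Qs ∧ ∀ i : Fin n, F.StronglyClosed (Qs i.succ) ∧ ⁅Q, Qs i.succ⁆ ≤ Qs (Fin.castSucc i) := by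
  constructor
  · intro hQ
    obtain ⟨n, hn⟩ := exists_ucs_eq hS hQ.1
    refine ⟨n, fun i => ucs Q i, ucs_zero Q, hn, fun i j hij => ucs_mono' Q hij, fun i => ⟨?_, ?_⟩⟩
    · exact IsNormal.stronglyClosed (IsNormal.ucs hQ _)
    · rw [Subgroup.commutator_comm]
      exact ucs_comm Q i
  · rintro ⟨n, C, h0, hn, hmono, h⟩
    rcases Nat.eq_zero_or_pos n with rfl | hpos
    · have : Q = ⊥ := by rw [← hn, ← h0]; rfl
      rw [this]
      exact isNormal_bot
    · have hQ : F.StronglyClosed Q := by
        have := (h ⟨n - 1, by omega⟩).1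
        have e : (⟨n - 1, by omega⟩ : Fin n).succ = Fin.last n := by
          apply Fin.ext
          simp only [Fin.val_succ, Fin.val_last]
          omega
        rw [e, hn] at this
        exact this
      refine isNormal_of_finChain hS hF hQ n C h0 hn hmono (fun i => ?_) (fun i => ?_)
      · rw [Subgroup.commutator_comm]
        exact (h i).2
      · rcases Nat.eq_zero_or_pos i.1 with hi | hi
        · have e : i.castSucc = 0 := by
            apply Fin.ext
            simpa using hi
          rw [e, h0]
          exact weaklyClosed_bot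
        · have e : i.castSucc = (⟨i.1 - 1, by omega⟩ : Fin n).succ := by
            apply Fin.ext
            simp only [Fin.val_succ, Fin.val_castSucc]
            omega
          rw [e]
          exact StronglyClosed.weaklyClosed (h _).1

end Cfsg.Agent.S5088
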