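import Cfsg.Statements.S5094
import Mathlib
import Cfsg.Agent.Lib.Helper2.ZStarGen

set_option autoImplicit false
open Cfsg

namespace Cfsg.Agent.S5094

/-- Glauberman's Z*-Theorem in fusion language: for a finite group G with Sylow 2-subgroup S, the centre of the fusion system of G on S is the set of elements of S whose image in G/O(G) is central, O(G) being the largest normal subgroup of odd order. -/
theorem result {G : Type*} [Group G] [Finite G] (S : Sylow 2 G) : (Cfsg.groupFusionSystem (S : Subgroup G)).center = (S : Subgroup G) ⊓ (Subgroup.center (G ⧸ Cfsg.oddCore G)).comap (QuotientGroup.mk' (Cfsg.oddCore G)) := by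
  haveI : Fact (Nat.Prime 2) := ⟨Nat.prime_two⟩
  have hKn : (Cfsg.oddCore G).Normal := Cfsg.pPrimeCore_normal 2 G
  apply le_antisymm
  · apply sSup_le
    intro Q hQ
    obtain ⟨hQS, hext⟩ := hQ
    intro x hx
    refine ⟨hQS hx, ?_⟩
    have hW : ∀ (j : ℕ) (g : G), g * x ^ j * g⁻¹ ∈ S → g * x ^ j * g⁻¹ = x ^ j := by
      intro j g hg
      have hxj : x ^ j ∈ Q := Q.pow_mem hx j
      have hPS : Subgroup.zpowers (x ^ j) ≤ (S : Subgroup G) := Subgroup.zpowers_le.mpr (hQS hxj)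
      have hφ : Cfsg.conjHom (Subgroup.zpowers (x ^ j)) g ∈
          (Cfsg.groupFusionSystem (S : Subgroup G)).Hom (Subgroup.zpowers (x ^ j)) := by
        refine ⟨hPS, ?_, g, fun y => rfl⟩
        intro y
        obtain ⟨k, hk⟩ := Subgroup.mem_zpowers_iff.mp y.2
        show g * (y : G) * g⁻¹ ∈ (S : Subgroup G)
        rw [← hk, ← conj_zpow]
        exact Subgroup.zpow_mem _ hg k
      obtain ⟨ψ, _, h1, h2⟩ := hext _ _ hφ
      have e1 := h1 ⟨x ^ j, Subgroup.mem_zpowers _⟩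
      have e2 := h2 ⟨x ^ j, hxj⟩
      have e3 : Subgroup.inclusion (le_sup_left : Subgroup.zpowers (x ^ j) ≤ Subgroup.zpowers (x ^ j) ⊔ Q)
          ⟨x ^ j, Subgroup.mem_zpowers _⟩ =
          Subgroup.inclusion (le_sup_right : Q ≤ Subgroup.zpowers (x ^ j) ⊔ Q) ⟨x ^ j, hxj⟩ := rfl
      rw [e3, e2] at e1
      exact e1.symm
    have hz := Cfsg.Agent.Lib.Helper2.zstar_general S (hQS hx) hW
    show QuotientGroup.mk' (Cfsg.oddCore G) x ∈ Subgroup.center (G ⧸ Cfsg.oddCore G)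
    rw [Subgroup.mem_center_iff]
    intro g
    obtain ⟨g, rfl⟩ := QuotientGroup.mk_surjective g
    have h1 := (QuotientGroup.eq_one_iff (N := Cfsg.oddCore G) _).mpr (hz g)
    rw [QuotientGroup.mk_mul, QuotientGroup.mk_mul, QuotientGroup.mk_mul, QuotientGroup.mk_inv,
      QuotientGroup.mk_inv] at h1
    have h2 := mul_inv_eq_one.mp h1
    exact mul_inv_eq_iff_eq_mul.mp h2
  · apply le_sSup
    have hZ : ∀ z ∈ (S : Subgroup G) ⊓ (Subgroup.center (G ⧸ Cfsg.oddCore G)).comap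
        (QuotientGroup.mk' (Cfsg.oddCore G)), ∀ g : G, g * z * g⁻¹ * z⁻¹ ∈ Cfsg.oddCore G := by
      intro z hz g
      have h1 := Subgroup.mem_center_iff.mp (Subgroup.mem_comap.mp hz.2) (QuotientGroup.mk g)
      rw [← QuotientGroup.eq_one_iff, QuotientGroup.mk_mul, QuotientGroup.mk_mul,
        QuotientGroup.mk_mul, QuotientGroup.mk_inv, QuotientGroup.mk_inv]
      rw [mul_inv_eq_one, mul_inv_eq_iff_eq_mul]
      exact h1
    have hSK : ∀ a ∈ (S : Subgroup G), ∀ b ∈ (S : Subgroup G), a * b⁻¹ ∈ Cfsg.oddCore G → a = b := by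
      intro a ha b hb hab
      have hm : a * b⁻¹ ∈ (S : Subgroup G) := Subgroup.mul_mem _ ha (Subgroup.inv_mem _ hb)
      obtain ⟨k, hk⟩ := (IsPGroup.iff_orderOf.mp S.2) ⟨_, hm⟩
      rw [Subgroup.orderOf_mk] at hk
      have hd : orderOf (a * b⁻¹) ∣ Nat.card (Cfsg.oddCore G) := by
        have := orderOf_dvd_natCard (⟨_, hab⟩ : Cfsg.oddCore G)
        rwa [Subgroup.orderOf_mk] at this
      have hcop : Nat.Coprime (orderOf (a * b⁻¹)) (Nat.card (Cfsg.oddCore G)) := by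
        rw [hk]
        exact Nat.Coprime.pow_left k
          (Cfsg.Agent.Lib.Helper8.coprime_card_pPrimeCore (G := G) 2).symm
      have h1 := Nat.Coprime.eq_one_of_dvd hcop hd
      exact mul_inv_eq_one.mp (orderOf_eq_one_iff.mp h1)
    refine ⟨inf_le_left, ?_⟩
    rintro P φ ⟨hPS, hφS, g, hg⟩
    obtain ⟨Z, hZdef⟩ : ∃ Z, Z = (S : Subgroup G) ⊓ (Subgroup.center (G ⧸ Cfsg.oddCore G)).comap
        (QuotientGroup.mk' (Cfsg.oddCore G)) := ⟨_, rfl⟩
    rw [← hZdef] at hZ ⊢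
    have hZS : Z ≤ (S : Subgroup G) := hZdef ▸ inf_le_left
    have hTS : P ⊔ Z ≤ (S : Subgroup G) := sup_le hPS hZS
    have hU : IsPGroup 2 ((P ⊔ Z).map (MulAut.conj g).toMonoidHom) := (S.2.to_le hTS).map _
    have hle : (P ⊔ Z).map (MulAut.conj g).toMonoidHom ≤ (S : Subgroup G) ⊔ Cfsg.oddCore G := by
      rw [Subgroup.map_sup]
      apply sup_le
      · rintro _ ⟨y, hy, rfl⟩
        apply Subgroup.mem_sup_left
        have := hφS ⟨y, hy⟩
        rw [hg] at this
        exact this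
      · rintro _ ⟨z, hz, rfl⟩
        have e : (MulAut.conj g).toMonoidHom z = (g * z * g⁻¹ * z⁻¹) * z := by
          simp
        rw [e]
        exact Subgroup.mul_mem _ (Subgroup.mem_sup_right (hZ z hz g)) (Subgroup.mem_sup_left (hZS hz))
    obtain ⟨h, hh, hhU⟩ := Cfsg.Agent.Lib.Helper2.exists_conj_mem_sylow_of_le_sup S
      (Cfsg.oddCore G) hU hle
    have hmem : ∀ y ∈ P ⊔ Z, (h * g) * y * (h * g)⁻¹ ∈ (S : Subgroup G) := by
      intro y hy
      have := hhU _ ⟨y, hy, rfl⟩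
      have e : h * (MulAut.conj g).toMonoidHom y * h⁻¹ = (h * g) * y * (h * g)⁻¹ := by
        simp [mul_assoc]
      rwa [e] at this
    refine ⟨Cfsg.conjHom (P ⊔ Z) (h * g), ⟨hTS, fun y => hmem y y.2, h * g, fun y => rfl⟩, ?_, ?_⟩
    · intro x
      have hb : g * (x : G) * g⁻¹ ∈ (S : Subgroup G) := by
        have := hφS x
        rwa [hg] at this
      rw [hg]
      apply hSK _ (hmem x (Subgroup.mem_sup_left x.2)) _ hb
      have e : (h * g) * (x : G) * (h * g)⁻¹ * (g * (x : G) * g⁻¹)⁻¹ =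
          h * ((g * (x : G) * g⁻¹) * h⁻¹ * (g * (x : G) * g⁻¹)⁻¹) := by group
      rw [e]
      exact Subgroup.mul_mem _ hh (hKn.conj_mem _ (Subgroup.inv_mem _ hh) _)
    · intro z
      apply hSK _ (hmem z (Subgroup.mem_sup_right z.2)) _ (hZS z.2)
      have e : (h * g) * (z : G) * (h * g)⁻¹ * (z : G)⁻¹ =
          h * (g * (z : G) * g⁻¹ * (z : G)⁻¹) * ((z : G) * h⁻¹ * (z : G)⁻¹) := by group
      rw [e]
      exact Subgroup.mul_mem _ (Subgroup.mul_mem _ hh (hZ z z.2 g))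
        (hKn.conj_mem _ (Subgroup.inv_mem _ hh) _)

end Cfsg.Agent.S5094
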