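import Cfsg.Statements.S5112
import Mathlib
import Cfsg.Agent.Lib.Helper17.AutTwo
import Cfsg.Agent.Lib.Helper26.FusBasic

set_option autoImplicit false
open Cfsg

namespace Cfsg.Agent.S5112

open Cfsg.Agent.Lib.Helper17.AutTwo Cfsg.Agent.Lib.Helper26 Cfsg.FusionSystem

theorem dihedral_aut (k : ℕ) (hk : 4 ≤ 2 ^ k) : IsPGroup 2 (MulAut (DihedralGroup (2 ^ k))) := by
  haveI : NeZero (2 ^ k) := ⟨by positivity⟩
  have hx : orderOf (DihedralGroup.r (1 : ZMod (2 ^ k))) = 2 ^ k := DihedralGroup.orderOf_r_one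
  apply isPGroup_mulAut (DihedralGroup.r (1 : ZMod (2 ^ k))) k hx
  · have h1 := (Subgroup.zpowers (DihedralGroup.r (1 : ZMod (2 ^ k)))).card_mul_index
    rw [Nat.card_zpowers, hx, DihedralGroup.nat_card, mul_comm] at h1
    exact Nat.eq_of_mul_eq_mul_right (by positivity) h1
  · intro g hg
    cases g with
    | r i =>
      exfalso
      apply hg
      refine ⟨(i.val : ℤ), ?_⟩
      show DihedralGroup.r (1 : ZMod (2 ^ k)) ^ (i.val : ℤ) = DihedralGroup.r i
      rw [zpow_natCast, DihedralGroup.r_one_pow, ZMod.natCast_val, ZMod.cast_id', id_eq]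
    | sr i =>
      rw [DihedralGroup.orderOf_sr, hx]
      omega

theorem quaternion_aut (k : ℕ) (hk : 4 ≤ 2 ^ k) : IsPGroup 2 (MulAut (QuaternionGroup (2 ^ k))) := by
  haveI : NeZero (2 ^ k) := ⟨by positivity⟩
  have hx : orderOf (QuaternionGroup.a (1 : ZMod (2 * 2 ^ k))) = 2 ^ (k + 1) := by
    rw [QuaternionGroup.orderOf_a_one, pow_succ, mul_comm]
  apply isPGroup_mulAut (QuaternionGroup.a (1 : ZMod (2 * 2 ^ k))) (k + 1) hx
  · have h1 := (Subgroup.zpowers (QuaternionGroup.a (1 : ZMod (2 * 2 ^ k)))).card_mul_index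
    rw [Nat.card_zpowers, hx, Nat.card_eq_fintype_card, QuaternionGroup.card] at h1
    have h2 : 4 * 2 ^ k = 2 ^ (k + 1) * 2 := by ring
    rw [h2] at h1
    exact Nat.eq_of_mul_eq_mul_left (by positivity) h1
  · intro g hg
    cases g with
    | a i =>
      exfalso
      apply hg
      refine ⟨(i.val : ℤ), ?_⟩
      show QuaternionGroup.a (1 : ZMod (2 * 2 ^ k)) ^ (i.val : ℤ) = QuaternionGroup.a i
      rw [zpow_natCast, QuaternionGroup.a_one_pow, ZMod.natCast_val, ZMod.cast_id', id_eq]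
    | xa i =>
      rw [QuaternionGroup.orderOf_xa, hx, pow_succ]
      omega

/-- If S is a dihedral or generalized quaternion 2-group of order at least 16, then in every saturated fusion system over S (at the prime 2) the automorphism group Aut_F(S) consists of the inner automorphisms of S. -/
theorem result {Ω : Type*} [Group Ω] {S : Subgroup Ω} [Finite S] (n : ℕ) (hn : 4 ≤ n) (hshape : Nonempty (S ≃* DihedralGroup (2 ^ (n - 1))) ∨ Nonempty (S ≃* QuaternionGroup (2 ^ (n - 2)))) (F : Cfsg.FusionSystem S) (hF : F.IsSaturated 2) : F.autGroup S = Cfsg.Inn S := by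
  have hAut : IsPGroup 2 (MulAut ↥S) := by
    rcases hshape with ⟨⟨e⟩⟩ | ⟨⟨e⟩⟩
    · refine (dihedral_aut (n - 1) ?_).of_equiv (MulAut.congr e).symm
      calc 4 = 2 ^ 2 := by norm_num
        _ ≤ 2 ^ (n - 1) := Nat.pow_le_pow_right (by norm_num) (by omega)
    · refine (quaternion_aut (n - 2) ?_).of_equiv (MulAut.congr e).symm
      calc 4 = 2 ^ 2 := by norm_num
        _ ≤ 2 ^ (n - 2) := Nat.pow_le_pow_right (by norm_num) (by omega)
  obtain ⟨Q, hconj, ⟨_, R, hR⟩, _⟩ := hF S le_rfl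
  have hQS : Q = S := by
    have h1 := IsConj.le_right hconj
    have h2 := IsConj.card_eq hconj
    exact Subgroup.eq_of_le_of_card_ge h1 h2.le
  subst hQS
  apply le_antisymm _ (Inn_le_autGroup le_rfl)
  have hp : IsPGroup 2 ↥(F.autGroup Q) := hAut.to_subgroup _
  have hRtop : (R : Subgroup ↥(F.autGroup Q)) = ⊤ := by
    have h3 : IsPGroup 2 ↥(⊤ : Subgroup ↥(F.autGroup Q)) := hp.to_subgroup _
    exact (R.is_maximal' h3 le_top).symm
  rw [hR, Subgroup.subgroupOf_eq_top] at hRtop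
  rw [Inn_eq_autInducedBy]
  exact hRtop

end Cfsg.Agent.S5112
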