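import Cfsg.Statements.S5119
import Cfsg.Agent.Lib.Helper26.FusInv

set_option autoImplicit false
open Cfsg

namespace Cfsg.Agent.S5119

open Cfsg.Agent.Lib.Helper26 Cfsg.FusionSystem

/-- Let F be a saturated fusion system over a finite p-group S and E a subsystem of F over a subgroup T that is strongly closed in F. Then E is invariant in F (invariance under Aut_F(T) plus the Frattini condition) if and only if the strong invariance condition holds: for P ≤ Q ≤ T, every map φ of E from P into Q and every map ψ of F with source Q, the transported map ψ φ ψ⁻¹ on ψ(P) is a map of E. -/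
theorem result {Ω : Type*} [Group Ω] {S : Subgroup Ω} [Finite S] (p : ℕ) [Fact p.Prime] (hS : IsPGroup p S) (F : Cfsg.FusionSystem S) (hF : F.IsSaturated p) {T : Subgroup Ω} (E : Cfsg.FusionSystem T) (hE : E.IsSubsystemOf F) (hT : F.StronglyClosed T) : E.IsInvariantIn F ↔ ∀ (P Q : Subgroup Ω) (hPQ : P ≤ Q) (_ : Q ≤ T) (φ : P →* Ω) (_ : φ ∈ E.Hom P) (hφQ : ∀ x : P, φ x ∈ Q) (ψ : Q →* Ω) (_ : ψ ∈ F.Hom Q), ∃ χ ∈ E.Hom ((P.subgroupOf Q).map ψ), ∀ (x : P) (hx : ψ (Subgroup.inclusion hPQ x) ∈ (P.subgroupOf Q).map ψ), χ ⟨ψ (Subgroup.inclusion hPQ x), hx⟩ = ψ ⟨φ x, hφQ x⟩ := by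
  rw [isInvariantIn_iff_sInv hS hF hE hT]
  constructor
  · intro h P Q hPQ hQT φ hφ hφQ ψ hψ
    obtain ⟨χ, hχ, hχ'⟩ := h P Q hPQ hQT (ev φ) (Map.of_hom hφ)
      (fun x hx => by rw [ev_mem φ hx]; exact hφQ _) (ev ψ) (Map.of_hom hψ)
    have e : (P.subgroupOf Q).map ψ = im (ev ψ) P := map_subgroupOf_eq_im (fun x => (ev_coe ψ x).symm) hPQ
    rw [← e] at hχ
    obtain ⟨χ', hχ'm, h6⟩ := hχ
    refine ⟨χ', hχ'm, fun x hx => ?_⟩
    rw [h6]
    have h7 := hχ' x x.2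
    rw [ev_mem ψ (hPQ x.2), ev_coe φ x, ev_mem ψ (hφQ x)] at h7
    exact h7
  · intro h P Q hPQ hQT f hf hfQ g hg
    obtain ⟨φ, hφ, h5⟩ := hf
    obtain ⟨ψ, hψ, h5'⟩ := hg
    have hφQ : ∀ x : P, φ x ∈ Q := fun x => by rw [h5]; exact hfQ x x.2
    obtain ⟨χ, hχ, h6⟩ := h P Q hPQ hQT φ hφ hφQ ψ hψ
    have e : (P.subgroupOf Q).map ψ = im g P := map_subgroupOf_eq_im h5' hPQ
    refine ⟨ev χ, e ▸ Map.of_hom hχ, fun x hx => ?_⟩
    have hx' : ψ (Subgroup.inclusion hPQ ⟨x, hx⟩) ∈ (P.subgroupOf Q).map ψ := by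
      rw [e, h5']
      exact mem_im_of_mem hx
    have h7 := h6 ⟨x, hx⟩ hx'
    have e1 : g x = ψ (Subgroup.inclusion hPQ ⟨x, hx⟩) := (h5' (Subgroup.inclusion hPQ ⟨x, hx⟩)).symm
    rw [e1, ev_mem χ hx', h7, h5']
    have h8 := h5 ⟨x, hx⟩
    show g (φ ⟨x, hx⟩) = g (f x)
    rw [h8]

end Cfsg.Agent.S5119
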