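import Cfsg.Statements.S5145
import Cfsg.Agent.Lib.Helper26.FusNormal

set_option autoImplicit false
open Cfsg

namespace Cfsg.Agent.S5145

open Cfsg.Agent.Lib.Helper26 Cfsg.FusionSystem

/-- For a fusion system over a finite subgroup S, the join of all subgroups normal in the system is itself normal in the system, hence its largest normal subgroup. -/
theorem result {Ω : Type*} [Group Ω] {S : Subgroup Ω} [Finite S] (F : Cfsg.FusionSystem S) : F.IsNormal F.core := by
  exact isNormal_core F

end Cfsg.Agent.S5145
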