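import Cfsg.Statements.S5160
import Cfsg.Agent.Lib.Helper26.FusIdx

set_option autoImplicit false
open Cfsg

namespace Cfsg.Agent.S5160

open Cfsg.Agent.Lib.Helper26 Cfsg.FusionSystem

/-- Let G be a finite group with nontrivial Sylow p-subgroup S and F its fusion system on S. Suppose (a) no nontrivial proper subgroup of S is strongly closed in F, and (b) the automorphisms of S induced by G are generated by those induced, for R running over the fully normalized radical centric subgroups of F, by the subgroup of N_G(R) generated by its elements of p-power order. Then F is simple. -/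
theorem result {G : Type*} [Group G] [Finite G] (p : ℕ) [Fact p.Prime] (S : Sylow p G) (hS1 : (S : Subgroup G) ≠ ⊥) (ha : ∀ T : Subgroup G, (Cfsg.groupFusionSystem (S : Subgroup G)).StronglyClosed T → T = ⊥ ∨ T = (S : Subgroup G)) (hb : Cfsg.autInducedBy ⊤ (S : Subgroup G) = ⨆ (R : Subgroup G) (_ : (Cfsg.groupFusionSystem (S : Subgroup G)).IsFullyNormalized R ∧ (Cfsg.groupFusionSystem (S : Subgroup G)).IsRadical p R ∧ (Cfsg.groupFusionSystem (S : Subgroup G)).IsCentric R), Cfsg.autInducedBy (Subgroup.closure {g : G | g ∈ Subgroup.normalizer (R : Set G) ∧ ∃ k : ℕ, orderOf g = p ^ k}) (S : Subgroup G)) : (Cfsg.groupFusionSystem (S : Subgroup G)).IsSimple p := by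
  have hSp : IsPGroup p (S : Subgroup G) := S.isPGroup'
  have hFsat : (Cfsg.groupFusionSystem (S : Subgroup G)).IsSaturated p := isSaturated_group S
  refine ⟨hFsat, hS1, fun T E hE => ?_⟩
  obtain ⟨hEsat, -, hinv, -⟩ := isNormalIn_iff.1 hE
  obtain ⟨hEF, hTsc, hI, hFr⟩ := isInvariantIn_iff.1 hinv
  rcases ha T hTsc with rfl | rfl
  · left; rfl
  right
  refine ⟨rfl, ?_⟩
  have hFaut : ∀ R : Subgroup G, R ≤ (S : Subgroup G) →
      (Cfsg.groupFusionSystem (S : Subgroup G)).autGroup R = Cfsg.autInducedBy ⊤ R := by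
    intro R hR
    rw [groupFusionSystem_eq]
    exact autGroup_sub hR
  have key : (Cfsg.groupFusionSystem (S : Subgroup G)).autGroup (S : Subgroup G) ≤ E.autGroup (S : Subgroup G) := by
    rw [hFaut _ le_rfl, hb]
    refine iSup_le fun R => iSup_le fun hR => ?_
    obtain ⟨hRn, hRr, hRc⟩ := hR
    have hRS := hRc.1
    intro β hβ
    obtain ⟨g, hgK, hg⟩ := mem_autInducedBy_iff.1 hβ
    have hβF : β ∈ (Cfsg.groupFusionSystem (S : Subgroup G)).autGroup (S : Subgroup G) := by
      rw [hFaut _ le_rfl]
      exact autInducedBy_mono le_top hβ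
    have hC : ∀ g ∈ Subgroup.closure {g : G | g ∈ Subgroup.normalizer (R : Set G) ∧ ∃ k : ℕ, orderOf g = p ^ k},
        g ∈ Subgroup.normalizer (R : Set G) ∧ Map E R (cj g) := by
      intro g hg
      induction hg using Subgroup.closure_induction with
      | mem g hg =>
        obtain ⟨hgN, k, hk⟩ := hg
        refine ⟨hgN, ?_⟩
        obtain ⟨δ, hδ⟩ := exists_aut_of_normalizer hgN
        have hδF : δ ∈ (Cfsg.groupFusionSystem (S : Subgroup G)).autGroup R := by
          rw [hFaut _ hRS]
          exact mem_autInducedBy_iff.2 ⟨g, Subgroup.mem_top g, hδ⟩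
        have hδk : δ ^ p ^ k = 1 := by
          apply aut_ext
          intro x hx
          rw [aev_pow_conj hδ _ x hx, ← hk, pow_orderOf_eq_one, aev_one hx]
          simp
        have := pElement_mem_autGroup hSp hFsat hinv hRn hδF hδk
        exact ((mem_autGroup_iff hRS).1 this).congr hδ
      | one => exact ⟨Subgroup.one_mem _, Map.conj hRS (Subgroup.one_mem _)⟩
      | mul a b _ _ iha ihb =>
        refine ⟨Subgroup.mul_mem _ iha.1 ihb.1, ?_⟩
        refine (ihb.2.comp iha.2 (fun x hx => conj_mem_of_normalizer ihb.1 hx)).congr fun x _ => ?_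
        simp only [Function.comp, cj]
        group
      | inv a _ iha =>
        refine ⟨Subgroup.inv_mem _ iha.1, ?_⟩
        have h1 := iha.2.symm
        rw [im_cj_eq_of_normalizer iha.1] at h1
        refine h1.congr fun y hy => ?_
        have h2 : a⁻¹ * y * a ∈ R := conj_inv_mem_of_normalizer iha.1 hy
        have h3 : y = cj a (a⁻¹ * y * a) := by simp only [cj]; group
        conv_lhs => rw [h3]
        rw [inv_apply iha.2 h2]
        simp only [cj]
        group
    obtain ⟨hgN, hgE⟩ := hC g hgK
    have hβR : Map E R (aev β) := hgE.congr fun x hx => (hg x (hRS hx)).symm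
    have him : im (aev β) R = R := by
      rw [im_congr (g := cj g) (fun x hx => hg x (hRS hx)), im_cj_eq_of_normalizer hgN]
    rw [mem_autGroup_iff le_rfl]
    exact aut_mem_of_centric hSp hFsat hEsat hEF hβF _ R rfl hRc him hβR
  intro P
  ext φ
  constructor
  · exact fun h => hinv.1 P h
  · intro h
    rw [mem_hom_iff_map]
    have hm := Map.of_hom h
    obtain ⟨α, hα, f₀, hf₀, h1⟩ := hFr P hm.le _ hm
    exact (hf₀.comp ((mem_autGroup_iff le_rfl).1 (key hα)) (fun x hx => hf₀.mem_S hx)).congr
      (fun x hx => (h1 x hx).symm)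

end Cfsg.Agent.S5160
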