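import Cfsg.Statements.S5166
import Cfsg.Agent.Lib.Helper28.SylM11

set_option autoImplicit false
open Cfsg

namespace Cfsg.Agent.S5166

/-- The 2-fusion system of the Mathieu group M₁₁ (as the explicit permutation group carved out of the automorphism group of the binary Golay code) on a Sylow 2-subgroup is simple: saturated, over a nontrivial 2-group, with no normal subsystem other than the trivial one and itself. -/
theorem result (S : Sylow 2 Cfsg.Spor.M11) : (Cfsg.groupFusionSystem (S : Subgroup Cfsg.Spor.M11)).IsSimple 2 := by
  open Cfsg.Agent.Lib.Helper28 in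
  exact fus_simple_pc Cfsg.Spor.M11 inM11P_spec pc11 cs11 z11 495 pc11_ok pc11_in z11_ok cent11 gen11 good11
    (by rw [card_sporM11]; rfl) (by norm_num) S

end Cfsg.Agent.S5166
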