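import Cfsg.Statements.S5344
import Cfsg.Agent.Lib.Helper27.Basic

set_option autoImplicit false
open Cfsg
open Cfsg.Agent.Lib.Helper27
open scoped Pointwise

namespace Cfsg.Agent.S5344

/-- A group generated by three involutions satisfying the Coxeter relations of type `A₃` has at most 24 elements. -/
theorem card_closure_le {W : Type*} [Group W] (a b c : W) (ha : a * a = 1) (hb : b * b = 1) (hc : c * c = 1)
    (hac : c * a = a * c) (hab : b * a * b = a * b * a) (hbc : c * b * c = b * c * b) :
    Finite (Subgroup.closure ({a, b, c} : Set W)) ∧ Nat.card (Subgroup.closure ({a, b, c} : Set W)) ≤ 24 := by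
  classical
  let U : Finset W := {1, a, b, a * b, b * a, a * b * a}
  let V : Finset W := {1, c, c * b, c * b * a}
  have hU : ∀ u ∈ U, u * a ∈ U ∧ u * b ∈ U := by
    intro u hu
    simp only [U, Finset.mem_insert, Finset.mem_singleton] at hu ⊢
    rcases hu with rfl | rfl | rfl | rfl | rfl | rfl
    · simp
    · simp [ha]
    · simp [hb]
    · refine ⟨by simp, ?_⟩
      rw [mul_assoc, hb]; simp
    · refine ⟨?_, ?_⟩
      · rw [mul_assoc, ha]; simp
      · rw [hab]; simp
    · refine ⟨?_, ?_⟩
      · rw [mul_assoc, ha]; simp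
      · rw [← hab, mul_assoc, hb]; simp
  have hX : ∀ x ∈ U * V, x * a ∈ U * V ∧ x * b ∈ U * V ∧ x * c ∈ U * V := by
    intro x hx
    obtain ⟨u, hu, v, hv, rfl⟩ := Finset.mem_mul.1 hx
    have hua := (hU u hu).1
    have hub := (hU u hu).2
    simp only [V, Finset.mem_insert, Finset.mem_singleton] at hv
    have m1 : (1 : W) ∈ V := by simp [V]
    have m2 : c ∈ V := by simp [V]
    have m3 : c * b ∈ V := by simp [V]
    have m4 : c * b * a ∈ V := by simp [V]
    rcases hv with hv | hv | hv | hv <;> rw [hv]
    · refine ⟨?_, ?_, ?_⟩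
      · have : u * 1 * a = (u * a) * 1 := by group
        rw [this]; exact Finset.mul_mem_mul hua m1
      · have : u * 1 * b = (u * b) * 1 := by group
        rw [this]; exact Finset.mul_mem_mul hub m1
      · have : u * 1 * c = u * c := by group
        rw [this]; exact Finset.mul_mem_mul hu m2
    · refine ⟨?_, ?_, ?_⟩
      · have : u * c * a = (u * a) * c := by rw [mul_assoc, hac, mul_assoc]
        rw [this]; exact Finset.mul_mem_mul hua m2
      · have : u * c * b = u * (c * b) := by group
        rw [this]; exact Finset.mul_mem_mul hu m3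
      · have : u * c * c = u * 1 := by rw [mul_assoc, hc]
        rw [this]; exact Finset.mul_mem_mul hu m1
    · refine ⟨?_, ?_, ?_⟩
      · have : u * (c * b) * a = u * (c * b * a) := by group
        rw [this]; exact Finset.mul_mem_mul hu m4
      · have : u * (c * b) * b = u * c := by rw [mul_assoc, mul_assoc, hb, mul_one]
        rw [this]; exact Finset.mul_mem_mul hu m2
      · have : u * (c * b) * c = (u * b) * (c * b) := by
          calc u * (c * b) * c = u * (c * b * c) := by group
            _ = u * (b * c * b) := by rw [hbc]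
            _ = (u * b) * (c * b) := by group
        rw [this]; exact Finset.mul_mem_mul hub m3
    · refine ⟨?_, ?_, ?_⟩
      · have : u * (c * b * a) * a = u * (c * b) := by
          calc u * (c * b * a) * a = u * (c * b) * (a * a) := by group
            _ = u * (c * b) := by rw [ha, mul_one]
        rw [this]; exact Finset.mul_mem_mul hu m3
      · have : u * (c * b * a) * b = (u * a) * (c * b * a) := by
          calc u * (c * b * a) * b = u * c * (b * a * b) := by group
            _ = u * c * (a * b * a) := by rw [hab]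
            _ = u * (c * a) * (b * a) := by group
            _ = u * (a * c) * (b * a) := by rw [hac]
            _ = (u * a) * (c * b * a) := by group
        rw [this]; exact Finset.mul_mem_mul hua m4
      · have : u * (c * b * a) * c = (u * b) * (c * b * a) := by
          calc u * (c * b * a) * c = u * (c * b) * (a * c) := by group
            _ = u * (c * b) * (c * a) := by rw [hac]
            _ = u * (c * b * c) * a := by group
            _ = u * (b * c * b) * a := by rw [hbc]
            _ = (u * b) * (c * b * a) := by group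
        rw [this]; exact Finset.mul_mem_mul hub m4
  have hsub : ((Subgroup.closure ({a, b, c} : Set W) : Subgroup W) : Set W) ⊆ ((U * V : Finset W) : Set W) := by
    intro x hx
    have hx' : x ∈ Subgroup.closure ({a, b, c} : Set W) := hx
    clear hx
    rw [Finset.mem_coe]
    induction hx' using Subgroup.closure_induction_right with
    | one =>
      have : (1 : W) = 1 * 1 := by group
      rw [this]
      exact Finset.mul_mem_mul (by simp [U]) (by simp [V])
    | mul_right x hx y hy ih =>
      have ih' := hX x ih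
      simp only [Set.mem_insert_iff, Set.mem_singleton_iff] at hy
      rcases hy with hy | hy | hy <;> rw [hy]
      · exact ih'.1
      · exact ih'.2.1
      · exact ih'.2.2
    | mul_inv_cancel x hx y hy ih =>
      have ih' := hX x ih
      simp only [Set.mem_insert_iff, Set.mem_singleton_iff] at hy
      rcases hy with hy | hy | hy <;> rw [hy]
      · rw [inv_eq_of_mul_eq_one_left ha]; exact ih'.1
      · rw [inv_eq_of_mul_eq_one_left hb]; exact ih'.2.1
      · rw [inv_eq_of_mul_eq_one_left hc]; exact ih'.2.2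
  have hfin : ((Subgroup.closure ({a, b, c} : Set W) : Subgroup W) : Set W).Finite :=
    (Finset.finite_toSet _).subset hsub
  refine ⟨hfin, ?_⟩
  have h1 : Nat.card (Subgroup.closure ({a, b, c} : Set W)) =
      ((Subgroup.closure ({a, b, c} : Set W) : Subgroup W) : Set W).ncard := rfl
  rw [h1]
  calc ((Subgroup.closure ({a, b, c} : Set W) : Subgroup W) : Set W).ncard
      ≤ ((U * V : Finset W) : Set W).ncard := Set.ncard_le_ncard hsub (Finset.finite_toSet _)
    _ = (U * V).card := Set.ncard_coe_finset _
    _ ≤ U.card * V.card := Finset.card_mul_le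
    _ ≤ 6 * 4 := Nat.mul_le_mul Finset.card_le_six Finset.card_le_four
    _ = 24 := by norm_num

set_option maxRecDepth 100000 in
theorem normal_closure_S4 : ∀ σ : Equiv.Perm (Fin 4), σ ≠ 1 → ∃ τ ρ : Equiv.Perm (Fin 4),
    ρ * (σ * (τ * σ * τ⁻¹)) * ρ⁻¹ = Equiv.swap 0 1 * Equiv.swap 2 3 := by
  decide +kernel

theorem closure_S4 : Subgroup.closure ({Equiv.swap 0 1, Equiv.swap 1 2, Equiv.swap 2 3} : Set (Equiv.Perm (Fin 4))) = ⊤ := by
  have h := Equiv.Perm.mclosure_swap_castSucc_succ 3
  rw [eq_top_iff]
  intro x _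
  have hx : x ∈ Submonoid.closure (Set.range fun i : Fin 3 ↦ Equiv.swap i.castSucc i.succ) := by
    rw [h]; trivial
  have hle : Submonoid.closure (Set.range fun i : Fin 3 ↦ Equiv.swap i.castSucc i.succ) ≤
      (Subgroup.closure ({Equiv.swap 0 1, Equiv.swap 1 2, Equiv.swap 2 3} : Set (Equiv.Perm (Fin 4)))).toSubmonoid := by
    rw [Submonoid.closure_le]
    rintro _ ⟨i, rfl⟩
    apply Subgroup.subset_closure
    fin_cases i
    · left; rfl
    · right; left; rfl
    · right; right; rfl
  exact hle hx

/-- In a set of 3-transpositions, let a, b, c be members with a and c different and commuting, while neither a nor c commutes with b (a 3-string). Then there is an injective homomorphism from the symmetric group of degree 4 into the ambient group sending the transpositions (0 1), (1 2), (2 3) to a, b, c; so a, b, c generate a copy of the symmetric group of degree 4 in which they are transpositions. -/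
theorem result {G : Type*} [Group G] {D : Set G} (hD : Cfsg.IsThreeTranspositionSet D) {a b c : G} (ha : a ∈ D) (hb : b ∈ D) (hc : c ∈ D) (hac : a ≠ c) (hac' : Commute a c) (hab : ¬ Commute a b) (hbc : ¬ Commute b c) : ∃ φ : Equiv.Perm (Fin 4) →* G, Function.Injective φ ∧ φ (Equiv.swap 0 1) = a ∧ φ (Equiv.swap 1 2) = b ∧ φ (Equiv.swap 2 3) = c := by
  have haa := sq_of_orderOf_two (hD.1 a ha)
  have hbb := sq_of_orderOf_two (hD.1 b hb)
  have hcc := sq_of_orderOf_two (hD.1 c hc)
  have hai := inv_of_orderOf_two (hD.1 a ha)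
  have hbi := inv_of_orderOf_two (hD.1 b hb)
  have hci := inv_of_orderOf_two (hD.1 c hc)
  -- braid relations
  have braid : ∀ x y : G, x ∈ D → y ∈ D → ¬ Commute x y → y * x * y = x * y * x := by
    intro x y hx hy hxy
    have hxi := inv_of_orderOf_two (hD.1 x hx)
    have hyi := inv_of_orderOf_two (hD.1 y hy)
    rcases hD.2 x hx y hy with h | h
    · exfalso
      apply hxy
      show x * y = y * x
      have h3 : (x * y) * (x * y) = 1 := by rw [← pow_two, h]
      calc x * y = (x * y)⁻¹ := eq_inv_of_mul_eq_one_left h3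
        _ = y * x := by rw [mul_inv_rev, hxi, hyi]
    · have h3 : (x * y * x) * (y * x * y) = 1 := by
        rw [← h, pow_succ, pow_two]; group
      calc y * x * y = (x * y * x)⁻¹ := (inv_eq_of_mul_eq_one_right h3).symm
        _ = x * y * x := by rw [mul_inv_rev, mul_inv_rev, hxi, hyi, mul_assoc]
  have hbab := braid a b ha hb hab
  have hcbc := braid b c hb hc hbc
  let A : Equiv.Perm (Fin 4) × G := (Equiv.swap 0 1, a)
  let B : Equiv.Perm (Fin 4) × G := (Equiv.swap 1 2, b)
  let C : Equiv.Perm (Fin 4) × G := (Equiv.swap 2 3, c)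
  have s1 : (Equiv.swap 0 1 : Equiv.Perm (Fin 4)) * Equiv.swap 0 1 = 1 := by decide
  have s2 : (Equiv.swap 1 2 : Equiv.Perm (Fin 4)) * Equiv.swap 1 2 = 1 := by decide
  have s3 : (Equiv.swap 2 3 : Equiv.Perm (Fin 4)) * Equiv.swap 2 3 = 1 := by decide
  have s4 : (Equiv.swap 2 3 : Equiv.Perm (Fin 4)) * Equiv.swap 0 1 = Equiv.swap 0 1 * Equiv.swap 2 3 := by decide
  have s5 : (Equiv.swap 1 2 : Equiv.Perm (Fin 4)) * Equiv.swap 0 1 * Equiv.swap 1 2 =
      Equiv.swap 0 1 * Equiv.swap 1 2 * Equiv.swap 0 1 := by decide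
  have s6 : (Equiv.swap 2 3 : Equiv.Perm (Fin 4)) * Equiv.swap 1 2 * Equiv.swap 2 3 =
      Equiv.swap 1 2 * Equiv.swap 2 3 * Equiv.swap 1 2 := by decide
  obtain ⟨hfin, hcard⟩ := card_closure_le A B C
    (Prod.ext s1 haa) (Prod.ext s2 hbb) (Prod.ext s3 hcc)
    (Prod.ext s4 hac'.eq.symm) (Prod.ext s5 hbab) (Prod.ext s6 hcbc)
  set R := Subgroup.closure ({A, B, C} : Set (Equiv.Perm (Fin 4) × G)) with hR
  have hA : A ∈ R := Subgroup.subset_closure (by simp)
  have hB : B ∈ R := Subgroup.subset_closure (by simp)
  have hC : C ∈ R := Subgroup.subset_closure (by simp)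
  let pr1 : R →* Equiv.Perm (Fin 4) := (MonoidHom.fst _ _).comp R.subtype
  have hsurj : Function.Surjective pr1 := by
    rw [← MonoidHom.range_eq_top, eq_top_iff, ← closure_S4, Subgroup.closure_le]
    rintro x (rfl | rfl | rfl)
    · exact ⟨⟨A, hA⟩, rfl⟩
    · exact ⟨⟨B, hB⟩, rfl⟩
    · exact ⟨⟨C, hC⟩, rfl⟩
  have hbij : Function.Bijective pr1 := by
    apply hsurj.bijective_of_nat_card_le
    have : Nat.card (Equiv.Perm (Fin 4)) = 24 := by
      rw [Nat.card_eq_fintype_card, Fintype.card_perm, Fintype.card_fin]; rfl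
    rw [this]; exact hcard
  let e : R ≃* Equiv.Perm (Fin 4) := MulEquiv.ofBijective pr1 hbij
  let φ : Equiv.Perm (Fin 4) →* G := ((MonoidHom.snd _ _).comp R.subtype).comp e.symm.toMonoidHom
  have hφa : φ (Equiv.swap 0 1) = a := by
    have : e.symm (Equiv.swap 0 1) = ⟨A, hA⟩ := by
      rw [MulEquiv.symm_apply_eq]; rfl
    show (e.symm (Equiv.swap 0 1)).1.2 = a
    rw [this]
  have hφb : φ (Equiv.swap 1 2) = b := by
    have : e.symm (Equiv.swap 1 2) = ⟨B, hB⟩ := by
      rw [MulEquiv.symm_apply_eq]; rfl
    show (e.symm (Equiv.swap 1 2)).1.2 = b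
    rw [this]
  have hφc : φ (Equiv.swap 2 3) = c := by
    have : e.symm (Equiv.swap 2 3) = ⟨C, hC⟩ := by
      rw [MulEquiv.symm_apply_eq]; rfl
    show (e.symm (Equiv.swap 2 3)).1.2 = c
    rw [this]
  refine ⟨φ, ?_, hφa, hφb, hφc⟩
  rw [injective_iff_map_eq_one]
  intro σ hσ
  by_contra hne
  obtain ⟨τ, ρ, h⟩ := normal_closure_S4 σ hne
  have h2 := congrArg φ h
  simp only [map_mul, map_inv, hσ, hφa, hφc, mul_one, mul_inv_cancel] at h2
  apply hac
  calc a = c⁻¹ := eq_inv_of_mul_eq_one_left h2.symm
    _ = c := hci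

end Cfsg.Agent.S5344
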