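import Cfsg.Statements.S5345
import Cfsg.Agent.Lib.Helper27.ThreeTransp

set_option autoImplicit false
open Cfsg
open Cfsg.Agent.Lib.Helper27

namespace Cfsg.Agent.S5345

/-- Let D be a conjugation-invariant generating set of 3-transpositions of a finite group G and T a Sylow 2-subgroup of G. Then the members of D lying in T generate an abelian subgroup, and their number is the width of D (the largest number of pairwise commuting members of D). -/
theorem result {G : Type*} [Group G] [Finite G] {D : Set G} (hD : Cfsg.IsThreeTranspositionGroup D) (T : Sylow 2 G) : IsMulCommutative (Subgroup.closure {d : G | d ∈ D ∧ d ∈ T}) ∧ {d : G | d ∈ D ∧ d ∈ T}.ncard = Cfsg.commutingWidth D := by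
  have : Fact (Nat.Prime 2) := ⟨Nat.prime_two⟩
  obtain ⟨hT, hconj, -⟩ := hD
  have hcomm : ∀ a ∈ {d : G | d ∈ D ∧ d ∈ T}, ∀ b ∈ {d : G | d ∈ D ∧ d ∈ T}, Commute a b := by
    rintro a ⟨ha, haT⟩ b ⟨hb, hbT⟩
    obtain ⟨k, hk⟩ := T.2 ⟨a * b, T.1.mul_mem haT hbT⟩
    have hk' : (a * b) ^ (2 ^ k) = 1 := by
      have := congrArg Subtype.val hk
      simpa using this
    exact TT.commute_of_pow hT ha hb hk' (Nat.Coprime.pow_left _ (by decide))
  refine ⟨Subgroup.isMulCommutative_closure (fun a ha b hb => (hcomm a ha b hb).eq), ?_⟩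
  symm
  apply IsGreatest.csSup_eq
  constructor
  · exact ⟨_, fun d hd => hd.1, Set.toFinite _, hcomm, rfl⟩
  · rintro n ⟨E, hED, hEfin, hEc, rfl⟩
    have hP := isPGroup_closure_commuting_involutions E (fun e he => TT.sq hT (hED he))
      (fun a ha b hb => (hEc a ha b hb).eq)
    obtain ⟨g, hg⟩ := sylow_conj_mem T _ hP
    have hinj : Set.InjOn (fun x => g * x * g⁻¹) E := by
      intro x _ y _ hxy
      simpa using hxy
    rw [← hinj.ncard_image]
    apply Set.ncard_le_ncard _ (Set.toFinite _)
    rintro _ ⟨x, hx, rfl⟩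
    exact ⟨hconj g x (hED hx), hg x (Subgroup.subset_closure hx)⟩

end Cfsg.Agent.S5345
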