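import Mathlib
import Cfsg.Agent.Lib.Helper1.TA6
import Cfsg.Statements.S5355

set_option autoImplicit false
open Cfsg

namespace Cfsg.Agent.S5355

variable {G : Type*} [Group G]

theorem word1 {x x' y : G}
    (hc : x * x' = x' * x) (h1 : x * y * x = y * x * y) (h2 : x' * y * x' = y * x' * y) :
    y * (x * x') * y * (x * x') = (x * x') * y * (x * x') * y := by
  calc y * (x * x') * y * (x * x')
      = y * (x * x') * y * (x' * x) := by rw [← hc]
    _ = y * x * (x' * y * x') * x := by simp only [mul_assoc]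
    _ = y * x * (y * x' * y) * x := by rw [h2]
    _ = (y * x * y) * x' * (y * x) := by simp only [mul_assoc]
    _ = (x * y * x) * x' * (y * x) := by rw [h1]
    _ = x * y * (x * x') * (y * x) := by simp only [mul_assoc]
    _ = x * y * (x' * x) * (y * x) := by rw [hc]
    _ = x * y * x' * (x * y * x) := by simp only [mul_assoc]
    _ = x * y * x' * (y * x * y) := by rw [h1]
    _ = x * (y * x' * y) * (x * y) := by simp only [mul_assoc]
    _ = x * (x' * y * x') * (x * y) := by rw [h2]
    _ = (x * x') * y * (x' * x) * y := by simp only [mul_assoc]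
    _ = (x * x') * y * (x * x') * y := by rw [← hc]

theorem sq_of {D : Set G} (hD : IsThreeTranspositionSet D) {x : G} (hx : x ∈ D) : x * x = 1 := by
  have h := hD.1 x hx
  have h2 := pow_orderOf_eq_one x
  rw [h, sq] at h2
  exact h2

theorem cube_of {D : Set G} (hD : IsThreeTranspositionSet D) {x y : G} (hx : x ∈ D) (hy : y ∈ D)
    (hn : ¬ Commute x y) : (x * y) ^ 3 = 1 := by
  have hx2 := sq_of hD hx
  have hy2 := sq_of hD hy
  have hxi : x⁻¹ = x := inv_eq_of_mul_eq_one_left hx2
  have hyi : y⁻¹ = y := inv_eq_of_mul_eq_one_left hy2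
  rcases hD.2 x hx y hy with h | h
  · exfalso
    apply hn
    rw [sq] at h
    have h3 : x * y = (x * y)⁻¹ := eq_inv_of_mul_eq_one_left h
    rw [mul_inv_rev, hxi, hyi] at h3
    exact h3
  · exact h

theorem braid {x y : G} (hx2 : x * x = 1) (hy2 : y * y = 1) (h : (x * y) ^ 3 = 1) :
    x * y * x = y * x * y := by
  have hxi : x⁻¹ = x := inv_eq_of_mul_eq_one_left hx2
  have hyi : y⁻¹ = y := inv_eq_of_mul_eq_one_left hy2
  have h3 : x * y * x * (y * x * y) = 1 := by
    rw [pow_three] at h
    simpa [mul_assoc] using h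
  have h4 : x * y * x = (y * x * y)⁻¹ := eq_inv_of_mul_eq_one_left h3
  rw [mul_inv_rev, mul_inv_rev, hxi, hyi] at h4
  rw [h4, mul_assoc]

theorem tt {x x' : G} (hx : x * x = 1) (hx' : x' * x' = 1) (hc : x * x' = x' * x) :
    (x * x') * (x * x') = 1 := by
  calc (x * x') * (x * x') = (x * x') * (x' * x) := by rw [← hc]
    _ = x * (x' * x') * x := by simp only [mul_assoc]
    _ = 1 := by rw [hx', mul_one, hx]

def Partner (D : Set G) (x x' : G) : Prop :=
  x' ∈ D ∧ x' ≠ x ∧ x * x' = x' * x ∧ (∀ y ∈ D, Commute x y → y = x ∨ y = x') ∧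
    (∀ y ∈ D, Commute x' y → Commute x y)

theorem Partner.conj {D : Set G} (hconj : ∀ g : G, ∀ d ∈ D, g * d * g⁻¹ ∈ D) {d d' : G}
    (hP : Partner D d d') (g : G) : Partner D (g * d * g⁻¹) (g * d' * g⁻¹) := by
  obtain ⟨h1, h2, h3, h4, h5⟩ := hP
  have hy0 : ∀ y ∈ D, g⁻¹ * y * g ∈ D := by
    intro y hy
    have := hconj g⁻¹ y hy
    rwa [inv_inv] at this
  have hyy : ∀ y : G, y = g * (g⁻¹ * y * g) * g⁻¹ := by intro y; group
  refine ⟨hconj g _ h1, ?_, ?_, ?_, ?_⟩
  · intro h
    apply h2
    exact mul_left_cancel (mul_right_cancel h)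
  · have : Commute (g * d * g⁻¹) (g * d' * g⁻¹) := (Commute.conj_iff g).mpr h3
    exact this
  · intro y hy hc
    rw [hyy y, Commute.conj_iff] at hc
    rcases h4 _ (hy0 y hy) hc with h | h
    · left; rw [hyy y, h]
    · right; rw [hyy y, h]
  · intro y hy hc
    rw [hyy y, Commute.conj_iff] at hc
    rw [hyy y, Commute.conj_iff]
    exact h5 _ (hy0 y hy) hc

theorem key {D : Set G} (hD : IsThreeTranspositionSet D)
    (hconj : ∀ g : G, ∀ d ∈ D, g * d * g⁻¹ ∈ D) {x x' y y' : G} (hx : x ∈ D) (hy : y ∈ D)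
    (hP : Partner D x x') (hQ : Partner D y y') (hn : ¬ Commute x y) :
    y' = (x * x') * y * (x * x') := by
  obtain ⟨h1, h2, hc, h4, h5⟩ := hP
  have hx2 := sq_of hD hx
  have hx'2 := sq_of hD h1
  have hy2 := sq_of hD hy
  have ht := tt hx2 hx'2 hc
  have hti : (x * x')⁻¹ = x * x' := inv_eq_of_mul_eq_one_left ht
  have hn' : ¬ Commute x' y := fun h => hn (h5 y hy h)
  have b1 := braid hx2 hy2 (cube_of hD hx hy hn)
  have b2 := braid hx'2 hy2 (cube_of hD h1 hy hn')
  have w := word1 hc b1 b2
  have hmem : (x * x') * y * (x * x') ∈ D := by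
    have := hconj (x * x') y hy
    rwa [hti] at this
  have hcomm : Commute y ((x * x') * y * (x * x')) := by
    show y * ((x * x') * y * (x * x')) = ((x * x') * y * (x * x')) * y
    rw [← w]
    simp only [mul_assoc]
  have hne : (x * x') * y * (x * x') ≠ y := by
    intro h
    apply h2
    have e1 : x * (x' * y * x') * x = y := by
      calc x * (x' * y * x') * x = (x * x') * y * (x' * x) := by simp only [mul_assoc]
        _ = (x * x') * y * (x * x') := by rw [← hc]
        _ = y := h
    have e2 : x' * y * x' = x * y * x := by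
      calc x' * y * x' = (x * x) * (x' * y * x') * (x * x) := by rw [hx2, one_mul, mul_one]
        _ = x * (x * (x' * y * x') * x) * x := by simp only [mul_assoc]
        _ = x * y * x := by rw [e1]
    rw [b1, b2] at e2
    exact mul_left_cancel (mul_right_cancel e2)
  rcases hQ.2.2.2.1 _ hmem hcomm with h | h
  · exact absurd h hne
  · exact h.symm

theorem exists_four (t1 t2 : G) (h1 : t1 * t1 = 1) (h2 : t2 * t2 = 1) (hc : t1 * t2 = t2 * t1) :
    ∃ W : Subgroup G, ∀ x, x ∈ W ↔ (x = 1 ∨ x = t1 ∨ x = t2 ∨ x = t1 * t2) := by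
  have e1 : t2 * t1 = t1 * t2 := hc.symm
  have e2 : t1 * (t1 * t2) = t2 := by rw [← mul_assoc, h1, one_mul]
  have e3 : t2 * (t1 * t2) = t1 := by rw [hc, ← mul_assoc, h2, one_mul]
  have e4 : t1 * t2 * t1 = t2 := by rw [hc, mul_assoc, h1, mul_one]
  have e5 : t1 * t2 * t2 = t1 := by rw [mul_assoc, h2, mul_one]
  have e6 : t1 * t2 * (t1 * t2) = 1 := by rw [← mul_assoc, e4, h2]
  have i1 : t1⁻¹ = t1 := inv_eq_of_mul_eq_one_left h1
  have i2 : t2⁻¹ = t2 := inv_eq_of_mul_eq_one_left h2
  refine ⟨{ carrier := {x | x = 1 ∨ x = t1 ∨ x = t2 ∨ x = t1 * t2}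
            one_mem' := Or.inl rfl
            mul_mem' := ?_
            inv_mem' := ?_ }, fun x => Iff.rfl⟩
  · intro x y hx hy
    simp only [Set.mem_setOf_eq] at hx hy ⊢
    rcases hx with hx | hx | hx | hx <;> rcases hy with hy | hy | hy | hy <;> rw [hx, hy] <;>
      simp [h1, h2, e1, e2, e3, e4, e5, e6]
  · intro x hx
    simp only [Set.mem_setOf_eq] at hx ⊢
    rcases hx with hx | hx | hx | hx <;> rw [hx] <;> simp [i1, i2, e1]

open Subgroup in
theorem abstract_S4 [Finite G] (a b t1 t2 : G) (ha : a * a = 1) (hb : b * b = 1)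
    (hab3 : (a * b) ^ 3 = 1) (hnc : a * b ≠ b * a) (h1 : t1 * t1 = 1) (h2 : t2 * t2 = 1)
    (hc : t1 * t2 = t2 * t1) (n1 : t1 ≠ 1) (n2 : t2 ≠ 1) (n12 : t1 ≠ t2)
    (hat1 : a * t1 * a = t1) (hat2 : a * t2 * a = t1 * t2) (hbt1 : b * t1 * b = t2 * t1)
    (hbt2 : b * t2 * b = t2) (hgen : closure ({a, b, t1, t2} : Set G) = ⊤) :
    Nonempty (G ≃* Equiv.Perm (Fin 4)) := by
  classical
  have hai : a⁻¹ = a := inv_eq_of_mul_eq_one_left ha
  have hbi : b⁻¹ = b := inv_eq_of_mul_eq_one_left hb
  have h1i : t1⁻¹ = t1 := inv_eq_of_mul_eq_one_left h1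
  have h2i : t2⁻¹ = t2 := inv_eq_of_mul_eq_one_left h2
  have hbr := braid ha hb hab3
  obtain ⟨W, hW⟩ := exists_four t1 t2 h1 h2 hc
  have n3 : t1 * t2 ≠ 1 := by
    intro h
    apply n12
    have := eq_inv_of_mul_eq_one_left h
    rwa [h2i] at this
  have hWset : (W : Set G) = {1, t1, t2, t1 * t2} := by
    ext x
    simp [hW]
  have hW4 : Nat.card W = 4 := by
    rw [← SetLike.coe_sort_coe, Nat.card_coe_set_eq, hWset]
    rw [Set.ncard_insert_of_notMem, Set.ncard_insert_of_notMem, Set.ncard_pair]
    · intro h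
      apply n1
      have : t1 * t2 = 1 * t2 := by rw [one_mul]; exact h.symm
      exact mul_right_cancel this
    · simp only [Set.mem_insert_iff, Set.mem_singleton_iff, not_or]
      refine ⟨n12, ?_⟩
      intro h
      apply n2
      have : t1 * t2 = t1 * 1 := by rw [mul_one]; exact h.symm
      exact mul_left_cancel this
    · simp only [Set.mem_insert_iff, Set.mem_singleton_iff, not_or]
      exact ⟨n1.symm, n2.symm, n3.symm⟩
  have ht1W : t1 ∈ W := (hW _).mpr (Or.inr (Or.inl rfl))
  have ht2W : t2 ∈ W := (hW _).mpr (Or.inr (Or.inr (Or.inl rfl)))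
  have hWc : ∀ x ∈ W, ∀ y ∈ W, x * y = y * x := by
    intro x hx y hy
    have e4 : t1 * t2 * t1 = t2 := by rw [hc, mul_assoc, h1, mul_one]
    have e2 : t1 * (t1 * t2) = t2 := by rw [← mul_assoc, h1, one_mul]
    have e3 : t2 * (t1 * t2) = t1 := by rw [hc, ← mul_assoc, h2, one_mul]
    have e5 : t1 * t2 * t2 = t1 := by rw [mul_assoc, h2, mul_one]
    rcases (hW x).mp hx with hx | hx | hx | hx <;> rcases (hW y).mp hy with hy | hy | hy | hy <;>
      rw [hx, hy] <;> simp [hc.symm, e2, e3, e4, e5]
  have hWsq : ∀ x ∈ W, x * x = 1 := by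
    intro x hx
    have e4 : t1 * t2 * t1 = t2 := by rw [hc, mul_assoc, h1, mul_one]
    have e6 : t1 * t2 * (t1 * t2) = 1 := by rw [← mul_assoc, e4, h2]
    rcases (hW x).mp hx with hx | hx | hx | hx <;> rw [hx] <;> simp [h1, h2, e6]
  have keyN : ∀ c : G, c * c = 1 → (∀ w ∈ W, c * w * c ∈ W) → c ∈ normalizer (W : Set G) := by
    intro c hc2 hcw
    have hci : c⁻¹ = c := inv_eq_of_mul_eq_one_left hc2
    rw [mem_normalizer_iff]
    intro h
    rw [hci]
    constructor
    · exact hcw h
    · intro hh
      have h3 := hcw _ hh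
      have h4 : c * (c * h * c) * c = h := by
        calc c * (c * h * c) * c = (c * c) * h * (c * c) := by simp only [mul_assoc]
          _ = h := by rw [hc2, one_mul, mul_one]
      rwa [h4] at h3
  have haW : ∀ w ∈ W, a * w * a ∈ W := by
    intro w hw
    rcases (hW w).mp hw with h | h | h | h <;> rw [h]
    · rw [mul_one, ha]; exact W.one_mem
    · rw [hat1]; exact ht1W
    · rw [hat2]; exact W.mul_mem ht1W ht2W
    · have : a * (t1 * t2) * a = (a * t1 * a) * (a * t2 * a) := by
        calc a * (t1 * t2) * a = a * t1 * 1 * t2 * a := by simp only [mul_assoc, one_mul]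
          _ = a * t1 * (a * a) * t2 * a := by rw [ha]
          _ = (a * t1 * a) * (a * t2 * a) := by simp only [mul_assoc]
      rw [this, hat1, hat2]
      exact W.mul_mem ht1W (W.mul_mem ht1W ht2W)
  have hbW : ∀ w ∈ W, b * w * b ∈ W := by
    intro w hw
    rcases (hW w).mp hw with h | h | h | h <;> rw [h]
    · rw [mul_one, hb]; exact W.one_mem
    · rw [hbt1]; exact W.mul_mem ht2W ht1W
    · rw [hbt2]; exact ht2W
    · have : b * (t1 * t2) * b = (b * t1 * b) * (b * t2 * b) := by
        calc b * (t1 * t2) * b = b * t1 * 1 * t2 * b := by simp only [mul_assoc, one_mul]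
          _ = b * t1 * (b * b) * t2 * b := by rw [hb]
          _ = (b * t1 * b) * (b * t2 * b) := by simp only [mul_assoc]
      rw [this, hbt1, hbt2]
      exact W.mul_mem (W.mul_mem ht2W ht1W) ht2W
  have hNtop : normalizer (W : Set G) = ⊤ := by
    rw [eq_top_iff, ← hgen, closure_le]
    intro x hx
    simp only [Set.mem_insert_iff, Set.mem_singleton_iff] at hx
    rcases hx with rfl | rfl | rfl | rfl
    · exact keyN _ ha haW
    · exact keyN _ hb hbW
    · exact le_normalizer ht1W
    · exact le_normalizer ht2W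
  haveI hWn : W.Normal := normalizer_eq_top_iff.mp hNtop
  set M : Subgroup G := closure ({a, b} : Set G) with hM
  have haM : a ∈ M := subset_closure (by simp)
  have hbM : b ∈ M := subset_closure (by simp)
  have hML : ∀ x ∈ M, x = 1 ∨ x = a ∨ x = b ∨ x = a * b * a ∨ x = a * b ∨ x = b * a := by
    have stepa : ∀ y : G, (y = 1 ∨ y = a ∨ y = b ∨ y = a * b * a ∨ y = a * b ∨ y = b * a) →
        (a * y = 1 ∨ a * y = a ∨ a * y = b ∨ a * y = a * b * a ∨ a * y = a * b ∨ a * y = b * a) := by
      intro y hy
      rcases hy with h | h | h | h | h | h <;> rw [h]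
      · right; left; rw [mul_one]
      · left; exact ha
      · right; right; right; right; left; rfl
      · right; right; right; right; right
        calc a * (a * b * a) = (a * a) * b * a := by simp only [mul_assoc]
          _ = b * a := by rw [ha, one_mul]
      · right; right; left
        rw [← mul_assoc, ha, one_mul]
      · right; right; right; left
        rw [mul_assoc]
    have stepb : ∀ y : G, (y = 1 ∨ y = a ∨ y = b ∨ y = a * b * a ∨ y = a * b ∨ y = b * a) →
        (b * y = 1 ∨ b * y = a ∨ b * y = b ∨ b * y = a * b * a ∨ b * y = a * b ∨ b * y = b * a) := by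
      intro y hy
      rcases hy with h | h | h | h | h | h <;> rw [h]
      · right; right; left; rw [mul_one]
      · right; right; right; right; right; rfl
      · left; exact hb
      · right; right; right; right; left
        rw [hbr]
        calc b * (b * a * b) = (b * b) * a * b := by simp only [mul_assoc]
          _ = a * b := by rw [hb, one_mul]
      · right; right; right; left
        rw [hbr, mul_assoc]
      · right; left
        rw [← mul_assoc, hb, one_mul]
    intro x hx
    induction hx using closure_induction_left with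
    | one => left; rfl
    | mul_left x hx y hy ih =>
      simp only [Set.mem_insert_iff, Set.mem_singleton_iff] at hx
      rcases hx with rfl | rfl
      · exact stepa y ih
      · exact stepb y ih
    | inv_mul_cancel x hx y hy ih =>
      simp only [Set.mem_insert_iff, Set.mem_singleton_iff] at hx
      rcases hx with rfl | rfl
      · rw [hai]; exact stepa y ih
      · rw [hbi]; exact stepb y ih
  have haNW : a ∉ W := by
    intro h
    have h3 := hWc a h t2 ht2W
    apply n1
    have h4 : a * t2 * a = t2 := by rw [h3, mul_assoc, ha, mul_one]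
    rw [hat2] at h4
    have : t1 * t2 = 1 * t2 := by rw [one_mul]; exact h4
    exact mul_right_cancel this
  have hbNW : b ∉ W := by
    intro h
    have h3 := hWc b h t1 ht1W
    apply n2
    have h4 : b * t1 * b = t1 := by rw [h3, mul_assoc, hb, mul_one]
    rw [hbt1] at h4
    have : t2 * t1 = 1 * t1 := by rw [one_mul]; exact h4
    exact mul_right_cancel this
  have hWM : W ⊓ M = ⊥ := by
    rw [eq_bot_iff]
    intro x hx
    obtain ⟨hxW, hxM⟩ := mem_inf.mp hx
    rw [mem_bot]
    rcases hML x hxM with h | h | h | h | h | h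
    · exact h
    · exact absurd (h ▸ hxW) haNW
    · exact absurd (h ▸ hxW) hbNW
    · exfalso
      apply hbNW
      have h3 := haW x hxW
      rw [h] at h3
      have h4 : a * (a * b * a) * a = b := by
        calc a * (a * b * a) * a = (a * a) * b * (a * a) := by simp only [mul_assoc]
          _ = b := by rw [ha, one_mul, mul_one]
      rwa [h4] at h3
    · exfalso
      apply hnc
      have h3 := hWsq x hxW
      rw [h] at h3
      have h4 : a * b = (a * b)⁻¹ := eq_inv_of_mul_eq_one_left h3
      rw [mul_inv_rev, hai, hbi] at h4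
      exact h4
    · exfalso
      apply hnc
      have h3 := hWsq x hxW
      rw [h] at h3
      have h4 : b * a = (b * a)⁻¹ := eq_inv_of_mul_eq_one_left h3
      rw [mul_inv_rev, hai, hbi] at h4
      exact h4.symm
  have hsup : W ⊔ M = ⊤ := by
    rw [eq_top_iff, ← hgen, closure_le]
    intro x hx
    simp only [Set.mem_insert_iff, Set.mem_singleton_iff] at hx
    rcases hx with rfl | rfl | rfl | rfl
    · exact (le_sup_right : M ≤ W ⊔ M) haM
    · exact (le_sup_right : M ≤ W ⊔ M) hbM
    · exact (le_sup_left : W ≤ W ⊔ M) ht1W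
    · exact (le_sup_left : W ≤ W ⊔ M) ht2W
  have hcompl : IsComplement' W M := by
    apply isComplement'_of_disjoint_and_mul_eq_univ (disjoint_iff.mpr hWM)
    rw [← normal_mul, hsup, coe_top]
  have hM6 : Nat.card M ≤ 6 := by
    rw [← SetLike.coe_sort_coe, Nat.card_coe_set_eq]
    have hsub : (M : Set G) ⊆ (({1, a, b, a * b * a, a * b, b * a} : Finset G) : Set G) := by
      intro x hx
      have := hML x hx
      simpa using this
    calc (M : Set G).ncard ≤ ((({1, a, b, a * b * a, a * b, b * a} : Finset G) : Set G)).ncard :=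
          Set.ncard_le_ncard hsub (Finset.finite_toSet _)
      _ = ({1, a, b, a * b * a, a * b, b * a} : Finset G).card := Set.ncard_coe_finset _
      _ ≤ 6 := Finset.card_le_six
  have hG24 : Nat.card G ≤ 24 := by
    rw [← hcompl.card_mul_card, hW4]
    omega
  have hab1 : a * b ≠ 1 := by
    intro h
    apply hnc
    have : a = b⁻¹ := eq_inv_of_mul_eq_one_left h
    rw [hbi] at this
    rw [this]
  have ho3 : orderOf (a * b) = 3 := orderOf_eq_prime hab3 hab1
  have ha1 : a ≠ 1 := by
    intro h
    apply hnc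
    rw [h, one_mul, mul_one]
  have ho2 : orderOf a = 2 := orderOf_eq_prime (by rw [sq]; exact ha) ha1
  have hacW : a ∉ centralizer (W : Set G) := by
    intro h
    rw [mem_centralizer_iff] at h
    have h3 := h t2 ht2W
    apply n1
    have h4 : a * t2 * a = t2 := by rw [← h3, mul_assoc, ha, mul_one]
    rw [hat2] at h4
    have : t1 * t2 = 1 * t2 := by rw [one_mul]; exact h4
    exact mul_right_cancel this
  have habcW : a * b ∉ centralizer (W : Set G) := by
    intro h
    rw [mem_centralizer_iff] at h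
    have h3 := h t1 ht1W
    apply n12
    have e1 : b * t1 = t2 * t1 * b := by
      calc b * t1 = b * t1 * (b * b) := by rw [hb, mul_one]
        _ = (b * t1 * b) * b := by simp only [mul_assoc]
        _ = t2 * t1 * b := by rw [hbt1]
    have e2 : a * t2 = t1 * t2 * a := by
      calc a * t2 = a * t2 * (a * a) := by rw [ha, mul_one]
        _ = (a * t2 * a) * a := by simp only [mul_assoc]
        _ = t1 * t2 * a := by rw [hat2]
    have e3 : a * t1 = t1 * a := by
      calc a * t1 = a * t1 * (a * a) := by rw [ha, mul_one]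
        _ = (a * t1 * a) * a := by simp only [mul_assoc]
        _ = t1 * a := by rw [hat1]
    have e4 : a * b * t1 = t2 * (a * b) := by
      calc a * b * t1 = a * (b * t1) := by rw [mul_assoc]
        _ = a * (t2 * t1 * b) := by rw [e1]
        _ = (a * t2) * t1 * b := by simp only [mul_assoc]
        _ = t1 * t2 * a * t1 * b := by rw [e2]
        _ = t1 * t2 * (a * t1) * b := by simp only [mul_assoc]
        _ = t1 * t2 * (t1 * a) * b := by rw [e3]
        _ = (t1 * t2 * t1) * (a * b) := by simp only [mul_assoc]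
        _ = (t2 * t1 * t1) * (a * b) := by rw [hc]
        _ = t2 * (a * b) := by rw [mul_assoc t2, h1, mul_one]
    rw [e4] at h3
    exact mul_right_cancel h3
  obtain ⟨f, hf⟩ := Cfsg.Agent.Lib.Helper1.exists_surj_S4 W M hW4 hWc hWM hsup (a * b) a
    (by rw [ho3]; decide) ⟨1, by rw [ho2, pow_one]⟩ habcW hacW
  have hcard : Nat.card (Equiv.Perm (Fin 4)) = 24 := by
    rw [Nat.card_eq_fintype_card, Fintype.card_perm, Fintype.card_fin]
    rfl
  have hbij : Function.Bijective f := hf.bijective_of_nat_card_le (by rw [hcard]; exact hG24)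
  exact ⟨MulEquiv.ofBijective f hbij⟩

/-- Let D be a conjugacy class of 3-transpositions generating the finite group G, with at least two members, and d a member of D. Suppose that every member of D commuting with d commutes with exactly the same members of D as d does, and that exactly one member of D other than d commutes with d. Then G is isomorphic to the symmetric group of degree 4. -/
theorem result {G : Type*} [Group G] [Finite G] {D : Set G} (hD : Cfsg.IsThreeTranspositionClass D) (hD2 : ∃ a ∈ D, ∃ b ∈ D, a ≠ b) {d : G} (hd : d ∈ D) (hV : {y : G | y ∈ D ∧ Commute d y} = {v : G | v ∈ D ∧ ∀ e ∈ D, Commute v e ↔ Commute d e}) (hm : {y : G | y ∈ D ∧ Commute d y}.ncard = 2) : Nonempty (G ≃* Equiv.Perm (Fin 4)) := by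
  classical
  obtain ⟨hS, ⟨d0, hd0, hDeq⟩, hgen⟩ := hD
  have hconj : ∀ g : G, ∀ x ∈ D, g * x * g⁻¹ ∈ D := by
    intro g x hx
    rw [hDeq] at hx ⊢
    have h1 : IsConj d0 x := hx
    have h2 : IsConj x (g * x * g⁻¹) := isConj_iff.mpr ⟨g, rfl⟩
    exact h1.trans h2
  have hall : ∀ x ∈ D, ∃ g : G, x = g * d * g⁻¹ := by
    intro x hx
    rw [hDeq] at hx hd
    have h1 : IsConj d0 x := hx
    have h2 : IsConj d0 d := hd
    obtain ⟨g, hg⟩ := isConj_iff.mp (h2.symm.trans h1)
    exact ⟨g, hg.symm⟩
  -- the partner of d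
  obtain ⟨d', hPd⟩ : ∃ d', Partner D d d' := by
    obtain ⟨u, v, huv, hs⟩ := Set.ncard_eq_two.mp hm
    have hds : d ∈ {y : G | y ∈ D ∧ Commute d y} := ⟨hd, Commute.refl d⟩
    have hmk : ∀ w : G, w ≠ d → w ∈ {y : G | y ∈ D ∧ Commute d y} →
        (∀ y, y ∈ {y : G | y ∈ D ∧ Commute d y} → y = d ∨ y = w) → Partner D d w := by
      intro w hwd hw hyw
      have hw2 : w ∈ {v : G | v ∈ D ∧ ∀ e ∈ D, Commute v e ↔ Commute d e} := hV ▸ hw
      exact ⟨hw.1, hwd, hw.2, fun y hy hc => hyw y ⟨hy, hc⟩, fun y hy hc => (hw2.2 y hy).mp hc⟩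
    have hds' := hds
    rw [hs] at hds'
    simp only [Set.mem_insert_iff, Set.mem_singleton_iff] at hds'
    rcases hds' with h | h
    · refine ⟨v, hmk v (by rw [h]; exact huv.symm) (by rw [hs]; simp) ?_⟩
      intro y hy
      rw [hs] at hy
      simp only [Set.mem_insert_iff, Set.mem_singleton_iff] at hy
      rw [h]; exact hy
    · refine ⟨u, hmk u (by rw [h]; exact huv) (by rw [hs]; simp) ?_⟩
      intro y hy
      rw [hs] at hy
      simp only [Set.mem_insert_iff, Set.mem_singleton_iff] at hy
      rw [h]; exact hy.symm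
  have hpart : ∀ x ∈ D, ∃ x', Partner D x x' := by
    intro x hx
    obtain ⟨g, rfl⟩ := hall x hx
    exact ⟨_, hPd.conj hconj g⟩
  -- a non-commuting element
  obtain ⟨e, he, hne⟩ : ∃ e ∈ D, ¬ Commute d e := by
    by_contra hcon
    push Not at hcon
    have hcen : ∀ g : G, g * d = d * g := by
      have hle : Subgroup.closure D ≤ Subgroup.centralizer ({d} : Set G) := by
        rw [Subgroup.closure_le]
        intro x hx
        rw [SetLike.mem_coe, Subgroup.mem_centralizer_iff]
        intro h hh
        rw [Set.mem_singleton_iff] at hh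
        rw [hh]
        exact hcon x hx
      intro g
      have hg : g ∈ Subgroup.centralizer ({d} : Set G) := hle (hgen ▸ Subgroup.mem_top g)
      rw [Subgroup.mem_centralizer_iff] at hg
      exact (hg d rfl).symm
    have hDd : ∀ x ∈ D, x = d := by
      intro x hx
      obtain ⟨g, rfl⟩ := hall x hx
      rw [hcen g, mul_assoc, mul_inv_cancel, mul_one]
    obtain ⟨a, ha, b, hb, hab⟩ := hD2
    exact hab ((hDd a ha).trans (hDd b hb).symm)
  obtain ⟨e', hPe⟩ := hpart e he
  have hd2 := sq_of hS hd
  have he2 := sq_of hS he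
  have hdi : d⁻¹ = d := inv_eq_of_mul_eq_one_left hd2
  have hz : d * e * d ∈ D := by
    have := hconj d e he
    rwa [hdi] at this
  obtain ⟨z', hPz⟩ := hpart _ hz
  have hd'2 := sq_of hS hPd.1
  have he'2 := sq_of hS hPe.1
  have hz2 := sq_of hS hz
  have hz'2 := sq_of hS hPz.1
  have hned : ¬ Commute e d := fun h => hne h.symm
  have hnz : ¬ Commute d (d * e * d) := by
    intro h
    apply hne
    have h1 : d * (d * e * d) = d * e * d * d := h
    have h2 : d * (d * e * d) = e * d := by
      calc d * (d * e * d) = (d * d) * e * d := by simp only [mul_assoc]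
        _ = e * d := by rw [hd2, one_mul]
    have h3 : d * e * d * d = d * e := by rw [mul_assoc, hd2, mul_one]
    rw [h2, h3] at h1
    exact h1.symm
  have k1 := key hS hconj hd he hPd hPe hne
  have k2 := key hS hconj he hd hPe hPd hned
  have k3 := key hS hconj hd hz hPd hPz hnz
  set t1 := d * d' with ht1
  set t2 := e * e' with ht2
  have h1 : t1 * t1 = 1 := tt hd2 hd'2 hPd.2.2.1
  have h2 : t2 * t2 = 1 := tt he2 he'2 hPe.2.2.1
  have h3 : (d * e * d * z') * (d * e * d * z') = 1 := tt hz2 hz'2 hPz.2.2.1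
  have E2 : t2 = e * t1 * e * t1 := by
    rw [ht2, k1]; simp only [mul_assoc]
  have E1 : t1 = d * t2 * d * t2 := by
    rw [ht1, k2]; simp only [mul_assoc]
  have hat1 : d * t1 * d = t1 := by
    rw [ht1]
    calc d * (d * d') * d = d * d * (d' * d) := by simp only [mul_assoc]
      _ = d * d' := by rw [hd2, one_mul, ← hPd.2.2.1]
  have hbt2 : e * t2 * e = t2 := by
    rw [ht2]
    calc e * (e * e') * e = e * e * (e' * e) := by simp only [mul_assoc]
      _ = e * e' := by rw [he2, one_mul, ← hPe.2.2.1]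
  have hat2 : d * t2 * d = t1 * t2 := by
    calc d * t2 * d = d * t2 * d * (t2 * t2) := by rw [h2, mul_one]
      _ = (d * t2 * d * t2) * t2 := by simp only [mul_assoc]
      _ = t1 * t2 := by rw [← E1]
  have hbt1 : e * t1 * e = t2 * t1 := by
    calc e * t1 * e = e * t1 * e * (t1 * t1) := by rw [h1, mul_one]
      _ = (e * t1 * e * t1) * t1 := by simp only [mul_assoc]
      _ = t2 * t1 := by rw [← E2]
  have hdt1 : d * t1 = t1 * d := by
    calc d * t1 = d * t1 * (d * d) := by rw [hd2, mul_one]
      _ = (d * t1 * d) * d := by simp only [mul_assoc]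
      _ = t1 * d := by rw [hat1]
  have E3 : d * e * d * z' = t1 * t2 := by
    rw [k3]
    calc d * e * d * (t1 * (d * e * d) * t1) = d * e * (d * t1 * d) * e * (d * t1) := by
          simp only [mul_assoc]
      _ = d * e * t1 * e * (t1 * d) := by rw [hat1, hdt1]
      _ = d * (e * t1 * e) * t1 * d := by simp only [mul_assoc]
      _ = d * (t2 * t1) * t1 * d := by rw [hbt1]
      _ = d * t2 * (t1 * t1) * d := by simp only [mul_assoc]
      _ = d * t2 * d := by rw [h1, mul_one]
      _ = t1 * t2 := hat2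
  have h1i : t1⁻¹ = t1 := inv_eq_of_mul_eq_one_left h1
  have h2i : t2⁻¹ = t2 := inv_eq_of_mul_eq_one_left h2
  have hc : t1 * t2 = t2 * t1 := by
    rw [E3] at h3
    have h4 : t1 * t2 = (t1 * t2)⁻¹ := eq_inv_of_mul_eq_one_left h3
    rw [mul_inv_rev, h1i, h2i] at h4
    exact h4
  have n1 : t1 ≠ 1 := by
    intro h
    apply hPd.2.1
    have : d = d'⁻¹ := eq_inv_of_mul_eq_one_left h
    rw [inv_eq_of_mul_eq_one_left hd'2] at this
    exact this.symm
  have n2 : t2 ≠ 1 := by
    intro h
    apply hPe.2.1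
    have : e = e'⁻¹ := eq_inv_of_mul_eq_one_left h
    rw [inv_eq_of_mul_eq_one_left he'2] at this
    exact this.symm
  have n12 : t1 ≠ t2 := by
    intro h
    apply hPz.2.1
    have h5 : d * e * d * z' = 1 := by rw [E3, h, h2]
    have : d * e * d = z'⁻¹ := eq_inv_of_mul_eq_one_left h5
    rw [inv_eq_of_mul_eq_one_left hz'2] at this
    exact this.symm
  -- every member of D commutes with one of d, e, ded
  have hsix : ∀ f ∈ D, Commute d f ∨ Commute e f ∨ Commute (d * e * d) f := by
    intro f hf
    by_contra hcon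
    push Not at hcon
    obtain ⟨c1, c2, c3⟩ := hcon
    obtain ⟨f', hPf⟩ := hpart f hf
    have m1 := key hS hconj hd hf hPd hPf c1
    have m2 := key hS hconj he hf hPe hPf c2
    have m3 := key hS hconj hz hf hPz hPf c3
    apply hPf.2.1
    rw [E3] at m3
    calc f' = t1 * t2 * f * (t1 * t2) := m3
      _ = t1 * t2 * f * (t2 * t1) := by rw [hc]
      _ = t1 * (t2 * f * t2) * t1 := by simp only [mul_assoc]
      _ = t1 * f' * t1 := by rw [← m2]
      _ = t1 * (t1 * f * t1) * t1 := by rw [← m1]
      _ = (t1 * t1) * f * (t1 * t1) := by simp only [mul_assoc]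
      _ = f := by rw [h1, one_mul, mul_one]
  apply abstract_S4 d e t1 t2 hd2 he2 (cube_of hS hd he hne) (fun h => hne h) h1 h2 hc n1 n2 n12
    hat1 hat2 hbt1 hbt2
  rw [eq_top_iff, ← hgen, Subgroup.closure_le]
  set K := Subgroup.closure ({d, e, t1, t2} : Set G) with hK
  have hdK : d ∈ K := Subgroup.subset_closure (by simp)
  have heK : e ∈ K := Subgroup.subset_closure (by simp)
  have ht1K : t1 ∈ K := Subgroup.subset_closure (by simp)
  have ht2K : t2 ∈ K := Subgroup.subset_closure (by simp)
  have hd'K : d' ∈ K := by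
    have : d' = d * t1 := by rw [ht1, ← mul_assoc, hd2, one_mul]
    rw [this]; exact K.mul_mem hdK ht1K
  have he'K : e' ∈ K := by
    have : e' = e * t2 := by rw [ht2, ← mul_assoc, he2, one_mul]
    rw [this]; exact K.mul_mem heK ht2K
  have hzK : d * e * d ∈ K := K.mul_mem (K.mul_mem hdK heK) hdK
  have hz'K : z' ∈ K := by
    have : z' = (d * e * d) * (t1 * t2) := by rw [← E3, ← mul_assoc, hz2, one_mul]
    rw [this]; exact K.mul_mem hzK (K.mul_mem ht1K ht2K)
  intro f hf
  rcases hsix f hf with h | h | h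
  · rcases hPd.2.2.2.1 f hf h with h | h <;> rw [h]
    · exact hdK
    · exact hd'K
  · rcases hPe.2.2.2.1 f hf h with h | h <;> rw [h]
    · exact heK
    · exact he'K
  · rcases hPz.2.2.2.1 f hf h with h | h <;> rw [h]
    · exact hzK
    · exact hz'K

end Cfsg.Agent.S5355
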