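import Mathlib
import Cfsg.Statements.S5361
import Cfsg.Agent.Lib.Helper4.TTPrim3


set_option autoImplicit false
open Cfsg Cfsg.Agent.Lib.Helper27 Cfsg.Agent.Lib.Helper8 Cfsg.Agent.Lib.Helper4.TTPrim
open scoped commutatorElement

namespace Cfsg.Agent.S5361




/-- Let D be a conjugacy class of 3-transpositions generating the finite group G, and suppose the centre of G is trivial and some two different members of D commute. Then the following are equivalent: (1) the commutator subgroup of G is simple (possibly of prime order); (2) G acts primitively on D by conjugation; (3) the largest normal 2-subgroup and the largest normal 3-subgroup of G are trivial and the commuting graph of D is connected. -/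
theorem result {G : Type*} [Group G] [Finite G] {D : Set G} (hD : Cfsg.IsThreeTranspositionClass D) (hZ : Subgroup.center G = ⊥) (hw : ∃ a ∈ D, ∃ b ∈ D, a ≠ b ∧ Commute a b) : (IsSimpleGroup (commutator G) ↔ Cfsg.IsPrimitiveUnderConj D) ∧ (Cfsg.IsPrimitiveUnderConj D ↔ (Cfsg.pCore 2 G = ⊥ ∧ Cfsg.pCore 3 G = ⊥ ∧ (Cfsg.commutingGraph D).Connected)) := by
  have hT := hD.1
  have hD2 : ∃ a ∈ D, ∃ b ∈ D, a ≠ b := by
    obtain ⟨a, ha, b, hb, hne, -⟩ := hw
    exact ⟨a, ha, b, hb, hne⟩
  obtain ⟨d, hd, -⟩ := id hD2
  have hA : Cfsg.IsPrimitiveUnderConj D →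
      (Cfsg.pCore 2 G = ⊥ ∧ Cfsg.pCore 3 G = ⊥ ∧ (Cfsg.commutingGraph D).Connected) := by
    intro hprim
    obtain ⟨h2, h3⟩ := pCore_le_center_of_primitive hD hw hprim
    rw [hZ] at h2 h3
    exact ⟨le_bot_iff.mp h2, le_bot_iff.mp h3, connected_of_primitive hD hw hprim⟩
  have hcomp : (Cfsg.pCore 2 G = ⊥ ∧ Cfsg.pCore 3 G = ⊥ ∧ (Cfsg.commutingGraph D).Connected) →
      ∃ K : Subgroup G, Cfsg.IsComponent K ∧ K.index ≤ 2 := by
    rintro ⟨h2, h3, hc⟩
    obtain ⟨L, hLn, hLq, -, -⟩ := Cfsg.Agent.S5352.result hD hD2 (h2 ▸ bot_le) (h3 ▸ bot_le)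
    have hK : Cfsg.IsComponent L := ⟨hLn.isSubnormal, hLq⟩
    exact ⟨L, hK, index_le_two_of_connected hD hK hc⟩
  have hB : (Cfsg.pCore 2 G = ⊥ ∧ Cfsg.pCore 3 G = ⊥ ∧ (Cfsg.commutingGraph D).Connected) →
      Cfsg.IsPrimitiveUnderConj D := by
    intro h
    obtain ⟨K, hK, hi⟩ := hcomp h
    exact primitive_of_index_le_two hD hD2 hK hi
  refine ⟨⟨?_, ?_⟩, ⟨hA, hB⟩⟩
  · intro hs
    obtain ⟨a, ha, b, hb, hne, hc⟩ := hw
    have hKn : (commutator G).Normal := inferInstance
    have hmulmem : ∀ x ∈ D, ∀ y ∈ D, x * y ∈ commutator G := by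
      intro x hx y hy
      obtain ⟨g, rfl⟩ := TTC.exists_conj hD hx hy
      have : x * (g * x * g⁻¹) = ⁅x, g⁆ := by rw [commutatorElement_def, TT.inv hT hx]; group
      rw [this, commutator_def]
      exact Subgroup.commutator_mem_commutator (Subgroup.mem_top _) (Subgroup.mem_top _)
    have hperf : commutator (commutator G) = ⊤ := by
      rcases hs.eq_bot_or_eq_top_of_normal (commutator (commutator G)) inferInstance with h | h
      swap
      · exact h
      exfalso
      have hcm := (commutator_eq_bot_iff (commutator G)).mp h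
      set t := a * b with ht
      have htK : t ∈ commutator G := hmulmem a ha b hb
      have ht2 : t * t = 1 := by
        have := sq_of_commute (TT.sq hT ha) (TT.sq hT hb) hc
        rwa [pow_two] at this
      have ht1 : t ≠ 1 := by
        intro h1
        apply hne
        calc a = a * (a * b) := by rw [← ht, h1, mul_one]
          _ = b := by rw [← mul_assoc, TT.sq hT ha, one_mul]
      have hTn : (Subgroup.zpowers (⟨t, htK⟩ : commutator G)).Normal := by
        refine ⟨fun n hn g => ?_⟩
        have : g * n * g⁻¹ = n := by rw [hcm.is_comm.comm g n]; group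
        rwa [this]
      rcases hs.eq_bot_or_eq_top_of_normal _ hTn with h1 | h1
      · rw [Subgroup.zpowers_eq_bot] at h1
        exact ht1 (congrArg Subtype.val h1)
      · apply ht1
        have hcen : t ∈ Subgroup.center G := by
          rw [Subgroup.mem_center_iff]
          intro g
          have h2 : (⟨g * t * g⁻¹, hKn.conj_mem t htK g⟩ : commutator G) ∈
              Subgroup.zpowers (⟨t, htK⟩ : commutator G) := h1 ▸ Subgroup.mem_top _
          obtain ⟨n, hn⟩ := Subgroup.mem_zpowers_iff.mp h2
          have hn' : t ^ n = g * t * g⁻¹ := by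
            have := congrArg Subtype.val hn
            simpa using this
          have h22 : t ^ (2 : ℤ) = 1 := by rw [zpow_two, ht2]
          rcases Int.even_or_odd' n with ⟨m, rfl | rfl⟩
          · rw [zpow_mul, h22, one_zpow] at hn'
            exfalso
            apply ht1
            calc t = g⁻¹ * (g * t * g⁻¹) * g := by group
              _ = 1 := by rw [← hn']; group
          · rw [zpow_add, zpow_mul, h22, one_zpow, one_mul, zpow_one] at hn'
            calc g * t = (g * t * g⁻¹) * g := by group
              _ = t * g := by rw [← hn']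
        rw [hZ, Subgroup.mem_bot] at hcen
        exact hcen
    have hK : Cfsg.IsComponent (commutator G) := by
      refine ⟨hKn.isSubnormal, (isQuasisimple_iff _).mpr ⟨⟨hperf⟩, hs.toNontrivial, ?_⟩⟩
      intro N hN
      rcases hs.eq_bot_or_eq_top_of_normal N hN with h | h
      · right; rw [h]; exact bot_le
      · left; exact h
    exact primitive_of_index_le_two hD hD2 hK
      (index_le_two_of_forall_mul_mem hD hd (fun x hx => hmulmem d hd x hx))
  · intro hprim
    obtain ⟨K, hK, hi⟩ := hcomp (hA hprim)
    rw [commutator_eq_of_index_le_two hD hK hi]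
    obtain ⟨-, hnt, hN⟩ := (isQuasisimple_iff _).mp hK.2
    have hcen : Subgroup.center K = ⊥ := by
      rw [eq_bot_iff]
      intro z hz
      rw [Subgroup.mem_center_iff] at hz
      have h1 : (z : G) ∈ Subgroup.center G := by
        apply mem_center_of_centralize hD hK
        intro k hk
        exact congrArg Subtype.val (hz ⟨k, hk⟩)
      rw [hZ, Subgroup.mem_bot] at h1
      rw [Subgroup.mem_bot]
      exact Subtype.ext h1
    refine ⟨fun N hNn => ?_⟩
    rcases hN N hNn with h | h
    · exact Or.inr h
    · left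
      rw [hcen] at h
      exact le_bot_iff.mp h

end Cfsg.Agent.S5361
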