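import Cfsg.Statements.S5363
import Cfsg.Agent.Lib.Helper27.Basic

set_option autoImplicit false
open Cfsg
open Cfsg.Agent.Lib.Helper27

namespace Cfsg.Agent.S5363

/-- Let D be a conjugation-invariant set of involutions of a finite group G. Then every product of two members of D has odd order or order 2 if and only if, for every a in D and every b in D different from a and commuting with a, the members of D commuting with a b are exactly those commuting with both a and b. -/
theorem result {G : Type*} [Group G] [Finite G] {D : Set G} (hinv : ∀ d ∈ D, orderOf d = 2) (hconj : ∀ g : G, ∀ d ∈ D, g * d * g⁻¹ ∈ D) : (∀ a ∈ D, ∀ b ∈ D, Odd (orderOf (a * b)) ∨ orderOf (a * b) = 2) ↔ ∀ a ∈ D, ∀ b ∈ D, b ≠ a → Commute a b → {y : G | y ∈ D ∧ Commute (a * b) y} = {y : G | y ∈ D ∧ Commute a y} ∩ {y : G | y ∈ D ∧ Commute b y} := by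
  constructor
  · intro h a ha b hb hba hab
    have haa := sq_of_orderOf_two (hinv a ha)
    have hbb := sq_of_orderOf_two (hinv b hb)
    ext y
    constructor
    · rintro ⟨hy, hyc⟩
      have hyy := sq_of_orderOf_two (hinv y hy)
      -- it suffices to show that `y` commutes with `a`
      suffices hay : Commute a y by
        refine ⟨⟨hy, hay⟩, hy, ?_⟩
        have : b = a * (a * b) := by rw [← mul_assoc, haa, one_mul]
        rw [this]
        exact hay.mul_left hyc
      have hz1 : a * b ≠ 1 := by
        intro h1
        apply hba
        calc b = (a * a) * b := by rw [haa, one_mul]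
          _ = a * (a * b) := by rw [mul_assoc]
          _ = a := by rw [h1, mul_one]
      have hzz : (a * b) * (a * b) = 1 := by
        calc (a * b) * (a * b) = a * (b * a) * b := by group
          _ = a * (a * b) * b := by rw [hab.eq]
          _ = (a * a) * (b * b) := by group
          _ = 1 := by rw [haa, hbb, one_mul]
      have hza : Commute (a * b) a := (Commute.refl a).mul_left hab.symm
      have hby : b * y = (a * b) * (a * y) := by
        calc b * y = (a * a) * b * y := by rw [haa, one_mul]
          _ = a * (a * b) * y := by group
          _ = (a * b) * a * y := by rw [hza.eq]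
          _ = (a * b) * (a * y) := by group
      have hzay : Commute (a * b) (a * y) := hza.mul_right hyc
      have hpow : ∀ n : ℕ, (b * y) ^ n = (a * b) ^ n * (a * y) ^ n := by
        intro n; rw [hby, hzay.mul_pow]
      have hzodd : ∀ n : ℕ, Odd n → (a * b) ^ n = a * b := by
        rintro n ⟨k, rfl⟩
        rw [pow_succ, pow_mul, pow_two, hzz, one_pow, one_mul]
      rcases h a ha y hy with hodd | h2
      · -- odd order
        rcases h b hb y hy with hodd' | h2'
        · exfalso
          apply hz1
          have h3 := hpow (orderOf (a * y) * orderOf (b * y))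
          rw [pow_mul' (b * y), pow_orderOf_eq_one, one_pow, pow_mul (a * y), pow_orderOf_eq_one, one_pow,
            mul_one, hzodd _ (hodd.mul hodd')] at h3
          exact h3.symm
        · have h3 := hpow 2
          rw [← h2', pow_orderOf_eq_one, h2', pow_two (a * b), hzz, one_mul] at h3
          have h4 : orderOf (a * y) ∣ 2 := orderOf_dvd_of_pow_eq_one h3.symm
          have h5 : orderOf (a * y) = 1 := by
            rcases (Nat.dvd_prime Nat.prime_two).1 h4 with h6 | h6
            · exact h6
            · rw [h6] at hodd; exact absurd hodd (by decide)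
          rw [orderOf_eq_one_iff] at h5
          have : y = a := by
            calc y = (a * a) * y := by rw [haa, one_mul]
              _ = a * (a * y) := by rw [mul_assoc]
              _ = a := by rw [h5, mul_one]
          rw [this]
      · have h3 : (a * y) * (a * y) = 1 := by rw [← pow_two, ← h2, pow_orderOf_eq_one]
        show a * y = y * a
        calc a * y = (a * y)⁻¹ := eq_inv_of_mul_eq_one_left h3
          _ = y * a := by rw [mul_inv_rev, inv_of_orderOf_two (hinv a ha), inv_of_orderOf_two (hinv y hy)]
    · rintro ⟨⟨hy, hay⟩, -, hby⟩
      exact ⟨hy, hay.mul_left hby⟩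
  · intro h a ha b hb
    have haa := sq_of_orderOf_two (hinv a ha)
    have hbb := sq_of_orderOf_two (hinv b hb)
    obtain ⟨m, hm | hm⟩ := Nat.even_or_odd' (orderOf (a * b))
    · right
      have hpos : 0 < orderOf (a * b) := orderOf_pos _
      have hm0 : 0 < m := by omega
      set u := (a * b) ^ m with hu
      have hu1 : u ≠ 1 := pow_ne_one_of_lt_orderOf hm0.ne' (by omega)
      obtain ⟨hau, hbu⟩ := dih_central a b haa hbb m (by rw [← hm, pow_orderOf_eq_one])
      rw [← hu] at hau hbu
      have hauD : a * u ∈ D := by
        obtain ⟨k, hk | hk⟩ := Nat.even_or_odd' m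
        · have := dih_even a b haa hbb k
          rw [← hk, ← hu] at this
          rw [← this]
          have h2 := hconj ((a * b) ^ k)⁻¹ a ha
          rwa [inv_inv] at h2
        · have := dih_odd a b haa hbb k
          rw [← hk, ← hu] at this
          rw [← this]
          have h2 := hconj ((a * b) ^ k)⁻¹ b hb
          rwa [inv_inv] at h2
      have h1 := h a ha (a * u) hauD (fun h => hu1 (by simpa using h)) ((Commute.refl a).mul_right hau)
      have h2 : b ∈ {y : G | y ∈ D ∧ Commute (a * (a * u)) y} := by
        refine ⟨hb, ?_⟩
        rw [← mul_assoc, haa, one_mul]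
        exact hbu.symm
      rw [h1] at h2
      have hab : Commute a b := h2.1.2
      have h3 : (a * b) ^ 2 = 1 := by
        rw [hab.mul_pow, pow_two, pow_two, haa, hbb, one_mul]
      have h4 : orderOf (a * b) ∣ 2 := orderOf_dvd_of_pow_eq_one h3
      rcases (Nat.dvd_prime Nat.prime_two).1 h4 with h6 | h6
      · omega
      · exact h6
    · left
      exact ⟨m, hm⟩

end Cfsg.Agent.S5363
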