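import Cfsg.Statements.S5392
import Mathlib
import Cfsg.Agent.Lib.Helper10.LeechMinGen

set_option autoImplicit false
open Cfsg

namespace Cfsg.Agent.S5392

open Cfsg.Agent.Lib.Helper28 Cfsg.Agent.Lib.Helper10

theorem exists_third : ∀ a b : Cfsg.GolayPt, ∃ c, c ≠ a ∧ c ≠ b := by decide +kernel

theorem pair_mem_leech {i j : Cfsg.GolayPt} (hij : i ≠ j) :
    (Pi.single i 4 + Pi.single j 4 : Cfsg.GolayPt → ℤ) ∈ Cfsg.leechLattice := by
  have := pair_mem hij (s := 4) (t := 4) (Or.inl rfl) (Or.inl rfl)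
  rw [minGen_eq] at this
  exact this

theorem partA (g : ↥Cfsg.Co0)
    (hg : ∀ v : ↥Cfsg.leechLattice, ∃ w : ↥Cfsg.leechLattice,
      ((g • v : ↥Cfsg.leechLattice) : Cfsg.GolayPt → ℤ) - (v : Cfsg.GolayPt → ℤ) = 2 • (w : Cfsg.GolayPt → ℤ)) :
    g ∈ Subgroup.center ↥Cfsg.Co0 := by
  have hpres : PresCross g := by
    intro v hv
    obtain ⟨h1, h2, z, hz, h3⟩ := stdCross_subset_cross hv
    obtain ⟨w, hw⟩ := hg v
    rw [← cross_e8]
    refine ⟨(g • v : ↥Cfsg.leechLattice).2, by rw [Co0_sqNorm]; exact h2, z - w.1,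
      Cfsg.leechLattice.sub_mem hz w.2, ?_⟩
    rw [smul_sub, ← h3, ← hw]
    abel
  obtain ⟨p, rfl⟩ := exists_monoEl g hpres
  have key : ∀ (i j : Cfsg.GolayPt) (hij : i ≠ j),
      (monoEl p • (⟨_, pair_mem_leech hij⟩ : ↥Cfsg.leechLattice) : ↥Cfsg.leechLattice).1 =
        (Pi.single i 4 + Pi.single j 4 : Cfsg.GolayPt → ℤ) ∨
      (monoEl p • (⟨_, pair_mem_leech hij⟩ : ↥Cfsg.leechLattice) : ↥Cfsg.leechLattice).1 =
        -(Pi.single i 4 + Pi.single j 4 : Cfsg.GolayPt → ℤ) := by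
    intro i j hij
    set u : ↥Cfsg.leechLattice := ⟨_, pair_mem_leech hij⟩ with hu
    have hn : Cfsg.sqNorm u.1 = 32 := by
      rw [hu]; show Cfsg.sqNorm (Pi.single i 4 + Pi.single j 4 : Cfsg.GolayPt → ℤ) = 32
      rw [sqNorm_pair hij]; norm_num
    by_cases he : (monoEl p • u : ↥Cfsg.leechLattice).1 = u.1
    · exact Or.inl he
    · obtain ⟨w, hw⟩ := hg u
      rcases congr_mod_two u.2 he (by rw [Co0_sqNorm, hn]; norm_num) (by rw [hn]; norm_num) ⟨w.1, w.2, hw⟩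
        with h | h
      · exact Or.inr h
      · exfalso; rw [hn] at h; norm_num at h
  have hσ : ∀ i j : Cfsg.GolayPt, i ≠ j → p.1.1 i = i ∨ p.1.1 i = j := by
    intro i j hij
    have h1 := monoEl_smul p ⟨_, pair_mem_leech hij⟩ (p.1.1 i)
    rw [perm_inv_apply] at h1
    have h2 : (Pi.single i 4 + Pi.single j 4 : Cfsg.GolayPt → ℤ) i = 4 := by simp [hij]
    have h1' : (monoEl p • (⟨_, pair_mem_leech hij⟩ : ↥Cfsg.leechLattice) : ↥Cfsg.leechLattice).1 (p.1.1 i) =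
        sgn p.2.1 (p.1.1 i) * 4 := by rw [h1]; exact congrArg _ h2
    by_contra hcon
    push Not at hcon
    have h3 : (Pi.single i 4 + Pi.single j 4 : Cfsg.GolayPt → ℤ) (p.1.1 i) = 0 := by
      simp [hcon.1, hcon.2]
    rcases key i j hij with h | h
    · rw [h, h3] at h1'
      rcases sgn_cases p.2.1 (p.1.1 i) with h' | h' <;> rw [h'] at h1' <;> norm_num at h1'
    · rw [h, Pi.neg_apply, h3] at h1'
      rcases sgn_cases p.2.1 (p.1.1 i) with h' | h' <;> rw [h'] at h1' <;> norm_num at h1'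
  have hσ1 : ∀ i, p.1.1 i = i := by
    intro i
    obtain ⟨j, hj, -⟩ := exists_third i i
    rcases hσ i j (Ne.symm hj) with h | h
    · exact h
    · obtain ⟨k, hk1, hk2⟩ := exists_third i j
      rcases hσ i k (Ne.symm hk1) with h' | h'
      · exact h'
      · exact absurd (h'.symm.trans h) hk2
  have hinv : ∀ i, (p.1.1)⁻¹ i = i := by
    intro i
    conv_lhs => rw [← hσ1 i]
    exact perm_inv_apply _ _
  have hs : ∀ i j : Cfsg.GolayPt, sgn p.2.1 i = sgn p.2.1 j := by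
    intro i j
    by_cases hij : i = j
    · rw [hij]
    have a1 := monoEl_smul p ⟨_, pair_mem_leech hij⟩ i
    have a2 := monoEl_smul p ⟨_, pair_mem_leech hij⟩ j
    rw [hinv] at a1 a2
    have b1 : (Pi.single i 4 + Pi.single j 4 : Cfsg.GolayPt → ℤ) i = 4 := by simp [hij]
    have b2 : (Pi.single i 4 + Pi.single j 4 : Cfsg.GolayPt → ℤ) j = 4 := by simp [Ne.symm hij]
    have a1' : (monoEl p • (⟨_, pair_mem_leech hij⟩ : ↥Cfsg.leechLattice) : ↥Cfsg.leechLattice).1 i =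
        sgn p.2.1 i * 4 := by rw [a1]; exact congrArg _ b1
    have a2' : (monoEl p • (⟨_, pair_mem_leech hij⟩ : ↥Cfsg.leechLattice) : ↥Cfsg.leechLattice).1 j =
        sgn p.2.1 j * 4 := by rw [a2]; exact congrArg _ b2
    rcases key i j hij with h | h
    · rw [h, b1] at a1'; rw [h, b2] at a2'; linarith
    · rw [h, Pi.neg_apply, b1] at a1'; rw [h, Pi.neg_apply, b2] at a2'; linarith
  have hfin : monoEl p = 1 ∨ monoEl p = negCo0 := by
    rcases sgn_cases p.2.1 none with h | h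
    · left
      apply Co0_ext
      intro v
      funext i
      rw [monoEl_smul, hinv, hs i none, h, one_smul, one_mul]
    · right
      apply Co0_ext
      intro v
      funext i
      rw [monoEl_smul, hinv, hs i none, h, negCo0_smul]
      simp
  rcases hfin with h | h
  · rw [h]; exact Subgroup.one_mem _
  · rw [h]; exact Subgroup.mem_center_iff.2 (fun a => negCo0_comm a)

def ya48 (k : ℕ) : ℤ := if k = 0 then 5 else 1
def yb48 (k : ℕ) : ℤ := if k = 1 then 5 else 1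
def ya64 (k : ℕ) : ℤ := if k = 0 ∨ k = 1 ∨ k = 2 ∨ k = 3 then 4 else 0
def yb64 (k : ℕ) : ℤ := if k = 0 ∨ k = 1 ∨ k = 2 ∨ k = 4 then 4 else 0

def a48 : ↥Cfsg.leechLattice := ⟨fun i => ya48 (idx i), leechChk_spec (by decide +kernel)⟩
def b48 : ↥Cfsg.leechLattice := ⟨fun i => yb48 (idx i), leechChk_spec (by decide +kernel)⟩
def a64 : ↥Cfsg.leechLattice := ⟨fun i => ya64 (idx i), leechChk_spec (by decide +kernel)⟩
def b64 : ↥Cfsg.leechLattice := ⟨fun i => yb64 (idx i), leechChk_spec (by decide +kernel)⟩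

theorem partB (M : AddSubgroup (Cfsg.GolayPt → ℤ)) (h2 : ∀ v ∈ Cfsg.leechLattice, (2 : ℤ) • v ∈ M)
    (hle : M ≤ Cfsg.leechLattice)
    (hinv : ∀ g : ↥Cfsg.Co0, ∀ v : ↥Cfsg.leechLattice, (v : Cfsg.GolayPt → ℤ) ∈ M →
      ((g • v : ↥Cfsg.leechLattice) : Cfsg.GolayPt → ℤ) ∈ M) :
    (∀ x ∈ M, ∃ w ∈ Cfsg.leechLattice, x = (2 : ℤ) • w) ∨ M = Cfsg.leechLattice := by
  by_cases hall : ∀ x ∈ M, ∃ w ∈ Cfsg.leechLattice, x = (2 : ℤ) • w
  · exact Or.inl hall
  right
  push Not at hall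
  obtain ⟨x, hxM, hx⟩ := hall
  obtain ⟨y, hy, hn, z, hz, hxy⟩ := exists_short_rep (hle hxM)
  have hyM : y ∈ M := by
    have : y = x - (2 : ℤ) • z := by
      have e : (2 : ℤ) • z = 2 • z := by rw [two_smul, two_smul]
      rw [e, ← hxy]; abel
    rw [this]
    exact M.sub_mem hxM (h2 z hz)
  have hy0 : y ≠ 0 := by
    rintro rfl
    apply hx z hz
    rw [sub_zero] at hxy
    rw [hxy, two_smul, two_smul]
  have hmin := min_norm hy hy0
  obtain ⟨k, hk⟩ := sqNorm_dvd hy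
  -- all vectors of the norm of `y` lie in `M`
  have hmin32 : ∃ u : ↥Cfsg.leechLattice, Cfsg.sqNorm u.1 = 32 ∧ u.1 ∈ M := by
    have hcases : Cfsg.sqNorm y = 32 ∨ Cfsg.sqNorm y = 48 ∨ Cfsg.sqNorm y = 64 := by omega
    rcases hcases with h | h | h
    · exact ⟨⟨y, hy⟩, h, hyM⟩
    · have ha : Cfsg.sqNorm a48.1 = 48 := by decide +kernel
      have hb : Cfsg.sqNorm b48.1 = 48 := by decide +kernel
      obtain ⟨g1, e1⟩ := Co0_trans48 ⟨y, hy⟩ a48 h ha
      obtain ⟨g2, e2⟩ := Co0_trans48 ⟨y, hy⟩ b48 h hb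
      have m1 := hinv g1 ⟨y, hy⟩ hyM
      have m2 := hinv g2 ⟨y, hy⟩ hyM
      rw [e1] at m1; rw [e2] at m2
      exact ⟨a48 - b48, by decide +kernel, M.sub_mem m1 m2⟩
    · have ha : Cfsg.sqNorm a64.1 = 64 := by decide +kernel
      have hb : Cfsg.sqNorm b64.1 = 64 := by decide +kernel
      obtain ⟨g1, e1⟩ := Co0_trans64 ⟨y, hy⟩ a64 h ha
      obtain ⟨g2, e2⟩ := Co0_trans64 ⟨y, hy⟩ b64 h hb
      have m1 := hinv g1 ⟨y, hy⟩ hyM
      have m2 := hinv g2 ⟨y, hy⟩ hyM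
      rw [e1] at m1; rw [e2] at m2
      exact ⟨a64 - b64, by decide +kernel, M.sub_mem m1 m2⟩
  obtain ⟨u, hu, huM⟩ := hmin32
  apply le_antisymm hle
  rw [← minGen_eq]
  unfold minGen
  rw [AddSubgroup.closure_le]
  rintro v ⟨hv, hvn⟩
  obtain ⟨g, hg⟩ := Co0_trans32 u ⟨v, hv⟩ hu hvn
  have := hinv g u huM
  rw [hg] at this
  exact this


/-- The Leech lattice modulo twice itself is a faithful irreducible module for the first Conway group: an automorphism of the rank-24 lattice built from the length-24 code that moves every lattice vector only by twice a lattice vector lies in the centre of the automorphism group (the centre consists of ±1, which act trivially there, so the kernel is exactly the centre), and an additive subgroup lying between twice the lattice and the lattice that is invariant under all lattice automorphisms is one of the two. -/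
theorem result : (∀ g : ↥Cfsg.Co0, (∀ v : ↥Cfsg.leechLattice, ∃ w : ↥Cfsg.leechLattice, ((g • v : ↥Cfsg.leechLattice) : Cfsg.GolayPt → ℤ) - (v : Cfsg.GolayPt → ℤ) = 2 • (w : Cfsg.GolayPt → ℤ)) → g ∈ Subgroup.center ↥Cfsg.Co0) ∧ ∀ M : AddSubgroup (Cfsg.GolayPt → ℤ), (∀ v ∈ Cfsg.leechLattice, (2 : ℤ) • v ∈ M) → M ≤ Cfsg.leechLattice → (∀ g : ↥Cfsg.Co0, ∀ v : ↥Cfsg.leechLattice, (v : Cfsg.GolayPt → ℤ) ∈ M → ((g • v : ↥Cfsg.leechLattice) : Cfsg.GolayPt → ℤ) ∈ M) → (∀ x ∈ M, ∃ w ∈ Cfsg.leechLattice, x = (2 : ℤ) • w) ∨ M = Cfsg.leechLattice := by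
  exact ⟨partA, partB⟩

end Cfsg.Agent.S5392
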