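import Cfsg.Statements.S5394
import Mathlib
import Cfsg.Agent.Lib.Helper10.ElemCls

set_option autoImplicit false
open Cfsg

namespace Cfsg.Agent.S5394

open Cfsg Cfsg.Agent.Lib.Helper28 Cfsg.Agent.Lib.Helper10
open scoped Pointwise

theorem conj_of_conj {g h Z k1 k2 : Equiv.Perm GolayPt} (h1 : k1 * g * k1⁻¹ = Z) (h2 : k2 * h * k2⁻¹ = Z) :
    (k2⁻¹ * k1) * g * (k2⁻¹ * k1)⁻¹ = h := by
  have : h = k2⁻¹ * Z * k2 := by rw [← h2]; group
  rw [this, ← h1]; group


/-- The automorphism group of the length-24 code built from the squares modulo 23 has exactly two conjugacy classes of involutions: an involution either fixes exactly the eight points of an octad or has no fixed points, both kinds occur, and any two involutions of the same kind are conjugate in the group. -/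
theorem result : (∀ g ∈ Cfsg.M24, orderOf g = 2 → (Finset.univ.filter fun p => g p = p) ∈ Cfsg.octads ∨ ∀ p, g p ≠ p) ∧ (∃ g ∈ Cfsg.M24, orderOf g = 2 ∧ (Finset.univ.filter fun p => g p = p) ∈ Cfsg.octads) ∧ (∃ g ∈ Cfsg.M24, orderOf g = 2 ∧ ∀ p, g p ≠ p) ∧ ∀ g ∈ Cfsg.M24, ∀ h ∈ Cfsg.M24, orderOf g = 2 → orderOf h = 2 → ((∀ p, g p ≠ p) ↔ (∀ p, h p ≠ p)) → ∃ k ∈ Cfsg.M24, k * g * k⁻¹ = h := by
  refine ⟨?_, ⟨permOf zA, permOf_mem_M24 zA_in, orderOf_zA, ?_⟩, ⟨permOf zB, permOf_mem_M24 zB_in, orderOf_zB, ?_⟩, ?_⟩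
  · intro g hg h2
    by_cases hf : (fixF g).card = 0
    · exact Or.inr (card_fixF_eq_zero_iff.1 hf)
    · left
      obtain ⟨k, hk, h⟩ := invol_classA hg h2 hf
      have h1 := fixF_conj k g
      rw [h, fixF_zA] at h1
      show fixF g ∈ octads
      rw [← smul_mem_octads_iff hk, ← h1]
      exact stdOctad_mem
  · show fixF (permOf zA) ∈ octads
    rw [fixF_zA]
    exact stdOctad_mem
  · exact fixF_eq_empty_iff.1 fixF_zB
  · intro g hg h hh g2 h2 hiff
    rw [← card_fixF_eq_zero_iff, ← card_fixF_eq_zero_iff] at hiff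
    by_cases hf : (fixF g).card = 0
    · obtain ⟨k1, hk1, e1⟩ := invol_classB hg g2 hf
      obtain ⟨k2, hk2, e2⟩ := invol_classB hh h2 (hiff.1 hf)
      exact ⟨k2⁻¹ * k1, M24.mul_mem (M24.inv_mem hk2) hk1, conj_of_conj e1 e2⟩
    · obtain ⟨k1, hk1, e1⟩ := invol_classA hg g2 hf
      obtain ⟨k2, hk2, e2⟩ := invol_classA hh h2 (fun h0 => hf (hiff.2 h0))
      exact ⟨k2⁻¹ * k1, M24.mul_mem (M24.inv_mem hk2) hk1, conj_of_conj e1 e2⟩

end Cfsg.Agent.S5394
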