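import Cfsg.Statements.S5396
import Cfsg.Agent.Lib.Helper19.ESH

set_option autoImplicit false
open Cfsg

namespace Cfsg.Agent.S5396

open Cfsg.Agent.Lib.Helper19.ES

/-- For every n ≥ 1 there exist finite extraspecial 2-groups of order 2^(2n+1) whose 2-rank (the largest rank of an elementary abelian subgroup) is n, and ones whose 2-rank is n + 1 (so for each such order there are two non-isomorphic extraspecial 2-groups, told apart by their 2-rank). -/
theorem result (n : ℕ) (hn : 1 ≤ n) : ∀ r ∈ ({n, n + 1} : Set ℕ), ∃ (E : Type) (_ : Group E) (_ : Finite E), Cfsg.IsExtraspecial 2 E ∧ Nat.card E = 2 ^ (2 * n + 1) ∧ sSup {k : ℕ | ∃ A : Subgroup E, Cfsg.IsElementaryAbelian 2 A ∧ Nat.card A = 2 ^ k} = r := by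
  haveI : Fact (Nat.Prime 2) := ⟨Nat.prime_two⟩
  intro r hr
  have hne : (2 : ℕ) ^ (2 * n + 1) ≠ 2 := by
    intro h
    have h2 : (2 : ℕ) ^ (2 * n + 1) = 2 ^ 1 := by rw [h, pow_one]
    have := Nat.pow_right_injective (le_refl 2) h2
    omega
  rcases hr with rfl | rfl
  · obtain ⟨k, rfl⟩ : ∃ k, r = k + 1 := ⟨r - 1, by omega⟩
    obtain ⟨E, i1, i2, z, h, hc, hs⟩ := ex_minus k
    have hE : Cfsg.IsExtraspecial 2 E := h.to_extraspecial (h.nonabelian (by rw [hc]; exact hne))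
    exact ⟨E, i1, i2, hE, hc, (sSup_rank hE (k + 1) hc).2 hs⟩
  · obtain ⟨E, i1, i2, z, h, hc, hs⟩ := ex_plus n
    have hE : Cfsg.IsExtraspecial 2 E := h.to_extraspecial (h.nonabelian (by rw [hc]; exact hne))
    exact ⟨E, i1, i2, hE, hc, (sSup_rank hE n hc).1 hs⟩

end Cfsg.Agent.S5396
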