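import Cfsg.Statements.S5406
import Mathlib
import Cfsg.Agent.Lib.Helper10.Monster4

set_option autoImplicit false
open Cfsg

namespace Cfsg.Agent.S5406

open Cfsg.Agent.Lib.Helper10

/-- Let G be a finite group of Monster type at the involution z with Q the extraspecial normal subgroup of order 2^25 of C = C_G(z) (so C/Q is identified with the first Conway group with Q modulo its centre the Leech lattice modulo 2, and z is not weakly closed in Q). Then C acts transitively by conjugation on the conjugates of z that lie in Q and differ from z. -/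
theorem result {G : Type*} [Group G] [Finite G] (z : G) (Q : Subgroup (Subgroup.centralizer ({z} : Set G))) [Q.Normal] (hM : Cfsg.IsOfMonsterType z Q) (s t : G) (hsQ : ∃ hsc : s ∈ Subgroup.centralizer ({z} : Set G), (⟨s, hsc⟩ : Subgroup.centralizer ({z} : Set G)) ∈ Q) (htQ : ∃ htc : t ∈ Subgroup.centralizer ({z} : Set G), (⟨t, htc⟩ : Subgroup.centralizer ({z} : Set G)) ∈ Q) (hs : IsConj z s) (ht : IsConj z t) (hs1 : s ≠ z) (ht1 : t ≠ z) : ∃ h ∈ Subgroup.centralizer ({z} : Set G), h * s * h⁻¹ = t := by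
  obtain ⟨hE, e, ψ, hψ⟩ := hM
  have M := ms_of z Q hE e ψ hψ
  obtain ⟨hsc, hsQ⟩ := hsQ
  obtain ⟨htc, htQ⟩ := htQ
  have zz : z * z = 1 := congrArg Subtype.val M.c_sq
  have z1 : z ≠ 1 := fun h => M.c_ne (Subtype.ext h)
  have key : ∀ (x : G) (hxc : x ∈ Subgroup.centralizer ({z} : Set G)),
      (⟨x, hxc⟩ : Subgroup.centralizer ({z} : Set G)) ∈ Q → IsConj z x → x ≠ z →
      ∃ v : leechLattice, relT Q ψ v ⟨x, hxc⟩ ∧ sqNorm v.1 = 64 := by
    intro x hxc hxQ hx hxz
    obtain ⟨g, hg⟩ := isConj_iff.1 hx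
    obtain ⟨v, hv, hn⟩ := M.type_of_inv hxQ
      (by apply Subtype.ext
          show x * x = 1
          rw [← hg]
          calc g * z * g⁻¹ * (g * z * g⁻¹) = g * (z * z) * g⁻¹ := by group
            _ = 1 := by rw [zz]; group)
      (by intro h
          have h' : x = 1 := congrArg Subtype.val h
          rw [← hg] at h'
          apply z1
          calc z = g⁻¹ * (g * z * g⁻¹) * g := by group
            _ = 1 := by rw [h']; group)
      (fun h => hxz (congrArg Subtype.val h))
    rcases hn with h | h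
    · exact (no_type2 z Q M g ⟨x, hxc⟩ hg.symm v hv h).elim
    · exact ⟨v, hv, h⟩
  obtain ⟨vs, Ts, ns⟩ := key s hsc hsQ hs hs1
  obtain ⟨vt, Tt, nt⟩ := key t htc htQ ht ht1
  obtain ⟨h, hh⟩ := M.conj_of_type Ts Tt (by simp [ns]) (by rw [ns, nt])
  exact ⟨h.1, h.2, congrArg Subtype.val hh⟩

end Cfsg.Agent.S5406
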