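import Cfsg.Statements.S5407
import Mathlib
import Cfsg.Agent.Lib.Helper10.Monster4

set_option autoImplicit false
open Cfsg

namespace Cfsg.Agent.S5407

open Cfsg.Agent.Lib.Helper10

/-- Let G be a finite group of Monster type at the involution z with Q the extraspecial normal subgroup of order 2^25 of C = C_G(z) (so C/Q is identified with the first Conway group with Q modulo its centre the Leech lattice modulo 2, and z is not weakly closed in Q). Then under any such identification ψ of the Leech lattice modulo 2 with Q modulo its centre, an element x of Q is a conjugate of z other than z exactly when x modulo the centre is the image under ψ of a lattice vector of squared length 64 in the coordinates used here, that is, of norm 8 in the customary normalisation in which the minimal vectors have norm 4 (twice the minimal norm). -/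
theorem result {G : Type*} [Group G] [Finite G] (z : G) (Q : Subgroup (Subgroup.centralizer ({z} : Set G))) [Q.Normal] (hM : Cfsg.IsOfMonsterType z Q) (e : (Subgroup.centralizer ({z} : Set G)) ⧸ Q ≃* Cfsg.Spor.Co1) (ψ : Cfsg.leechLattice → Q ⧸ Subgroup.center Q) (hψ : Cfsg.IsLeechModTwoIso Q e ψ) (x : Q) : (IsConj z ((x : Subgroup.centralizer ({z} : Set G)) : G) ∧ ((x : Subgroup.centralizer ({z} : Set G)) : G) ≠ z) ↔ ∃ v : Cfsg.leechLattice, Cfsg.sqNorm (v : Cfsg.GolayPt → ℤ) = 64 ∧ ψ v = QuotientGroup.mk x := by
  have hE := hM.1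
  have M := ms_of z Q hE e ψ hψ
  have zz : z * z = 1 := congrArg Subtype.val M.c_sq
  have z1 : z ≠ 1 := fun h => M.c_ne (Subtype.ext h)
  constructor
  · rintro ⟨hx, hxz⟩
    obtain ⟨g, hg⟩ := isConj_iff.1 hx
    obtain ⟨v, hv, hn⟩ := M.type_of_inv x.2
      (by apply Subtype.ext
          show x.1.1 * x.1.1 = 1
          rw [← hg]
          calc g * z * g⁻¹ * (g * z * g⁻¹) = g * (z * z) * g⁻¹ := by group
            _ = 1 := by rw [zz]; group)
      (by intro h
          have h' : x.1.1 = 1 := congrArg Subtype.val h
          rw [← hg] at h'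
          apply z1
          calc z = g⁻¹ * (g * z * g⁻¹) * g := by group
            _ = 1 := by rw [h']; group)
      (fun h => hxz (congrArg Subtype.val h))
    rcases hn with h | h
    · exact (no_type2 z Q M g x.1 hg.symm v hv h).elim
    · obtain ⟨_, hv'⟩ := hv
      exact ⟨v, h, hv'⟩
  · rintro ⟨v, hn, hv⟩
    have Tx : relT Q ψ v x.1 := ⟨x.2, hv⟩
    obtain ⟨g, r, vr, hr, Tr, nr⟩ := exists_conj_type z Q hE e ψ hψ
    have nr64 : sqNorm vr.1 = 64 := by
      rcases nr with h | h
      · exact (no_type2 z Q M g r hr vr Tr h).elim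
      · exact h
    obtain ⟨h, hh⟩ := M.conj_of_type Tr Tx (by simp [nr64]) (by rw [nr64, hn])
    refine ⟨?_, ?_⟩
    · rw [isConj_iff]
      refine ⟨h.1 * g, ?_⟩
      have h' : h.1 * r.1 * h.1⁻¹ = x.1.1 := congrArg Subtype.val hh
      rw [← h', hr]; group
    · intro hxz
      exact (M.ne_of_type Tx (by simp [hn])).2 (Subtype.ext hxz)

end Cfsg.Agent.S5407
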