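import Cfsg.Statements.S5408
import Mathlib
import Cfsg.Agent.Lib.Helper10.Monster2
import Cfsg.Agent.Lib.Helper10.LeechJ

set_option autoImplicit false
open Cfsg

namespace Cfsg.Agent.S5408

open Cfsg.Agent.Lib.Helper10

/-- Let G be a finite group of Monster type at the involution z with Q the extraspecial normal subgroup of order 2^25 of C = C_G(z) (so C/Q is identified with the first Conway group with Q modulo its centre the Leech lattice modulo 2, and z is not weakly closed in Q). Then Q is of plus type: it contains an elementary abelian subgroup of order 2^13. -/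
theorem result {G : Type*} [Group G] [Finite G] (z : G) (Q : Subgroup (Subgroup.centralizer ({z} : Set G))) [Q.Normal] (hM : Cfsg.IsOfMonsterType z Q) : ∃ E : Subgroup Q, Cfsg.IsElementaryAbelian 2 E ∧ Nat.card E = 2 ^ 13 := by
  obtain ⟨hE, e, ψ, hψ⟩ := hM
  have M := ms_of z Q hE e ψ hψ
  obtain ⟨hadd, hsurj, hker, -⟩ := hψ
  let ψ' : Multiplicative leechLattice →* Q ⧸ Subgroup.center Q :=
    MonoidHom.mk' (fun v => ψ (Multiplicative.toAdd v)) (fun a b => hadd _ _)
  have hψ' : Function.Surjective ψ' := fun y => by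
    obtain ⟨v, hv⟩ := hsurj y
    exact ⟨Multiplicative.ofAdd v, hv⟩
  let A : Subgroup (Multiplicative leechLattice) := AddSubgroup.toSubgroup Tm.range
  let B : Subgroup (Q ⧸ Subgroup.center Q) := A.map ψ'
  let E : Subgroup Q := B.comap (QuotientGroup.mk' (Subgroup.center Q))
  have hkerA : ψ'.ker ≤ A := by
    intro v hv
    have h1 : ψ (Multiplicative.toAdd v) = 1 := hv
    obtain ⟨w, hw⟩ := (hker _).1 h1
    show Multiplicative.toAdd v ∈ Tm.range
    rw [hw, ← Tm_Tm_neg]
    exact ⟨_, rfl⟩
  have i1 : E.index = B.index := Subgroup.index_comap_of_surjective B (QuotientGroup.mk'_surjective _)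
  have i2 : (B.comap ψ').index = B.index := Subgroup.index_comap_of_surjective B hψ'
  have i3 : B.comap ψ' = A := by
    show (A.map ψ').comap ψ' = A
    rw [Subgroup.comap_map_eq, sup_eq_left.2 hkerA]
  have i4 : A.index = 2 ^ 12 := by
    show (AddSubgroup.toSubgroup Tm.range).index = _
    rw [AddSubgroup.index_toSubgroup, index_range_Tm]
  have i5 : E.index = 2 ^ 12 := by rw [i1, ← i2, i3, i4]
  have hsq : ∀ a ∈ E, a * a = 1 := by
    intro a ha
    obtain ⟨v, hv, hva⟩ := ha
    obtain ⟨x, hx⟩ := (show Multiplicative.toAdd v ∈ Tm.range from hv)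
    have hT : relT Q ψ (Multiplicative.toAdd v) a.1 := ⟨a.2, hva⟩
    have := (M.sq_iff hT).2 (by rw [← hx]; exact norm_Tm x)
    exact Subtype.ext this
  refine ⟨E, ⟨⟨⟨fun a b => ?_⟩⟩, ?_⟩, ?_⟩
  · apply Subtype.ext
    show a.1 * b.1 = b.1 * a.1
    have h1 := hsq a.1 a.2
    have h2 := hsq b.1 b.2
    have h3 := hsq (b.1 * a.1) (E.mul_mem b.2 a.2)
    calc a.1 * b.1 = b.1 * b.1 * (a.1 * b.1) * (a.1 * a.1) := by rw [h1, h2]; group
      _ = b.1 * ((b.1 * a.1) * (b.1 * a.1)) * a.1 := by group
      _ = b.1 * a.1 := by rw [h3]; group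
  · intro a ha
    rw [pow_two]
    exact hsq a ha
  · have h1 := E.card_mul_index
    rw [i5, M.card] at h1
    have : Nat.card E * 2 ^ 12 = 2 ^ 13 * 2 ^ 12 := by rw [h1]; norm_num
    exact Nat.eq_of_mul_eq_mul_right (by norm_num) this

end Cfsg.Agent.S5408
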