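import Cfsg.Statements.S5409
import Mathlib
import Cfsg.Agent.Lib.Helper10.Monster5

set_option autoImplicit false
open Cfsg

namespace Cfsg.Agent.S5409

open Cfsg.Agent.Lib.Helper10

/-- Let G be a finite group of Monster type at the involution z with Q the extraspecial normal subgroup of order 2^25 of C = C_G(z) (so C/Q is identified with the first Conway group with Q modulo its centre the Leech lattice modulo 2, and z is not weakly closed in Q). Then for a conjugate s = g z g⁻¹ of z lying in Q and different from z, the intersection of Q with its conjugate g Q g⁻¹ (both regarded as subgroups of G) has order 2^13. -/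
theorem result {G : Type*} [Group G] [Finite G] (z : G) (Q : Subgroup (Subgroup.centralizer ({z} : Set G))) [Q.Normal] (hM : Cfsg.IsOfMonsterType z Q) (s : G) (hsQ : ∃ hsc : s ∈ Subgroup.centralizer ({z} : Set G), (⟨s, hsc⟩ : Subgroup.centralizer ({z} : Set G)) ∈ Q) (hs : IsConj z s) (hs1 : s ≠ z) (g : G) (hg : g * z * g⁻¹ = s) : Nat.card ↥((Q.map (Subgroup.centralizer ({z} : Set G)).subtype) ⊓ (Q.map (Subgroup.centralizer ({z} : Set G)).subtype).map (MulAut.conj g).toMonoidHom) = 2 ^ 13 := by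
  obtain ⟨hE, e, ψ, hψ⟩ := hM
  have M := ms_of z Q hE e ψ hψ
  obtain ⟨hsc, hsQ⟩ := hsQ
  have zz : z * z = 1 := congrArg Subtype.val M.c_sq
  have z1 : z ≠ 1 := fun h => M.c_ne (Subtype.ext h)
  have tc : (⟨s, hsc⟩ : Subgroup.centralizer ({z} : Set G)) ≠ zC z := fun h => hs1 (congrArg Subtype.val h)
  obtain ⟨R, hRmem, cardR, hR1, hR2, -, hR4⟩ := conj_R z Q M g ⟨s, hsc⟩ hg.symm hsQ tc
  obtain ⟨v, hv, hn⟩ := M.type_of_inv hsQ
    (by apply Subtype.ext
        show s * s = 1
        rw [← hg]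
        calc g * z * g⁻¹ * (g * z * g⁻¹) = g * (z * z) * g⁻¹ := by group
          _ = 1 := by rw [zz]; group)
    (by intro h
        have h' : s = 1 := congrArg Subtype.val h
        rw [← hg] at h'
        apply z1
        calc z = g⁻¹ * (g * z * g⁻¹) * g := by group
          _ = 1 := by rw [h']; group)
    tc
  have h64 : sqNorm v.1 = 64 := by
    rcases hn with h | h
    · exact (no_type2 z Q M g ⟨s, hsc⟩ hg.symm v hv h).elim
    · exact h
  have hcard := (M.card_inf_of_type4 hv h64 R hR1 hR2 cardR hR4).2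
  have heq : (Q.map (Subgroup.centralizer ({z} : Set G)).subtype) ⊓
      (Q.map (Subgroup.centralizer ({z} : Set G)).subtype).map (MulAut.conj g).toMonoidHom =
      (R ⊓ Q).map (Subgroup.centralizer ({z} : Set G)).subtype := by
    ext x
    constructor
    · rintro ⟨⟨y, hy, rfl⟩, ⟨_, ⟨q, hq, rfl⟩, hx⟩⟩
      exact ⟨y, ⟨(hRmem y).2 ⟨q, hq, hx.symm⟩, hy⟩, rfl⟩
    · rintro ⟨y, ⟨hyR, hyQ⟩, rfl⟩
      obtain ⟨q, hq, hr⟩ := (hRmem y).1 hyR
      exact ⟨⟨y, hyQ, rfl⟩, ⟨q.1, ⟨q, hq, rfl⟩, hr.symm⟩⟩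
  rw [heq, Subgroup.card_map_of_injective (Subgroup.subtype_injective _), hcard]

end Cfsg.Agent.S5409
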