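import Cfsg.Statements.S5410
import Mathlib
import Cfsg.Agent.Lib.Helper10.Monster6

set_option autoImplicit false
open Cfsg

namespace Cfsg.Agent.S5410

open Cfsg.Agent.Lib.Helper10

/-- Let G be a finite group of Monster type at the involution z with Q the extraspecial normal subgroup of order 2^25 of C = C_G(z) (so C/Q is identified with the first Conway group with Q modulo its centre the Leech lattice modulo 2, and z is not weakly closed in Q). Let g in G with s = g z g⁻¹ a member of Q other than z, let X be the image in C/Q of the centralizer of s in C, and let E be the image in C/Q of the intersection of g Q g⁻¹ with C. Then E is a normal subgroup of X, elementary abelian of order 2^11, and it has a complement in X isomorphic to the Mathieu group of degree 24 (the automorphism group of the length-24 binary Golay code). -/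
theorem result {G : Type*} [Group G] [Finite G] (z : G) (Q : Subgroup (Subgroup.centralizer ({z} : Set G))) [Q.Normal] (hM : Cfsg.IsOfMonsterType z Q) (s : G) (hsQ : ∃ hsc : s ∈ Subgroup.centralizer ({z} : Set G), (⟨s, hsc⟩ : Subgroup.centralizer ({z} : Set G)) ∈ Q) (hs : IsConj z s) (hs1 : s ≠ z) (g : G) (hg : g * z * g⁻¹ = s) (X E : Subgroup ((Subgroup.centralizer ({z} : Set G)) ⧸ Q)) (hX : X = ((Subgroup.centralizer ({z} : Set G) ⊓ Subgroup.centralizer ({s} : Set G)).subgroupOf (Subgroup.centralizer ({z} : Set G))).map (QuotientGroup.mk' Q)) (hE : E = (((Q.map (Subgroup.centralizer ({z} : Set G)).subtype).map (MulAut.conj g).toMonoidHom ⊓ Subgroup.centralizer ({z} : Set G)).subgroupOf (Subgroup.centralizer ({z} : Set G))).map (QuotientGroup.mk' Q)) : E ≤ X ∧ (∀ x ∈ X, ∀ y ∈ E, x * y * x⁻¹ ∈ E) ∧ Cfsg.IsElementaryAbelian 2 E ∧ Nat.card E = 2 ^ 11 ∧ ∃ K : Subgroup ((Subgroup.centralizer ({z} : Set G)) ⧸ Q), K ≤ X ∧ E ⊓ K = ⊥ ∧ E ⊔ K = X ∧ Nonempty (K ≃* Cfsg.M24) := by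
  obtain ⟨hE', e, ψ, hψ⟩ := hM
  have M := ms_of z Q hE' e ψ hψ
  obtain ⟨hsc, hsQ⟩ := hsQ
  have zz : z * z = 1 := congrArg Subtype.val M.c_sq
  have z1 : z ≠ 1 := fun h => M.c_ne (Subtype.ext h)
  have tc : (⟨s, hsc⟩ : Subgroup.centralizer ({z} : Set G)) ≠ zC z := fun h => hs1 (congrArg Subtype.val h)
  obtain ⟨R, hRmem, cardR, hR1, hR2, -, hR4⟩ := conj_R z Q M g ⟨s, hsc⟩ hg.symm hsQ tc
  obtain ⟨v, hv, hn⟩ := M.type_of_inv hsQ
    (by apply Subtype.ext
        show s * s = 1
        rw [← hg]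
        calc g * z * g⁻¹ * (g * z * g⁻¹) = g * (z * z) * g⁻¹ := by group
          _ = 1 := by rw [zz]; group)
    (by intro h
        have h' : s = 1 := congrArg Subtype.val h
        rw [← hg] at h'
        apply z1
        calc z = g⁻¹ * (g * z * g⁻¹) * g := by group
          _ = 1 := by rw [h']; group)
    tc
  have h64 : sqNorm v.1 = 64 := by
    rcases hn with h | h
    · exact (no_type2 z Q M g ⟨s, hsc⟩ hg.symm v hv h).elim
    · exact h
  obtain ⟨a, ha⟩ := Co0_trans64 (e8 none) v (sqNorm_e8 none) h64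
  have hCT : ∀ h, h ∈ (Subgroup.centralizer ({z} : Set G) ⊓ Subgroup.centralizer ({s} : Set G)).subgroupOf
      (Subgroup.centralizer ({z} : Set G)) ↔ h * (⟨s, hsc⟩ : Subgroup.centralizer ({z} : Set G)) = ⟨s, hsc⟩ * h := by
    intro h
    rw [Subgroup.mem_subgroupOf, Subgroup.mem_inf, mem_cz (z := s)]
    constructor
    · rintro ⟨-, h2⟩
      exact Subtype.ext h2
    · intro h2
      exact ⟨h.2, congrArg Subtype.val h2⟩
  have hRe : (((Q.map (Subgroup.centralizer ({z} : Set G)).subtype).map (MulAut.conj g).toMonoidHom ⊓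
      Subgroup.centralizer ({z} : Set G)).subgroupOf (Subgroup.centralizer ({z} : Set G))) = R := by
    ext r
    rw [Subgroup.mem_subgroupOf, Subgroup.mem_inf, hRmem]
    constructor
    · rintro ⟨⟨_, ⟨q, hq, rfl⟩, hx⟩, -⟩
      exact ⟨q, hq, hx.symm⟩
    · rintro ⟨q, hq, hr⟩
      exact ⟨⟨q.1, ⟨q, hq, rfl⟩, hr.symm⟩, r.2⟩
  rw [hRe] at hE
  have hεinj : Function.Injective e.toMonoidHom := e.injective
  have mapE : E.map e.toMonoidHom = (signGrp.map (MulAut.conj a).toMonoidHom).map muC := by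
    rw [hE, Subgroup.map_map]
    exact M.map_R_type4 hv h64 R hR1 hR2 cardR hR4 a ha
  have mapX : X.map e.toMonoidHom = (monoGrp.map (MulAut.conj a).toMonoidHom).map muC := by
    rw [hX, Subgroup.map_map]
    exact M.map_CT_type4 hv h64 _ hCT a ha
  have hsq : ∀ y ∈ E, y * y = 1 := by
    intro y hy
    have : e.toMonoidHom y ∈ E.map e.toMonoidHom := ⟨y, hy, rfl⟩
    rw [mapE] at this
    obtain ⟨_, ⟨x, hx, rfl⟩, hxy⟩ := this
    apply hεinj
    rw [map_mul, ← hxy, ← map_mul, ← map_mul, sign_sq hx, map_one, map_one, map_one]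
  refine ⟨?_, ?_, ⟨⟨⟨fun p q => ?_⟩⟩, ?_⟩, ?_, ?_⟩
  · rw [hE, hX]
    exact Subgroup.map_mono (fun r hr => (hCT r).2 (hR1 r hr))
  · rw [hE, hX]
    rintro _ ⟨h, hh, rfl⟩ _ ⟨r, hr, rfl⟩
    exact ⟨h * r * h⁻¹, hR2 h ((hCT h).1 hh) r hr, by simp⟩
  · apply Subtype.ext
    show p.1 * q.1 = q.1 * p.1
    have h1 := hsq p.1 p.2
    have h2 := hsq q.1 q.2
    have h3 := hsq (q.1 * p.1) (E.mul_mem q.2 p.2)
    calc p.1 * q.1 = q.1 * q.1 * (p.1 * q.1) * (p.1 * p.1) := by rw [h1, h2]; group
      _ = q.1 * ((q.1 * p.1) * (q.1 * p.1)) * p.1 := by group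
      _ = q.1 * p.1 := by rw [h3]; group
  · intro y hy
    rw [pow_two]
    exact hsq y hy
  · rw [← Subgroup.card_map_of_injective (K := E) hεinj, hE, Subgroup.map_map]
    exact (M.card_inf_of_type4 hv h64 R hR1 hR2 cardR hR4).1
  · set θ : ↥M24 →* (Subgroup.centralizer ({z} : Set G)) ⧸ Q :=
      e.symm.toMonoidHom.comp ((muC.comp (MulAut.conj a).toMonoidHom).comp permHom) with hθ
    have hθinj : Function.Injective θ := e.symm.injective.comp (perm_mu_inj a)
    have mapK : θ.range.map e.toMonoidHom = (permHom.range.map (MulAut.conj a).toMonoidHom).map muC := by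
      rw [← MonoidHom.range_comp]
      have : e.toMonoidHom.comp θ = (muC.comp (MulAut.conj a).toMonoidHom).comp permHom := by
        ext σ
        simp [hθ]
      rw [this, MonoidHom.range_comp, Subgroup.map_map]
    refine ⟨θ.range, ?_, ?_, ?_, ⟨(MonoidHom.ofInjective hθinj).symm⟩⟩
    · rw [← Subgroup.map_le_map_iff_of_injective hεinj, mapK, mapX]
      apply Subgroup.map_mono
      apply Subgroup.map_mono
      rw [← sign_sup_perm]
      exact le_sup_right
    · apply Subgroup.map_injective hεinj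
      rw [Subgroup.map_inf _ _ _ hεinj, mapE, mapK, sign_perm_inf_bot, Subgroup.map_bot]
    · apply Subgroup.map_injective hεinj
      rw [Subgroup.map_sup, mapE, mapK, mapX, ← Subgroup.map_sup, ← Subgroup.map_sup, sign_sup_perm]

end Cfsg.Agent.S5410
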