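import Cfsg.Statements.S5411
import Mathlib
import Mathlib
import Cfsg.Agent.Lib.Helper10.Monster2

set_option autoImplicit false
open Cfsg

namespace Cfsg.Agent.S5411

open Cfsg.Agent.Lib.Helper10

/-- Let G be a finite group of Monster type at the involution z with Q the extraspecial normal subgroup of order 2^25 of C = C_G(z) (so C/Q is identified with the first Conway group with Q modulo its centre the Leech lattice modulo 2, and z is not weakly closed in Q). Then C acts transitively by conjugation on the involutions of Q that are not conjugate to z in G. -/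
theorem result {G : Type*} [Group G] [Finite G] (z : G) (Q : Subgroup (Subgroup.centralizer ({z} : Set G))) [Q.Normal] (hM : Cfsg.IsOfMonsterType z Q) (s t : G) (hsQ : ∃ hsc : s ∈ Subgroup.centralizer ({z} : Set G), (⟨s, hsc⟩ : Subgroup.centralizer ({z} : Set G)) ∈ Q) (htQ : ∃ htc : t ∈ Subgroup.centralizer ({z} : Set G), (⟨t, htc⟩ : Subgroup.centralizer ({z} : Set G)) ∈ Q) (hs2 : orderOf s = 2) (ht2 : orderOf t = 2) (hs : ¬ IsConj z s) (ht : ¬ IsConj z t) : ∃ h ∈ Subgroup.centralizer ({z} : Set G), h * s * h⁻¹ = t := by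
  obtain ⟨hE, e, ψ, hψ⟩ := hM
  have M := ms_of z Q hE e ψ hψ
  obtain ⟨hsc, hsQ⟩ := hsQ
  obtain ⟨htc, htQ⟩ := htQ
  obtain ⟨g, r, vr, hr, Tr, nr⟩ := exists_conj_type z Q hE e ψ hψ
  have key : ∀ (x : G) (hxc : x ∈ Subgroup.centralizer ({z} : Set G)),
      (⟨x, hxc⟩ : Subgroup.centralizer ({z} : Set G)) ∈ Q → orderOf x = 2 → ¬ IsConj z x →
      ∃ v : leechLattice, relT Q ψ v ⟨x, hxc⟩ ∧ (sqNorm v.1 = 32 ∨ sqNorm v.1 = 64) ∧
        sqNorm v.1 ≠ sqNorm vr.1 := by
    intro x hxc hxQ hx2 hx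
    have xx : x * x = 1 := by
      have := pow_orderOf_eq_one x
      rwa [hx2, pow_two] at this
    have x1 : x ≠ 1 := by
      rintro rfl
      simp at hx2
    obtain ⟨v, hv, hn⟩ := M.type_of_inv hxQ (Subtype.ext xx) (fun h => x1 (congrArg Subtype.val h))
      (fun h => hx (by rw [show x = z from congrArg Subtype.val h]))
    refine ⟨v, hv, hn, ?_⟩
    intro hvr
    obtain ⟨h, hh⟩ := M.conj_of_type Tr hv (by rcases nr with h | h <;> simp [h]) hvr.symm
    apply hx
    rw [isConj_iff]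
    refine ⟨h.1 * g, ?_⟩
    have h' : h.1 * r.1 * h.1⁻¹ = x := congrArg Subtype.val hh
    rw [← h', hr]; group
  obtain ⟨vs, Ts, ns, ds⟩ := key s hsc hsQ hs2 hs
  obtain ⟨vt, Tt, nt, dt⟩ := key t htc htQ ht2 ht
  obtain ⟨h, hh⟩ := M.conj_of_type Ts Tt (by rcases ns with h | h <;> simp [h]) (by omega)
  exact ⟨h.1, h.2, congrArg Subtype.val hh⟩

end Cfsg.Agent.S5411
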