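import Cfsg.Statements.S5420
import Cfsg.Agent.Lib.Helper27.Cores

set_option autoImplicit false
open Cfsg
open Cfsg.Agent.Lib.Helper27

namespace Cfsg.Agent.S5420

/-- Let Q be an extraspecial 2-subgroup of the finite group G whose centralizer in G is its centre Z and which is normal in the centralizer of Z. If Z lies in the largest normal 2-subgroup of G, then Q is a large extraspecial 2-subgroup of G: it normalizes no non-trivial subgroup of G of odd order. -/
theorem result {G : Type*} [Group G] [Finite G] (Q : Subgroup G) (hL1 : Cfsg.IsExtraspecial 2 ↥Q) (hL2 : Subgroup.centralizer (Q : Set G) = ((Subgroup.center ↥Q).map Q.subtype)) (hL3 : Subgroup.centralizer (((Subgroup.center ↥Q).map Q.subtype) : Set G) ≤ Subgroup.normalizer (Q : Set G)) (hZ : ((Subgroup.center ↥Q).map Q.subtype) ≤ Cfsg.pCore 2 G) : Cfsg.IsLargeExtraspecial Q := by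
  have : Fact (Nat.Prime 2) := ⟨Nat.prime_two⟩
  refine ⟨hL1, hL2, hL3, fun K hK hQK => ?_⟩
  have hKc := coprime_two_of_odd hK
  have hQ2 : IsPGroup 2 Q := hL1.1.1
  have hO := pCore_normal (G := G) 2
  have hO2 : IsPGroup 2 (Cfsg.pCore 2 G) := pCore_isPGroup
  have h1 : K ≤ Subgroup.centralizer (((Subgroup.center ↥Q).map Q.subtype) : Set G) := by
    intro k hk
    rw [Subgroup.mem_centralizer_iff]
    intro z hz
    have hzQ : z ∈ Q := center_map_le Q hz
    have hzO : z ∈ Cfsg.pCore 2 G := hZ hz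
    have hc1 : z * k * z⁻¹ * k⁻¹ ∈ K :=
      K.mul_mem ((Subgroup.mem_normalizer_iff.1 (hQK hzQ) k).1 hk) (K.inv_mem hk)
    have hc2 : z * k * z⁻¹ * k⁻¹ ∈ Cfsg.pCore 2 G := by
      have : z * k * z⁻¹ * k⁻¹ = z * (k * z⁻¹ * k⁻¹) := by group
      rw [this]
      exact Subgroup.mul_mem _ hzO (hO.conj_mem _ (Subgroup.inv_mem _ hzO) k)
    have := eq_one_of_mem_pGroup_of_coprime hO2 hKc hc2 hc1
    calc z * k = (z * k * z⁻¹ * k⁻¹) * (k * z) := by group
      _ = k * z := by rw [this, one_mul]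
  have h2 : K ≤ Subgroup.centralizer (Q : Set G) := by
    intro k hk
    rw [Subgroup.mem_centralizer_iff]
    intro q hq
    have hc1 : q * k * q⁻¹ * k⁻¹ ∈ K :=
      K.mul_mem ((Subgroup.mem_normalizer_iff.1 (hQK hq) k).1 hk) (K.inv_mem hk)
    have hc2 : q * k * q⁻¹ * k⁻¹ ∈ Q := by
      have : q * k * q⁻¹ * k⁻¹ = q * (k * q⁻¹ * k⁻¹) := by group
      rw [this]
      exact Q.mul_mem hq ((Subgroup.mem_normalizer_iff.1 (hL3 (h1 hk)) q⁻¹).1 (Q.inv_mem hq))
    have := eq_one_of_mem_pGroup_of_coprime hQ2 hKc hc2 hc1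
    calc q * k = (q * k * q⁻¹ * k⁻¹) * (k * q) := by group
      _ = k * q := by rw [this, one_mul]
  rw [eq_bot_iff]
  intro k hk
  have hkQ : k ∈ Q := center_map_le Q (hL2 ▸ h2 hk)
  exact Subgroup.mem_bot.2 (eq_one_of_mem_pGroup_of_coprime hQ2 hKc hkQ hk)

end Cfsg.Agent.S5420
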