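import Cfsg.Statements.S5421
import Cfsg.Agent.Lib.Helper27.Extra

set_option autoImplicit false
open Cfsg
open Cfsg.Agent.Lib.Helper27

namespace Cfsg.Agent.S5421

/-- Let Q be an extraspecial 2-subgroup of the finite group G whose centralizer in G is its centre Z and which is normal in the centralizer of Z. If some involution b of Q outside Z has Z inside the largest normal 2-subgroup of the centralizer of b, then Q is a large extraspecial 2-subgroup of G. -/
theorem result {G : Type*} [Group G] [Finite G] (Q : Subgroup G) (hL1 : Cfsg.IsExtraspecial 2 ↥Q) (hL2 : Subgroup.centralizer (Q : Set G) = ((Subgroup.center ↥Q).map Q.subtype)) (hL3 : Subgroup.centralizer (((Subgroup.center ↥Q).map Q.subtype) : Set G) ≤ Subgroup.normalizer (Q : Set G)) (b : G) (hbQ : b ∈ Q) (hbZ : b ∉ ((Subgroup.center ↥Q).map Q.subtype)) (hb : orderOf b = 2) (hZ : ((Subgroup.center ↥Q).map Q.subtype) ≤ (Cfsg.pCore 2 ↥(Subgroup.centralizer ({b} : Set G))).map (Subgroup.centralizer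 ({b} : Set G)).subtype) : Cfsg.IsLargeExtraspecial Q := by
  have : Fact (Nat.Prime 2) := ⟨Nat.prime_two⟩
  refine ⟨hL1, hL2, hL3, fun K hK hQK => ?_⟩
  have hKc := coprime_two_of_odd hK
  obtain ⟨z, hzQ, hz1, hzz, hzc, hmem, hcomm⟩ := extra_gen Q hL1
  obtain ⟨q, hq, hqb⟩ := extra_conj Q hcomm hbQ hbZ
  have hbb : b * b = 1 := by rw [← pow_two, ← hb, pow_orderOf_eq_one]
  have hb1 : b ≠ 1 := by
    rintro rfl
    rw [orderOf_one] at hb
    omega
  have hzb : z ≠ b := by
    rintro rfl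
    exact hbZ ((hmem z).2 (Or.inr rfl))
  have h1 := extra_inf_centralizer_eq_bot Q hL1 hL2 hL3 hzc hmem K hK hQK
  have h2 : K ⊓ Subgroup.centralizer {b} = ⊥ := by
    rw [eq_bot_iff, ← h1]
    intro k hk
    refine Subgroup.mem_inf.2 ⟨hk.1, ?_⟩
    rw [Subgroup.mem_centralizer_singleton_iff]
    set O := (Cfsg.pCore 2 ↥(Subgroup.centralizer ({b} : Set G))).map (Subgroup.centralizer ({b} : Set G)).subtype with hO
    have hO2 : IsPGroup 2 O := (pCore_isPGroup).map _
    have hzO : z ∈ O := hZ ((hmem z).2 (Or.inr rfl))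
    have hc1 : z * k * z⁻¹ * k⁻¹ ∈ K :=
      K.mul_mem ((Subgroup.mem_normalizer_iff.1 (hQK hzQ) k).1 hk.1) (K.inv_mem hk.1)
    have hc2 : z * k * z⁻¹ * k⁻¹ ∈ O := by
      have e : z * k * z⁻¹ * k⁻¹ = z * (k * z⁻¹ * k⁻¹) := by group
      rw [e]
      refine O.mul_mem hzO ?_
      obtain ⟨z', hz', rfl⟩ := hzO
      exact ⟨_, (Cfsg.Agent.Lib.Helper27.pCore_normal 2).conj_mem _ (Subgroup.inv_mem _ hz') ⟨k, hk.2⟩, rfl⟩
    have := eq_one_of_mem_pGroup_of_coprime hO2 hKc hc2 hc1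
    calc k * z = (z * k * z⁻¹ * k⁻¹)⁻¹ * (z * k) := by group
      _ = z * k := by rw [this, inv_one, one_mul]
  have h3 : K ⊓ Subgroup.centralizer {z * b} = ⊥ := by
    rw [eq_bot_iff]
    intro k hk
    have hk2 := Subgroup.mem_centralizer_singleton_iff.1 hk.2
    have hk' : q⁻¹ * k * q ∈ K ⊓ Subgroup.centralizer {b} := by
      refine Subgroup.mem_inf.2 ⟨?_, ?_⟩
      · have := (Subgroup.mem_normalizer_iff.1 (hQK (Q.inv_mem hq)) k).1 hk.1
        simpa using this
      · rw [Subgroup.mem_centralizer_singleton_iff]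
        calc q⁻¹ * k * q * b = q⁻¹ * (k * (q * b * q⁻¹)) * q := by group
          _ = q⁻¹ * ((q * b * q⁻¹) * k) * q := by rw [hqb, hk2]
          _ = b * (q⁻¹ * k * q) := by group
    rw [h2, Subgroup.mem_bot] at hk'
    rw [Subgroup.mem_bot]
    calc k = q * (q⁻¹ * k * q) * q⁻¹ := by group
      _ = 1 := by rw [hk']; group
  exact eq_bot_of_four hzz hbb (hzc b hbQ) hz1 hb1 hzb K hK (hQK hzQ) (hQK hbQ) h1 h2 h3

end Cfsg.Agent.S5421
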