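import Cfsg.Statements.S5422
import Cfsg.Agent.Lib.Helper27.Extra2
import Cfsg.Agent.Lib.Helper27.Extra3
import Cfsg.Agent.S5421

set_option autoImplicit false
open Cfsg
open Cfsg.Agent.Lib.Helper27

namespace Cfsg.Agent.S5422

/-- Let Q be an extraspecial 2-subgroup of the finite group G whose centralizer in G is its centre Z and which is normal in the centralizer of Z; suppose Q has width at least 2 (order 2^(2w+1) with w ≥ 2) and g is an element of G not normalizing Z with g Z g⁻¹ inside Q. Then Z lies inside g Q g⁻¹; writing V for the subgroup generated by Z and g Z g⁻¹ (a four-group), the normalizer of V induces on V its full automorphism group, that is, the centralizer of V has index 6 in the normalizer of V; and Q is a large extraspecial 2-subgroup of G. -/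
theorem result {G : Type*} [Group G] [Finite G] (Q : Subgroup G) (hL1 : Cfsg.IsExtraspecial 2 ↥Q) (hL2 : Subgroup.centralizer (Q : Set G) = ((Subgroup.center ↥Q).map Q.subtype)) (hL3 : Subgroup.centralizer (((Subgroup.center ↥Q).map Q.subtype) : Set G) ≤ Subgroup.normalizer (Q : Set G)) (w : ℕ) (hw : 2 ≤ w) (hcard : Nat.card ↥Q = 2 ^ (2 * w + 1)) (g : G) (hg : g ∉ Subgroup.normalizer (((Subgroup.center ↥Q).map Q.subtype) : Set G)) (hZg : (((Subgroup.center ↥Q).map Q.subtype)).map (MulAut.conj g).toMonoidHom ≤ Q) : ((Subgroup.center ↥Q).map Q.subtype) ≤ (Q).map (MulAut.conj g).toMonoidHom ∧ (Subgroup.centralizer ((((Subgroup.center ↥Q).map Q.subtype) ⊔ (((Subgroup.center ↥Q).map Q.subtype)).map (MulAut.conj g).toMonoidHom : Subgroup G) : Set G)).relIndex (Subgroup.normalizer ((((Subgroup.center ↥Q).map Q.subtype) ⊔ (((Subgroup.center ↥Q).map Q.subtype)).map (MulAut.conj g).toMonoidHom : Subgroup G) : Set G)) = 6 ∧ Cfsg.IsLargeExtraspecial Q := by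
  have : Fact (Nat.Prime 2) := ⟨Nat.prime_two⟩
  obtain ⟨z, hQ, hmem⟩ := ES.of_extra Q hL1 hL2 hL3
  have hR := hQ.conj g
  obtain ⟨y, hydef⟩ : ∃ y, y = g * z * g⁻¹ := ⟨_, rfl⟩
  obtain ⟨R, hRdef⟩ : ∃ R, R = Q.map (MulAut.conj g).toMonoidHom := ⟨_, rfl⟩
  rw [← hydef, ← hRdef] at hR
  have hyZg : y ∈ (((Subgroup.center ↥Q).map Q.subtype)).map (MulAut.conj g).toMonoidHom :=
    ⟨z, (hmem z).2 (Or.inr rfl), hydef.symm⟩
  have hyQ : y ∈ Q := hZg hyZg
  have hyz : y ≠ z := by
    intro h
    apply hg
    rw [Subgroup.mem_normalizer_iff]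
    intro x
    rw [hmem, hmem]
    constructor
    · rintro (rfl | rfl)
      · left; simp
      · right; rw [← hydef, h]
    · rintro (h1 | h1)
      · left
        calc x = g⁻¹ * (g * x * g⁻¹) * g := by group
          _ = 1 := by rw [h1]; group
      · right
        calc x = g⁻¹ * (g * x * g⁻¹) * g := by group
          _ = g⁻¹ * (g * z * g⁻¹) * g := by rw [h1, ← hydef, h]
          _ = z := by group
  have hbig : 8 < Nat.card Q := by
    rw [hcard]
    calc 8 < 2 ^ 5 := by norm_num
      _ ≤ 2 ^ (2 * w + 1) := Nat.pow_le_pow_right (by norm_num) (by omega)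
  have hswap : ∀ s : G, s * z * s⁻¹ = y → s * y * s⁻¹ = z → z ∈ R := by
    intro s h1 h2
    rw [hRdef, mem_map_conj_iff]
    have h3 : (g⁻¹ * s) * z = z * (g⁻¹ * s) := by
      calc (g⁻¹ * s) * z = g⁻¹ * (s * z * s⁻¹) * s := by group
        _ = g⁻¹ * (g * z * g⁻¹) * s := by rw [h1, hydef]
        _ = z * (g⁻¹ * s) := by group
    have h4 := hQ.nor _ h3 y hyQ
    have e : g⁻¹ * z * g = g⁻¹ * s * y * (g⁻¹ * s)⁻¹ := by
      rw [← h2]; group
    rw [e]; exact h4
  have hzR : z ∈ R := hQ.key hR hyQ hyz hbig hswap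
  have hZR : ((Subgroup.center ↥Q).map Q.subtype) ≤ R := by
    intro x hx
    rcases (hmem x).1 hx with rfl | rfl
    · exact R.one_mem
    · exact hzR
  have hc : y * z = z * y := hQ.cen y hyQ
  refine ⟨hRdef ▸ hZR, ?_, ?_⟩
  · have hV : ((Subgroup.center ↥Q).map Q.subtype) ⊔ (((Subgroup.center ↥Q).map Q.subtype)).map (MulAut.conj g).toMonoidHom
        = fourSub z y hQ.sq hR.sq hc := by
      apply le_antisymm
      · apply sup_le
        · intro x hx
          rcases (hmem x).1 hx with rfl | rfl
          · exact Subgroup.one_mem _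
          · exact Or.inr (Or.inl rfl)
        · rintro _ ⟨x, hx, rfl⟩
          rcases (hmem x).1 hx with rfl | rfl
          · rw [map_one]; exact Subgroup.one_mem _
          · exact Or.inr (Or.inr (Or.inl hydef.symm))
      · have h1 : z ∈ ((Subgroup.center ↥Q).map Q.subtype) ⊔ (((Subgroup.center ↥Q).map Q.subtype)).map (MulAut.conj g).toMonoidHom :=
          Subgroup.mem_sup_left ((hmem z).2 (Or.inr rfl))
        have h2 : y ∈ ((Subgroup.center ↥Q).map Q.subtype) ⊔ (((Subgroup.center ↥Q).map Q.subtype)).map (MulAut.conj g).toMonoidHom :=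
          Subgroup.mem_sup_right hyZg
        rintro x (rfl | rfl | rfl | rfl)
        · exact Subgroup.one_mem _
        · exact h1
        · exact h2
        · exact Subgroup.mul_mem _ h1 h2
    rw [hV]
    obtain ⟨q, hq, hqy⟩ := hQ.exists_conj hyQ hR.ne hyz
    obtain ⟨r, hr, hrz⟩ := hR.exists_conj hzR hQ.ne hyz.symm
    exact four_relIndex hQ.sq hR.sq hc hQ.ne hR.ne hyz.symm (by rw [hQ.cen q hq]; group) hqy
      (by rw [hrz, hc]) (by rw [hR.cen r hr]; group)
  · apply Cfsg.Agent.S5421.result Q hL1 hL2 hL3 y hyQ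
    · rw [hmem]
      rintro (h | h)
      · exact hR.ne h
      · exact hyz h
    · exact orderOf_eq_prime (by rw [pow_two]; exact hR.sq) hR.ne
    · intro x hx
      have hxR := hZR hx
      have hRC : R ≤ Subgroup.centralizer ({y} : Set G) := by
        intro r hr
        rw [Subgroup.mem_centralizer_singleton_iff]
        exact hR.cen r hr
      have hn : (R.subgroupOf (Subgroup.centralizer ({y} : Set G))).Normal := by
        constructor
        intro r hr c
        rw [Subgroup.mem_subgroupOf] at hr ⊢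
        exact hR.nor c (Subgroup.mem_centralizer_singleton_iff.1 c.2) _ hr
      have hp : IsPGroup 2 (R.subgroupOf (Subgroup.centralizer ({y} : Set G))) := by
        have h1 : IsPGroup 2 R := by rw [hRdef]; exact hL1.1.1.map _
        exact h1.comap_subtype
      exact ⟨⟨x, hRC hxR⟩, le_pCore hn hp (Subgroup.mem_subgroupOf.2 hxR), rfl⟩

end Cfsg.Agent.S5422
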