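import Cfsg.Statements.S5427
import Mathlib
import Cfsg.Agent.Lib.Helper8.FStar
import Cfsg.Agent.S5421
import Cfsg.Agent.S5422

set_option autoImplicit false
open Cfsg

namespace Cfsg.Agent.S5427

theorem mem_cz' {G : Type*} [Group G] {z x : G} :
    x ∈ Subgroup.centralizer ({z} : Set G) ↔ x * z = z * x := by
  rw [Subgroup.mem_centralizer_iff]
  constructor
  · intro h
    exact (h z rfl).symm
  · intro h y hy
    rw [Set.mem_singleton_iff.1 hy]
    exact h.symm

theorem center_le_gfit' (C : Type*) [Group C] : Subgroup.center C ≤ generalizedFittingSubgroup C := by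
  refine le_trans ?_ le_sup_right
  have hn : Group.IsNilpotent (Subgroup.center C) :=
    ⟨1, Subgroup.upperCentralSeries_one_eq_top_iff.2 inferInstance⟩
  exact le_sSup (show Subgroup.center C ∈ {N : Subgroup C | N.Normal ∧ Group.IsNilpotent N} from
    ⟨inferInstance, hn⟩)

/-- an involution acting without fixed points on a finite normal subgroup inverts it -/
theorem inverts {G : Type*} [Group G] [Finite G] (N : Subgroup G) [hN : N.Normal] (a : G)
    (ha : a * a = 1) (h : ∀ n ∈ N, n * a = a * n → n = 1) : ∀ n ∈ N, a * n * a⁻¹ = n⁻¹ := by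
  let f : N → N := fun n => ⟨n.1⁻¹ * (a * n.1 * a⁻¹), N.mul_mem (N.inv_mem n.2) (hN.conj_mem n.1 n.2 a)⟩
  have hinj : Function.Injective f := by
    intro n m hnm
    have e : n.1⁻¹ * (a * n.1 * a⁻¹) = m.1⁻¹ * (a * m.1 * a⁻¹) := congrArg Subtype.val hnm
    have h1 : (m.1 * n.1⁻¹) * a = a * (m.1 * n.1⁻¹) := by
      calc m.1 * n.1⁻¹ * a = m.1 * (n.1⁻¹ * (a * n.1 * a⁻¹)) * a * n.1⁻¹ := by group
        _ = m.1 * (m.1⁻¹ * (a * m.1 * a⁻¹)) * a * n.1⁻¹ := by rw [e]
        _ = a * (m.1 * n.1⁻¹) := by group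
    have h2 := h _ (N.mul_mem m.2 (N.inv_mem n.2)) h1
    exact Subtype.ext (mul_inv_eq_one.1 h2).symm
  have hsurj := Finite.injective_iff_surjective.1 hinj
  intro x hx
  obtain ⟨n, hn⟩ := hsurj ⟨x, hx⟩
  have e : x = n.1⁻¹ * (a * n.1 * a⁻¹) := (congrArg Subtype.val hn).symm
  have ainv : a⁻¹ = a := inv_eq_of_mul_eq_one_left ha
  rw [e, show (n.1⁻¹ * (a * n.1 * a⁻¹))⁻¹ = a * n.1⁻¹ * a⁻¹ * n.1 by group, ainv]
  calc a * (n.1⁻¹ * (a * n.1 * a)) * a = a * n.1⁻¹ * a * n.1 * (a * a) := by group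
    _ = a * n.1⁻¹ * a * n.1 := by rw [ha, mul_one]


/-- Let z be an involution of the finite group G whose centralizer C has generalized Fitting subgroup Q, an extraspecial 2-group of width at least 2 (order 2^(2w+1), w ≥ 2). Let K be a subgroup of G such that the subgroup U generated by the K-conjugates of z is abelian and C is generated by the C-conjugates of U. Suppose that either some K-conjugate of z other than z lies in Q, or some element u of U ∩ Q outside the subgroup generated by z has z in the largest normal 2-subgroup of its centralizer. Then G is simple and Q is a large extraspecial 2-subgroup of G. -/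
theorem result {G : Type*} [Group G] [Finite G] (z : G) (hz : orderOf z = 2) (Q : Subgroup G) (hQC : Q ≤ Subgroup.centralizer ({z} : Set G)) (hF : (Cfsg.generalizedFittingSubgroup ↥(Subgroup.centralizer ({z} : Set G))).map (Subgroup.centralizer ({z} : Set G)).subtype = Q) (hQ : Cfsg.IsExtraspecial 2 ↥Q) (w : ℕ) (hw : 2 ≤ w) (hcard : Nat.card ↥Q = 2 ^ (2 * w + 1)) (K U : Subgroup G) (hU : U = Subgroup.closure {x : G | ∃ k ∈ K, x = k * z * k⁻¹}) (hUab : IsMulCommutative ↥U) (hgen : Subgroup.closure {x : G | ∃ c ∈ Subgroup.centralizer ({z} : Set G), ∃ u ∈ U, x = c * u * c⁻¹} = Subgroup.centralizer ({z} : Set G)) (h3 : (∃ k ∈ K, k * z * k⁻¹ ∈ Q ∧ k * z * k⁻¹ ≠ z) ∨ ∃ u ∈ U ⊓ Q, u ∉ Subgroup.zpowers z ∧ (∃ hz' : z ∈ Subgroup.centralizer ({u} : Set G), (⟨z, hz'⟩ : ↥(Subgroup.centralizer ({u} : Set G))) ∈ Cfsg.pCore 2 ↥(Subgroup.centralizer ({u} : Set G)))) : IsSimpleGroup G ∧ Cfsg.IsLargeExtraspecial Q := by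
  classical
  have z1 : z ≠ 1 := by
    rintro rfl
    simp at hz
  have zz : z * z = 1 := by
    have := pow_orderOf_eq_one z
    rwa [hz, pow_two] at this
  have zmem : z ∈ Subgroup.centralizer ({z} : Set G) := mem_cz'.2 rfl
  have zQ : z ∈ Q := by
    rw [← hF]
    refine ⟨⟨z, zmem⟩, ?_, rfl⟩
    apply center_le_gfit'
    rw [Subgroup.mem_center_iff]
    exact fun h => Subtype.ext (mem_cz'.1 h.2)
  have hQz : ∀ q ∈ Q, q * z = z * q := fun q hq => mem_cz'.1 (hQC hq)
  have hzp : ∀ x : G, x ∈ Subgroup.zpowers z → x = 1 ∨ x = z := by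
    intro x hx
    obtain ⟨k, rfl⟩ := Subgroup.mem_zpowers_iff.1 hx
    rcases Int.even_or_odd k with ⟨j, hj⟩ | ⟨j, hj⟩
    · left
      rw [hj, ← two_mul, zpow_mul, zpow_two, zz, one_zpow]
    · right
      rw [hj, zpow_add, zpow_mul, zpow_two, zz, one_zpow, one_mul, zpow_one]
  -- centre of Q
  have hzcenQ : (⟨z, zQ⟩ : Q) ∈ Subgroup.center Q := by
    rw [Subgroup.mem_center_iff]
    intro y
    exact Subtype.ext (hQz y.1 y.2)
  have hcen' : ∀ x : Q, x ∈ Subgroup.center Q → x = 1 ∨ x = ⟨z, zQ⟩ := by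
    intro x hx
    obtain ⟨y, hy1, hy2⟩ := (Nat.card_eq_two_iff' (1 : Subgroup.center Q)).1 hQ.2
    by_cases hx1 : x = 1
    · exact Or.inl hx1
    · right
      have a1 := hy2 ⟨x, hx⟩ (fun h => hx1 (congrArg Subtype.val h))
      have a2 := hy2 ⟨⟨z, zQ⟩, hzcenQ⟩ (fun h => z1 (congrArg (fun t => t.1.1) h))
      exact congrArg Subtype.val (a1.trans a2.symm)
  have hZmem : ∀ x : G, x ∈ (Subgroup.center ↥Q).map Q.subtype ↔ x = 1 ∨ x = z := by
    intro x
    constructor
    · rintro ⟨y, hy, rfl⟩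
      rcases hcen' y hy with h | h
      · left; rw [h]; rfl
      · right; rw [h]; rfl
    · rintro (rfl | rfl)
      · exact Subgroup.one_mem _
      · exact ⟨⟨x, zQ⟩, hzcenQ, rfl⟩
  have hcen : ∀ x ∈ Q, (∀ y ∈ Q, x * y = y * x) → x = 1 ∨ x = z := by
    intro x hx hxy
    have hxc : (⟨x, hx⟩ : Q) ∈ Subgroup.center Q := by
      rw [Subgroup.mem_center_iff]
      intro y
      exact Subtype.ext (hxy y.1 y.2).symm
    exact (hZmem x).1 ⟨⟨x, hx⟩, hxc, rfl⟩
  have hFmem : ∀ x : Subgroup.centralizer ({z} : Set G),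
      x ∈ Cfsg.generalizedFittingSubgroup ↥(Subgroup.centralizer ({z} : Set G)) ↔ x.1 ∈ Q := by
    intro x
    rw [← hF]
    constructor
    · intro h
      exact ⟨x, h, rfl⟩
    · rintro ⟨y, hy, hyx⟩
      rwa [← Subtype.ext hyx]
  -- elements commuting with Q
  have hCQ : ∀ x : G, (∀ y ∈ Q, x * y = y * x) → x = 1 ∨ x = z := by
    intro x hx
    have hxc : x ∈ Subgroup.centralizer ({z} : Set G) := mem_cz'.2 (hx z zQ)
    have h1 : (⟨x, hxc⟩ : Subgroup.centralizer ({z} : Set G)) ∈ Subgroup.centralizer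
        (Cfsg.generalizedFittingSubgroup ↥(Subgroup.centralizer ({z} : Set G)) : Set (Subgroup.centralizer ({z} : Set G))) := by
      rw [Subgroup.mem_centralizer_iff]
      intro q hq
      exact Subtype.ext (hx q.1 ((hFmem q).1 hq)).symm
    have h2 := Cfsg.Agent.Lib.Helper8.centralizer_generalizedFitting_le h1
    exact hcen x ((hFmem _).1 h2) hx
  have hL2 : Subgroup.centralizer (Q : Set G) = ((Subgroup.center ↥Q).map Q.subtype) := by
    ext x
    rw [hZmem, Subgroup.mem_centralizer_iff]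
    constructor
    · intro h
      exact hCQ x (fun y hy => (h y hy).symm)
    · rintro (rfl | rfl)
      · intro y _; simp
      · intro y hy; exact hQz y hy
  have hnormQ : ∀ x : G, x * z = z * x → ∀ q ∈ Q, x * q * x⁻¹ ∈ Q := by
    intro x hx q hq
    have hn := Cfsg.Agent.Lib.Helper8.generalizedFittingSubgroup_normal (G := Subgroup.centralizer ({z} : Set G))
    have := hn.conj_mem ⟨q, hQC hq⟩ ((hFmem _).2 hq) ⟨x, mem_cz'.2 hx⟩
    exact (hFmem _).1 this
  have hL3 : Subgroup.centralizer (((Subgroup.center ↥Q).map Q.subtype) : Set G) ≤ Subgroup.normalizer (Q : Set G) := by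
    intro x hx
    have hxz : x * z = z * x := ((Subgroup.mem_centralizer_iff.1 hx) z ((hZmem z).2 (Or.inr rfl))).symm
    rw [Subgroup.mem_normalizer_iff]
    intro q
    constructor
    · exact hnormQ x hxz q
    · intro h
      have hx' : x⁻¹ * z = z * x⁻¹ := by
        calc x⁻¹ * z = x⁻¹ * (z * x) * x⁻¹ := by group
          _ = x⁻¹ * (x * z) * x⁻¹ := by rw [hxz]
          _ = z * x⁻¹ := by group
      have := hnormQ x⁻¹ hx' _ h
      have e : x⁻¹ * (x * q * x⁻¹) * x⁻¹⁻¹ = q := by group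
      rwa [e] at this
  have hlarge : Cfsg.IsLargeExtraspecial Q := by
    rcases h3 with ⟨k, hk, hkQ, hkz⟩ | ⟨u, hu, huz, hz', hzO⟩
    · refine (Cfsg.Agent.S5422.result Q hQ hL2 hL3 w hw hcard k ?_ ?_).2.2
      · intro hkn
        have := (Subgroup.mem_normalizer_iff.1 hkn z).1 ((hZmem z).2 (Or.inr rfl))
        rcases (hZmem _).1 this with h | h
        · apply z1
          calc z = k⁻¹ * (k * z * k⁻¹) * k := by group
            _ = 1 := by rw [h]; group
        · exact hkz h
      · rintro _ ⟨x, hx, rfl⟩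
        rcases (hZmem x).1 hx with rfl | rfl
        · simp
        · exact hkQ
    · have hUsq : ∀ x ∈ U, x * x = 1 := by
        intro x hx
        rw [hU] at hx
        induction hx using Subgroup.closure_induction with
        | mem x hx =>
          obtain ⟨k, _, rfl⟩ := hx
          calc k * z * k⁻¹ * (k * z * k⁻¹) = k * (z * z) * k⁻¹ := by group
            _ = 1 := by rw [zz]; group
        | one => simp
        | mul x y hx hy h1 h2 =>
          have hc : x * y = y * x := by
            have := hUab.is_comm.comm ⟨x, by rw [hU]; exact hx⟩ ⟨y, by rw [hU]; exact hy⟩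
            exact congrArg Subtype.val this
          calc x * y * (x * y) = x * (y * x) * y := by group
            _ = x * (x * y) * y := by rw [hc]
            _ = (x * x) * (y * y) := by group
            _ = 1 := by rw [h1, h2, one_mul]
        | inv x _ h1 =>
          calc x⁻¹ * x⁻¹ = (x * x)⁻¹ := by group
            _ = 1 := by rw [h1, inv_one]
      have hu1 : u ≠ 1 := fun h => huz (by rw [h]; exact Subgroup.one_mem _)
      refine Cfsg.Agent.S5421.result Q hQ hL2 hL3 u hu.2 ?_ ?_ ?_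
      · intro h
        rcases (hZmem u).1 h with h | h
        · exact hu1 h
        · exact huz (by rw [h]; exact Subgroup.mem_zpowers z)
      · exact orderOf_eq_prime (by rw [pow_two]; exact hUsq u hu.1) hu1
      · intro x hx
        rcases (hZmem x).1 hx with rfl | rfl
        · exact Subgroup.one_mem _
        · exact ⟨⟨x, hz'⟩, hzO, rfl⟩
  refine ⟨?_, hlarge⟩
  have hnt : Nontrivial G := ⟨⟨z, 1, z1⟩⟩
  refine ⟨fun N hN => ?_⟩
  by_cases hNb : N = ⊥
  · exact Or.inl hNb
  right
  have step1 : ∃ n ∈ N, n * z = z * n ∧ n ≠ 1 := by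
    by_contra hcon
    push Not at hcon
    have i1 := inverts N z zz (fun n hn h => hcon n hn h)
    apply hNb
    apply hlarge.2.2.2 N
    · by_contra hodd
      rw [Nat.not_odd_iff_even] at hodd
      obtain ⟨n, hn⟩ := exists_prime_orderOf_dvd_card' (G := N) 2 hodd.two_dvd
      have hnn : n.1 * n.1 = 1 := by
        have := pow_orderOf_eq_one n
        rw [hn, pow_two] at this
        exact congrArg Subtype.val this
      have hn1 : n.1 ≠ 1 := by
        intro h
        have : n = 1 := Subtype.ext h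
        rw [this] at hn
        simp at hn
      apply hn1
      apply hcon n.1 n.2
      have a1 := i1 n.1 n.2
      have ninv : n.1⁻¹ = n.1 := inv_eq_of_mul_eq_one_left hnn
      rw [ninv] at a1
      calc n.1 * z = (z * n.1 * z⁻¹) * z := by rw [a1]
        _ = z * n.1 := by group
    · intro q _
      rw [Subgroup.mem_normalizer_iff]
      intro h
      constructor
      · intro hh; exact hN.conj_mem h hh q
      · intro hh
        have := hN.conj_mem _ hh q⁻¹
        have e : q⁻¹ * (q * h * q⁻¹) * q⁻¹⁻¹ = h := by group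
        rwa [e] at this
  obtain ⟨n0, hn0, hn0z, hn01⟩ := step1
  have step2 : ∃ x ∈ N, x ∈ Q ∧ x ≠ 1 := by
    by_contra hcon
    push Not at hcon
    have h1 : ∀ y ∈ Q, n0 * y = y * n0 := by
      intro q hq
      have h2 := hcon (n0 * q * n0⁻¹ * q⁻¹) (by
          have : n0 * q * n0⁻¹ * q⁻¹ = n0 * (q * n0⁻¹ * q⁻¹) := by group
          rw [this]
          exact N.mul_mem hn0 (hN.conj_mem _ (N.inv_mem hn0) q))
        (Q.mul_mem (hnormQ n0 hn0z q hq) (Q.inv_mem hq))
      calc n0 * q = (n0 * q * n0⁻¹ * q⁻¹) * (q * n0) := by group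
        _ = q * n0 := by rw [h2, one_mul]
    rcases hCQ n0 h1 with h | h
    · exact hn01 h
    · exact z1 (hcon z (h ▸ hn0) zQ)
  have zN : z ∈ N := by
    obtain ⟨x, hxN, hxQ, hx1⟩ := step2
    by_contra hzN
    have hall : ∀ y ∈ Q, x * y = y * x := by
      intro y hy
      have hcomm : (⟨x, hxQ⟩ : Q) * ⟨y, hy⟩ * (⟨x, hxQ⟩ : Q)⁻¹ * (⟨y, hy⟩ : Q)⁻¹ ∈ Subgroup.center Q := by
        rw [← hQ.1.2.2]
        exact Subgroup.commutator_mem_commutator (Subgroup.mem_top _) (Subgroup.mem_top _)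
      rcases hcen' _ hcomm with h | h
      · have h' : x * y * x⁻¹ * y⁻¹ = 1 := congrArg Subtype.val h
        calc x * y = (x * y * x⁻¹ * y⁻¹) * (y * x) := by group
          _ = y * x := by rw [h', one_mul]
      · exfalso
        have h' : x * y * x⁻¹ * y⁻¹ = z := congrArg Subtype.val h
        apply hzN
        rw [← h']
        have : x * y * x⁻¹ * y⁻¹ = x * (y * x⁻¹ * y⁻¹) := by group
        rw [this]
        exact N.mul_mem hxN (hN.conj_mem _ (N.inv_mem hxN) y)
    rcases hcen x hxQ hall with h | h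
    · exact hx1 h
    · exact hzN (h ▸ hxN)
  have hUN : U ≤ N := by
    rw [hU, Subgroup.closure_le]
    rintro _ ⟨k, _, rfl⟩
    exact hN.conj_mem z zN k
  have hCN : Subgroup.centralizer ({z} : Set G) ≤ N := by
    rw [← hgen, Subgroup.closure_le]
    rintro _ ⟨c, _, u, hu, rfl⟩
    exact hN.conj_mem u (hUN hu) c
  haveI : Fact (Nat.Prime 2) := ⟨Nat.prime_two⟩
  have hQGN : Q ≤ N := hQC.trans hCN
  have hQp : IsPGroup 2 (Q.subgroupOf N) := by
    apply IsPGroup.of_card (n := 2 * w + 1)
    rw [Nat.card_congr (Subgroup.subgroupOfEquivOfLe hQGN).toEquiv, hcard]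
  obtain ⟨P, hP⟩ := hQp.exists_le_sylow
  have hfr := Sylow.normalizer_sup_eq_top P
  set T : Subgroup G := (P : Subgroup N).map N.subtype with hT
  have hQT : Q ≤ T := by
    intro x hx
    exact ⟨⟨x, hQGN hx⟩, hP (Subgroup.mem_subgroupOf.2 hx), rfl⟩
  have hTp : IsPGroup 2 T := P.2.map _
  have zT : z ∈ T := hQT zQ
  haveI : Nontrivial T := ⟨⟨⟨z, zT⟩, 1, fun h => z1 (congrArg Subtype.val h)⟩⟩
  have hUU : ∀ x : G, (∀ y ∈ T, x * y = y * x) → x = 1 ∨ x = z :=
    fun x hx => hCQ x (fun y hy => hx y (hQT hy))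
  have hzcen : ∀ y ∈ T, z * y = y * z := by
    have hcn : Nontrivial (Subgroup.center T) := hTp.center_nontrivial
    obtain ⟨c0, hc0⟩ := exists_ne (1 : Subgroup.center T)
    have h1 : ∀ y ∈ T, c0.1.1 * y = y * c0.1.1 := by
      intro y hy
      have := (Subgroup.mem_center_iff.1 c0.2) ⟨y, hy⟩
      exact (congrArg Subtype.val this).symm
    rcases hUU _ h1 with h | h
    · exact absurd (Subtype.ext (Subtype.ext h)) hc0
    · rw [← h]; exact h1
  have hNT : Subgroup.normalizer (T : Set G) ≤ N := by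
    intro k hk
    apply hCN
    rw [mem_cz']
    have hk' := Subgroup.mem_normalizer_iff.1 hk
    have h1 : ∀ y ∈ T, (k * z * k⁻¹) * y = y * (k * z * k⁻¹) := by
      intro y hy
      have hy' : k⁻¹ * y * k ∈ T := by
        rw [hk']
        have : k * (k⁻¹ * y * k) * k⁻¹ = y := by group
        rw [this]; exact hy
      have := hzcen _ hy'
      calc k * z * k⁻¹ * y = k * (z * (k⁻¹ * y * k)) * k⁻¹ := by group
        _ = k * ((k⁻¹ * y * k) * z) * k⁻¹ := by rw [this]
        _ = y * (k * z * k⁻¹) := by group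
    rcases hUU _ h1 with h | h
    · exfalso
      apply z1
      calc z = k⁻¹ * (k * z * k⁻¹) * k := by group
        _ = 1 := by rw [h]; group
    · calc k * z = (k * z * k⁻¹) * k := by group
        _ = z * k := by rw [h]
  rw [eq_top_iff, ← hfr]
  exact sup_le hNT le_rfl

end Cfsg.Agent.S5427
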