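import Cfsg.Statements.S5430
import Cfsg.Agent.Lib.Helper27.Extra5

set_option autoImplicit false
open Cfsg
open Cfsg.Agent.Lib.Helper27

namespace Cfsg.Agent.S5430

/-- Let Q be a large extraspecial 2-subgroup of the finite group G (extraspecial; centralizer equal to its centre; normal in the centralizer of its centre; normalizing no non-trivial subgroup of odd order) with centre generated by z, an involution, of width w ≥ 2 (order 2^(2w+1)); let g be an element outside the centralizer H of z with g z g⁻¹ in Q; write V for the subgroup generated by z and g z g⁻¹, X for the subgroup generated by Q and g Q g⁻¹, R for the subgroup generated by the centralizer of z in g Q g⁻¹ and the centralizer of g z g⁻¹ in Q, and E for the intersection of Q and g Q g⁻¹. Then R is the centralizer of V in X and is the largest normal 2-subgroup of X, and X/R is isomorphic to the symmetric group of degree 3; moreover the normalizer of V is the product of X and the centralizer of V in H, X is normal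 in it, and modulo R it is the direct product of X/R and of the centralizer of V in H modulo R. -/
theorem result {G : Type*} [Group G] [Finite G] (Q : Subgroup G) (hQ : Cfsg.IsLargeExtraspecial Q) (z : G) (hz : ((Subgroup.center ↥Q).map Q.subtype) = Subgroup.zpowers z) (hz2 : orderOf z = 2) (w : ℕ) (hw : 2 ≤ w) (hcard : Nat.card ↥Q = 2 ^ (2 * w + 1)) (g : G) (hgH : g ∉ Subgroup.centralizer ({z} : Set G)) (hgQ : g * z * g⁻¹ ∈ Q) (V X R E : Subgroup G) (hV : V = Subgroup.closure ({z, g * z * g⁻¹} : Set G)) (hX : X = Q ⊔ (Q).map (MulAut.conj g).toMonoidHom) (hR : R = ((Q).map (MulAut.conj g).toMonoidHom ⊓ Subgroup.centralizer ({z} : Set G)) ⊔ (Q ⊓ Subgroup.centralizer ({g * z * g⁻¹} : Set G))) (hE : E = Q ⊓ (Q).map (MulAut.conj g).toMonoidHom) : R = X ⊓ Subgroup.centralizer (V : Set G) ∧ R = (Cfsg.pCore 2 ↥X).map X.subtype ∧ (∃ h : (R.subgroupOf X).Normal, Nonempty (↥X ⧸ R.subgroupOf X ≃* Equiv.Perm (Fin 3))) ∧ Subgroup.normalizer (V : Set G) = X ⊔ (Subgroup.centralizer ({z} : Set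 G) ⊓ Subgroup.centralizer (V : Set G)) ∧ (∀ y ∈ Subgroup.normalizer (V : Set G), ∀ x ∈ X, y * x * y⁻¹ ∈ X) ∧ R ≤ Subgroup.centralizer ({z} : Set G) ⊓ Subgroup.centralizer (V : Set G) ∧ (∀ x ∈ X, ∀ c ∈ Subgroup.centralizer ({z} : Set G) ⊓ Subgroup.centralizer (V : Set G), x * c * x⁻¹ * c⁻¹ ∈ R) ∧ X ⊓ (Subgroup.centralizer ({z} : Set G) ⊓ Subgroup.centralizer (V : Set G)) = R := by
  have : Fact (Nat.Prime 2) := ⟨Nat.prime_two⟩
  obtain ⟨hL1, hL2, hL3, -⟩ := hQ
  obtain ⟨z', hES, hmem⟩ := ES.of_extra Q hL1 hL2 hL3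
  have hz1 : z ≠ 1 := by
    rintro rfl
    rw [orderOf_one] at hz2
    omega
  have hzz' : z = z' := by
    have h1 : z ∈ (Subgroup.center ↥Q).map Q.subtype := hz ▸ Subgroup.mem_zpowers z
    exact ((hmem z).1 h1).resolve_left hz1
  subst hzz'
  have hne : g * z * g⁻¹ ≠ z := by
    intro h
    apply hgH
    rw [Subgroup.mem_centralizer_singleton_iff]
    calc g * z = (g * z * g⁻¹) * g := by group
      _ = z * g := by rw [h]
  have hbig : 8 < Nat.card Q := by
    rw [hcard]
    calc 8 < 2 ^ 5 := by norm_num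
      _ ≤ 2 ^ (2 * w + 1) := Nat.pow_le_pow_right (by norm_num) (by omega)
  have h := Pair.of_conj hES g hgQ hne hbig
  have htr : ∀ s, s * (g * z * g⁻¹) * s⁻¹ = z → ∀ p ∈ Q.map (MulAut.conj g).toMonoidHom, s * p * s⁻¹ ∈ Q := by
    intro s hs p hp
    rw [mem_map_conj_iff] at hp
    have h1 : (s * g) * z = z * (s * g) := by
      calc (s * g) * z = (s * (g * z * g⁻¹) * s⁻¹) * (s * g) := by group
        _ = z * (s * g) := by rw [hs]
    have h2 := hES.nor _ h1 _ hp
    have e : s * p * s⁻¹ = s * g * (g⁻¹ * p * g) * (s * g)⁻¹ := by group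
    rw [e]; exact h2
  obtain ⟨y, hy⟩ : ∃ y, y = g * z * g⁻¹ := ⟨_, rfl⟩
  obtain ⟨P, hP⟩ : ∃ P, P = Q.map (MulAut.conj g).toMonoidHom := ⟨_, rfl⟩
  rw [← hy, ← hP] at h htr
  rw [← hy] at hV hR
  rw [← hP] at hX hR hE
  have hRX : R ≤ X := by rw [hR, hX]; exact h.R_le_X
  have hXN : X ≤ Subgroup.normalizer (R : Set G) := by
    rw [hR, hX]; exact sup_le h.Q_le_normalizer_R h.P_le_normalizer_R
  have hn : (R.subgroupOf X).Normal := (Subgroup.normal_subgroupOf_iff_le_normalizer hRX).2 hXN
  obtain ⟨f⟩ := h.quot htr X R hX hR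
  have hidx : R.relIndex X = 6 := by
    show Nat.card (X ⧸ R.subgroupOf X) = 6
    rw [Nat.card_congr f.toEquiv, Nat.card_eq_fintype_card, Fintype.card_perm, Fintype.card_fin]
    rfl
  have hCV : ∀ c, c ∈ Subgroup.centralizer (V : Set G) ↔ c * z = z * c ∧ c * y = y * c := by
    intro c; rw [hV]; exact h.mem_centralizer_V
  have hXNV : X ≤ Subgroup.normalizer (V : Set G) := by
    rw [hX, hV]
    refine sup_le h.Q_le_normalizer_V ?_
    have := h.symm.Q_le_normalizer_V
    rwa [Set.pair_comm] at this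
  have hRCV : R ≤ Subgroup.centralizer (V : Set G) := by
    intro x hx
    rw [hR] at hx
    rw [hCV]
    exact ⟨Subgroup.mem_centralizer_singleton_iff.1 (h.R_le_centralizer_z hx),
      Subgroup.mem_centralizer_singleton_iff.1 (h.R_le_centralizer_y hx)⟩
  have hCC : Subgroup.centralizer ({z} : Set G) ⊓ Subgroup.centralizer (V : Set G) = Subgroup.centralizer (V : Set G) := by
    apply inf_eq_right.2
    intro c hc
    exact Subgroup.mem_centralizer_singleton_iff.2 ((hCV c).1 hc).1
  obtain ⟨q₀, hq₀, hq₀y⟩ := h.hQ.exists_conj h.yQ h.hP.ne h.ne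
  obtain ⟨p₀, hp₀, hp₀z⟩ := h.hP.exists_conj h.zP h.hQ.ne h.ne.symm
  have hq₀X : q₀ ∈ X := by rw [hX]; exact Subgroup.mem_sup_left hq₀
  have hp₀X : p₀ ∈ X := by rw [hX]; exact Subgroup.mem_sup_right hp₀
  have hVf : V = fourSub z y h.hQ.sq h.hP.sq h.comm := by
    rw [hV]; exact closure_pair_eq_fourSub _ _ _
  have hrel : ∀ L : Subgroup G, L ≤ Subgroup.normalizer (V : Set G) → X ≤ L →
      (Subgroup.centralizer (V : Set G)).relIndex L = 6 := by
    intro L hL hXL
    rw [hVf] at hL ⊢
    exact four_relIndex' h.hQ.sq h.hP.sq h.comm h.hQ.ne h.hP.ne h.ne.symm (by rw [h.hQ.cen q₀ hq₀]; group) hq₀y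
      (by rw [hp₀z, h.comm]) (by rw [h.hP.cen p₀ hp₀]; group) L hL (hXL hq₀X) (hXL hp₀X)
  have h1 : R = X ⊓ Subgroup.centralizer (V : Set G) := by
    apply le_antisymm (le_inf hRX hRCV)
    have e1 : (X ⊓ Subgroup.centralizer (V : Set G)).relIndex X = 6 := by
      rw [Subgroup.inf_relIndex_left]; exact hrel X hXNV le_rfl
    have e2 := Subgroup.relIndex_mul_relIndex R (X ⊓ Subgroup.centralizer (V : Set G)) X (le_inf hRX hRCV) inf_le_left
    rw [e1, hidx] at e2
    have e3 : R.relIndex (X ⊓ Subgroup.centralizer (V : Set G)) = 1 := by omega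
    exact Subgroup.relIndex_eq_one.1 e3
  have hCN : Subgroup.centralizer (V : Set G) ≤ Subgroup.normalizer (V : Set G) := by
    intro c hc
    apply mem_normalizer_of_conj_mem_finite
    intro v hv
    have := (Subgroup.mem_centralizer_iff.1 hc) v hv
    have e : c * v * c⁻¹ = v := by rw [← this]; group
    rw [e]; exact hv
  have h4 : Subgroup.normalizer (V : Set G) = X ⊔ Subgroup.centralizer (V : Set G) := by
    apply le_antisymm _ (sup_le hXNV hCN)
    have e1 := hrel _ (sup_le hXNV hCN) le_sup_left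
    have e2 := hrel _ le_rfl hXNV
    have e3 := Subgroup.relIndex_mul_relIndex (Subgroup.centralizer (V : Set G)) (X ⊔ Subgroup.centralizer (V : Set G))
      (Subgroup.normalizer (V : Set G)) le_sup_right (sup_le hXNV hCN)
    rw [e1, e2] at e3
    have e4 : (X ⊔ Subgroup.centralizer (V : Set G)).relIndex (Subgroup.normalizer (V : Set G)) = 1 := by omega
    exact Subgroup.relIndex_eq_one.1 e4
  have h7 : ∀ x ∈ X, ∀ c ∈ Subgroup.centralizer (V : Set G), x * c * x⁻¹ * c⁻¹ ∈ R := by
    intro x hx c hc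
    rw [hX] at hx
    rw [hR]
    exact (h.X_le_relCent_R hx).2 c ((hCV c).1 hc)
  refine ⟨h1, ?_, ⟨hn, ⟨f⟩⟩, ?_, ?_, ?_, ?_, ?_⟩
  · apply le_antisymm
    · intro x hx
      have hp : IsPGroup 2 (R.subgroupOf X) := by
        have : IsPGroup 2 R := by rw [hR]; exact h.R_isPGroup
        exact this.comap_subtype
      exact ⟨⟨x, hRX hx⟩, le_pCore hn hp (Subgroup.mem_subgroupOf.2 hx), rfl⟩
    · have hO : (Cfsg.pCore 2 ↥X).Normal := Cfsg.Agent.Lib.Helper27.pCore_normal 2
      have hO2 : IsPGroup 2 (Cfsg.pCore 2 ↥X) := pCore_isPGroup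
      have hN1 : ((Cfsg.pCore 2 ↥X).map (QuotientGroup.mk' (R.subgroupOf X))).Normal :=
        hO.map _ (QuotientGroup.mk'_surjective _)
      have hN2 : (((Cfsg.pCore 2 ↥X).map (QuotientGroup.mk' (R.subgroupOf X))).map f.toMonoidHom).Normal :=
        hN1.map _ f.surjective
      have hb := perm3_normal_two_eq_bot _ hN2 ((hO2.map _).map _)
      rw [Subgroup.map_eq_bot_iff_of_injective _ f.injective, Subgroup.map_eq_bot_iff, QuotientGroup.ker_mk'] at hb
      rintro _ ⟨x, hx, rfl⟩
      exact Subgroup.mem_subgroupOf.1 (hb hx)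
  · rw [hCC]; exact h4
  · have hle : Subgroup.normalizer (V : Set G) ≤ Subgroup.normalizer (X : Set G) := by
      rw [h4]
      refine sup_le Subgroup.le_normalizer ?_
      intro c hc
      obtain ⟨hcz, hcy⟩ := (hCV c).1 hc
      apply mem_normalizer_of_conj_mem_finite
      have hle' : X ≤ X.comap (MulAut.conj c).toMonoidHom := by
        conv_lhs => rw [hX]
        apply sup_le
        · intro q hq
          show c * q * c⁻¹ ∈ X
          rw [hX]; exact Subgroup.mem_sup_left (h.hQ.nor c hcz q hq)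
        · intro p hp
          show c * p * c⁻¹ ∈ X
          rw [hX]; exact Subgroup.mem_sup_right (h.hP.nor c hcy p hp)
      exact fun x hx => hle' hx
    intro n hn x hx
    exact (Subgroup.mem_normalizer_iff.1 (hle hn) x).1 hx
  · rw [hCC]; exact hRCV
  · rw [hCC]; exact h7
  · rw [hCC]; exact h1.symm

end Cfsg.Agent.S5430
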