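import Cfsg.Statements.S5431
import Cfsg.Agent.Lib.Helper27.Extra4

set_option autoImplicit false
open Cfsg
open Cfsg.Agent.Lib.Helper27

namespace Cfsg.Agent.S5431

/-- Let Q be a large extraspecial 2-subgroup of the finite group G (extraspecial; centralizer equal to its centre; normal in the centralizer of its centre; normalizing no non-trivial subgroup of odd order) with centre generated by z, an involution, of width w ≥ 2 (order 2^(2w+1)); let g be an element outside the centralizer H of z with g z g⁻¹ in Q; write V for the subgroup generated by z and g z g⁻¹, X for the subgroup generated by Q and g Q g⁻¹, R for the subgroup generated by the centralizer of z in g Q g⁻¹ and the centralizer of g z g⁻¹ in Q, and E for the intersection of Q and g Q g⁻¹. Then V is the centre of R, E lies in the second centre of R, R is nilpotent of class at most 3, E and R/E are elementary abelian, R/E is the direct product of the images of the centralizer of g z g⁻¹ in Q and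 of the centralizer of z in g Q g⁻¹ (R is their product and they meet in E), and the commutator subgroup of X and E lies in V. -/
theorem result {G : Type*} [Group G] [Finite G] (Q : Subgroup G) (hQ : Cfsg.IsLargeExtraspecial Q) (z : G) (hz : ((Subgroup.center ↥Q).map Q.subtype) = Subgroup.zpowers z) (hz2 : orderOf z = 2) (w : ℕ) (hw : 2 ≤ w) (hcard : Nat.card ↥Q = 2 ^ (2 * w + 1)) (g : G) (hgH : g ∉ Subgroup.centralizer ({z} : Set G)) (hgQ : g * z * g⁻¹ ∈ Q) (V X R E : Subgroup G) (hV : V = Subgroup.closure ({z, g * z * g⁻¹} : Set G)) (hX : X = Q ⊔ (Q).map (MulAut.conj g).toMonoidHom) (hR : R = ((Q).map (MulAut.conj g).toMonoidHom ⊓ Subgroup.centralizer ({z} : Set G)) ⊔ (Q ⊓ Subgroup.centralizer ({g * z * g⁻¹} : Set G))) (hE : E = Q ⊓ (Q).map (MulAut.conj g).toMonoidHom) : (Subgroup.center ↥R).map R.subtype = V ∧ E ≤ (Subgroup.upperCentralSeries ↥R 2).map R.subtype ∧ Subgroup.upperCentralSeries ↥R 3 = ⊤ ∧ Cfsg.IsElementaryAbelian 2 E ∧ (∀ x ∈ R, ∀ y ∈ R, x *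 y * x⁻¹ * y⁻¹ ∈ E ∧ x ^ 2 ∈ E) ∧ ((Q).map (MulAut.conj g).toMonoidHom ⊓ Subgroup.centralizer ({z} : Set G)) ⊓ (Q ⊓ Subgroup.centralizer ({g * z * g⁻¹} : Set G)) = E ∧ ⁅X, E⁆ ≤ V := by
  obtain ⟨hL1, hL2, hL3, -⟩ := hQ
  obtain ⟨z', hES, hmem⟩ := ES.of_extra Q hL1 hL2 hL3
  have hz1 : z ≠ 1 := by
    rintro rfl
    rw [orderOf_one] at hz2
    omega
  have hzz' : z = z' := by
    have h1 : z ∈ (Subgroup.center ↥Q).map Q.subtype := hz ▸ Subgroup.mem_zpowers z
    exact ((hmem z).1 h1).resolve_left hz1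
  subst hzz'
  have hne : g * z * g⁻¹ ≠ z := by
    intro h
    apply hgH
    rw [Subgroup.mem_centralizer_singleton_iff]
    calc g * z = (g * z * g⁻¹) * g := by group
      _ = z * g := by rw [h]
  have hbig : 8 < Nat.card Q := by
    rw [hcard]
    calc 8 < 2 ^ 5 := by norm_num
      _ ≤ 2 ^ (2 * w + 1) := Nat.pow_le_pow_right (by norm_num) (by omega)
  have h := Pair.of_conj hES g hgQ hne hbig
  obtain ⟨y, hy⟩ : ∃ y, y = g * z * g⁻¹ := ⟨_, rfl⟩
  obtain ⟨P, hP⟩ : ∃ P, P = Q.map (MulAut.conj g).toMonoidHom := ⟨_, rfl⟩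
  rw [← hy, ← hP] at h
  rw [← hy] at hV hR
  rw [← hP] at hX hR hE
  rw [← hy, ← hP]
  have hER : E ≤ R := by
    rw [hE, hR]; exact h.E_le_U.trans le_sup_right
  have hcenter : ∀ c : G, (c ∈ R ∧ ∀ x ∈ R, x * c = c * x) ↔ c ∈ V := by
    intro c
    rw [hR, hV, h.mem_V]
    exact h.mem_center_R_iff
  have hXE : ∀ x ∈ X, ∀ e ∈ E, x * e * x⁻¹ * e⁻¹ ∈ V := by
    intro x hx e he
    rw [hV]
    rw [hX] at hx
    rw [hE] at he
    exact (h.X_le_relCent hx).2 e he
  have hRX : R ≤ X := by rw [hR, hX]; exact h.R_le_X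
  have hcomm : ∀ x ∈ R, ∀ x' ∈ R, x * x' * x⁻¹ * x'⁻¹ ∈ E := by
    rw [hR, hE]; exact h.R_comm
  have core : ∀ e : R, (e : G) ∈ E → e ∈ Subgroup.upperCentralSeries ↥R 2 := by
    intro e he
    rw [Subgroup.mem_upperCentralSeries_succ_iff]
    intro r
    rw [Subgroup.upperCentralSeries_one, Subgroup.mem_center_iff]
    intro x
    apply Subtype.ext
    have h1 : (e : G) * r * (e : G)⁻¹ * (r : G)⁻¹ ∈ V := comm_swap_mem (hXE r (hRX r.2) e he)
    exact ((hcenter _).2 h1).2 x x.2
  refine ⟨?_, ?_, ?_, ?_, ?_, ?_, ?_⟩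
  · ext c
    rw [mem_center_map_iff, hcenter]
  · intro e he
    exact ⟨⟨e, hER he⟩, core _ he, rfl⟩
  · rw [eq_top_iff]
    intro x _
    rw [Subgroup.mem_upperCentralSeries_succ_iff]
    intro r
    exact core _ (hcomm x x.2 r r.2)
  · refine ⟨⟨⟨fun a b => Subtype.ext ?_⟩⟩, fun a ha => ?_⟩
    · have hEc : ∀ a ∈ E, ∀ b ∈ E, a * b = b * a := by
        rw [hE]; exact fun a ha b hb => h.E_comm ha hb
      exact hEc a a.2 b b.2
    · rw [hE] at ha
      rw [pow_two]; exact h.E_sq ha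
  · intro x hx x' hx'
    refine ⟨hcomm x hx x' hx', ?_⟩
    rw [hR] at hx
    rw [pow_two, hE]; exact h.R_sq hx
  · rw [hE]; exact h.W_inf_U
  · rw [Subgroup.commutator_le]
    intro x hx e he
    rw [commutatorElement_def]
    exact hXE x hx e he

end Cfsg.Agent.S5431
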