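import Cfsg.Statements.S5433
import Cfsg.Agent.Lib.Helper27.Cores

set_option autoImplicit false
open Cfsg
open Cfsg.Agent.Lib.Helper27

namespace Cfsg.Agent.S5433

/-- Let Q be a large extraspecial 2-subgroup of the finite group G (extraspecial; centralizer equal to its centre; normal in the centralizer of its centre; normalizing no non-trivial subgroup of odd order), and L a normal subgroup of G containing Q. Then G is the product of L and the normalizer of Q. -/
theorem result {G : Type*} [Group G] [Finite G] (Q : Subgroup G) (hQ : Cfsg.IsLargeExtraspecial Q) (L : Subgroup G) [L.Normal] (hQL : Q ≤ L) : L ⊔ Subgroup.normalizer (Q : Set G) = ⊤ := by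
  have : Fact (Nat.Prime 2) := ⟨Nat.prime_two⟩
  obtain ⟨hL1, hL2, hL3, -⟩ := hQ
  have hQ2 : IsPGroup 2 Q := hL1.1.1
  obtain ⟨c, hcZ, hc1, hZ⟩ := exists_gen_of_card_two _ ((card_center_map Q).trans hL1.2)
  have hcQ : c ∈ Q := center_map_le Q hcZ
  obtain ⟨T, hT⟩ := (hQ2.comap_subtype : IsPGroup 2 (Q.subgroupOf L)).exists_le_sylow
  set TG : Subgroup G := (T : Subgroup L).map L.subtype with hTG
  have hTG2 : IsPGroup 2 TG := T.2.map _
  have hQT : Q ≤ TG := by
    intro q hq
    exact ⟨⟨q, hQL hq⟩, hT (Subgroup.mem_subgroupOf.2 hq), rfl⟩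
  have hTne : TG ≠ ⊥ := by
    intro h
    apply hc1
    have := hQT hcQ
    rw [h] at this
    exact Subgroup.mem_bot.1 this
  obtain ⟨c', hc'T, hc'1, hc'⟩ := exists_central_of_pGroup TG hTG2 hTne
  have hc'Z : c' ∈ (Subgroup.center Q).map Q.subtype := by
    rw [← hL2, Subgroup.mem_centralizer_iff]
    intro q hq
    exact hc' q (hQT hq)
  have hcc : c' = c := (hZ c' hc'Z).resolve_left hc'1
  subst hcc
  rw [eq_top_iff]
  intro g _
  have hP : IsPGroup 2 ((Q.map (MulAut.conj g).toMonoidHom).subgroupOf L) :=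
    (hQ2.map _).comap_subtype
  obtain ⟨l, hl⟩ := sylow_conj_mem T _ hP
  have hh : ∀ q ∈ Q, ((l : G) * g) * q * ((l : G) * g)⁻¹ ∈ TG := by
    intro q hq
    have h1 : g * q * g⁻¹ ∈ L := Subgroup.Normal.conj_mem inferInstance q (hQL hq) g
    have h2 := hl ⟨g * q * g⁻¹, h1⟩ (Subgroup.mem_subgroupOf.2 ⟨q, hq, rfl⟩)
    refine ⟨_, h2, ?_⟩
    simp only [Subgroup.subtype_apply, Subgroup.coe_mul, Subgroup.coe_inv]
    group
  set h := (l : G) * g with hh_def
  have h3 : h⁻¹ * c' * h ∈ (Subgroup.center Q).map Q.subtype := by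
    rw [← hL2, Subgroup.mem_centralizer_iff]
    intro q hq
    have := hc' _ (hh q hq)
    calc q * (h⁻¹ * c' * h) = h⁻¹ * ((h * q * h⁻¹) * c') * h := by group
      _ = h⁻¹ * (c' * (h * q * h⁻¹)) * h := by rw [this]
      _ = h⁻¹ * c' * h * q := by group
  have h4 : h⁻¹ * c' * h = c' := by
    refine (hZ _ h3).resolve_left ?_
    intro h5
    apply hc1
    calc c' = h * (h⁻¹ * c' * h) * h⁻¹ := by group
      _ = 1 := by rw [h5]; group
  have h5 : h ∈ Subgroup.normalizer (Q : Set G) := by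
    apply hL3
    rw [Subgroup.mem_centralizer_iff]
    intro z hz
    rcases hZ z hz with rfl | rfl
    · simp
    · calc z * h = h * (h⁻¹ * z * h) := by group
        _ = h * z := by rw [h4]
  have h6 : g = (l : G)⁻¹ * h := by rw [hh_def]; group
  rw [h6]
  exact Subgroup.mul_mem _ (Subgroup.mem_sup_left (L.inv_mem l.2)) (Subgroup.mem_sup_right h5)

end Cfsg.Agent.S5433
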