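import Cfsg.Statements.S5434
import Cfsg.Agent.Lib.Helper27.Extra6
import Cfsg.Agent.Lib.Helper1.Nilp

set_option autoImplicit false
open Cfsg
open Cfsg.Agent.Lib.Helper27

namespace Cfsg.Agent.S5434

/-- Let Q be a large extraspecial 2-subgroup of the finite group G (extraspecial; centralizer equal to its centre; normal in the centralizer of its centre; normalizing no non-trivial subgroup of odd order), and A a non-trivial subgroup of odd order of the normalizer of Q. Then Q is the central product of the centralizer of A in Q and the commutator subgroup [Q, A] (they generate Q and commute elementwise), [Q, A] is extraspecial, and the centralizer of A in Q is either the centre of Q or extraspecial. -/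
theorem result {G : Type*} [Group G] [Finite G] (Q : Subgroup G) (hQ : Cfsg.IsLargeExtraspecial Q) (A : Subgroup G) (hA : A ≤ Subgroup.normalizer (Q : Set G)) (hAodd : Odd (Nat.card ↥A)) (hA1 : A ≠ ⊥) : (Q ⊓ Subgroup.centralizer (A : Set G)) ⊔ ⁅Q, A⁆ = Q ∧ (∀ x ∈ Q ⊓ Subgroup.centralizer (A : Set G), ∀ y ∈ ⁅Q, A⁆, x * y = y * x) ∧ Cfsg.IsExtraspecial 2 ↥⁅Q, A⁆ ∧ (Q ⊓ Subgroup.centralizer (A : Set G) = ((Subgroup.center ↥Q).map Q.subtype) ∨ Cfsg.IsExtraspecial 2 ↥(Q ⊓ Subgroup.centralizer (A : Set G))) := by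
  have : Fact (Nat.Prime 2) := ⟨Nat.prime_two⟩
  obtain ⟨hL1, hL2, hL3, -⟩ := hQ
  obtain ⟨z, h, hmem⟩ := ES.of_extra Q hL1 hL2 hL3
  have hQ2 : IsPGroup 2 Q := hL1.1.1
  have hAc := coprime_two_of_odd hAodd
  have hcop : (Nat.card A).Coprime (Nat.card Q) := Cfsg.Agent.Lib.Helper1.coprime_card_of_isPGroup hQ2 hAc
  have hsolv : Group.IsSolvable A ∨ Group.IsSolvable Q := Or.inr (Cfsg.Agent.Lib.Helper1.solvable_of_isPGroup hQ2)
  obtain ⟨C, hC⟩ : ∃ C, C = Q ⊓ Subgroup.centralizer (A : Set G) := ⟨_, rfl⟩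
  obtain ⟨D, hD⟩ : ∃ D, D = ⁅Q, A⁆ := ⟨_, rfl⟩
  rw [← hC, ← hD]
  have hsup : C ⊔ D = Q := by
    rw [hC, hD, sup_comm]
    exact Cfsg.Agent.Lib.Helper1.coprime_commutator_sup_centralizer A Q hA hcop hsolv
  have hstab : ⁅D, A⁆ = D := by
    rw [hD]; exact Cfsg.Agent.Lib.Helper1.coprime_commutator_stable A Q hA hcop hsolv
  have hCQ : C ≤ Q := hsup ▸ le_sup_left
  have hDQ : D ≤ Q := hsup ▸ le_sup_right
  have hAz : ∀ a ∈ A, a * z = z * a := fun a ha => h.comm_of_normalizes (hA ha)
  have hZA : ∀ x, (x = 1 ∨ x = z) → x ∈ Subgroup.centralizer (A : Set G) := by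
    rintro x (rfl | rfl)
    · exact Subgroup.one_mem _
    · rw [Subgroup.mem_centralizer_iff]; exact hAz
  have hCA : C ≤ Subgroup.centralizer (A : Set G) := hC ▸ inf_le_right
  have h1 : ⁅⁅A, C⁆, Q⁆ = ⊥ := by
    have : ⁅A, C⁆ = ⊥ := by
      rw [Subgroup.commutator_eq_bot_iff_le_centralizer]
      intro a ha
      rw [Subgroup.mem_centralizer_iff]
      intro c hc
      exact ((Subgroup.mem_centralizer_iff.1 (hCA hc)) a ha).symm
    rw [this, Subgroup.commutator_bot_left]
  have h2 : ⁅⁅C, Q⁆, A⁆ = ⊥ := by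
    rw [Subgroup.commutator_eq_bot_iff_le_centralizer, Subgroup.commutator_le]
    intro c hc q hq
    rw [commutatorElement_def]
    exact hZA _ (h.comm c (hCQ hc) q hq)
  have h3 : D ≤ Subgroup.centralizer (C : Set G) := by
    have := Subgroup.commutator_commutator_eq_bot_of_rotate h1 h2
    rw [Subgroup.commutator_eq_bot_iff_le_centralizer] at this
    rw [hD]; exact this
  have hCD : ∀ x ∈ C, ∀ y ∈ D, x * y = y * x := fun x hx y hy => (Subgroup.mem_centralizer_iff.1 (h3 hy)) x hx
  have hcenD : ∀ x ∈ D, (∀ d ∈ D, d * x = x * d) → x = 1 ∨ x = z := by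
    intro x hx hxd
    apply h.cent
    have hle : Q ≤ Subgroup.centralizer {x} := by
      rw [← hsup]
      exact sup_le (fun c hc => Subgroup.mem_centralizer_singleton_iff.2 (hCD c hc x hx))
        (fun d hd => Subgroup.mem_centralizer_singleton_iff.2 (hxd d hd))
    exact fun q hq => Subgroup.mem_centralizer_singleton_iff.1 (hle hq)
  have hcenC : ∀ x ∈ C, (∀ d ∈ C, d * x = x * d) → x = 1 ∨ x = z := by
    intro x hx hxd
    apply h.cent
    have hle : Q ≤ Subgroup.centralizer {x} := by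
      rw [← hsup]
      exact sup_le (fun c hc => Subgroup.mem_centralizer_singleton_iff.2 (hxd c hc))
        (fun d hd => Subgroup.mem_centralizer_singleton_iff.2 (hCD x hx d hd).symm)
    exact fun q hq => Subgroup.mem_centralizer_singleton_iff.1 (hle hq)
  have hDne : D ≠ ⊥ := by
    intro hbot
    apply hA1
    rw [hD, Subgroup.commutator_eq_bot_iff_le_centralizer] at hbot
    rw [eq_bot_iff]
    intro a ha
    have h4 : a ∈ Subgroup.centralizer (Q : Set G) := by
      rw [Subgroup.mem_centralizer_iff]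
      intro q hq
      exact ((Subgroup.mem_centralizer_iff.1 (hbot hq)) a ha).symm
    rw [hL2] at h4
    exact Subgroup.mem_bot.2 (eq_one_of_mem_pGroup_of_coprime hQ2 hAc (center_map_le Q h4) ha)
  have hzD : z ∈ D := by
    obtain ⟨c, hc, hc1, hct⟩ := exists_central_of_pGroup D (hQ2.to_le hDQ) hDne
    have := (hcenD c hc hct).resolve_left hc1
    rw [← this]; exact hc
  have hzC : z ∈ C := by
    rw [hC]; exact ⟨h.mem, hZA z (Or.inr rfl)⟩
  have hnaD : ∃ a ∈ D, ∃ b ∈ D, a * b ≠ b * a := by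
    by_contra hcon
    push Not at hcon
    apply hDne
    rw [← hstab, Subgroup.commutator_eq_bot_iff_le_centralizer]
    intro x hx
    exact hZA x (hcenD x hx (fun d hd => hcon d hd x hx))
  refine ⟨hsup, hCD, h.sub_extraspecial hQ2 hDQ hzD hcenD hnaD, ?_⟩
  by_cases hab : ∃ a ∈ C, ∃ b ∈ C, a * b ≠ b * a
  · right; exact h.sub_extraspecial hQ2 hCQ hzC hcenC hab
  · left
    push Not at hab
    ext x
    rw [hmem]
    constructor
    · intro hx
      exact hcenC x hx (fun d hd => hab d hd x hx)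
    · rintro (rfl | rfl)
      · exact C.one_mem
      · exact hzC

end Cfsg.Agent.S5434
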