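import Cfsg.Statements.S5436
import Mathlib
import Cfsg.Agent.Lib.Helper8.FStar

set_option autoImplicit false
open Cfsg

namespace Cfsg.Agent.S5436

theorem mem_cz' {G : Type*} [Group G] {z x : G} :
    x ∈ Subgroup.centralizer ({z} : Set G) ↔ x * z = z * x := by
  rw [Subgroup.mem_centralizer_iff]
  constructor
  · intro h
    exact (h z rfl).symm
  · intro h y hy
    rw [Set.mem_singleton_iff.1 hy]
    exact h.symm

theorem center_le_gfit' (C : Type*) [Group C] : Subgroup.center C ≤ generalizedFittingSubgroup C := by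
  refine le_trans ?_ le_sup_right
  have hn : Group.IsNilpotent (Subgroup.center C) :=
    ⟨1, Subgroup.upperCentralSeries_one_eq_top_iff.2 inferInstance⟩
  exact le_sSup (show Subgroup.center C ∈ {N : Subgroup C | N.Normal ∧ Group.IsNilpotent N} from
    ⟨inferInstance, hn⟩)

/-- an involution acting without fixed points on a finite normal subgroup inverts it -/
theorem inverts {G : Type*} [Group G] [Finite G] (N : Subgroup G) [hN : N.Normal] (a : G)
    (ha : a * a = 1) (h : ∀ n ∈ N, n * a = a * n → n = 1) : ∀ n ∈ N, a * n * a⁻¹ = n⁻¹ := by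
  let f : N → N := fun n => ⟨n.1⁻¹ * (a * n.1 * a⁻¹), N.mul_mem (N.inv_mem n.2) (hN.conj_mem n.1 n.2 a)⟩
  have hinj : Function.Injective f := by
    intro n m hnm
    have e : n.1⁻¹ * (a * n.1 * a⁻¹) = m.1⁻¹ * (a * m.1 * a⁻¹) := congrArg Subtype.val hnm
    have h1 : (m.1 * n.1⁻¹) * a = a * (m.1 * n.1⁻¹) := by
      calc m.1 * n.1⁻¹ * a = m.1 * (n.1⁻¹ * (a * n.1 * a⁻¹)) * a * n.1⁻¹ := by group
        _ = m.1 * (m.1⁻¹ * (a * m.1 * a⁻¹)) * a * n.1⁻¹ := by rw [e]
        _ = a * (m.1 * n.1⁻¹) := by group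
    have h2 := h _ (N.mul_mem m.2 (N.inv_mem n.2)) h1
    exact Subtype.ext (mul_inv_eq_one.1 h2).symm
  have hsurj := Finite.injective_iff_surjective.1 hinj
  intro x hx
  obtain ⟨n, hn⟩ := hsurj ⟨x, hx⟩
  have e : x = n.1⁻¹ * (a * n.1 * a⁻¹) := (congrArg Subtype.val hn).symm
  have ainv : a⁻¹ = a := inv_eq_of_mul_eq_one_left ha
  rw [e, show (n.1⁻¹ * (a * n.1 * a⁻¹))⁻¹ = a * n.1⁻¹ * a⁻¹ * n.1 by group, ainv]
  calc a * (n.1⁻¹ * (a * n.1 * a)) * a = a * n.1⁻¹ * a * n.1 * (a * a) := by group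
    _ = a * n.1⁻¹ * a * n.1 := by rw [ha, mul_one]


/-- Let z be an involution of the finite group G with centralizer H whose generalized Fitting subgroup Q is extraspecial of width at least 2 (order 2^(2w+1), w ≥ 2); suppose some conjugate of z other than z lies in Q, H/Q is a non-abelian simple group, H acts irreducibly by conjugation on Q modulo the subgroup generated by z (the only H-invariant subgroups of Q containing z are that subgroup and Q), and Q is not the subgroup generated by the conjugates of z lying in H. Then G is simple. -/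
theorem result {G : Type*} [Group G] [Finite G] (z : G) (hz : orderOf z = 2) (Q : Subgroup (Subgroup.centralizer ({z} : Set G))) [Q.Normal] (hF : Cfsg.generalizedFittingSubgroup ↥(Subgroup.centralizer ({z} : Set G)) = Q) (hQ : Cfsg.IsExtraspecial 2 ↥Q) (w : ℕ) (hw : 2 ≤ w) (hcard : Nat.card ↥Q = 2 ^ (2 * w + 1)) (hnwc : ∃ g : G, (∃ hq : g * z * g⁻¹ ∈ Subgroup.centralizer ({z} : Set G), (⟨g * z * g⁻¹, hq⟩ : Subgroup.centralizer ({z} : Set G)) ∈ Q) ∧ g * z * g⁻¹ ≠ z) (hsimp : IsSimpleGroup (↥(Subgroup.centralizer ({z} : Set G)) ⧸ Q)) (hna : ¬ IsMulCommutative (↥(Subgroup.centralizer ({z} : Set G)) ⧸ Q)) (hirr : ∀ W : Subgroup (Subgroup.centralizer ({z} : Set G)), W.Normal → W ≤ Q → (W = Q ∨ ∀ x ∈ W, (x : G) ∈ Subgroup.zpowers z)) (hwcl : Subgroup.closure {x : Subgroup.centralizer ({z} : Set G) | IsConj z (x : G)} ≠ Q) : IsSimpleGroup G := by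
  classical
  have z1 : z ≠ 1 := by
    rintro rfl
    simp at hz
  have zz : z * z = 1 := by
    have := pow_orderOf_eq_one z
    rwa [hz, pow_two] at this
  have zmem : z ∈ Subgroup.centralizer ({z} : Set G) := mem_cz'.2 rfl
  set c : Subgroup.centralizer ({z} : Set G) := ⟨z, zmem⟩ with hc
  have ccomm : ∀ h : Subgroup.centralizer ({z} : Set G), h * c = c * h := fun h =>
    Subtype.ext (mem_cz'.1 h.2)
  have cQ : c ∈ Q := by
    rw [← hF]
    apply center_le_gfit'
    rw [Subgroup.mem_center_iff]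
    exact ccomm
  have hzp : ∀ x : G, x ∈ Subgroup.zpowers z → x = 1 ∨ x = z := by
    intro x hx
    obtain ⟨k, rfl⟩ := Subgroup.mem_zpowers_iff.1 hx
    rcases Int.even_or_odd k with ⟨j, hj⟩ | ⟨j, hj⟩
    · left
      rw [hj, ← two_mul, zpow_mul, zpow_two, zz, one_zpow]
    · right
      rw [hj, zpow_add, zpow_mul, zpow_two, zz, one_zpow, one_mul, zpow_one]
  obtain ⟨g, ⟨hsc, hsQ⟩, hsz⟩ := hnwc
  set s := g * z * g⁻¹ with hs
  have s1 : s ≠ 1 := by
    intro h
    apply z1
    calc z = g⁻¹ * (g * z * g⁻¹) * g := by group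
      _ = 1 := by rw [← hs, h]; group
  have ss : s * s = 1 := by
    rw [hs]
    calc g * z * g⁻¹ * (g * z * g⁻¹) = g * (z * z) * g⁻¹ := by group
      _ = 1 := by rw [zz]; group
  have szc : s * z = z * s := mem_cz'.1 hsc
  have snz : s ∉ Subgroup.zpowers z := fun h => by
    rcases hzp s h with h | h
    · exact s1 h
    · exact hsz h
  -- centralizer of Q in C(z) lies in Q
  have hCQ : Subgroup.centralizer (Q : Set (Subgroup.centralizer ({z} : Set G))) ≤ Q := by
    have := Cfsg.Agent.Lib.Helper8.centralizer_generalizedFitting_le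
      (G := Subgroup.centralizer ({z} : Set G))
    rwa [hF] at this
  -- centre of Q
  have hcen : ∀ x ∈ Q, (∀ y ∈ Q, x * y = y * x) → x = 1 ∨ x = c := by
    intro x hx hxy
    have hxc : (⟨x, hx⟩ : Q) ∈ Subgroup.center Q := by
      rw [Subgroup.mem_center_iff]
      intro y
      exact Subtype.ext (hxy y.1 y.2).symm
    have hcc : (⟨c, cQ⟩ : Q) ∈ Subgroup.center Q := by
      rw [Subgroup.mem_center_iff]
      intro y
      exact Subtype.ext (ccomm y.1)
    obtain ⟨y, hy1, hy2⟩ := (Nat.card_eq_two_iff' (1 : Subgroup.center Q)).1 hQ.2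
    by_cases hx1 : x = 1
    · exact Or.inl hx1
    · right
      have a1 := hy2 ⟨⟨x, hx⟩, hxc⟩ (fun h => hx1 (congrArg (fun t => t.1.1) h))
      have a2 := hy2 ⟨⟨c, cQ⟩, hcc⟩ (fun h => z1 (congrArg (fun t => t.1.1.1) h))
      exact congrArg (fun t => t.1.1) (a1.trans a2.symm)
  have hnt : Nontrivial G := ⟨⟨z, 1, z1⟩⟩
  refine ⟨fun N hN => ?_⟩
  by_cases hNb : N = ⊥
  · exact Or.inl hNb
  right
  -- Step 1 : N meets C(z)
  have step1 : ∃ n ∈ N, n * z = z * n ∧ n ≠ 1 := by
    by_contra hcon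
    push Not at hcon
    -- transport to conjugates of z
    have hconj : ∀ k : G, ∀ n ∈ N, n * (k * z * k⁻¹) = (k * z * k⁻¹) * n → n = 1 := by
      intro k n hn hnk
      have h1 := hcon (k⁻¹ * n * k⁻¹⁻¹) (hN.conj_mem n hn k⁻¹) (by
        calc k⁻¹ * n * k⁻¹⁻¹ * z = k⁻¹ * (n * (k * z * k⁻¹)) * k := by group
          _ = k⁻¹ * ((k * z * k⁻¹) * n) * k := by rw [hnk]
          _ = z * (k⁻¹ * n * k⁻¹⁻¹) := by group)
      calc n = k * (k⁻¹ * n * k⁻¹⁻¹) * k⁻¹ := by group
        _ = 1 := by rw [h1]; group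
    have i1 := inverts N z zz (fun n hn h => hcon n hn h)
    have i2 := inverts N s ss (fun n hn h => hconj g n hn h)
    -- s z is conjugate to s by an element of Q, hence conjugate to z
    have hflip : ∃ y : G, y * s * y⁻¹ = s * z := by
      by_contra hno
      push Not at hno
      have hall : ∀ y ∈ Q, (⟨s, hsc⟩ : Subgroup.centralizer ({z} : Set G)) * y = y * ⟨s, hsc⟩ := by
        intro y hy
        -- the commutator lies in the centre of Q
        have hcomm : (⟨⟨s, hsc⟩, hsQ⟩ : Q) * ⟨y, hy⟩ * (⟨⟨s, hsc⟩, hsQ⟩ : Q)⁻¹ * (⟨y, hy⟩ : Q)⁻¹ ∈ Subgroup.center Q := by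
          rw [← hQ.1.2.2]
          exact Subgroup.commutator_mem_commutator (Subgroup.mem_top _) (Subgroup.mem_top _)
        have hcl := hcen _ (Subtype.prop _) (fun w hw => by
          have := (Subgroup.mem_center_iff.1 hcomm) ⟨w, hw⟩
          exact (congrArg Subtype.val this).symm)
        rcases hcl with h | h
        · have h' : (⟨s, hsc⟩ : Subgroup.centralizer ({z} : Set G)) * y * (⟨s, hsc⟩ : Subgroup.centralizer ({z} : Set G))⁻¹ * y⁻¹ = 1 := h
          calc (⟨s, hsc⟩ : Subgroup.centralizer ({z} : Set G)) * y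
              = ((⟨s, hsc⟩ : Subgroup.centralizer ({z} : Set G)) * y * (⟨s, hsc⟩ : Subgroup.centralizer ({z} : Set G))⁻¹ * y⁻¹) * (y * ⟨s, hsc⟩) := by group
            _ = y * ⟨s, hsc⟩ := by rw [h', one_mul]
        · exfalso
          have h' : s * y.1 * s⁻¹ * y.1⁻¹ = z := congrArg (fun t : Subgroup.centralizer ({z} : Set G) => t.1) h
          apply hno y.1
          have hyz := mem_cz'.1 y.2
          have sinv : s⁻¹ = s := inv_eq_of_mul_eq_one_left ss
          have zinv : z⁻¹ = z := inv_eq_of_mul_eq_one_left zz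
          have e1 : y.1 * s * y.1⁻¹ = s * (s * y.1 * s⁻¹ * y.1⁻¹)  := by
            rw [sinv]
            calc y.1 * s * y.1⁻¹ = (s * s) * y.1 * s * y.1⁻¹ := by rw [ss, one_mul]
              _ = s * (s * y.1 * s * y.1⁻¹) := by group
          rw [e1, h']
      rcases hcen _ hsQ hall with h | h
      · exact s1 (congrArg Subtype.val h)
      · exact hsz (congrArg Subtype.val h)
    obtain ⟨y, hy⟩ := hflip
    have hszconj : s * z = (y * g) * z * (y * g)⁻¹ := by
      rw [← hy, hs]; group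
    obtain ⟨n, hn, hn1⟩ : ∃ n ∈ N, n ≠ 1 := by
      by_contra hno
      push Not at hno
      exact hNb ((Subgroup.eq_bot_iff_forall N).2 hno)
    apply hn1
    apply hconj (y * g) n hn
    rw [← hszconj]
    have a1 := i1 n hn
    have a2 := i2 n⁻¹ (N.inv_mem hn)
    rw [inv_inv] at a2
    have zinv : z⁻¹ = z := inv_eq_of_mul_eq_one_left zz
    have sinv : s⁻¹ = s := inv_eq_of_mul_eq_one_left ss
    rw [zinv] at a1
    rw [sinv] at a2
    -- s z n z s = n
    have a3 : s * (z * n * z) * s = n := by rw [a1, a2]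
    calc n * (s * z) = (s * (z * n * z) * s) * (s * z) := by rw [a3]
      _ = s * z * n * (z * (s * s) * z) := by group
      _ = s * z * n := by rw [ss, mul_one, zz, mul_one]
  obtain ⟨n0, hn0, hn0z, hn01⟩ := step1
  -- M = N ∩ C(z)
  set M : Subgroup (Subgroup.centralizer ({z} : Set G)) := N.subgroupOf (Subgroup.centralizer ({z} : Set G)) with hM
  have hMn : M.Normal := hN.subgroupOf _
  have hMQn : (M ⊓ Q).Normal := inferInstance
  have hMmem : ∀ x : Subgroup.centralizer ({z} : Set G), x ∈ M ↔ x.1 ∈ N := fun x => Subgroup.mem_subgroupOf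
  -- Step 2
  have step2 : ∃ x ∈ M ⊓ Q, x ≠ 1 := by
    by_contra hcon
    push Not at hcon
    have hle : M ≤ Subgroup.centralizer (Q : Set (Subgroup.centralizer ({z} : Set G))) := by
      intro m hm
      rw [Subgroup.mem_centralizer_iff]
      intro q hq
      have h1 : m * q * m⁻¹ * q⁻¹ ∈ M ⊓ Q := by
        refine ⟨?_, ?_⟩
        · have : m * q * m⁻¹ * q⁻¹ = m * (q * m⁻¹ * q⁻¹) := by group
          rw [this]
          exact M.mul_mem hm (hMn.conj_mem _ (M.inv_mem hm) q)
        · exact Q.mul_mem ((inferInstance : Q.Normal).conj_mem q hq m) (Q.inv_mem hq)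
      have h2 := hcon _ h1
      calc q * m = (m * q * m⁻¹ * q⁻¹)⁻¹ * (m * q) := by group
        _ = m * q := by rw [h2]; group
    have : (⟨n0, mem_cz'.2 hn0z⟩ : Subgroup.centralizer ({z} : Set G)) ∈ M ⊓ Q :=
      ⟨(hMmem _).2 hn0, hCQ (hle ((hMmem _).2 hn0))⟩
    exact hn01 (congrArg Subtype.val (hcon _ this))
  -- Step 3
  have zN : z ∈ N := by
    rcases hirr (M ⊓ Q) hMQn inf_le_right with h | h
    · have : c ∈ M ⊓ Q := by rw [h]; exact cQ
      exact (hMmem c).1 this.1
    · obtain ⟨x, hx, hx1⟩ := step2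
      rcases hzp _ (h x hx) with e | e
      · exact absurd (Subtype.ext e) hx1
      · rw [← e]; exact (hMmem x).1 hx.1
  have conjN : ∀ x : G, IsConj z x → x ∈ N := by
    intro x hx
    obtain ⟨k, rfl⟩ := isConj_iff.1 hx
    exact hN.conj_mem z zN k
  -- Step 4
  have hQM : Q ≤ M := by
    rcases hirr (M ⊓ Q) hMQn inf_le_right with h | h
    · rw [← h]; exact inf_le_left
    · exfalso
      exact snz (h ⟨s, hsc⟩ ⟨(hMmem _).2 (conjN s (isConj_iff.2 ⟨g, rfl⟩)), hsQ⟩)
  -- Step 5
  have hMtop : M = ⊤ := by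
    have hmn : (M.map (QuotientGroup.mk' Q)).Normal := hMn.map _ (QuotientGroup.mk'_surjective Q)
    rcases hmn.eq_bot_or_eq_top with hb | ht
    · exfalso
      have hMQ : M ≤ Q := by
        have := (Subgroup.map_eq_bot_iff M).1 hb
        rwa [QuotientGroup.ker_mk'] at this
      set W := Subgroup.closure {x : Subgroup.centralizer ({z} : Set G) | IsConj z (x : G)} with hW
      have hWM : W ≤ M := by
        rw [hW, Subgroup.closure_le]
        intro x hx
        exact (hMmem x).2 (conjN _ hx)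
      have hWn : W.Normal := by
        refine ⟨fun n hn k => ?_⟩
        induction hn using Subgroup.closure_induction with
        | mem x hx =>
          exact Subgroup.subset_closure (IsConj.trans hx (isConj_iff.2 ⟨k.1, rfl⟩))
        | one => simp
        | mul x y _ _ hx hy =>
          have : k * (x * y) * k⁻¹ = (k * x * k⁻¹) * (k * y * k⁻¹) := by group
          rw [this]; exact W.mul_mem hx hy
        | inv x _ hx =>
          have : k * x⁻¹ * k⁻¹ = (k * x * k⁻¹)⁻¹ := by group
          rw [this]; exact W.inv_mem hx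
      rcases hirr W hWn (hWM.trans hMQ) with h | h
      · exact hwcl h
      · exact snz (h ⟨s, hsc⟩ (Subgroup.subset_closure (isConj_iff.2 ⟨g, rfl⟩)))
    · rw [eq_top_iff]
      intro x _
      have : QuotientGroup.mk' Q x ∈ M.map (QuotientGroup.mk' Q) := by rw [ht]; trivial
      obtain ⟨m, hm, hmx⟩ := this
      have : m⁻¹ * x ∈ Q := QuotientGroup.eq.1 hmx
      have h2 := M.mul_mem hm (hQM this)
      rwa [mul_inv_cancel_left] at h2
  have hCN : Subgroup.centralizer ({z} : Set G) ≤ N := by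
    intro x hx
    have : (⟨x, hx⟩ : Subgroup.centralizer ({z} : Set G)) ∈ M := by rw [hMtop]; trivial
    exact (hMmem _).1 this
  haveI : Fact (Nat.Prime 2) := ⟨Nat.prime_two⟩
  set QG : Subgroup G := Q.map (Subgroup.centralizer ({z} : Set G)).subtype with hQG
  have hQGN : QG ≤ N := by
    rintro _ ⟨q, hq, rfl⟩
    exact hCN q.2
  have hQp : IsPGroup 2 (QG.subgroupOf N) := by
    apply IsPGroup.of_card (n := 2 * w + 1)
    rw [Nat.card_congr (Subgroup.subgroupOfEquivOfLe hQGN).toEquiv, hQG,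
      Subgroup.card_map_of_injective (Subgroup.subtype_injective _), hcard]
  obtain ⟨P, hP⟩ := hQp.exists_le_sylow
  have hfr := Sylow.normalizer_sup_eq_top P
  set T : Subgroup G := (P : Subgroup N).map N.subtype with hT
  have hQT : QG ≤ T := by
    intro x hx
    exact ⟨⟨x, hQGN hx⟩, hP (Subgroup.mem_subgroupOf.2 hx), rfl⟩
  have hTp : IsPGroup 2 T := P.2.map _
  have zT : z ∈ T := hQT ⟨c, cQ, rfl⟩
  haveI : Nontrivial T := ⟨⟨⟨z, zT⟩, 1, fun h => z1 (congrArg Subtype.val h)⟩⟩
  -- an element of G commuting with Q is 1 or z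
  have hU : ∀ x : G, (∀ y ∈ T, x * y = y * x) → x = 1 ∨ x = z := by
    intro x hx
    have hxc : x ∈ Subgroup.centralizer ({z} : Set G) := mem_cz'.2 (hx z zT)
    have hxQ : (⟨x, hxc⟩ : Subgroup.centralizer ({z} : Set G)) ∈
        Subgroup.centralizer (Q : Set (Subgroup.centralizer ({z} : Set G))) := by
      rw [Subgroup.mem_centralizer_iff]
      intro q hq
      exact Subtype.ext (hx q.1 (hQT ⟨q, hq, rfl⟩)).symm
    rcases hcen _ (hCQ hxQ) (fun y hy => Subtype.ext (hx y.1 (hQT ⟨y, hy, rfl⟩))) with h | h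
    · exact Or.inl (congrArg Subtype.val h)
    · exact Or.inr (congrArg Subtype.val h)
  have hzcen : ∀ y ∈ T, z * y = y * z := by
    have hcn : Nontrivial (Subgroup.center T) := hTp.center_nontrivial
    obtain ⟨c0, hc0⟩ := exists_ne (1 : Subgroup.center T)
    have h1 : ∀ y ∈ T, c0.1.1 * y = y * c0.1.1 := by
      intro y hy
      have := (Subgroup.mem_center_iff.1 c0.2) ⟨y, hy⟩
      exact (congrArg Subtype.val this).symm
    rcases hU _ h1 with h | h
    · exact absurd (Subtype.ext (Subtype.ext h)) hc0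
    · rw [← h]; exact h1
  have hNT : Subgroup.normalizer (T : Set G) ≤ N := by
    intro k hk
    apply hCN
    rw [mem_cz']
    have hk' := Subgroup.mem_normalizer_iff.1 hk
    have h1 : ∀ y ∈ T, (k * z * k⁻¹) * y = y * (k * z * k⁻¹) := by
      intro y hy
      have hy' : k⁻¹ * y * k ∈ T := by
        rw [hk']
        have : k * (k⁻¹ * y * k) * k⁻¹ = y := by group
        rw [this]; exact hy
      have := hzcen _ hy'
      calc k * z * k⁻¹ * y = k * (z * (k⁻¹ * y * k)) * k⁻¹ := by group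
        _ = k * ((k⁻¹ * y * k) * z) * k⁻¹ := by rw [this]
        _ = y * (k * z * k⁻¹) := by group
    rcases hU _ h1 with h | h
    · exfalso
      apply z1
      calc z = k⁻¹ * (k * z * k⁻¹) * k := by group
        _ = 1 := by rw [h]; group
    · calc k * z = (k * z * k⁻¹) * k := by group
        _ = z * k := by rw [h]
  rw [eq_top_iff, ← hfr]
  exact sup_le hNT le_rfl

end Cfsg.Agent.S5436
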