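import Cfsg.Statements.S5437

set_option autoImplicit false
open Cfsg

namespace Cfsg.Agent.S5437

theorem mem_map_conj {G : Type*} [Group G] (H : Subgroup G) (g x : G) :
    x ∈ H.map (MulAut.conj g).toMonoidHom ↔ g⁻¹ * x * g ∈ H := by
  constructor
  · rintro ⟨y, hy, rfl⟩
    simpa [mul_assoc] using hy
  · intro h
    exact ⟨g⁻¹ * x * g, h, by simp [mul_assoc]⟩

theorem smul_coset_eq {G : Type*} [Group G] (H : Subgroup G) (g x : G) :
    x • (QuotientGroup.mk g : G ⧸ H) = QuotientGroup.mk g ↔ g⁻¹ * x * g ∈ H := by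
  rw [MulAction.Quotient.smul_mk, eq_comm, QuotientGroup.eq, smul_eq_mul, mul_assoc]

/-- Let I be a set of involutions of the finite group G closed under conjugation, and H a subgroup of G. The following are equivalent: (1) for every member x of I lying in H, the conjugates of x lying in H form a single H-class and the centralizer of x lies in H; (2) for every g outside H, no member of I lies in both H and g H g⁻¹; (3) every member of I lying in H fixes exactly one coset in the action of G on the cosets of H. -/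
theorem result {G : Type*} [Group G] [Finite G] (I : Set G) (hI : ∀ x ∈ I, orderOf x = 2) (hIc : ∀ g : G, ∀ x ∈ I, g * x * g⁻¹ ∈ I) (H : Subgroup G) : ((∀ x ∈ I, x ∈ H → (∀ g : G, g * x * g⁻¹ ∈ H → ∃ h ∈ H, h * x * h⁻¹ = g * x * g⁻¹) ∧ Subgroup.centralizer ({x} : Set G) ≤ H) ↔ (∀ g : G, g ∉ H → ∀ x ∈ I, ¬ (x ∈ H ∧ x ∈ (H : Subgroup G).map (MulAut.conj g).toMonoidHom))) ∧ ((∀ g : G, g ∉ H → ∀ x ∈ I, ¬ (x ∈ H ∧ x ∈ (H : Subgroup G).map (MulAut.conj g).toMonoidHom)) ↔ ∀ x ∈ I, x ∈ H → ∃! c : G ⧸ H, x • c = c) := by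
  simp only [mem_map_conj]
  refine ⟨⟨?_, ?_⟩, ⟨?_, ?_⟩⟩
  · intro h1 g hg x hx ⟨hxH, hxg⟩
    obtain ⟨h2, h3⟩ := h1 x hx hxH
    obtain ⟨h, hh, he⟩ := h2 g⁻¹ (by simpa using hxg)
    apply hg
    have : g * h ∈ Subgroup.centralizer ({x} : Set G) := by
      rw [Subgroup.mem_centralizer_singleton_iff]
      have : g * (h * x * h⁻¹) * g⁻¹ = x := by rw [he]; group
      calc g * h * x = g * (h * x * h⁻¹) * g⁻¹ * (g * h) := by group
        _ = x * (g * h) := by rw [this]
    have h4 := h3 this
    have : g = (g * h) * h⁻¹ := by group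
    rw [this]
    exact H.mul_mem h4 (H.inv_mem hh)
  · intro h2 x hx hxH
    refine ⟨fun g hg => ?_, fun c hc => ?_⟩
    · by_contra hcon
      have hgH : g ∉ H := fun hgH => hcon ⟨g, hgH, rfl⟩
      exact h2 g hgH (g * x * g⁻¹) (hIc g x hx) ⟨hg, by simpa [mul_assoc] using hxH⟩
    · by_contra hcH
      rw [Subgroup.mem_centralizer_singleton_iff] at hc
      refine h2 c hcH x hx ⟨hxH, ?_⟩
      have : c⁻¹ * x * c = x := by
        rw [mul_assoc, ← hc]; group
      rw [this]; exact hxH
  · intro h2 x hx hxH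
    refine ⟨QuotientGroup.mk 1, (smul_coset_eq H 1 x).2 (by simpa using hxH), ?_⟩
    intro c
    induction c using QuotientGroup.induction_on with
    | H g =>
      intro hc
      replace hc := (smul_coset_eq H g x).1 hc
      by_contra hne
      have hgH : g ∉ H := by
        intro hgH
        apply hne
        rw [QuotientGroup.eq]
        simpa using hgH
      exact h2 g hgH x hx ⟨hxH, hc⟩
  · intro h3 g hg x hx ⟨hxH, hxg⟩
    obtain ⟨c, -, huniq⟩ := h3 x hx hxH
    have e1 := huniq (QuotientGroup.mk 1) ((smul_coset_eq H 1 x).2 (by simpa using hxH))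
    have e2 := huniq (QuotientGroup.mk g) ((smul_coset_eq H g x).2 hxg)
    apply hg
    have := e1.trans e2.symm
    rw [QuotientGroup.eq] at this
    simpa using this

end Cfsg.Agent.S5437
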