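import Cfsg.Statements.S5438

set_option autoImplicit false
open Cfsg
open scoped Pointwise

namespace Cfsg.Agent.S5438

theorem sylow_conj_mem {G : Type*} [Group G] [Finite G] {p : ℕ} [Fact p.Prime] (P : Sylow p G)
    (K : Subgroup G) (hK : IsPGroup p K) : ∃ g : G, ∀ k ∈ K, g * k * g⁻¹ ∈ P := by
  obtain ⟨Q, hQ⟩ := hK.exists_le_sylow
  obtain ⟨g, hg⟩ := MulAction.exists_smul_eq G Q P
  refine ⟨g, fun k hk => ?_⟩
  have h1 : MulAut.conj g • k ∈ MulAut.conj g • (Q : Subgroup G) :=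
    Subgroup.smul_mem_pointwise_smul k (MulAut.conj g) Q (hQ hk)
  have h2 : ((g • Q : Sylow p G) : Subgroup G) = MulAut.conj g • (Q : Subgroup G) := rfl
  rw [← h2, hg] at h1
  have h3 : g * k * g⁻¹ ∈ (P : Subgroup G) := by simpa using h1
  exact h3

theorem isPGroup_zpowers {G : Type*} [Group G] {p : ℕ} (x : G) (k : ℕ) (hk : orderOf x = p ^ k) :
    IsPGroup p (Subgroup.zpowers x) := by
  rintro ⟨y, hy⟩
  refine ⟨k, ?_⟩
  obtain ⟨n, rfl⟩ := Subgroup.mem_zpowers_iff.1 hy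
  apply Subtype.ext
  simp only [Subgroup.coe_pow, Subgroup.coe_one]
  rw [← zpow_natCast, ← zpow_mul, mul_comm, zpow_mul, zpow_natCast, ← hk, pow_orderOf_eq_one, one_zpow]

theorem orderOf_conj' {G : Type*} [Group G] (g x : G) : orderOf (g * x * g⁻¹) = orderOf x := by
  have : SemiconjBy g x (g * x * g⁻¹) := by
    unfold SemiconjBy; group
  exact this.orderOf_eq.symm

/-- Let z be a 2-central involution of the finite group G (an involution central in some Sylow 2-subgroup) and H a subgroup containing z such that the coset H is the only coset of H fixed by z (in the action of G on the cosets of H). Then H has odd index in G, and for every 2-element x of H the conjugates of x lying in H form a single H-class. -/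
theorem result {G : Type*} [Group G] [Finite G] (z : G) (hz : Cfsg.IsTwoCentralInvolution z) (H : Subgroup G) (hzH : z ∈ H) (hfix : ∀ g : G, g⁻¹ * z * g ∈ H → g ∈ H) : Odd H.index ∧ ∀ x ∈ H, (∃ k : ℕ, orderOf x = 2 ^ k) → ∀ g : G, g * x * g⁻¹ ∈ H → ∃ h ∈ H, h * x * h⁻¹ = g * x * g⁻¹ := by
  have : Fact (Nat.Prime 2) := ⟨Nat.prime_two⟩
  obtain ⟨hz2, P, hzP, hPz⟩ := hz
  have hC : ∀ g : G, g * z = z * g → g ∈ H := by
    intro g hg
    apply hfix
    have : g⁻¹ * z * g = z := by rw [mul_assoc, ← hg]; group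
    rw [this]; exact hzH
  have hPH : (P : Subgroup G) ≤ H := fun x hx => hC x (hPz x hx)
  -- every 2-element of H commutes with an H-conjugate of z
  have hL2 : ∀ x ∈ H, (∃ k : ℕ, orderOf x = 2 ^ k) → ∃ a ∈ H, Commute (a * z * a⁻¹) x := by
    intro x hx ⟨k, hk⟩
    have hk' : orderOf (⟨x, hx⟩ : H) = 2 ^ k := by
      rw [← hk]; exact (Subgroup.orderOf_mk x hx)
    obtain ⟨h, hh⟩ := sylow_conj_mem (P.subtype hPH) (Subgroup.zpowers (⟨x, hx⟩ : H))
      (isPGroup_zpowers _ k hk')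
    have h1 := hh _ (Subgroup.mem_zpowers _)
    have h2 : (h : G) * x * (h : G)⁻¹ ∈ P := by
      have h1' : h * ⟨x, hx⟩ * h⁻¹ ∈ ((P.subtype hPH : Sylow 2 H) : Subgroup H) := h1
      rw [Sylow.coe_subtype, Subgroup.mem_subgroupOf] at h1'
      have h3 : (h : G) * x * (h : G)⁻¹ ∈ (P : Subgroup G) := by simpa using h1'
      exact h3
    refine ⟨(h : G)⁻¹, H.inv_mem h.2, ?_⟩
    have h3 := hPz _ h2
    show (h : G)⁻¹ * z * (h : G)⁻¹⁻¹ * x = x * ((h : G)⁻¹ * z * (h : G)⁻¹⁻¹)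
    calc (h : G)⁻¹ * z * (h : G)⁻¹⁻¹ * x = (h : G)⁻¹ * (z * ((h : G) * x * (h : G)⁻¹)) * h := by group
      _ = (h : G)⁻¹ * (((h : G) * x * (h : G)⁻¹) * z) * h := by rw [h3]
      _ = x * ((h : G)⁻¹ * z * (h : G)⁻¹⁻¹) := by group
  constructor
  · have h1 : H.index ∣ (P : Subgroup G).index := Subgroup.index_dvd_of_le hPH
    have h2 : ¬ 2 ∣ (P : Subgroup G).index := P.not_dvd_index
    rw [← Nat.not_even_iff_odd, even_iff_two_dvd]
    exact fun h => h2 (h.trans h1)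
  · intro x hx hxk g hg
    obtain ⟨a1, ha1, hc1⟩ := hL2 x hx hxk
    have hxk' : ∃ k : ℕ, orderOf (g * x * g⁻¹) = 2 ^ k := by
      obtain ⟨k, hk⟩ := hxk
      exact ⟨k, by rw [orderOf_conj', hk]⟩
    obtain ⟨a2, ha2, hc2⟩ := hL2 _ hg hxk'
    set C := Subgroup.centralizer ({x} : Set G) with hCdef
    have hz1 : a1 * z * a1⁻¹ ∈ C := by
      rw [hCdef, Subgroup.mem_centralizer_singleton_iff]; exact hc1.eq
    have hz2' : (g⁻¹ * a2) * z * (g⁻¹ * a2)⁻¹ ∈ C := by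
      rw [hCdef, Subgroup.mem_centralizer_singleton_iff]
      have := hc2.eq
      calc (g⁻¹ * a2) * z * (g⁻¹ * a2)⁻¹ * x = g⁻¹ * ((a2 * z * a2⁻¹) * (g * x * g⁻¹)) * g := by group
        _ = g⁻¹ * ((g * x * g⁻¹) * (a2 * z * a2⁻¹)) * g := by rw [this]
        _ = x * ((g⁻¹ * a2) * z * (g⁻¹ * a2)⁻¹) := by group
    obtain ⟨R⟩ : Nonempty (Sylow 2 C) := inferInstance
    have ho : ∀ (w : G) (hw : w * z * w⁻¹ ∈ C), orderOf (⟨w * z * w⁻¹, hw⟩ : C) = 2 ^ 1 := by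
      intro w hw
      rw [Subgroup.orderOf_mk, orderOf_conj', hz2, pow_one]
    obtain ⟨c1, hc1'⟩ := sylow_conj_mem R (Subgroup.zpowers (⟨_, hz1⟩ : C)) (isPGroup_zpowers _ 1 (ho _ hz1))
    obtain ⟨c2, hc2'⟩ := sylow_conj_mem R (Subgroup.zpowers (⟨_, hz2'⟩ : C)) (isPGroup_zpowers _ 1 (ho _ hz2'))
    have hr1 := hc1' _ (Subgroup.mem_zpowers _)
    have hr2 := hc2' _ (Subgroup.mem_zpowers _)
    obtain ⟨b, hb⟩ := sylow_conj_mem P ((R : Subgroup C).map C.subtype) (R.2.map _)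
    have hb1 := hPH (hb _ (Subgroup.mem_map_of_mem C.subtype hr1))
    have hb2 := hPH (hb _ (Subgroup.mem_map_of_mem C.subtype hr2))
    simp only [Subgroup.subtype_apply, Subgroup.coe_mul, Subgroup.coe_inv] at hb1 hb2
    have hw1 : (b * c1 * a1)⁻¹ ∈ H := by
      apply hfix
      convert hb1 using 1
      group
    have hw2 : (b * c2 * (g⁻¹ * a2))⁻¹ ∈ H := by
      apply hfix
      convert hb2 using 1
      group
    have hh : g * (c2 : G)⁻¹ * c1 ∈ H := by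
      have e : g * (c2 : G)⁻¹ * c1 = a2 * (b * c2 * (g⁻¹ * a2))⁻¹ * ((b * c1 * a1)⁻¹)⁻¹ * a1⁻¹ := by group
      rw [e]
      exact H.mul_mem (H.mul_mem (H.mul_mem ha2 hw2) (H.inv_mem hw1)) (H.inv_mem ha1)
    refine ⟨_, hh, ?_⟩
    have hcc : ((c2 : G)⁻¹ * c1) * x = x * ((c2 : G)⁻¹ * c1) := by
      have h5 : (c2⁻¹ * c1 : C).1 ∈ Subgroup.centralizer ({x} : Set G) := (c2⁻¹ * c1 : C).2
      rw [Subgroup.mem_centralizer_singleton_iff] at h5
      simpa using h5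
    calc g * (c2 : G)⁻¹ * c1 * x * (g * (c2 : G)⁻¹ * c1)⁻¹ = g * (((c2 : G)⁻¹ * c1) * x) * ((c2 : G)⁻¹ * c1)⁻¹ * g⁻¹ := by group
      _ = g * x * g⁻¹ := by rw [hcc]; group

end Cfsg.Agent.S5438
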