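import Cfsg.Statements.S5439

set_option autoImplicit false
open Cfsg

namespace Cfsg.Agent.S5439

theorem smul_coset_eq {G : Type*} [Group G] (H : Subgroup G) (g x : G) :
    x • (QuotientGroup.mk g : G ⧸ H) = QuotientGroup.mk g ↔ g⁻¹ * x * g ∈ H := by
  rw [MulAction.Quotient.smul_mk, eq_comm, QuotientGroup.eq, smul_eq_mul, mul_assoc]

/-- for an involution `a`, `a (ab)^k = (ab)^(-k) a`. -/
theorem dih1 {G : Type*} [Group G] (a b : G) (ha : a * a = 1) (hb : b * b = 1) (k : ℕ) :
    (a * b) ^ k * (a * (a * b) ^ k) = a := by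
  induction k with
  | zero => simp
  | succ k ih =>
    calc (a * b) ^ (k + 1) * (a * (a * b) ^ (k + 1))
        = (a * b) ^ k * ((a * b) * (a * ((a * b) * (a * b) ^ k))) := by
          have e1 : (a * b) ^ (k + 1) = (a * b) ^ k * (a * b) := pow_succ _ _
          have e2 : (a * b) ^ k * (a * b) = (a * b) * (a * b) ^ k := by rw [← pow_succ, ← pow_succ']
          rw [e1]
          nth_rewrite 2 [e2]
          rw [mul_assoc]
      _ = (a * b) ^ k * (a * ((b * ((a * a) * b)) * (a * b) ^ k)) := by simp only [mul_assoc]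
      _ = (a * b) ^ k * (a * (a * b) ^ k) := by rw [ha, one_mul, hb, one_mul]
      _ = a := ih

theorem dih_even {G : Type*} [Group G] (a b : G) (ha : a * a = 1) (hb : b * b = 1) (k : ℕ) :
    IsConj a (a * (a * b) ^ (2 * k)) := by
  rw [isConj_iff]
  refine ⟨((a * b) ^ k)⁻¹, ?_⟩
  rw [inv_inv, two_mul, pow_add]
  have := dih1 a b ha hb k
  calc ((a * b) ^ k)⁻¹ * a * (a * b) ^ k = ((a * b) ^ k)⁻¹ * ((a * b) ^ k * (a * (a * b) ^ k)) * (a * b) ^ k := by rw [this]
    _ = a * ((a * b) ^ k * (a * b) ^ k) := by group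

theorem dih_odd {G : Type*} [Group G] (a b : G) (ha : a * a = 1) (hb : b * b = 1) (k : ℕ) :
    IsConj b (a * (a * b) ^ (2 * k + 1)) := by
  rw [isConj_iff]
  refine ⟨((a * b) ^ k)⁻¹, ?_⟩
  rw [inv_inv]
  have h1 := dih1 a b ha hb k
  have h2 : b = a * (a * b) := by rw [← mul_assoc, ha, one_mul]
  have h3 : (a * b) ^ (2 * k + 1) = (a * b) ^ k * (a * b) * (a * b) ^ k := by
    rw [← pow_succ, ← pow_add]; congr 1; ring
  rw [h3]
  calc ((a * b) ^ k)⁻¹ * b * (a * b) ^ k = ((a * b) ^ k)⁻¹ * (a * (a * b)) * (a * b) ^ k := by rw [← h2]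
    _ = ((a * b) ^ k)⁻¹ * (((a * b) ^ k * (a * (a * b) ^ k)) * (a * b)) * (a * b) ^ k := by rw [h1]
    _ = a * ((a * b) ^ k * (a * b) * (a * b) ^ k) := by group

/-- Let I and J be two different conjugacy classes of involutions of the finite group G and H a subgroup such that every member of I ∪ J fixes exactly one coset in the action on the cosets of H, and such that for every a in I ∩ H and every b in (I ∪ J) ∩ H different from a and commuting with it, the centralizer of a b lies in H. Then H = G. -/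
theorem result {G : Type*} [Group G] [Finite G] (I J : Set G) (a₀ b₀ : G) (ha₀ : orderOf a₀ = 2) (hb₀ : orderOf b₀ = 2) (hI : I = {x | IsConj a₀ x}) (hJ : J = {x | IsConj b₀ x}) (hIJ : I ≠ J) (H : Subgroup G) (hfix : ∀ x ∈ I ∪ J, ∃! c : G ⧸ H, x • c = c) (hcent : ∀ a ∈ I, a ∈ H → ∀ b ∈ I ∪ J, b ∈ H → a ≠ b → a * b = b * a → Subgroup.centralizer ({a * b} : Set G) ≤ H) : H = ⊤ := by
  have hsq : ∀ x : G, orderOf x = 2 → x * x = 1 := by
    intro x hx
    rw [← pow_two, ← hx, pow_orderOf_eq_one]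
  have hIsq : ∀ a ∈ I, a * a = 1 := by
    intro a ha
    rw [hI] at ha
    obtain ⟨c, hc⟩ := isConj_iff.1 ha
    rw [← hc]
    calc c * a₀ * c⁻¹ * (c * a₀ * c⁻¹) = c * (a₀ * a₀) * c⁻¹ := by group
      _ = 1 := by rw [hsq a₀ ha₀]; group
  have hJsq : ∀ a ∈ J, a * a = 1 := by
    intro a ha
    rw [hJ] at ha
    obtain ⟨c, hc⟩ := isConj_iff.1 ha
    rw [← hc]
    calc c * b₀ * c⁻¹ * (c * b₀ * c⁻¹) = c * (b₀ * b₀) * c⁻¹ := by group
      _ = 1 := by rw [hsq b₀ hb₀]; group
  have hnc : ∀ a ∈ I, ∀ b ∈ J, ¬ IsConj b a := by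
    intro a ha b hb hab
    apply hIJ
    rw [hI] at ha ⊢
    rw [hJ] at hb ⊢
    have h1 : IsConj a₀ b₀ := (ha.trans hab.symm).trans hb.symm
    ext x
    exact ⟨fun h => h1.symm.trans h, fun h => h1.trans h⟩
  -- key claim
  have key : ∀ a ∈ I, a ∈ H → ∀ b ∈ J, b ∈ H := by
    intro a ha haH b hb
    have haa := hIsq a ha
    have hbb := hJsq b hb
    obtain ⟨m, hm | hm⟩ := Nat.even_or_odd' (orderOf (a * b))
    · have hpos : 0 < orderOf (a * b) := orderOf_pos _
      have hm0 : 0 < m := by omega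
      set u := (a * b) ^ m with hu
      have hu1 : u ≠ 1 := pow_ne_one_of_lt_orderOf hm0.ne' (by omega)
      have huu : u * u = 1 := by
        rw [hu, ← pow_add, ← two_mul, ← hm, pow_orderOf_eq_one]
      have hua : u * (a * u) = a := dih1 a b haa hbb m
      have hau : a * u = u * a := by
        calc a * u = (u * u) * (a * u) := by rw [huu, one_mul]
          _ = u * (u * (a * u)) := by rw [mul_assoc]
          _ = u * a := by rw [hua]
      have hub : (a * b) * u = u * (a * b) := by
        rw [hu, ← pow_succ', ← pow_succ]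
      have hbu : b * u = u * b := by
        have : b = a * (a * b) := by rw [← mul_assoc, haa, one_mul]
        calc b * u = a * ((a * b) * u) := by rw [← mul_assoc, ← this]
          _ = (a * u) * (a * b) := by rw [hub]; group
          _ = u * (a * (a * b)) := by rw [hau]; group
          _ = u * b := by rw [← this]
      have huH : u ∈ H := by
        obtain ⟨c, -, huniq⟩ := hfix a (Or.inl ha)
        have e1 := huniq (QuotientGroup.mk 1) ((smul_coset_eq H 1 a).2 (by simpa using haH))
        have e2 := huniq (QuotientGroup.mk u) ((smul_coset_eq H u a).2 (by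
          have : u⁻¹ * a * u = a := by rw [mul_assoc, hau]; group
          rw [this]; exact haH))
        have := e1.trans e2.symm
        rw [QuotientGroup.eq] at this
        simpa using this
      have hauIJ : a * u ∈ I ∪ J := by
        obtain ⟨k, hk | hk⟩ := Nat.even_or_odd' m
        · left
          have := dih_even a b haa hbb k
          rw [← hk, ← hu] at this
          rw [hI] at ha ⊢
          exact ha.trans this
        · right
          have := dih_odd a b haa hbb k
          rw [← hk, ← hu] at this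
          rw [hJ] at hb ⊢
          exact hb.trans this
      have h1 := hcent a ha haH (a * u) hauIJ (H.mul_mem haH huH)
        (fun h => hu1 (by simpa using h.symm)) (by rw [← mul_assoc, haa, one_mul, hau, mul_assoc, haa, mul_one])
      apply h1
      rw [← mul_assoc, haa, one_mul, Subgroup.mem_centralizer_singleton_iff]
      exact hbu
    · exfalso
      have := dih_odd a b haa hbb m
      rw [← hm, pow_orderOf_eq_one, mul_one] at this
      exact hnc a ha b hb this
  -- conjugation invariance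
  have hIc : ∀ g : G, ∀ a ∈ I, g * a * g⁻¹ ∈ I := by
    intro g a ha
    rw [hI] at ha ⊢
    exact ha.trans (isConj_iff.2 ⟨g, rfl⟩)
  have hJc : ∀ g : G, ∀ a ∈ J, g * a * g⁻¹ ∈ J := by
    intro g a ha
    rw [hJ] at ha ⊢
    exact ha.trans (isConj_iff.2 ⟨g, rfl⟩)
  have ha₀I : a₀ ∈ I := by rw [hI]; exact IsConj.refl _
  have hb₀J : b₀ ∈ J := by rw [hJ]; exact IsConj.refl _
  obtain ⟨c₀, hc₀, -⟩ := hfix a₀ (Or.inl ha₀I)
  induction c₀ using QuotientGroup.induction_on with
  | H g₀ =>
    replace hc₀ := (smul_coset_eq H g₀ a₀).1 hc₀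
    have hall : ∀ b ∈ J, g₀⁻¹ * b * g₀ ∈ H := by
      intro b hb
      have h1 := hIc g₀⁻¹ a₀ ha₀I
      have h2 := hJc g₀⁻¹ b hb
      rw [inv_inv] at h1 h2
      exact key _ h1 hc₀ _ h2
    rw [eq_top_iff]
    intro g _
    -- g₀ g g₀⁻¹ moves the fixed coset of b₀ to that of its conjugate
    set w := g₀ * g * g₀⁻¹ with hw
    obtain ⟨c, -, huniq⟩ := hfix (w * b₀ * w⁻¹) (Or.inr (hJc w b₀ hb₀J))
    have e1 := huniq (QuotientGroup.mk g₀) ((smul_coset_eq H g₀ _).2 (hall _ (hJc w b₀ hb₀J)))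
    have e2 := huniq (QuotientGroup.mk (w * g₀)) ((smul_coset_eq H _ _).2 (by
      have : (w * g₀)⁻¹ * (w * b₀ * w⁻¹) * (w * g₀) = g₀⁻¹ * b₀ * g₀ := by group
      rw [this]; exact hall _ hb₀J))
    have := e1.trans e2.symm
    rw [QuotientGroup.eq] at this
    have e3 : g₀⁻¹ * (w * g₀) = g := by rw [hw]; group
    rwa [e3] at this

end Cfsg.Agent.S5439
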