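import Cfsg.Statements.S5459


set_option autoImplicit false
open Cfsg

namespace Cfsg.Agent.S5459

open scoped commutatorElement


/-- Let G be a finite group with a quasisimple normal subgroup L and an involution d such that G is generated by L and d, the centre of L has odd order, and d inverts every element of the centre of L. If the commuting graph on the conjugacy class of the image of d in G modulo the centre of L is connected, then the commuting graph on the conjugacy class of d is connected. -/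
theorem result {G : Type*} [Group G] [Finite G] (L : Subgroup G) [L.Normal] (hL : Cfsg.IsQuasisimple ↥L) (d : G) (hd : orderOf d = 2) (hgen : L ⊔ Subgroup.zpowers d = ⊤) (hodd : Odd (Nat.card ↥(Subgroup.center ↥L))) (hinv : ∀ c ∈ (Subgroup.center ↥L).map L.subtype, d * c * d⁻¹ = c⁻¹) [hn : ((Subgroup.center ↥L).map L.subtype).Normal] (hconn : (Cfsg.commutingGraph (conjugatesOf (QuotientGroup.mk d : G ⧸ (Subgroup.center ↥L).map L.subtype))).Connected) : (Cfsg.commutingGraph (conjugatesOf d)).Connected := by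
  classical
  obtain ⟨Z, hZdef⟩ : ∃ Z : Subgroup G, Z = (Subgroup.center ↥L).map L.subtype := ⟨_, rfl⟩
  subst hZdef
  set Z : Subgroup G := (Subgroup.center ↥L).map L.subtype with hZ
  have hZL : Z ≤ L := Subgroup.map_subtype_le _
  have hZcard : Nat.card Z = Nat.card ↥(Subgroup.center ↥L) :=
    Subgroup.card_map_of_injective (Subgroup.subtype_injective L)
  obtain ⟨k, hk⟩ := hodd
  -- square roots in Z
  have hroot : ∀ z ∈ Z, ∃ w ∈ Z, w⁻¹ * w⁻¹ = z := by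
    intro z hz
    refine ⟨z ^ k, Subgroup.pow_mem _ hz k, ?_⟩
    have h1 : z ^ (2 * k + 1) = 1 := by
      have h2 : (⟨z, hz⟩ : Z) ^ Nat.card Z = 1 := pow_card_eq_one'
      rw [hZcard, hk] at h2
      have := congrArg Subtype.val h2
      simpa using this
    have h3 : z ^ k * z ^ k * z = 1 := by
      rw [← pow_add, ← pow_succ]
      rw [show k + k + 1 = 2 * k + 1 by ring]; exact h1
    have h4 : z = (z ^ k * z ^ k)⁻¹ := by
      rw [eq_inv_iff_mul_eq_one]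
      have : Commute z (z ^ k * z ^ k) := by
        rw [← pow_add]; exact (Commute.refl z).pow_right _
      rw [this.eq]; exact h3
    rw [← mul_inv_rev]; exact h4.symm
  -- elements of D invert Z
  have hDinv : ∀ e ∈ conjugatesOf d, ∀ c ∈ Z, e * c * e⁻¹ = c⁻¹ := by
    intro e he c hc
    obtain ⟨g, rfl⟩ := isConj_iff.mp he
    have h1 : g⁻¹ * c * g ∈ Z := by
      have := hn.conj_mem c hc g⁻¹
      simpa using this
    have h2 := hinv _ h1
    calc g * d * g⁻¹ * c * (g * d * g⁻¹)⁻¹ = g * (d * (g⁻¹ * c * g) * d⁻¹) * g⁻¹ := by group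
      _ = g * (g⁻¹ * c * g)⁻¹ * g⁻¹ := by rw [h2]
      _ = c⁻¹ := by group
  have hDinv' : ∀ e ∈ conjugatesOf d, ∀ c ∈ Z, e⁻¹ * c * e = c⁻¹ := by
    intro e he c hc
    have h1 := hDinv e he c⁻¹ (Subgroup.inv_mem _ hc)
    rw [inv_inv] at h1
    calc e⁻¹ * c * e = e⁻¹ * (e * c⁻¹ * e⁻¹) * e := by rw [h1]
      _ = c⁻¹ := by group
  have hDconj : ∀ e ∈ conjugatesOf d, ∀ g : G, g * e * g⁻¹ ∈ conjugatesOf d := by
    intro e he g
    exact IsConj.trans he (isConj_iff.mpr ⟨g, rfl⟩)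
  -- e * z is a Z-conjugate of e
  have hF2 : ∀ e ∈ conjugatesOf d, ∀ z ∈ Z, ∃ w ∈ Z, w * e * w⁻¹ = e * z := by
    intro e he z hz
    obtain ⟨w, hw, hwz⟩ := hroot z hz
    refine ⟨w, hw, ?_⟩
    calc w * e * w⁻¹ = e * (e⁻¹ * w * e) * w⁻¹ := by group
      _ = e * w⁻¹ * w⁻¹ := by rw [hDinv' e he w hw]
      _ = e * z := by rw [mul_assoc, hwz]
  have hF3 : ∀ e₁ ∈ conjugatesOf d, ∀ e₂ ∈ conjugatesOf d,
      Commute (QuotientGroup.mk e₁ : G ⧸ Z) (QuotientGroup.mk e₂ : G ⧸ Z) →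
      ∃ z ∈ Z, Commute e₁ (e₂ * z) := by
    intro e₁ he₁ e₂ he₂ hc
    have hc' : (e₂ * e₁)⁻¹ * (e₁ * e₂) ∈ Z := by
      rw [← QuotientGroup.eq]
      have := hc.eq
      rw [QuotientGroup.mk_mul, QuotientGroup.mk_mul]
      exact this.symm
    obtain ⟨z, hz, hzz⟩ := hroot _ hc'
    refine ⟨z, hz, ?_⟩
    show e₁ * (e₂ * z) = e₂ * z * e₁
    have h1 : e₂ * z * e₁ = e₂ * e₁ * z⁻¹ := by
      calc e₂ * z * e₁ = e₂ * e₁ * (e₁⁻¹ * z * e₁) := by group
        _ = e₂ * e₁ * z⁻¹ := by rw [hDinv' e₁ he₁ z hz]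
    rw [h1]
    have h2 : e₁ * e₂ = e₂ * e₁ * (z⁻¹ * z⁻¹) := by rw [hzz]; group
    calc e₁ * (e₂ * z) = (e₁ * e₂) * z := by group
      _ = e₂ * e₁ * (z⁻¹ * z⁻¹) * z := by rw [h2]
      _ = e₂ * e₁ * z⁻¹ := by group
  -- reachability relation on G
  let r : G → G → Prop := fun a b => a ∈ conjugatesOf d ∧ b ∈ conjugatesOf d ∧ Commute a b
  have hRsymm : ∀ a b, Relation.ReflTransGen r a b → Relation.ReflTransGen r b a := by
    intro a b h
    induction h with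
    | refl => exact Relation.ReflTransGen.refl
    | tail _ hbc ih => exact Relation.ReflTransGen.head ⟨hbc.2.1, hbc.1, hbc.2.2.symm⟩ ih
  have hRconj : ∀ (g a b : G), Relation.ReflTransGen r a b →
      Relation.ReflTransGen r (g * a * g⁻¹) (g * b * g⁻¹) := by
    intro g a b h
    refine Relation.ReflTransGen.lift (fun x => g * x * g⁻¹) ?_ a b h
    intro x y hxy
    refine ⟨hDconj x hxy.1 g, hDconj y hxy.2.1 g, ?_⟩
    show g * x * g⁻¹ * (g * y * g⁻¹) = g * y * g⁻¹ * (g * x * g⁻¹)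
    have := hxy.2.2.eq
    calc g * x * g⁻¹ * (g * y * g⁻¹) = g * (x * y) * g⁻¹ := by group
      _ = g * (y * x) * g⁻¹ := by rw [this]
      _ = g * y * g⁻¹ * (g * x * g⁻¹) := by group
  have hdD : d ∈ conjugatesOf d := mem_conjugatesOf_self
  -- path lifting
  have hlift : ∀ y : conjugatesOf (QuotientGroup.mk d : G ⧸ Z),
      ∃ e ∈ conjugatesOf d, (QuotientGroup.mk e : G ⧸ Z) = y.1 ∧ Relation.ReflTransGen r d e := by
    intro y
    have hreach := hconn.preconnected ⟨QuotientGroup.mk d, mem_conjugatesOf_self⟩ y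
    rw [SimpleGraph.reachable_iff_reflTransGen] at hreach
    induction hreach with
    | refl => exact ⟨d, hdD, rfl, Relation.ReflTransGen.refl⟩
    | @tail b c _ hbc ih =>
      obtain ⟨e₁, he₁, he₁b, hr₁⟩ := ih
      obtain ⟨g', hg'⟩ := isConj_iff.mp c.2
      obtain ⟨g, rfl⟩ := QuotientGroup.mk_surjective g'
      have he₂ : g * d * g⁻¹ ∈ conjugatesOf d := hDconj d hdD g
      have he₂c : (QuotientGroup.mk (g * d * g⁻¹) : G ⧸ Z) = c.1 := by
        rw [← hg']; simp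
      have hcomm : Commute (QuotientGroup.mk e₁ : G ⧸ Z) (QuotientGroup.mk (g * d * g⁻¹) : G ⧸ Z) := by
        rw [he₁b, he₂c]
        unfold Cfsg.commutingGraph at hbc
        rw [SimpleGraph.fromRel_adj] at hbc
        rcases hbc.2 with h | h
        · exact h
        · exact h.symm
      obtain ⟨z, hz, hzc⟩ := hF3 e₁ he₁ _ he₂ hcomm
      obtain ⟨w, hw, hwe⟩ := hF2 _ he₂ z hz
      have he₃ : g * d * g⁻¹ * z ∈ conjugatesOf d := by
        rw [← hwe]; exact hDconj _ he₂ w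
      refine ⟨g * d * g⁻¹ * z, he₃, ?_, hr₁.tail ⟨he₁, he₃, hzc⟩⟩
      rw [← he₂c, QuotientGroup.mk_mul _ (g * d * g⁻¹) z, (QuotientGroup.eq_one_iff z).mpr hz, mul_one]
  -- the stabiliser of the component
  let K : Subgroup G :=
    { carrier := {g | Relation.ReflTransGen r d (g * d * g⁻¹)}
      one_mem' := by
        show Relation.ReflTransGen r d (1 * d * 1⁻¹)
        simp only [one_mul, inv_one, mul_one]
        exact Relation.ReflTransGen.refl
      mul_mem' := by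
        intro a b ha hb
        show Relation.ReflTransGen r d (a * b * d * (a * b)⁻¹)
        have h1 := hRconj a _ _ hb
        have h2 : a * (b * d * b⁻¹) * a⁻¹ = a * b * d * (a * b)⁻¹ := by group
        rw [h2] at h1
        exact Relation.ReflTransGen.trans ha h1
      inv_mem' := by
        intro a ha
        show Relation.ReflTransGen r d (a⁻¹ * d * a⁻¹⁻¹)
        have h1 := hRconj a⁻¹ _ _ ha
        have h2 : a⁻¹ * (a * d * a⁻¹) * a⁻¹⁻¹ = d := by group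
        rw [h2] at h1
        exact hRsymm _ _ h1 }
  have hKmem : ∀ g, g ∈ K ↔ Relation.ReflTransGen r d (g * d * g⁻¹) := fun g => Iff.rfl
  have hZK : ∀ g : G, ∃ w ∈ Z, w * g ∈ K := by
    intro g
    have hy : (QuotientGroup.mk (g * d * g⁻¹) : G ⧸ Z) ∈ conjugatesOf (QuotientGroup.mk d : G ⧸ Z) := by
      exact isConj_iff.mpr ⟨QuotientGroup.mk g, by simp⟩
    obtain ⟨e, he, hey, hre⟩ := hlift ⟨_, hy⟩
    have hz : (g * d * g⁻¹)⁻¹ * e ∈ Z := by
      rw [← QuotientGroup.eq]; exact hey.symm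
    obtain ⟨w, hw, hwe⟩ := hF2 _ (hDconj d hdD g) _ hz
    refine ⟨w, hw, ?_⟩
    rw [hKmem]
    have : w * g * d * (w * g)⁻¹ = e := by
      calc w * g * d * (w * g)⁻¹ = w * (g * d * g⁻¹) * w⁻¹ := by group
        _ = g * d * g⁻¹ * ((g * d * g⁻¹)⁻¹ * e) := hwe
        _ = e := by group
    rw [this]; exact hre
  have hZcent : ∀ w ∈ Z, ∀ l ∈ L, w * l = l * w := by
    intro w hw l hl
    obtain ⟨c, hc, rfl⟩ := Subgroup.mem_map.mp hw
    have := Subgroup.mem_center_iff.mp hc ⟨l, hl⟩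
    have h2 := congrArg Subtype.val this
    simpa using h2.symm
  have hLperf : ⁅L, L⁆ = L := Subgroup.isPerfect_iff.mp hL.1
  have hLK : L ≤ K := by
    rw [← hLperf, Subgroup.commutator_le]
    intro l₁ hl₁ l₂ hl₂
    obtain ⟨w₁, hw₁, hk₁⟩ := hZK l₁
    obtain ⟨w₂, hw₂, hk₂⟩ := hZK l₂
    have h1 : ⁅l₁, l₂⁆ = ⁅w₁ * l₁, w₂ * l₂⁆ := by
      have a1 := hZcent w₁ hw₁ l₁ hl₁
      have a2 := hZcent w₁ hw₁ l₂ hl₂
      have a3 := hZcent w₂ hw₂ l₁ hl₁
      have a4 := hZcent w₂ hw₂ l₂ hl₂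
      have a5 := hZcent w₁ hw₁ w₂ (hZL hw₂)
      have c1 : Commute w₁ l₁ := a1
      have c2 : Commute w₁ l₂ := a2
      have c3 : Commute w₂ l₁ := a3
      have c4 : Commute w₂ l₂ := a4
      have c5 : Commute w₁ w₂ := a5
      rw [commutatorElement_def, commutatorElement_def]
      have e1 : w₁ * l₁ * (w₂ * l₂) = (w₁ * w₂) * (l₁ * l₂) := by
        calc w₁ * l₁ * (w₂ * l₂) = w₁ * (l₁ * w₂) * l₂ := by group
          _ = w₁ * (w₂ * l₁) * l₂ := by rw [c3.eq]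
          _ = _ := by group
      have e2 : (w₁ * l₁)⁻¹ * (w₂ * l₂)⁻¹ = (l₁⁻¹ * l₂⁻¹) * (w₁ * w₂)⁻¹ := by
        have c3' : Commute w₁⁻¹ l₂⁻¹ := c2.inv_inv
        calc (w₁ * l₁)⁻¹ * (w₂ * l₂)⁻¹ = l₁⁻¹ * (w₁⁻¹ * l₂⁻¹) * w₂⁻¹ := by group
          _ = l₁⁻¹ * (l₂⁻¹ * w₁⁻¹) * w₂⁻¹ := by rw [c3'.eq]
          _ = l₁⁻¹ * l₂⁻¹ * (w₁⁻¹ * w₂⁻¹) := by group
          _ = l₁⁻¹ * l₂⁻¹ * (w₂⁻¹ * w₁⁻¹) := by rw [c5.inv_inv.eq]
          _ = _ := by group
      have c6 : Commute (w₁ * w₂) (l₁ * l₂ * (l₁⁻¹ * l₂⁻¹)) :=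
        ((c1.mul_left c3).mul_right (c2.mul_left c4)).mul_right
          ((c1.mul_left c3).inv_right.mul_right (c2.mul_left c4).inv_right)
      calc l₁ * l₂ * l₁⁻¹ * l₂⁻¹ = (l₁ * l₂ * (l₁⁻¹ * l₂⁻¹)) * (w₁ * w₂) * (w₁ * w₂)⁻¹ := by group
        _ = (w₁ * w₂) * (l₁ * l₂ * (l₁⁻¹ * l₂⁻¹)) * (w₁ * w₂)⁻¹ := by rw [c6.eq]
        _ = ((w₁ * w₂) * (l₁ * l₂)) * ((l₁⁻¹ * l₂⁻¹) * (w₁ * w₂)⁻¹) := by group
        _ = w₁ * l₁ * (w₂ * l₂) * ((w₁ * l₁)⁻¹ * (w₂ * l₂)⁻¹) := by rw [e1, e2]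
        _ = w₁ * l₁ * (w₂ * l₂) * (w₁ * l₁)⁻¹ * (w₂ * l₂)⁻¹ := by group
    rw [h1]
    rw [commutatorElement_def]
    exact K.mul_mem (K.mul_mem (K.mul_mem hk₁ hk₂) (K.inv_mem hk₁)) (K.inv_mem hk₂)
  have hKtop : ∀ g : G, g ∈ K := by
    intro g
    obtain ⟨w, hw, hwg⟩ := hZK g
    have : g = w⁻¹ * (w * g) := by group
    rw [this]
    exact K.mul_mem (K.inv_mem (hLK (hZL hw))) hwg
  -- back to the graph
  have hback : ∀ a b, Relation.ReflTransGen r a b → ∀ (ha : a ∈ conjugatesOf d) (hb : b ∈ conjugatesOf d),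
      (Cfsg.commutingGraph (conjugatesOf d)).Reachable ⟨a, ha⟩ ⟨b, hb⟩ := by
    intro a b h
    induction h with
    | refl => intro ha hb; exact SimpleGraph.Reachable.refl _
    | @tail b c _ hbc ih =>
      intro ha hc
      have h1 := ih ha hbc.1
      by_cases hbceq : b = c
      · subst hbceq; exact h1
      · refine h1.trans (SimpleGraph.Adj.reachable ?_)
        unfold Cfsg.commutingGraph
        rw [SimpleGraph.fromRel_adj]
        exact ⟨fun h => hbceq (congrArg Subtype.val h), Or.inl hbc.2.2⟩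
  have hfromd : ∀ e (he : e ∈ conjugatesOf d),
      (Cfsg.commutingGraph (conjugatesOf d)).Reachable ⟨d, hdD⟩ ⟨e, he⟩ := by
    intro e he
    obtain ⟨g, rfl⟩ := isConj_iff.mp he
    exact hback _ _ ((hKmem g).mp (hKtop g)) hdD he
  haveI : Nonempty (conjugatesOf d) := ⟨⟨d, hdD⟩⟩
  refine SimpleGraph.Connected.mk ?_
  intro u v
  exact (hfromd u.1 u.2).symm.trans (hfromd v.1 v.2)

end Cfsg.Agent.S5459
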