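import Cfsg.Statements.S5541

set_option autoImplicit false
open Cfsg

namespace Cfsg.Agent.S5541

section
variable {H : Type*} [Group H] {U : Type*} [AddCommGroup U] [Module ℝ U] [FiniteDimensional ℝ U]

theorem rho_inv (ρ : Representation ℝ H U) (g : H) (v : U) : ρ g (ρ g⁻¹ v) = v := by
  rw [← Module.End.mul_apply, ← map_mul, mul_inv_cancel, map_one]
  rfl

theorem sepLeft (ρ : Representation ℝ H U)
    (hirr : ∀ W : Submodule ℝ U, (∀ g : H, W.map (ρ g) ≤ W) → W = ⊥ ∨ W = ⊤)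
    (B : LinearMap.BilinForm ℝ U) (hB0 : B ≠ 0)
    (hBi : ∀ (g : H) (u v : U), B (ρ g u) (ρ g v) = B u v) :
    ∀ x : U, (∀ y, B x y = 0) → x = 0 := by
  have hinv : ∀ g : H, (LinearMap.ker B).map (ρ g) ≤ LinearMap.ker B := by
    rintro g _ ⟨u, hu, rfl⟩
    rw [LinearMap.mem_ker]
    ext v
    calc B (ρ g u) v = B (ρ g u) (ρ g (ρ g⁻¹ v)) := by rw [rho_inv]
      _ = B u (ρ g⁻¹ v) := hBi _ _ _
      _ = 0 := by rw [LinearMap.mem_ker.1 hu]; rfl
  rcases hirr _ hinv with h | h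
  · intro x hx
    have : x ∈ LinearMap.ker B := by
      rw [LinearMap.mem_ker]; ext y; exact hx y
    rw [h] at this
    exact (Submodule.mem_bot ℝ).1 this
  · exfalso
    apply hB0
    ext u v
    have : u ∈ LinearMap.ker B := by rw [h]; trivial
    rw [LinearMap.mem_ker.1 this]
    rfl

theorem inj_of_sep {B : LinearMap.BilinForm ℝ U} (hs : ∀ x : U, (∀ y, B x y = 0) → x = 0)
    {a b : U} (h : ∀ w, B a w = B b w) : a = b := by
  have := hs (a - b) (fun y => by rw [map_sub, LinearMap.sub_apply, h y, sub_self])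
  exact sub_eq_zero.1 this

/-- An invariant trilinear form gives an equivariant product. -/
theorem equivariant_of_invariant (ρ : Representation ℝ H U) {B : LinearMap.BilinForm ℝ U}
    (hs : ∀ x : U, (∀ y, B x y = 0) → x = 0)
    (hBi : ∀ (g : H) (u v : U), B (ρ g u) (ρ g v) = B u v)
    (m : U →ₗ[ℝ] U →ₗ[ℝ] U) (t : U →ₗ[ℝ] U →ₗ[ℝ] U →ₗ[ℝ] ℝ)
    (hmt : ∀ u v w, B (m u v) w = t u v w)
    (hti : ∀ (g : H) (u v w : U), t (ρ g u) (ρ g v) (ρ g w) = t u v w) :
    ∀ (g : H) (u v : U), m (ρ g u) (ρ g v) = ρ g (m u v) := by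
  intro g u v
  apply inj_of_sep hs
  intro w
  calc B (m (ρ g u) (ρ g v)) w = t (ρ g u) (ρ g v) (ρ g (ρ g⁻¹ w)) := by rw [hmt, rho_inv]
    _ = t u v (ρ g⁻¹ w) := hti _ _ _ _
    _ = B (m u v) (ρ g⁻¹ w) := (hmt _ _ _).symm
    _ = B (ρ g (m u v)) (ρ g (ρ g⁻¹ w)) := (hBi _ _ _).symm
    _ = B (ρ g (m u v)) w := by rw [rho_inv]

end


/-- Let ρ be a representation of a group H on a finite-dimensional real vector space U whose only ρ-invariant subspaces are the zero subspace and U, and suppose U carries a non-zero ρ-invariant symmetric bilinear form. Then the following are equivalent: (1) there is a non-zero ρ-equivariant commutative bilinear product on U of which every ρ-equivariant bilinear product is a scalar multiple; (2) there is a non-zero ρ-invariant trilinear form on U that is symmetric under all permutations of its arguments and of which every ρ-invariant trilinear form is a scalar multiple. -/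
theorem result {H : Type*} [Group H] {U : Type*} [AddCommGroup U] [Module ℝ U] [FiniteDimensional ℝ U] (ρ : Representation ℝ H U) (hirr : ∀ W : Submodule ℝ U, (∀ g : H, W.map (ρ g) ≤ W) → W = ⊥ ∨ W = ⊤) (B : LinearMap.BilinForm ℝ U) (hB0 : B ≠ 0) (hBs : ∀ u v, B u v = B v u) (hBi : ∀ (g : H) (u v : U), B (ρ g u) (ρ g v) = B u v) : (∃ m : U →ₗ[ℝ] U →ₗ[ℝ] U, m ≠ 0 ∧ (∀ u v, m u v = m v u) ∧ (∀ (g : H) (u v : U), m (ρ g u) (ρ g v) = ρ g (m u v)) ∧ ∀ m' : U →ₗ[ℝ] U →ₗ[ℝ] U, (∀ (g : H) (u v : U), m' (ρ g u) (ρ g v) = ρ g (m' u v)) → ∃ c : ℝ, m' = c • m) ↔ (∃ t : U →ₗ[ℝ] U →ₗ[ℝ] U →ₗ[ℝ] ℝ, t ≠ 0 ∧ (∀ u v w, t u v w = t v u w ∧ t u v w = t u w v) ∧ (∀ (g : H) (u v w : U), t (ρ g u) (ρ g v) (ρ g w) = t u v w) ∧ ∀ t' : U →ₗ[ℝ] U →ₗ[ℝ] U →ₗ[ℝ] ℝ, (∀ (g : H) (u v w : U), t' (ρ g u) (ρ g v) (ρ g w) = t' u v w) → ∃ c : ℝ, t' = c • t) := by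
  have hs := sepLeft ρ hirr B hB0 hBi
  have hnd : B.Nondegenerate := ⟨hs, fun y hy => hs y (fun x => by rw [hBs]; exact hy x)⟩
  constructor
  · rintro ⟨m, hm0, hmc, hme, hmu⟩
    have hti : ∀ (g : H) (u v w : U), (m.compr₂ B) (ρ g u) (ρ g v) (ρ g w) = (m.compr₂ B) u v w := by
      intro g u v w
      rw [LinearMap.compr₂_apply, LinearMap.compr₂_apply, hme, hBi]
    have huniv : ∀ t' : U →ₗ[ℝ] U →ₗ[ℝ] U →ₗ[ℝ] ℝ,
        (∀ (g : H) (u v w : U), t' (ρ g u) (ρ g v) (ρ g w) = t' u v w) →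
        ∃ c : ℝ, t' = c • (m.compr₂ B) := by
      intro t' ht'
      have hmt : ∀ u v w, B ((t'.compr₂ (B.toDual hnd).symm.toLinearMap) u v) w = t' u v w := by
        intro u v w
        rw [LinearMap.compr₂_apply]
        exact LinearMap.BilinForm.apply_toDual_symm_apply _ _
      obtain ⟨c, hc⟩ := hmu _ (equivariant_of_invariant ρ hs hBi _ t' hmt ht')
      refine ⟨c, ?_⟩
      ext u v w
      rw [← hmt, hc]
      simp
    have ht0 : m.compr₂ B ≠ 0 := by
      intro h0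
      apply hm0
      ext u v
      apply hs
      intro w
      have := congrArg (fun t : U →ₗ[ℝ] U →ₗ[ℝ] U →ₗ[ℝ] ℝ => t u v w) h0
      simpa using this
    have s12 : ∀ u v w, (m.compr₂ B) u v w = (m.compr₂ B) v u w := by
      intro u v w
      rw [LinearMap.compr₂_apply, LinearMap.compr₂_apply, hmc]
    refine ⟨m.compr₂ B, ht0, ?_, hti, huniv⟩
    obtain ⟨c, hc⟩ := huniv ((LinearMap.lflip (R := ℝ) (M := U) (N := U) (P := ℝ)).toLinearMap ∘ₗ (m.compr₂ B)) (by
      intro g u v w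
      exact hti g u w v)
    have hc' : ∀ u v w, (m.compr₂ B) u w v = c * (m.compr₂ B) u v w := by
      intro u v w
      have := congrArg (fun t : U →ₗ[ℝ] U →ₗ[ℝ] U →ₗ[ℝ] ℝ => t u v w) hc
      simpa using this
    -- a non-zero value
    have hex : ∃ u v w, (m.compr₂ B) u v w ≠ 0 := by
      by_contra hcon
      push_neg at hcon
      apply ht0
      ext u v w
      exact hcon u v w
    obtain ⟨u₀, v₀, w₀, h0⟩ := hex
    have c2 : c * c = 1 := by
      have h1 := hc' u₀ v₀ w₀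
      have h2 := hc' u₀ w₀ v₀
      rw [h1] at h2
      have h3 : (c * c - 1) * (m.compr₂ B) u₀ v₀ w₀ = 0 := by linarith
      rcases mul_eq_zero.1 h3 with h4 | h4
      · linarith
      · exact absurd h4 h0
    have c3 : c * c * c = 1 := by
      have e1 : (m.compr₂ B) u₀ v₀ w₀ = c * (m.compr₂ B) v₀ w₀ u₀ := by
        rw [s12]; exact hc' _ _ _
      have e2 : (m.compr₂ B) v₀ w₀ u₀ = c * (m.compr₂ B) w₀ u₀ v₀ := by
        rw [s12]; exact hc' _ _ _
      have e3 : (m.compr₂ B) w₀ u₀ v₀ = c * (m.compr₂ B) u₀ v₀ w₀ := by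
        rw [s12]; exact hc' _ _ _
      rw [e2, e3] at e1
      have h3 : (c * c * c - 1) * (m.compr₂ B) u₀ v₀ w₀ = 0 := by linarith
      rcases mul_eq_zero.1 h3 with h4 | h4
      · linarith
      · exact absurd h4 h0
    have c1 : c = 1 := by
      rw [c2, one_mul] at c3; exact c3
    intro u v w
    refine ⟨s12 u v w, ?_⟩
    have := hc' u v w
    rw [c1, one_mul] at this
    exact this.symm
  · rintro ⟨t, ht0, hts, hti, htu⟩
    have hmt : ∀ u v w, B ((t.compr₂ (B.toDual hnd).symm.toLinearMap) u v) w = t u v w := by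
      intro u v w
      rw [LinearMap.compr₂_apply]
      exact LinearMap.BilinForm.apply_toDual_symm_apply _ _
    refine ⟨t.compr₂ (B.toDual hnd).symm.toLinearMap, ?_, ?_,
      equivariant_of_invariant ρ hs hBi _ t hmt hti, ?_⟩
    · intro h0
      apply ht0
      ext u v w
      rw [← hmt, h0]
      simp
    · intro u v
      apply inj_of_sep hs
      intro w
      rw [hmt, hmt, (hts u v w).1]
    · intro m' hm'
      obtain ⟨c, hc⟩ := htu (m'.compr₂ B) (by
        intro g u v w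
        rw [LinearMap.compr₂_apply, LinearMap.compr₂_apply, hm', hBi])
      refine ⟨c, ?_⟩
      ext u v
      apply inj_of_sep hs
      intro w
      have := congrArg (fun t : U →ₗ[ℝ] U →ₗ[ℝ] U →ₗ[ℝ] ℝ => t u v w) hc
      simp only [LinearMap.compr₂_apply, LinearMap.smul_apply, smul_eq_mul] at this
      rw [this, LinearMap.smul_apply, LinearMap.smul_apply, map_smul, LinearMap.smul_apply, hmt,
        smul_eq_mul]

end Cfsg.Agent.S5541
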