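import Cfsg.Statements.S5543

set_option autoImplicit false
open Cfsg

namespace Cfsg.Agent.S5543


/-- Let V be a finite-dimensional real vector space with a commutative bilinear product and a positive-definite symmetric bilinear form that associates with the product and satisfies the Norton inequality (the Majorana setting of the definitions). Let X be a group of linear automorphisms of V in which every element squares to the identity, and suppose every non-identity element x of X is a Majorana involution with an axial vector a(x) of squared length 1, such that for any two distinct non-identity x, y the product a(x) ∘ a(y) equals (1/8)(a(x) + a(y) − a(xy)) (the dihedral subalgebra of type 2A whose third axis belongs to the involution xy). Then X has order at most 4. -/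
theorem result {V : Type*} [AddCommGroup V] [Module ℝ V] [FiniteDimensional ℝ V] (mul : V →ₗ[ℝ] V →ₗ[ℝ] V) (B : LinearMap.BilinForm ℝ V) (hV : Cfsg.Axial.IsMajoranaAmbient mul B) (X : Subgroup (V ≃ₗ[ℝ] V)) (hX : ∀ x ∈ X, x * x = 1) (ax : (V ≃ₗ[ℝ] V) → V) (hax : ∀ x ∈ X, x ≠ 1 → Cfsg.Axial.IsMajoranaPair mul B x (ax x)) (h1 : ∀ x ∈ X, x ≠ 1 → B (ax x) (ax x) = 1) (h2A : ∀ x ∈ X, ∀ y ∈ X, x ≠ 1 → y ≠ 1 → x ≠ y → mul (ax x) (ax y) = (1 / 8 : ℝ) • (ax x + ax y - ax (x * y))) : Nat.card ↥X ≤ 4 := by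
  classical
  by_contra hcard
  push_neg at hcard
  haveI : Finite ↥X := Nat.finite_of_card_ne_zero (by omega)
  have hex : ∀ s : Finset ↥X, s.card ≤ 4 → ∃ z : ↥X, z ∉ s := by
    intro s hs
    by_contra hcon
    push_neg at hcon
    haveI := Fintype.ofFinite ↥X
    have h5 : s = Finset.univ := Finset.eq_univ_iff_forall.2 hcon
    rw [Nat.card_eq_fintype_card, ← Finset.card_univ, ← h5] at hcard
    omega
  obtain ⟨x', hx'⟩ := hex {1} (by simp)
  obtain ⟨y', hy'⟩ := hex {1, x'} (Finset.card_le_two.trans (by norm_num))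
  obtain ⟨z', hz'⟩ := hex {1, x', y', x' * y'} Finset.card_le_four
  simp only [Finset.mem_insert, Finset.mem_singleton, not_or] at hx' hy' hz'
  obtain ⟨x, hx⟩ := x'
  obtain ⟨y, hy⟩ := y'
  obtain ⟨z, hz⟩ := z'
  have hx1 : x ≠ 1 := fun h => hx' (Subtype.ext h)
  have hy1 : y ≠ 1 := fun h => hy'.1 (Subtype.ext h)
  have hyx : y ≠ x := fun h => hy'.2 (Subtype.ext h)
  have hz1 : z ≠ 1 := fun h => hz'.1 (Subtype.ext h)
  have hzx : z ≠ x := fun h => hz'.2.1 (Subtype.ext h)
  have hzy : z ≠ y := fun h => hz'.2.2.1 (Subtype.ext h)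
  have hzxy : z ≠ x * y := fun h => hz'.2.2.2 (Subtype.ext h)
  have hxx := hX x hx
  have hyy := hX y hy
  have hzz := hX z hz
  have hcomm : ∀ a ∈ X, ∀ b ∈ X, a * b = b * a := by
    intro a ha b hb
    have h1 := hX (a * b) (X.mul_mem ha hb)
    have h2 := hX a ha
    have h3 := hX b hb
    calc a * b = a * ((a * b) * (a * b)) * b := by rw [h1, mul_one]
      _ = (a * a) * (b * a) * (b * b) := by simp only [mul_assoc]
      _ = b * a := by rw [h2, h3, one_mul, mul_one]
  have hxy : x * y ∈ X := X.mul_mem hx hy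
  have hxz : x * z ∈ X := X.mul_mem hx hz
  have hw : y * z ∈ X := X.mul_mem hy hz
  have hxw : x * (y * z) ∈ X := X.mul_mem hx hw
  have hww := hX _ hw
  -- distinctness
  have n1 : x * y ≠ 1 := fun h => hyx (mul_left_cancel (h.trans hxx.symm))
  have n2 : x ≠ x * y := fun h => hy1 (mul_left_cancel ((mul_one x).trans h)).symm
  have n3 : x * z ≠ 1 := fun h => hzx (mul_left_cancel (h.trans hxx.symm))
  have n4 : x ≠ x * z := fun h => hz1 (mul_left_cancel ((mul_one x).trans h)).symm
  have n5 : y * z ≠ 1 := fun h => hzy (mul_left_cancel (h.trans hyy.symm))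
  have n6 : x ≠ y * z := by
    intro h
    apply hzxy
    calc z = (y * y) * z := by rw [hyy, one_mul]
      _ = y * (y * z) := mul_assoc _ _ _
      _ = y * x := by rw [← h]
      _ = x * y := hcomm y hy x hx
  have n7 : x * (y * z) ≠ 1 := fun h => n6 (mul_left_cancel (h.trans hxx.symm)).symm
  have n8 : x ≠ x * (y * z) := fun h => n5 (mul_left_cancel ((mul_one x).trans h)).symm
  have n9 : y ≠ x * z := by
    intro h
    apply hzxy
    rw [h, ← mul_assoc, hxx, one_mul]
  have n10 : x * y ≠ x * z := fun h => hzy (mul_left_cancel h).symm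
  have n11 : y * z ≠ x * (y * z) := fun h => hx1 (mul_right_cancel ((one_mul _).trans h)).symm
  -- third elements
  have t1 : x * (x * y) = y := by rw [← mul_assoc, hxx, one_mul]
  have t2 : x * (x * z) = z := by rw [← mul_assoc, hxx, one_mul]
  have t3 : x * (x * (y * z)) = y * z := by rw [← mul_assoc, hxx, one_mul]
  have t4 : y * (x * z) = x * (y * z) := by rw [← mul_assoc, hcomm y hy x hx, mul_assoc]
  have t5 : (x * y) * z = x * (y * z) := mul_assoc _ _ _
  have t6 : (x * y) * (x * z) = y * z := by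
    rw [hcomm x hx y hy, mul_assoc, t2]
  have t7 : (y * z) * (x * (y * z)) = x := by
    rw [hcomm x hx _ hw, ← mul_assoc, hww, one_mul]
  have p1 := h2A x hx y hy hx1 hy1 hyx.symm
  have p2 := h2A x hx _ hxy hx1 n1 n2
  have p3 := h2A x hx z hz hx1 hz1 hzx.symm
  have p4 := h2A x hx _ hxz hx1 n3 n4
  have p5 := h2A x hx _ hw hx1 n5 n6
  have p6 := h2A x hx _ hxw hx1 n7 n8
  have q1 := h2A y hy z hz hy1 hz1 hzy.symm
  have q2 := h2A y hy _ hxz hy1 n3 n9
  have q3 := h2A _ hxy z hz n1 hz1 hzxy.symm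
  have q4 := h2A _ hxy _ hxz n1 n3 n10
  have r1 := h2A _ hw _ hxw n5 n7 n11
  rw [t1] at p2
  rw [t2] at p4
  rw [t3] at p6
  rw [t4] at q2
  rw [t5] at q3
  rw [t6] at q4
  rw [t7] at r1
  have hidem : mul (ax (y * z)) (ax (y * z)) = ax (y * z) := (hax _ hw n5).2.2.1.1.2.1
  have b1 := h1 x hx hx1
  have b2 := h1 _ hw n5
  have hfus := (hax x hx hx1).2.2.1.1.2.2.2
  generalize ax x = A at *
  generalize ax y = Y at *
  generalize ax (x * y) = XY at *
  generalize ax z = Z at *
  generalize ax (x * z) = XZ at *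
  generalize ax (y * z) = W at *
  generalize ax (x * (y * z)) = XW at *
  have e1 : mul A (Y - XY) = (1 / 4 : ℝ) • (Y - XY) := by
    rw [map_sub, p1, p2]; module
  have e2 : mul A (Z - XZ) = (1 / 4 : ℝ) • (Z - XZ) := by
    rw [map_sub, p3, p4]; module
  have e3 : mul A (W - XW) = (1 / 4 : ℝ) • (W - XW) := by
    rw [map_sub, p5, p6]; module
  have eprod : mul (Y - XY) (Z - XZ) = (-(1 / 4) : ℝ) • (W - XW) := by
    simp only [map_sub, LinearMap.sub_apply]
    rw [q1, q2, q3, q4]; module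
  have hlaw : Cfsg.Axial.monsterLaw (1 / 4 : ℝ) (1 / 32) (1 / 4) (1 / 4) = {1, 0} := by
    unfold Cfsg.Axial.monsterLaw
    rw [if_neg (by norm_num), if_neg (by norm_num), if_pos ⟨rfl, rfl⟩]
  have hmemS : (1 / 4 : ℝ) ∈ Cfsg.Axial.majoranaSpectrum := by
    unfold Cfsg.Axial.majoranaSpectrum
    simp
  have h3 := hfus (1 / 4) hmemS (1 / 4) hmemS (Y - XY) (Module.End.mem_eigenspace_iff.2 e1)
    (Z - XZ) (Module.End.mem_eigenspace_iff.2 e2)
  rw [hlaw, eprod] at h3
  unfold Cfsg.Axial.eigenSum at h3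
  rw [iSup_insert, iSup_singleton] at h3
  obtain ⟨P, hP, Q, hQ, hPQ⟩ := Submodule.mem_sup.1 h3
  have hP' : mul A P = (1 : ℝ) • P := Module.End.mem_eigenspace_iff.1 hP
  have hQ' : mul A Q = (0 : ℝ) • Q := Module.End.mem_eigenspace_iff.1 hQ
  -- apply the adjoint map
  have f1 : mul A (P + Q) = (1 / 4 : ℝ) • (P + Q) := by
    rw [hPQ, map_smul, e3]; module
  rw [map_add, hP', hQ'] at f1
  have f2 : Q = (3 : ℝ) • P := by
    calc Q = (4 : ℝ) • ((1 / 4 : ℝ) • (P + Q)) - P := by module
      _ = (4 : ℝ) • ((1 : ℝ) • P + (0 : ℝ) • Q) - P := by rw [f1]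
      _ = (3 : ℝ) • P := by module
  have f3 : P = 0 := by
    rw [f2, map_smul, hP'] at hQ'
    have : (3 : ℝ) • P = 0 := by
      calc (3 : ℝ) • P = (3 : ℝ) • ((1 : ℝ) • P) := by module
        _ = (0 : ℝ) • ((3 : ℝ) • P) := hQ'
        _ = 0 := zero_smul _ _
    exact (smul_eq_zero.1 this).resolve_left (by norm_num)
  have f4 : W - XW = 0 := by
    rw [f2, f3] at hPQ
    have : (-(1 / 4) : ℝ) • (W - XW) = 0 := by rw [← hPQ]; simp
    exact (smul_eq_zero.1 this).resolve_left (by norm_num)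
  have f5 : XW = W := (sub_eq_zero.1 f4).symm
  rw [f5, hidem] at r1
  have f6 : A = (-6 : ℝ) • W := by
    calc A = (W + W) - (8 : ℝ) • ((1 / 8 : ℝ) • (W + W - A)) := by module
      _ = (W + W) - (8 : ℝ) • W := by rw [← r1]
      _ = (-6 : ℝ) • W := by module
  rw [f6] at b1
  simp only [map_smul, LinearMap.smul_apply, b2, smul_eq_mul] at b1
  norm_num at b1

end Cfsg.Agent.S5543
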