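import Cfsg.Statements.S5545

set_option autoImplicit false
open Cfsg

namespace Cfsg.Agent.S5545

open Cfsg.Axial

section
variable {V : Type*} [AddCommGroup V] [Module ℝ V]

theorem eigen_map (mul : V →ₗ[ℝ] V →ₗ[ℝ] V) (μ : V ≃ₗ[ℝ] V)
    (hμ : ∀ u v, μ (mul u v) = mul (μ u) (μ v)) (a : V) (c : ℝ) :
    eigen mul (μ a) c = (eigen mul a c).map (μ : V →ₗ[ℝ] V) := by
  ext v
  rw [Submodule.mem_map_equiv]
  unfold eigen
  rw [Module.End.mem_eigenspace_iff, Module.End.mem_eigenspace_iff]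
  constructor
  · intro h
    apply μ.injective
    rw [hμ, μ.apply_symm_apply, h, map_smul, μ.apply_symm_apply]
  · intro h
    have := congrArg μ h
    rwa [hμ, μ.apply_symm_apply, map_smul, μ.apply_symm_apply] at this

theorem eigenSum_map (mul : V →ₗ[ℝ] V →ₗ[ℝ] V) (μ : V ≃ₗ[ℝ] V)
    (hμ : ∀ u v, μ (mul u v) = mul (μ u) (μ v)) (a : V) (S : Set ℝ) :
    eigenSum mul (μ a) S = (eigenSum mul a S).map (μ : V →ₗ[ℝ] V) := by
  unfold eigenSum
  simp_rw [Submodule.map_iSup, eigen_map mul μ hμ]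

theorem pair_transport (mul : V →ₗ[ℝ] V →ₗ[ℝ] V) (B : LinearMap.BilinForm ℝ V)
    (μ₀ μ₁ : V ≃ₗ[ℝ] V) (a₀ : V) (h₀ : IsMajoranaPair mul B μ₀ a₀)
    (hμ₁ : ∀ u v, μ₁ (mul u v) = mul (μ₁ u) (μ₁ v)) (hc : μ₀ * μ₁ = μ₁ * μ₀) :
    IsMajoranaPair mul B μ₀ (μ₁ a₀) := by
  obtain ⟨c1, c2, ⟨⟨k1, k2, k3, k4⟩, k5⟩, m1, m2⟩ := h₀
  have hcomm : ∀ v, μ₀ (μ₁ v) = μ₁ (μ₀ v) := fun v => by
    have := congrArg (fun f : V ≃ₗ[ℝ] V => f v) hc
    exact this
  refine ⟨c1, c2, ⟨⟨?_, ?_, ?_, ?_⟩, ?_⟩, ?_, ?_⟩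
  · intro h
    exact k1 (μ₁.map_eq_zero_iff.1 h)
  · rw [← hμ₁, k2]
  · rw [eigenSum_map mul μ₁ hμ₁, k3, Submodule.map_top, LinearEquiv.range]
  · intro c hc' d hd u hu v hv
    rw [eigen_map mul μ₁ hμ₁] at hu hv
    obtain ⟨u', hu', rfl⟩ := hu
    obtain ⟨v', hv', rfl⟩ := hv
    rw [eigenSum_map mul μ₁ hμ₁]
    exact ⟨mul u' v', k4 c hc' d hd u' hu' v' hv', hμ₁ u' v'⟩
  · rw [eigen_map mul μ₁ hμ₁, k5, Submodule.map_span, Set.image_singleton]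
    rfl
  · intro v hv
    rw [eigenSum_map mul μ₁ hμ₁] at hv
    obtain ⟨v', hv', rfl⟩ := hv
    show μ₀ (μ₁ v') = μ₁ v'
    rw [hcomm]
    exact congrArg μ₁ (m1 v' hv')
  · intro v hv
    rw [eigen_map mul μ₁ hμ₁] at hv
    obtain ⟨v', hv', rfl⟩ := hv
    show μ₀ (μ₁ v') = -(μ₁ v')
    rw [hcomm, show μ₀ v' = -v' from m2 v' hv', map_neg]

theorem law00 : monsterLaw (1 / 4 : ℝ) (1 / 32) 0 0 = {0} := by
  unfold monsterLaw
  rw [if_neg (by norm_num), if_neg (by norm_num), if_neg (by norm_num), if_neg (by norm_num),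
    if_pos rfl]

theorem law04 : monsterLaw (1 / 4 : ℝ) (1 / 32) 0 (1 / 4) = {1 / 4} := by
  unfold monsterLaw
  rw [if_neg (by norm_num), if_neg (by norm_num), if_neg (by norm_num), if_pos (Or.inr rfl)]

theorem law44 : monsterLaw (1 / 4 : ℝ) (1 / 32) (1 / 4) (1 / 4) = {1, 0} := by
  unfold monsterLaw
  rw [if_neg (by norm_num), if_neg (by norm_num), if_pos ⟨rfl, rfl⟩]

theorem keyK (mul : V →ₗ[ℝ] V →ₗ[ℝ] V) (B : LinearMap.BilinForm ℝ V)
    (hV : IsMajoranaAmbient mul B) (μ : V ≃ₗ[ℝ] V) (a b : V) (h : IsMajoranaPair mul B μ a)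
    (hfix : μ b = b) (hb : mul b b = b) (hn : B a a = 1) :
    mul a (mul a b) = (1 / 4 : ℝ) • mul a b + (3 * B a b / 4) • a ∧
    (2 : ℝ) • mul (b - (B a b) • a - (4 : ℝ) • (mul a b - (B a b) • a))
        ((4 : ℝ) • (mul a b - (B a b) • a)) =
      (1 - B a b / 2) • ((4 : ℝ) • (mul a b - (B a b) • a)) := by
  obtain ⟨hcm, hBs, hpos, hass, hnor⟩ := hV
  obtain ⟨c1, c2, ⟨⟨k1, k2, k3, k4⟩, k5⟩, m1, m2⟩ := h
  have hb_top : b ∈ eigenSum mul a majoranaSpectrum := by rw [k3]; trivial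
  unfold eigenSum majoranaSpectrum at hb_top
  rw [iSup_insert, iSup_insert, iSup_insert, iSup_singleton] at hb_top
  obtain ⟨p1, hp1, r1, hr1, e1⟩ := Submodule.mem_sup.1 hb_top
  obtain ⟨p0, hp0, r2, hr2, e2⟩ := Submodule.mem_sup.1 hr1
  obtain ⟨p4, hp4, p32, hp32, e3⟩ := Submodule.mem_sup.1 hr2
  have hle : ∀ c ∈ ({1, 0, 1 / 4} : Set ℝ), eigen mul a c ≤ eigenSum mul a {1, 0, 1 / 4} :=
    fun c hc => le_iSup₂ (f := fun c (_ : c ∈ ({1, 0, 1 / 4} : Set ℝ)) => eigen mul a c) c hc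
  have f1 : μ p1 = p1 := m1 p1 (hle 1 (by simp) hp1)
  have f0 : μ p0 = p0 := m1 p0 (hle 0 (by simp) hp0)
  have f4 : μ p4 = p4 := m1 p4 (hle (1 / 4) (by simp) hp4)
  have f32 : μ p32 = -p32 := m2 p32 hp32
  subst e3 e2 e1
  rw [map_add, map_add, map_add, f1, f0, f4, f32] at hfix
  have hp32z : p32 = 0 := by
    have : (2 : ℝ) • p32 = 0 := by
      linear_combination (norm := module) -hfix
    exact (smul_eq_zero.1 this).resolve_left (by norm_num)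
  subst hp32z
  rw [k5] at hp1
  obtain ⟨t, rfl⟩ := Submodule.mem_span_singleton.1 hp1
  have L0 : mul a p0 = (0 : ℝ) • p0 := Module.End.mem_eigenspace_iff.1 hp0
  have L4 : mul a p4 = (1 / 4 : ℝ) • p4 := Module.End.mem_eigenspace_iff.1 hp4
  have B0 : B a p0 = 0 := by
    have := hass a a p0
    rw [k2, L0, zero_smul, map_zero] at this
    exact this.symm
  have B4 : B a p4 = 0 := by
    have := hass a a p4
    rw [k2, L4, map_smul, smul_eq_mul] at this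
    linarith
  have ht : B a (t • a + (p0 + (p4 + 0))) = t := by
    simp only [map_add, map_smul, hn, B0, B4, map_zero, smul_eq_mul]
    ring
  have hs : mul a (t • a + (p0 + (p4 + 0))) = t • a + (1 / 4 : ℝ) • p4 := by
    simp only [map_add, map_smul, k2, L0, L4, map_zero]
    module
  rw [ht, hs]
  have hp4' : (4 : ℝ) • (t • a + (1 / 4 : ℝ) • p4 - t • a) = p4 := by module
  have hp0' : t • a + (p0 + (p4 + 0)) - t • a - p4 = p0 := by module
  rw [hp4', hp0']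
  constructor
  · simp only [map_add, map_smul, k2, L4]
    module
  · -- fusion
    have hS0 : (0 : ℝ) ∈ majoranaSpectrum := by unfold majoranaSpectrum; simp
    have hS4 : (1 / 4 : ℝ) ∈ majoranaSpectrum := by unfold majoranaSpectrum; simp
    have q00 := k4 0 hS0 0 hS0 p0 hp0 p0 hp0
    have q04 := k4 0 hS0 (1 / 4) hS4 p0 hp0 p4 hp4
    have q44 := k4 (1 / 4) hS4 (1 / 4) hS4 p4 hp4 p4 hp4
    rw [law00] at q00
    rw [law04] at q04
    rw [law44] at q44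
    unfold eigenSum at q00 q04 q44
    rw [iSup_singleton] at q00 q04
    rw [iSup_insert, iSup_singleton] at q44
    obtain ⟨α, hα, β, hβ, hαβ⟩ := Submodule.mem_sup.1 q44
    have M00 : mul a (mul p0 p0) = (0 : ℝ) • mul p0 p0 := Module.End.mem_eigenspace_iff.1 q00
    have M04 : mul a (mul p0 p4) = (1 / 4 : ℝ) • mul p0 p4 := Module.End.mem_eigenspace_iff.1 q04
    have Mα : mul a α = (1 : ℝ) • α := Module.End.mem_eigenspace_iff.1 hα
    have Mβ : mul a β = (0 : ℝ) • β := Module.End.mem_eigenspace_iff.1 hβ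
    have R0 : mul p0 a = (0 : ℝ) • p0 := by rw [hcm]; exact L0
    have R4 : mul p4 a = (1 / 4 : ℝ) • p4 := by rw [hcm]; exact L4
    have R40 : mul p4 p0 = mul p0 p4 := hcm _ _
    simp only [map_add, map_smul, LinearMap.add_apply, LinearMap.smul_apply, map_zero,
      LinearMap.zero_apply, k2, L0, L4, R0, R4, R40, ← hαβ] at hb
    have eq1 := congrArg (mul a) hb
    simp only [map_add, map_smul, map_zero, k2, L0, L4, M00, M04, Mα, Mβ] at eq1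
    have eq2 := congrArg (mul a) eq1
    simp only [map_add, map_smul, map_zero, k2, L0, L4, M00, M04, Mα, Mβ] at eq2
    linear_combination (norm := module) (16 / 3 : ℝ) • eq1 - (16 / 3 : ℝ) • eq2

end


/-- Let V be a finite-dimensional real vector space with a commutative bilinear product and a positive-definite symmetric bilinear form that associates with the product and satisfies the Norton inequality (the Majorana setting of the definitions). Let μ₀, μ₁ be commuting Majorana involutions with distinct axial vectors a₀ ≠ a₁ of squared length 1, each involution having no other axial vector. Then either a₀ and a₁ are orthogonal with a₀ ∘ a₁ = 0 (type 2B), or their inner product is 1/8 and, with a₂ = a₀ + a₁ − 8 a₀ ∘ a₁, the vector a₂ is an idempotent and a₀ ∘ a₂ = (1/8)(a₀ + a₂ − a₁), a₁ ∘ a₂ = (1/8)(a₁ + a₂ − a₀) (type 2A: the three idempotents span a subalgebra with aᵢ ∘ aⱼ = (1/8)(aᵢ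 + aⱼ − aₖ)). -/
theorem result {V : Type*} [AddCommGroup V] [Module ℝ V] [FiniteDimensional ℝ V] (mul : V →ₗ[ℝ] V →ₗ[ℝ] V) (B : LinearMap.BilinForm ℝ V) (hV : Cfsg.Axial.IsMajoranaAmbient mul B) (μ₀ μ₁ : V ≃ₗ[ℝ] V) (a₀ a₁ : V) (h₀ : Cfsg.Axial.IsMajoranaPair mul B μ₀ a₀) (h₁ : Cfsg.Axial.IsMajoranaPair mul B μ₁ a₁) (hu₀ : ∀ a : V, Cfsg.Axial.IsMajoranaPair mul B μ₀ a → a = a₀) (hu₁ : ∀ a : V, Cfsg.Axial.IsMajoranaPair mul B μ₁ a → a = a₁) (hn₀ : B a₀ a₀ = 1) (hn₁ : B a₁ a₁ = 1) (hc : μ₀ * μ₁ = μ₁ * μ₀) (hne : a₀ ≠ a₁) : (B a₀ a₁ = 0 ∧ mul a₀ a₁ = 0) ∨ (B a₀ a₁ = 1 / 8 ∧ mul (a₀ + a₁ - (8 : ℝ) • mul a₀ a₁) (a₀ + a₁ - (8 : ℝ) • mul a₀ a₁) = a₀ + a₁ - (8 : ℝ) • mul a₀ a₁ ∧ mul a₀ (a₀ + a₁ - (8 : ℝ) • mul a₀ a₁) = (1 / 8 : ℝ) • (a₀ + (a₀ + a₁ - (8 : ℝ) • mul a₀ a₁) - a₁) ∧ mul a₁ (a₀ + a₁ - (8 : ℝ) • mul a₀ a₁) = (1 / 8 : ℝ) • (a₁ + (a₀ + a₁ - (8 : ℝ) • mul a₀ a₁) - a₀)) := by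
  have hfix0 : μ₁ a₀ = a₀ := hu₀ _ (pair_transport mul B μ₀ μ₁ a₀ h₀ h₁.1 hc)
  have hfix1 : μ₀ a₁ = a₁ := hu₁ _ (pair_transport mul B μ₁ μ₀ a₁ h₁ h₀.1 hc.symm)
  have x7 : mul a₀ a₀ = a₀ := h₀.2.2.1.1.2.1
  have x8 : mul a₁ a₁ = a₁ := h₁.2.2.1.1.2.1
  obtain ⟨A1, A2⟩ := keyK mul B hV μ₁ a₁ a₀ h₁ hfix0 x7 hn₁
  obtain ⟨B1, B2⟩ := keyK mul B hV μ₀ a₀ a₁ h₀ hfix1 x8 hn₀
  obtain ⟨hcm, hBs, hpos, hass, hnor⟩ := hV
  have x6 : mul a₁ a₀ = mul a₀ a₁ := hcm _ _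
  rw [x6, hBs a₁ a₀] at A1 A2
  generalize hl : B a₀ a₁ = l at *
  generalize hsdef : mul a₀ a₁ = s at *
  have x3 : mul s a₁ = (1 / 4 : ℝ) • s + (3 * l / 4) • a₁ := by rw [hcm]; exact A1
  have x4 : mul s a₀ = (1 / 4 : ℝ) • s + (3 * l / 4) • a₀ := by rw [hcm]; exact B1
  simp only [map_sub, map_smul, LinearMap.sub_apply, LinearMap.smul_apply, A1, B1, x3, x4, x6, x7,
    x8, hsdef] at A2 B2
  have Eq1 : (16 : ℝ) • mul s s = (-1 + 4 * l) • s + (3 * l) • a₀ + (8 * l ^ 2 + 2 * l) • a₁ := by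
    linear_combination (norm := module) (-(1 / 2) : ℝ) • A2
  have Eq2 : (16 : ℝ) • mul s s = (-1 + 4 * l) • s + (3 * l) • a₁ + (8 * l ^ 2 + 2 * l) • a₀ := by
    linear_combination (norm := module) (-(1 / 2) : ℝ) • B2
  have hz : (l - 8 * l ^ 2) • (a₀ - a₁) = 0 := by
    linear_combination (norm := module) Eq2 - Eq1
  have hl2 : l - 8 * l ^ 2 = 0 := (smul_eq_zero.1 hz).resolve_right (sub_ne_zero.2 hne)
  have hl3 : l = 0 ∨ l = 1 / 8 := by
    have : l * (1 - 8 * l) = 0 := by ring_nf; ring_nf at hl2; linarith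
    rcases mul_eq_zero.1 this with h | h
    · exact Or.inl h
    · exact Or.inr (by linarith)
  rcases hl3 with rfl | rfl
  · left
    refine ⟨rfl, ?_⟩
    by_contra hs0
    have h5 := hpos s hs0
    have h6 : B s s = 0 := by
      calc B s s = B (mul a₀ a₁) s := by rw [hsdef]
        _ = B a₀ (mul a₁ s) := (hass _ _ _).symm
        _ = (1 / 4 : ℝ) * B a₀ s := by rw [A1]; simp
        _ = (1 / 4 : ℝ) * B a₀ (mul a₀ a₁) := by rw [hsdef]
        _ = (1 / 4 : ℝ) * B (mul a₀ a₀) a₁ := by rw [hass]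
        _ = 0 := by rw [x7, hl]; ring
    linarith
  · right
    refine ⟨rfl, ?_, ?_, ?_⟩
    · simp only [map_sub, map_add, map_smul, LinearMap.sub_apply, LinearMap.add_apply,
        LinearMap.smul_apply, A1, B1, x3, x4, x6, x7, x8, hsdef]
      linear_combination (norm := module) (4 : ℝ) • Eq1
    · simp only [map_sub, map_add, map_smul, B1, x7, hsdef]
      module
    · simp only [map_sub, map_add, map_smul, A1, x6, x8, hsdef]
      module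

end Cfsg.Agent.S5545
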