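import Cfsg.Statements.S5546
import Mathlib

set_option autoImplicit false
open Cfsg

namespace Cfsg.Agent.S5546

abbrev K := ZMod 13
abbrev V := GolayPt → ZMod 13

instance : Fact (Nat.Prime 13) := ⟨by norm_num⟩

/-- the vector `8 e_i` -/
def e8v (i : GolayPt) : GolayPt → ℤ := fun j => if j = i then 8 else 0

theorem e8v_mem (i : GolayPt) : e8v i ∈ leechLattice := by
  apply AddSubgroup.subset_closure
  apply Spor.mem_leechSet_of_const_mod_four (e8v i) 0 0 (by decide)
  · intro j
    unfold e8v
    split_ifs <;> decide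
  · have : ∑ j, e8v i j = 8 := by simp [e8v]
    rw [this]; decide

def e8 (i : GolayPt) : leechLattice := ⟨e8v i, e8v_mem i⟩

/-- reduction mod 13 -/
def redA : (GolayPt → ℤ) →+ V := (Int.castAddHom K).compLeft GolayPt

theorem redA_apply (x : GolayPt → ℤ) (j : GolayPt) : redA x j = (x j : K) := rfl

def gA (f : Equiv.Perm leechLattice) (hf : f ∈ Co0) : leechLattice →+ leechLattice where
  toFun := f
  map_zero' := by
    have := hf.1 0 0
    rw [add_zero] at this
    exact (left_eq_add.mp this)
  map_add' := hf.1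

theorem gA_apply (f : Equiv.Perm leechLattice) (hf : f ∈ Co0) (x : leechLattice) : gA f hf x = f x := rfl

def Phi (f : Equiv.Perm leechLattice) (hf : f ∈ Co0) : leechLattice →+ V :=
  redA.comp (leechLattice.subtype.comp (gA f hf))

theorem Phi_apply (f : Equiv.Perm leechLattice) (hf : f ∈ Co0) (x : leechLattice) :
    Phi f hf x = redA (f x).1 := rfl

theorem eight_smul (x : leechLattice) : (8:ℤ) • x = ∑ i, (x.1 i) • e8 i := by
  apply Subtype.ext
  funext j
  have : ((∑ i, (x.1 i) • e8 i : leechLattice) : GolayPt → ℤ) = ∑ i, (x.1 i) • e8v i := by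
    rw [← AddSubgroup.subtype_apply, map_sum]; rfl
  rw [this]
  simp [e8v, Finset.sum_apply, mul_comm]

noncomputable def L (f : Equiv.Perm leechLattice) : V →ₗ[K] V :=
  Fintype.linearCombination K (fun i => (8:K)⁻¹ • redA (f (e8 i)).1)

theorem h8 : (8:K) ≠ 0 := by decide

theorem L_red {f : Equiv.Perm leechLattice} (hf : f ∈ Co0) (x : leechLattice) :
    L f (redA x.1) = redA (f x).1 := by
  have h1 : Phi f hf ((8:ℤ) • x) = ∑ i, (x.1 i) • Phi f hf (e8 i) := by
    rw [eight_smul, map_sum]; simp only [map_zsmul]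
  rw [map_zsmul] at h1
  rw [L, Fintype.linearCombination_apply]
  have h2 : ∀ i, (redA x.1 i) • ((8:K)⁻¹ • redA (f (e8 i)).1) = (8:K)⁻¹ • ((x.1 i) • Phi f hf (e8 i)) := by
    intro i
    rw [← Int.cast_smul_eq_zsmul K, smul_comm]; rfl
  rw [Finset.sum_congr rfl (fun i _ => h2 i), ← Finset.smul_sum, ← h1, ← Int.cast_smul_eq_zsmul K, smul_smul]
  have h3 : (8:K)⁻¹ * ((8:ℤ):K) = 1 := by
    push_cast
    exact inv_mul_cancel₀ h8
  rw [h3, one_smul]; rfl

theorem L_single (f : Equiv.Perm leechLattice) (i : GolayPt) :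
    L f (Pi.single i 1) = (8:K)⁻¹ • redA (f (e8 i)).1 := by
  rw [L, Fintype.linearCombination_apply_single, one_smul]

theorem red_e8 (i : GolayPt) : redA (e8 i).1 = (8:K) • (Pi.single i 1 : V) := by
  funext j
  rw [redA_apply]
  by_cases h : j = i
  · subst h; simp [e8, e8v]
  · simp [e8, e8v, h]

theorem single_eq (i : GolayPt) : (Pi.single i 1 : V) = (8:K)⁻¹ • redA (e8 i).1 := by
  rw [red_e8, smul_smul, inv_mul_cancel₀ h8, one_smul]

theorem lin_ext {M : Type*} [AddCommMonoid M] [Module K M] {A B : V →ₗ[K] M}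
    (h : ∀ i, A (Pi.single i 1) = B (Pi.single i 1)) : A = B := by
  apply (Pi.basisFun K GolayPt).ext
  intro i
  rw [Pi.basisFun_apply]; exact h i

theorem L_mul {f g : Equiv.Perm leechLattice} (hf : f ∈ Co0) (v : V) :
    L (f * g) v = L f (L g v) := by
  have : L (f * g) = (L f) ∘ₗ (L g) := by
    apply lin_ext
    intro i
    rw [LinearMap.comp_apply, L_single, L_single, map_smul, L_red hf]; rfl
  rw [this]; rfl

theorem L_one (v : V) : L 1 v = v := by
  have : L 1 = LinearMap.id := by
    apply lin_ext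
    intro i
    rw [L_single, LinearMap.id_apply, single_eq]; rfl
  rw [this]; rfl

def io (k : Fin 23) : GolayPt := some (show ZMod 23 from k)

def P : V →ₗ[K] (Fin 23 → K) where
  toFun v := fun k => v (io k) - if k = 0 then v none else 0
  map_add' v w := by
    funext k
    by_cases h : k = 0 <;> simp [h] <;> ring
  map_smul' c v := by
    funext k
    by_cases h : k = 0 <;> simp [h] <;> ring

def S : (Fin 23 → K) →ₗ[K] V where
  toFun w := fun p => match p with
    | none => 0
    | some k => w (show Fin 23 from k)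
  map_add' v w := by
    funext p
    cases p <;> first | rfl | simp
  map_smul' c v := by
    funext p
    cases p <;> first | rfl | simp

def u' : V := fun p => if p = none ∨ p = some 0 then 1 else 0

theorem P_apply (v : V) (k : Fin 23) : P v k = v (io k) - if k = 0 then v none else 0 := rfl
theorem S_none (w : Fin 23 → K) : S w none = 0 := rfl
theorem S_some (w : Fin 23 → K) (k : Fin 23) : S w (io k) = w k := rfl

theorem io_eq (k : Fin 23) : io k = some 0 ↔ k = 0 := by
  constructor
  · intro h
    exact Option.some.inj h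
  · intro h; subst h; rfl

theorem u_io (k : Fin 23) : u' (io k) = if k = 0 then 1 else 0 := by
  have h2 : io k ≠ none := by simp [io]
  unfold u'
  simp only [io_eq, h2, false_or]

theorem u_none : u' none = 1 := by simp [u']

theorem P_u : P u' = 0 := by
  funext k
  rw [P_apply, u_io, u_none, sub_self]; rfl

theorem SP_io (v : V) (k : Fin 23) : S (P v) (io k) = (v - v none • u') (io k) := by
  rw [S_some, P_apply, Pi.sub_apply, Pi.smul_apply, u_io, smul_eq_mul]
  by_cases h : k = 0 <;> simp [h]

theorem SP (v : V) : S (P v) = v - v none • u' := by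
  funext p
  cases p with
  | none => rw [S_none, Pi.sub_apply, Pi.smul_apply, u_none]; simp
  | some k => exact SP_io v k

theorem PS (w : Fin 23 → K) : P (S w) = w := by
  funext k
  rw [P_apply, S_some, S_none]; simp

theorem red_vecU : redA Spor.vecU = (4:K) • u' := by
  funext p
  rw [redA_apply]
  by_cases h : p = none ∨ p = some 0
  · simp [Spor.vecU, u', h]
  · simp [Spor.vecU, u', h]

theorem L_u {f : Equiv.Perm leechLattice} (hf : f ∈ Spor.Co2) : L f u' = u' := by
  have h1 := L_red hf.1 Spor.leechU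
  have h2 : f Spor.leechU = Spor.leechU := hf.2
  rw [h2] at h1
  have h3 : (Spor.leechU : leechLattice).1 = Spor.vecU := rfl
  rw [h3, red_vecU, map_smul] at h1
  have h4 : (4:K) ≠ 0 := by decide
  exact smul_right_injective V h4 h1

noncomputable def rho (f : Equiv.Perm leechLattice) : Module.End K (Fin 23 → K) := P ∘ₗ L f ∘ₗ S

theorem rho_apply (f : Equiv.Perm leechLattice) (w : Fin 23 → K) : rho f w = P (L f (S w)) := rfl

theorem PLSP {f : Equiv.Perm leechLattice} (hf : f ∈ Spor.Co2) (v : V) : P (L f (S (P v))) = P (L f v) := by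
  rw [SP, map_sub, map_smul, L_u hf, map_sub, map_smul, P_u, smul_zero, sub_zero]

noncomputable def rhoHom : ↥Spor.Co2 →* Module.End K (Fin 23 → K) where
  toFun f := rho f.1
  map_one' := by
    apply LinearMap.ext
    intro w
    rw [rho_apply]
    show P (L 1 (S w)) = w
    rw [L_one, PS]
  map_mul' f g := by
    apply LinearMap.ext
    intro w
    show P (L (f.1 * g.1) (S w)) = P (L f.1 (S (P (L g.1 (S w)))))
    rw [PLSP f.2, L_mul f.2.1]

theorem sq_add (a b : GolayPt → ℤ) : sqNorm (a + b) = sqNorm a + 2 * dotInt a b + sqNorm b := by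
  simp only [sqNorm, dotInt, Pi.add_apply, Finset.mul_sum, ← Finset.sum_add_distrib]
  apply Finset.sum_congr rfl
  intro i _; ring

theorem dot_pres {f : Equiv.Perm leechLattice} (hf : f ∈ Co0) (x y : leechLattice) :
    dotInt (f x).1 (f y).1 = dotInt x.1 y.1 := by
  have h1 := hf.2 (x + y)
  rw [hf.1] at h1
  have h2 : ((f x + f y : leechLattice) : GolayPt → ℤ) = (f x).1 + (f y).1 := rfl
  have h3 : ((x + y : leechLattice) : GolayPt → ℤ) = x.1 + y.1 := rfl
  rw [h2, h3, sq_add, sq_add] at h1
  have h4 := hf.2 x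
  have h5 := hf.2 y
  linarith

theorem dot_vecU (x : GolayPt → ℤ) : dotInt x Spor.vecU = 4 * (x none + x (some 0)) := by
  simp [dotInt, Spor.vecU, Fintype.sum_option]
  ring

def phi : V →ₗ[K] K where
  toFun v := v none + v (some 0)
  map_add' v w := by simp; ring
  map_smul' c v := by simp; ring

theorem phi_apply (v : V) : phi v = v none + v (some 0) := rfl

theorem phi_red {f : Equiv.Perm leechLattice} (hf : f ∈ Spor.Co2) (x : leechLattice) :
    phi (redA (f x).1) = phi (redA x.1) := by
  have h1 := dot_pres hf.1 x Spor.leechU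
  have h2 : f Spor.leechU = Spor.leechU := hf.2
  rw [h2] at h1
  have h3 : (Spor.leechU : leechLattice).1 = Spor.vecU := rfl
  rw [h3, dot_vecU, dot_vecU] at h1
  have h4 : (f x).1 none + (f x).1 (some 0) = x.1 none + x.1 (some 0) := by linarith
  rw [phi_apply, phi_apply, redA_apply, redA_apply, redA_apply, redA_apply, ← Int.cast_add, h4, Int.cast_add]

theorem phi_L {f : Equiv.Perm leechLattice} (hf : f ∈ Spor.Co2) (v : V) : phi (L f v) = phi v := by
  have : phi ∘ₗ L f = phi := by
    apply lin_ext
    intro i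
    rw [LinearMap.comp_apply, single_eq, map_smul, L_red hf.1, map_smul, map_smul, phi_red hf]
  exact LinearMap.congr_fun this v

theorem phi_u : phi u' = 2 := by
  have h : u' (some 0) = 1 := by simp [u']
  rw [phi_apply, u_none, h]; norm_num

theorem L_id {f : Equiv.Perm leechLattice} (hf : f ∈ Spor.Co2) (h : rho f = 1) (v : V) : L f v = v := by
  have h1 : P (L f v) = P v := by
    rw [← PLSP hf, ← rho_apply, h]; rfl
  have h2 : P (L f v - v) = 0 := by rw [map_sub, h1, sub_self]
  have h3 := SP (L f v - v)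
  rw [h2, map_zero] at h3
  have h4 : L f v - v = (L f v - v) none • u' := (sub_eq_zero.mp h3.symm)
  have h5 : phi (L f v - v) = 0 := by rw [map_sub, phi_L hf, sub_self]
  rw [h4, map_smul, phi_u] at h5
  have h6 : (2:K) ≠ 0 := by decide
  have h7 : (L f v - v) none = 0 := by
    rcases mul_eq_zero.mp h5 with h | h
    · exact h
    · exact absurd h h6
  rw [h7, zero_smul] at h4
  exact sub_eq_zero.mp h4

theorem sq_sub (a b : GolayPt → ℤ) : ∑ j, (a j - b j) ^ 2 = sqNorm a - 2 * dotInt a b + sqNorm b := by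
  simp only [sqNorm, dotInt, Finset.mul_sum, ← Finset.sum_add_distrib, ← Finset.sum_sub_distrib]
  apply Finset.sum_congr rfl
  intro i _; ring

theorem sq_e8 (i : GolayPt) : sqNorm (e8v i) = 64 := by
  simp [sqNorm, e8v]

theorem dot_e8 (a : GolayPt → ℤ) (i : GolayPt) : dotInt a (e8v i) = 8 * a i := by
  simp [dotInt, e8v, mul_comm]

theorem fix_e8 {f : Equiv.Perm leechLattice} (hf : f ∈ Co0) (i : GolayPt)
    (h : redA (f (e8 i)).1 = redA (e8 i).1) : f (e8 i) = e8 i := by
  set a := (f (e8 i)).1 with ha
  have hb : (e8 i).1 = e8v i := rfl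
  rw [hb] at h
  have hn : sqNorm a = 64 := by
    rw [ha, hf.2, hb, sq_e8]
  have hd : ∀ j, ∃ z : ℤ, a j - e8v i j = 13 * z := by
    intro j
    have := congrFun h j
    rw [redA_apply, redA_apply] at this
    have h' := (ZMod.intCast_eq_intCast_iff_dvd_sub _ _ 13).1 this.symm
    exact h'
  choose z hz using hd
  have h1 := sq_sub a (e8v i)
  rw [hn, sq_e8, dot_e8] at h1
  have h2 : ∑ j, (a j - e8v i j) ^ 2 = 169 * ∑ j, z j ^ 2 := by
    rw [Finset.mul_sum]
    apply Finset.sum_congr rfl
    intro j _
    rw [hz]; ring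
  rw [h2] at h1
  have h3 : 0 ≤ ∑ j, z j ^ 2 := Finset.sum_nonneg (fun j _ => sq_nonneg _)
  have h4 : a i ^ 2 ≤ 64 := by
    rw [← hn]
    exact Finset.single_le_sum (f := fun j => a j ^ 2) (fun j _ => sq_nonneg _) (Finset.mem_univ i)
  have h5 : a i ≤ 8 := by nlinarith
  have h6 : -8 ≤ a i := by nlinarith
  have h7 : ∑ j, z j ^ 2 = 0 := by omega
  have h8 := (Finset.sum_eq_zero_iff_of_nonneg (fun j _ => sq_nonneg (z j))).1 h7
  apply Subtype.ext
  funext j
  have h9 : z j = 0 := by
    have := h8 j (Finset.mem_univ j)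
    exact pow_eq_zero_iff (two_ne_zero) |>.1 this
  have h10 := hz j
  rw [h9] at h10
  show a j = e8v i j
  linarith

theorem eq_one_of_fix {f : Equiv.Perm leechLattice} (hf : f ∈ Co0) (h : ∀ i, f (e8 i) = e8 i) : f = 1 := by
  apply Equiv.ext
  intro x
  have h1 : gA f hf ((8:ℤ) • x) = (8:ℤ) • x := by
    conv_lhs => rw [eight_smul, map_sum]
    rw [eight_smul]
    apply Finset.sum_congr rfl
    intro i _
    rw [map_zsmul, gA_apply, h]
  rw [map_zsmul, gA_apply] at h1
  apply Subtype.ext
  funext j
  have h2 := congrArg (fun y : leechLattice => y.1 j) h1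
  simp at h2
  exact h2

theorem rho_inj {f : Equiv.Perm leechLattice} (hf : f ∈ Spor.Co2) (h : rho f = 1) : f = 1 := by
  apply eq_one_of_fix hf.1
  intro i
  apply fix_e8 hf.1
  rw [← L_red hf.1, L_id hf h]


/-- The second Conway group (the stabilizer in the Leech lattice automorphism group of the short vector fixed in the definitions) is isomorphic to a subgroup of the general linear group of degree 23 over the field with 13 elements: there is an injective homomorphism into it. -/
theorem result : ∃ f : ↥Cfsg.Spor.Co2 →* GL (Fin 23) (ZMod 13), Function.Injective f := by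
  refine ⟨(Units.mapEquiv (LinearMap.toMatrixAlgEquiv' (R := ZMod 13) (n := Fin 23)).toMulEquiv).toMonoidHom.comp
    (MonoidHom.toHomUnits rhoHom), ?_⟩
  rw [injective_iff_map_eq_one]
  intro a ha
  rw [MonoidHom.comp_apply] at ha
  have h1 : MonoidHom.toHomUnits rhoHom a = 1 := by
    apply (Units.mapEquiv (LinearMap.toMatrixAlgEquiv' (R := ZMod 13) (n := Fin 23)).toMulEquiv).injective
    rw [map_one]
    exact ha
  have h2 : rho a.1 = 1 := by
    have := congrArg Units.val h1
    exact this
  exact Subtype.ext (rho_inj a.2 h2)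

end Cfsg.Agent.S5546
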