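import Cfsg.Statements.S5588
import Cfsg.Agent.Lib.Helper11.Y555Emb

set_option autoImplicit false
open Cfsg

namespace Cfsg.Agent.S5588

/-- In the group presented by the sixteen involutions of the Y₅₅₅ Coxeter diagram subject only to the Coxeter relations and the single spider relation (a b₁ c₁ a b₂ c₂ a b₃ c₃)^10 = 1, each of the further relators used in the definitions' presentation of the Bimonster (each end node equals the ninth power of the Coxeter element of a sub-diagram of type E₇) already holds. Equivalently, the Y₅₅₅ diagram with the spider relation alone presents the Bimonster. -/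
theorem result :
    ∀ r ∈ Cfsg.Spor.Bimonster.extra,
      (PresentedGroup.mk (Cfsg.Spor.coxRelators Cfsg.Spor.Bimonster.edges ∪ {r' | r' ∈ [(Cfsg.Spor.Bimonster.a * Cfsg.Spor.Bimonster.b1 * Cfsg.Spor.Bimonster.c1 * Cfsg.Spor.Bimonster.a * Cfsg.Spor.Bimonster.b2 * Cfsg.Spor.Bimonster.c2 * Cfsg.Spor.Bimonster.a * Cfsg.Spor.Bimonster.b3 * Cfsg.Spor.Bimonster.c3) ^ 10]}) r) = 1 := by
  intro r hr
  simp only [Cfsg.Spor.Bimonster.extra, List.mem_cons, List.mem_nil_iff, or_false] at hr
  rcases hr with rfl | rfl | rfl | rfl | rfl | rfl | rfl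
  · exact Cfsg.Agent.Lib.Helper11.Y555E.spider0
  · have h := Cfsg.Agent.Lib.Helper11.Y555E.t0 _ Cfsg.Agent.Lib.Helper11.Y532M.rel1
    simp only [map_mul, map_pow, map_inv, FreeGroup.map.of] at h ⊢
    exact h
  · have h := Cfsg.Agent.Lib.Helper11.Y555E.t0 _ Cfsg.Agent.Lib.Helper11.Y532M.rel2
    simp only [map_mul, map_pow, map_inv, FreeGroup.map.of] at h ⊢
    exact h
  · have h := Cfsg.Agent.Lib.Helper11.Y555E.t1 _ Cfsg.Agent.Lib.Helper11.Y532M.rel2
    simp only [map_mul, map_pow, map_inv, FreeGroup.map.of] at h ⊢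
    exact h
  · have h := Cfsg.Agent.Lib.Helper11.Y555E.t1 _ Cfsg.Agent.Lib.Helper11.Y532M.rel1
    simp only [map_mul, map_pow, map_inv, FreeGroup.map.of] at h ⊢
    exact h
  · have h := Cfsg.Agent.Lib.Helper11.Y555E.t2 _ Cfsg.Agent.Lib.Helper11.Y532M.rel1
    simp only [map_mul, map_pow, map_inv, FreeGroup.map.of] at h ⊢
    exact h
  · have h := Cfsg.Agent.Lib.Helper11.Y555E.t2 _ Cfsg.Agent.Lib.Helper11.Y532M.rel2
    simp only [map_mul, map_pow, map_inv, FreeGroup.map.of] at h ⊢
    exact h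

end Cfsg.Agent.S5588
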