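import Cfsg.Statements.S5599
import Cfsg.Agent.Lib.Helper28.GolaySix

set_option autoImplicit false
open scoped Pointwise
open Cfsg

namespace Cfsg.Agent.S5599

open Cfsg.Agent.Lib.Helper28

theorem mem_M22 {x : Equiv.Perm GolayPt} : x ∈ Spor.M22 ↔ x ∈ M24 ∧ x none = none ∧ x (some 0) = some 0 := by
  simp [Spor.M22, Spor.M23, Subgroup.mem_inf, MulAction.mem_stabilizer_iff, and_assoc]

def uTabs : List (ℕ × List ℕ) := [
  (1, [0, 1, 18, 14, 2, 10, 19, 15, 9, 6, 22, 3, 7, 8, 4, 20, 11, 21, 16, 17, 5, 13, 12, 23]),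
  (3, [0, 18, 20, 3, 10, 14, 17, 4, 21, 5, 6, 19, 9, 11, 15, 1, 13, 8, 12, 2, 22, 7, 16, 23]),
  (5, [0, 8, 4, 15, 12, 5, 18, 6, 14, 2, 3, 13, 11, 20, 7, 21, 22, 1, 17, 16, 9, 19, 10, 23]),
  (6, [0, 13, 19, 9, 8, 4, 6, 11, 14, 1, 18, 16, 3, 2, 7, 17, 5, 10, 21, 12, 15, 22, 20, 23]),
  (7, [0, 18, 14, 8, 12, 15, 19, 7, 6, 21, 4, 2, 9, 16, 3, 10, 22, 20, 13, 11, 1, 5, 17, 23])]

theorem uTabs_ok : uTabs.all (fun bt => inM24 bt.2 && (List.range 24).all (fun i =>
    (bt.2.getD i 0 == i) == (i == 23 || i == 0 || i == bt.1))) = true := by decide +kernel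

/-- an element of M24 centralising M22 and not fixing ∞ or 0 fixes the point `b` -/
theorem fixes_of_centralizes {c : Equiv.Perm GolayPt} (hc : ∀ x ∈ Spor.M22, c * x = x * c)
    (h1 : c none = some 0) (h2 : c (some 0) = none) (bt : ℕ × List ℕ) (hbt : bt ∈ uTabs) :
    c (pt bt.1) = pt bt.1 := by
  have h := List.all_eq_true.1 uTabs_ok bt hbt
  simp only [Bool.and_eq_true, List.all_eq_true, List.mem_range] at h
  obtain ⟨hM, hfix⟩ := h
  have hv : validTbl bt.2 = true := by
    simp only [inM24, Bool.and_eq_true] at hM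
    exact hM.1
  have hall : ∀ bt ∈ uTabs, bt.1 < 24 ∧ bt.1 ≠ 23 ∧ bt.1 ≠ 0 := by decide +kernel
  have hb24 : bt.1 < 24 := (hall bt hbt).1
  have hfix' : ∀ p : GolayPt, permOf bt.2 p = p ↔ (idx p = 23 ∨ idx p = 0 ∨ idx p = bt.1) := by
    intro p
    have := hfix (idx p) (idx_lt p)
    rw [beq_iff_eq] at this
    constructor
    · intro hp
      have h3 : bt.2.getD (idx p) 0 = idx p := by rw [← idx_permOf hv, hp]
      rw [h3] at this
      simpa [or_assoc] using this.symm
    · intro hp
      have h3 : (idx p == 23 || idx p == 0 || idx p == bt.1) = true := by simpa [or_assoc] using hp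
      rw [h3] at this
      rw [permOf_apply hv, beq_iff_eq.1 this, pt_idx]
  have hu : permOf bt.2 ∈ Spor.M22 := by
    rw [mem_M22]
    exact ⟨permOf_mem_M24 hM, (hfix' none).2 (Or.inl rfl), (hfix' (some 0)).2 (Or.inr (Or.inl rfl))⟩
  have h4 : permOf bt.2 (c (pt bt.1)) = c (pt bt.1) := by
    have := congrArg (fun f : Equiv.Perm GolayPt => f (pt bt.1)) (hc _ hu)
    simp only [Equiv.Perm.mul_apply] at this
    rw [(hfix' (pt bt.1)).2 (Or.inr (Or.inr (idx_pt _ hb24)))] at this
    exact this.symm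
  have hbne : bt.1 ≠ 23 ∧ bt.1 ≠ 0 := (hall bt hbt).2
  rcases (hfix' _).1 h4 with h | h | h
  · exfalso
    have h5 : c (pt bt.1) = none := by rw [← pt_idx (c (pt bt.1)), h]; rfl
    have h6 := c.injective (h5.trans h2.symm)
    have h7 := congrArg idx h6
    rw [idx_pt _ hb24] at h7
    exact hbne.2 h7
  · exfalso
    have h5 : c (pt bt.1) = some 0 := by rw [← pt_idx (c (pt bt.1)), h]; rfl
    have h6 := c.injective (h5.trans h1.symm)
    have h7 := congrArg idx h6
    rw [idx_pt _ hb24] at h7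
    exact hbne.1 h7
  · rw [← pt_idx (c (pt bt.1)), h]



/-- In the automorphism group of the length-24 code, the two-point Mathieu group (permutations of the code's group fixing the extra point and the residue 0) has index 2 in the setwise stabiliser of that pair of points, and an element of the code's group interchanging the two points normalises the two-point group and induces on it, by conjugation, an automorphism that is not inner. -/
theorem result (g : Equiv.Perm Cfsg.GolayPt) (hg : g ∈ Cfsg.M24) (h₁ : g none = some 0) (h₂ : g (some 0) = none) : Cfsg.Spor.M22.relIndex (Cfsg.M24 ⊓ MulAction.stabilizer (Equiv.Perm Cfsg.GolayPt) ({none, some 0} : Finset Cfsg.GolayPt)) = 2 ∧ (∀ x ∈ Cfsg.Spor.M22, g * x * g⁻¹ ∈ Cfsg.Spor.M22) ∧ ¬ ∃ h ∈ Cfsg.Spor.M22, ∀ x ∈ Cfsg.Spor.M22, g * x * g⁻¹ = h * x * h⁻¹ := by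
  refine ⟨?_, ?_, ?_⟩
  · rw [Subgroup.relIndex_eq_two_iff]
    have hpair : ∀ b : Equiv.Perm GolayPt, b • ({none, some 0} : Finset GolayPt) = {none, some 0} →
        (b none = none ∧ b (some 0) = some 0) ∨ (b none = some 0 ∧ b (some 0) = none) := by
      intro b hb
      have h1 : b none ∈ ({none, some 0} : Finset GolayPt) := by
        rw [← hb]; exact Finset.smul_mem_smul_finset (by simp)
      have h2 : b (some 0) ∈ ({none, some 0} : Finset GolayPt) := by
        rw [← hb]; exact Finset.smul_mem_smul_finset (by simp)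
      have h3 : b none ≠ b (some 0) := fun h => by simpa using b.injective h
      simp only [Finset.mem_insert, Finset.mem_singleton] at h1 h2
      rcases h1 with h1 | h1 <;> rcases h2 with h2 | h2
      · exact absurd (h1.trans h2.symm) h3
      · exact Or.inl ⟨h1, h2⟩
      · exact Or.inr ⟨h1, h2⟩
      · exact absurd (h1.trans h2.symm) h3
    refine ⟨g, ⟨hg, ?_⟩, ?_⟩
    · apply MulAction.mem_stabilizer_iff.2
      apply smul_eq_of_maps
      intro p hp
      simp only [Finset.mem_insert, Finset.mem_singleton] at hp ⊢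
      rcases hp with rfl | rfl
      · exact Or.inr h₁
      · exact Or.inl h₂
    · rintro b ⟨hb, hb2⟩
      rw [mem_M22, mem_M22]
      rcases hpair b (MulAction.mem_stabilizer_iff.1 hb2) with ⟨k1, k2⟩ | ⟨k1, k2⟩
      · right
        refine ⟨⟨hb, k1, k2⟩, ?_⟩
        rintro ⟨-, k3, -⟩
        rw [Equiv.Perm.mul_apply, h₁, k2] at k3
        simp at k3
      · left
        refine ⟨⟨M24.mul_mem hb hg, ?_, ?_⟩, ?_⟩
        · rw [Equiv.Perm.mul_apply, h₁, k2]
        · rw [Equiv.Perm.mul_apply, h₂, k1]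
        · rintro ⟨-, k3, -⟩
          rw [k1] at k3
          simp at k3
  · intro x hx
    rw [mem_M22] at hx ⊢
    have e1 : g⁻¹ none = some 0 := by rw [Equiv.Perm.inv_eq_iff_eq, h₂]
    have e2 : g⁻¹ (some 0) = none := by rw [Equiv.Perm.inv_eq_iff_eq, h₁]
    refine ⟨M24.mul_mem (M24.mul_mem hg hx.1) (M24.inv_mem hg), ?_, ?_⟩
    · simp only [Equiv.Perm.mul_apply]
      rw [e1, hx.2.2, h₂]
    · simp only [Equiv.Perm.mul_apply]
      rw [e2, hx.2.1, h₁]
  · rintro ⟨h, hh, hconj⟩
    have hh' := mem_M22.1 hh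
    have hcM : h⁻¹ * g ∈ M24 := M24.mul_mem (M24.inv_mem hh'.1) hg
    have hc : ∀ x ∈ Spor.M22, (h⁻¹ * g) * x = x * (h⁻¹ * g) := by
      intro x hx
      have := hconj x hx
      calc h⁻¹ * g * x = h⁻¹ * (g * x * g⁻¹) * g := by group
        _ = h⁻¹ * (h * x * h⁻¹) * g := by rw [this]
        _ = x * (h⁻¹ * g) := by group
    have c1 : (h⁻¹ * g) none = some 0 := by
      rw [Equiv.Perm.mul_apply, h₁, Equiv.Perm.inv_eq_iff_eq, hh'.2.2]
    have c2 : (h⁻¹ * g) (some 0) = none := by
      rw [Equiv.Perm.mul_apply, h₂, Equiv.Perm.inv_eq_iff_eq, hh'.2.1]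
    have hfix := fixes_of_centralizes hc c1 c2
    have ho : unmask 8394986 ∈ octads := unmask_mem_octads (by norm_num) (by decide +kernel) (by decide +kernel)
    have hs : (h⁻¹ * g) • unmask 8394986 = unmask 8394986 := by
      apply smul_octad_eq_of_fixes hcM ho (F := {pt 1, pt 3, pt 5, pt 6, pt 7})
      · intro p hp
        simp only [Finset.mem_insert, Finset.mem_singleton] at hp
        rcases hp with rfl | rfl | rfl | rfl | rfl
        · exact hfix (uTabs.getD 0 (0, [])) (by decide +kernel)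
        · exact hfix (uTabs.getD 1 (0, [])) (by decide +kernel)
        · exact hfix (uTabs.getD 2 (0, [])) (by decide +kernel)
        · exact hfix (uTabs.getD 3 (0, [])) (by decide +kernel)
        · exact hfix (uTabs.getD 4 (0, [])) (by decide +kernel)
      · decide +kernel
    have h3 := apply_mem_of_smul_eq hs (p := none) (by decide +kernel)
    rw [c1] at h3
    revert h3
    decide +kernel

end Cfsg.Agent.S5599
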