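import Cfsg.Statements.S5601
import Mathlib
import Cfsg.Agent.Lib.Helper10.ElemCls

set_option autoImplicit false
open scoped Pointwise
open Cfsg

namespace Cfsg.Agent.S5601

open Cfsg Cfsg.Agent.Lib.Helper28 Cfsg.Agent.Lib.Helper10
open scoped Pointwise

theorem conj_of_conj {g h Z k1 k2 : Equiv.Perm GolayPt} (h1 : k1 * g * k1⁻¹ = Z) (h2 : k2 * h * k2⁻¹ = Z) :
    (k2⁻¹ * k1) * g * (k2⁻¹ * k1)⁻¹ = h := by
  have : h = k2⁻¹ * Z * k2 := by rw [← h2]; group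
  rw [this, ← h1]; group

theorem exists_gen (X : Subgroup ↥M24) (hX : Nat.card X = 3) :
    ∃ x : ↥M24, orderOf x = 3 ∧ X = Subgroup.zpowers x := by
  have hne : X ≠ ⊥ := by
    intro h
    rw [h, Subgroup.card_bot] at hX
    omega
  obtain ⟨⟨x, hx⟩, hx1'⟩ := (Subgroup.ne_bot_iff_exists_ne_one).1 hne
  have hx1 : x ≠ 1 := fun h => hx1' (Subtype.ext h)
  have hd : orderOf x ∣ 3 := hX ▸ Subgroup.orderOf_dvd_natCard X hx
  have ho : orderOf x = 3 := by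
    rcases (Nat.dvd_prime Nat.prime_three).1 hd with h | h
    · exact absurd (orderOf_eq_one_iff.1 h) hx1
    · exact h
  refine ⟨x, ho, ?_⟩
  symm
  apply Subgroup.eq_of_le_of_card_ge
  · rw [Subgroup.zpowers_le]; exact hx
  · rw [Nat.card_zpowers, ho, hX]

theorem fix_zpowers (x : ↥M24) :
    {p : GolayPt | ∀ y ∈ Subgroup.zpowers x, ((y : ↥M24) : Equiv.Perm GolayPt) p = p} = ↑(fixF (x : Equiv.Perm GolayPt)) := by
  ext p
  simp only [Set.mem_ofPred_eq, Finset.mem_coe, mem_fixF]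
  constructor
  · intro h
    exact h x (Subgroup.mem_zpowers x)
  · rintro h y ⟨n, rfl⟩
    show ((x ^ n : ↥M24) : Equiv.Perm GolayPt) p = p
    rw [Subgroup.coe_zpow]
    exact Equiv.Perm.zpow_apply_eq_self_of_apply_eq_self h n

theorem ncard_fix_zpowers (x : ↥M24) :
    {p : GolayPt | ∀ y ∈ Subgroup.zpowers x, ((y : ↥M24) : Equiv.Perm GolayPt) p = p}.ncard
      = (fixF (x : Equiv.Perm GolayPt)).card := by
  rw [fix_zpowers, Set.ncard_coe_finset]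

theorem conj_smul_zpowers (k x : ↥M24) : MulAut.conj k • Subgroup.zpowers x = Subgroup.zpowers (k * x * k⁻¹) := by
  have h1 : MulAut.conj k • Subgroup.zpowers x = (Subgroup.zpowers x).map (MulAut.conj k).toMonoidHom := rfl
  rw [h1, MonoidHom.map_zpowers]
  rfl

theorem card_cases {x : Equiv.Perm GolayPt} (hx : x ∈ M24) (h3 : orderOf x = 3) :
    (fixF x).card = 6 ∨ (fixF x).card = 0 := by
  by_cases hf : (fixF x).card = 0
  · exact Or.inr hf
  · obtain ⟨k, hk, h⟩ := ord3_classA hx h3 hf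
    left
    rw [← card_fixF_conj k x, h, card_fixF_uA]


/-- The group of the length-24 code has exactly two conjugacy classes of subgroups of order 3: a subgroup of order 3 fixes either exactly 6 of the 24 points or none of them, both cases occur, and two subgroups of order 3 with the same number of fixed points are conjugate. -/
theorem result : (∀ X : Subgroup ↥Cfsg.M24, Nat.card X = 3 → {p : Cfsg.GolayPt | ∀ x ∈ X, ((x : ↥Cfsg.M24) : Equiv.Perm Cfsg.GolayPt) p = p}.ncard = 6 ∨ {p : Cfsg.GolayPt | ∀ x ∈ X, ((x : ↥Cfsg.M24) : Equiv.Perm Cfsg.GolayPt) p = p}.ncard = 0) ∧ (∃ X : Subgroup ↥Cfsg.M24, Nat.card X = 3 ∧ {p : Cfsg.GolayPt | ∀ x ∈ X, ((x : ↥Cfsg.M24) : Equiv.Perm Cfsg.GolayPt) p = p}.ncard = 6) ∧ (∃ X : Subgroup ↥Cfsg.M24, Nat.card X = 3 ∧ {p : Cfsg.GolayPt | ∀ x ∈ X, ((x : ↥Cfsg.M24) : Equiv.Perm Cfsg.GolayPt) p = p}.ncard = 0) ∧ ∀ X Y : Subgroup ↥Cfsg.M24, Nat.card X = 3 → Nat.card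 Y = 3 → {p : Cfsg.GolayPt | ∀ x ∈ X, ((x : ↥Cfsg.M24) : Equiv.Perm Cfsg.GolayPt) p = p}.ncard = {p : Cfsg.GolayPt | ∀ x ∈ Y, ((x : ↥Cfsg.M24) : Equiv.Perm Cfsg.GolayPt) p = p}.ncard → ∃ k : ↥Cfsg.M24, MulAut.conj k • X = Y := by
  refine ⟨?_, ⟨Subgroup.zpowers ⟨permOf uA, permOf_mem_M24 uA_in⟩, ?_, ?_⟩,
    ⟨Subgroup.zpowers ⟨permOf uB, permOf_mem_M24 uB_in⟩, ?_, ?_⟩, ?_⟩
  · intro X hX
    obtain ⟨x, ho, rfl⟩ := exists_gen X hX
    rw [ncard_fix_zpowers]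
    exact card_cases x.2 (by rw [Subgroup.orderOf_coe, ho])
  · rw [Nat.card_zpowers, ← Subgroup.orderOf_coe]
    exact orderOf_uA
  · rw [ncard_fix_zpowers]
    exact card_fixF_uA
  · rw [Nat.card_zpowers, ← Subgroup.orderOf_coe]
    exact orderOf_uB
  · rw [ncard_fix_zpowers]
    show (fixF (permOf uB)).card = 0
    rw [fixF_uB]; rfl
  · intro X Y hX hY hXY
    obtain ⟨x, hox, rfl⟩ := exists_gen X hX
    obtain ⟨y, hoy, rfl⟩ := exists_gen Y hY
    rw [ncard_fix_zpowers, ncard_fix_zpowers] at hXY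
    have hox' : orderOf (x : Equiv.Perm GolayPt) = 3 := by rw [Subgroup.orderOf_coe, hox]
    have hoy' : orderOf (y : Equiv.Perm GolayPt) = 3 := by rw [Subgroup.orderOf_coe, hoy]
    have key : ∃ k ∈ M24, k * (x : Equiv.Perm GolayPt) * k⁻¹ = y := by
      by_cases hf : (fixF (x : Equiv.Perm GolayPt)).card = 0
      · obtain ⟨k1, hk1, e1⟩ := ord3_classB x.2 hox' hf
        obtain ⟨k2, hk2, e2⟩ := ord3_classB y.2 hoy' (hXY ▸ hf)
        exact ⟨k2⁻¹ * k1, M24.mul_mem (M24.inv_mem hk2) hk1, conj_of_conj e1 e2⟩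
      · obtain ⟨k1, hk1, e1⟩ := ord3_classA x.2 hox' hf
        obtain ⟨k2, hk2, e2⟩ := ord3_classA y.2 hoy' (hXY ▸ hf)
        exact ⟨k2⁻¹ * k1, M24.mul_mem (M24.inv_mem hk2) hk1, conj_of_conj e1 e2⟩
    obtain ⟨k, hk, e⟩ := key
    refine ⟨⟨k, hk⟩, ?_⟩
    rw [conj_smul_zpowers]
    congr 1
    exact Subtype.ext e

end Cfsg.Agent.S5601
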