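import Cfsg.Statements.S5606
import Mathlib
import Cfsg.Agent.Lib.Helper10.ElemCount

set_option autoImplicit false
open scoped Pointwise
open Cfsg

namespace Cfsg.Agent.S5606

open Cfsg Cfsg.Agent.Lib.Helper28 Cfsg.Agent.Lib.Helper10
open scoped Pointwise


/-- A fixed-point-free involution of the group of the length-24 code maps to themselves exactly 15 octads, exactly 75 trios and exactly 51 sextets. -/
theorem result (g : Equiv.Perm Cfsg.GolayPt) (hg : g ∈ Cfsg.M24) (h₂ : orderOf g = 2) (h₀ : ∀ p, g p ≠ p) : {o : Finset Cfsg.GolayPt | o ∈ Cfsg.octads ∧ g • o = o}.ncard = 15 ∧ {T : Finset (Finset Cfsg.GolayPt) | T ∈ Cfsg.trios ∧ g • T = T}.ncard = 75 ∧ {S : Finset (Finset Cfsg.GolayPt) | S ∈ Cfsg.sextets ∧ g • S = S}.ncard = 51 := by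
  obtain ⟨k, hk, h⟩ := invol_classB hg h₂ (card_fixF_eq_zero_iff.2 h₀)
  refine ⟨?_, ?_, ?_⟩
  · rw [ncard_fix_octads_of_conj hk zB_in h]; decide +kernel
  · rw [ncard_fix_trios_of_conj hk zB_in h]; decide +kernel
  · rw [ncard_fix_sextets_of_conj hk zB_in h]; decide +kernel

end Cfsg.Agent.S5606
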