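import Cfsg.Statements.S5608
import Mathlib
import Cfsg.Agent.Lib.Helper10.ElemCls
import Cfsg.Agent.Lib.Helper28.GolayM12

set_option autoImplicit false
open scoped Pointwise
open Cfsg

namespace Cfsg.Agent.S5608

open Cfsg Cfsg.Agent.Lib.Helper28 Cfsg.Agent.Lib.Helper10
open scoped Pointwise

theorem invol_five {s : Equiv.Perm GolayPt} (hss : ∀ p, s (s p) = p) {F : Finset GolayPt} (hF : 5 ≤ F.card)
    (hne : ∀ p ∈ F, s p ≠ p) : ∃ a c e, a ∈ F ∧ c ∈ F ∧ e ∈ F ∧ [a, s a, c, s c, e].Nodup := by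
  obtain ⟨a, ha⟩ := Finset.card_pos.1 (lt_of_lt_of_le (by norm_num : 0 < 5) hF)
  obtain ⟨c, hc, hc'⟩ := Finset.exists_mem_notMem_of_card_lt_card (s := {a, s a}) (t := F)
    (lt_of_le_of_lt (Finset.card_le_two) (by omega))
  obtain ⟨e, he0, he⟩ := Finset.exists_mem_notMem_of_card_lt_card (s := {a, s a, c, s c}) (t := F)
    (lt_of_le_of_lt (Finset.card_le_four) (by omega))
  refine ⟨a, c, e, ha, hc, he0, ?_⟩
  have ha := hne a ha
  have hc := hne c hc
  simp only [Finset.mem_insert, Finset.mem_singleton, not_or] at hc' he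
  simp only [List.nodup_cons, List.mem_cons, List.not_mem_nil, or_false, not_or, List.nodup_nil, and_true,
    not_false_eq_true]
  refine ⟨⟨fun h => ha h.symm, fun h => hc'.1 h.symm, ?_, fun h => he.1 h.symm⟩,
    ⟨fun h => hc'.2 h.symm, ?_, fun h => he.2.1 h.symm⟩, ⟨fun h => hc h.symm, fun h => he.2.2.1 h.symm⟩,
    fun h => he.2.2.2 h.symm⟩
  · intro h
    apply hc'.2
    rw [h, hss]
  · intro h
    exact hc'.1 (s.injective h).symm

noncomputable def comChk : Bool := [5, 14, 17].all fun y => tg7.all fun z =>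
  forceL (mulTbl (trans6.getD y []) (trans7.getD z [])) fun X =>
    cond (and (eqL (mulTbl X (mulTbl X X)) idTbl) (not (eqL X idTbl)))
      (T2s.all fun T => cond (and (Nat.beq (X.getD (T.getD 3 0) 0) (T.getD 3 0)) (not (Nat.beq (T.getD 3 0) 3)))
        ([5, 14, 17].all fun y' => tg7.all fun z' => forceL (candTbl T y' z') fun C =>
          not (eqL (mulTbl C X) (mulTbl X C))) true) true

theorem comChk_true : comChk = true := by decide +kernel

theorem key {x s : Equiv.Perm GolayPt} (hx : x ∈ M24) (hs : s ∈ M24) (h₃ : orderOf x = 3) (h₂ : orderOf s = 2)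
    (hc : Commute x s) (h6 : (fixF x).card = 6) (h0 : (fixF s).card = 0) : False := by
  have hss : ∀ p, s (s p) = p := by
    intro p
    have := pow_orderOf_eq_one s
    rw [h₂, sq] at this
    exact Equiv.Perm.congr_fun this p
  have hxs : ∀ p, x (s p) = s (x p) := fun p => Equiv.Perm.congr_fun hc.eq p
  have hne : ∀ p, s p ≠ p := card_fixF_eq_zero_iff.1 h0
  obtain ⟨a, c, e, ha, hc', he, hnd⟩ := invol_five hss (F := fixF x) (by omega) (fun p _ => hne p)
  rw [mem_fixF] at ha hc' he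
  obtain ⟨k, hk, k1, k2, k3, k4, k5⟩ := five_to_std hnd
  have hx' : k * x * k⁻¹ ∈ M24 := M24.mul_mem (M24.mul_mem hk hx) (M24.inv_mem hk)
  have hs' : k * s * k⁻¹ ∈ M24 := M24.mul_mem (M24.mul_mem hk hs) (M24.inv_mem hk)
  have hcom : (k * s * k⁻¹) * (k * x * k⁻¹) = (k * x * k⁻¹) * (k * s * k⁻¹) := by
    calc (k * s * k⁻¹) * (k * x * k⁻¹) = k * (s * x) * k⁻¹ := by group
      _ = k * (x * s) * k⁻¹ := by rw [hc.eq]
      _ = _ := by group
  have hcu : (k * x * k⁻¹) * ((k * x * k⁻¹) * (k * x * k⁻¹)) = 1 := by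
    have := pow_orderOf_eq_one x
    rw [h₃, pow_succ, sq] at this
    calc (k * x * k⁻¹) * ((k * x * k⁻¹) * (k * x * k⁻¹)) = k * (x * x * x) * k⁻¹ := by group
      _ = 1 := by rw [this]; group
  have hx1 : k * x * k⁻¹ ≠ 1 := by
    intro h
    have : x = 1 := by
      have e : x = k⁻¹ * (k * x * k⁻¹) * k := by group
      rw [e, h]; group
    rw [this, orderOf_one] at h₃
    omega
  have f0 : (k * x * k⁻¹) (pt 23) = pt 23 := conj_apply_of k1 k1 ha
  have f1 : (k * x * k⁻¹) (pt 0) = pt 0 := conj_apply_of k2 k2 (by rw [hxs, ha])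
  have f2 : (k * x * k⁻¹) (pt 1) = pt 1 := conj_apply_of k3 k3 hc'
  have f3 : (k * x * k⁻¹) (pt 2) = pt 2 := conj_apply_of k4 k4 (by rw [hxs, hc'])
  have f4 : (k * x * k⁻¹) (pt 3) = pt 3 := conj_apply_of k5 k5 he
  have e0 : (k * s * k⁻¹) (pt 23) = pt 0 := conj_apply_of k1 k2 rfl
  have e1 : (k * s * k⁻¹) (pt 0) = pt 23 := conj_apply_of k2 k1 (hss a)
  have e2 : (k * s * k⁻¹) (pt 1) = pt 2 := conj_apply_of k3 k4 rfl
  have e3 : (k * s * k⁻¹) (pt 2) = pt 1 := conj_apply_of k4 k3 (hss c)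
  have g3 : (k * s * k⁻¹) (pt 3) ≠ pt 3 := by
    rw [conj_apply_of k5 rfl rfl]
    intro h
    exact hne e (k.injective (h.trans k5.symm))
  generalize k * x * k⁻¹ = x' at *
  generalize k * s * k⁻¹ = s' at *
  have hfix : x' ∈ fixG [23, 0, 1, 2, 3] := by
    refine ⟨hx', ?_⟩
    intro f hf
    simp only [List.mem_cons, List.not_mem_nil, or_false] at hf
    rcases hf with rfl | rfl | rfl | rfl | rfl
    · exact f0
    · exact f1
    · exact f2
    · exact f3
    · exact f4
  obtain ⟨y, hy, z, hz, hX⟩ := fixG5_enum hfix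
  rw [permOf_mul (valid_trans6 hy) (valid_trans7 hz)] at hX
  have hXv := validTbl_mulTbl (valid_trans6 hy) (valid_trans7 hz)
  obtain ⟨T, hT, t0, t1, t2, t3, t4⟩ := T2s_lookup (idx (s' (pt 3))) (idx_lt _)
    (idx_ne_of (by norm_num) (by norm_num) e1) (idx_ne_of (by norm_num) (by norm_num) e0)
    (idx_ne_of (by norm_num) (by norm_num) e3) (idx_ne_of (by norm_num) (by norm_num) e2)
  have hTin := List.all_eq_true.1 T2s_in T hT
  have hv : validTbl T = true := inM24_valid hTin
  obtain ⟨y', hy', z', hz', hC⟩ := enum5 hs' hTin (agree5 hv t0 t1 t2 t3 t4 e0 e1 e2 e3 (pt_idx _).symm)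
  have hCv := valid_candTbl hv hy' hz'
  have h := comChk_true
  simp only [comChk, List.all_eq_true, forceL_eq] at h
  have h1 := h y hy z hz
  generalize mulTbl (trans6.getD y []) (trans7.getD z []) = X at *
  have p1 : eqL (mulTbl X (mulTbl X X)) idTbl = true := by
    have : permOf (mulTbl X (mulTbl X X)) = permOf idTbl := by
      rw [← permOf_mul hXv (validTbl_mulTbl hXv hXv), ← permOf_mul hXv hXv, ← hX, hcu, permOf_idTbl]
    rw [tbl_ext (validTbl_mulTbl hXv (validTbl_mulTbl hXv hXv)) validTbl_idTbl this]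
    exact eqL_refl _
  have p2 : eqL X idTbl = false := by
    cases hh : eqL X idTbl with
    | false => rfl
    | true =>
      exfalso
      apply hx1
      rw [hX, eqL_spec hh, permOf_idTbl]
  rw [p1, p2] at h1
  simp only [Bool.not_false, Bool.and_self, cond_true, List.all_eq_true] at h1
  have h2 := h1 T hT
  have p3 : Nat.beq (X.getD (T.getD 3 0) 0) (T.getD 3 0) = true := by
    rw [Nat.beq_eq, t4, ← idx_permOf hXv, ← hX]
    have := Equiv.Perm.congr_fun hcom (pt 3)
    rw [Equiv.Perm.mul_apply, Equiv.Perm.mul_apply, f4] at this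
    rw [← this]
  have p4 : Nat.beq (T.getD 3 0) 3 = false := by
    cases hh : Nat.beq (T.getD 3 0) 3 with
    | false => rfl
    | true =>
      exfalso
      apply g3
      rw [← pt_idx (s' (pt 3)), ← t4, Nat.eq_of_beq_eq_true hh]
  rw [p3, p4] at h2
  simp only [Bool.not_false, Bool.and_self, cond_true, List.all_eq_true] at h2
  have h3 := h2 y' hy' z' hz'
  have : mulTbl (candTbl T y' z') X = mulTbl X (candTbl T y' z') := by
    apply tbl_ext (validTbl_mulTbl hCv hXv) (validTbl_mulTbl hXv hCv)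
    rw [← permOf_mul hCv hXv, ← permOf_mul hXv hCv, ← hX, ← hC, hcom]
  rw [this, eqL_refl] at h3
  exact Bool.noConfusion h3

theorem card3 {x : Equiv.Perm GolayPt} (hx : x ∈ M24) (h3 : orderOf x = 3) :
    (fixF x).card = 6 ∨ (fixF x).card = 0 := by
  by_cases hf : (fixF x).card = 0
  · exact Or.inr hf
  · obtain ⟨k, hk, h⟩ := ord3_classA hx h3 hf
    left
    rw [← card_fixF_conj k x, h, card_fixF_uA]

theorem card2 {x : Equiv.Perm GolayPt} (hx : x ∈ M24) (h2 : orderOf x = 2) :
    (fixF x).card = 8 ∨ (fixF x).card = 0 := by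
  by_cases hf : (fixF x).card = 0
  · exact Or.inr hf
  · obtain ⟨k, hk, h⟩ := invol_classA hx h2 hf
    left
    rw [← card_fixF_conj k x, h, card_fixF_zA]


/-- If an element of order 3 and an involution of the group of the length-24 code commute, then either the element of order 3 has exactly 6 fixed points and the involution exactly 8, or both are fixed-point-free. -/
theorem result (x s : Equiv.Perm Cfsg.GolayPt) (hx : x ∈ Cfsg.M24) (hs : s ∈ Cfsg.M24) (h₃ : orderOf x = 3) (h₂ : orderOf s = 2) (hc : Commute x s) : ((Finset.univ.filter fun p => x p = p).card = 6 ∧ (Finset.univ.filter fun p => s p = p).card = 8) ∨ ((Finset.univ.filter fun p => x p = p).card = 0 ∧ (Finset.univ.filter fun p => s p = p).card = 0) := by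
  show ((fixF x).card = 6 ∧ (fixF s).card = 8) ∨ ((fixF x).card = 0 ∧ (fixF s).card = 0)
  rcases card3 hx h₃ with h6 | h0 <;> rcases card2 hs h₂ with h8 | h0'
  · exact Or.inl ⟨h6, h8⟩
  · exact (key hx hs h₃ h₂ hc h6 h0').elim
  · exfalso
    have hS : x • fixF s = fixF s := by
      rw [← fixF_conj]
      congr 1
      rw [hc.eq]; group
    obtain ⟨p, -, hp⟩ := exists_fixed_of_not_dvd Nat.prime_three (h₃ ▸ pow_orderOf_eq_one x) hS
      (by rw [h8]; norm_num)
    exact card_fixF_eq_zero_iff.1 h0 p hp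
  · exact Or.inr ⟨h0, h0'⟩

end Cfsg.Agent.S5608
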