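import Cfsg.Statements.S5609
import Mathlib
import Cfsg.Agent.Lib.Helper28.GolayOct2

set_option autoImplicit false
open scoped Pointwise
open Cfsg

namespace Cfsg.Agent.S5609

open Cfsg.Agent.Lib.Helper28 Cfsg.Agent.Lib.Helper10
open scoped Pointwise

theorem common4 {o o' : Finset GolayPt} (ho : o ∈ octads) (ho' : o' ∈ octads)
    (h : (o ∩ o').card = 4) : ∃ a ∈ octads, (o ∩ a).card = 0 ∧ (a ∩ o').card = 0 := by
  obtain ⟨c, hc, hco⟩ := octad_std0 ho
  have hX : unmask 5279 ∈ octads :=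
    unmask_mem_octads (by norm_num) (by decide +kernel) (by decide +kernel)
  have h1 : (stdOctad ∩ c • o').card = (stdOctad ∩ unmask 5279).card := by
    rw [← hco, card_smul_inter, h, hco, card_inter_eq_pcF, mask_stdOctad,
      mask_unmask _ (by norm_num)]
    decide +kernel
  obtain ⟨b, hb, hb1, hb2⟩ := stdOct_orbits (Cfsg.Agent.Lib.Helper28.smul_mem_octads hc ho') hX h1
  have hA : unmask 4038912 ∈ octads :=
    unmask_mem_octads (by norm_num) (by decide +kernel) (by decide +kernel)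
  refine ⟨(b * c)⁻¹ • unmask 4038912,
    Cfsg.Agent.Lib.Helper28.smul_mem_octads (M24.inv_mem (M24.mul_mem hb hc)) hA, ?_, ?_⟩
  · rw [← card_smul_inter (b * c), smul_inv_smul, mul_smul, hco, hb1, card_inter_eq_pcF,
      mask_stdOctad, mask_unmask _ (by norm_num)]
    decide +kernel
  · rw [← card_smul_inter (b * c), smul_inv_smul, mul_smul, hb2, card_inter_eq_pcF,
      mask_unmask _ (by norm_num), mask_unmask _ (by norm_num)]
    decide +kernel

theorem nocommon2 {o o' a : Finset GolayPt} (ho : o ∈ octads) (ho' : o' ∈ octads)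
    (ha : a ∈ octads) (h : (o ∩ o').card = 2) (h1 : (o ∩ a).card = 0) (h2 : (a ∩ o').card = 0) :
    False := by
  obtain ⟨c, hc, hco, hco'⟩ := two_octads_std ho ho' h
  have hca := Cfsg.Agent.Lib.Helper28.smul_mem_octads hc ha
  have h3 := forall_octads_of_check (f := fun m => not (and (Nat.beq (pcF (Nat.land 8536111 m)) 0)
    (Nat.beq (pcF (Nat.land m 252432)) 0))) (by decide +kernel) hca
  rw [← card_smul_inter c, hco, card_inter_eq_pcF, mask_stdOctad] at h1
  rw [← card_smul_inter c, hco', card_inter_eq_pcF, mask_octB] at h2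
  have h4 : not (and (Nat.beq (pcF (Nat.land 8536111 (mask (c • a)))) 0)
    (Nat.beq (pcF (Nat.land (mask (c • a)) 252432)) 0)) = true := h3
  rw [h1, h2] at h4
  exact absurd h4 (by decide)

theorem path2 {o o' : Finset GolayPt} (ho : o ∈ octads) (ho' : o' ∈ octads)
    (h : (o ∩ o').card = 2) : ∃ a ∈ octads, ∃ b ∈ octads,
      (o ∩ a).card = 0 ∧ (a ∩ b).card = 0 ∧ (b ∩ o').card = 0 := by
  obtain ⟨c, hc, hco, hco'⟩ := two_octads_std ho ho' h
  have hA : unmask 628112 ∈ octads :=
    unmask_mem_octads (by norm_num) (by decide +kernel) (by decide +kernel)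
  have hB : unmask 3416079 ∈ octads :=
    unmask_mem_octads (by norm_num) (by decide +kernel) (by decide +kernel)
  refine ⟨c⁻¹ • unmask 628112, Cfsg.Agent.Lib.Helper28.smul_mem_octads (M24.inv_mem hc) hA,
    c⁻¹ • unmask 3416079, Cfsg.Agent.Lib.Helper28.smul_mem_octads (M24.inv_mem hc) hB, ?_, ?_, ?_⟩
  · rw [← card_smul_inter c, smul_inv_smul, hco, card_inter_eq_pcF, mask_stdOctad,
      mask_unmask _ (by norm_num)]
    decide +kernel
  · rw [card_smul_inter, card_inter_eq_pcF, mask_unmask _ (by norm_num),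
      mask_unmask _ (by norm_num)]
    decide +kernel
  · rw [← card_smul_inter c, smul_inv_smul, hco', card_inter_eq_pcF, mask_octB,
      mask_unmask _ (by norm_num)]
    decide +kernel

theorem adj_iff {a b : Finset GolayPt} (ha : a ∈ octads) (hb : b ∈ octads) :
    (blockGraph octads).Adj ⟨a, ha⟩ ⟨b, hb⟩ ↔ (a ∩ b).card = 0 := by
  unfold blockGraph
  rw [SimpleGraph.fromRel_adj]
  constructor
  · rintro ⟨-, h | h⟩
    · exact Finset.card_eq_zero.2 (Finset.disjoint_iff_inter_eq_empty.1 h)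
    · rw [Finset.inter_comm]
      exact Finset.card_eq_zero.2 (Finset.disjoint_iff_inter_eq_empty.1 h)
  · intro h
    have hd : Disjoint a b := Finset.disjoint_iff_inter_eq_empty.2 (Finset.card_eq_zero.1 h)
    refine ⟨?_, Or.inl hd⟩
    intro e
    have e' : a = b := congrArg Subtype.val e
    subst e'
    rw [Finset.inter_self, octad_card ha] at h
    omega

theorem mid_of_len2 {V : Type*} {G : SimpleGraph V} {u v : V} (p : G.Walk u v)
    (hp : p.length = 2) : ∃ w, G.Adj u w ∧ G.Adj w v := by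
  cases p with
  | nil => simp at hp
  | cons h q =>
    cases q with
    | nil => simp at hp
    | cons h' r =>
      cases r with
      | nil => exact ⟨_, h, h'⟩
      | cons _ _ =>
        simp only [SimpleGraph.Walk.length_cons] at hp
        omega

/-- In the graph on the 759 octads of the length-24 code in which two octads are adjacent when they are disjoint, the graph is connected (of diameter 3) and two distinct octads are at distance 1, 2 or 3 exactly when they meet in 0, 4 or 2 points respectively. -/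
theorem result (o o' : Finset Cfsg.GolayPt) (ho : o ∈ Cfsg.octads) (ho' : o' ∈ Cfsg.octads) (hne : o ≠ o') : (Cfsg.blockGraph Cfsg.octads).Connected ∧ ((Cfsg.blockGraph Cfsg.octads).dist ⟨o, ho⟩ ⟨o', ho'⟩ = 1 ↔ (o ∩ o').card = 0) ∧ ((Cfsg.blockGraph Cfsg.octads).dist ⟨o, ho⟩ ⟨o', ho'⟩ = 2 ↔ (o ∩ o').card = 4) ∧ ((Cfsg.blockGraph Cfsg.octads).dist ⟨o, ho⟩ ⟨o', ho'⟩ = 3 ↔ (o ∩ o').card = 2) := by
  have hreach : ∀ (a b : Finset GolayPt) (ha : a ∈ octads) (hb : b ∈ octads),
      (blockGraph octads).Reachable ⟨a, ha⟩ ⟨b, hb⟩ := by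
    intro a b ha hb
    rcases oct_inter_card ha hb with h | h | h | h
    · exact ((adj_iff ha hb).2 h).reachable
    · obtain ⟨x, hx, y, hy, h1, h2, h3⟩ := path2 ha hb h
      exact (((adj_iff ha hx).2 h1).reachable.trans ((adj_iff hx hy).2 h2).reachable).trans
        ((adj_iff hy hb).2 h3).reachable
    · obtain ⟨x, hx, h1, h2⟩ := common4 ha hb h
      exact ((adj_iff ha hx).2 h1).reachable.trans ((adj_iff hx hb).2 h2).reachable
    · have : a = b := octad_eq_of_inter ha hb (by omega)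
      subst this; exact SimpleGraph.Reachable.refl _
  have hconn : (blockGraph octads).Connected :=
    (SimpleGraph.connected_iff _).2 ⟨fun u v => hreach u.1 v.1 u.2 v.2, ⟨⟨o, ho⟩⟩⟩
  have hne' : (⟨o, ho⟩ : octads) ≠ ⟨o', ho'⟩ := fun e => hne (congrArg Subtype.val e)
  have hd0 : (blockGraph octads).dist ⟨o, ho⟩ ⟨o', ho'⟩ ≠ 0 := by
    intro e; exact hne' (hconn.dist_eq_zero_iff.1 e)
  have hd1 : (blockGraph octads).dist ⟨o, ho⟩ ⟨o', ho'⟩ = 1 ↔ (o ∩ o').card = 0 := by
    rw [SimpleGraph.dist_eq_one_iff_adj, adj_iff]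
  rcases oct_inter_card ho ho' with h | h | h | h
  · have e := hd1.2 h
    refine ⟨hconn, hd1, ?_, ?_⟩ <;> constructor <;> intro h' <;> omega
  · have hle : (blockGraph octads).dist ⟨o, ho⟩ ⟨o', ho'⟩ ≤ 3 := by
      obtain ⟨x, hx, y, hy, h1, h2, h3⟩ := path2 ho ho' h
      have := SimpleGraph.dist_le (SimpleGraph.Walk.cons ((adj_iff ho hx).2 h1)
        (SimpleGraph.Walk.cons ((adj_iff hx hy).2 h2)
          (SimpleGraph.Walk.cons ((adj_iff hy ho').2 h3) SimpleGraph.Walk.nil)))
      simpa using this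
    have hn1 : (blockGraph octads).dist ⟨o, ho⟩ ⟨o', ho'⟩ ≠ 1 := fun e => by
      have := hd1.1 e; omega
    have hn2 : (blockGraph octads).dist ⟨o, ho⟩ ⟨o', ho'⟩ ≠ 2 := by
      intro e
      obtain ⟨p, hp⟩ := (hreach o o' ho ho').exists_walk_length_eq_dist
      rw [e] at hp
      obtain ⟨w, hw1, hw2⟩ := mid_of_len2 p hp
      exact nocommon2 ho ho' w.2 h ((adj_iff ho w.2).1 hw1) ((adj_iff w.2 ho').1 hw2)
    have e : (blockGraph octads).dist ⟨o, ho⟩ ⟨o', ho'⟩ = 3 := by omega
    refine ⟨hconn, hd1, ?_, ?_⟩ <;> constructor <;> intro h' <;> omega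
  · have hle : (blockGraph octads).dist ⟨o, ho⟩ ⟨o', ho'⟩ ≤ 2 := by
      obtain ⟨x, hx, h1, h2⟩ := common4 ho ho' h
      have := SimpleGraph.dist_le (SimpleGraph.Walk.cons ((adj_iff ho hx).2 h1)
        (SimpleGraph.Walk.cons ((adj_iff hx ho').2 h2) SimpleGraph.Walk.nil))
      simpa using this
    have hn1 : (blockGraph octads).dist ⟨o, ho⟩ ⟨o', ho'⟩ ≠ 1 := fun e => by
      have := hd1.1 e; omega
    have e : (blockGraph octads).dist ⟨o, ho⟩ ⟨o', ho'⟩ = 2 := by omega
    refine ⟨hconn, hd1, ?_, ?_⟩ <;> constructor <;> intro h' <;> omega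
  · exact absurd (octad_eq_of_inter ho ho' (by omega)) hne

end Cfsg.Agent.S5609
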