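import Cfsg.Statements.S5632
import Cfsg.Agent.Lib.Helper15.ParMax2

set_option autoImplicit false
open Cfsg Cfsg.Agent.Lib.Helper15

namespace Cfsg.Agent.S5632

/-- For a finite field F and subspaces 0 < W < U of F^n with dim W + dim U = n, the elements of SL_n(F) stabilising both W and U form a subgroup that is not maximal in SL_n(F): some subgroup lies strictly between it and SL_n(F). -/
theorem result {F : Type*} [Field F] [Fintype F] (n : ℕ) (W U : Submodule F (Fin n → F)) (hW0 : W ≠ ⊥) (hWU : W < U) (hdim : Module.finrank F W + Module.finrank F U = n) : ∃ K : Subgroup (Matrix.GeneralLinearGroup (Fin n) F), Cfsg.Geo.subspaceStabilizer W ⊓ Cfsg.Geo.subspaceStabilizer U ⊓ Cfsg.Geo.specialLinear (Fin n) F < K ∧ K < Cfsg.Geo.specialLinear (Fin n) F := by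
  have hW1 : W ≠ ⊤ := fun h => by
    rw [h] at hWU
    exact not_top_lt hWU
  have hU1 : U ≠ ⊤ := by
    intro h
    rw [h, finrank_top, Module.finrank_fintype_fun_eq_card, Fintype.card_fin] at hdim
    have : Module.finrank F W = 0 := by omega
    exact hW0 (Submodule.finrank_eq_zero.1 this)
  refine ⟨Cfsg.Geo.subspaceStabilizer W ⊓ Cfsg.Geo.specialLinear (Fin n) F, ?_, ?_⟩
  · apply lt_of_le_of_ne
    · rintro x ⟨⟨h1, -⟩, h3⟩
      exact ⟨h1, h3⟩
    · intro he
      obtain ⟨u, huU, huW⟩ := SetLike.exists_of_lt hWU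
      obtain ⟨y, hy⟩ : ∃ y, y ∉ U := by
        by_contra hc
        push Not at hc
        exact hU1 (eq_top_iff.2 (fun x _ => hc x))
      have hu : u ∉ W ⊔ Submodule.span F {y} := by
        intro hc
        obtain ⟨w, hw, z, hz, rfl⟩ := Submodule.mem_sup.1 hc
        obtain ⟨c, rfl⟩ := Submodule.mem_span_singleton.1 hz
        have h1 : c • y ∈ U := (U.add_mem_iff_right (hWU.le hw)).1 huU
        by_cases hc0 : c = 0
        · subst hc0
          apply huW
          simpa using hw
        · exact hy ((U.smul_mem_iff hc0).1 h1)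
      obtain ⟨f, hf, hfy⟩ := exists_dual_one _ u hu
      have h0 : f y = 0 := hfy y (Submodule.mem_sup_right (Submodule.mem_span_singleton_self _))
      have h1 : tvGL f y h0 ∈ Cfsg.Geo.subspaceStabilizer W ⊓ Cfsg.Geo.specialLinear (Fin n) F := by
        refine ⟨mem_stab_of_forall W _ (fun w hw => ?_), tvGL_mem_SL _ _ _⟩
        rw [tvGL_mulVec, hfy w (Submodule.mem_sup_left hw), zero_smul, add_zero]
        exact hw
      rw [← he] at h1
      have h2 := ((mem_stab_iff' U _).1 h1.1.2 u).1 huU
      rw [tvGL_mulVec, hf, one_smul] at h2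
      exact hy ((U.add_mem_iff_right huU).1 h2)
  · apply lt_of_le_of_ne inf_le_right
    intro he
    obtain ⟨g, hg, hgW⟩ := SL_stab_lt W hW0 hW1
    rw [← he] at hg
    exact hgW hg.1

end Cfsg.Agent.S5632
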