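import Cfsg.Statements.S5633
import Cfsg.Agent.Lib.Helper15.ParMax2

set_option autoImplicit false
open Cfsg Cfsg.Agent.Lib.Helper15

namespace Cfsg.Agent.S5633

/-- For a finite field F and complementary non-zero subspaces W ⊕ U = F^n with dim W < dim U, the elements of SL_n(F) stabilising both W and U form a subgroup that is not maximal in SL_n(F): some subgroup lies strictly between it and SL_n(F). -/
theorem result {F : Type*} [Field F] [Fintype F] (n : ℕ) (W U : Submodule F (Fin n → F)) (hW0 : W ≠ ⊥) (hWU : W ⊓ U = ⊥) (hWU' : W ⊔ U = ⊤) (hdim : Module.finrank F W < Module.finrank F U) : ∃ K : Subgroup (Matrix.GeneralLinearGroup (Fin n) F), Cfsg.Geo.subspaceStabilizer W ⊓ Cfsg.Geo.subspaceStabilizer U ⊓ Cfsg.Geo.specialLinear (Fin n) F < K ∧ K < Cfsg.Geo.specialLinear (Fin n) F := by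
  have hU0 : U ≠ ⊥ := by
    rintro rfl
    simp at hdim
  have hW1 : W ≠ ⊤ := fun h => by
    rw [h, top_inf_eq] at hWU
    exact hU0 hWU
  refine ⟨Cfsg.Geo.subspaceStabilizer W ⊓ Cfsg.Geo.specialLinear (Fin n) F, ?_, ?_⟩
  · apply lt_of_le_of_ne
    · rintro x ⟨⟨h1, -⟩, h3⟩
      exact ⟨h1, h3⟩
    · intro he
      obtain ⟨u, huU, hu0⟩ := Submodule.exists_mem_ne_zero_of_ne_bot hU0
      obtain ⟨w, hw, hw0⟩ := Submodule.exists_mem_ne_zero_of_ne_bot hW0
      have hwU : w ∉ U := by
        intro hc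
        have : w ∈ W ⊓ U := ⟨hw, hc⟩
        rw [hWU, Submodule.mem_bot] at this
        exact hw0 this
      have hu : u ∉ Submodule.span F {w} := by
        intro hc
        obtain ⟨c, rfl⟩ := Submodule.mem_span_singleton.1 hc
        have : c • w ∈ W ⊓ U := ⟨W.smul_mem _ hw, huU⟩
        rw [hWU, Submodule.mem_bot] at this
        exact hu0 this
      obtain ⟨f, hf, hfy⟩ := exists_dual_one _ u hu
      have h0 : f w = 0 := hfy w (Submodule.mem_span_singleton_self _)
      have h1 : tvGL f w h0 ∈ Cfsg.Geo.subspaceStabilizer W ⊓ Cfsg.Geo.specialLinear (Fin n) F := by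
        refine ⟨mem_stab_of_forall W _ (fun x hx => ?_), tvGL_mem_SL _ _ _⟩
        rw [tvGL_mulVec]
        exact W.add_mem hx (W.smul_mem _ hw)
      rw [← he] at h1
      have h2 := ((mem_stab_iff' U _).1 h1.1.2 u).1 huU
      rw [tvGL_mulVec, hf, one_smul] at h2
      exact hwU ((U.add_mem_iff_right huU).1 h2)
  · apply lt_of_le_of_ne inf_le_right
    intro he
    obtain ⟨g, hg, hgW⟩ := SL_stab_lt W hW0 hW1
    rw [← he] at hg
    exact hgW hg.1

end Cfsg.Agent.S5633
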