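import Cfsg.Statements.S5675
import Cfsg.Agent.Lib.Helper15.NdMax5
import Cfsg.Agent.Lib.Helper15.NotMax3
import Cfsg.Agent.Lib.Helper15.Rank3

set_option autoImplicit false
open Cfsg Cfsg.Agent.Lib.Helper15

namespace Cfsg.Agent.S5675

/-- Let F be a finite field of odd order q, m ≥ 6, Q the standard quadratic form on F^(2m+1) and Ω the commutator subgroup of its isometry group. Let W be a non-zero subspace of even dimension on which the polar form of Q is non-degenerate; exclude the case q = 3, dim W = 2 with Q vanishing on some line of W (a plus-type plane). Then the elements of Ω stabilising W (equivalently, stabilising its orthogonal complement, of odd dimension) form a maximal subgroup of Ω. -/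
theorem result {F : Type*} [Field F] [Fintype F] (hodd : Odd (Fintype.card F)) (m : ℕ) (hm : 6 ≤ m) (W : Submodule F (Unit ⊕ (Fin m ⊕ Fin m) → F)) (hW0 : W ≠ ⊥) (hev : Even (Module.finrank F W)) (hW : Cfsg.Geo.IsNondegenerateOn (QuadraticMap.polar (Cfsg.quadFormOdd m F)) W) (hex : ¬ (Fintype.card F = 3 ∧ Module.finrank F W = 2 ∧ Cfsg.Geo.IsPlusTypeOn (Cfsg.quadFormOdd m F) W)) : Cfsg.Geo.IsMaximalIn (Cfsg.Geo.omegaGL (Cfsg.quadFormOdd m F)) (Cfsg.Geo.subspaceStabilizer W ⊓ Cfsg.Geo.omegaGL (Cfsg.quadFormOdd m F)) := by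
  have h2 : (2 : F) ≠ 0 := two_ne_zero_of_odd_card hodd
  rw [← coe_qOdd] at hW hex ⊢
  have hQn := qOdd_nondegenerate h2 m
  have hAB : OPair (qOdd m F) W (LinearMap.BilinForm.orthogonal (QuadraticMap.polarBilin (qOdd m F)) W) :=
    opair_of_nd (qOdd m F) hQn W hW
  have hsum := hAB.finrank_add hQn
  have hcard : Fintype.card (Unit ⊕ (Fin m ⊕ Fin m)) = 2 * m + 1 := by simp; omega
  rw [hcard] at hsum
  obtain ⟨r, hr⟩ := hev
  have hsm : ∀ (c : F) (x : Unit ⊕ (Fin m ⊕ Fin m) → F), (qOdd m F) (c • x) = c * c * (qOdd m F) x := fun c x => by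
    have := QuadraticMap.map_smul (qOdd m F) c x
    rwa [smul_eq_mul] at this
  refine nd_isMaximalIn' (qOdd m F) hQn hAB (by rw [hcard]; omega) hW0 ?_ ?_ ?_ ?_
  · intro hb
    rw [hb, finrank_bot, add_zero] at hsum
    omega
  · rintro ⟨h1, h2', x, hx, hx0, hQx⟩
    refine hex ⟨?_, h2', plusType_of_plane _ hsm W h2' x hx hx0 hQx⟩
    have h3 : 1 < Fintype.card F := Fintype.one_lt_card
    obtain ⟨s, hs⟩ := hodd
    omega
  · rintro ⟨-, h2', -⟩
    omega
  · intro g hg
    have := finrank_map_toEnd (qOdd m F) g W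
    rw [hg] at this
    omega

end Cfsg.Agent.S5675
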