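import Cfsg.Statements.S5689
import Cfsg.Agent.Lib.Helper15.NdMax6

set_option autoImplicit false
open Cfsg Cfsg.Agent.Lib.Helper15

namespace Cfsg.Agent.S5689

/-- Let F be a finite field with q elements, n ≥ 13 even, Q a non-degenerate quadratic form on F^n of minus type (no subspace of dimension n/2 is totally singular), and Ω the commutator subgroup of the isometry group of Q, viewed inside GL_n(F). Let W be a non-zero proper subspace on which the polar form of Q is non-degenerate, not of odd dimension n/2. Exclude the case q ≤ 3 in which W, or its orthogonal complement, is a plane containing a line on which Q vanishes. Then the elements of Ω stabilising W form a maximal subgroup of Ω. -/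
theorem result {F : Type*} [Field F] [Fintype F] {n : ℕ} (hn : 13 ≤ n) (heven : Even n) (Q : (Fin n → F) → F) (hQ : Cfsg.Geo.IsNondegenerateQuadraticForm Q) (hminus : ¬ Cfsg.Geo.IsPlusTypeOn Q ⊤) (W : Submodule F (Fin n → F)) (hW0 : W ≠ ⊥) (hW1 : W ≠ ⊤) (hdim : ¬ (2 * Module.finrank F W = n ∧ Odd (Module.finrank F W))) (hW : Cfsg.Geo.IsNondegenerateOn (QuadraticMap.polar Q) W) (hex : ¬ (Fintype.card F ≤ 3 ∧ (∃ U : Submodule F (Fin n → F), Module.finrank F U = 2 ∧ Cfsg.Geo.IsNondegenerateOn (QuadraticMap.polar Q) U ∧ Cfsg.Geo.IsPlusTypeOn Q U ∧ (U = W ∨ (Cfsg.Geo.AreOrthogonalFor (QuadraticMap.polar Q) U W ∧ Module.finrank F U + Module.finrank F W = n))))) : Cfsg.Geo.IsMaximalIn (Cfsg.Geo.omegaGL Q) (Cfsg.Geo.subspaceStabilizer W ⊓ Cfsg.Geo.omegaGL Q) := by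
  set Qb := bundle Q hQ with hQb
  have hQn := bundle_nondegenerate Q hQ
  have hAB : OPair Qb W (LinearMap.BilinForm.orthogonal (QuadraticMap.polarBilin Qb) W) := opair_of_nd Qb hQn W hW
  have hsum := hAB.finrank_add hQn
  rw [Fintype.card_fin] at hsum
  have hsm : ∀ (c : F) (x : Fin n → F), Q (c • x) = c * c * Q x := fun c x => by
    have := QuadraticMap.map_smul Qb c x
    rwa [smul_eq_mul] at this
  refine nd_isMaximalIn' Qb hQn hAB (by simp; omega) hW0 ?_ ?_ ?_ ?_
  · intro hb
    rw [hb, finrank_bot, add_zero] at hsum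
    apply hW1
    apply Submodule.eq_top_of_finrank_eq
    rw [hsum]; simp
  · rintro ⟨h1, h2, x, hx, hx0, hQx⟩
    exact hex ⟨h1, W, h2, hW, plusType_of_plane Q hsm W h2 x hx hx0 hQx, Or.inl rfl⟩
  · rintro ⟨h1, h2, x, hx, hx0, hQx⟩
    refine hex ⟨h1, _, h2, hAB.symm.nondegenerateOn hQn, plusType_of_plane Q hsm _ h2 x hx hx0 hQx, Or.inr ⟨?_, ?_⟩⟩
    · exact fun u hu v hv => hAB.symm.perp u hu v hv
    · omega
  · intro g hg
    have h1 := finrank_map_toEnd Qb g W
    rw [hg] at h1
    have h2 : 2 * Module.finrank F W = n := by omega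
    have h3 : ¬ Odd (Module.finrank F W) := fun h => hdim ⟨h2, h⟩
    rw [Nat.not_odd_iff_even] at h3
    obtain ⟨m, hm⟩ := h3
    obtain ⟨k, rfl⟩ : ∃ k, m = k + 1 := ⟨m - 1, by omega⟩
    have hnd : (QuadraticMap.polarBilin (Qb.comp W.subtype)).Nondegenerate := by
      have hl : ∀ a : W, (∀ a' : W, QuadraticMap.polar (Qb.comp W.subtype) a a' = 0) → a = 0 := by
        intro a ha
        apply Subtype.ext
        apply hAB.nd_left hQn a a.2
        intro a' ha'
        have := ha ⟨a', ha'⟩
        rw [polar_comp_subtype, QuadraticMap.polar_comm] at this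
        exact this
      refine ⟨hl, ?_⟩
      intro a ha
      apply hl
      intro a'
      rw [QuadraticMap.polar_comm]
      exact ha a'
    obtain ⟨U, hU1, hU2⟩ := ts_of_iso_pair Qb W (toEnd Qb g) (toEnd_isIso Qb g)
      (fun a ha a' ha' => hAB.perp a ha _ (by rw [← hg]; exact ⟨a', ha', rfl⟩)) hnd k (by omega)
    apply hminus
    refine ⟨U, le_top, hU1, ?_⟩
    rw [finrank_top, Module.finrank_fintype_fun_eq_card, Fintype.card_fin]
    omega

end Cfsg.Agent.S5689
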