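import Cfsg.Statements.S5699
import Cfsg.Agent.Lib.Helper15.NdMax5
import Cfsg.Agent.Lib.Helper15.ParMax8

set_option autoImplicit false
open Cfsg Cfsg.Agent.Lib.Helper15

namespace Cfsg.Agent.S5699

/-- Let F be a finite field with q elements, n ≥ 13 even, Q a non-degenerate quadratic form on F^n (of either type), and Ω the commutator subgroup of the isometry group of Q, viewed inside GL_n(F). Let D be a decomposition of F^n into two orthogonal subspaces of odd dimension n/2 on which the polar form is non-degenerate and which are not Q-isometric to each other. Then the elements of Ω permuting (necessarily fixing) the two subspaces form a maximal subgroup of Ω. -/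
theorem result {F : Type*} [Field F] [Fintype F] {n : ℕ} (hn : 13 ≤ n) (heven : Even n) (Q : (Fin n → F) → F) (hQ : Cfsg.Geo.IsNondegenerateQuadraticForm Q) (k : ℕ) (hk : 2 * k = n) (hko : Odd k) (D : Fin 2 → Submodule F (Fin n → F)) (hD : Cfsg.Geo.IsNondegenerateMDecomposition (QuadraticMap.polar Q) k D) (hni : ¬ Cfsg.Geo.AreIsometricFor Q (D 0) (D 1)) : Cfsg.Geo.IsMaximalIn (Cfsg.Geo.omegaGL Q) (Cfsg.Geo.decompositionStabilizer D ⊓ Cfsg.Geo.omegaGL Q) := by
  set Qb := bundle Q hQ with hQb
  have hQn := bundle_nondegenerate Q hQ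
  have hsup : D 0 ⊔ D 1 = ⊤ := by
    rw [← hD.decomp.iSup_eq_top]
    apply le_antisymm (sup_le (le_iSup D 0) (le_iSup D 1))
    apply iSup_le
    intro i
    fin_cases i
    · exact le_sup_left
    · exact le_sup_right
  have hAB : OPair Qb (D 0) (D 1) := ⟨fun a ha b hb => hD.orthogonal 0 1 (by decide) a ha b hb, hsup⟩
  have hk0 := hD.decomp.finrank_eq 0
  have hk1 := hD.decomp.finrank_eq 1
  have hne : ∀ g : isometryGroup F Qb, (D 0).map (toEnd Qb g) ≠ D 1 := by
    intro g hg
    apply hni
    refine ⟨(Submodule.equivMapOfInjective (toEnd Qb g) (toEnd_inj_apply Qb g) (D 0)).trans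
      (LinearEquiv.ofEq _ _ hg), fun w => ?_⟩
    exact toEnd_isIso Qb g w
  have heq : Geo.decompositionStabilizer D ⊓ Geo.omegaGL Q = Geo.subspaceStabilizer (D 0) ⊓ Geo.omegaGL Q := by
    apply le_antisymm
    · rintro x ⟨⟨σ, hσ⟩, hx2⟩
      refine ⟨?_, hx2⟩
      obtain ⟨g, hg, rfl⟩ := (mem_omegaGL_iff Q x).1 hx2
      have h0 := hσ 0
      have hc : σ 0 = 0 ∨ σ 0 = 1 := by
        generalize σ 0 = j
        fin_cases j <;> simp
      rcases hc with hc | hc
      · rw [hc] at h0
        apply (stab_iff_mem (D 0) g).1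
        intro w hw
        have : (Matrix.toLin' ((g : Matrix.GeneralLinearGroup (Fin n) F) : Matrix (Fin n) (Fin n) F)) w ∈ D 0 := by
          rw [← h0]; exact ⟨w, hw, rfl⟩
        rwa [Matrix.toLin'_apply] at this
      · rw [hc] at h0
        exact absurd h0 (hne g)
    · rintro x ⟨hx1, hx2⟩
      refine ⟨?_, hx2⟩
      obtain ⟨g, hg, rfl⟩ := (mem_omegaGL_iff Q x).1 hx2
      have s0 : Stab (D 0) g := (stab_iff_mem (D 0) g).2 hx1
      have s1 : Stab (D 1) g := hAB.stab_right hQn g s0
      apply mem_decompStab_of_forall D k hD.decomp.finrank_eq _ 1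
      intro l y hy
      fin_cases l
      · exact s0 y hy
      · exact s1 y hy
  rw [heq]
  refine nd_isMaximalIn Qb hQn hAB (by omega) ?_ ?_ hne
  · intro hb
    rw [hb, finrank_bot] at hk0
    omega
  · rintro ⟨-, h2, -⟩
    omega

end Cfsg.Agent.S5699
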