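import Cfsg.Statements.S5876
-- import your own Cfsg.Agent.* helpers here

set_option autoImplicit false
open Cfsg

namespace Cfsg.Agent.S5876

open scoped commutatorElement MatrixGroups

section grp
variable {Γ : Type*} [Group Γ]

/-- iterated commutators of a subgroup inside the ambient group -/
def dser (D : Subgroup Γ) : ℕ → Subgroup Γ
  | 0 => D
  | (k+1) => ⁅dser D k, dser D k⁆

theorem dser_normal (D : Subgroup Γ) [D.Normal] : ∀ k, (dser D k).Normal
  | 0 => by simpa [dser]
  | (k+1) => by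
    haveI := dser_normal D k
    show (⁅dser D k, dser D k⁆ : Subgroup Γ).Normal
    infer_instance

theorem dser_le_derived (D : Subgroup Γ) : ∀ k, dser D k ≤ derivedSeries Γ k
  | 0 => by simp [dser]
  | (k+1) => by
    show (⁅dser D k, dser D k⁆ : Subgroup Γ) ≤ ⁅derivedSeries Γ k, derivedSeries Γ k⁆
    exact Subgroup.commutator_mono (dser_le_derived D k) (dser_le_derived D k)

theorem dser_le (D : Subgroup Γ) : ∀ k, dser D k ≤ D
  | 0 => le_refl _
  | (k+1) => by
    show (⁅dser D k, dser D k⁆ : Subgroup Γ) ≤ D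
    rw [Subgroup.commutator_le]
    intro a ha b hb
    have ha' := dser_le D k ha
    have hb' := dser_le D k hb
    exact D.mul_mem (D.mul_mem (D.mul_mem ha' hb') (D.inv_mem ha')) (D.inv_mem hb')

theorem comm_prod {e1 e2 b1 b2 : Γ} (h11 : Commute e1 b1) (h12 : Commute e1 b2) (h21 : Commute e2 b1)
    (h22 : Commute e2 b2) : ⁅e1 * b1, e2 * b2⁆ = ⁅e1, e2⁆ * ⁅b1, b2⁆ := by
  rw [commutatorElement_def, commutatorElement_def, commutatorElement_def]
  have i1 : (e1 * b1)⁻¹ = e1⁻¹ * b1⁻¹ := by rw [h11.eq, mul_inv_rev]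
  have i2 : (e2 * b2)⁻¹ = e2⁻¹ * b2⁻¹ := by rw [h22.eq, mul_inv_rev]
  rw [i1, i2]
  rw [Commute.mul_mul_mul_comm h21.symm e1 b2]
  have c1 : Commute (b1 * b2) e1⁻¹ := (Commute.mul_left h11.symm h12.symm).inv_right
  rw [Commute.mul_mul_mul_comm c1]
  have c2 : Commute (b1 * b2 * b1⁻¹) e2⁻¹ :=
    (Commute.mul_left (Commute.mul_left h21.symm h22.symm) h21.symm.inv_left).inv_right
  rw [Commute.mul_mul_mul_comm c2]

theorem exists_class_two [Finite Γ] [Group.IsSolvable Γ] :
    ∃ B : Subgroup Γ, B.Normal ∧ ⁅B, B⁆ ≤ Subgroup.centralizer (B : Set Γ) ∧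
      Subgroup.centralizer (B : Set Γ) ≤ B := by
  classical
  obtain ⟨B, -, hB⟩ := Finite.exists_le_maximal
    (p := fun B : Subgroup Γ => B.Normal ∧ ⁅B, B⁆ ≤ Subgroup.centralizer (B : Set Γ))
    (a := ⊥) ⟨inferInstance, by simp⟩
  obtain ⟨⟨hBn, hBc⟩, hmax⟩ := hB
  refine ⟨B, hBn, hBc, ?_⟩
  by_contra hD
  haveI := hBn
  set D := Subgroup.centralizer (B : Set Γ) with hDdef
  haveI hDn : D.Normal := by rw [hDdef]; infer_instance
  obtain ⟨N, hN⟩ := (Group.isSolvable_def Γ).mp inferInstance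
  have hex : ∃ k, dser D k ≤ B := ⟨N, by
    have := dser_le_derived D N
    rw [hN] at this
    exact this.trans bot_le⟩
  have hk0 : Nat.find hex ≠ 0 := by
    intro h0
    have := Nat.find_spec hex
    rw [h0] at this
    exact hD this
  obtain ⟨k, hk⟩ := Nat.exists_eq_succ_of_ne_zero hk0
  have hk1 : dser D (k+1) ≤ B := by
    have := Nat.find_spec hex
    rwa [hk] at this
  have hk2 : ¬ dser D k ≤ B := Nat.find_min hex (by omega)
  set E0 := dser D k with hE0
  haveI hE0n : E0.Normal := dser_normal D k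
  have hE0D : E0 ≤ D := dser_le D k
  have hE0c : (⁅E0, E0⁆ : Subgroup Γ) ≤ B := hk1
  have hcomm : ∀ e ∈ E0, ∀ b ∈ B, Commute e b := by
    intro e he b hb
    have := hE0D he
    rw [hDdef, Subgroup.mem_centralizer_iff] at this
    exact (this b hb).symm
  -- the centre of B
  have hZ : ∀ x y, x ∈ E0 ⊔ B → y ∈ E0 ⊔ B → ⁅x, y⁆ ∈ B ⊓ D := by
    intro x y hx hy
    obtain ⟨e1, he1, b1, hb1, rfl⟩ := Subgroup.mem_sup_of_normal_right.mp hx
    obtain ⟨e2, he2, b2, hb2, rfl⟩ := Subgroup.mem_sup_of_normal_right.mp hy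
    rw [comm_prod (hcomm e1 he1 b1 hb1) (hcomm e1 he1 b2 hb2) (hcomm e2 he2 b1 hb1) (hcomm e2 he2 b2 hb2)]
    apply Subgroup.mul_mem
    · refine Subgroup.mem_inf.mpr ⟨hE0c (Subgroup.commutator_mem_commutator he1 he2), ?_⟩
      exact D.mul_mem (D.mul_mem (D.mul_mem (hE0D he1) (hE0D he2)) (D.inv_mem (hE0D he1)))
        (D.inv_mem (hE0D he2))
    · refine Subgroup.mem_inf.mpr ⟨?_, hBc (Subgroup.commutator_mem_commutator hb1 hb2)⟩
      exact B.mul_mem (B.mul_mem (B.mul_mem hb1 hb2) (B.inv_mem hb1)) (B.inv_mem hb2)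
  have hZc : B ⊓ D ≤ Subgroup.centralizer ((E0 ⊔ B : Subgroup Γ) : Set Γ) := by
    rw [Subgroup.le_centralizer_iff]
    apply sup_le
    · refine hE0D.trans ?_
      rw [hDdef]
      exact Subgroup.centralizer_le (by exact_mod_cast (inf_le_left : B ⊓ D ≤ B))
    · rw [← Subgroup.le_centralizer_iff]
      exact inf_le_right
  have hE : (E0 ⊔ B : Subgroup Γ).Normal ∧ ⁅E0 ⊔ B, E0 ⊔ B⁆ ≤
      Subgroup.centralizer ((E0 ⊔ B : Subgroup Γ) : Set Γ) := by
    refine ⟨inferInstance, ?_⟩
    rw [Subgroup.commutator_le]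
    intro x hx y hy
    exact hZc (hZ x y hx hy)
  have := hmax hE le_sup_right
  exact hk2 (le_sup_left.trans this)

end grp

section lin
variable {F : Type*} [Field F] {n : ℕ}

/-- the linear map of an invertible matrix -/
def L (x : GL (Fin n) F) : (Fin n → F) →ₗ[F] (Fin n → F) :=
  Matrix.toLin' (x : Matrix (Fin n) (Fin n) F)

theorem L_mul_apply (x y : GL (Fin n) F) (v : Fin n → F) : L (x * y) v = L x (L y v) := by
  simp [L, Matrix.toLin'_mul]

theorem L_one_apply (v : Fin n → F) : L (1 : GL (Fin n) F) v = v := by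
  simp [L]

theorem L_inv_apply (x : GL (Fin n) F) (v : Fin n → F) : L x⁻¹ (L x v) = v := by
  rw [← L_mul_apply, inv_mul_cancel, L_one_apply]

theorem L_apply_inv (x : GL (Fin n) F) (v : Fin n → F) : L x (L x⁻¹ v) = v := by
  rw [← L_mul_apply, mul_inv_cancel, L_one_apply]

theorem L_injective (x : GL (Fin n) F) : Function.Injective (L x) := by
  intro v w h
  rw [← L_inv_apply x v, h, L_inv_apply]

theorem eq_one_of_L (x : GL (Fin n) F) (h : ∀ v, L x v = v) : x = 1 := by
  apply Units.ext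
  apply Matrix.toLin'.injective
  ext1 v
  simpa [L] using congrArg (fun f => f) (LinearMap.ext (f := L x ∘ₗ LinearMap.single F (fun _ => F) v) (g := LinearMap.single F (fun _ => F) v) (fun c => h _))

/-- fixed space of an element -/
def fix (x : GL (Fin n) F) : Submodule F (Fin n → F) := Module.End.eigenspace (L x) 1

theorem mem_fix {x : GL (Fin n) F} {v : Fin n → F} : v ∈ fix x ↔ L x v = v := by
  rw [fix, Module.End.mem_eigenspace_iff, one_smul]

/-- fixed space of a subgroup -/
def Fix (B : Subgroup (GL (Fin n) F)) : Submodule F (Fin n → F) where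
  carrier := {v | ∀ b ∈ B, L b v = v}
  add_mem' := by
    intro a b ha hb x hx
    rw [map_add, ha x hx, hb x hx]
  zero_mem' := by
    intro x _
    rw [map_zero]
  smul_mem' := by
    intro c v hv x hx
    rw [map_smul, hv x hx]

theorem mem_Fix {B : Subgroup (GL (Fin n) F)} {v : Fin n → F} : v ∈ Fix B ↔ ∀ b ∈ B, L b v = v :=
  Iff.rfl

/-- pointwise stabiliser of a subspace -/
def PS (U : Submodule F (Fin n → F)) : Subgroup (GL (Fin n) F) where
  carrier := {x | ∀ v ∈ U, L x v = v}
  mul_mem' := by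
    intro x y hx hy v hv
    rw [L_mul_apply, hy v hv, hx v hv]
  one_mem' := by
    intro v _
    rw [L_one_apply]
  inv_mem' := by
    intro x hx v hv
    conv_lhs => rw [← hx v hv]
    rw [L_inv_apply]

theorem mem_PS {U : Submodule F (Fin n → F)} {x : GL (Fin n) F} : x ∈ PS U ↔ ∀ v ∈ U, L x v = v :=
  Iff.rfl

theorem map_Fix (g : GL (Fin n) F) (B : Subgroup (GL (Fin n) F)) :
    (Fix B).map (L g) = Fix (B.map (MulAut.conj g).toMonoidHom) := by
  ext v
  constructor
  · rintro ⟨w, hw, rfl⟩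
    rintro _ ⟨b, hb, rfl⟩
    show L (g * b * g⁻¹) (L g w) = L g w
    rw [L_mul_apply, L_mul_apply, L_inv_apply, hw b hb]
  · intro hv
    refine ⟨L g⁻¹ v, ?_, L_apply_inv g v⟩
    intro b hb
    have := hv (g * b * g⁻¹) ⟨b, hb, rfl⟩
    rw [L_mul_apply, L_mul_apply] at this
    conv_rhs => rw [← this]
    rw [L_inv_apply]

theorem map_fix (h g : GL (Fin n) F) : (fix g).map (L h) = fix (h * g * h⁻¹) := by
  ext v
  constructor
  · rintro ⟨w, hw, rfl⟩
    rw [mem_fix, L_mul_apply, L_mul_apply, L_inv_apply, mem_fix.mp hw]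
  · intro hv
    refine ⟨L h⁻¹ v, ?_, L_apply_inv h v⟩
    have := mem_fix.mp hv
    rw [L_mul_apply, L_mul_apply] at this
    show L h⁻¹ v ∈ fix g
    rw [mem_fix]
    conv_rhs => rw [← this]
    rw [L_inv_apply]

theorem finrank_map_L (h : GL (Fin n) F) (W : Submodule F (Fin n → F)) :
    Module.finrank F (W.map (L h)) = Module.finrank F W :=
  (Submodule.equivMapOfInjective (L h) (L_injective h) W).finrank_eq.symm

theorem dim_comm (g h : GL (Fin n) F) :
    2 * Module.finrank F (fix g) ≤ n + Module.finrank F (fix ⁅g, h⁆) := by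
  have h1 : Module.finrank F (fix (h * g * h⁻¹)) = Module.finrank F (fix g) := by
    rw [← map_fix, finrank_map_L]
  have h2 : fix g ⊓ fix (h * g * h⁻¹) ≤ fix ⁅g, h⁆ := by
    intro v hv
    obtain ⟨hv1, hv2⟩ := Submodule.mem_inf.mp hv
    rw [mem_fix] at hv1 hv2 ⊢
    have e : ⁅g, h⁆ = g * (h * g * h⁻¹)⁻¹ := by
      rw [commutatorElement_def]; group
    rw [e, L_mul_apply]
    have : L (h * g * h⁻¹)⁻¹ v = v := by
      conv_lhs => rw [← hv2]
      rw [L_inv_apply]
    rw [this, hv1]
  have h3 := Submodule.finrank_sup_add_finrank_inf_eq (fix g) (fix (h * g * h⁻¹))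
  have h4 : Module.finrank F ((fix g ⊔ fix (h * g * h⁻¹) : Submodule F (Fin n → F))) ≤ n := by
    have := Submodule.finrank_le (fix g ⊔ fix (h * g * h⁻¹) : Submodule F (Fin n → F))
    simpa using this
  have h5 := Submodule.finrank_mono h2
  omega

theorem indep {ι : Type*} (A : Subgroup (GL (Fin n) F)) (hcomm : ∀ a ∈ A, ∀ b ∈ A, a * b = b * a)
    (Bs : ι → Subgroup (GL (Fin n) F)) (hBs : ∀ i, Bs i ≤ A)
    (hdis : ∀ i j, i ≠ j → Fix (Bs i) ⊓ Fix (Bs j) = ⊥) : iSupIndep (fun i => Fix (Bs i)) := by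
  classical
  rw [iSupIndep_iff_finsetSum_eq_zero_imp_eq_zero]
  intro s
  induction s using Finset.induction_on with
  | empty => intro v _ _ i hi; simp at hi
  | insert k s hk ih =>
    intro v hv hsum
    rw [Finset.sum_insert hk] at hsum
    have key : ∀ i ∈ s, v i = 0 := by
      have h1 : ∀ b ∈ Bs k, ∀ i ∈ s, L b (v i) - v i = 0 := by
        intro b hb
        apply ih (fun i => L b (v i) - v i)
        · intro i hi
          have hvi := hv i (Finset.mem_insert_of_mem hi)
          apply Submodule.sub_mem _ _ hvi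
          intro c hc
          rw [← L_mul_apply, hcomm c (hBs i hc) b (hBs k hb), L_mul_apply, hvi c hc]
        · rw [Finset.sum_sub_distrib, ← map_sum]
          have hvk : L b (v k) = v k := hv k (Finset.mem_insert_self k s) b hb
          have h2 := congrArg (L b) hsum
          rw [map_add, map_zero, hvk] at h2
          have : L b (∑ i ∈ s, v i) = ∑ i ∈ s, v i := by
            have e1 : L b (∑ i ∈ s, v i) = - v k := by rw [eq_neg_iff_add_eq_zero, add_comm]; exact h2
            have e2 : ∑ i ∈ s, v i = - v k := by rw [eq_neg_iff_add_eq_zero, add_comm]; exact hsum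
            rw [e1, e2]
          rw [this, sub_self]
      intro i hi
      have hik : i ≠ k := fun h => hk (h ▸ hi)
      have : v i ∈ Fix (Bs i) ⊓ Fix (Bs k) := by
        refine Submodule.mem_inf.mpr ⟨hv i (Finset.mem_insert_of_mem hi), ?_⟩
        intro b hb
        exact sub_eq_zero.mp (h1 b hb i hi)
      rw [hdis i k hik] at this
      exact (Submodule.mem_bot F).mp this
    intro i hi
    rcases Finset.mem_insert.mp hi with rfl | hi
    · rw [Finset.sum_eq_zero key, add_zero] at hsum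
      exact hsum
    · exact key i hi

theorem L_mul (x y : GL (Fin n) F) : L (x * y) = L x ∘ₗ L y := by
  apply LinearMap.ext
  intro v
  exact L_mul_apply x y v

theorem map_map_L (g h : GL (Fin n) F) (W : Submodule F (Fin n → F)) :
    (W.map (L h)).map (L g) = W.map (L (g * h)) := by
  rw [L_mul, Submodule.map_comp]

theorem card_conj (g : GL (Fin n) F) (B : Subgroup (GL (Fin n) F)) :
    Nat.card (B.map (MulAut.conj g).toMonoidHom) = Nat.card B :=
  Subgroup.card_map_of_injective (MulAut.conj g).injective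

theorem fpf [Fintype F] (G A : Subgroup (GL (Fin n) F))
    (hirr : Cfsg.Geo.ActsIrreducibly (Cfsg.Geo.matrixSet G))
    (hprim : ∀ (m t : ℕ) (D : Fin t → Submodule F (Fin n → F)), 2 ≤ t → Cfsg.Geo.IsMDecomposition m D →
      ¬ G ≤ Cfsg.Geo.decompositionStabilizer D)
    (hnorm : ∀ g ∈ G, ∀ a ∈ A, g * a * g⁻¹ ∈ A) (hcomm : ∀ a ∈ A, ∀ b ∈ A, a * b = b * a)
    (a : GL (Fin n) F) (ha : a ∈ A) (ha1 : a ≠ 1) : fix a = ⊥ := by
  classical
  by_contra hne
  haveI : Finite (GL (Fin n) F) := inferInstance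
  let P : Subgroup (GL (Fin n) F) → Prop := fun B => B ≤ A ∧ Fix B ≠ ⊥
  have hP0 : P (A ⊓ PS (fix a)) := by
    refine ⟨inf_le_left, ?_⟩
    apply ne_bot_of_le_ne_bot hne
    intro v hv b hb
    exact (Subgroup.mem_inf.mp hb).2 v hv
  haveI : Nonempty {B // P B} := ⟨⟨_, hP0⟩⟩
  obtain ⟨⟨B, hPB⟩, hBmax⟩ := Finite.exists_max (fun B : {B // P B} => Nat.card B.1)
  have hBmax' : ∀ C, P C → Nat.card C ≤ Nat.card B := fun C hC => hBmax ⟨C, hC⟩
  have hBne : B ≠ ⊥ := by
    intro hB
    have h1 := hBmax' _ hP0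
    rw [hB, Subgroup.card_bot] at h1
    have h2 : (A ⊓ PS (fix a)) = ⊥ := by
      apply (Subgroup.card_eq_one).mp
      have := Nat.card_pos (α := (A ⊓ PS (fix a) : Subgroup (GL (Fin n) F)))
      omega
    have h3 : a ∈ A ⊓ PS (fix a) := Subgroup.mem_inf.mpr ⟨ha, fun v hv => mem_fix.mp hv⟩
    rw [h2] at h3
    exact ha1 (Subgroup.mem_bot.mp h3)
  have hPconj : ∀ g ∈ G, ∀ C, P C → P (C.map (MulAut.conj g).toMonoidHom) := by
    intro g hg C hC
    refine ⟨?_, ?_⟩
    · rintro _ ⟨c, hc, rfl⟩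
      exact hnorm g hg c (hC.1 hc)
    · rw [← map_Fix]
      obtain ⟨v, hv, hv0⟩ := (Submodule.ne_bot_iff _).mp hC.2
      apply (Submodule.ne_bot_iff _).mpr
      refine ⟨L g v, ⟨v, hv, rfl⟩, ?_⟩
      intro h0
      apply hv0
      apply L_injective g
      rw [h0, map_zero]
  -- two conjugates with intersecting fixed spaces are equal
  have hdis : ∀ g1 ∈ G, ∀ g2 ∈ G, Fix (B.map (MulAut.conj g1).toMonoidHom) ⊓
      Fix (B.map (MulAut.conj g2).toMonoidHom) ≠ ⊥ →
      B.map (MulAut.conj g1).toMonoidHom = B.map (MulAut.conj g2).toMonoidHom := by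
    intro g1 hg1 g2 hg2 hne'
    set B1 := B.map (MulAut.conj g1).toMonoidHom with hB1
    set B2 := B.map (MulAut.conj g2).toMonoidHom with hB2
    have hP12 : P (B1 ⊔ B2) := by
      refine ⟨sup_le (hPconj g1 hg1 B hPB).1 (hPconj g2 hg2 B hPB).1, ?_⟩
      apply ne_bot_of_le_ne_bot hne'
      intro v hv
      have hle : B1 ⊔ B2 ≤ PS (Fix B1 ⊓ Fix B2) := by
        apply sup_le
        · intro b hb w hw
          exact (Submodule.mem_inf.mp hw).1 b hb
        · intro b hb w hw
          exact (Submodule.mem_inf.mp hw).2 b hb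
      intro b hb
      exact hle hb v hv
    have hc := hBmax' _ hP12
    have e1 : B1 = B1 ⊔ B2 := Subgroup.eq_of_le_of_card_ge le_sup_left (by rw [hB1, card_conj]; exact hc)
    have e2 : B2 = B1 ⊔ B2 := Subgroup.eq_of_le_of_card_ge le_sup_right (by rw [hB2, card_conj]; exact hc)
    rw [e1, ← e2]
  -- the family of conjugates of W
  let Wset : Set (Submodule F (Fin n → F)) := Set.range (fun g : G => (Fix B).map (L (g : GL (Fin n) F)))
  haveI : Finite Wset := Set.finite_range _
  let t := Nat.card Wset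
  let e : Wset ≃ Fin t := Finite.equivFin Wset
  let D : Fin t → Submodule F (Fin n → F) := fun i => (e.symm i).1
  have hDex : ∀ i, ∃ g : G, (Fix B).map (L (g : GL (Fin n) F)) = D i := fun i => (e.symm i).2
  choose γ hγ using hDex
  let Bs : Fin t → Subgroup (GL (Fin n) F) := fun i => B.map (MulAut.conj (γ i : GL (Fin n) F)).toMonoidHom
  have hDB : D = fun i => Fix (Bs i) := by
    funext i
    rw [← hγ i, map_Fix]
  have hindep : iSupIndep D := by
    rw [hDB]
    apply indep A hcomm Bs (fun i => (hPconj _ (γ i).2 B hPB).1)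
    intro i j hij
    by_contra hne'
    have := hdis _ (γ i).2 _ (γ j).2 hne'
    apply hij
    have h2 : D i = D j := by
      rw [hDB]
      show Fix (Bs i) = Fix (Bs j)
      show Fix (B.map (MulAut.conj (γ i : GL (Fin n) F)).toMonoidHom) = Fix (B.map (MulAut.conj (γ j : GL (Fin n) F)).toMonoidHom)
      rw [this]
    exact e.symm.injective (Subtype.ext h2)
  -- permutation action
  have hperm : ∀ g ∈ G, ∃ σ : Equiv.Perm (Fin t), ∀ i, (D i).map (L g) = D (σ i) := by
    intro g hg
    let φ : Wset → Wset := fun U => ⟨U.1.map (L g), by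
      obtain ⟨h, hh⟩ := U.2
      refine ⟨⟨g, hg⟩ * h, ?_⟩
      show (Fix B).map (L (g * (h : GL (Fin n) F))) = U.1.map (L g)
      rw [← hh, map_map_L]⟩
    have hφ : Function.Injective φ := by
      intro U1 U2 h
      apply Subtype.ext
      exact Submodule.map_injective_of_injective (L_injective g) (congrArg Subtype.val h)
    have hφb : Function.Bijective φ := Finite.injective_iff_bijective.mp hφ
    refine ⟨e.symm.trans ((Equiv.ofBijective φ hφb).trans e), ?_⟩
    intro i
    show (D i).map (L g) = (e.symm (e (φ (e.symm i)))).1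
    rw [Equiv.symm_apply_apply]
  have hstab : G ≤ Cfsg.Geo.decompositionStabilizer D := by
    intro g hg
    exact hperm g hg
  have hWne : Fix B ≠ ⊥ := hPB.2
  have hrank : ∀ i, Module.finrank F (D i) = Module.finrank F (Fix B) := by
    intro i
    rw [← hγ i, finrank_map_L]
  have hmpos : 0 < Module.finrank F (Fix B) := by
    apply Nat.pos_of_ne_zero
    intro h0
    exact hWne (Submodule.finrank_eq_zero.mp h0)
  have htpos : 0 < t := by
    haveI : Nonempty Wset := ⟨⟨_, ⟨1, rfl⟩⟩⟩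
    exact Nat.card_pos
  let i0 : Fin t := ⟨0, htpos⟩
  have hsup : iSup D = ⊤ := by
    have hinv : ∀ s ∈ Cfsg.Geo.matrixSet G, (iSup D).map (Matrix.toLin' s) ≤ iSup D := by
      rintro _ ⟨g, hg, rfl⟩
      rw [Submodule.map_iSup]
      apply iSup_le
      intro i
      obtain ⟨σ, hσ⟩ := hperm g hg
      have := hσ i
      show (D i).map (L g) ≤ iSup D
      rw [this]
      exact le_iSup D (σ i)
    rcases hirr (iSup D) hinv with h | h
    · exfalso
      have h1 : D i0 ≤ ⊥ := h ▸ le_iSup D i0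
      have h2 : D i0 = ⊥ := le_bot_iff.mp h1
      have h3 := hrank i0
      rw [h2, finrank_bot] at h3
      omega
    · exact h
  by_cases ht : 2 ≤ t
  · exact hprim _ t D ht ⟨ht, hmpos, hrank, hindep, hsup⟩ hstab
  · have hsub : ∀ i, D i = D i0 := by
      intro i
      congr 1
      apply Fin.ext
      have := i.2
      show (i : ℕ) = 0
      omega
    have htop : D i0 = ⊤ := by
      apply top_le_iff.mp
      rw [← hsup]
      exact iSup_le (fun i => (hsub i).le)
    apply hBne
    rw [Subgroup.eq_bot_iff_forall]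
    intro b hb
    have h1 : (γ i0 : GL (Fin n) F) * b * (γ i0 : GL (Fin n) F)⁻¹ = 1 := by
      apply eq_one_of_L
      intro v
      have hv : v ∈ D i0 := by rw [htop]; trivial
      rw [hDB] at hv
      exact hv _ ⟨b, hb, rfl⟩
    have h2 : (γ i0 : GL (Fin n) F) * b = (γ i0 : GL (Fin n) F) := by
      rwa [mul_inv_eq_one] at h1
    exact mul_eq_left.mp h2

end lin


/-- Fixed-point spaces in primitive soluble linear groups. Let F be a finite field and G a soluble subgroup of GL_n(F) that acts irreducibly on F^n and primitively (G preserves no decomposition of F^n into two or more independent subspaces of equal dimension). Then every non-identity element g of G has fixed-point space {v : g v = v} of dimension at most 3n/4. -/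
theorem result {F : Type*} [Field F] [Fintype F] {n : ℕ} (G : Subgroup (Matrix.GeneralLinearGroup (Fin n) F)) (hsol : IsSolvable G) (hirr : Cfsg.Geo.ActsIrreducibly (Cfsg.Geo.matrixSet G)) (hprim : ∀ (m t : ℕ) (D : Fin t → Submodule F (Fin n → F)), 2 ≤ t → Cfsg.Geo.IsMDecomposition m D → ¬ G ≤ Cfsg.Geo.decompositionStabilizer D) (g : Matrix.GeneralLinearGroup (Fin n) F) (hg : g ∈ G) (hg1 : g ≠ 1) :
    4 * Module.finrank F (Module.End.eigenspace (Matrix.toLin' (g : Matrix (Fin n) (Fin n) F)) 1) ≤ 3 * n := by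
  classical
  haveI : Group.IsSolvable G := hsol
  haveI : Finite G := inferInstance
  obtain ⟨B, hBn, hBc, hCB⟩ := exists_class_two (Γ := G)
  haveI := hBn
  have hAn : (Subgroup.centralizer (B : Set G)).Normal := inferInstance
  have hfpf : ∀ x : G, x ∈ Subgroup.centralizer (B : Set G) → x ≠ 1 → fix (x : GL (Fin n) F) = ⊥ := by
    intro x hx hx1
    apply fpf G ((Subgroup.centralizer (B : Set G)).map G.subtype) hirr hprim
    · rintro k hk _ ⟨a, ha, rfl⟩
      have h0 := hAn.conj_mem a ha (⟨k, hk⟩ : G)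
      refine Subgroup.mem_map.mpr ⟨_, h0, ?_⟩
      simp
    · rintro _ ⟨a, ha, rfl⟩ _ ⟨b, hb, rfl⟩
      have h1 : b * a = a * b := (Subgroup.mem_centralizer_iff.mp ha) b (hCB hb)
      exact congrArg Subtype.val h1.symm
    · exact ⟨x, hx, rfl⟩
    · intro h
      exact hx1 (Subtype.ext h)
  have hnc : ∀ x : G, x ∉ Subgroup.centralizer (B : Set G) → ∃ b ∈ B, ⁅x, b⁆ ≠ 1 := by
    intro x hx
    by_contra hcon
    push_neg at hcon
    apply hx
    rw [Subgroup.mem_centralizer_iff]
    intro b hb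
    have := hcon b hb
    rw [commutatorElement_eq_one_iff_mul_comm] at this
    exact this.symm
  have hcoe : ∀ x y : G, ((⁅x, y⁆ : G) : GL (Fin n) F) = ⁅(x : GL (Fin n) F), (y : GL (Fin n) F)⁆ := by
    intro x y
    simp [commutatorElement_def]
  show 4 * Module.finrank F (fix g) ≤ 3 * n
  by_cases h1 : (⟨g, hg⟩ : G) ∈ Subgroup.centralizer (B : Set G)
  · have := hfpf ⟨g, hg⟩ h1 (fun h => hg1 (congrArg Subtype.val h))
    have h2 : fix g = ⊥ := this
    rw [h2, finrank_bot]
    omega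
  · obtain ⟨b, hb, hxb⟩ := hnc _ h1
    have hxB : ⁅(⟨g, hg⟩ : G), b⁆ ∈ B := by
      rw [commutatorElement_def, mul_assoc, mul_assoc]
      have h3 : (⟨g, hg⟩ : G) * (b * ((⟨g, hg⟩ : G)⁻¹ * b⁻¹)) = ((⟨g, hg⟩ : G) * b * (⟨g, hg⟩ : G)⁻¹) * b⁻¹ := by
        group
      rw [h3]
      exact B.mul_mem (hBn.conj_mem b hb _) (B.inv_mem hb)
    have d1 := dim_comm g (b : GL (Fin n) F)
    rw [← hcoe ⟨g, hg⟩ b] at d1
    by_cases h2 : ⁅(⟨g, hg⟩ : G), b⁆ ∈ Subgroup.centralizer (B : Set G)
    · have := hfpf _ h2 hxb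
      rw [this, finrank_bot] at d1
      omega
    · obtain ⟨y, hy, hxy⟩ := hnc _ h2
      have h3 : ⁅⁅(⟨g, hg⟩ : G), b⁆, y⁆ ∈ Subgroup.centralizer (B : Set G) :=
        hBc (Subgroup.commutator_mem_commutator hxB hy)
      have d2 := dim_comm ((⁅(⟨g, hg⟩ : G), b⁆ : G) : GL (Fin n) F) (y : GL (Fin n) F)
      rw [← hcoe, hfpf _ h3 hxy, finrank_bot] at d2
      omega

end Cfsg.Agent.S5876
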