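import Cfsg.Statements.S5944

set_option autoImplicit false
open Cfsg

namespace Cfsg.Agent.S5944

theorem result (n : ℕ) (hn : n ≠ 4) (H : Subgroup (Equiv.Perm (Fin n))) (hH : H ≠ ⊤) (hA : H ≠ alternatingGroup (Fin n)) : n ≤ H.index := by
  have h0 : H.index ≠ 0 := Subgroup.index_ne_zero_of_finite
  have h1 : H.index ≠ 1 := fun h => hH (Subgroup.index_eq_one.mp h)
  have h2 : H.index ≠ 2 := fun h => hA (Equiv.Perm.eq_alternatingGroup_of_index_eq_two h)
  by_cases h5 : n < 5
  · omega
  · push Not at h5
    by_contra hlt
    push Not at hlt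
    by_cases hN : H.normalCore = ⊥
    · have h : H.normalCore.index ∣ H.index.factorial := by
        rw [Subgroup.normalCore_eq_ker, Subgroup.index_ker, Subgroup.index_eq_card, ← Nat.card_perm]
        exact Subgroup.card_subgroup_dvd_card (MulAction.toPermHom _ (_ ⧸ H)).range
      rw [hN, Subgroup.index_bot, Nat.card_perm, Nat.card_eq_fintype_card, Fintype.card_fin] at h
      have h3 := Nat.le_of_dvd (Nat.factorial_pos _) h
      have h4 := (Nat.factorial_lt (Nat.pos_of_ne_zero h0)).mpr hlt
      omega
    · have hnt : Nontrivial H.normalCore := (Subgroup.nontrivial_iff_ne_bot _).mpr hN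
      have hle : alternatingGroup (Fin n) ≤ H :=
        (Equiv.Perm.alternatingGroup_le_of_normal (by simpa using h5) hnt).trans H.normalCore_le
      have hdvd := Subgroup.index_dvd_of_le hle
      haveI : Nontrivial (Fin n) := Fin.nontrivial_iff_two_le.mpr (by omega)
      rw [alternatingGroup.index_eq_two] at hdvd
      have := Nat.le_of_dvd (by norm_num) hdvd
      omega

end Cfsg.Agent.S5944
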