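import Cfsg.Statements.S5952
import Cfsg.Agent.Lib.Helper29.InvDim
-- import your own Cfsg.Agent.* helpers here

set_option autoImplicit false
open Cfsg

namespace Cfsg.Agent.S5952

/-- Which dimensions of invariant subspaces a semisimple linear map has. Let `V` be a finite-dimensional vector space over a field `F` and `f` an invertible semisimple linear map of `V`. Suppose `V` is the internal direct sum of the fixed space `C_V(f)` (the eigenspace for 1) and subspaces `U_1, …, U_s`, each `f`-invariant of dimension `a ≥ 1` on which `f` acts irreducibly (no `f`-invariant subspaces other than 0 and `U_j`). Let `0 < m < dim V` and `ℓ = m mod a`. Then `f` leaves some `m`-dimensional subspace invariant if and only if `dim C_V(f) ≥ m`, or `a ≤ m` and `dim C_V(f) ≥ ℓ`. -/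
theorem result {F V : Type*} [Field F] [AddCommGroup V] [Module F V]
    [FiniteDimensional F V] (f : V →ₗ[F] V) (hf : Function.Bijective f) (hss : Module.End.IsSemisimple f)
    {s a : ℕ} (ha : 1 ≤ a) (U : Fin s → Submodule F V)
    (hUinv : ∀ j, (U j).map f ≤ U j) (hUdim : ∀ j, Module.finrank F ↥(U j) = a)
    (hUirr : ∀ j, ∀ W : Submodule F V, W ≤ U j → W.map f ≤ W → W = ⊥ ∨ W = U j)
    (hdec : DirectSum.IsInternal (fun o : Option (Fin s) => o.elim (Module.End.eigenspace f 1) U))
    (m : ℕ) (hm : 0 < m) (hmV : m < Module.finrank F V) :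
    (∃ W : Submodule F V, Module.finrank F ↥W = m ∧ W.map f ≤ W) ↔
    (m ≤ Module.finrank F ↥(Module.End.eigenspace f 1) ∨
      (a ≤ m ∧ m % a ≤ Module.finrank F ↥(Module.End.eigenspace f 1))) := by
  obtain ⟨U', hU'⟩ : ∃ U' : ℕ → Submodule F V, ∀ k, U' k = if h : k < s then U ⟨k, h⟩ else ⊥ :=
    ⟨_, fun _ => rfl⟩
  have hlt : ∀ (k : ℕ) (h : k < s), U' k = U ⟨k, h⟩ := by
    intro k h; rw [hU', dif_pos h]
  have hge : ∀ k : ℕ, ¬ k < s → U' k = ⊥ := by
    intro k h; rw [hU', dif_neg h]
  have hind := hdec.submodule_iSupIndep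
  have htop := hdec.submodule_iSup_eq_top
  have hle : ∀ (k : ℕ) (j : Fin s), k ≤ j.val →
      Cfsg.Agent.Lib.Helper29.chainSup (Module.End.eigenspace f 1) U' k ≤
        ⨆ (o : Option (Fin s)) (_ : o ≠ some j), o.elim (Module.End.eigenspace f 1) U := by
    intro k
    induction k with
    | zero =>
      intro j _
      exact le_iSup₂_of_le (f := fun (o : Option (Fin s)) (_ : o ≠ some j) =>
        o.elim (Module.End.eigenspace f 1) U) none (by simp) le_rfl
    | succ k ih =>
      intro j hj
      refine sup_le (ih j (by omega)) ?_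
      have hk : k < s := by have := j.2; omega
      rw [hlt k hk]
      exact le_iSup₂_of_le (f := fun (o : Option (Fin s)) (_ : o ≠ some j) =>
        o.elim (Module.End.eigenspace f 1) U) (some ⟨k, hk⟩) (by
          intro h
          have h2 := congrArg Fin.val (Option.some.inj h)
          simp at h2
          omega) le_rfl
  apply Cfsg.Agent.Lib.Helper29.inv_dim_main f (Module.End.eigenspace f 1) ?_ U' (s := s) (a := a) ?_ ?_ ?_ ?_ ?_ m hmV
  · intro x hx
    have := Module.End.mem_eigenspace_iff.mp hx
    simpa using this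
  · intro k
    by_cases h : k < s
    · rw [hlt k h]; exact hUinv _
    · rw [hge k h]; simp
  · intro k h
    rw [hlt k h]; exact hUdim _
  · intro k h
    rw [hlt k h]; exact hUirr _
  · intro k h
    have h1 := hind (some ⟨k, h⟩)
    rw [hlt k h]
    exact le_bot_iff.mp ((inf_le_inf_right _ (hle k ⟨k, h⟩ le_rfl)).trans (disjoint_iff.mp h1.symm).le)
  · rw [eq_top_iff, ← htop]
    refine iSup_le fun o => ?_
    rcases o with _ | j
    · exact Cfsg.Agent.Lib.Helper29.chainSup_mono (Module.End.eigenspace f 1) U' (Nat.zero_le s)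
    · have h1 : U j ≤ Cfsg.Agent.Lib.Helper29.chainSup (Module.End.eigenspace f 1) U' (j.val + 1) := by
        have h2 : U' j.val = U j := hlt j.val j.2
        rw [← h2]
        exact le_sup_right
      exact h1.trans (Cfsg.Agent.Lib.Helper29.chainSup_mono _ U' j.2)

end Cfsg.Agent.S5952
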